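import Cfsg.Statements.S4511
import Cfsg.Agent.Lib.Helper24.SectionSum
import Cfsg.Agent.Lib.Helper24.BlockRank

set_option autoImplicit false
open Cfsg

namespace Cfsg.Agent.S4511

open Cfsg.Agent.Lib.Helper7 Cfsg.Agent.Lib.Helper24
open scoped ComplexConjugate

theorem finsum_blockRank {G : Type*} [Group G] [Fintype G] {p : ℕ} {M : Ideal AlgInt}
    (hM : IsPModular p M) (H : Subgroup G) (B : Set (IrrCharacter G)) :
    ∑ᶠ b ∈ {b : Set (IrrCharacter H) | IsInducedBlock M H b B}, blockRank p b
      = blockRank p (indSet M H B) := by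
  classical
  haveI := hM.2.1.isPrime
  haveI := Fintype.ofFinite H
  haveI := Fintype.ofFinite (IrrCharacter H)
  have hI : {b : Set (IrrCharacter H) | IsInducedBlock M H b B}
      = ↑((Finset.univ.image (fun ψ : IrrCharacter H => blockOf M (ψ : H → ℂ))).filter
        (fun b => IsInducedBlock M H b B)) := by
    ext b
    simp only [Set.mem_ofPred_eq, Finset.coe_filter, Finset.mem_image, Finset.mem_univ, true_and]
    constructor
    · intro hb
      obtain ⟨ψ, hψ⟩ := isPBlock_nonempty hb.1
      exact ⟨⟨ψ, (isPBlock_eq_blockOf hb.1 hψ).symm⟩, hb⟩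
    · intro hb
      exact hb.2
  rw [hI, finsum_mem_coe_finset]
  apply Nat.cast_injective (R := ℂ)
  rw [Nat.cast_sum, blockRank_eq_sum hM (isBlockUnion_indSet H B), sum_eq_sum_blocks (M := M),
    Finset.sum_filter]
  apply Finset.sum_congr rfl
  intro b hb
  obtain ⟨ψ₀, _, rfl⟩ := Finset.mem_image.1 hb
  by_cases hind : IsInducedBlock M H (blockOf M (ψ₀ : H → ℂ)) B
  · rw [if_pos hind, blockRank_eq_sum hM (isBlockUnion_of_isPBlock ⟨ψ₀, rfl⟩)]
    apply Finset.sum_congr rfl
    intro ψ _
    by_cases hψ : ψ ∈ blockOf M (ψ₀ : H → ℂ)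
    · have hψA : ψ ∈ indSet M H B := by
        show IsInducedBlock M H (blockOf M (ψ : H → ℂ)) B
        rw [← blockOf_eq_of_sameBlock hψ]
        exact hind
      rw [Set.indicator_of_mem hψ, Set.indicator_of_mem hψ, Set.indicator_of_mem hψA]
    · rw [Set.indicator_of_notMem hψ, Set.indicator_of_notMem hψ]
  · rw [if_neg hind]
    symm
    apply Finset.sum_eq_zero
    intro ψ _
    by_cases hψ : ψ ∈ blockOf M (ψ₀ : H → ℂ)
    · rw [Set.indicator_of_mem hψ, Set.indicator_of_notMem]
      intro hψA
      apply hind
      have : IsInducedBlock M H (blockOf M (ψ : H → ℂ)) B := hψA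
      rwa [← blockOf_eq_of_sameBlock hψ] at this
    · rw [Set.indicator_of_notMem hψ]


/-- Brauer's count of the irreducible characters in a block by subsections. Let M be a maximal ideal of the algebraic integers containing the prime p, B a p-block of the finite group G, and X a set of representatives of the conjugacy classes of p-elements of G (elements of p-power order, the identity included: every p-element is conjugate to exactly one member of X). Then the number of irreducible characters in B is the sum, over x ∈ X and over the blocks b of C_G(x) that induce B, of the p-regular rank of b (the number of irreducible Brauer characters of b, here the dimension of the span of the restrictions of the members of b to the p-regular elements of C_G(x)). -/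
theorem result {G : Type*} [Group G] [Finite G] (p : ℕ) (M : Ideal Cfsg.AlgInt) (hM : Cfsg.IsPModular p M)
    (B : Set (Cfsg.IrrCharacter G)) (hB : Cfsg.IsPBlock M B) (X : Finset G)
    (hX : ∀ x ∈ X, ∃ k : ℕ, orderOf x = p ^ k)
    (hXrep : ∀ g : G, (∃ k : ℕ, orderOf g = p ^ k) → ∃! x, x ∈ X ∧ IsConj g x) :
    Nat.card B = ∑ x ∈ X, ∑ᶠ b ∈ {b : Set (Cfsg.IrrCharacter ↥(Subgroup.centralizer ({x} : Set G))) | Cfsg.IsInducedBlock M (Subgroup.centralizer ({x} : Set G)) b B},
      Cfsg.blockRank p b := by
  classical
  haveI := hM.2.1.isPrime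
  haveI := Fintype.ofFinite G
  haveI := Fintype.ofFinite (IrrCharacter G)
  haveI : ∀ x : G, Fintype (Subgroup.centralizer ({x} : Set G)) := fun x => Fintype.ofFinite _
  haveI : ∀ x : G, Fintype (IrrCharacter (Subgroup.centralizer ({x} : Set G))) :=
    fun x => Fintype.ofFinite _
  have hcard : (Nat.card G : ℂ) ≠ 0 := by exact_mod_cast Nat.card_pos.ne'
  simp only [finsum_blockRank hM]
  apply Nat.cast_injective (R := ℂ)
  rw [Nat.cast_sum]
  obtain ⟨F, hFdef⟩ : ∃ F : G → ℂ, F = fun g => ∑ χ : IrrCharacter G,
      B.indicator (fun χ => (χ : G → ℂ) g * conj ((χ : G → ℂ) g)) χ := ⟨_, rfl⟩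
  have hF : IsClassFunction G F := by
    intro g t
    rw [hFdef]
    apply Finset.sum_congr rfl
    intro χ _
    by_cases hχ : χ ∈ B
    · rw [Set.indicator_of_mem hχ, Set.indicator_of_mem hχ, isClassFunction_irr χ g t]
    · rw [Set.indicator_of_notMem hχ, Set.indicator_of_notMem hχ]
  have h1 : (Nat.card B : ℂ) = (Nat.card G : ℂ)⁻¹ * ∑ g, F g := by
    have e1 : (Nat.card B : ℂ) = ∑ χ : IrrCharacter G, B.indicator (fun _ => (1 : ℂ)) χ := by
      rw [Nat.card_eq_fintype_card, Fintype.card_subtype, Finset.card_eq_sum_ones,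
        Finset.sum_filter, Nat.cast_sum]
      apply Finset.sum_congr rfl
      intro χ _
      by_cases hχ : χ ∈ B
      · rw [if_pos hχ, Set.indicator_of_mem hχ, Nat.cast_one]
      · rw [if_neg hχ, Set.indicator_of_notMem hχ, Nat.cast_zero]
    rw [e1, hFdef, Finset.sum_comm, Finset.mul_sum]
    apply Finset.sum_congr rfl
    intro χ _
    by_cases hχ : χ ∈ B
    · simp only [Set.indicator_of_mem hχ]
      have := classInner_irr_self χ.2
      rw [classInner] at this
      exact this.symm
    · simp only [Set.indicator_of_notMem hχ, Finset.sum_const_zero, mul_zero]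
  rw [h1, sum_sections hM.1 X hX hXrep hF, Finset.mul_sum]
  apply Finset.sum_congr rfl
  intro x hx
  have hcx : (Nat.card (Subgroup.centralizer ({x} : Set G)) : ℂ) ≠ 0 := by
    exact_mod_cast Nat.card_pos.ne'
  have h2 : ∑ y : Subgroup.centralizer ({x} : Set G),
      regInd p (Subgroup.centralizer ({x} : Set G)) y * F (x * (y : G))
      = (Nat.card (Subgroup.centralizer ({x} : Set G)) : ℂ)
        * (blockRank p (indSet M (Subgroup.centralizer ({x} : Set G)) B) : ℂ) := by
    rw [blockRank_eq_sum hM (isBlockUnion_indSet _ B), Finset.mul_sum]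
    have e1 : ∀ y : Subgroup.centralizer ({x} : Set G),
        regInd p (Subgroup.centralizer ({x} : Set G)) y * F (x * (y : G))
        = ∑ ψ : IrrCharacter (Subgroup.centralizer ({x} : Set G)),
          (indSet M (Subgroup.centralizer ({x} : Set G)) B).indicator
            (fun ψ => pRegularPart p (ψ : Subgroup.centralizer ({x} : Set G) → ℂ) y
              * conj ((ψ : Subgroup.centralizer ({x} : Set G) → ℂ) y)) ψ := by
      intro y
      by_cases hy : p ∣ orderOf y
      · rw [regInd_of_singular hy, zero_mul]
        symm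
        apply Finset.sum_eq_zero
        intro ψ _
        by_cases hψ : ψ ∈ indSet M (Subgroup.centralizer ({x} : Set G)) B
        · rw [Set.indicator_of_mem hψ, pRegularPart_eq_indicator, Set.indicator_of_notMem
            (s := {x_1 : Subgroup.centralizer ({x} : Set G) | ¬ p ∣ orderOf x_1}) (fun h => h hy),
            zero_mul]
        · rw [Set.indicator_of_notMem hψ]
      · rw [regInd_of_regular hy, one_mul, hFdef]
        show ∑ χ : IrrCharacter G, B.indicator
          (fun χ => (χ : G → ℂ) (x * (y : G)) * conj ((χ : G → ℂ) (x * (y : G)))) χ = _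
        rw [section_orthogonality hM (hX x hx) hB y y hy hy]
        apply Finset.sum_congr rfl
        intro ψ _
        by_cases hψ : ψ ∈ indSet M (Subgroup.centralizer ({x} : Set G)) B
        · rw [Set.indicator_of_mem hψ, Set.indicator_of_mem hψ, pRegularPart_eq_indicator,
            Set.indicator_of_mem
            (s := {x_1 : Subgroup.centralizer ({x} : Set G) | ¬ p ∣ orderOf x_1}) hy]
        · rw [Set.indicator_of_notMem hψ, Set.indicator_of_notMem hψ]
    rw [Finset.sum_congr rfl (fun y _ => e1 y), Finset.sum_comm]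
    apply Finset.sum_congr rfl
    intro ψ _
    by_cases hψ : ψ ∈ indSet M (Subgroup.centralizer ({x} : Set G)) B
    · simp only [Set.indicator_of_mem hψ]
      rw [classInner, ← mul_assoc, mul_inv_cancel₀ hcx, one_mul]
    · simp only [Set.indicator_of_notMem hψ, mul_zero, Finset.sum_const_zero]
  rw [h2]
  have h3 : (Nat.card G : ℂ) = (Nat.card (Subgroup.centralizer ({x} : Set G)) : ℂ)
      * ((Subgroup.centralizer ({x} : Set G)).index : ℂ) := by
    rw [← Nat.cast_mul, Subgroup.card_mul_index]
  have hidx : ((Subgroup.centralizer ({x} : Set G)).index : ℂ) ≠ 0 := by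
    intro h
    rw [h, mul_zero] at h3
    exact hcard h3
  rw [h3]
  field_simp

end Cfsg.Agent.S4511
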