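import Cfsg.Statements.S4512
import Cfsg.Agent.Lib.Helper24.KleinBlock
import Cfsg.Agent.Lib.Helper24.BlockRank

set_option autoImplicit false
open Cfsg

namespace Cfsg.Agent.S4512

open Cfsg.Agent.Lib.Helper7 Cfsg.Agent.Lib.Helper24


/-- If G is a finite group with a Sylow 2-subgroup that is a Klein four-group and a single conjugacy class of involutions, then its principal 2-block (relative to a maximal ideal M of the algebraic integers containing 2) has 2-regular rank 3: the restrictions of its irreducible characters to the elements of odd order span a space of dimension 3 (it has three irreducible Brauer characters). -/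
theorem result {G : Type*} [Group G] [Finite G] (M : Ideal Cfsg.AlgInt) (hM : Cfsg.IsPModular 2 M) (P : Sylow 2 G)
    (hP : Nat.card P = 4) (hexp : ∀ x : P, x * x = 1)
    (hone : ∀ s t : G, orderOf s = 2 → orderOf t = 2 → IsConj s t) :
    Cfsg.blockRank 2 (Cfsg.principalBlock M G) = 3 := by
  classical
  haveI := hM.2.1.isPrime
  haveI := Fintype.ofFinite G
  haveI := Fintype.ofFinite (Cfsg.IrrCharacter G)
  have hK : KleinHyp G := ⟨⟨P, hP, hexp⟩, hone⟩
  obtain ⟨n, hn⟩ := hK.exists_value
  have hcard : (Finset.univ.filter (· ∈ Cfsg.principalBlock M G)).card = 4 := hK.card_eq hM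
  have hsing := hK.card_singular hM
  have hG0 : (Nat.card G : ℂ) ≠ 0 := by exact_mod_cast Nat.card_pos.ne'
  have hsing' : (Nat.card G : ℂ)
      = 4 * ((Finset.univ.filter (fun g : G => 2 ∣ orderOf g)).card : ℂ) := by
    exact_mod_cast hsing.symm
  have key : ∀ χ ∈ Cfsg.principalBlock M G,
      Cfsg.classInner (Cfsg.pRegularPart 2 (χ : G → ℂ)) (χ : G → ℂ) = 3 / 4 := by
    intro χ hχ
    have h1 : ∀ g : G, Cfsg.pRegularPart 2 (χ : G → ℂ) g * (starRingEnd ℂ) ((χ : G → ℂ) g)
        = (χ : G → ℂ) g * (starRingEnd ℂ) ((χ : G → ℂ) g) - (if 2 ∣ orderOf g then 1 else 0) := by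
      intro g
      rw [pRegularPart_eq_indicator]
      by_cases hg : 2 ∣ orderOf g
      · rw [Set.indicator_of_notMem (s := {x : G | ¬ 2 ∣ orderOf x}) (fun h => h hg), if_pos hg,
          hK.value_singular hM hn hχ hg]
        rcases hK.value_eq hM hn hχ with h | h <;> rw [h] <;> simp
      · rw [Set.indicator_of_mem (s := {x : G | ¬ 2 ∣ orderOf x}) hg, if_neg hg, sub_zero]
    have h2 := classInner_irr_self χ.2
    rw [Cfsg.classInner] at h2 ⊢
    rw [Finset.sum_congr rfl (fun g _ => h1 g), Finset.sum_sub_distrib, Finset.sum_boole, mul_sub,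
      h2, hsing']
    have h3 : ((Finset.univ.filter (fun g : G => 2 ∣ orderOf g)).card : ℂ) ≠ 0 := by
      intro h
      rw [h, mul_zero] at hsing'
      exact hG0 hsing'
    field_simp
    norm_num
  have h1 := blockRank_eq_sum hM (isBlockUnion_of_isPBlock
    (isPBlock_principalBlock (M := M) (G := G)))
  have h2 : ∑ χ : Cfsg.IrrCharacter G, (Cfsg.principalBlock M G).indicator
      (fun χ => Cfsg.classInner (Cfsg.pRegularPart 2 (χ : G → ℂ)) (χ : G → ℂ)) χ = 3 := by
    have h3 : ∀ χ : Cfsg.IrrCharacter G, (Cfsg.principalBlock M G).indicator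
        (fun χ => Cfsg.classInner (Cfsg.pRegularPart 2 (χ : G → ℂ)) (χ : G → ℂ)) χ
        = if χ ∈ Cfsg.principalBlock M G then (3 / 4 : ℂ) else 0 := by
      intro χ
      by_cases hχ : χ ∈ Cfsg.principalBlock M G
      · rw [Set.indicator_of_mem hχ, if_pos hχ, key χ hχ]
      · rw [Set.indicator_of_notMem hχ, if_neg hχ]
    rw [Finset.sum_congr rfl (fun χ _ => h3 χ), ← Finset.sum_filter, Finset.sum_const, hcard]
    norm_num
  rw [h2] at h1
  exact_mod_cast h1

end Cfsg.Agent.S4512
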