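import Cfsg.Statements.S1573
import Mathlib
import Cfsg.Agent.Lib.Helper11.Co2OrbA
import Cfsg.Agent.Lib.Helper11.Co2OrbB
import Cfsg.Agent.Lib.Helper11.Co2OrbC
import Cfsg.Agent.Lib.Helper11.TransLib
-- import your own Cfsg.Agent.* helpers here

set_option autoImplicit false
open Cfsg

namespace Cfsg.Agent.S1573

open Cfsg.Agent.Lib.Helper11 Cfsg.Agent.Lib.Helper3

theorem hb0 : bvec c2Tb 0 ∈ leechLattice := isLeech_sound (by decide +kernel)

theorem hbn : sqNorm (bvec c2Tb 0) = 32 := by decide +kernel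

theorem cnt_aux {tts : ℕ → ℕ} {t : ℕ → ℤ} {N : ℕ} (h1 : chkTT c2Tb 1 tts t = true)
    (h2 : cntL2 (condAll c2Tb 1 tts) = N) {v : GolayPt → ℤ} (hv : v ∈ leechLattice)
    (hvn : sqNorm v = 32) :
    {w : GolayPt → ℤ | w ∈ leechLattice ∧ sqNorm w = 32 ∧ dotInt v w = t 0}.ncard = N := by
  have hvb : Rel v (bvec c2Tb 0) := (rel32 hv hvn).trans (rel32 hb0 hbn).symm
  have h3 := count_of_check (Tb := c2Tb) (R := 1) (by norm_num) h1
  have e : {w : GolayPt → ℤ | w ∈ leechLattice ∧ sqNorm w = 32 ∧ dotInt (bvec c2Tb 0) w = t 0} =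
      {w : GolayPt → ℤ | w ∈ leechLattice ∧ sqNorm w = 32 ∧
        ∀ r < 1, dotInt (bvec c2Tb r) w = t r} := by
    ext w
    constructor
    · rintro ⟨a, b, c⟩
      exact ⟨a, b, forall_lt_one.2 c⟩
    · rintro ⟨a, b, c⟩
      exact ⟨a, b, forall_lt_one.1 c⟩
  exact (ncard_transfer hvb 32 (t 0)).trans ((congrArg Set.ncard e).trans (h3.trans h2))

/-- Census of minimal vectors by inner product with a fixed minimal vector: 4600 have customary inner product −2, 47104 have −1, and 93150 are orthogonal. -/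
theorem result (v : Cfsg.GolayPt → ℤ) (hv : v ∈ Cfsg.leechLattice) (hvn : Cfsg.sqNorm v = 32) : {w : Cfsg.GolayPt → ℤ | w ∈ Cfsg.leechLattice ∧ Cfsg.sqNorm w = 32 ∧ Cfsg.dotInt v w = -16}.ncard = 4600 ∧ {w : Cfsg.GolayPt → ℤ | w ∈ Cfsg.leechLattice ∧ Cfsg.sqNorm w = 32 ∧ Cfsg.dotInt v w = -8}.ncard = 47104 ∧ {w : Cfsg.GolayPt → ℤ | w ∈ Cfsg.leechLattice ∧ Cfsg.sqNorm w = 32 ∧ Cfsg.dotInt v w = 0}.ncard = 93150 := by
  exact ⟨cnt_aux c2a_htt c2a_cnt hv hvn, cnt_aux c2b_htt c2b_cnt hv hvn, cnt_aux c2c_htt c2c_cnt hv hvn⟩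

end Cfsg.Agent.S1573
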