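import Cfsg.Statements.S1498
import Cfsg.Agent.Lib.Helper11.Hall

set_option autoImplicit false
open Cfsg

namespace Cfsg.Agent.S1498

theorem map_le {G : Type*} [Group G] [Finite G] (A : Set G) (L : Subgroup G) (H : G → Subgroup G) (hD : Cfsg.DadeHypothesis A L H) (a : G) (ha : a ∈ A) (x : G) (hx : x ∈ L) : (H a).map (MulAut.conj x).toMonoidHom ≤ H (x * a * x⁻¹) := by
  rintro _ ⟨u, hu, rfl⟩
  have ha' : x * a * x⁻¹ ∈ A := hD.conj_mem x hx a ha
  show x * u * x⁻¹ ∈ H (x * a * x⁻¹)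
  have hua : u * a = a * u := by
    have := hD.le_centralizer a ha hu
    rwa [Subgroup.mem_centralizer_singleton_iff] at this
  apply Cfsg.Agent.Lib.Helper11.mem_left_of_mem_sup_of_coprime (H (x * a * x⁻¹))
    (L ⊓ Subgroup.centralizer ({x * a * x⁻¹} : Set G)) ?_ (hD.inf_eq_bot _ ha') ?_ (Nat.card (H a)) ?_
    (hD.coprime a ha _ ha')
  · rw [Subgroup.le_normalizer_iff]
    intro c hc n hn
    exact hD.conj_mem_H _ ha' c hc.2 n hn
  · rw [hD.sup_eq _ ha', Subgroup.mem_centralizer_singleton_iff]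
    calc x * u * x⁻¹ * (x * a * x⁻¹) = x * (u * a) * x⁻¹ := by group
      _ = x * (a * u) * x⁻¹ := by rw [hua]
      _ = x * a * x⁻¹ * (x * u * x⁻¹) := by group
  · rw [conj_pow]
    have : u ^ Nat.card (H a) = 1 := by
      have := pow_card_eq_one' (x := (⟨u, hu⟩ : H a))
      exact congrArg Subtype.val this
    rw [this]
    simp

/-- Under the Dade hypothesis for (A, L, H): for a ∈ A and x ∈ L, the subgroup attached to x * a * x⁻¹ is the conjugate of H a by x. -/
theorem result {G : Type*} [Group G] [Finite G] (A : Set G) (L : Subgroup G) (H : G → Subgroup G) (hD : Cfsg.DadeHypothesis A L H) (a : G) (ha : a ∈ A) (x : G) (hx : x ∈ L) : H (x * a * x⁻¹) = (H a).map (MulAut.conj x).toMonoidHom := by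
  apply le_antisymm
  · have h := map_le A L H hD (x * a * x⁻¹) (hD.conj_mem x hx a ha) x⁻¹ (L.inv_mem hx)
    have e : x⁻¹ * (x * a * x⁻¹) * x⁻¹⁻¹ = a := by group
    rw [e] at h
    intro w hw
    refine ⟨x⁻¹ * w * x, ?_, ?_⟩
    · apply h
      exact ⟨w, hw, by simp⟩
    · show x * (x⁻¹ * w * x) * x⁻¹ = w
      group
  · exact map_le A L H hD a ha x hx

end Cfsg.Agent.S1498
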