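import Cfsg.Statements.S1499
import Mathlib

set_option autoImplicit false
open Cfsg

namespace Cfsg.Agent.S1499

theorem pow_trick {G : Type*} [Group G] [Finite G] {A : Set G} {L : Subgroup G} {H : G → Subgroup G}
    (hD : Cfsg.DadeHypothesis A L H) (a : G) (ha : a ∈ A) (u : G) (hu : u ∈ H a) (m : ℕ)
    (h0 : m ≡ 0 [MOD Nat.card (H a)])
    (h1 : m ≡ 1 [MOD Nat.card ↥(L ⊓ Subgroup.centralizer ({a} : Set G))]) :
    (a * u) ^ m = a := by
  have hcomm : Commute a u := by
    have := hD.le_centralizer a ha hu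
    rw [Subgroup.mem_centralizer_singleton_iff] at this
    exact this.symm
  rw [hcomm.mul_pow]
  have hu1 : u ^ m = 1 := by
    have hd : Nat.card (H a) ∣ m := (Nat.modEq_zero_iff_dvd).mp h0
    have h2 : orderOf u ∣ Nat.card (H a) := by
      have := orderOf_dvd_natCard (⟨u, hu⟩ : H a)
      rwa [Subgroup.orderOf_mk] at this
    exact orderOf_dvd_iff_pow_eq_one.mp (h2.trans hd)
  have ha1 : a ^ m = a := by
    have hmem : a ∈ L ⊓ Subgroup.centralizer ({a} : Set G) :=
      ⟨hD.subset ha, Subgroup.mem_centralizer_singleton_iff.mpr rfl⟩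
    have h2 : orderOf a ∣ Nat.card ↥(L ⊓ Subgroup.centralizer ({a} : Set G)) := by
      have := orderOf_dvd_natCard (⟨a, hmem⟩ : ↥(L ⊓ Subgroup.centralizer ({a} : Set G)))
      rwa [Subgroup.orderOf_mk] at this
    have h3 : m ≡ 1 [MOD orderOf a] := h1.of_dvd h2
    have := pow_eq_pow_iff_modEq.mpr h3
    simpa using this
  rw [hu1, ha1, mul_one]

theorem exists_m {G : Type*} [Group G] [Finite G] {A : Set G} {L : Subgroup G} {H : G → Subgroup G}
    (hD : Cfsg.DadeHypothesis A L H) (a b : G) (ha : a ∈ A) (hb : b ∈ A) :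
    ∃ m : ℕ, m ≡ 0 [MOD Nat.card (H a)] ∧ m ≡ 0 [MOD Nat.card (H b)] ∧
      m ≡ 1 [MOD Nat.card ↥(L ⊓ Subgroup.centralizer ({a} : Set G))] ∧
      m ≡ 1 [MOD Nat.card ↥(L ⊓ Subgroup.centralizer ({b} : Set G))] := by
  have hco : Nat.Coprime (Nat.card (H a) * Nat.card (H b))
      (Nat.card ↥(L ⊓ Subgroup.centralizer ({a} : Set G)) * Nat.card ↥(L ⊓ Subgroup.centralizer ({b} : Set G))) := by
    apply Nat.Coprime.mul_left
    · exact Nat.Coprime.mul_right (hD.coprime a ha a ha) (hD.coprime a ha b hb)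
    · exact Nat.Coprime.mul_right (hD.coprime b hb a ha) (hD.coprime b hb b hb)
  obtain ⟨m, hm0, hm1⟩ := Nat.chineseRemainder hco 0 1
  exact ⟨m, hm0.of_dvd (Dvd.intro _ rfl), hm0.of_dvd (Dvd.intro_left _ rfl),
    hm1.of_dvd (Dvd.intro _ rfl), hm1.of_dvd (Dvd.intro_left _ rfl)⟩

/-- Under the Dade hypothesis for (A, L, H), let a, b ∈ A. If an element of the coset a·H(a) is conjugate in G to an element of b·H(b), then a and b are conjugate by an element of L. Moreover the set normaliser of the coset a·H(a) is the centraliser of a. -/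
theorem result {G : Type*} [Group G] [Finite G] (A : Set G) (L : Subgroup G) (H : G → Subgroup G) (hD : Cfsg.DadeHypothesis A L H) (a b : G) (ha : a ∈ A) (hb : b ∈ A) : ((∃ u ∈ H a, ∃ v ∈ H b, ∃ g : G, g * (a * u) * g⁻¹ = b * v) → ∃ x ∈ L, x * a * x⁻¹ = b) ∧ Subgroup.normalizer ((fun u : G => a * u) '' (H a : Set G)) = Subgroup.centralizer ({a} : Set G) := by
  constructor
  · rintro ⟨u, hu, v, hv, g, hg⟩
    obtain ⟨m, hma, hmb, hma', hmb'⟩ := exists_m hD a b ha hb
    have h1 : g * a * g⁻¹ = b := by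
      rw [← pow_trick hD a ha u hu m hma hma', ← conj_pow, hg, pow_trick hD b hb v hv m hmb hmb']
    obtain ⟨x, hx, hxe⟩ := hD.fusion a ha g (h1 ▸ hb)
    exact ⟨x, hx, hxe.trans h1⟩
  · apply le_antisymm
    · intro g hg
      rw [Subgroup.mem_set_normalizer_iff] at hg
      have h1 : a ∈ (fun u : G => a * u) '' (H a : Set G) := ⟨1, (H a).one_mem, mul_one a⟩
      obtain ⟨u, hu, hue⟩ := (hg a).mp h1
      obtain ⟨m, hma, -, hma', -⟩ := exists_m hD a a ha ha
      have h2 : g * a * g⁻¹ = a := by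
        have h3 : a ^ m = a := by
          have := pow_trick hD a ha 1 (H a).one_mem m hma hma'
          simpa using this
        calc g * a * g⁻¹ = g * a ^ m * g⁻¹ := by rw [h3]
          _ = (g * a * g⁻¹) ^ m := (conj_pow).symm
          _ = (a * u) ^ m := by rw [← hue]
          _ = a := pow_trick hD a ha u hu m hma hma'
      rw [Subgroup.mem_centralizer_singleton_iff]
      calc g * a = g * a * g⁻¹ * g := by group
        _ = a * g := by rw [h2]
    · intro c hc
      have key : ∀ c ∈ Subgroup.centralizer ({a} : Set G), ∀ h ∈ (fun u : G => a * u) '' (H a : Set G),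
          c * h * c⁻¹ ∈ (fun u : G => a * u) '' (H a : Set G) := by
        rintro c hc _ ⟨u, hu, rfl⟩
        refine ⟨c * u * c⁻¹, hD.conj_mem_H a ha c hc u hu, ?_⟩
        rw [Subgroup.mem_centralizer_singleton_iff] at hc
        show a * (c * u * c⁻¹) = c * (a * u) * c⁻¹
        calc a * (c * u * c⁻¹) = (a * c) * u * c⁻¹ := by group
          _ = (c * a) * u * c⁻¹ := by rw [hc]
          _ = c * (a * u) * c⁻¹ := by group
      rw [Subgroup.mem_set_normalizer_iff]
      intro h
      constructor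
      · exact key c hc h
      · intro hh
        have := key c⁻¹ (Subgroup.inv_mem _ hc) _ hh
        simpa [mul_assoc] using this

end Cfsg.Agent.S1499
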