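import Cfsg.Statements.S1610
import Mathlib
import Mathlib
-- import your own Cfsg.Agent.* helpers here

set_option autoImplicit false
open Cfsg

namespace Cfsg.Agent.S1610



/-- addition table. -/
def add4 : Fin 4 → Fin 4 → Fin 4 := ![![0,1,2,3],![1,0,3,2],![2,3,0,1],![3,2,1,0]]
/-- multiplication table. -/
def mul4 : Fin 4 → Fin 4 → Fin 4 := ![![0,0,0,0],![0,1,2,3],![0,2,3,1],![0,3,1,2]]
/-- the four elements. -/
def phi {F : Type*} [Field F] (ω : F) : Fin 4 → F := ![0, 1, ω, ω ^ 2]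

theorem phi_add {F : Type*} [Field F] (ω : F) (h2 : (2 : F) = 0) (hω : ω ^ 2 + ω + 1 = 0)
    (a b : Fin 4) : phi ω (add4 a b) = phi ω a + phi ω b := by
  fin_cases a <;> fin_cases b <;> simp [phi, add4] <;> grind

theorem phi_mul {F : Type*} [Field F] (ω : F) (h2 : (2 : F) = 0) (hω : ω ^ 2 + ω + 1 = 0)
    (a b : Fin 4) : phi ω (mul4 a b) = phi ω a * phi ω b := by
  fin_cases a <;> fin_cases b <;> simp [phi, mul4] <;> grind

theorem phi_eq_zero {F : Type*} [Field F] (ω : F) (hω : ω ^ 2 + ω + 1 = 0) (a : Fin 4) :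
    phi ω a = 0 ↔ a = 0 := by
  have hw : ω ≠ 0 := by
    rintro rfl
    simp at hω
  fin_cases a <;> simp [phi, hw]

theorem add4_eq_zero : ∀ a b : Fin 4, add4 a b = 0 → a = b := by decide

theorem phi_inj {F : Type*} [Field F] (ω : F) (h2 : (2 : F) = 0) (hω : ω ^ 2 + ω + 1 = 0) :
    Function.Injective (phi ω) := by
  intro a b h
  apply add4_eq_zero
  rw [← phi_eq_zero ω hω, phi_add ω h2 hω, h, ← two_mul, h2, zero_mul]

/-- the three generators. -/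
def B1 : Fin 6 → Fin 4 := ![2, 3, 3, 2, 3, 2]
/-- the three generators. -/
def B2 : Fin 6 → Fin 4 := ![3, 2, 2, 3, 3, 2]
/-- the three generators. -/
def B3 : Fin 6 → Fin 4 := ![3, 2, 3, 2, 2, 3]

/-- the word with given coefficients. -/
def word (u : Fin 4 × Fin 4 × Fin 4) (k : Fin 6) : Fin 4 :=
  add4 (add4 (mul4 u.1 (B1 k)) (mul4 u.2.1 (B2 k))) (mul4 u.2.2 (B3 k))

/-- its weight. -/
def wtK (u : Fin 4 × Fin 4 × Fin 4) : ℕ := (Finset.univ.filter fun k => word u k ≠ 0).card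

theorem word_inj : ∀ u v : Fin 4 × Fin 4 × Fin 4, word u = word v → u = v := by decide +kernel

theorem wt_cases : ∀ u : Fin 4 × Fin 4 × Fin 4, u ≠ 0 → wtK u = 4 ∨ wtK u = 6 := by decide +kernel

theorem cnt4 : (Finset.univ.filter fun u : Fin 4 × Fin 4 × Fin 4 => wtK u = 4).card = 45 := by
  decide +kernel

theorem cnt6 : (Finset.univ.filter fun u : Fin 4 × Fin 4 × Fin 4 => wtK u = 6).card = 18 := by
  decide +kernel

section
variable {F : Type*} [Field F] [Fintype F] [DecidableEq F] (ω : F)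

/-- the word over the field. -/
def Psi (u : Fin 4 × Fin 4 × Fin 4) : Fin 6 → F := fun k => phi ω (word u k)

theorem Psi_inj (h2 : (2 : F) = 0) (hω : ω ^ 2 + ω + 1 = 0) : Function.Injective (Psi ω) := by
  intro u v h
  apply word_inj
  funext k
  exact phi_inj ω h2 hω (congrFun h k)

theorem Psi_wt (hω : ω ^ 2 + ω + 1 = 0) (u : Fin 4 × Fin 4 × Fin 4) :
    (Finset.univ.filter fun i => Psi ω u i ≠ 0).card = wtK u := by
  unfold wtK
  congr 1
  ext k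
  simp only [Finset.mem_filter, Finset.mem_univ, true_and, Psi, ne_eq, phi_eq_zero ω hω]

theorem Psi_eq (h2 : (2 : F) = 0) (hω : ω ^ 2 + ω + 1 = 0) (u : Fin 4 × Fin 4 × Fin 4) :
    Psi ω u = phi ω u.1 • ![ω, ω ^ 2, ω ^ 2, ω, ω ^ 2, ω] + phi ω u.2.1 • ![ω ^ 2, ω, ω, ω ^ 2, ω ^ 2, ω]
      + phi ω u.2.2 • ![ω ^ 2, ω, ω ^ 2, ω, ω, ω ^ 2] := by
  have e1 : (![ω, ω ^ 2, ω ^ 2, ω, ω ^ 2, ω] : Fin 6 → F) = fun k => phi ω (B1 k) := by
    funext k; fin_cases k <;> rfl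
  have e2 : (![ω ^ 2, ω, ω, ω ^ 2, ω ^ 2, ω] : Fin 6 → F) = fun k => phi ω (B2 k) := by
    funext k; fin_cases k <;> rfl
  have e3 : (![ω ^ 2, ω, ω ^ 2, ω, ω, ω ^ 2] : Fin 6 → F) = fun k => phi ω (B3 k) := by
    funext k; fin_cases k <;> rfl
  rw [e1, e2, e3]
  funext k
  simp only [Psi, word, Pi.add_apply, Pi.smul_apply, smul_eq_mul, phi_add ω h2 hω, phi_mul ω h2 hω]

theorem phi_surj (hF : Fintype.card F = 4) (h2 : (2 : F) = 0) (hω : ω ^ 2 + ω + 1 = 0) :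
    Function.Surjective (phi ω) :=
  ((Fintype.bijective_iff_injective_and_card _).2 ⟨phi_inj ω h2 hω, by rw [hF]; rfl⟩).2

theorem mem_hex (hF : Fintype.card F = 4) (h2 : (2 : F) = 0) (hω : ω ^ 2 + ω + 1 = 0)
    (x : Fin 6 → F) : x ∈ hexacode F ω ↔ ∃ u, Psi ω u = x := by
  rw [hexacode, Submodule.mem_span_triple]
  constructor
  · rintro ⟨a, b, c, rfl⟩
    obtain ⟨a, rfl⟩ := phi_surj ω hF h2 hω a
    obtain ⟨b, rfl⟩ := phi_surj ω hF h2 hω b
    obtain ⟨c, rfl⟩ := phi_surj ω hF h2 hω c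
    exact ⟨(a, b, c), Psi_eq ω h2 hω _⟩
  · rintro ⟨u, rfl⟩
    exact ⟨_, _, _, (Psi_eq ω h2 hω u).symm⟩

theorem cnt (hF : Fintype.card F = 4) (h2 : (2 : F) = 0) (hω : ω ^ 2 + ω + 1 = 0) (n : ℕ) :
    {x : Fin 6 → F | x ∈ hexacode F ω ∧ (Finset.univ.filter fun i => x i ≠ 0).card = n}.ncard =
      (Finset.univ.filter fun u : Fin 4 × Fin 4 × Fin 4 => wtK u = n).card := by
  have h : {x : Fin 6 → F | x ∈ hexacode F ω ∧ (Finset.univ.filter fun i => x i ≠ 0).card = n} =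
      Psi ω '' ↑(Finset.univ.filter fun u : Fin 4 × Fin 4 × Fin 4 => wtK u = n) := by
    ext x
    simp only [Set.mem_ofPred_eq, Set.mem_image, Finset.coe_filter, Finset.mem_univ, true_and,
      mem_hex ω hF h2 hω]
    constructor
    · rintro ⟨⟨u, rfl⟩, hn⟩
      exact ⟨u, by rw [← Psi_wt ω hω]; exact hn, rfl⟩
    · rintro ⟨u, hu, rfl⟩
      exact ⟨⟨u, rfl⟩, by rw [Psi_wt ω hω]; exact hu⟩
  rw [h, Set.ncard_image_of_injective _ (Psi_inj ω h2 hω), Set.ncard_coe_finset]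

end

/-- The hexacode has 64 words, minimum weight 4, and weight distribution 0^1 4^45 6^18. -/
theorem result (F : Type*) [Field F] [Fintype F] [DecidableEq F] (hF : Fintype.card F = 4) (ω : F) (hω : ω ^ 2 + ω + 1 = 0) : Nat.card ↥(Cfsg.hexacode F ω) = 64 ∧ (∀ x ∈ Cfsg.hexacode F ω, x ≠ 0 → (Finset.univ.filter fun i => x i ≠ 0).card = 4 ∨ (Finset.univ.filter fun i => x i ≠ 0).card = 6) ∧ {x : Fin 6 → F | x ∈ Cfsg.hexacode F ω ∧ (Finset.univ.filter fun i => x i ≠ 0).card = 4}.ncard = 45 ∧ {x : Fin 6 → F | x ∈ Cfsg.hexacode F ω ∧ (Finset.univ.filter fun i => x i ≠ 0).card = 6}.ncard = 18 := by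
  have h4 : ((4 : ℕ) : F) = 0 := by rw [← hF]; exact Nat.cast_card_eq_zero F
  have h2 : (2 : F) = 0 := by
    have : (2 : F) * 2 = 0 := by
      have h : ((4 : ℕ) : F) = 2 * 2 := by norm_num
      rw [← h, h4]
    exact mul_self_eq_zero.1 this
  refine ⟨?_, ?_, ?_, ?_⟩
  · have h : ((hexacode F ω : Submodule F (Fin 6 → F)) : Set (Fin 6 → F)) = Set.range (Psi ω) := by
      ext x
      exact mem_hex ω hF h2 hω x
    have h1 : Nat.card ↥(hexacode F ω) = ((hexacode F ω : Submodule F (Fin 6 → F)) : Set (Fin 6 → F)).ncard := rfl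
    rw [h1, h, ← Set.image_univ, Set.ncard_image_of_injective _ (Psi_inj ω h2 hω), Set.ncard_univ]
    simp
  · intro x hx h0
    obtain ⟨u, rfl⟩ := (mem_hex ω hF h2 hω x).1 hx
    rw [Psi_wt ω hω]
    apply wt_cases
    rintro rfl
    apply h0
    funext k
    fin_cases k <;> rfl
  · rw [cnt ω hF h2 hω, cnt4]
  · rw [cnt ω hF h2 hω, cnt6]
end Cfsg.Agent.S1610
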