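import Cfsg.Statements.S0396
import Mathlib
import Cfsg.Agent.Lib.Helper11.LeechCount
-- import your own Cfsg.Agent.* helpers here

set_option autoImplicit false
open Cfsg

namespace Cfsg.Agent.S0396

open Cfsg Cfsg.Agent.Lib.Helper3 Cfsg.Agent.Lib.Helper11

theorem tot_val : tot (fun _ => true) 64 = 398034000 := by decide +kernel


/-- Exactly 398034000 lattice vectors have sum of squares 64. -/
theorem result : {x : Cfsg.GolayPt → ℤ | x ∈ Cfsg.leechLattice ∧ Cfsg.sqNorm x = 64}.ncard = 398034000 := by
  have h := ncard_leech (fun _ => true) 64 (by norm_num)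
  rw [tot_val] at h
  rw [← h]
  congr 1
  ext x
  simp

end Cfsg.Agent.S0396
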