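import Cfsg.Statements.S1570
import Mathlib
import Cfsg.Agent.Lib.Helper11.LeechBasis
import Cfsg.Agent.Lib.Helper11.Leech2
import Cfsg.Agent.S0394
import Cfsg.Agent.S0395
import Cfsg.Agent.S0396
import Cfsg.Agent.S1569
-- import your own Cfsg.Agent.* helpers here

set_option autoImplicit false
open Cfsg

namespace Cfsg.Agent.S1570

open Cfsg.Agent.Lib.Helper11 Cfsg.Agent.Lib.Helper3

/-- coordinates modulo 2. -/
def cl (x : GolayPt → ℤ) : Fin 24 → ZMod 2 := fun j => ((dotInt x (ld j) / 8 : ℤ) : ZMod 2)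

theorem cl_congr {x y : GolayPt → ℤ} (hx : x ∈ leechLattice) (hy : y ∈ leechLattice)
    (h : cl x = cl y) : ∃ z ∈ leechLattice, x - y = 2 • z := by
  have hm : ∀ j, ∃ m : ℤ, dotInt x (ld j) / 8 - dotInt y (ld j) / 8 = 2 * m := by
    intro j
    have h1 : ((dotInt x (ld j) / 8 : ℤ) : ZMod 2) = ((dotInt y (ld j) / 8 : ℤ) : ZMod 2) :=
      congrFun h j
    rw [ZMod.intCast_eq_intCast_iff_dvd_sub] at h1
    obtain ⟨m, hm⟩ := h1
    exact ⟨-m, by push_cast at hm; omega⟩
  choose m hm using hm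
  refine ⟨∑ j, m j • lb j, leechLattice.sum_mem (fun j _ => leechLattice.zsmul_mem (lb_mem j) _), ?_⟩
  conv_lhs => rw [leech_expand hx, leech_expand hy]
  rw [← Finset.sum_sub_distrib, Finset.smul_sum]
  apply Finset.sum_congr rfl
  intro j _
  rw [← sub_smul, hm j, mul_smul, two_smul, two_smul]

theorem image_ge (S : Finset (GolayPt → ℤ)) (a : ℤ) (ha : a < 64)
    (hS : ∀ y ∈ S, y ∈ leechLattice ∧ sqNorm y = a) : S.card ≤ 2 * (S.image cl).card := by
  classical
  apply Finset.card_le_mul_card_image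
  intro t ht
  obtain ⟨y, hy, rfl⟩ := Finset.mem_image.mp ht
  calc (S.filter (fun z => cl z = cl y)).card ≤ ({y, -y} : Finset (GolayPt → ℤ)).card := by
        apply Finset.card_le_card
        intro z hz
        obtain ⟨hzS, hzc⟩ := Finset.mem_filter.mp hz
        by_cases hzy : z = y
        · simp [hzy]
        · rcases short_congr (hS z hzS).1 (hS y hy).1 hzy (by rw [(hS z hzS).2]; omega)
            (by rw [(hS y hy).2]; omega) (cl_congr (hS z hzS).1 (hS y hy).1 hzc) with h | h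
          · simp [h]
          · have := h.1
            rw [(hS z hzS).2] at this
            omega
    _ ≤ 2 := Finset.card_le_two

theorem image_ge64 (S : Finset (GolayPt → ℤ))
    (hS : ∀ y ∈ S, y ∈ leechLattice ∧ sqNorm y = 64) : S.card ≤ 48 * (S.image cl).card := by
  classical
  apply Finset.card_le_mul_card_image
  intro t ht
  obtain ⟨y, hy, rfl⟩ := Finset.mem_image.mp ht
  have h48 := Cfsg.Agent.S1569.result y (hS y hy).1 (hS y hy).2
  rw [← h48, ← Set.ncard_coe_finset]
  apply Set.ncard_le_ncard _ (Set.finite_of_ncard_ne_zero (by rw [h48]; norm_num))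
  intro z hz
  obtain ⟨hzS, hzc⟩ := Finset.mem_filter.mp (Finset.mem_coe.1 hz)
  exact ⟨(hS z hzS).1, by rw [(hS z hzS).2, (hS y hy).2], cl_congr (hS y hy).1 (hS z hzS).1 hzc.symm⟩

theorem disj (S T : Finset (GolayPt → ℤ)) (a b : ℤ) (ha : a ≤ 64) (hb : b ≤ 64) (hab : a ≠ b)
    (hS : ∀ y ∈ S, y ∈ leechLattice ∧ sqNorm y = a) (hT : ∀ y ∈ T, y ∈ leechLattice ∧ sqNorm y = b) :
    Disjoint (S.image cl) (T.image cl) := by
  classical
  rw [Finset.disjoint_left]
  intro t htS htT
  obtain ⟨y, hy, rfl⟩ := Finset.mem_image.mp htS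
  obtain ⟨z, hz, hzc⟩ := Finset.mem_image.mp htT
  have hne : z ≠ y := by
    rintro rfl
    exact hab ((hS z hy).2.symm.trans (hT z hz).2)
  rcases short_congr (hT z hz).1 (hS y hy).1 hne (by rw [(hT z hz).2]; exact hb)
    (by rw [(hS y hy).2]; exact ha) (cl_congr (hT z hz).1 (hS y hy).1 hzc) with h | h
  · have := (hT z hz).2
    rw [h, sqNorm_neg, (hS y hy).2] at this
    exact hab this
  · exact hab ((hS y hy).2.symm.trans (h.2.1.trans (h.1.symm.trans (hT z hz).2)))

/-- Every congruence class of the lattice modulo twice the lattice contains a vector of customary norm at most 8. -/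
theorem result (x : Cfsg.GolayPt → ℤ) (hx : x ∈ Cfsg.leechLattice) : ∃ y ∈ Cfsg.leechLattice, Cfsg.sqNorm y ≤ 64 ∧ ∃ z ∈ Cfsg.leechLattice, x - y = 2 • z := by
  classical
  have h4 := Cfsg.Agent.S0394.result
  have h6 := Cfsg.Agent.S0395.result
  have h8 := Cfsg.Agent.S0396.result
  have f4 : {x : GolayPt → ℤ | x ∈ leechLattice ∧ sqNorm x = 32}.Finite :=
    Set.finite_of_ncard_ne_zero (by rw [h4]; norm_num)
  have f6 : {x : GolayPt → ℤ | x ∈ leechLattice ∧ sqNorm x = 48}.Finite :=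
    Set.finite_of_ncard_ne_zero (by rw [h6]; norm_num)
  have f8 : {x : GolayPt → ℤ | x ∈ leechLattice ∧ sqNorm x = 64}.Finite :=
    Set.finite_of_ncard_ne_zero (by rw [h8]; norm_num)
  set S4 := f4.toFinset with hS4
  set S6 := f6.toFinset with hS6
  set S8 := f8.toFinset with hS8
  have c4 : S4.card = 196560 := by rw [← h4, Set.ncard_eq_toFinset_card _ f4]
  have c6 : S6.card = 16773120 := by rw [← h6, Set.ncard_eq_toFinset_card _ f6]
  have c8 : S8.card = 398034000 := by rw [← h8, Set.ncard_eq_toFinset_card _ f8]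
  have m4 : ∀ y ∈ S4, y ∈ leechLattice ∧ sqNorm y = 32 := fun y hy => by simpa [hS4] using hy
  have m6 : ∀ y ∈ S6, y ∈ leechLattice ∧ sqNorm y = 48 := fun y hy => by simpa [hS6] using hy
  have m8 : ∀ y ∈ S8, y ∈ leechLattice ∧ sqNorm y = 64 := fun y hy => by simpa [hS8] using hy
  have m0 : ∀ y ∈ ({0} : Finset (GolayPt → ℤ)), y ∈ leechLattice ∧ sqNorm y = 0 := by
    intro y hy
    rw [Finset.mem_singleton.mp hy]
    exact ⟨leechLattice.zero_mem, sqNorm_zero⟩
  have i4 := image_ge S4 32 (by norm_num) m4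
  have i6 := image_ge S6 48 (by norm_num) m6
  have i8 := image_ge64 S8 m8
  have d46 := disj S4 S6 32 48 (by norm_num) (by norm_num) (by norm_num) m4 m6
  have d48 := disj S4 S8 32 64 (by norm_num) (by norm_num) (by norm_num) m4 m8
  have d68 := disj S6 S8 48 64 (by norm_num) (by norm_num) (by norm_num) m6 m8
  have d40 := disj S4 {0} 32 0 (by norm_num) (by norm_num) (by norm_num) m4 m0
  have d60 := disj S6 {0} 48 0 (by norm_num) (by norm_num) (by norm_num) m6 m0
  have d80 := disj S8 {0} 64 0 (by norm_num) (by norm_num) (by norm_num) m8 m0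
  have hU : ((S4.image cl ∪ S6.image cl) ∪ S8.image cl ∪ ({0} : Finset (GolayPt → ℤ)).image cl) =
      Finset.univ := by
    apply Finset.eq_univ_of_card
    have hc : Fintype.card (Fin 24 → ZMod 2) = 2 ^ 24 := by simp [ZMod.card]
    have hle := Finset.card_le_univ
      ((S4.image cl ∪ S6.image cl) ∪ S8.image cl ∪ ({0} : Finset (GolayPt → ℤ)).image cl)
    rw [hc] at hle ⊢
    rw [Finset.card_union_of_disjoint, Finset.card_union_of_disjoint,
      Finset.card_union_of_disjoint d46] at hle ⊢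
    · have h1 : (({0} : Finset (GolayPt → ℤ)).image cl).card = 1 := by simp
      rw [h1] at hle ⊢
      omega
    · exact Finset.disjoint_union_left.mpr ⟨d48, d68⟩
    · exact Finset.disjoint_union_left.mpr ⟨d48, d68⟩
    · exact Finset.disjoint_union_left.mpr ⟨Finset.disjoint_union_left.mpr ⟨d40, d60⟩, d80⟩
    · exact Finset.disjoint_union_left.mpr ⟨Finset.disjoint_union_left.mpr ⟨d40, d60⟩, d80⟩
  have hx' : cl x ∈ ((S4.image cl ∪ S6.image cl) ∪ S8.image cl ∪
      ({0} : Finset (GolayPt → ℤ)).image cl) := by rw [hU]; exact Finset.mem_univ _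
  have fin : ∀ (S : Finset (GolayPt → ℤ)) (a : ℤ), a ≤ 64 →
      (∀ y ∈ S, y ∈ leechLattice ∧ sqNorm y = a) → cl x ∈ S.image cl →
      ∃ y ∈ leechLattice, sqNorm y ≤ 64 ∧ ∃ z ∈ leechLattice, x - y = 2 • z := by
    intro S a ha hS hm
    obtain ⟨y, hy, hyc⟩ := Finset.mem_image.mp hm
    exact ⟨y, (hS y hy).1, by rw [(hS y hy).2]; exact ha, cl_congr hx (hS y hy).1 hyc.symm⟩
  simp only [Finset.mem_union] at hx'
  rcases hx' with ((h | h) | h) | h
  · exact fin S4 32 (by norm_num) m4 h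
  · exact fin S6 48 (by norm_num) m6 h
  · exact fin S8 64 (by norm_num) m8 h
  · exact fin {0} 0 (by norm_num) m0 h

end Cfsg.Agent.S1570
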