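import Mathlib
import Cfsg.Statements.S0379
import Cfsg.Agent.Lib.Helper3.MathieuSimple
import Cfsg.Agent.S0378

set_option autoImplicit false
open Cfsg

namespace Cfsg.Agent.S0379

/-- A two-point stabiliser in the group of the length-24 code is simple. -/
theorem result (p q : Cfsg.GolayPt) (hpq : p ≠ q) : IsSimpleGroup ↥(MulAction.stabilizer Cfsg.M24 p ⊓ MulAction.stabilizer Cfsg.M24 q) := by
  open Cfsg.Agent.Lib.Helper3 in
  have hnc : (({p, q} : Set Cfsg.GolayPt)ᶜ).ncard = 22 := by
    have := Set.ncard_add_ncard_compl ({p, q} : Set Cfsg.GolayPt)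
    rw [Set.ncard_pair hpq] at this
    have h24 : Nat.card Cfsg.GolayPt = 24 := by
      rw [Nat.card_eq_fintype_card]; rfl
    omega
  have hfix' : ∀ g : ↥(MulAction.stabilizer Cfsg.M24 p ⊓ MulAction.stabilizer Cfsg.M24 q),
      ∀ s : Set Cfsg.GolayPt, 9 ≤ s.ncard → (∀ b ∈ s, g • b = b) → g = 1 := by
    intro g s hs hg
    apply Subtype.ext
    apply Subtype.ext
    exact fix9' g.1.2 s hs hg
  have hT : TwoTrans ↥(MulAction.stabilizer Cfsg.M24 p ⊓ MulAction.stabilizer Cfsg.M24 q)
      (({p, q} : Set Cfsg.GolayPt)ᶜ) := by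
    refine ⟨?_, ?_, ?_⟩
    · intro g b hb hc
      apply hb
      rcases hc with hc | hc
      · left
        have e1 : g • b = g • p := by rw [hc]; exact g.2.1.symm
        exact MulAction.injective g e1
      · right
        have e1 : g • b = g • q := by
          rw [Set.mem_singleton_iff.1 hc]; exact g.2.2.symm
        exact MulAction.injective g e1
    · intro g hg
      exact hfix' g _ (by rw [hnc]; norm_num) hg
    · intro b hb c hc e he hcb heb
      simp only [Set.mem_compl_iff, Set.mem_insert_iff, Set.mem_singleton_iff, not_or] at hb hc he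
      obtain ⟨g, hg, h⟩ := M24_lists [p, q, b, c] [p, q, b, e]
        (by simp [hpq, Ne.symm hb.1, Ne.symm hb.2, Ne.symm hc.1, Ne.symm hc.2, hcb.symm])
        (by simp [hpq, Ne.symm hb.1, Ne.symm hb.2, Ne.symm he.1, Ne.symm he.2, heb.symm]) rfl
        (by simp)
      have h0 := h 0 (by simp)
      have h1 := h 1 (by simp)
      have h2 := h 2 (by simp)
      have h3 := h 3 (by simp)
      exact ⟨⟨⟨g, hg⟩, h0, h1⟩, h2, h3⟩
  haveI : Fact (Nat.Prime 11) := ⟨by norm_num⟩
  apply hT.simple_of_prime (Set.toFinite _) 11 5 40320 (by norm_num)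
    (Cfsg.Agent.S0378.result p q hpq) (by norm_num) (by norm_num) (by rw [hnc]; norm_num) (by
      rw [← Set.ncard_pos, hnc]; norm_num) (fun g s hs hg => hfix' g s (by omega) hg)
  intro c r n hc hr h1 h3
  rw [hnc] at hc
  have hc1 : c ≤ 2 := by omega
  have hr1 : r ≤ 10 := Nat.le_of_dvd (by norm_num) hr
  interval_cases c
  · omega
  · interval_cases r <;> omega
  · interval_cases r <;> omega

end Cfsg.Agent.S0379
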