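import Cfsg.Statements.S0228
import Mathlib
import Cfsg.Agent.Lib.Helper29.Syl3

set_option autoImplicit false
open Cfsg

namespace Cfsg.Agent.S0228

/-- A group of order 12 in which no involution is central is isomorphic to the alternating group on four letters. -/
theorem result {G : Type*} [Group G] [Finite G] (hG : Nat.card G = 12) (hz : ∀ z : G, orderOf z = 2 → z ∉ Subgroup.center G) : Nonempty (G ≃* alternatingGroup (Fin 4)) := by
  classical
  haveI : Fact (Nat.Prime 3) := ⟨by norm_num⟩
  haveI : Fact (Nat.Prime 2) := ⟨by norm_num⟩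
  have hP3 : ∀ P : Sylow 3 G, Nat.card (P : Subgroup G) = 3 := by
    intro P
    rw [Sylow.card_eq_multiplicity, hG]
    have : (12 : ℕ).factorization 3 = 1 := by decide +kernel
    rw [this, pow_one]
  obtain ⟨P⟩ : Nonempty (Sylow 3 G) := inferInstance
  have hn1 : Nat.card (Sylow 3 G) ≠ 1 := by
    intro h1
    obtain ⟨t, ht, hc⟩ := Cfsg.Agent.Lib.Helper29.Syl3.exists_invol P (hP3 P)
      (Cfsg.Agent.Lib.Helper29.Syl3.normal_of_card P h1) (by rw [hG]; norm_num)
    have hzp : IsPGroup 2 (Subgroup.zpowers t) :=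
      IsPGroup.of_card (n := 1) (by rw [Nat.card_zpowers, ht, pow_one])
    obtain ⟨Q, hQ⟩ := hzp.exists_le_sylow
    have hQ4 : Nat.card (Q : Subgroup G) = 4 := by
      rw [Sylow.card_eq_multiplicity, hG]
      have : (12 : ℕ).factorization 2 = 2 := by decide +kernel
      rw [this]; norm_num
    have hQc : IsMulCommutative (Q : Subgroup G) :=
      IsPGroup.isMulCommutative_of_card_eq_prime_sq (p := 2) (by rw [hQ4]; norm_num)
    have htQ : t ∈ (Q : Subgroup G) := hQ (Subgroup.mem_zpowers t)
    have h1 : (Q : Subgroup G) ≤ Subgroup.centralizer {t} := by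
      intro g hg
      rw [Subgroup.mem_centralizer_singleton_iff]
      have := hQc.is_comm.comm (⟨g, hg⟩ : (Q : Subgroup G)) ⟨t, htQ⟩
      exact congrArg Subtype.val this
    have h2 : (P : Subgroup G) ≤ Subgroup.centralizer {t} := by
      intro g hg
      rw [Subgroup.mem_centralizer_singleton_iff]
      exact (hc g hg).symm
    have h3 : 4 ∣ Nat.card (Subgroup.centralizer {t}) := hQ4 ▸ Subgroup.card_dvd_of_le h1
    have h4 : 3 ∣ Nat.card (Subgroup.centralizer {t}) := hP3 P ▸ Subgroup.card_dvd_of_le h2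
    have h5 : 4 * 3 ∣ Nat.card (Subgroup.centralizer {t}) :=
      Nat.Coprime.mul_dvd_of_dvd_of_dvd (by norm_num) h3 h4
    have h6 : Subgroup.centralizer {t} = ⊤ :=
      Subgroup.eq_top_of_le_card _ (by rw [hG]; exact Nat.le_of_dvd Nat.card_pos h5)
    apply hz t ht
    rw [Subgroup.mem_center_iff]
    intro g
    have : g ∈ Subgroup.centralizer {t} := h6 ▸ Subgroup.mem_top g
    exact Subgroup.mem_centralizer_singleton_iff.1 this
  have hn : Nat.card (Sylow 3 G) = 4 := by
    have h1 := card_sylow_modEq_one 3 G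
    have h2 := Sylow.card_dvd_index P
    have h3 : (P : Subgroup G).index = 4 := by
      have := (P : Subgroup G).card_mul_index
      rw [hP3, hG] at this; omega
    rw [h3] at h2
    have h5 : Nat.card (Sylow 3 G) ≤ 4 := Nat.le_of_dvd (by norm_num) h2
    unfold Nat.ModEq at h1
    generalize Nat.card (Sylow 3 G) = n at *
    interval_cases n <;> omega
  have hNP : Nat.card (Subgroup.normalizer ((P : Subgroup G) : Set G)) = 3 := by
    have h1 := Sylow.card_eq_index_normalizer P
    have h2 := (Subgroup.normalizer ((P : Subgroup G) : Set G)).card_mul_index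
    rw [hn] at h1
    rw [hG] at h2
    have h3 : (Subgroup.normalizer ((P : Subgroup G) : Set G)).index = 4 := h1.symm
    rw [h3] at h2
    omega
  have hinj : Function.Injective (MulAction.toPermHom G (Sylow 3 G)) := by
    rw [injective_iff_map_eq_one]
    intro k hk
    have hfixOf : ∀ g : G, MulAction.toPermHom G (Sylow 3 G) g = 1 → ∀ Q : Sylow 3 G, g • Q = Q := by
      intro g hg Q
      have := congrArg (fun f : Equiv.Perm (Sylow 3 G) => f Q) hg
      simpa using this
    by_contra hk1
    obtain ⟨l, hl, hlk⟩ := Nat.exists_prime_and_dvd (n := orderOf k)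
      (by rwa [Ne, orderOf_eq_one_iff])
    have hk' : orderOf (k ^ (orderOf k / l)) = l :=
      orderOf_pow_orderOf_div (orderOf_pos k).ne' hlk
    have hk'1 : MulAction.toPermHom G (Sylow 3 G) (k ^ (orderOf k / l)) = 1 := by
      rw [map_pow, hk, one_pow]
    have hmem : k ^ (orderOf k / l) ∈ Subgroup.normalizer ((P : Subgroup G) : Set G) :=
      Sylow.smul_eq_iff_mem_normalizer.1 (hfixOf _ hk'1 P)
    have h3 := orderOf_dvd_natCard (⟨_, hmem⟩ : Subgroup.normalizer ((P : Subgroup G) : Set G))
    rw [Subgroup.orderOf_mk, hk', hNP] at h3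
    have hl3 : l = 3 := (Nat.prime_dvd_prime_iff_eq hl Nat.prime_three).1 h3
    subst hl3
    exact hn1 (Cfsg.Agent.Lib.Helper29.Syl3.ker3 hP3 _ hk' (hfixOf _ hk'1))
  haveI : Fintype (Sylow 3 G) := Fintype.ofFinite _
  have hcard : Nat.card (Equiv.Perm (Sylow 3 G)) = 24 := by
    rw [Nat.card_eq_fintype_card (α := Equiv.Perm _), Fintype.card_perm,
      ← Nat.card_eq_fintype_card, hn]
    rfl
  have hr : Nat.card (MulAction.toPermHom G (Sylow 3 G)).range = 12 := by
    rw [← hG]
    exact (Nat.card_congr (MonoidHom.ofInjective hinj).toEquiv).symm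
  have hidx : (MulAction.toPermHom G (Sylow 3 G)).range.index = 2 := by
    have := (MulAction.toPermHom G (Sylow 3 G)).range.card_mul_index
    rw [hr, hcard] at this
    omega
  have hA := Equiv.Perm.eq_alternatingGroup_of_index_eq_two hidx
  exact ⟨((MonoidHom.ofInjective hinj).trans (MulEquiv.subgroupCongr hA)).trans
    (Equiv.altCongrHom (Finite.equivFinOfCardEq hn))⟩

end Cfsg.Agent.S0228
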