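import Cfsg.Statements.S1012
import Mathlib
import Cfsg.Agent.Lib.Helper29.Syl3

set_option autoImplicit false
open Cfsg

namespace Cfsg.Agent.S1012

/-- A group of order 24 containing no element of order 6 is isomorphic to the symmetric group of degree 4. -/
theorem result {G : Type*} [Group G] [Finite G] (h : Nat.card G = 24) (h6 : ∀ g : G, orderOf g ≠ 6) : Nonempty (G ≃* Equiv.Perm (Fin 4)) := by
  classical
  haveI : Fact (Nat.Prime 3) := ⟨by norm_num⟩
  have no6 : ∀ t x : G, orderOf t = 2 → orderOf x = 3 → Commute t x → False := by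
    intro t x ht hx hc
    have := hc.orderOf_mul_eq_mul_orderOf_of_coprime (by rw [ht, hx]; norm_num)
    rw [ht, hx] at this
    exact h6 _ this
  have hP3 : ∀ P : Sylow 3 G, Nat.card (P : Subgroup G) = 3 := by
    intro P
    rw [Sylow.card_eq_multiplicity, h]
    have : (24 : ℕ).factorization 3 = 1 := by decide +kernel
    rw [this, pow_one]
  obtain ⟨P⟩ : Nonempty (Sylow 3 G) := inferInstance
  obtain ⟨x, hx⟩ := exists_prime_orderOf_dvd_card' (G := (P : Subgroup G)) 3 (by rw [hP3])
  have hx3 : orderOf (x : G) = 3 := by rw [Subgroup.orderOf_coe]; exact hx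
  have hn1 : Nat.card (Sylow 3 G) ≠ 1 := by
    intro h1
    obtain ⟨t, ht, hc⟩ := Cfsg.Agent.Lib.Helper29.Syl3.exists_invol P (hP3 P)
      (Cfsg.Agent.Lib.Helper29.Syl3.normal_of_card P h1) (by rw [h]; norm_num)
    exact no6 t x ht hx3 (hc x x.2)
  have hn : Nat.card (Sylow 3 G) = 4 := by
    have h1 := card_sylow_modEq_one 3 G
    have h2 := Sylow.card_dvd_index P
    have h3 : (P : Subgroup G).index = 8 := by
      have := (P : Subgroup G).card_mul_index
      rw [hP3, h] at this; omega
    rw [h3] at h2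
    have h5 : Nat.card (Sylow 3 G) ≤ 8 := Nat.le_of_dvd (by norm_num) h2
    unfold Nat.ModEq at h1
    generalize Nat.card (Sylow 3 G) = n at *
    interval_cases n <;> omega
  have hinj : Function.Injective (MulAction.toPermHom G (Sylow 3 G)) := by
    rw [injective_iff_map_eq_one]
    intro k hk
    have hfixOf : ∀ g : G, MulAction.toPermHom G (Sylow 3 G) g = 1 → ∀ Q : Sylow 3 G, g • Q = Q := by
      intro g hg Q
      have := congrArg (fun f : Equiv.Perm (Sylow 3 G) => f Q) hg
      simpa using this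
    by_contra hk1
    have hcomm := Cfsg.Agent.Lib.Helper29.Syl3.commute_of_fix hP3 hn1 k (hfixOf k hk) P x x.2
    obtain ⟨l, hl, hlk⟩ := Nat.exists_prime_and_dvd (n := orderOf k)
      (by rwa [Ne, orderOf_eq_one_iff])
    have hk' : orderOf (k ^ (orderOf k / l)) = l :=
      orderOf_pow_orderOf_div (orderOf_pos k).ne' hlk
    have hk'1 : MulAction.toPermHom G (Sylow 3 G) (k ^ (orderOf k / l)) = 1 := by
      rw [map_pow, hk, one_pow]
    have hl24 : l ∣ 24 := h ▸ (hlk.trans (orderOf_dvd_natCard k))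
    have hl23 : l = 2 ∨ l = 3 := by
      have h1 : l ∣ 2 ^ 3 * 3 := hl24
      rcases (Nat.Prime.dvd_mul hl).1 h1 with h2 | h2
      · exact Or.inl ((Nat.prime_dvd_prime_iff_eq hl Nat.prime_two).1 (hl.dvd_of_dvd_pow h2))
      · exact Or.inr ((Nat.prime_dvd_prime_iff_eq hl Nat.prime_three).1 h2)
    rcases hl23 with rfl | rfl
    · exact no6 _ x hk' hx3 (hcomm.pow_left _)
    · exact hn1 (Cfsg.Agent.Lib.Helper29.Syl3.ker3 hP3 _ hk' (hfixOf _ hk'1))
  have hcard : Nat.card G = Nat.card (Equiv.Perm (Sylow 3 G)) := by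
    haveI : Fintype (Sylow 3 G) := Fintype.ofFinite _
    rw [Nat.card_eq_fintype_card (α := Equiv.Perm _), Fintype.card_perm,
      ← Nat.card_eq_fintype_card, hn, h]
    rfl
  have hb := (Nat.bijective_iff_injective_and_card _).2 ⟨hinj, hcard⟩
  exact ⟨(MulEquiv.ofBijective _ hb).trans (Equiv.permCongrHom (Finite.equivFinOfCardEq hn))⟩

end Cfsg.Agent.S1012
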