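import Cfsg.Statements.S0768
import Cfsg.Agent.Lib.Helper6.SympMore

set_option autoImplicit false
open Cfsg

namespace Cfsg.Agent.S0768

open Cfsg.Agent.Lib.Helper6 Matrix MulAction
open scoped LinearAlgebra.Projectivization

variable {F : Type*} [Field F] (m : ℕ)

theorem smul_mk' (g : spGL m F) (v : Fin m ⊕ Fin m → F) (hv : v ≠ 0) :
    g • Projectivization.mk F v hv =
      Projectivization.mk F (g • v) ((smul_ne_zero_iff_ne g).mpr hv) := rfl

theorem mem_of_fix {B : Set (ℙ F (Fin m ⊕ Fin m → F))} (hB : IsBlock (spGL m F) B)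
    (g : spGL m F) {p q : ℙ F (Fin m ⊕ Fin m → F)} (hp : p ∈ B) (hgp : g • p = p) (hq : q ∈ B) :
    g • q ∈ B := by
  have h := (isBlock_iff_smul_eq_of_mem.mp hB) hp (by rw [hgp]; exact hp)
  rw [← h]
  exact Set.smul_mem_smul_set hq

theorem K1 {B : Set (ℙ F (Fin m ⊕ Fin m → F))} (hB : IsBlock (spGL m F) B)
    (u w x : Fin m ⊕ Fin m → F) (hu : u ≠ 0) (hw : w ≠ 0) (hx : x ≠ 0)
    (huB : Projectivization.mk F u hu ∈ B) (hwB : Projectivization.mk F w hw ∈ B)
    (huw : sympForm m F u w ≠ 0) (hux : sympForm m F u x ≠ 0) :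
    Projectivization.mk F x hx ∈ B := by
  obtain ⟨A, -, hAu, hAw⟩ := sympTv_trans_pair_fix m ⊤ u ((sympForm m F u w)⁻¹ • w)
    ((sympForm m F u x)⁻¹ • x) trivial trivial trivial
    (by rw [sympForm_smul_right, inv_mul_cancel₀ huw])
    (by rw [sympForm_smul_right, inv_mul_cancel₀ hux])
  have h1 : toSpGL m A • Projectivization.mk F u hu = Projectivization.mk F u hu := by
    rw [smul_mk']
    congr 1
  have h2 := mem_of_fix m hB (toSpGL m A) huB h1 hwB
  rw [smul_mk'] at h2
  convert h2 using 1
  rw [Projectivization.mk_eq_mk_iff']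
  rw [mulVec_smul] at hAw
  refine ⟨(sympForm m F u x) * (sympForm m F u w)⁻¹, ?_⟩
  rw [toSpGL_smul, mul_smul, hAw, smul_smul, mul_inv_cancel₀ hux, one_smul]

theorem K2 {B : Set (ℙ F (Fin m ⊕ Fin m → F))} (hB : IsBlock (spGL m F) B)
    (u w : Fin m ⊕ Fin m → F) (hu : u ≠ 0) (hw : w ≠ 0)
    (huB : Projectivization.mk F u hu ∈ B) (hwB : Projectivization.mk F w hw ∈ B)
    (huw : sympForm m F u w ≠ 0) : B = Set.univ := by
  rw [Set.eq_univ_iff_forall]
  intro p
  induction p using Projectivization.ind with
  | _ x hx =>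
    by_cases hux : sympForm m F u x = 0
    · obtain ⟨y, hy1, hy2⟩ := exists_nonorth m u x hu hx
      have hy : y ≠ 0 := by
        rintro rfl
        exact hy1 (sympForm_zero_right _)
      have hyB := K1 m hB u w y hu hw hy huB hwB huw hy1
      exact K1 m hB y u x hy hu hx hyB huB (by rw [sympForm_swap]; exact neg_ne_zero.mpr hy1) hy2
    · exact K1 m hB u w x hu hw hx huB hwB huw hux

theorem K3 {B : Set (ℙ F (Fin m ⊕ Fin m → F))} (hB : IsBlock (spGL m F) B)
    (u w : Fin m ⊕ Fin m → F) (hu : u ≠ 0) (hw : w ≠ 0)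
    (huB : Projectivization.mk F u hu ∈ B) (hwB : Projectivization.mk F w hw ∈ B)
    (hne : Projectivization.mk F u hu ≠ Projectivization.mk F w hw) : B = Set.univ := by
  by_cases huw : sympForm m F u w = 0
  · have hne' : ∀ a : F, a • u ≠ w := by
      intro a ha
      apply hne
      rw [eq_comm, Projectivization.mk_eq_mk_iff']
      exact ⟨a, ha⟩
    obtain ⟨z, hz1, hz2⟩ := exists_orth_nonorth m u w hu hne'
    let A : symplecticGroup (Fin m) F := ⟨sympTransvection m z 1, sympTransvection_mem _ _⟩
    have hAu : toSpGL m A • u = u := by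
      rw [toSpGL_smul]
      change sympTransvection m z 1 *ᵥ u = u
      rw [sympTransvection_mulVec, sympForm_swap, hz1]
      simp
    have hAw : toSpGL m A • w = w + sympForm m F w z • z := by
      rw [toSpGL_smul]
      change sympTransvection m z 1 *ᵥ w = _
      rw [sympTransvection_mulVec, one_mul]
    have h1 : toSpGL m A • Projectivization.mk F u hu = Projectivization.mk F u hu := by
      rw [smul_mk']
      congr 1
    have h2 := mem_of_fix m hB (toSpGL m A) huB h1 hwB
    rw [smul_mk'] at h2
    refine K2 m hB w _ hw _ hwB h2 ?_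
    rw [hAw, sympForm_add_right, sympForm_self, sympForm_smul_right, zero_add]
    have : sympForm m F w z ≠ 0 := by rw [sympForm_swap]; exact neg_ne_zero.mpr hz2
    exact mul_ne_zero this this
  · exact K2 m hB u w hu hw huB hwB huw

/-- Primitivity: for m ≥ 1 and F finite, the symplectic group of the form sympForm (as a subgroup of the general linear group) acts primitively on the projective space of F^(2m). -/
theorem result {F : Type*} [Field F] [Finite F] (m : ℕ) (hm : 1 ≤ m) : MulAction.IsPreprimitive ↥(Cfsg.spGL m F) (ℙ F (Fin m ⊕ Fin m → F)) := by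
  have htr : IsPretransitive (spGL m F) (ℙ F (Fin m ⊕ Fin m → F)) := by
    refine ⟨fun p q => ?_⟩
    induction p using Projectivization.ind with
    | _ u hu =>
      induction q using Projectivization.ind with
      | _ u' hu' =>
        obtain ⟨v, hv⟩ := exists_sympForm_eq_one m u hu
        obtain ⟨v', hv'⟩ := exists_sympForm_eq_one m u' hu'
        obtain ⟨A, -, hAu, -⟩ := sympTv_trans_pair m ⊤ u v u' v' trivial trivial trivial trivial hv hv'
        refine ⟨toSpGL m A, ?_⟩
        rw [smul_mk']
        congr 1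
  refine { htr with isTrivialBlock_of_isBlock := ?_ }
  intro B hB
  by_cases hs : B.Subsingleton
  · exact Or.inl hs
  · right
    rw [Set.not_subsingleton_iff] at hs
    obtain ⟨p, hp, q, hq, hpq⟩ := hs
    induction p using Projectivization.ind with
    | _ u hu =>
      induction q using Projectivization.ind with
      | _ w hw => exact K3 m hB u w hu hw hp hq hpq

end Cfsg.Agent.S0768
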