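import Cfsg.Statements.S0775
import Cfsg.Agent.Lib.Helper12.SpCard
import Cfsg.Agent.Lib.Helper6.SpMax
import Cfsg.Agent.Lib.Helper6.GLStab
import Cfsg.Agent.S0749

set_option autoImplicit false
open Cfsg

namespace Cfsg.Agent.S0775

open Matrix Cfsg.Agent.Lib.Helper6 Cfsg.Agent.Lib.Helper12

variable {F : Type*} [Field F] {m : ℕ}

/-- isotropic frames. -/
def IsoFr (F : Type*) [Field F] (m k : ℕ) (f : Fin k → (Fin m ⊕ Fin m → F)) : Prop :=
  LinearIndependent F f ∧ ∀ i j, sympForm m F (f i) (f j) = 0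

theorem span_iso {k : ℕ} {f : Fin k → (Fin m ⊕ Fin m → F)}
    (h : ∀ i j, sympForm m F (f i) (f j) = 0) :
    ∀ x ∈ Submodule.span F (Set.range f), ∀ y ∈ Submodule.span F (Set.range f),
      sympForm m F x y = 0 := by
  intro x hx y hy
  induction hx using Submodule.span_induction with
  | mem x hx =>
    obtain ⟨i, rfl⟩ := hx
    induction hy using Submodule.span_induction with
    | mem y hy => obtain ⟨j, rfl⟩ := hy; exact h i j
    | zero => exact sympForm_zero_right _
    | add a b _ _ ha hb => rw [sympForm_add_right, ha, hb, add_zero]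
    | smul c a _ ha => rw [sympForm_smul_right, ha, mul_zero]
  | zero => exact sympForm_zero_left _
  | add a b _ _ ha hb => rw [sympForm_add_left, ha, hb, add_zero]
  | smul c a _ ha => rw [sympForm_smul_left, ha, mul_zero]

/-- peeling off the first vector of an isotropic frame. -/
def isoFrEquiv (F : Type*) [Field F] (m k : ℕ) :
    {f : Fin (k + 1) → (Fin m ⊕ Fin m → F) // IsoFr F m (k + 1) f} ≃
      Σ f : {f : Fin k → (Fin m ⊕ Fin m → F) // IsoFr F m k f},
        {v : Fin m ⊕ Fin m → F // (∀ i, sympForm m F (f.1 i) v = 0) ∧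
          v ∉ Submodule.span F (Set.range f.1)} where
  toFun s := ⟨⟨Fin.tail s.1, (linearIndependent_finSucc.mp s.2.1).1,
      fun i j => s.2.2 i.succ j.succ⟩,
    ⟨s.1 0, fun i => s.2.2 i.succ 0, (linearIndependent_finSucc.mp s.2.1).2⟩⟩
  invFun p := ⟨Fin.cons p.2.1 p.1.1, linearIndependent_finCons.mpr ⟨p.1.2.1, p.2.2.2⟩, by
      intro i j
      refine Fin.cases ?_ (fun i => ?_) i <;> refine Fin.cases ?_ (fun j => ?_) j
      · simp [sympForm_self]
      · simp only [Fin.cons_zero, Fin.cons_succ]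
        rw [sympForm_swap, p.2.2.1 j, neg_zero]
      · simp only [Fin.cons_zero, Fin.cons_succ]
        exact p.2.2.1 i
      · simp only [Fin.cons_succ]
        exact p.1.2.2 i j⟩
  left_inv _ := by simp only [Fin.cons_self_tail, Subtype.coe_eta]
  right_inv := fun ⟨⟨_, _⟩, ⟨_, _⟩⟩ => rfl

theorem card_ext [Fintype F] {k : ℕ} (f : Fin k → (Fin m ⊕ Fin m → F)) (hf : IsoFr F m k f) :
    Nat.card {v : Fin m ⊕ Fin m → F // (∀ i, sympForm m F (f i) v = 0) ∧
          v ∉ Submodule.span F (Set.range f)}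
      = Fintype.card F ^ (2 * m - k) - Fintype.card F ^ k := by
  classical
  obtain ⟨U, hU⟩ : ∃ U, U = Submodule.span F (Set.range f) := ⟨_, rfl⟩
  obtain ⟨P, hP⟩ : ∃ P, P = (sympB m F).orthogonal U := ⟨_, rfl⟩
  rw [← hU]
  have hmem : ∀ v, (∀ i, sympForm m F (f i) v = 0) ↔ v ∈ P := by
    intro v
    rw [hP, LinearMap.BilinForm.mem_orthogonal_iff]
    constructor
    · intro h n hn
      show sympForm m F n v = 0
      rw [hU] at hn
      induction hn using Submodule.span_induction with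
      | mem x hx => obtain ⟨i, rfl⟩ := hx; exact h i
      | zero => exact sympForm_zero_left _
      | add a b _ _ ha hb => rw [sympForm_add_left, ha, hb, add_zero]
      | smul c a _ ha => rw [sympForm_smul_left, ha, mul_zero]
    · intro h i
      exact h (f i) (by rw [hU]; exact Submodule.subset_span ⟨i, rfl⟩)
  have hUP : (U : Set (Fin m ⊕ Fin m → F)) ⊆ (P : Set (Fin m ⊕ Fin m → F)) := by
    intro v hv
    rw [SetLike.mem_coe, ← hmem]
    intro i
    rw [SetLike.mem_coe, hU] at hv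
    exact span_iso hf.2 _ (Submodule.subset_span ⟨i, rfl⟩) _ hv
  have hcU : (U : Set (Fin m ⊕ Fin m → F)).ncard = Fintype.card F ^ k := by
    rw [← Nat.card_coe_set_eq]
    show Nat.card U = _
    rw [Module.natCard_eq_pow_finrank (K := F), hU, finrank_span_eq_card hf.1, Fintype.card_fin,
      Nat.card_eq_fintype_card]
  have hcP : (P : Set (Fin m ⊕ Fin m → F)).ncard = Fintype.card F ^ (2 * m - k) := by
    rw [← Nat.card_coe_set_eq]
    show Nat.card P = _
    rw [Module.natCard_eq_pow_finrank (K := F), hP,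
      LinearMap.BilinForm.finrank_orthogonal sympB_nondegenerate, hU,
      finrank_span_eq_card hf.1, Fintype.card_fin, Nat.card_eq_fintype_card,
      Module.finrank_fintype_fun_eq_card, Fintype.card_sum, Fintype.card_fin, two_mul]
  rw [← hcU, ← hcP, ← Set.ncard_sdiff hUP (Set.toFinite _), ← Nat.card_coe_set_eq]
  refine Nat.card_congr (Equiv.subtypeEquivRight ?_)
  intro v
  rw [hmem]
  rfl

theorem card_isoFr [Fintype F] (k : ℕ) :
    Nat.card {f : Fin k → (Fin m ⊕ Fin m → F) // IsoFr F m k f}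
      = ∏ i ∈ Finset.range k, (Fintype.card F ^ (2 * m - i) - Fintype.card F ^ i) := by
  classical
  induction k with
  | zero =>
    rw [Finset.range_zero, Finset.prod_empty, Nat.card_eq_one_iff_unique]
    refine ⟨⟨fun a b => Subtype.ext (funext fun i => i.elim0)⟩,
      ⟨⟨fun i => i.elim0, linearIndependent_empty_type, fun i => i.elim0⟩⟩⟩
  | succ k ih =>
    haveI : Fintype {f : Fin k → (Fin m ⊕ Fin m → F) // IsoFr F m k f} := Fintype.ofFinite _
    rw [Nat.card_congr (isoFrEquiv F m k), Nat.card_sigma, Finset.prod_range_succ, ← ih,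
      Finset.sum_congr rfl (fun f _ => card_ext f.1 f.2), Finset.sum_const, Finset.card_univ,
      smul_eq_mul, Nat.card_eq_fintype_card]

/-- the action of `Sp` on tuples of vectors. -/
@[reducible] def frAct (F : Type*) [Field F] (m k : ℕ) :
    MulAction (symplecticGroup (Fin m) F) (Fin k → (Fin m ⊕ Fin m → F)) where
  smul g f := fun i => (g : Matrix (Fin m ⊕ Fin m) (Fin m ⊕ Fin m) F) *ᵥ f i
  one_smul f := by
    funext i
    change (1 : Matrix (Fin m ⊕ Fin m) (Fin m ⊕ Fin m) F) *ᵥ f i = f i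
    simp
  mul_smul g h f := by
    funext i
    change ((g : Matrix (Fin m ⊕ Fin m) (Fin m ⊕ Fin m) F)
        * (h : Matrix (Fin m ⊕ Fin m) (Fin m ⊕ Fin m) F)) *ᵥ f i
      = (g : Matrix (Fin m ⊕ Fin m) (Fin m ⊕ Fin m) F) *ᵥ
          ((h : Matrix (Fin m ⊕ Fin m) (Fin m ⊕ Fin m) F) *ᵥ f i)
    rw [Matrix.mulVec_mulVec]

theorem exists_sp_map {k : ℕ} (f f' : Fin k → (Fin m ⊕ Fin m → F)) (hf : IsoFr F m k f)
    (hf' : IsoFr F m k f') :
    ∃ g : symplecticGroup (Fin m) F, ∀ i,
      (g : Matrix (Fin m ⊕ Fin m) (Fin m ⊕ Fin m) F) *ᵥ f i = f' i := by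
  let b := Module.Basis.span hf.1
  let b' := Module.Basis.span hf'.1
  let φ := b.equiv b' (Equiv.refl _)
  obtain ⟨g, hg, hgφ⟩ := Cfsg.Agent.S0749.result (sympB m F) sympB_nondegenerate sympB_isAlt _ _ φ (by
    intro x x'
    rw [sympB_apply, sympB_apply, span_iso hf.2 _ x.2 _ x'.2, span_iso hf'.2 _ (φ x).2 _ (φ x').2])
  refine ⟨⟨LinearMap.toMatrix' g.toLinearMap, ?_⟩, ?_⟩
  · rw [mem_symplecticGroup_iff_sympForm]
    intro u v
    rw [LinearMap.toMatrix'_mulVec, LinearMap.toMatrix'_mulVec]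
    exact hg u v
  · intro i
    show LinearMap.toMatrix' g.toLinearMap *ᵥ f i = f' i
    rw [LinearMap.toMatrix'_mulVec]
    have := hgφ (b i)
    have h1 : φ (b i) = b' i := by simp [φ]
    have h2 : ((b i : Submodule.span F (Set.range f)) : Fin m ⊕ Fin m → F) = f i :=
      congrArg Subtype.val (Module.Basis.span_apply hf.1 i)
    have h3 : ((b' i : Submodule.span F (Set.range f')) : Fin m ⊕ Fin m → F) = f' i :=
      congrArg Subtype.val (Module.Basis.span_apply hf'.1 i)
    rw [h1, h2, h3] at this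
    exact this

theorem isoFr_smul {k : ℕ} (g : symplecticGroup (Fin m) F) (f : Fin k → (Fin m ⊕ Fin m → F))
    (hf : IsoFr F m k f) :
    IsoFr F m k (fun i => (g : Matrix (Fin m ⊕ Fin m) (Fin m ⊕ Fin m) F) *ᵥ f i) := by
  refine ⟨?_, fun i j => by rw [sympForm_mulVec]; exact hf.2 i j⟩
  have := hf.1.map' (Matrix.mulVecLin (g : Matrix (Fin m ⊕ Fin m) (Fin m ⊕ Fin m) F)) (by
    rw [LinearMap.ker_eq_bot']
    intro v hv
    apply sympForm_nondeg_left
    intro z
    have hv' : (g : Matrix (Fin m ⊕ Fin m) (Fin m ⊕ Fin m) F) *ᵥ v = 0 := hv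
    rw [← sympForm_mulVec m g, hv', sympForm_zero_left])
  exact this

theorem arith (q m : ℕ) : ∀ k, k ≤ m →
    q ^ (k * (k + 1) / 2 + 2 * k * (m - k)) *
        (q ^ ((m - k) ^ 2) * ∏ i ∈ Finset.range (m - k), (q ^ (2 * (i + 1)) - 1))
      * ∏ i ∈ Finset.range k, (q ^ (2 * m - i) - q ^ i)
    = q ^ (m ^ 2) * ∏ i ∈ Finset.range m, (q ^ (2 * (i + 1)) - 1) := by
  intro k
  induction k with
  | zero => intro _; simp
  | succ k ih =>
    intro hk
    have ih' := ih (by omega)
    obtain ⟨d, rfl⟩ : ∃ d, m = k + 1 + d := ⟨m - (k + 1), by omega⟩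
    rw [← ih']
    have e1 : k + 1 + d - (k + 1) = d := by omega
    have e2 : k + 1 + d - k = d + 1 := by omega
    rw [e1, e2, Finset.prod_range_succ, Finset.prod_range_succ]
    have e3 : (k + 1) * (k + 1 + 1) / 2 = k * (k + 1) / 2 + (k + 1) := by
      have : (k + 1) * (k + 1 + 1) = k * (k + 1) + 2 * (k + 1) := by ring
      rw [this, Nat.add_mul_div_left _ _ (by norm_num)]
    have e4 : q ^ (2 * (k + 1 + d) - k) - q ^ k = q ^ k * (q ^ (2 * (d + 1)) - 1) := by
      have : 2 * (k + 1 + d) - k = k + 2 * (d + 1) := by omega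
      rw [this, pow_add, Nat.mul_sub, mul_one]
    rw [e3, e4]
    generalize (∏ i ∈ Finset.range d, (q ^ (2 * (i + 1)) - 1)) = A
    generalize (∏ i ∈ Finset.range k, (q ^ (2 * (k + 1 + d) - i) - q ^ i)) = B
    generalize (q ^ (2 * (d + 1)) - 1) = C
    generalize k * (k + 1) / 2 = T
    ring

/-- Maximal parabolics of the symplectic group: if W is a k-dimensional subspace of F^(2m) on which the symplectic form vanishes identically, its stabiliser in Sp_2m(q) has order q^(k(k+1)/2 + 2k(m−k)) · |Sp_(2m−2k)(q)| · |GL_k(q)|. -/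
theorem result {F : Type*} [Field F] [Fintype F] {q : ℕ} (hF : Fintype.card F = q) (m k : ℕ) (hk : k ≤ m) (W : Submodule F (Fin m ⊕ Fin m → F)) (hWk : Module.finrank F W = k) (hW : ∀ u ∈ W, ∀ v ∈ W, Cfsg.sympForm m F u v = 0) : Nat.card ↥(Cfsg.stabilizing (Cfsg.spToMat m F) (W : Set (Fin m ⊕ Fin m → F))) = q ^ (k * (k + 1) / 2 + 2 * k * (m - k)) * (q ^ ((m - k) ^ 2) * ∏ i ∈ Finset.range (m - k), (q ^ (2 * (i + 1)) - 1)) * ∏ i : Fin k, (q ^ k - q ^ (i : ℕ)) := by
  classical
  letI := frAct F m k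
  have hsmul : ∀ (g : symplecticGroup (Fin m) F) (f : Fin k → (Fin m ⊕ Fin m → F)) (i : Fin k),
      (g • f) i = (g : Matrix (Fin m ⊕ Fin m) (Fin m ⊕ Fin m) F) *ᵥ f i := fun _ _ _ => rfl
  let b := Module.finBasisOfFinrankEq F W hWk
  obtain ⟨f₀, hf₀def⟩ : ∃ f₀ : Fin k → (Fin m ⊕ Fin m → F),
      ∀ i, f₀ i = (b i : Fin m ⊕ Fin m → F) := ⟨_, fun _ => rfl⟩
  have hf₀W : ∀ i, f₀ i ∈ W := fun i => by rw [hf₀def]; exact (b i).2
  have hli₀ : LinearIndependent F f₀ := by
    have := b.linearIndependent.map' W.subtype (Submodule.ker_subtype _)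
    have h2 : f₀ = W.subtype ∘ b := funext fun i => hf₀def i
    rw [h2]; exact this
  have hf₀ : IsoFr F m k f₀ := ⟨hli₀, fun i j => hW _ (hf₀W i) _ (hf₀W j)⟩
  have hspan : Submodule.span F (Set.range f₀) = W := by
    apply Submodule.eq_of_le_of_finrank_eq
    · rw [Submodule.span_le]; rintro _ ⟨i, rfl⟩; exact hf₀W i
    · rw [finrank_span_eq_card hli₀, Fintype.card_fin, hWk]
  have hmemS : ∀ g : symplecticGroup (Fin m) F,
      (∀ i, (g : Matrix (Fin m ⊕ Fin m) (Fin m ⊕ Fin m) F) *ᵥ f₀ i ∈ W) →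
      g ∈ stabilizing (spToMat m F) (W : Set (Fin m ⊕ Fin m → F)) := by
    intro g hg
    rw [mem_stabilizing_submodule_iff]
    intro v hv
    rw [← hspan] at hv
    induction hv using Submodule.span_induction with
    | mem x hx => obtain ⟨i, rfl⟩ := hx; exact hg i
    | zero => rw [Matrix.mulVec_zero]; exact W.zero_mem
    | add a b _ _ ha hb => rw [Matrix.mulVec_add]; exact W.add_mem ha hb
    | smul c a _ ha => rw [Matrix.mulVec_smul]; exact W.smul_mem c ha
  have h1 : Nat.card (MulAction.stabilizer (symplecticGroup (Fin m) F) f₀) *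
      Nat.card {f : Fin k → (Fin m ⊕ Fin m → F) // IsoFr F m k f}
      = Nat.card (symplecticGroup (Fin m) F) := by
    have h := (MulAction.stabilizer (symplecticGroup (Fin m) F) f₀).card_mul_index
    rw [MulAction.index_stabilizer] at h
    have horb : MulAction.orbit (symplecticGroup (Fin m) F) f₀ = {f | IsoFr F m k f} := by
      ext f
      constructor
      · rintro ⟨g, rfl⟩
        exact isoFr_smul g f₀ hf₀
      · intro hf
        obtain ⟨g, hg⟩ := exists_sp_map f₀ f hf₀ hf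
        exact ⟨g, funext hg⟩
    rw [horb, ← Nat.card_coe_set_eq] at h
    exact h
  have hTS : MulAction.stabilizer (symplecticGroup (Fin m) F) f₀
      ≤ stabilizing (spToMat m F) (W : Set (Fin m ⊕ Fin m → F)) := by
    intro g hg
    apply hmemS
    intro i
    have := congrFun (MulAction.mem_stabilizer_iff.mp hg) i
    rw [hsmul] at this
    rw [this]; exact hf₀W i
  have h2 : Nat.card (MulAction.stabilizer (symplecticGroup (Fin m) F) f₀) *
      Nat.card {s : Fin k → W // LinearIndependent F s}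
      = Nat.card (stabilizing (spToMat m F) (W : Set (Fin m ⊕ Fin m → F))) := by
    have h := (MulAction.stabilizer
      (stabilizing (spToMat m F) (W : Set (Fin m ⊕ Fin m → F))) f₀).card_mul_index
    rw [MulAction.index_stabilizer] at h
    have hst : MulAction.stabilizer (stabilizing (spToMat m F) (W : Set (Fin m ⊕ Fin m → F))) f₀
        = (MulAction.stabilizer (symplecticGroup (Fin m) F) f₀).subgroupOf
          (stabilizing (spToMat m F) (W : Set (Fin m ⊕ Fin m → F))) := by
      ext g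
      rw [MulAction.mem_stabilizer_iff, Subgroup.mem_subgroupOf, MulAction.mem_stabilizer_iff]
      rfl
    have horb : MulAction.orbit (stabilizing (spToMat m F) (W : Set (Fin m ⊕ Fin m → F))) f₀
        = {f | LinearIndependent F f ∧ ∀ i, f i ∈ W} := by
      ext f
      constructor
      · rintro ⟨g, rfl⟩
        refine ⟨(isoFr_smul g.1 f₀ hf₀).1, fun i => ?_⟩
        exact (mem_stabilizing_submodule_iff _ _ _).mp g.2 _ (hf₀W i)
      · rintro ⟨hli, hfW⟩
        obtain ⟨g, hg⟩ := exists_sp_map f₀ f hf₀ ⟨hli, fun i j => hW _ (hfW i) _ (hfW j)⟩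
        exact ⟨⟨g, hmemS g (fun i => by rw [hg]; exact hfW i)⟩, funext hg⟩
    rw [hst, horb, ← Nat.card_coe_set_eq,
      Nat.card_congr (Subgroup.subgroupOfEquivOfLe hTS).toEquiv] at h
    rw [← h]
    congr 1
    exact Nat.card_congr ⟨fun s => ⟨fun i => (s.1 i : Fin m ⊕ Fin m → F),
        s.2.map' W.subtype (Submodule.ker_subtype _), fun i => (s.1 i).2⟩,
      fun f => ⟨fun i => ⟨f.1 i, f.2.2 i⟩, LinearIndependent.of_comp W.subtype f.2.1⟩,
      fun s => rfl, fun f => rfl⟩
  have h3 := card_isoFr (F := F) (m := m) k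
  have h4 := card_linearIndependent (K := F) (V := W) (k := k) (by rw [hWk])
  rw [hWk, hF] at h4
  rw [hF] at h3
  have h5 := card_Sp hF m
  have h6 := arith q m k hk
  have hI : 0 < Nat.card {f : Fin k → (Fin m ⊕ Fin m → F) // IsoFr F m k f} := by
    haveI : Nonempty {f : Fin k → (Fin m ⊕ Fin m → F) // IsoFr F m k f} := ⟨⟨f₀, hf₀⟩⟩
    exact Nat.card_pos
  apply Nat.eq_of_mul_eq_mul_right hI
  rw [← h2, h4]
  have key : Nat.card (MulAction.stabilizer (symplecticGroup (Fin m) F) f₀) *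
      Nat.card {f : Fin k → (Fin m ⊕ Fin m → F) // IsoFr F m k f}
      = q ^ (k * (k + 1) / 2 + 2 * k * (m - k)) *
        (q ^ ((m - k) ^ 2) * ∏ i ∈ Finset.range (m - k), (q ^ (2 * (i + 1)) - 1)) *
      Nat.card {f : Fin k → (Fin m ⊕ Fin m → F) // IsoFr F m k f} := by
    rw [h1, h5, h3, h6]
  rw [mul_right_comm, key, mul_right_comm]


end Cfsg.Agent.S0775
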