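import Cfsg.Statements.S0756
import Cfsg.Agent.Lib.Helper6.SymmFinite

set_option autoImplicit false
open Cfsg

namespace Cfsg.Agent.S0756

/-- Classification of symmetric bilinear forms over finite fields of odd characteristic: if B is non-degenerate symmetric on V of dimension n + 1 and α is a fixed non-square of F, there is an orthogonal basis b_0, ..., b_n with B(b_i, b_i) = 1 for i < n and B(b_n, b_n) ∈ {1, α}. -/
theorem result {F V : Type*} [Field F] [Finite F] [AddCommGroup V] [Module F V] [FiniteDimensional F V] (h2 : (2 : F) ≠ 0) (B : LinearMap.BilinForm F V) (hS : B.IsSymm) (hB : B.Nondegenerate) {n : ℕ} (hn : Module.finrank F V = n + 1) (α : F) (hα : ¬ IsSquare α) : ∃ b : Module.Basis (Fin (n + 1)) F V, (∀ i j, i ≠ j → B (b i) (b j) = 0) ∧ (∀ i, i ≠ Fin.last n → B (b i) (b i) = 1) ∧ (B (b (Fin.last n)) (b (Fin.last n)) = 1 ∨ B (b (Fin.last n)) (b (Fin.last n)) = α) := by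
  obtain ⟨b, hb1, hb2, hb3⟩ := Cfsg.Agent.Lib.Helper6.sf_exists_family h2 α hα n B hS hB hn
  have hα0 : α ≠ 0 := by rintro rfl; exact hα IsSquare.zero
  have hself : ∀ i, B (b i) (b i) ≠ 0 := by
    intro i
    by_cases hi : i = Fin.last n
    · rw [hi]
      rcases hb3 with h | h <;> rw [h]
      · exact one_ne_zero
      · exact hα0
    · rw [hb2 i hi]; exact one_ne_zero
  have hli : LinearIndependent F b := by
    rw [Fintype.linearIndependent_iff]
    intro c hc j
    have := congrArg (fun x => B (b j) x) hc
    simp only [map_sum, map_smul, smul_eq_mul, map_zero] at this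
    rw [Finset.sum_eq_single j (fun i _ hij => by rw [hb1 j i hij.symm, mul_zero])
      (fun h => absurd (Finset.mem_univ j) h)] at this
    exact (mul_eq_zero.mp this).resolve_right (hself j)
  have hsp : ⊤ ≤ Submodule.span F (Set.range b) :=
    (hli.span_eq_top_of_card_eq_finrank' (by simp [hn])).ge
  refine ⟨Module.Basis.mk hli hsp, ?_, ?_, ?_⟩
  · intro i j hij
    simp only [Module.Basis.mk_apply]
    exact hb1 i j hij
  · intro i hi
    simp only [Module.Basis.mk_apply]
    exact hb2 i hi
  · simp only [Module.Basis.mk_apply]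
    exact hb3

end Cfsg.Agent.S0756
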