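import Cfsg.Statements.S2613
import Cfsg.Agent.Lib.Helper16.Orth7
import Cfsg.Agent.Lib.Helper16.StdForms

set_option autoImplicit false

open Cfsg

namespace Cfsg.Agent.S2613

open Cfsg.Agent.Lib.Helper16

theorem result {F : Type*} [Field F] [Fintype F] {q : ℕ} (hF : Fintype.card F = q) (hq : Odd q) {m : ℕ} (i : ℕ) (hi : 1 ≤ i) (him : i ≤ m) : (∃ g : ↥(Cfsg.isometryGroup F (Cfsg.quadFormPlus m F)), g ∈ Cfsg.Omega F (Cfsg.quadFormPlus m F) ∧ ((g : Matrix.GeneralLinearGroup (Fin m ⊕ Fin m) F) : Matrix (Fin m ⊕ Fin m) (Fin m ⊕ Fin m) F) = Matrix.diagonal (fun k : Fin m ⊕ Fin m => if (Sum.elim (fun j : Fin m => (j : ℕ)) (fun j : Fin m => (j : ℕ)) k) < i then (-1 : F) else 1)) ↔ q ^ i % 4 = 1 := by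
  have h2 : (2 : F) ≠ 0 := two_ne_zero_of_odd_card (by rw [hF]; exact hq)
  rw [← isSquare_neg_one_pow_iff_mod4 hF hq i, ← qPlus_coe]
  apply diag_neg_iff (qPlus m F) h2 qPlus_nondeg (fun j => Sum.inl j) (fun j => Sum.inr j)
    (Sum.elim (fun j : Fin m => (j : ℕ)) (fun j : Fin m => (j : ℕ))) _ _ _ _ _ _ _ i him
  · intro k _
    rcases k with j | j
    · exact ⟨j, Or.inl rfl⟩
    · exact ⟨j, Or.inr rfl⟩
  · intro j
    rw [qPlus_apply, quadFormPlus]
    simp
  · intro j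
    rw [qPlus_apply, quadFormPlus]
    simp
  · intro j x
    rw [QuadraticMap.polarBilin_apply_apply, qPlus_coe, polar_plus]
    simp [Pi.single_apply]
  · intro j x
    rw [QuadraticMap.polarBilin_apply_apply, qPlus_coe, polar_plus]
    simp [Pi.single_apply]
  · intro j; simp
  · intro j; simp
  · intro j; simp

end Cfsg.Agent.S2613
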