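import Cfsg.Statements.S0791
import Cfsg.Agent.Lib.Helper16.Orth14

set_option autoImplicit false

open Cfsg

namespace Cfsg.Agent.S0791

open Cfsg.Agent.Lib.Helper16

theorem result {F : Type*} [Field F] [Fintype F] {q : ℕ} (hF : Fintype.card F = q) (hodd : Odd q) (m : ℕ) (hm : 1 ≤ m) (a b : F) (hab : ∀ z₁ z₂ : F, z₁ ^ 2 + a * z₁ * z₂ + b * z₂ ^ 2 = 0 → z₁ = 0 ∧ z₂ = 0) : (∃ g : ↥(Cfsg.isometryGroup F (Cfsg.quadFormMinus (m - 1) F a b)), g ∈ Cfsg.Omega F (Cfsg.quadFormMinus (m - 1) F a b) ∧ ((g : Matrix.GeneralLinearGroup ((Fin (m - 1) ⊕ Fin (m - 1)) ⊕ Fin 2) F) : Matrix ((Fin (m - 1) ⊕ Fin (m - 1)) ⊕ Fin 2) ((Fin (m - 1) ⊕ Fin (m - 1)) ⊕ Fin 2) F) = -1) ↔ q ^ m % 4 = 3 := by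
  have h2 : (2 : F) ≠ 0 := two_ne_zero_of_odd_card (by rw [hF]; exact hodd)
  rw [← qMinus_coe, neg_one_mem_iff _ h2 (by simp; exact ⟨(m - 1) + 1, by ring⟩)
    (qMinus_nondeg a b hab), gram_minus_det]
  have hns : ¬ IsSquare (a ^ 2 - 4 * b) := by
    rintro ⟨s, hs⟩
    have := hab ((s - a) / 2) 1 (by field_simp; linear_combination -hs)
    exact one_ne_zero this.2
  have hne : a ^ 2 - 4 * b ≠ 0 := by
    intro h0
    exact hns (by rw [h0]; exact IsSquare.zero)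
  have e1 : (-1 : F) ^ (m - 1) * (4 * b - a ^ 2) = (-1) ^ m * (a ^ 2 - 4 * b) := by
    obtain ⟨k, rfl⟩ : ∃ k, m = k + 1 := ⟨m - 1, by omega⟩
    simp only [Nat.add_sub_cancel, pow_succ]
    ring
  rw [e1, isSquare_mul_iff (pow_ne_zero _ (by simp)) hne, isSquare_neg_one_pow_iff_mod4 hF hodd m]
  have h4 : q ^ m % 4 = 1 ∨ q ^ m % 4 = 3 := by
    have : Odd (q ^ m) := hodd.pow
    obtain ⟨k, hk⟩ := this
    omega
  constructor
  · intro h
    rcases h4 with h4 | h4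
    · exact absurd (h.1 h4) hns
    · exact h4
  · intro h
    constructor
    · intro h'; omega
    · intro h'; exact absurd h' hns

end Cfsg.Agent.S0791
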