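import Cfsg.Statements.S0246
import Cfsg.Agent.Lib.Helper12.SpPerfect

set_option autoImplicit false
open Cfsg

namespace Cfsg.Agent.S0246

open Matrix Cfsg Cfsg.Agent.Lib.Helper6 Cfsg.Agent.Lib.Helper12

theorem exists_scalar {F : Type*} [Field F] {m : ℕ} (A : symplecticGroup (Fin m) F)
    (hA : A ∈ Subgroup.center (symplecticGroup (Fin m) F)) :
    ∃ a : F, ∀ x, (A : Matrix (Fin m ⊕ Fin m) (Fin m ⊕ Fin m) F) *ᵥ x = a • x := by
  obtain ⟨a, ha⟩ := (Matrix.mulVecLin
      (A : Matrix (Fin m ⊕ Fin m) (Fin m ⊕ Fin m) F)).exists_eq_smul_id_of_forall_notLinearIndependent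
    (fun v => by
      by_cases hv : v = 0
      · simp [hv, linearIndependent_fin2]
      · obtain ⟨y, hy⟩ := exists_sympForm_eq_one m v hv
        have h1 : spT m ((A : Matrix (Fin m ⊕ Fin m) (Fin m ⊕ Fin m) F) *ᵥ v) 1 = spT m v 1 := by
          rw [← conj_spT, ← (Subgroup.mem_center_iff.mp hA (spT m v 1)), mul_inv_cancel_right]
        have h2 := congrArg (fun B : symplecticGroup (Fin m) F =>
          (B : Matrix (Fin m ⊕ Fin m) (Fin m ⊕ Fin m) F) *ᵥ y) h1
        simp only [spT_mulVec, one_mul, add_right_inj] at h2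
        rw [sympForm_swap y v, hy] at h2
        set c := sympForm m F y ((A : Matrix (Fin m ⊕ Fin m) (Fin m ⊕ Fin m) F) *ᵥ v) with hc
        have hc0 : c ≠ 0 := by
          intro h0
          rw [h0, zero_smul] at h2
          apply hv
          have : -v = 0 := by simpa using h2.symm
          simpa using this
        simp only [LinearIndependent.pair_iff' hv, Matrix.mulVecLin_apply, not_forall, not_not]
        refine ⟨-c⁻¹, ?_⟩
        calc (-c⁻¹) • v = c⁻¹ • ((-1 : F) • v) := by module
          _ = c⁻¹ • (c • ((A : Matrix (Fin m ⊕ Fin m) (Fin m ⊕ Fin m) F) *ᵥ v)) := by rw [h2]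
          _ = _ := by rw [smul_smul, inv_mul_cancel₀ hc0, one_smul])
  refine ⟨a, fun x => ?_⟩
  have := congrArg (fun f => f x) ha
  simpa using this

theorem scalar_cases {F : Type*} [Field F] {m : ℕ} (hm : 1 ≤ m) (A : symplecticGroup (Fin m) F)
    (hA : A ∈ Subgroup.center (symplecticGroup (Fin m) F)) :
    (∀ x, (A : Matrix (Fin m ⊕ Fin m) (Fin m ⊕ Fin m) F) *ᵥ x = x) ∨
    (∀ x, (A : Matrix (Fin m ⊕ Fin m) (Fin m ⊕ Fin m) F) *ᵥ x = -x) := by
  obtain ⟨a, ha⟩ := exists_scalar A hA
  obtain ⟨y, hy⟩ := exists_sympForm_eq_one m (Pi.single (Sum.inl ⟨0, hm⟩) 1 : Fin m ⊕ Fin m → F)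
    (single_ne_zero' _)
  have h1 := sympForm_mulVec m A (Pi.single (Sum.inl ⟨0, hm⟩) 1) y
  rw [ha, ha, sympForm_smul_left, sympForm_smul_right, hy, mul_one] at h1
  rcases mul_self_eq_one_iff.mp h1 with h | h
  · left; intro x; rw [ha, h, one_smul]
  · right; intro x; rw [ha, h, neg_smul, one_smul]


/-- The centre of Sp_{2m}(q), m at least 1, is {1, -1}: it has order gcd(2, q-1). -/
theorem result {F : Type*} [Field F] [Fintype F] {q : ℕ} (hF : Fintype.card F = q) (m : ℕ) (hm : 1 ≤ m) : Nat.card (Subgroup.center (Matrix.symplecticGroup (Fin m) F)) = Nat.gcd 2 (q - 1) := by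
  subst hF
  by_cases h2 : (2 : F) = 0
  · have hc : ringChar F = 2 := CharP.ringChar_of_prime_eq_zero Nat.prime_two (by exact_mod_cast h2)
    have hev := FiniteField.even_card_of_char_two hc
    have hpos : 0 < Fintype.card F := Fintype.card_pos
    have hg : Nat.gcd 2 (Fintype.card F - 1) = 1 := by
      have hodd : (Fintype.card F - 1) % 2 = 1 := by omega
      rw [Nat.gcd_rec, hodd]
      rfl
    rw [hg, Subgroup.card_eq_one, eq_bot_iff]
    intro A hA
    rw [Subgroup.mem_bot]
    apply sp_ext
    intro x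
    have hneg : -x = x := by
      have : x + x = 0 := by rw [← two_smul F x, h2, zero_smul]
      exact neg_eq_of_add_eq_zero_left this
    rcases scalar_cases hm A hA with h | h
    · rw [h]; simp
    · rw [h, hneg]; simp
  · have hodd : Fintype.card F % 2 = 1 := by
      by_contra hcon
      have hev : Fintype.card F % 2 = 0 := by omega
      have hc := FiniteField.even_card_iff_char_two.mpr hev
      apply h2
      have : CharP F 2 := by rw [← hc]; exact ringChar.charP F
      exact_mod_cast CharP.cast_eq_zero F 2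
    have hg : Nat.gcd 2 (Fintype.card F - 1) = 2 := by
      apply Nat.gcd_eq_left
      omega
    rw [hg, Nat.card_eq_two_iff]
    let N : symplecticGroup (Fin m) F := ⟨-1, SymplecticGroup.neg_mem (one_mem _)⟩
    have hN : ∀ x, (N : Matrix (Fin m ⊕ Fin m) (Fin m ⊕ Fin m) F) *ᵥ x = -x := by
      intro x
      show (-1 : Matrix (Fin m ⊕ Fin m) (Fin m ⊕ Fin m) F) *ᵥ x = -x
      rw [neg_mulVec, one_mulVec]
    have hNc : N ∈ Subgroup.center (symplecticGroup (Fin m) F) := by
      rw [Subgroup.mem_center_iff]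
      intro B
      apply sp_ext
      intro x
      rw [sp_mul_mulVec, sp_mul_mulVec, hN, hN, mulVec_neg]
    refine ⟨1, ⟨N, hNc⟩, ?_, ?_⟩
    · intro h
      have h1 : (1 : symplecticGroup (Fin m) F) = N := congrArg Subtype.val h
      have h3 := congrArg (fun B : symplecticGroup (Fin m) F =>
        ((B : Matrix (Fin m ⊕ Fin m) (Fin m ⊕ Fin m) F) *ᵥ (Pi.single (Sum.inl ⟨0, hm⟩) 1))
          (Sum.inl ⟨0, hm⟩)) h1
      simp only [hN] at h3
      simp at h3
      apply h2
      linear_combination h3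
    · rw [Set.eq_univ_iff_forall]
      rintro ⟨A, hA⟩
      rcases scalar_cases hm A hA with h | h
      · left
        apply Subtype.ext
        apply sp_ext
        intro x
        rw [h]; simp
      · right
        apply Subtype.ext
        apply sp_ext
        intro x
        rw [h, hN]

end Cfsg.Agent.S0246
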