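import Cfsg.Statements.S1466
import Cfsg.Agent.Lib.Helper11.PGroup

set_option autoImplicit false
open Cfsg

namespace Cfsg.Agent.S1466

/-- Let p be a prime and R a nontrivial finite p-group. Then for every i > 0, Z(R) ≤ C_R(L_i(R)) ≤ L_i(R); likewise Z(R) ≤ C_R(L_*(R)) ≤ L_*(R) and Z(R) ≤ C_R(L(R)) ≤ L(R); and L(R) ≠ 1, L_*(R) ≠ 1. -/
theorem result {R : Type*} [Group R] [Finite R] (p : ℕ) [Fact p.Prime] (hR : IsPGroup p R) [Nontrivial R] :
    (∀ i : ℕ, 0 < i → Subgroup.center R ≤ Subgroup.centralizer ((Cfsg.puigSeq R i : Subgroup R) : Set R) ∧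
        Subgroup.centralizer ((Cfsg.puigSeq R i : Subgroup R) : Set R) ≤ Cfsg.puigSeq R i) ∧
      (Subgroup.center R ≤ Subgroup.centralizer ((Cfsg.puigLower R : Subgroup R) : Set R) ∧ Subgroup.centralizer ((Cfsg.puigLower R : Subgroup R) : Set R) ≤ Cfsg.puigLower R) ∧
      (Subgroup.center R ≤ Subgroup.centralizer ((Cfsg.puigSubgroup R : Subgroup R) : Set R) ∧ Subgroup.centralizer ((Cfsg.puigSubgroup R : Subgroup R) : Set R) ≤ Cfsg.puigSubgroup R) ∧
      Cfsg.puigSubgroup R ≠ ⊥ ∧ Cfsg.puigLower R ≠ ⊥ := by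
  obtain ⟨A, hAn, hAc, hAC⟩ := Cfsg.Agent.Lib.Helper11.exists_normal_abelian_self_centralizing p hR
  have hstep : ∀ X : Subgroup R, A ≤ Cfsg.puigStep X := by
    intro X
    unfold Cfsg.puigStep
    apply le_sSup
    refine ⟨hAc, ?_⟩
    rw [Subgroup.normalizer_eq_top]
    exact le_top
  have hseq : ∀ i : ℕ, 0 < i → A ≤ Cfsg.puigSeq R i := by
    intro i hi
    obtain ⟨j, rfl⟩ := Nat.exists_eq_succ_of_ne_zero hi.ne'
    exact hstep _
  have hlow : A ≤ Cfsg.puigLower R := by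
    unfold Cfsg.puigLower
    exact (hseq (2 * 1) (by norm_num)).trans (le_iSup (fun n => Cfsg.puigSeq R (2 * n)) 1)
  have hup : A ≤ Cfsg.puigSubgroup R := by
    unfold Cfsg.puigSubgroup
    exact le_iInf (fun n => hseq _ (Nat.succ_pos _))
  have key : ∀ Y : Subgroup R, A ≤ Y → Subgroup.center R ≤ Subgroup.centralizer (Y : Set R) ∧
      Subgroup.centralizer (Y : Set R) ≤ Y := by
    intro Y hY
    refine ⟨Subgroup.center_le_centralizer _, ?_⟩
    exact ((Subgroup.centralizer_le (SetLike.coe_subset_coe.mpr hY)).trans hAC).trans hY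
  have hA1 : A ≠ ⊥ := by
    rintro rfl
    have : (⊤ : Subgroup R) ≤ ⊥ := by
      have h := hAC
      rwa [Subgroup.coe_bot, Subgroup.centralizer_eq_top_iff_subset.mpr (by simp)] at h
    exact top_ne_bot (le_bot_iff.mp this)
  refine ⟨fun i hi => key _ (hseq i hi), key _ hlow, key _ hup, ?_, ?_⟩
  · intro h
    exact hA1 (le_bot_iff.mp (h ▸ hup))
  · intro h
    exact hA1 (le_bot_iff.mp (h ▸ hlow))

end Cfsg.Agent.S1466
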