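import Cfsg.Statements.S1467
import Mathlib

set_option autoImplicit false
open Cfsg

namespace Cfsg.Agent.S1467

theorem puigStep_anti {G : Type*} [Group G] {X Y : Subgroup G} (h : X ≤ Y) :
    Cfsg.puigStep Y ≤ Cfsg.puigStep X := by
  unfold Cfsg.puigStep
  apply sSup_le_sSup
  rintro A ⟨hA, hY⟩
  exact ⟨hA, h.trans hY⟩

theorem puigSeq_succ {G : Type*} [Group G] (n : ℕ) :
    Cfsg.puigSeq G (n + 1) = Cfsg.puigStep (Cfsg.puigSeq G n) := rfl

theorem puigSeq_one {G : Type*} [Group G] : Cfsg.puigSeq G 1 = ⊤ := by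
  rw [eq_top_iff]
  intro g _
  show g ∈ Cfsg.puigStep (⊥ : Subgroup G)
  unfold Cfsg.puigStep
  have : Subgroup.zpowers g ≤ sSup {A : Subgroup G | IsMulCommutative A ∧ (⊥ : Subgroup G) ≤ Subgroup.normalizer (A : Set G)} := by
    apply le_sSup
    refine ⟨?_, bot_le⟩
    infer_instance
  exact this (Subgroup.mem_zpowers g)

theorem even_mono {G : Type*} [Group G] (n : ℕ) :
    Cfsg.puigSeq G (2 * n) ≤ Cfsg.puigSeq G (2 * n + 2) := by
  induction n with
  | zero => exact bot_le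
  | succ k ih =>
    have h1 : Cfsg.puigSeq G (2 * k + 3) ≤ Cfsg.puigSeq G (2 * k + 1) := puigStep_anti ih
    exact puigStep_anti h1

theorem odd_anti {G : Type*} [Group G] (n : ℕ) :
    Cfsg.puigSeq G (2 * n + 3) ≤ Cfsg.puigSeq G (2 * n + 1) := puigStep_anti (even_mono n)

theorem even_monotone {G : Type*} [Group G] : Monotone (fun n => Cfsg.puigSeq G (2 * n)) :=
  monotone_nat_of_le_succ (fun n => even_mono n)

theorem odd_antitone {G : Type*} [Group G] : Antitone (fun n => Cfsg.puigSeq G (2 * n + 1)) :=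
  antitone_nat_of_succ_le (fun n => odd_anti n)

theorem even_le_succ {G : Type*} [Group G] (k : ℕ) :
    Cfsg.puigSeq G (2 * k) ≤ Cfsg.puigSeq G (2 * k + 1) := by
  induction k with
  | zero => exact bot_le
  | succ k ih =>
    have h1 : Cfsg.puigSeq G (2 * k + 2) ≤ Cfsg.puigSeq G (2 * k + 1) := puigStep_anti ih
    exact puigStep_anti h1

theorem even_le_odd {G : Type*} [Group G] (n m : ℕ) :
    Cfsg.puigSeq G (2 * n) ≤ Cfsg.puigSeq G (2 * m + 1) :=
  calc Cfsg.puigSeq G (2 * n) ≤ Cfsg.puigSeq G (2 * (max n m)) := even_monotone (le_max_left n m)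
    _ ≤ Cfsg.puigSeq G (2 * (max n m) + 1) := even_le_succ _
    _ ≤ Cfsg.puigSeq G (2 * m + 1) := odd_antitone (le_max_right n m)

/-- Let G be a finite group with Puig series L_n(G). Then L_0 = 1, L_1 = G; L_{2n} ≤ L_{2n+2} ≤ L_{2m+3} ≤ L_{2m+1} for all n, m; there is k with L_{2n}(G) = L_*(G) and L_{2n+1}(G) = L(G) for all n ≥ k; L_*(G) ≤ L(G); and applying one Puig step to L_*(G) gives L(G) and to L(G) gives L_*(G). -/
theorem result {G : Type*} [Group G] [Finite G] :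
    Cfsg.puigSeq G 0 = ⊥ ∧ Cfsg.puigSeq G 1 = ⊤ ∧
      (∀ n m : ℕ, Cfsg.puigSeq G (2 * n) ≤ Cfsg.puigSeq G (2 * n + 2) ∧ Cfsg.puigSeq G (2 * n) ≤ Cfsg.puigSeq G (2 * m + 1) ∧
        Cfsg.puigSeq G (2 * m + 3) ≤ Cfsg.puigSeq G (2 * m + 1)) ∧
      (∃ k : ℕ, ∀ n : ℕ, k ≤ n → Cfsg.puigSeq G (2 * n) = Cfsg.puigLower G ∧ Cfsg.puigSeq G (2 * n + 1) = Cfsg.puigSubgroup G) ∧
      Cfsg.puigLower G ≤ Cfsg.puigSubgroup G ∧
      Cfsg.puigStep (Cfsg.puigLower G) = Cfsg.puigSubgroup G ∧ Cfsg.puigStep (Cfsg.puigSubgroup G) = Cfsg.puigLower G := by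
  obtain ⟨k, hk⟩ := WellFoundedGT.monotone_chain_condition (⟨_, even_monotone (G := G)⟩ : ℕ →o Subgroup G)
  have hk' : ∀ n, k ≤ n → Cfsg.puigSeq G (2 * n) = Cfsg.puigSeq G (2 * k) := fun n hn => (hk n hn).symm
  have hk'' : ∀ n, k ≤ n → Cfsg.puigSeq G (2 * n + 1) = Cfsg.puigSeq G (2 * k + 1) := by
    intro n hn
    rw [puigSeq_succ, puigSeq_succ, hk' n hn]
  have hL : Cfsg.puigLower G = Cfsg.puigSeq G (2 * k) := by
    unfold Cfsg.puigLower
    apply le_antisymm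
    · apply iSup_le
      intro n
      calc Cfsg.puigSeq G (2 * n) ≤ Cfsg.puigSeq G (2 * (max n k)) := even_monotone (le_max_left n k)
        _ = Cfsg.puigSeq G (2 * k) := hk' _ (le_max_right n k)
    · exact le_iSup (fun n => Cfsg.puigSeq G (2 * n)) k
  have hU : Cfsg.puigSubgroup G = Cfsg.puigSeq G (2 * k + 1) := by
    unfold Cfsg.puigSubgroup
    apply le_antisymm
    · exact iInf_le (fun n => Cfsg.puigSeq G (2 * n + 1)) k
    · apply le_iInf
      intro n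
      calc Cfsg.puigSeq G (2 * k + 1) = Cfsg.puigSeq G (2 * (max n k) + 1) := (hk'' _ (le_max_right n k)).symm
        _ ≤ Cfsg.puigSeq G (2 * n + 1) := odd_antitone (le_max_left n k)
  refine ⟨rfl, puigSeq_one, fun n m => ⟨even_mono n, even_le_odd n m, odd_anti m⟩, ⟨k, fun n hn => ?_⟩, ?_, ?_, ?_⟩
  · rw [hL, hU]
    exact ⟨hk' n hn, hk'' n hn⟩
  · rw [hL, hU]
    exact even_le_succ k
  · rw [hL, hU]
    rfl
  · rw [hL, hU]
    exact hk' (k + 1) (Nat.le_succ k)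

end Cfsg.Agent.S1467
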