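import Cfsg.Statements.S0292
import Cfsg.Agent.Lib.Helper16.Orth27

set_option autoImplicit false

open Cfsg

namespace Cfsg.Agent.S0292

open Cfsg.Agent.Lib.Helper16 Cfsg.Agent.Lib.Helper6

theorem result {F : Type*} [Field F] [Fintype F] {q : ℕ} (hF : Fintype.card F = q) (hodd : Odd q) (m : ℕ) (hm : 3 ≤ m) : 2 * Nat.card (Cfsg.POmega F (Cfsg.quadFormOdd m F)) = q ^ (m ^ 2) * ∏ i ∈ Finset.range m, (q ^ (2 * (i + 1)) - 1) := by
  subst hF
  have h2 : (2 : F) ≠ 0 := two_ne_zero_of_odd_card hodd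
  obtain ⟨k, rfl⟩ : ∃ k, m = k + 1 := ⟨m - 1, by omega⟩
  have hQ : (QuadraticMap.polarBilin (qOdd (k + 1) F)).Nondegenerate := qOdd_nondeg h2
  obtain ⟨e, f, hp, -⟩ := (qOdd_wtype (m := k + 1) (F := F)).succ
  have hfr : Module.finrank F (Unit ⊕ (Fin (k + 1) ⊕ Fin (k + 1)) → F) = 2 * (k + 1) + 1 := finrank_odd'
  have h1 := card_pOmega_mul (qOdd (k + 1) F)
  rw [index_comm_odd _ h2 hQ (by omega), card_center_one hQ (by omega) hp
    (Or.inr (negO_not_mem_of_odd _ h2 hQ (by rw [hfr]; exact ⟨k + 1, rfl⟩))),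
    card_OG_odd (k + 1) _ _ hQ qOdd_wtype hfr, Nat.card_eq_fintype_card (α := F),
    ← Nat.card_congr (pOmegaEquiv (qOdd (k + 1) F)).toEquiv, qOdd_coe] at h1
  have h3 : 2 * (2 * Nat.card (POmega F (quadFormOdd (k + 1) F))) = 2 * (Fintype.card F ^ ((k + 1) ^ 2) *
      ∏ i ∈ Finset.range (k + 1), (Fintype.card F ^ (2 * (i + 1)) - 1)) := by
    rw [← mul_assoc 2 (Fintype.card F ^ ((k + 1) ^ 2)), ← h1]; ring
  exact Nat.eq_of_mul_eq_mul_left (by norm_num) h3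

end Cfsg.Agent.S0292
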