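import Cfsg.Statements.S0295
import Cfsg.Agent.Lib.Helper16.Orth31

set_option autoImplicit false

open Cfsg

namespace Cfsg.Agent.S0295

open Cfsg.Agent.Lib.Helper16 Cfsg.Agent.Lib.Helper6

theorem result {F : Type*} [Field F] [Fintype F] (hodd : Odd (Fintype.card F)) (m : ℕ) (hm : 3 ≤ m) : IsSimpleGroup (Cfsg.POmega F (Cfsg.quadFormOdd m F)) := by
  have h2 : (2 : F) ≠ 0 := two_ne_zero_of_odd_card hodd
  rw [← qOdd_coe]
  haveI := pOmega_simple (Q := qOdd m F) (qOdd_nondeg h2) (by rw [finrank_odd']; omega)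
  exact (pOmegaEquiv (qOdd m F)).isSimpleGroup

end Cfsg.Agent.S0295
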