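import Cfsg.Statements.S1695
import Cfsg.Agent.Lib.Helper19.OrdHe.Main
import Cfsg.Agent.Lib.Helper19.OrdHe.Z
import Cfsg.Agent.Lib.Helper19.OrdHe.Q0
import Cfsg.Agent.Lib.Helper19.OrdHe.P0

set_option autoImplicit false
set_option maxRecDepth 1000000
open Cfsg

namespace Cfsg.Agent.S1695

open Cfsg.Agent.Lib.Helper19.TCS (evn evn_rot evn_rev evn_pair AllS forall_of_allS lift_rels mk_eq_lift cox_swap shapeI prod_rep index_of_equiv orbit_ncard orbit_image ncard_interval fix_of_closure RC)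
open Cfsg.Agent.Lib.Helper19.TC2
open Cfsg.Spor Cfsg.Agent.Lib.Helper19.PresHe
open Cfsg.Spor.He
open Cfsg.Agent.Lib.Helper19 Cfsg.Agent.Lib.Helper19.OrdHe

theorem faith : ∀ x : Cfsg.Spor.He, Hed.ψ x = 1 → x = 1 := fun x hx => joint x hx

theorem hlt : ∀ k < 7, ∀ i < Hed.cB.N, fB Hed.cB k i < Hed.cB.N := fB_lt Hed.hOK gen num_gen

theorem hA0 : ∀ i < Hed.cB.N, app Hed.cB [0] i = Z.fT0 i := Z.tA0

theorem hltZ0 : ∀ i < Hed.cB.N, app Hed.cB [0] i < Hed.cB.N := app_lt _ (fun k hk => hlt k (by revert k; decide))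

theorem hA1 : ∀ i < Hed.cB.N, app Hed.cB [6, 3, 2, 3, 6, 2, 3, 2, 3, 6, 2, 3, 2, 3, 2] i = Z.fT1 i := Z.tA1

theorem hltZ1 : ∀ i < Hed.cB.N, app Hed.cB [6, 3, 2, 3, 6, 2, 3, 2, 3, 6, 2, 3, 2, 3, 2] i < Hed.cB.N := app_lt _ (fun k hk => hlt k (by revert k; decide))

theorem hA2 : ∀ i < Hed.cB.N, app Hed.cB [5, 3, 2, 3, 5, 2, 3, 2, 3, 5, 2, 3, 2, 3, 2] i = Z.fT2 i := Z.tA2

theorem hltZ2 : ∀ i < Hed.cB.N, app Hed.cB [5, 3, 2, 3, 5, 2, 3, 2, 3, 5, 2, 3, 2, 3, 2] i < Hed.cB.N := app_lt _ (fun k hk => hlt k (by revert k; decide))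

theorem cj0_0 : evn el [0] * evn el [0] = evn el [0] * evn el [0] :=
  (evn_append el _ _).symm.trans ((eq_of_app (L := 7) Hed.ψ Hed.hψ faith _ _ (by decide) (by decide)
    (conj_tableW2 Z.fT0 Z.fT0 [0] [0] [0] hA0 hA0 (app_lt _ (fun k hk => hlt k (by revert k; decide))) Z.tB0_0)).trans
      (evn_append el _ _))

theorem cj0_1 : evn el [0] * evn el [6, 3, 2, 3, 6, 2, 3, 2, 3, 6, 2, 3, 2, 3, 2] = evn el [6, 3, 2, 3, 6, 2, 3, 2, 3, 6, 2, 3, 2, 3, 2] * evn el [0] :=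
  (evn_append el _ _).symm.trans ((eq_of_app (L := 7) Hed.ψ Hed.hψ faith _ _ (by decide) (by decide)
    (conj_tableW2 Z.fT1 Z.fT1 [6, 3, 2, 3, 6, 2, 3, 2, 3, 6, 2, 3, 2, 3, 2] [6, 3, 2, 3, 6, 2, 3, 2, 3, 6, 2, 3, 2, 3, 2] [0] hA1 hA1 (app_lt _ (fun k hk => hlt k (by revert k; decide))) Z.tB0_1)).trans
      (evn_append el _ _))

theorem cj0_2 : evn el [0] * evn el [5, 3, 2, 3, 5, 2, 3, 2, 3, 5, 2, 3, 2, 3, 2] = evn el [5, 3, 2, 3, 5, 2, 3, 2, 3, 5, 2, 3, 2, 3, 2] * evn el [0] :=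
  (evn_append el _ _).symm.trans ((eq_of_app (L := 7) Hed.ψ Hed.hψ faith _ _ (by decide) (by decide)
    (conj_tableW2 Z.fT2 Z.fT2 [5, 3, 2, 3, 5, 2, 3, 2, 3, 5, 2, 3, 2, 3, 2] [5, 3, 2, 3, 5, 2, 3, 2, 3, 5, 2, 3, 2, 3, 2] [0] hA2 hA2 (app_lt _ (fun k hk => hlt k (by revert k; decide))) Z.tB0_2)).trans
      (evn_append el _ _))

theorem cj1_0 : evn el [2] * evn el [0] = evn el [0] * evn el [2] :=
  (evn_append el _ _).symm.trans ((eq_of_app (L := 7) Hed.ψ Hed.hψ faith _ _ (by decide) (by decide)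
    (conj_tableW2 Z.fT0 Z.fT0 [0] [0] [2] hA0 hA0 (app_lt _ (fun k hk => hlt k (by revert k; decide))) Z.tB1_0)).trans
      (evn_append el _ _))

theorem cj1_1 : evn el [2] * evn el [6, 3, 2, 3, 6, 2, 3, 2, 3, 6, 2, 3, 2, 3, 2] = evn el [6, 3, 2, 3, 6, 2, 3, 2, 3, 6, 2, 3, 2, 3, 2] * evn el [2] :=
  (evn_append el _ _).symm.trans ((eq_of_app (L := 7) Hed.ψ Hed.hψ faith _ _ (by decide) (by decide)
    (conj_tableW2 Z.fT1 Z.fT1 [6, 3, 2, 3, 6, 2, 3, 2, 3, 6, 2, 3, 2, 3, 2] [6, 3, 2, 3, 6, 2, 3, 2, 3, 6, 2, 3, 2, 3, 2] [2] hA1 hA1 (app_lt _ (fun k hk => hlt k (by revert k; decide))) Z.tB1_1)).trans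
      (evn_append el _ _))

theorem cj1_2 : evn el [2] * evn el [5, 3, 2, 3, 5, 2, 3, 2, 3, 5, 2, 3, 2, 3, 2] = evn el [5, 3, 2, 3, 5, 2, 3, 2, 3, 5, 2, 3, 2, 3, 2] * evn el [2] :=
  (evn_append el _ _).symm.trans ((eq_of_app (L := 7) Hed.ψ Hed.hψ faith _ _ (by decide) (by decide)
    (conj_tableW2 Z.fT2 Z.fT2 [5, 3, 2, 3, 5, 2, 3, 2, 3, 5, 2, 3, 2, 3, 2] [5, 3, 2, 3, 5, 2, 3, 2, 3, 5, 2, 3, 2, 3, 2] [2] hA2 hA2 (app_lt _ (fun k hk => hlt k (by revert k; decide))) Z.tB1_2)).trans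
      (evn_append el _ _))

theorem cj2_0 : evn el [3] * evn el [0] = evn el [0] * evn el [3] :=
  (evn_append el _ _).symm.trans ((eq_of_app (L := 7) Hed.ψ Hed.hψ faith _ _ (by decide) (by decide)
    (conj_tableW2 Z.fT0 Z.fT0 [0] [0] [3] hA0 hA0 (app_lt _ (fun k hk => hlt k (by revert k; decide))) Z.tB2_0)).trans
      (evn_append el _ _))

theorem cj2_1 : evn el [3] * evn el [6, 3, 2, 3, 6, 2, 3, 2, 3, 6, 2, 3, 2, 3, 2] = evn el [6, 3, 2, 3, 6, 2, 3, 2, 3, 6, 2, 3, 2, 3, 2] * evn el [3] :=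
  (evn_append el _ _).symm.trans ((eq_of_app (L := 7) Hed.ψ Hed.hψ faith _ _ (by decide) (by decide)
    (conj_tableW2 Z.fT1 Z.fT1 [6, 3, 2, 3, 6, 2, 3, 2, 3, 6, 2, 3, 2, 3, 2] [6, 3, 2, 3, 6, 2, 3, 2, 3, 6, 2, 3, 2, 3, 2] [3] hA1 hA1 (app_lt _ (fun k hk => hlt k (by revert k; decide))) Z.tB2_1)).trans
      (evn_append el _ _))

theorem cj2_2 : evn el [3] * evn el [5, 3, 2, 3, 5, 2, 3, 2, 3, 5, 2, 3, 2, 3, 2] = evn el [5, 3, 2, 3, 5, 2, 3, 2, 3, 5, 2, 3, 2, 3, 2] * evn el [3] :=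
  (evn_append el _ _).symm.trans ((eq_of_app (L := 7) Hed.ψ Hed.hψ faith _ _ (by decide) (by decide)
    (conj_tableW2 Z.fT2 Z.fT2 [5, 3, 2, 3, 5, 2, 3, 2, 3, 5, 2, 3, 2, 3, 2] [5, 3, 2, 3, 5, 2, 3, 2, 3, 5, 2, 3, 2, 3, 2] [3] hA2 hA2 (app_lt _ (fun k hk => hlt k (by revert k; decide))) Z.tB2_2)).trans
      (evn_append el _ _))

theorem cj3_0 : evn el [4] * evn el [0] = evn el [0] * evn el [4] :=
  (evn_append el _ _).symm.trans ((eq_of_app (L := 7) Hed.ψ Hed.hψ faith _ _ (by decide) (by decide)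
    (conj_tableW2 Z.fT0 Z.fT0 [0] [0] [4] hA0 hA0 (app_lt _ (fun k hk => hlt k (by revert k; decide))) Z.tB3_0)).trans
      (evn_append el _ _))

theorem cj3_1 : evn el [4] * evn el [6, 3, 2, 3, 6, 2, 3, 2, 3, 6, 2, 3, 2, 3, 2] = evn el [6, 3, 2, 3, 6, 2, 3, 2, 3, 6, 2, 3, 2, 3, 2] * evn el [4] :=
  (evn_append el _ _).symm.trans ((eq_of_app (L := 7) Hed.ψ Hed.hψ faith _ _ (by decide) (by decide)
    (conj_tableW2 Z.fT1 Z.fT1 [6, 3, 2, 3, 6, 2, 3, 2, 3, 6, 2, 3, 2, 3, 2] [6, 3, 2, 3, 6, 2, 3, 2, 3, 6, 2, 3, 2, 3, 2] [4] hA1 hA1 (app_lt _ (fun k hk => hlt k (by revert k; decide))) Z.tB3_1)).trans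
      (evn_append el _ _))

theorem cj3_2 : evn el [4] * evn el [5, 3, 2, 3, 5, 2, 3, 2, 3, 5, 2, 3, 2, 3, 2] = evn el [5, 3, 2, 3, 5, 2, 3, 2, 3, 5, 2, 3, 2, 3, 2] * evn el [4] :=
  (evn_append el _ _).symm.trans ((eq_of_app (L := 7) Hed.ψ Hed.hψ faith _ _ (by decide) (by decide)
    (conj_tableW2 Z.fT2 Z.fT2 [5, 3, 2, 3, 5, 2, 3, 2, 3, 5, 2, 3, 2, 3, 2] [5, 3, 2, 3, 5, 2, 3, 2, 3, 5, 2, 3, 2, 3, 2] [4] hA2 hA2 (app_lt _ (fun k hk => hlt k (by revert k; decide))) Z.tB3_2)).trans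
      (evn_append el _ _))

theorem cj4_0 : evn el [5] * evn el [0] = evn el [0] * evn el [5] :=
  (evn_append el _ _).symm.trans ((eq_of_app (L := 7) Hed.ψ Hed.hψ faith _ _ (by decide) (by decide)
    (conj_tableW2 Z.fT0 Z.fT0 [0] [0] [5] hA0 hA0 (app_lt _ (fun k hk => hlt k (by revert k; decide))) Z.tB4_0)).trans
      (evn_append el _ _))

theorem cj4_1 : evn el [5] * evn el [6, 3, 2, 3, 6, 2, 3, 2, 3, 6, 2, 3, 2, 3, 2] = evn el [6, 3, 2, 3, 6, 2, 3, 2, 3, 6, 2, 3, 2, 3, 2] * evn el [5] :=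
  (evn_append el _ _).symm.trans ((eq_of_app (L := 7) Hed.ψ Hed.hψ faith _ _ (by decide) (by decide)
    (conj_tableW2 Z.fT1 Z.fT1 [6, 3, 2, 3, 6, 2, 3, 2, 3, 6, 2, 3, 2, 3, 2] [6, 3, 2, 3, 6, 2, 3, 2, 3, 6, 2, 3, 2, 3, 2] [5] hA1 hA1 (app_lt _ (fun k hk => hlt k (by revert k; decide))) Z.tB4_1)).trans
      (evn_append el _ _))

theorem cj4_2 : evn el [5] * evn el [5, 3, 2, 3, 5, 2, 3, 2, 3, 5, 2, 3, 2, 3, 2] = evn el [5, 3, 2, 3, 5, 2, 3, 2, 3, 5, 2, 3, 2, 3, 2] * evn el [5] :=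
  (evn_append el _ _).symm.trans ((eq_of_app (L := 7) Hed.ψ Hed.hψ faith _ _ (by decide) (by decide)
    (conj_tableW2 Z.fT2 Z.fT2 [5, 3, 2, 3, 5, 2, 3, 2, 3, 5, 2, 3, 2, 3, 2] [5, 3, 2, 3, 5, 2, 3, 2, 3, 5, 2, 3, 2, 3, 2] [5] hA2 hA2 (app_lt _ (fun k hk => hlt k (by revert k; decide))) Z.tB4_2)).trans
      (evn_append el _ _))

theorem cj5_0 : evn el [6] * evn el [0] = evn el [0] * evn el [6] :=
  (evn_append el _ _).symm.trans ((eq_of_app (L := 7) Hed.ψ Hed.hψ faith _ _ (by decide) (by decide)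
    (conj_tableW2 Z.fT0 Z.fT0 [0] [0] [6] hA0 hA0 (app_lt _ (fun k hk => hlt k (by revert k; decide))) Z.tB5_0)).trans
      (evn_append el _ _))

theorem cj5_1 : evn el [6] * evn el [6, 3, 2, 3, 6, 2, 3, 2, 3, 6, 2, 3, 2, 3, 2] = evn el [6, 3, 2, 3, 6, 2, 3, 2, 3, 6, 2, 3, 2, 3, 2] * evn el [6] :=
  (evn_append el _ _).symm.trans ((eq_of_app (L := 7) Hed.ψ Hed.hψ faith _ _ (by decide) (by decide)
    (conj_tableW2 Z.fT1 Z.fT1 [6, 3, 2, 3, 6, 2, 3, 2, 3, 6, 2, 3, 2, 3, 2] [6, 3, 2, 3, 6, 2, 3, 2, 3, 6, 2, 3, 2, 3, 2] [6] hA1 hA1 (app_lt _ (fun k hk => hlt k (by revert k; decide))) Z.tB5_1)).trans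
      (evn_append el _ _))

theorem cj5_2 : evn el [6] * evn el [5, 3, 2, 3, 5, 2, 3, 2, 3, 5, 2, 3, 2, 3, 2] = evn el [5, 3, 2, 3, 5, 2, 3, 2, 3, 5, 2, 3, 2, 3, 2] * evn el [6] :=
  (evn_append el _ _).symm.trans ((eq_of_app (L := 7) Hed.ψ Hed.hψ faith _ _ (by decide) (by decide)
    (conj_tableW2 Z.fT2 Z.fT2 [5, 3, 2, 3, 5, 2, 3, 2, 3, 5, 2, 3, 2, 3, 2] [5, 3, 2, 3, 5, 2, 3, 2, 3, 5, 2, 3, 2, 3, 2] [6] hA2 hA2 (app_lt _ (fun k hk => hlt k (by revert k; decide))) Z.tB5_2)).trans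
      (evn_append el _ _))

theorem cj6_0 : evn el [1, 0, 1] * evn el [0] = evn el [0] * evn el [1, 0, 1] :=
  (evn_append el _ _).symm.trans ((eq_of_app (L := 7) Hed.ψ Hed.hψ faith _ _ (by decide) (by decide)
    (conj_tableW2 Z.fT0 Z.fT0 [0] [0] [1, 0, 1] hA0 hA0 (app_lt _ (fun k hk => hlt k (by revert k; decide))) Z.tB6_0)).trans
      (evn_append el _ _))

theorem cj6_1 : evn el [1, 0, 1] * evn el [6, 3, 2, 3, 6, 2, 3, 2, 3, 6, 2, 3, 2, 3, 2] = evn el [5, 3, 2, 3, 5, 2, 3, 2, 3, 5, 2, 3, 2, 3, 2] * evn el [1, 0, 1] :=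
  (evn_append el _ _).symm.trans ((eq_of_app (L := 7) Hed.ψ Hed.hψ faith _ _ (by decide) (by decide)
    (conj_tableW2 Z.fT1 Z.fT2 [6, 3, 2, 3, 6, 2, 3, 2, 3, 6, 2, 3, 2, 3, 2] [5, 3, 2, 3, 5, 2, 3, 2, 3, 5, 2, 3, 2, 3, 2] [1, 0, 1] hA1 hA2 (app_lt _ (fun k hk => hlt k (by revert k; decide))) Z.tB6_1)).trans
      (evn_append el _ _))

theorem cj6_2 : evn el [1, 0, 1] * evn el [5, 3, 2, 3, 5, 2, 3, 2, 3, 5, 2, 3, 2, 3, 2] = evn el [6, 3, 2, 3, 6, 2, 3, 2, 3, 6, 2, 3, 2, 3, 2] * evn el [1, 0, 1] :=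
  (evn_append el _ _).symm.trans ((eq_of_app (L := 7) Hed.ψ Hed.hψ faith _ _ (by decide) (by decide)
    (conj_tableW2 Z.fT2 Z.fT1 [5, 3, 2, 3, 5, 2, 3, 2, 3, 5, 2, 3, 2, 3, 2] [6, 3, 2, 3, 6, 2, 3, 2, 3, 6, 2, 3, 2, 3, 2] [1, 0, 1] hA2 hA1 (app_lt _ (fun k hk => hlt k (by revert k; decide))) Z.tB6_2)).trans
      (evn_append el _ _))

theorem cj7_0 : evn el [1, 2, 3, 4, 5, 3, 2, 1, 3, 2, 3, 2, 1, 4, 3, 2, 3, 4, 5, 3, 2, 1] * evn el [0] = evn el [6, 3, 2, 3, 6, 2, 3, 2, 3, 6, 2, 3, 2, 3, 2] * evn el [1, 2, 3, 4, 5, 3, 2, 1, 3, 2, 3, 2, 1, 4, 3, 2, 3, 4, 5, 3, 2, 1] :=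
  (evn_append el _ _).symm.trans ((eq_of_app (L := 7) Hed.ψ Hed.hψ faith _ _ (by decide) (by decide)
    (conj_tableW2 Z.fT0 Z.fT1 [0] [6, 3, 2, 3, 6, 2, 3, 2, 3, 6, 2, 3, 2, 3, 2] [1, 2, 3, 4, 5, 3, 2, 1, 3, 2, 3, 2, 1, 4, 3, 2, 3, 4, 5, 3, 2, 1] hA0 hA1 (app_lt _ (fun k hk => hlt k (by revert k; decide))) Z.tB7_0)).trans
      (evn_append el _ _))

theorem cj7_1 : evn el [1, 2, 3, 4, 5, 3, 2, 1, 3, 2, 3, 2, 1, 4, 3, 2, 3, 4, 5, 3, 2, 1] * evn el [6, 3, 2, 3, 6, 2, 3, 2, 3, 6, 2, 3, 2, 3, 2] = evn el [5, 3, 2, 3, 5, 2, 3, 2, 3, 5, 2, 3, 2, 3, 2] * evn el [1, 2, 3, 4, 5, 3, 2, 1, 3, 2, 3, 2, 1, 4, 3, 2, 3, 4, 5, 3, 2, 1] :=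
  (evn_append el _ _).symm.trans ((eq_of_app (L := 7) Hed.ψ Hed.hψ faith _ _ (by decide) (by decide)
    (conj_tableW2 Z.fT1 Z.fT2 [6, 3, 2, 3, 6, 2, 3, 2, 3, 6, 2, 3, 2, 3, 2] [5, 3, 2, 3, 5, 2, 3, 2, 3, 5, 2, 3, 2, 3, 2] [1, 2, 3, 4, 5, 3, 2, 1, 3, 2, 3, 2, 1, 4, 3, 2, 3, 4, 5, 3, 2, 1] hA1 hA2 (app_lt _ (fun k hk => hlt k (by revert k; decide))) Z.tB7_1)).trans
      (evn_append el _ _))

theorem cj7_2 : evn el [1, 2, 3, 4, 5, 3, 2, 1, 3, 2, 3, 2, 1, 4, 3, 2, 3, 4, 5, 3, 2, 1] * evn el [5, 3, 2, 3, 5, 2, 3, 2, 3, 5, 2, 3, 2, 3, 2] = evn el [0] * evn el [1, 2, 3, 4, 5, 3, 2, 1, 3, 2, 3, 2, 1, 4, 3, 2, 3, 4, 5, 3, 2, 1] :=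
  (evn_append el _ _).symm.trans ((eq_of_app (L := 7) Hed.ψ Hed.hψ faith _ _ (by decide) (by decide)
    (conj_tableW2 Z.fT2 Z.fT0 [5, 3, 2, 3, 5, 2, 3, 2, 3, 5, 2, 3, 2, 3, 2] [0] [1, 2, 3, 4, 5, 3, 2, 1, 3, 2, 3, 2, 1, 4, 3, 2, 3, 4, 5, 3, 2, 1] hA2 hA0 (app_lt _ (fun k hk => hlt k (by revert k; decide))) Z.tB7_2)).trans
      (evn_append el _ _))

theorem cz0_1 : evn el [0] * evn el [6, 3, 2, 3, 6, 2, 3, 2, 3, 6, 2, 3, 2, 3, 2] = evn el [6, 3, 2, 3, 6, 2, 3, 2, 3, 6, 2, 3, 2, 3, 2] * evn el [0] :=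
  (evn_append el _ _).symm.trans ((eq_of_app (L := 7) Hed.ψ Hed.hψ faith _ _ (by decide) (by decide)
    (comm_table2 Z.fT0 Z.fT1 [0] [6, 3, 2, 3, 6, 2, 3, 2, 3, 6, 2, 3, 2, 3, 2] hA0 hA1 hltZ0 hltZ1 Z.tZ0_1)).trans
      (evn_append el _ _))

theorem cz0_2 : evn el [0] * evn el [5, 3, 2, 3, 5, 2, 3, 2, 3, 5, 2, 3, 2, 3, 2] = evn el [5, 3, 2, 3, 5, 2, 3, 2, 3, 5, 2, 3, 2, 3, 2] * evn el [0] :=
  (evn_append el _ _).symm.trans ((eq_of_app (L := 7) Hed.ψ Hed.hψ faith _ _ (by decide) (by decide)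
    (comm_table2 Z.fT0 Z.fT2 [0] [5, 3, 2, 3, 5, 2, 3, 2, 3, 5, 2, 3, 2, 3, 2] hA0 hA2 hltZ0 hltZ2 Z.tZ0_2)).trans
      (evn_append el _ _))

theorem cz1_2 : evn el [6, 3, 2, 3, 6, 2, 3, 2, 3, 6, 2, 3, 2, 3, 2] * evn el [5, 3, 2, 3, 5, 2, 3, 2, 3, 5, 2, 3, 2, 3, 2] = evn el [5, 3, 2, 3, 5, 2, 3, 2, 3, 5, 2, 3, 2, 3, 2] * evn el [6, 3, 2, 3, 6, 2, 3, 2, 3, 6, 2, 3, 2, 3, 2] :=
  (evn_append el _ _).symm.trans ((eq_of_app (L := 7) Hed.ψ Hed.hψ faith _ _ (by decide) (by decide)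
    (comm_table2 Z.fT1 Z.fT2 [6, 3, 2, 3, 6, 2, 3, 2, 3, 6, 2, 3, 2, 3, 2] [5, 3, 2, 3, 5, 2, 3, 2, 3, 5, 2, 3, 2, 3, 2] hA1 hA2 hltZ1 hltZ2 Z.tZ1_2)).trans
      (evn_append el _ _))

theorem hN1 : ∀ w ∈ Hed.sgw, ∀ z ∈ {g | ∃ w ∈ ([[0], [6, 3, 2, 3, 6, 2, 3, 2, 3, 6, 2, 3, 2, 3, 2], [5, 3, 2, 3, 5, 2, 3, 2, 3, 5, 2, 3, 2, 3, 2]] : List (List ℕ)), evn el w = g}, ∃ z' ∈ {g | ∃ w ∈ ([[0], [6, 3, 2, 3, 6, 2, 3, 2, 3, 6, 2, 3, 2, 3, 2], [5, 3, 2, 3, 5, 2, 3, 2, 3, 5, 2, 3, 2, 3, 2]] : List (List ℕ)), evn el w = g}, evn el w * z = z' * evn el w :=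
  forall_of_allS (l := Hed.sgw) ⟨(by
    rintro _ ⟨v, hv, rfl⟩
    simp only [List.mem_cons, List.not_mem_nil, or_false] at hv
    rcases hv with rfl | rfl | rfl
    · exact ⟨_, ⟨[0], by decide, rfl⟩, cj0_0⟩
    · exact ⟨_, ⟨[6, 3, 2, 3, 6, 2, 3, 2, 3, 6, 2, 3, 2, 3, 2], by decide, rfl⟩, cj0_1⟩
    · exact ⟨_, ⟨[5, 3, 2, 3, 5, 2, 3, 2, 3, 5, 2, 3, 2, 3, 2], by decide, rfl⟩, cj0_2⟩
    ), (by
    rintro _ ⟨v, hv, rfl⟩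
    simp only [List.mem_cons, List.not_mem_nil, or_false] at hv
    rcases hv with rfl | rfl | rfl
    · exact ⟨_, ⟨[0], by decide, rfl⟩, cj1_0⟩
    · exact ⟨_, ⟨[6, 3, 2, 3, 6, 2, 3, 2, 3, 6, 2, 3, 2, 3, 2], by decide, rfl⟩, cj1_1⟩
    · exact ⟨_, ⟨[5, 3, 2, 3, 5, 2, 3, 2, 3, 5, 2, 3, 2, 3, 2], by decide, rfl⟩, cj1_2⟩
    ), (by
    rintro _ ⟨v, hv, rfl⟩
    simp only [List.mem_cons, List.not_mem_nil, or_false] at hv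
    rcases hv with rfl | rfl | rfl
    · exact ⟨_, ⟨[0], by decide, rfl⟩, cj2_0⟩
    · exact ⟨_, ⟨[6, 3, 2, 3, 6, 2, 3, 2, 3, 6, 2, 3, 2, 3, 2], by decide, rfl⟩, cj2_1⟩
    · exact ⟨_, ⟨[5, 3, 2, 3, 5, 2, 3, 2, 3, 5, 2, 3, 2, 3, 2], by decide, rfl⟩, cj2_2⟩
    ), (by
    rintro _ ⟨v, hv, rfl⟩
    simp only [List.mem_cons, List.not_mem_nil, or_false] at hv
    rcases hv with rfl | rfl | rfl
    · exact ⟨_, ⟨[0], by decide, rfl⟩, cj3_0⟩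
    · exact ⟨_, ⟨[6, 3, 2, 3, 6, 2, 3, 2, 3, 6, 2, 3, 2, 3, 2], by decide, rfl⟩, cj3_1⟩
    · exact ⟨_, ⟨[5, 3, 2, 3, 5, 2, 3, 2, 3, 5, 2, 3, 2, 3, 2], by decide, rfl⟩, cj3_2⟩
    ), (by
    rintro _ ⟨v, hv, rfl⟩
    simp only [List.mem_cons, List.not_mem_nil, or_false] at hv
    rcases hv with rfl | rfl | rfl
    · exact ⟨_, ⟨[0], by decide, rfl⟩, cj4_0⟩
    · exact ⟨_, ⟨[6, 3, 2, 3, 6, 2, 3, 2, 3, 6, 2, 3, 2, 3, 2], by decide, rfl⟩, cj4_1⟩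
    · exact ⟨_, ⟨[5, 3, 2, 3, 5, 2, 3, 2, 3, 5, 2, 3, 2, 3, 2], by decide, rfl⟩, cj4_2⟩
    ), (by
    rintro _ ⟨v, hv, rfl⟩
    simp only [List.mem_cons, List.not_mem_nil, or_false] at hv
    rcases hv with rfl | rfl | rfl
    · exact ⟨_, ⟨[0], by decide, rfl⟩, cj5_0⟩
    · exact ⟨_, ⟨[6, 3, 2, 3, 6, 2, 3, 2, 3, 6, 2, 3, 2, 3, 2], by decide, rfl⟩, cj5_1⟩
    · exact ⟨_, ⟨[5, 3, 2, 3, 5, 2, 3, 2, 3, 5, 2, 3, 2, 3, 2], by decide, rfl⟩, cj5_2⟩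
    ), (by
    rintro _ ⟨v, hv, rfl⟩
    simp only [List.mem_cons, List.not_mem_nil, or_false] at hv
    rcases hv with rfl | rfl | rfl
    · exact ⟨_, ⟨[0], by decide, rfl⟩, cj6_0⟩
    · exact ⟨_, ⟨[5, 3, 2, 3, 5, 2, 3, 2, 3, 5, 2, 3, 2, 3, 2], by decide, rfl⟩, cj6_1⟩
    · exact ⟨_, ⟨[6, 3, 2, 3, 6, 2, 3, 2, 3, 6, 2, 3, 2, 3, 2], by decide, rfl⟩, cj6_2⟩
    ), (by
    rintro _ ⟨v, hv, rfl⟩
    simp only [List.mem_cons, List.not_mem_nil, or_false] at hv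
    rcases hv with rfl | rfl | rfl
    · exact ⟨_, ⟨[6, 3, 2, 3, 6, 2, 3, 2, 3, 6, 2, 3, 2, 3, 2], by decide, rfl⟩, cj7_0⟩
    · exact ⟨_, ⟨[5, 3, 2, 3, 5, 2, 3, 2, 3, 5, 2, 3, 2, 3, 2], by decide, rfl⟩, cj7_1⟩
    · exact ⟨_, ⟨[0], by decide, rfl⟩, cj7_2⟩
    ), trivial⟩

theorem hN2 : ∀ w ∈ Hed.sgw, ∀ z ∈ {g | ∃ w ∈ ([[0], [6, 3, 2, 3, 6, 2, 3, 2, 3, 6, 2, 3, 2, 3, 2], [5, 3, 2, 3, 5, 2, 3, 2, 3, 5, 2, 3, 2, 3, 2]] : List (List ℕ)), evn el w = g}, ∃ z' ∈ {g | ∃ w ∈ ([[0], [6, 3, 2, 3, 6, 2, 3, 2, 3, 6, 2, 3, 2, 3, 2], [5, 3, 2, 3, 5, 2, 3, 2, 3, 5, 2, 3, 2, 3, 2]] : List (List ℕ)), evn el w = g}, z * evn el w = evn el w * z' :=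
  forall_of_allS (l := Hed.sgw) ⟨(by
    rintro _ ⟨v, hv, rfl⟩
    simp only [List.mem_cons, List.not_mem_nil, or_false] at hv
    rcases hv with rfl | rfl | rfl
    · exact ⟨_, ⟨[0], by decide, rfl⟩, cj0_0.symm⟩
    · exact ⟨_, ⟨[6, 3, 2, 3, 6, 2, 3, 2, 3, 6, 2, 3, 2, 3, 2], by decide, rfl⟩, cj0_1.symm⟩
    · exact ⟨_, ⟨[5, 3, 2, 3, 5, 2, 3, 2, 3, 5, 2, 3, 2, 3, 2], by decide, rfl⟩, cj0_2.symm⟩
    ), (by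
    rintro _ ⟨v, hv, rfl⟩
    simp only [List.mem_cons, List.not_mem_nil, or_false] at hv
    rcases hv with rfl | rfl | rfl
    · exact ⟨_, ⟨[0], by decide, rfl⟩, cj1_0.symm⟩
    · exact ⟨_, ⟨[6, 3, 2, 3, 6, 2, 3, 2, 3, 6, 2, 3, 2, 3, 2], by decide, rfl⟩, cj1_1.symm⟩
    · exact ⟨_, ⟨[5, 3, 2, 3, 5, 2, 3, 2, 3, 5, 2, 3, 2, 3, 2], by decide, rfl⟩, cj1_2.symm⟩
    ), (by
    rintro _ ⟨v, hv, rfl⟩
    simp only [List.mem_cons, List.not_mem_nil, or_false] at hv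
    rcases hv with rfl | rfl | rfl
    · exact ⟨_, ⟨[0], by decide, rfl⟩, cj2_0.symm⟩
    · exact ⟨_, ⟨[6, 3, 2, 3, 6, 2, 3, 2, 3, 6, 2, 3, 2, 3, 2], by decide, rfl⟩, cj2_1.symm⟩
    · exact ⟨_, ⟨[5, 3, 2, 3, 5, 2, 3, 2, 3, 5, 2, 3, 2, 3, 2], by decide, rfl⟩, cj2_2.symm⟩
    ), (by
    rintro _ ⟨v, hv, rfl⟩
    simp only [List.mem_cons, List.not_mem_nil, or_false] at hv
    rcases hv with rfl | rfl | rfl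
    · exact ⟨_, ⟨[0], by decide, rfl⟩, cj3_0.symm⟩
    · exact ⟨_, ⟨[6, 3, 2, 3, 6, 2, 3, 2, 3, 6, 2, 3, 2, 3, 2], by decide, rfl⟩, cj3_1.symm⟩
    · exact ⟨_, ⟨[5, 3, 2, 3, 5, 2, 3, 2, 3, 5, 2, 3, 2, 3, 2], by decide, rfl⟩, cj3_2.symm⟩
    ), (by
    rintro _ ⟨v, hv, rfl⟩
    simp only [List.mem_cons, List.not_mem_nil, or_false] at hv
    rcases hv with rfl | rfl | rfl
    · exact ⟨_, ⟨[0], by decide, rfl⟩, cj4_0.symm⟩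
    · exact ⟨_, ⟨[6, 3, 2, 3, 6, 2, 3, 2, 3, 6, 2, 3, 2, 3, 2], by decide, rfl⟩, cj4_1.symm⟩
    · exact ⟨_, ⟨[5, 3, 2, 3, 5, 2, 3, 2, 3, 5, 2, 3, 2, 3, 2], by decide, rfl⟩, cj4_2.symm⟩
    ), (by
    rintro _ ⟨v, hv, rfl⟩
    simp only [List.mem_cons, List.not_mem_nil, or_false] at hv
    rcases hv with rfl | rfl | rfl
    · exact ⟨_, ⟨[0], by decide, rfl⟩, cj5_0.symm⟩
    · exact ⟨_, ⟨[6, 3, 2, 3, 6, 2, 3, 2, 3, 6, 2, 3, 2, 3, 2], by decide, rfl⟩, cj5_1.symm⟩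
    · exact ⟨_, ⟨[5, 3, 2, 3, 5, 2, 3, 2, 3, 5, 2, 3, 2, 3, 2], by decide, rfl⟩, cj5_2.symm⟩
    ), (by
    rintro _ ⟨v, hv, rfl⟩
    simp only [List.mem_cons, List.not_mem_nil, or_false] at hv
    rcases hv with rfl | rfl | rfl
    · exact ⟨_, ⟨[0], by decide, rfl⟩, cj6_0.symm⟩
    · exact ⟨_, ⟨[5, 3, 2, 3, 5, 2, 3, 2, 3, 5, 2, 3, 2, 3, 2], by decide, rfl⟩, cj6_2.symm⟩
    · exact ⟨_, ⟨[6, 3, 2, 3, 6, 2, 3, 2, 3, 6, 2, 3, 2, 3, 2], by decide, rfl⟩, cj6_1.symm⟩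
    ), (by
    rintro _ ⟨v, hv, rfl⟩
    simp only [List.mem_cons, List.not_mem_nil, or_false] at hv
    rcases hv with rfl | rfl | rfl
    · exact ⟨_, ⟨[5, 3, 2, 3, 5, 2, 3, 2, 3, 5, 2, 3, 2, 3, 2], by decide, rfl⟩, cj7_2.symm⟩
    · exact ⟨_, ⟨[0], by decide, rfl⟩, cj7_0.symm⟩
    · exact ⟨_, ⟨[6, 3, 2, 3, 6, 2, 3, 2, 3, 6, 2, 3, 2, 3, 2], by decide, rfl⟩, cj7_1.symm⟩
    ), trivial⟩

theorem hAn : ∀ h ∈ Hed.HH, ∀ a ∈ KW el [[0], [6, 3, 2, 3, 6, 2, 3, 2, 3, 6, 2, 3, 2, 3, 2], [5, 3, 2, 3, 5, 2, 3, 2, 3, 5, 2, 3, 2, 3, 2]], h * a * h⁻¹ ∈ KW el [[0], [6, 3, 2, 3, 6, 2, 3, 2, 3, 6, 2, 3, 2, 3, 2], [5, 3, 2, 3, 5, 2, 3, 2, 3, 5, 2, 3, 2, 3, 2]] := by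
  rw [Hed.hH]
  apply normalizes_of_perm
  · intro s hs
    obtain ⟨w, hw, rfl⟩ := Hed.h1 s hs
    exact hN1 w hw
  · intro s hs
    obtain ⟨w, hw, rfl⟩ := Hed.h1 s hs
    exact hN2 w hw

theorem hAc : IsMulCommutative (KW el [[0], [6, 3, 2, 3, 6, 2, 3, 2, 3, 6, 2, 3, 2, 3, 2], [5, 3, 2, 3, 5, 2, 3, 2, 3, 5, 2, 3, 2, 3, 2]]) := by
  apply Subgroup.isMulCommutative_closure
  rintro _ ⟨v, hv, rfl⟩ _ ⟨w, hw, rfl⟩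
  simp only [List.mem_cons, List.not_mem_nil, or_false] at hv hw
  rcases hv with rfl | rfl | rfl <;> rcases hw with rfl | rfl | rfl
  · rfl
  · exact cz0_1
  · exact cz0_2
  · exact cz0_1.symm
  · rfl
  · exact cz1_2
  · exact cz0_2.symm
  · exact cz1_2.symm
  · rfl

theorem hperf : commutator Cfsg.Spor.He = ⊤ :=
  top_of_quot_bot _ (by
    have h := P0.col
    rwa [PD.KKq_top, KK_nil] at h)

theorem hgen : Subgroup.normalClosure (KW el [[0], [6, 3, 2, 3, 6, 2, 3, 2, 3, 6, 2, 3, 2, 3, 2], [5, 3, 2, 3, 5, 2, 3, 2, 3, 5, 2, 3, 2, 3, 2]] : Set Cfsg.Spor.He) = ⊤ :=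
  top_of_quot_bot _ (by
    have h := Q0.col
    rwa [QD.KKq_top, KK_nil] at h)

theorem simple : IsSimpleGroup Cfsg.Spor.He :=
  haveI := nontrivial_of_card card_eq (by decide)
  simple_of_iwasawa Hed.ψ Hed.z faith CW.trans Hed.HH (KW el [[0], [6, 3, 2, 3, 6, 2, 3, 2, 3, 6, 2, 3, 2, 3, 2], [5, 3, 2, 3, 5, 2, 3, 2, 3, 5, 2, 3, 2, 3, 2]]) Hed.hfix CW.coatom
    hAc hAn hgen hperf

/-- The presented Held group is simple of the expected order (that is, it is a simple group of the order of the Held group). -/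
theorem result : Cfsg.IsHe Cfsg.Spor.He := by
  exact ⟨simple, card_eq⟩

end Cfsg.Agent.S1695
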