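import Cfsg.Statements.S2321
import Cfsg.Agent.Lib.Helper2.SL2s
import Cfsg.Agent.S2298

set_option autoImplicit false
open Cfsg

namespace Cfsg.Agent.S2321

open Cfsg.Agent.Lib.Helper2
theorem St_zu {F : Type*} [Field F] [Fintype F] [DecidableEq F] (α : MulChar F ℂ) (a : Fˣ) (c : F)
    (hc : c ≠ 0) : GL2.St α (GL2.bmk a a c) = 0 := by
  have h1 : GL2.bmk a a c = GL2.bmk a a 0 * GL2.bmk 1 1 (c / a) := by
    apply Units.ext
    rw [Units.val_mul, GL2.bmk_coe, GL2.bmk_coe, GL2.bmk_coe]
    ext i j
    fin_cases i <;> fin_cases j <;> simp [Matrix.mul_apply, Fin.sum_univ_two]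
    field_simp
  have h2 := SL2r.central_mul (GL2.St_irr α) a (GL2.bmk 1 1 (c / a))
  rw [← h1, GL2.class_unip (IsCharacter.isClassFunction (GL2.St_isCharacter α)) 1 (c / a)
    (div_ne_zero hc a.ne_zero), GL2.St_unip, mul_zero] at h2
  exact (mul_eq_zero.1 h2).resolve_right (IsIrrCharacter.apply_one_ne_zero (GL2.St_irr α))

/-- Over a finite field F with q elements, an irreducible complex character of SL₂ of degree q (the Steinberg character) takes the value 1 at every diagonal matrix whose diagonal entry a has a² ≠ 1, the value −1 at every element with no eigenvector in F², and the value 0 at every upper triangular matrix with equal diagonal entries and non-zero upper right entry. -/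
theorem result {F : Type*} [Field F] [Fintype F] (χ : Matrix.SpecialLinearGroup (Fin 2) F → ℂ) (hχ : Cfsg.IsIrrCharacter (Matrix.SpecialLinearGroup (Fin 2) F) χ) (hdeg : χ 1 = (Fintype.card F : ℂ)) (g : Matrix.SpecialLinearGroup (Fin 2) F) :
    ((g : Matrix (Fin 2) (Fin 2) F) 0 1 = 0 → (g : Matrix (Fin 2) (Fin 2) F) 1 0 = 0 → (g : Matrix (Fin 2) (Fin 2) F) 0 0 ^ 2 ≠ 1 → χ g = 1) ∧
    ((∀ (c : F) (v : Fin 2 → F), v ≠ 0 → (g : Matrix (Fin 2) (Fin 2) F).mulVec v ≠ c • v) → χ g = -1) ∧
    ((g : Matrix (Fin 2) (Fin 2) F) 1 0 = 0 → (g : Matrix (Fin 2) (Fin 2) F) 0 0 = (g : Matrix (Fin 2) (Fin 2) F) 1 1 → (g : Matrix (Fin 2) (Fin 2) F) 0 1 ≠ 0 → χ g = 0) := by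
  classical
  have key : ∀ a b : ℕ, (a : ℂ) = b → a = b := fun a b h => by exact_mod_cast h
  have hq2 : 2 ≤ Fintype.card F := Fintype.one_lt_card
  obtain ⟨ψ, hψ, h | ⟨χ', hχ', hne, heq, x, hx⟩⟩ := SL2r.classify_sl hχ
  · have h1 : χ 1 = ψ 1 := by rw [← h]; simp [SL2r.res]
    have h2 : χ g = ψ (Matrix.SpecialLinearGroup.toGL g) := by rw [← h]; rfl
    rw [h1] at hdeg
    rw [h2]
    have hdet : (g : Matrix (Fin 2) (Fin 2) F).det = 1 := g.2
    rcases GL2.classify hψ with ⟨α, rfl⟩ | ⟨α, rfl⟩ | ⟨α, β, _, rfl⟩ | ⟨hc, h3⟩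
    · exfalso
      rw [GL2.dl_one] at hdeg
      have := key 1 (Fintype.card F) (by push_cast; exact hdeg)
      omega
    · refine ⟨fun h01 h10 hne => ?_, fun hg => ?_, fun h10 h00 h01 => ?_⟩
      · obtain ⟨a, d, ha, hd, hgl⟩ := GL2.eq_bmk_of_diag (Matrix.SpecialLinearGroup.toGL g) h01 h10
        have ha' : (a : F) = (g : Matrix (Fin 2) (Fin 2) F) 0 0 := ha
        have hd' : (d : F) = (g : Matrix (Fin 2) (Fin 2) F) 1 1 := hd
        have had1 : (a : F) * d = 1 := by
          rw [Matrix.det_fin_two, h01, zero_mul, sub_zero, ← ha', ← hd'] at hdet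
          exact hdet
        have had : a ≠ d := by
          intro h
          apply hne
          rw [← ha', sq]
          rw [← h] at had1
          exact had1
        rw [hgl, GL2.St_split α a d had, ← map_mul, had1, map_one]
      · rw [GL2.St, Pi.sub_apply, GL2.II_elliptic α α _ hg, zero_sub, GL2.dl_apply]
        have : ((Matrix.SpecialLinearGroup.toGL g : Matrix.GeneralLinearGroup (Fin 2) F) :
          Matrix (Fin 2) (Fin 2) F).det = 1 := hdet
        rw [this, map_one]
      · obtain ⟨n0, n1⟩ := GL2.bor_diag_ne ⟨Matrix.SpecialLinearGroup.toGL g,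
          (GL2.mem_bor _).2 h10⟩
        have hgl : Matrix.SpecialLinearGroup.toGL g = GL2.bmk (Units.mk0 _ n0) (Units.mk0 _ n0)
            ((g : Matrix (Fin 2) (Fin 2) F) 0 1) := by
          apply Units.ext
          rw [GL2.bmk_coe]
          ext i j
          fin_cases i <;> fin_cases j <;> simp [h10, h00]
        rw [hgl]
        exact St_zu α _ _ h01
    · exfalso
      rw [GL2.II_one] at hdeg
      have : (1 : ℂ) = 0 := by linear_combination hdeg
      norm_num at this
    · exfalso
      rw [h3] at hdeg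
      have : (1 : ℂ) = 0 := by linear_combination -hdeg
      norm_num at this
  · exfalso
    have h1 : χ' 1 = χ 1 := hx 1 1 (by simp)
    have h2 : ψ 1 = 2 * χ 1 := by
      have := congrFun heq 1
      simp only [SL2r.res, map_one, Pi.add_apply, h1] at this
      rw [this]; ring
    have h3 := (Cfsg.Agent.S2298.result (F := F)).1 ψ hψ
    rw [h2, hdeg] at h3
    rcases h3 with h | h | h | h
    · have := key (2 * Fintype.card F) 1 (by push_cast; linear_combination h)
      omega
    · have := key (2 * Fintype.card F + 1) (Fintype.card F) (by push_cast; linear_combination h)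
      omega
    · have := key (2 * Fintype.card F) (Fintype.card F) (by push_cast; linear_combination h)
      omega
    · have := key (2 * Fintype.card F) (Fintype.card F + 1) (by push_cast; linear_combination h)
      omega

end Cfsg.Agent.S2321
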