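import Cfsg.Statements.S1516
import Cfsg.Agent.Lib.Helper24.Coherence4

set_option autoImplicit false
open Cfsg

namespace Cfsg.Agent.S1516


open Cfsg.Agent.Lib.Helper7 Cfsg.Agent.Lib.Helper11 Cfsg.Agent.Lib.Helper24.Coh
open scoped ComplexConjugate

theorem arithR {ι : Type*} [DecidableEq ι] (s : Finset ι) (ψ : ι) (hψ : ψ ∈ s) (d n a : ι → ℝ)
    (k y : ℝ) (hnψ : n ψ ≠ 0)
    (R : ∀ ξ ∈ s, d ψ * a ξ = d ξ * y - (if ξ = ψ then k * d ψ * n ψ else 0)) :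
    d ψ ^ 2 * ∑ ξ ∈ s, a ξ ^ 2 / n ξ =
      y ^ 2 * (∑ ξ ∈ s, d ξ ^ 2 / n ξ) - 2 * y * k * d ψ ^ 2 + k ^ 2 * d ψ ^ 2 * n ψ := by
  have h1 : d ψ ^ 2 * ∑ ξ ∈ s, a ξ ^ 2 / n ξ =
      y ^ 2 * (∑ ξ ∈ s, d ξ ^ 2 / n ξ) - (2 * y * k * d ψ ^ 2 - k ^ 2 * d ψ ^ 2 * n ψ) := by
    rw [Finset.mul_sum, Finset.mul_sum]
    have : ∀ ξ ∈ s, d ψ ^ 2 * (a ξ ^ 2 / n ξ) = y ^ 2 * (d ξ ^ 2 / n ξ) -
        (if ξ = ψ then 2 * y * k * d ψ ^ 2 - k ^ 2 * d ψ ^ 2 * n ψ else 0) := by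
      intro ξ hξ
      have e : d ψ ^ 2 * (a ξ ^ 2 / n ξ) = (d ψ * a ξ) ^ 2 / n ξ := by ring
      rw [e, R ξ hξ]
      split_ifs with h
      · subst h
        field_simp
        ring
      · ring
    rw [Finset.sum_congr rfl this, Finset.sum_sub_distrib, Finset.sum_ite_eq' s ψ, if_pos hψ]
  rw [h1]; ring


/-- Let (S, τ, R) be a coherence system from L to G with degrees φ 1 = d φ and squared norms ⟨φ, φ⟩ = n φ for φ ∈ S. Let S₁ ⊆ S be a finite subset closed under complex conjugation such that (S₁, L minus 1, τ) is coherent, let χ ∈ S with χ ∉ S₁ and conj χ ∉ S₁, and let χ₁ ∈ S₁ with d χ₁ dividing d χ and 2 d χ d χ₁ < Σ_{φ ∈ S₁} (d φ)² / n φ. Then S₁ together with χ and conj χ is coherent. -/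
theorem result {L : Type*} [Group L] [Fintype L] {G : Type*} [Group G] [Fintype G] (S : Set (L → ℂ)) (τ : (L → ℂ) → (G → ℂ)) (R : (L → ℂ) → Finset (G → ℂ)) (hS : Cfsg.IsCoherenceSystem S τ R) (d n : (L → ℂ) → ℕ) (hd : ∀ φ ∈ S, φ 1 = (d φ : ℂ)) (hn : ∀ φ ∈ S, Cfsg.classInner φ φ = (n φ : ℂ)) (S₁ : Finset (L → ℂ)) (hS₁ : ↑S₁ ⊆ S) (hS₁c : ∀ φ ∈ S₁, Cfsg.conjFun φ ∈ S₁) (hcoh : Cfsg.IsCoherent (↑S₁ : Set (L → ℂ)) {1}ᶜ τ) (χ : L → ℂ) (hχ : χ ∈ S) (hχ₁ : χ ∉ S₁) (hχ₂ : Cfsg.conjFun χ ∉ S₁) (χ₁ : L → ℂ) (hχ₁S : χ₁ ∈ S₁) (hdvd : d χ₁ ∣ d χ) (hineq : (2 * d χ * d χ₁ : ℝ) < ∑ φ ∈ S₁, ((d φ : ℝ) ^ 2 / (n φ : ℝ))) : Cfsg.IsCoherent (↑S₁ ∪ {χ, Cfsg.conjFun χ} : Set (L → ℂ)) {1}ᶜ τ := by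
  classical
  obtain ⟨⟨θ0, hθ0, hθ0ne⟩, τ₁, hτ₁, hτ₁τ⟩ := hcoh
  obtain ⟨a, ha⟩ := hdvd
  have hχ₁' : χ₁ ∈ S := hS₁ hχ₁S
  have hχc := hS.conj_mem χ hχ
  have hd₁0 : 0 < d χ₁ := by
    obtain ⟨k, hk, e⟩ := sys_deg hS hχ₁'
    rw [hd _ hχ₁'] at e
    have : d χ₁ = k := by exact_mod_cast e
    omega
  have hnpos : ∀ φ ∈ S, 0 < n φ := by
    intro φ hφ
    obtain ⟨k, hk, e⟩ := sys_norm hS hφ
    rw [hn _ hφ] at e
    have : n φ = k := by exact_mod_cast e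
    omega
  have hne : ∀ φ ∈ S₁, φ ≠ χ ∧ φ ≠ conjFun χ :=
    fun φ hφ => ⟨fun e => hχ₁ (e ▸ hφ), fun e => hχ₂ (e ▸ hφ)⟩
  have o1 : ∀ φ ∈ S₁, classInner φ χ = 0 :=
    fun φ hφ => hS.orthogonal φ (hS₁ hφ) χ hχ (hne φ hφ).1
  have o2 : ∀ φ ∈ S₁, classInner φ (conjFun χ) = 0 :=
    fun φ hφ => hS.orthogonal φ (hS₁ hφ) _ hχc (hne φ hφ).2
  have o1' : ∀ φ ∈ S₁, classInner χ φ = 0 :=
    fun φ hφ => hS.orthogonal χ hχ φ (hS₁ hφ) (hne φ hφ).1.symm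
  have c₁ : χ₁ ∈ zspan (↑S₁ : Set (L → ℂ)) := subset_zspan hχ₁S
  have hβ : χ - (a : ℤ) • χ₁ ∈ zspanOn S {1}ᶜ := by
    rw [mem_zspanOn_one]
    refine ⟨zspan_sub (subset_zspan hχ) (zspan_zsmul _ (subset_zspan hχ₁')), ?_⟩
    simp only [Pi.sub_apply, Pi.smul_apply, zsmul_eq_mul, Pi.mul_apply, Pi.intCast_apply,
      hd _ hχ, hd _ hχ₁', ha]
    push_cast
    ring
  have hTg : IsGeneralizedCharacter G (τ (χ - (a : ℤ) • χ₁)) := hS.isometry.2.2.2 _ hβ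
  have hTT : classInner (τ (χ - (a : ℤ) • χ₁)) (τ (χ - (a : ℤ) • χ₁)) =
      n χ + (a : ℂ) ^ 2 * n χ₁ := by
    rw [hS.isometry.2.2.1 _ hβ _ hβ]
    simp only [classInner_sub_left, classInner_sub_right, classInner_zsmul_left,
      classInner_zsmul_right, hn _ hχ, hn _ hχ₁', o1 _ hχ₁S, o1' _ hχ₁S]
    push_cast
    ring
  have s1 : classInner (τ (χ - (a : ℤ) • χ₁)) (τ (χ - conjFun χ)) = n χ := by
    rw [hS.isometry.2.2.1 _ hβ _ (sys_sub_conj_mem hS hχ)]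
    simp only [classInner_sub_left, classInner_sub_right, classInner_zsmul_left,
      hn _ hχ, o1 _ hχ₁S, o2 _ hχ₁S, sys_inner_conj hS hχ]
    ring
  rw [sys_inner_sum hS hχ] at s1
  generalize hT : τ (χ - (a : ℤ) • χ₁) = T at hTg hTT s1
  obtain ⟨c, hc⟩ := sys_coeff hS hTg
  have hex : ∀ ξ : L → ℂ, ∃ k : ℤ, ξ ∈ S₁ → classInner T (τ₁ ξ) = k := by
    intro ξ
    by_cases hξ : ξ ∈ S₁
    · obtain ⟨k, hk⟩ := genChar_inner_int hTg (hτ₁.2.2.2 ξ (subset_zspan hξ))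
      exact ⟨k, fun _ => hk⟩
    · exact ⟨0, fun h => absurd h hξ⟩
  choose aa haa using hex
  have hon : ∀ ξ ∈ S₁, ∀ η ∈ S₁, classInner (τ₁ ξ) (τ₁ η) = if ξ = η then (n ξ : ℂ) else 0 := by
    intro ξ hξ η hη
    rw [hτ₁.2.2.1 _ (subset_zspan hξ) _ (subset_zspan hη)]
    split_ifs with h
    · subst h; exact hn _ (hS₁ hξ)
    · exact hS.orthogonal ξ (hS₁ hξ) η (hS₁ hη) h
  have hperp : ∀ φ ∈ S₁, ∀ α ∈ R χ, classInner (τ₁ φ) α = 0 := by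
    intro φ hφ α hα
    refine sys_coh_support hS hS₁ hτ₁ hτ₁τ hφ (hS₁c φ hφ) α (fun β hβ => ?_)
    exact sys_disjoint hS (hS₁ hφ) hχ (hne φ hφ).1.symm
      (fun e => hχ₁ (e ▸ hS₁c φ hφ)) β hβ α hα
  have hperp' : ∀ (c' : (G → ℂ) → ℤ), ∀ φ ∈ S₁,
      classInner (τ₁ φ) (∑ α ∈ R χ, c' α • α) = 0 := by
    intro c' φ hφ
    rw [classInner_sum_right]
    apply Finset.sum_eq_zero
    intro α hα
    rw [classInner_zsmul_right, hperp φ hφ α hα, mul_zero]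
  obtain ⟨g1, g2, g3, g4⟩ := sys_comb hS hχ c
  obtain ⟨g1', g2', g3', g4'⟩ := sys_comb hS hχ (fun α => c α - 1)
  obtain ⟨X, hX⟩ : ∃ X : G → ℂ, X = ∑ α ∈ R χ, c α • α := ⟨_, rfl⟩
  obtain ⟨X', hX'⟩ : ∃ X' : G → ℂ, X' = ∑ α ∈ R χ, (c α - 1) • α := ⟨_, rfl⟩
  rw [← hX] at g1 g2 g3 g4
  rw [← hX'] at g1' g2' g3' g4'
  have hB1 := bessel (R χ) id (fun _ => (1 : ℂ)) (fun _ _ => one_ne_zero)
    (fun α hα β hβ => hS.orthonormal χ hχ α hα β hβ) T T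
  have eX : ∑ i ∈ R χ, (classInner T (id i) / (1 : ℂ)) • (id i : G → ℂ) = X := by
    rw [hX]
    apply Finset.sum_congr rfl
    intro α hα
    simp only [id, div_one, hc χ hχ α hα, Int.cast_smul_eq_zsmul]
  rw [eX] at hB1
  have q1 : ∑ α ∈ R χ, classInner T (id α) * conj (classInner T (id α)) / (1 : ℂ) =
      ((∑ α ∈ R χ, c α ^ 2 : ℤ) : ℂ) := by
    push_cast
    apply Finset.sum_congr rfl
    intro α hα
    simp only [id, hc χ hχ α hα, div_one, map_intCast]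
    ring
  rw [q1, hTT] at hB1
  have hZ₁ : ∀ φ ∈ S₁, classInner (T - X) (τ₁ φ) = aa φ := by
    intro φ hφ
    rw [classInner_sub_left, haa φ hφ, ← classInner_conj_symm (τ₁ φ) X, hX, hperp' c φ hφ, map_zero,
      sub_zero]
  have hB2 := bessel S₁ τ₁ (fun φ => (n φ : ℂ))
    (fun φ hφ => by exact_mod_cast (hnpos φ (hS₁ hφ)).ne') hon (T - X) (T - X)
  obtain ⟨r, hr, hrZ⟩ := exists_real_norm
    (T - X - ∑ i ∈ S₁, (classInner (T - X) (τ₁ i) / (n i : ℂ)) • τ₁ i)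
  have q2 : ∑ i ∈ S₁, classInner (T - X) (τ₁ i) * conj (classInner (T - X) (τ₁ i)) / (n i : ℂ) =
      ((∑ i ∈ S₁, (aa i : ℝ) ^ 2 / (n i : ℝ) : ℝ) : ℂ) := by
    push_cast
    apply Finset.sum_congr rfl
    intro φ hφ
    rw [hZ₁ φ hφ, map_intCast]
    ring
  rw [hrZ, q2] at hB2
  rw [hB2] at hB1
  have hmain : (n χ : ℝ) + (a : ℝ) ^ 2 * n χ₁ = ((∑ α ∈ R χ, c α ^ 2 : ℤ) : ℝ) +
      ((∑ i ∈ S₁, (aa i : ℝ) ^ 2 / (n i : ℝ)) + r) := by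
    exact_mod_cast hB1
  have t1 : (n χ : ℤ) = ∑ α ∈ R χ, c α := by
    rw [Finset.sum_congr rfl (fun α hα => hc χ hχ α hα)] at s1
    exact_mod_cast s1.symm
  have u1 : (n χ : ℤ) ≤ ∑ α ∈ R χ, c α ^ 2 := by
    rw [t1]; exact Finset.sum_le_sum (fun α _ => Int.le_self_sq (c α))
  have u1' : (n χ : ℝ) ≤ ((∑ α ∈ R χ, c α ^ 2 : ℤ) : ℝ) := by exact_mod_cast u1
  have mγ : ∀ ξ ∈ S₁, ((d χ₁ : ℕ) : ℤ) • ξ - ((d ξ : ℕ) : ℤ) • χ₁ ∈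
      zspanOn (↑S₁ : Set (L → ℂ)) {1}ᶜ := by
    intro ξ hξ
    exact pair_mem (X := (↑S₁ : Set (L → ℂ))) hξ hχ₁S (a₁ := (d ξ : ℤ)) (a₂ := (d χ₁ : ℤ))
      (by simpa using hd ξ (hS₁ hξ)) (by simpa using hd χ₁ hχ₁')
  have eγ : ∀ ξ ∈ S₁, τ (((d χ₁ : ℕ) : ℤ) • ξ - ((d ξ : ℕ) : ℤ) • χ₁) =
      ((d χ₁ : ℕ) : ℤ) • τ₁ ξ - ((d ξ : ℕ) : ℤ) • τ₁ χ₁ := by
    intro ξ hξ
    rw [← hτ₁τ _ (mγ ξ hξ), iso_sub hτ₁ (zspan_zsmul _ (subset_zspan hξ)) (zspan_zsmul _ c₁),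
      hτ₁.2.1 _ (subset_zspan hξ), hτ₁.2.1 _ c₁]
  have Rel : ∀ ξ ∈ S₁, ((d χ₁ : ℕ) : ℝ) * (aa ξ : ℝ) =
      ((d ξ : ℕ) : ℝ) * ((aa χ₁ + a * n χ₁ : ℤ) : ℝ) -
        (if ξ = χ₁ then (a : ℝ) * ((d χ₁ : ℕ) : ℝ) * ((n χ₁ : ℕ) : ℝ) else 0) := by
    intro ξ hξ
    by_cases h : ξ = χ₁
    · subst h
      rw [if_pos rfl]
      push_cast
      ring
    · have h0 := hS.isometry.2.2.1 _ hβ _ (zspanOn_mono hS₁ (mγ ξ hξ))
      rw [hT, eγ ξ hξ, classInner_sub_right, classInner_zsmul_right, classInner_zsmul_right,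
        haa ξ hξ, haa χ₁ hχ₁S] at h0
      simp only [classInner_sub_left, classInner_sub_right, classInner_zsmul_left,
        classInner_zsmul_right, o1' ξ hξ, o1' χ₁ hχ₁S, hn _ hχ₁',
        hS.orthogonal χ₁ hχ₁' ξ (hS₁ hξ) (Ne.symm h)] at h0
      rw [if_neg h]
      have : ((((d χ₁ : ℕ) : ℝ) * (aa ξ : ℝ) : ℝ) : ℂ) =
          ((((d ξ : ℕ) : ℝ) * ((aa χ₁ + a * n χ₁ : ℤ) : ℝ) - 0 : ℝ) : ℂ) := by
        push_cast
        push_cast at h0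
        linear_combination h0
      exact_mod_cast this
  have hn₁0 : ((n χ₁ : ℕ) : ℝ) ≠ 0 := by exact_mod_cast (hnpos _ hχ₁').ne'
  have hA := arithR S₁ χ₁ hχ₁S (fun ξ => ((d ξ : ℕ) : ℝ)) (fun ξ => ((n ξ : ℕ) : ℝ))
    (fun ξ => (aa ξ : ℝ)) (a : ℝ) ((aa χ₁ + a * n χ₁ : ℤ) : ℝ) hn₁0 Rel
  beta_reduce at hA
  have hW : 2 * (a : ℝ) * ((d χ₁ : ℕ) : ℝ) ^ 2 < ∑ φ ∈ S₁, ((d φ : ℝ) ^ 2 / (n φ : ℝ)) := by
    rw [ha] at hineq
    push_cast at hineq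
    calc 2 * (a : ℝ) * ((d χ₁ : ℕ) : ℝ) ^ 2 = 2 * ((d χ₁ : ℝ) * a) * (d χ₁ : ℝ) := by ring
      _ < _ := hineq
  generalize hWdef : ∑ φ ∈ S₁, ((d φ : ℝ) ^ 2 / (n φ : ℝ)) = W at hA hW
  generalize hQdef : ∑ i ∈ S₁, (aa i : ℝ) ^ 2 / (n i : ℝ) = Q at hA hmain
  generalize hCdef : ((∑ α ∈ R χ, c α ^ 2 : ℤ) : ℝ) = C at hmain u1'
  have hd₁R : (0 : ℝ) < ((d χ₁ : ℕ) : ℝ) := by exact_mod_cast hd₁0
  have haR : (0 : ℝ) ≤ (a : ℝ) := by positivity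
  have hfund : -(((d χ₁ : ℕ) : ℝ) ^ 2 * ((C - n χ) + r)) =
      ((aa χ₁ + a * n χ₁ : ℤ) : ℝ) ^ 2 * W -
        2 * ((aa χ₁ + a * n χ₁ : ℤ) : ℝ) * a * ((d χ₁ : ℕ) : ℝ) ^ 2 := by
    have : Q = (n χ : ℝ) + (a : ℝ) ^ 2 * n χ₁ - C - r := by linarith
    rw [this] at hA
    linear_combination hA
  have hy0 : aa χ₁ + a * n χ₁ = 0 := by
    by_contra hyne
    generalize aa χ₁ + (a : ℤ) * (n χ₁ : ℤ) = y at hfund hyne
    have hy1 : (y : ℝ) ≤ (y : ℝ) ^ 2 := by exact_mod_cast Int.le_self_sq y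
    have hy2 : (1 : ℝ) ≤ (y : ℝ) ^ 2 := by
      have : 0 < y ^ 2 := by positivity
      have h1 : 1 ≤ y ^ 2 := by omega
      exact_mod_cast h1
    have hkd : (0 : ℝ) ≤ (a : ℝ) * ((d χ₁ : ℕ) : ℝ) ^ 2 := by positivity
    have e1 : 2 * (y : ℝ) * a * ((d χ₁ : ℕ) : ℝ) ^ 2 ≤
        2 * (y : ℝ) ^ 2 * ((a : ℝ) * ((d χ₁ : ℕ) : ℝ) ^ 2) := by nlinarith
    have e2 : 1 * (W - 2 * (a : ℝ) * ((d χ₁ : ℕ) : ℝ) ^ 2) ≤
        (y : ℝ) ^ 2 * (W - 2 * (a : ℝ) * ((d χ₁ : ℕ) : ℝ) ^ 2) :=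
      mul_le_mul_of_nonneg_right hy2 (by linarith)
    have e3 : 0 ≤ ((d χ₁ : ℕ) : ℝ) ^ 2 * ((C - n χ) + r) :=
      mul_nonneg (by positivity) (by linarith)
    nlinarith
  rw [hy0] at hfund
  have hzero : ((d χ₁ : ℕ) : ℝ) ^ 2 * ((C - n χ) + r) = 0 := by
    have : -(((d χ₁ : ℕ) : ℝ) ^ 2 * ((C - n χ) + r)) = 0 := by
      rw [hfund]; simp
    linarith
  have hsum0 : (C - n χ) + r = 0 := (mul_eq_zero.mp hzero).resolve_left (by positivity)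
  have hr0 : r = 0 := by linarith
  have hC : C = n χ := by linarith
  have t2 : ∑ α ∈ R χ, c α ^ 2 = (n χ : ℤ) := by
    rw [← hCdef] at hC
    exact_mod_cast hC
  have haχ₁ : aa χ₁ = -((a : ℤ) * n χ₁) := by linarith
  have haξ : ∀ ξ ∈ S₁, ξ ≠ χ₁ → aa ξ = 0 := by
    intro ξ hξ h
    have h1 := Rel ξ hξ
    rw [hy0, if_neg h] at h1
    have h2 : ((d χ₁ : ℕ) : ℝ) * (aa ξ : ℝ) = 0 := by rw [h1]; simp
    have h3 := (mul_eq_zero.mp h2).resolve_left hd₁R.ne'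
    exact_mod_cast h3
  rw [hr0] at hrZ
  have hZ2 := classInner_self_eq_zero (hrZ.trans (by simp))
  have hTX : T - X = (-(a : ℤ)) • τ₁ χ₁ := by
    rw [sub_eq_zero.mp hZ2, Finset.sum_eq_single χ₁]
    · rw [hZ₁ χ₁ hχ₁S, haχ₁, ← Int.cast_smul_eq_zsmul ℂ]
      congr 1
      have : ((n χ₁ : ℕ) : ℂ) ≠ 0 := by exact_mod_cast (hnpos _ hχ₁').ne'
      push_cast
      field_simp
    · intro ξ hξ h
      rw [hZ₁ ξ hξ, haξ ξ hξ h]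
      simp
    · intro h; exact absurd hχ₁S h
  have hTΔ : T = X - (a : ℤ) • τ₁ χ₁ := by
    have : T = X + (T - X) := by abel
    rw [this, hTX, neg_smul]
    abel
  have hXX' : X - X' = ∑ α ∈ R χ, α := by
    rw [hX, hX', ← Finset.sum_sub_distrib]
    apply Finset.sum_congr rfl
    intro α _
    rw [sub_smul, one_smul]
    abel
  have hcard := sys_card hS hχ (hn χ hχ)
  have i1 : classInner X X = n χ := by
    have h1 := g4 c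
    rw [← hX] at h1
    rw [h1]
    have : ∑ α ∈ R χ, c α * c α = (n χ : ℤ) := by
      rw [← t2]; apply Finset.sum_congr rfl; intro α _; ring
    rw [this]; simp
  have e2 : ∑ α ∈ R χ, c α * (c α - 1) = 0 := by
    have : ∀ α, c α * (c α - 1) = c α ^ 2 - c α := by intro α; ring
    simp only [this, Finset.sum_sub_distrib, t2, ← t1, sub_self]
  have i2 : classInner X X' = 0 := by
    have h1 := g4 (fun α => c α - 1)
    rw [← hX'] at h1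
    rw [h1, e2]; simp
  have i3 : classInner X' X = 0 := by
    rw [← classInner_conj_symm, i2, map_zero]
  have i4 : classInner X' X' = n χ := by
    have h1 := g4' (fun α => c α - 1)
    rw [← hX'] at h1
    rw [h1]
    have : ∑ α ∈ R χ, (c α - 1) * (c α - 1) = (n χ : ℤ) := by
      have e : ∀ α, (c α - 1) * (c α - 1) = c α ^ 2 - 2 * c α + 1 := by intro α; ring
      simp only [e, Finset.sum_add_distrib, Finset.sum_sub_distrib, t2, ← Finset.mul_sum, ← t1,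
        Finset.sum_const, hcard]
      simp
    rw [this]; simp
  have hcne : conjFun χ ≠ χ := hS.conj_ne χ hχ
  have hYS : ({χ, conjFun χ} : Set (L → ℂ)) ⊆ S := by
    intro y hy
    rcases hy with rfl | hy
    · exact hχ
    · rw [Set.mem_singleton_iff.mp hy]; exact hχc
  obtain ⟨τ', hτ', hτ'f⟩ := exists_iso_of_orthogonal (S := ({χ, conjFun χ} : Set (L → ℂ)))
    (G := G) (fun φ hφ => sys_ne_zero hS (hYS hφ))
    (fun φ hφ φ' hφ' h => hS.orthogonal φ (hYS hφ) φ' (hYS hφ') h)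
    (fun φ => if φ = χ then X else X')
    (by
      intro φ _
      beta_reduce
      split_ifs
      · exact g1
      · exact g1')
    (by
      intro φ hφ φ' hφ'
      rcases hφ with rfl | hφ <;> rcases hφ' with rfl | hφ'
      · simp only [if_true, i1, hn _ hχ]
      · rw [Set.mem_singleton_iff.mp hφ']
        simp only [if_true, if_neg hcne, i2, sys_inner_conj hS hχ]
      · rw [Set.mem_singleton_iff.mp hφ]
        simp only [if_true, if_neg hcne, i3, sys_inner_conj' hS hχ]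
      · rw [Set.mem_singleton_iff.mp hφ, Set.mem_singleton_iff.mp hφ']
        simp only [if_neg hcne, i4, sys_conj_norm, hn _ hχ])
  have hτ'χ : τ' χ = X := by
    rw [hτ'f χ (by simp), if_pos rfl]
  have hτ'χc : τ' (conjFun χ) = X' := by
    rw [hτ'f _ (by simp), if_neg hcne]
  obtain ⟨ρ, hρ, hρ'⟩ := glue (X := (↑S₁ : Set (L → ℂ))) (Y := {χ, conjFun χ}) (σ := τ₁)
    (τ := τ')
    (by
      intro x hx y hy
      rcases hy with rfl | hy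
      · exact o1 x hx
      · rw [Set.mem_singleton_iff.mp hy]; exact o2 x hx)
    hτ₁ hτ'
    (by
      intro x hx y hy
      rcases hy with rfl | hy
      · rw [hτ'χ, hX]; exact hperp' c x hx
      · rw [Set.mem_singleton_iff.mp hy, hτ'χc, hX']; exact hperp' _ x hx)
  have hρ1 : ∀ φ ∈ S₁, ρ φ = τ₁ φ := by
    intro φ hφ
    have := hρ' φ (subset_zspan hφ) 0 (zspan_zero _)
    rwa [add_zero, iso_zero hτ', add_zero] at this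
  have hρ2 : ρ χ = X := by
    have := hρ' 0 (zspan_zero _) χ (subset_zspan (by simp))
    rwa [zero_add, iso_zero hτ₁, zero_add, hτ'χ] at this
  have hρ3 : ρ (conjFun χ) = X' := by
    have := hρ' 0 (zspan_zero _) (conjFun χ) (subset_zspan (by simp))
    rwa [zero_add, iso_zero hτ₁, zero_add, hτ'χc] at this
  refine ⟨⟨θ0, zspanOn_mono Set.subset_union_left hθ0, hθ0ne⟩, ρ, hρ,
    agree_of_generators (S := S) (Set.union_subset hS₁ hYS) hS.isometry hρ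
      (χ₁ := χ₁) (Or.inl hχ₁S) (d₁ := ((d χ₁ : ℕ) : ℤ)) (by simpa using hd χ₁ hχ₁') (by omega) ?_⟩
  intro φ hφ
  have eχ : ((d χ₁ : ℕ) : ℤ) • χ - ((d χ : ℕ) : ℤ) • χ₁ =
      ((d χ₁ : ℕ) : ℤ) • (χ - (a : ℤ) • χ₁) := by
    rw [ha, smul_sub, smul_smul]
    push_cast
    rfl
  rcases hφ with hφ | hφ | hφ
  · refine ⟨d φ, by simpa using hd φ (hS₁ hφ), ?_⟩
    rw [eγ φ hφ, hρ1 φ hφ, hρ1 χ₁ hχ₁S]
  · subst hφ
    refine ⟨d φ, by simpa using hd φ hχ, ?_⟩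
    rw [eχ, hS.isometry.2.1 _ hβ, hT, hTΔ, hρ2, hρ1 χ₁ hχ₁S, smul_sub, smul_smul, ha]
    push_cast
    rfl
  · rw [Set.mem_singleton_iff.mp hφ]
    refine ⟨d χ, by rw [sys_conj_one hS hχ]; simpa using hd χ hχ, ?_⟩
    have e : ((d χ₁ : ℕ) : ℤ) • conjFun χ - ((d χ : ℕ) : ℤ) • χ₁ =
        ((d χ₁ : ℕ) : ℤ) • (χ - (a : ℤ) • χ₁) + (-((d χ₁ : ℕ) : ℤ)) • (χ - conjFun χ) := by
      rw [← eχ, neg_smul, smul_sub]
      abel
    rw [e, hS.isometry.1 _ (zspanOn_zsmul _ hβ) _ (zspanOn_zsmul _ (sys_sub_conj_mem hS hχ)),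
      hS.isometry.2.1 _ hβ, hS.isometry.2.1 _ (sys_sub_conj_mem hS hχ), hT, hTΔ,
      hS.sum_eq χ hχ, ← hXX', hρ3, hρ1 χ₁ hχ₁S, ha]
    push_cast
    rw [neg_smul, smul_sub, smul_sub, smul_smul]
    abel

end Cfsg.Agent.S1516
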