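import Cfsg.Statements.S1519
import Cfsg.Agent.Lib.Helper24.Coherence5
import Cfsg.Agent.S1516

set_option autoImplicit false
open Cfsg

namespace Cfsg.Agent.S1519

open Cfsg.Agent.Lib.Helper7 Cfsg.Agent.Lib.Helper24.Coh Cfsg.Agent.Lib.Helper24.Coh5
open scoped ComplexConjugate

theorem arith {e t i j c dd k l r : ℕ} (hc : 0 < c) (hdd : 0 < dd)
    (h1 : t ^ 2 * (dd * c) ≤ k ^ 2) (h2 : c * i = l) (h3 : k * e = l) (h4 : dd * j = c)
    (hlt : 4 * i ^ 2 * j < (r - 1) ^ 2) : 2 * e * t < r - 1 := by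
  have h5 : e ^ 2 * t ^ 2 ≤ i ^ 2 * j := by
    apply Nat.le_of_mul_le_mul_right (c := dd * c) _ (Nat.mul_pos hdd hc)
    calc e ^ 2 * t ^ 2 * (dd * c) = e ^ 2 * (t ^ 2 * (dd * c)) := by ring
      _ ≤ e ^ 2 * k ^ 2 := by gcongr
      _ = (k * e) ^ 2 := by ring
      _ = (c * i) ^ 2 := by rw [h3, h2]
      _ = i ^ 2 * c * c := by ring
      _ = i ^ 2 * (dd * j) * c := by rw [h4]
      _ = i ^ 2 * j * (dd * c) := by ring
  have h6 : (2 * e * t) ^ 2 < (r - 1) ^ 2 := by
    calc (2 * e * t) ^ 2 = 4 * (e ^ 2 * t ^ 2) := by ring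
      _ ≤ 4 * (i ^ 2 * j) := by gcongr
      _ = 4 * i ^ 2 * j := by ring
      _ < (r - 1) ^ 2 := hlt
  exact lt_of_pow_lt_pow_left₀ 2 (Nat.zero_le _) h6


/-- Let K be a solvable normal subgroup of the finite group L and (S, τ, R) a coherence system from L to G where S is the set of functions induced from non-principal irreducible characters of K; write S(A) for those induced from characters whose kernel contains A. Let A, B, C, D be normal subgroups of L with A < K, B < K, B ≤ D ≤ C ≤ K and every commutator of D with C in B. If S(A) is coherent and 4 * [L:C]^2 * [C:D] < ([K:A] − 1)^2, then S(B) is coherent. -/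
theorem result {L : Type*} [Group L] [Fintype L] {G : Type*} [Group G] [Fintype G] (K : Subgroup L) [hK : K.Normal] (hsolv : Group.IsSolvable K) (τ : (L → ℂ) → (G → ℂ)) (R : (L → ℂ) → Finset (G → ℂ)) (hS : Cfsg.IsCoherenceSystem (Cfsg.inducedIrrAbove K ⊥) τ R) (A B C D : Subgroup L) [A.Normal] [B.Normal] [C.Normal] [D.Normal] (hAK : A < K) (hBK : B < K) (hBD : B ≤ D) (hDC : D ≤ C) (hCK : C ≤ K) (hcent : ∀ x ∈ D, ∀ y ∈ C, x * y * x⁻¹ * y⁻¹ ∈ B) (hA : Cfsg.IsCoherent (Cfsg.inducedIrrAbove K A) {1}ᶜ τ) (hlt : 4 * C.index ^ 2 * D.relIndex C < (A.relIndex K - 1) ^ 2) : Cfsg.IsCoherent (Cfsg.inducedIrrAbove K B) {1}ᶜ τ := by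
  classical
  haveI : Fintype K := Fintype.ofFinite _
  haveI : Finite (IrrCharacter K) := Cfsg.Agent.Lib.Helper25.finite_irrCharacter
  haveI : Fintype (IrrCharacter K) := Fintype.ofFinite _
  choose! d hd0 hd using (fun (φ : L → ℂ) (hφ : φ ∈ Cfsg.inducedIrrAbove K ⊥) => sys_deg hS hφ)
  choose! n hn0 hn using (fun (φ : L → ℂ) (hφ : φ ∈ Cfsg.inducedIrrAbove K ⊥) => sys_norm hS hφ)
  have hsubA := above_subset K A
  have hsubB := above_subset K B
  have he0 : 0 < K.index := Nat.pos_of_ne_zero Subgroup.index_ne_zero_of_finite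
  have hr0 : 0 < A.relIndex K := Nat.pos_of_ne_zero Subgroup.index_ne_zero_of_finite
  -- the weight of S(A)
  have hsum : ∑ φ ∈ SF K A, ((d φ : ℝ) ^ 2 / (n φ : ℝ)) = (K.index : ℝ) * ((A.relIndex K : ℝ) - 1) := by
    have h := sum_sq_div K A
      (fun χ hχ φ hφ hne => hS.orthogonal χ (hsubA hχ) φ (hsubA hφ) hne)
      (fun χ hχ => sys_ne_zero hS (hsubA hχ))
      (fun χ hχ => by rw [hd χ (hsubA hχ)]; simp)
    have e : ∀ φ ∈ SF K A, φ 1 ^ 2 / classInner φ φ = (((d φ : ℝ) ^ 2 / (n φ : ℝ) : ℝ) : ℂ) := by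
      intro φ hφ
      have hφ' : φ ∈ Cfsg.inducedIrrAbove K ⊥ := hsubA (by rw [← coe_SF]; exact hφ)
      rw [hd φ hφ', hn φ hφ']
      push_cast
      rfl
    rw [Finset.sum_congr rfl e, ← Complex.ofReal_sum] at h
    exact_mod_cast h
  -- a member of S(A) of degree e
  have hAtop : A.subgroupOf K ≠ ⊤ := by
    intro h
    exact absurd (Subgroup.subgroupOf_eq_top.mp h) (not_le_of_gt hAK)
  obtain ⟨l, hl1, hl2, hl3, hl4⟩ := exists_linear hsolv (A.subgroupOf K) hAtop
  have hχ₁A : indFun K l ∈ Cfsg.inducedIrrAbove K A :=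
    ⟨l, hl1, hl2, fun a ha => hl3 a (Subgroup.mem_subgroupOf.mpr ha), rfl⟩
  have hdχ₁ : d (indFun K l) = K.index := by
    have h := hd _ (hsubA hχ₁A)
    rw [Cfsg.Agent.Lib.Helper25.indFun_one, hl4, mul_one] at h
    exact_mod_cast h.symm
  -- degrees in S(B)
  have hdegB : ∀ χ ∈ Cfsg.inducedIrrAbove K B, ∃ t : ℕ, d χ = K.index * t ∧
      2 * K.index * t < A.relIndex K - 1 := by
    rintro χ hχ
    have hχS := hsubB hχ
    obtain ⟨θ, h1, h2, h3, rfl⟩ := hχ
    obtain ⟨t, ht0, ht⟩ := irr_apply_one h1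
    refine ⟨t, ?_, ?_⟩
    · have h := hd _ hχS
      rw [Cfsg.Agent.Lib.Helper25.indFun_one, ht] at h
      exact_mod_cast h.symm
    · have hb := degree_bound (C.subgroupOf K) (D.subgroupOf K)
        (fun x hx => hDC hx) h1 (by
          intro x hx y hy
          exact h3 _ (hcent x hx y hy)) ht
      have c1 : Nat.card (C.subgroupOf K) = Nat.card C :=
        Nat.card_congr (Subgroup.subgroupOfEquivOfLe hCK).toEquiv
      have c2 : Nat.card (D.subgroupOf K) = Nat.card D :=
        Nat.card_congr (Subgroup.subgroupOfEquivOfLe (hDC.trans hCK)).toEquiv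
      have c3 : Nat.card (D.subgroupOf C) = Nat.card D :=
        Nat.card_congr (Subgroup.subgroupOfEquivOfLe hDC).toEquiv
      rw [c1, c2] at hb
      have c4 := (D.subgroupOf C).card_mul_index
      rw [c3] at c4
      exact arith Nat.card_pos Nat.card_pos hb C.card_mul_index K.card_mul_index c4 hlt
  -- the induction
  have key : ∀ T : Finset (L → ℂ), (↑T : Set (L → ℂ)) ⊆ Cfsg.inducedIrrAbove K B →
      ∃ S₁ : Finset (L → ℂ), (↑S₁ : Set (L → ℂ)) ⊆ Cfsg.inducedIrrAbove K ⊥ ∧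
        (∀ φ ∈ S₁, Cfsg.conjFun φ ∈ S₁) ∧ SF K A ⊆ S₁ ∧ T ⊆ S₁ ∧
        Cfsg.IsCoherent (↑S₁ : Set (L → ℂ)) {1}ᶜ τ := by
    intro T
    induction T using Finset.induction_on with
    | empty =>
      intro _
      refine ⟨SF K A, ?_, ?_, subset_rfl, Finset.empty_subset _, ?_⟩
      · rw [coe_SF]; exact hsubA
      · intro φ hφ
        have h1 : φ ∈ Cfsg.inducedIrrAbove K A := by rw [← coe_SF]; exact hφ
        have h2 := above_conj K A h1
        rw [← coe_SF] at h2
        exact h2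
      · rw [coe_SF]; exact hA
    | insert χ T hχT ih =>
      intro hT
      have hχB : χ ∈ Cfsg.inducedIrrAbove K B := hT (by simp)
      obtain ⟨S₁, h1, h2, h3, h4, h5⟩ := ih (fun x hx => hT (by
        rw [Finset.coe_insert]; exact Set.mem_insert_of_mem _ hx))
      by_cases hχS₁ : χ ∈ S₁
      · exact ⟨S₁, h1, h2, h3, Finset.insert_subset hχS₁ h4, h5⟩
      · have hχc : Cfsg.conjFun χ ∉ S₁ := by
          intro h
          have := h2 _ h
          rw [conjFun_conjFun] at this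
          exact hχS₁ this
        obtain ⟨t, ht1, ht2⟩ := hdegB χ hχB
        have hχ₁S₁ : indFun K l ∈ S₁ := h3 (by
          have := hχ₁A
          rw [← coe_SF] at this
          exact this)
        have hcoh := Cfsg.Agent.S1516.result (Cfsg.inducedIrrAbove K ⊥) τ R hS d n hd hn S₁ h1 h2 h5
          χ (hsubB hχB) hχS₁ hχc (indFun K l) hχ₁S₁ (by rw [hdχ₁, ht1]; exact Dvd.intro _ rfl) (by
            have hle : ∑ φ ∈ SF K A, ((d φ : ℝ) ^ 2 / (n φ : ℝ)) ≤
                ∑ φ ∈ S₁, ((d φ : ℝ) ^ 2 / (n φ : ℝ)) :=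
              Finset.sum_le_sum_of_subset_of_nonneg h3 (fun _ _ _ => by positivity)
            refine lt_of_lt_of_le ?_ hle
            rw [hsum, hdχ₁, ht1]
            have h6 : ((2 * K.index * t : ℕ) : ℝ) + 1 ≤ ((A.relIndex K - 1 : ℕ) : ℝ) := by
              exact_mod_cast ht2
            rw [Nat.cast_sub hr0] at h6
            push_cast at h6 ⊢
            have he : (0 : ℝ) < K.index := by exact_mod_cast he0
            nlinarith)
        refine ⟨S₁ ∪ {χ, Cfsg.conjFun χ}, ?_, ?_, ?_, ?_, ?_⟩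
        · intro x hx
          rw [Finset.mem_coe, Finset.mem_union, Finset.mem_insert, Finset.mem_singleton] at hx
          rcases hx with hx | rfl | rfl
          · exact h1 hx
          · exact hsubB hχB
          · exact hS.conj_mem _ (hsubB hχB)
        · intro x hx
          rw [Finset.mem_union, Finset.mem_insert, Finset.mem_singleton] at hx ⊢
          rcases hx with hx | rfl | rfl
          · exact Or.inl (h2 x hx)
          · exact Or.inr (Or.inr rfl)
          · exact Or.inr (Or.inl (conjFun_conjFun _))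
        · exact h3.trans Finset.subset_union_left
        · intro x hx
          rw [Finset.mem_insert] at hx
          rw [Finset.mem_union, Finset.mem_insert, Finset.mem_singleton]
          rcases hx with rfl | hx
          · exact Or.inr (Or.inl rfl)
          · exact Or.inl (h4 hx)
        · have : (↑(S₁ ∪ {χ, Cfsg.conjFun χ}) : Set (L → ℂ)) = ↑S₁ ∪ {χ, Cfsg.conjFun χ} := by
            push_cast
            rfl
          rw [this]
          exact hcoh
  obtain ⟨S₁, h1, h2, h3, h4, h5⟩ := key (SF K B) (by rw [coe_SF])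
  have hBtop : B.subgroupOf K ≠ ⊤ := by
    intro h
    exact absurd (Subgroup.subgroupOf_eq_top.mp h) (not_le_of_gt hBK)
  obtain ⟨m, hm1, hm2, hm3, hm4⟩ := exists_linear hsolv (B.subgroupOf K) hBtop
  have hmB : indFun K m ∈ Cfsg.inducedIrrAbove K B :=
    ⟨m, hm1, hm2, fun a ha => hm3 a (Subgroup.mem_subgroupOf.mpr ha), rfl⟩
  refine coherent_mono (Y := (↑S₁ : Set (L → ℂ))) ?_ h5 ?_
  · rw [← coe_SF]
    exact_mod_cast h4
  · exact ⟨_, sys_sub_mem hmB (above_conj K B hmB) (sys_conj_one hS (hsubB hmB)).symm,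
      fun h => hS.conj_ne _ (hsubB hmB) (sub_eq_zero.mp h).symm⟩

end Cfsg.Agent.S1519
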