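import Cfsg.Statements.S1520
import Cfsg.Agent.S1519

set_option autoImplicit false
open Cfsg

namespace Cfsg.Agent.S1520

open scoped commutatorElement

theorem nil_step {L : Type*} [Group L] (M H A : Subgroup L) [(M.subgroupOf H).Normal]
    (hnil : Group.IsNilpotent (↥H ⧸ M.subgroupOf H)) (hAH : A ≤ H) (hMH : M ≤ H)
    (hA : A ≤ ⁅A, H⁆ ⊔ M) : A ≤ M := by
  set π := QuotientGroup.mk' (M.subgroupOf H) with hπ
  set Ab : Subgroup (↥H ⧸ M.subgroupOf H) := (A.subgroupOf H).map π with hAb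
  have h1 : Ab ≤ ⁅Ab, ⊤⁆ := by
    let P : Subgroup L := ((⁅Ab, ⊤⁆ : Subgroup (↥H ⧸ M.subgroupOf H)).comap π).map H.subtype
    have hP1 : ⁅A, H⁆ ≤ P := by
      rw [Subgroup.commutator_le]
      intro a ha h hh
      refine ⟨⁅(⟨a, hAH ha⟩ : ↥H), (⟨h, hh⟩ : ↥H)⁆, ?_, rfl⟩
      rw [SetLike.mem_coe, Subgroup.mem_comap, map_commutatorElement]
      exact Subgroup.commutator_mem_commutator
        (Subgroup.mem_map_of_mem _ (Subgroup.mem_subgroupOf.mpr ha)) (Subgroup.mem_top _)
    have hP2 : M ≤ P := by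
      intro m hm
      refine ⟨⟨m, hMH hm⟩, ?_, rfl⟩
      rw [SetLike.mem_coe, Subgroup.mem_comap]
      have : π ⟨m, hMH hm⟩ = 1 :=
        (QuotientGroup.eq_one_iff _).mpr (Subgroup.mem_subgroupOf.mpr hm)
      rw [this]
      exact one_mem _
    have hP : A ≤ P := hA.trans (sup_le hP1 hP2)
    rintro _ ⟨a, ha, rfl⟩
    obtain ⟨b, hb, hab⟩ := hP (Subgroup.mem_subgroupOf.mp ha)
    have : b = a := Subtype.ext hab
    subst this
    exact hb
  have h2 : ∀ i, Ab ≤ (⊤ : Subgroup (↥H ⧸ M.subgroupOf H)).lowerCentralSeries i := by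
    intro i
    induction i with
    | zero => simp
    | succ i ih => exact h1.trans (Subgroup.commutator_mono ih le_rfl)
  obtain ⟨n, hn⟩ := Subgroup.nilpotent_iff_lowerCentralSeries.mp hnil
  intro a ha
  have h3 : π ⟨a, hAH ha⟩ ∈ Ab := Subgroup.mem_map_of_mem _ (Subgroup.mem_subgroupOf.mpr ha)
  have h4 := h2 n h3
  rw [hn, Subgroup.mem_bot] at h4
  exact Subgroup.mem_subgroupOf.mp ((QuotientGroup.eq_one_iff _).mp h4)

theorem arith2 {e k h : ℕ} (hk : 0 < k) (hh : 4 * e ^ 2 + 2 ≤ h) :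
    4 * (k * e) ^ 2 * h < (h * k - 1) ^ 2 := by
  obtain ⟨s, hs⟩ : ∃ s, h * k = s + 1 := ⟨h * k - 1, by
    have : 0 < h * k := Nat.mul_pos (by omega) hk
    omega⟩
  rw [hs, Nat.add_sub_cancel]
  have h1 : (4 * e ^ 2 + 2) * (h * k ^ 2) ≤ h * (h * k ^ 2) := Nat.mul_le_mul_right _ hh
  have h2 : h * k ≤ h * k ^ 2 := Nat.mul_le_mul_left _ (by nlinarith)
  have h3 : (s + 1) ^ 2 = h * (h * k ^ 2) := by rw [← hs]; ring
  nlinarith


/-- Let K be a solvable normal subgroup of the finite group L and (S, τ, R) a coherence system from L to G with S the functions induced from non-principal irreducible characters of K; S(A) the members of S induced from characters whose kernel contains A. Let M ≤ H₁ ≤ H ≤ K be normal subgroups of L such that every term of the lower central series of H eventually lies in M (H/M nilpotent), S(H₁) is coherent and [H:H₁] > 4 * [L:K]^2 + 1. Then S(M) is coherent. -/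
theorem result {L : Type*} [Group L] [Fintype L] {G : Type*} [Group G] [Fintype G] (K : Subgroup L) [hK : K.Normal] (hsolv : Group.IsSolvable K) (τ : (L → ℂ) → (G → ℂ)) (R : (L → ℂ) → Finset (G → ℂ)) (hS : Cfsg.IsCoherenceSystem (Cfsg.inducedIrrAbove K ⊥) τ R) (M H₁ H : Subgroup L) [M.Normal] [H₁.Normal] [H.Normal] (hMH₁ : M ≤ H₁) (hH₁H : H₁ ≤ H) (hHK : H ≤ K) [(M.subgroupOf H).Normal] (hnil : Group.IsNilpotent (↥H ⧸ M.subgroupOf H)) (hcoh : Cfsg.IsCoherent (Cfsg.inducedIrrAbove K H₁) {1}ᶜ τ) (hbig : 4 * K.index ^ 2 + 1 < H₁.relIndex H) : Cfsg.IsCoherent (Cfsg.inducedIrrAbove K M) {1}ᶜ τ := by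
  have key : ∀ A : Subgroup L, A.Normal → M ≤ A → A ≤ H₁ →
      Cfsg.IsCoherent (Cfsg.inducedIrrAbove K A) {1}ᶜ τ →
      Cfsg.IsCoherent (Cfsg.inducedIrrAbove K M) {1}ᶜ τ := by
    intro A
    induction A using WellFoundedLT.induction with
    | ind A ih =>
      intro hAn hMA hAH₁ hA
      by_cases hAM : A = M
      · rw [← hAM]; exact hA
      have hAH : A ≤ H := hAH₁.trans hH₁H
      have hBA : ⁅A, H⁆ ⊔ M ≤ A := sup_le (Subgroup.commutator_le_left A H) hMA
      have hBne : ⁅A, H⁆ ⊔ M ≠ A := by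
        intro h
        exact hAM (le_antisymm (nil_step M H A hnil hAH (hMH₁.trans hH₁H) h.ge) hMA)
      have hBlt : ⁅A, H⁆ ⊔ M < A := lt_of_le_of_ne hBA hBne
      have hAK : A < K := by
        refine lt_of_le_of_ne (hAH.trans hHK) ?_
        intro h
        have : H₁.relIndex H = 1 := Subgroup.relIndex_eq_one.mpr (hHK.trans (h ▸ hAH₁))
        omega
      refine ih (⁅A, H⁆ ⊔ M) hBlt inferInstance le_sup_right (hBA.trans hAH₁) ?_
      refine Cfsg.Agent.S1519.result K hsolv τ R hS A (⁅A, H⁆ ⊔ M) H A hAK (hBlt.trans hAK) hBA hAH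
        hHK ?_ hA ?_
      · intro x hx y hy
        rw [← commutatorElement_def]
        exact (le_sup_left : ⁅A, H⁆ ≤ ⁅A, H⁆ ⊔ M) (Subgroup.commutator_mem_commutator hx hy)
      · have e1 : H.relIndex K * K.index = H.index := Subgroup.relIndex_mul_index hHK
        have e2 : A.relIndex H * H.relIndex K = A.relIndex K :=
          Subgroup.relIndex_mul_relIndex A H K hAH hHK
        have e3 : A.relIndex H₁ * H₁.relIndex H = A.relIndex H :=
          Subgroup.relIndex_mul_relIndex A H₁ H hAH₁ hH₁H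
        have p1 : 0 < A.relIndex H₁ := Nat.pos_of_ne_zero Subgroup.index_ne_zero_of_finite
        have p2 : 0 < H.relIndex K := Nat.pos_of_ne_zero Subgroup.index_ne_zero_of_finite
        have e4 : H₁.relIndex H ≤ A.relIndex H := by
          rw [← e3]
          exact Nat.le_mul_of_pos_left _ p1
        rw [← e1, ← e2]
        exact arith2 p2 (by omega)
  exact key H₁ inferInstance hMH₁ le_rfl hcoh

end Cfsg.Agent.S1520
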