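import Cfsg.Statements.S1517
import Cfsg.Agent.Lib.Helper24.Coherence3

set_option autoImplicit false
open Cfsg

namespace Cfsg.Agent.S1517


open Cfsg.Agent.Lib.Helper7 Cfsg.Agent.Lib.Helper11 Cfsg.Agent.Lib.Helper24.Coh
open scoped ComplexConjugate

theorem key_claim {L : Type*} [Group L] [Fintype L] {G : Type*} [Group G] [Fintype G]
    {S : Set (L → ℂ)} {τ : (L → ℂ) → (G → ℂ)} {R : (L → ℂ) → Finset (G → ℂ)}
    (hS : Cfsg.IsCoherenceSystem S τ R) (hdeg : ∀ φ ∈ S, ∀ ψ ∈ S, φ 1 = ψ 1)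
    {χ : L → ℂ} (hχ : χ ∈ S) {n : ℕ} (hn : classInner χ χ = n) :
    ∃ X : G → ℂ, IsGeneralizedCharacter G X ∧ classInner X X = n ∧
      ∀ φ ∈ S, φ ≠ χ → classInner X (τ (χ - φ)) = n := by
  classical
  by_cases hex : ∃ φ₀ ∈ S, φ₀ ≠ χ ∧ φ₀ ≠ conjFun χ
  · obtain ⟨φ₀, hφ₀, h1, h2⟩ := hex
    obtain ⟨hsupp, hsq⟩ := sys_two_support hS hχ hφ₀ h1 h2 (hdeg _ hχ _ hφ₀) hn
    have hm₀ := sys_sub_mem hχ hφ₀ (hdeg _ hχ _ hφ₀)
    obtain ⟨c, hc⟩ := sys_coeff hS (hS.isometry.2.2.2 _ hm₀)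
    obtain ⟨g1, g2, g3, g4⟩ := sys_comb hS hχ c
    have hsq' : ((∑ α ∈ R χ, c α * c α : ℤ) : ℂ) = n := by
      rw [← hsq]
      push_cast
      apply Finset.sum_congr rfl
      intro α hα
      rw [hc χ hχ α hα, map_intCast]
    refine ⟨_, g1, by rw [g4 c, hsq'], ?_⟩
    intro φ hφ hne
    by_cases hφc : φ = conjFun χ
    · subst hφc
      rw [sys_inner_sum hS hχ, Finset.sum_congr rfl g2,
        ← Finset.sum_congr rfl (fun α hα => hc χ hχ α hα), ← sys_inner_sum hS hχ,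
        hS.isometry.2.2.1 _ hm₀ _ (sys_sub_conj_mem hS hχ)]
      simp only [classInner_sub_left, classInner_sub_right, hn, sys_inner_conj hS hχ,
        hS.orthogonal φ₀ hφ₀ χ hχ h1, hS.orthogonal φ₀ hφ₀ _ (hS.conj_mem χ hχ) h2]
      ring
    · have hχφ : χ ≠ conjFun φ := by
        intro e; apply hφc; rw [e, conjFun_conjFun]
      have hχφ₀ : χ ≠ conjFun φ₀ := by
        intro e; apply h2; rw [e, conjFun_conjFun]
      have hm₁ := sys_sub_mem hφ₀ hφ (hdeg _ hφ₀ _ hφ)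
      have hzero : ∀ α ∈ R χ, classInner (τ (φ₀ - φ)) α = 0 := by
        intro α hα
        by_cases e1 : φ = φ₀
        · subst e1
          rw [sub_self, isoOn_zero hS.isometry hm₀, classInner_zero_left]
        · by_cases e2 : φ = conjFun φ₀
          · subst e2
            rw [hS.sum_eq φ₀ hφ₀, classInner_sum_left]
            apply Finset.sum_eq_zero
            intro β hβ
            exact sys_disjoint hS hφ₀ hχ h1.symm hχφ₀ β hβ α hα
          · obtain ⟨n₀, _, hn₀⟩ := sys_norm hS hφ₀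
            exact (sys_two_support hS hφ₀ hφ e1 e2 (hdeg _ hφ₀ _ hφ) hn₀).1 α
              (fun β hβ => sys_disjoint hS hφ₀ hχ h1.symm hχφ₀ β hβ α hα)
              (fun β hβ => sys_disjoint hS hφ hχ hne.symm hχφ β hβ α hα)
      have hsplit : τ (χ - φ) = τ (χ - φ₀) + τ (φ₀ - φ) := by
        rw [← hS.isometry.1 _ hm₀ _ hm₁]
        congr 1
        abel
      rw [g3, ← hsq']
      push_cast
      apply Finset.sum_congr rfl
      intro α hα
      rw [← classInner_conj_symm, hsplit, classInner_add_left, hzero α hα, add_zero,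
        hc χ hχ α hα, map_intCast]
  · push Not at hex
    have hcard := sys_card hS hχ hn
    obtain ⟨A, hA, hAc⟩ := Finset.exists_subset_card_eq (s := R χ) (n := n) (by omega)
    obtain ⟨g1, g2, g3, g4⟩ := sys_comb hS hχ (fun α => if α ∈ A then 1 else 0)
    have hsum : ∑ α ∈ R χ, (if α ∈ A then (1 : ℤ) else 0) = n := by
      rw [Finset.sum_ite_mem, Finset.inter_eq_right.mpr hA]
      simp [hAc]
    refine ⟨_, g1, ?_, ?_⟩
    · rw [g4]
      congr 1
      rw [← hsum]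
      apply Finset.sum_congr rfl
      intro α _
      split_ifs <;> simp
    · intro φ hφ hne
      have hφc := hex φ hφ hne
      subst hφc
      rw [sys_inner_sum hS hχ, Finset.sum_congr rfl g2]
      exact_mod_cast hsum


/-- Let (S, τ, R) be a coherence system from L to G such that φ 1 = ψ 1 for all φ, ψ ∈ S. Then (S, L minus 1, τ) is coherent. -/
theorem result {L : Type*} [Group L] [Fintype L] {G : Type*} [Group G] [Fintype G] (S : Set (L → ℂ)) (τ : (L → ℂ) → (G → ℂ)) (R : (L → ℂ) → Finset (G → ℂ)) (hS : Cfsg.IsCoherenceSystem S τ R) (hdeg : ∀ φ ∈ S, ∀ ψ ∈ S, φ 1 = ψ 1) : Cfsg.IsCoherent S {1}ᶜ τ := by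
  classical
  obtain ⟨χ, hχ⟩ := hS.nonempty
  obtain ⟨n, hn0, hn⟩ := sys_norm hS hχ
  obtain ⟨d, hd0, hd⟩ := sys_deg hS hχ
  refine ⟨⟨_, sys_sub_conj_mem hS hχ, fun h => hS.conj_ne χ hχ (sub_eq_zero.mp h).symm⟩, ?_⟩
  obtain ⟨X, hXg, hXX, hX⟩ := key_claim hS hdeg hχ hn
  have hm : ∀ φ ∈ S, χ - φ ∈ zspanOn S {1}ᶜ := fun φ hφ => sys_sub_mem hχ hφ (hdeg _ hχ _ hφ)
  have hτ0 : τ 0 = 0 := isoOn_zero hS.isometry (hm χ hχ)
  have hX' : ∀ φ ∈ S, φ ≠ χ → classInner (τ (χ - φ)) X = n := by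
    intro φ hφ hne
    rw [← classInner_conj_symm, hX φ hφ hne, map_natCast]
  obtain ⟨ρ, hρ, hρf⟩ := exists_iso_of_orthogonal (fun φ hφ => sys_ne_zero hS hφ) hS.orthogonal
    (fun φ => X - τ (χ - φ)) (fun φ hφ => genChar_sub hXg (hS.isometry.2.2.2 _ (hm φ hφ))) (by
      intro φ hφ φ' hφ'
      simp only [classInner_sub_left, classInner_sub_right]
      rw [hS.isometry.2.2.1 _ (hm φ hφ) _ (hm φ' hφ'), hXX]
      simp only [classInner_sub_left, classInner_sub_right, hn]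
      by_cases e1 : φ = χ <;> by_cases e2 : φ' = χ
      · subst e1; subst e2
        simp only [sub_self, hτ0, classInner_zero_left, classInner_zero_right, hn]
        ring
      · subst e1
        simp only [sub_self, hτ0, classInner_zero_left, classInner_zero_right, hn,
          hX φ' hφ' e2, hS.orthogonal φ hφ φ' hφ' (Ne.symm e2)]
      · subst e2
        simp only [sub_self, hτ0, classInner_zero_left, classInner_zero_right, hn,
          hX' φ hφ e1, hS.orthogonal φ hφ φ' hφ' e1]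
      · rw [hX φ' hφ' e2, hX' φ hφ e1, hS.orthogonal χ hχ φ' hφ' (Ne.symm e2),
          hS.orthogonal φ hφ χ hχ e1]
        ring)
  refine ⟨ρ, hρ, agree_of_generators (S := S) (S₂ := S) subset_rfl hS.isometry hρ hχ
    (d₁ := (d : ℤ)) (by simpa using hd) (by omega) ?_⟩
  intro φ hφ
  refine ⟨d, by rw [hdeg φ hφ χ hχ, hd]; simp, ?_⟩
  have e : ((d : ℕ) : ℤ) • φ - ((d : ℕ) : ℤ) • χ = (-((d : ℕ) : ℤ)) • (χ - φ) := by
    rw [neg_smul, smul_sub]; abel
  rw [e, hS.isometry.2.1 _ (hm φ hφ), hρf φ hφ, hρf χ hχ, sub_self, hτ0, neg_smul, smul_sub,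
    sub_zero]
  abel

end Cfsg.Agent.S1517
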