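import Cfsg.Statements.S0170
import Mathlib
import Cfsg.Agent.Lib.Helper2.CharInd
import Cfsg.Agent.Lib.Helper11.GenChar
import Cfsg.Agent.S0150
import Cfsg.Agent.S0198

set_option autoImplicit false
open Cfsg

namespace Cfsg.Agent.S0170

open Cfsg.Agent.Lib.Helper7 Cfsg.Agent.Lib.Helper11

/-- Exceptional characters. Let S be a subset of a finite group contained in its normalizer N and meeting its conjugates by elements outside N only in the identity. Given n ≥ 2 distinct irreducible characters of N of equal degree that vanish on N away from S, there exist a sign ε and n distinct irreducible characters θ_i of G such that inducing χ_i − χ_j to G gives ε (θ_i − θ_j) for all i, j. -/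
theorem result {G : Type*} [Group G] [Fintype G] (S : Set G) (hSN : S ⊆ Subgroup.normalizer S) (hTI : ∀ g : G, g ∉ Subgroup.normalizer S → ∀ s ∈ S, g * s * g⁻¹ ∈ S → s = 1) (n : ℕ) (hn : 2 ≤ n) (χ : Fin n → (Subgroup.normalizer S → ℂ)) (hirr : ∀ i, Cfsg.IsIrrCharacter (Subgroup.normalizer S) (χ i)) (hinj : Function.Injective χ) (hvan : ∀ i, ∀ x : Subgroup.normalizer S, (x : G) ∉ S → χ i x = 0) (hdeg : ∀ i j, χ i 1 = χ j 1) : ∃ ε : ℂ, (ε = 1 ∨ ε = -1) ∧ ∃ θ : Fin n → (G → ℂ), (∀ i, Cfsg.IsIrrCharacter G (θ i)) ∧ Function.Injective θ ∧ ∀ i j, Cfsg.indFun (Subgroup.normalizer S) (χ i) - Cfsg.indFun (Subgroup.normalizer S) (χ j) = ε • (θ i - θ j) := by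
  classical
  let _ : Fintype (Subgroup.normalizer S) := Fintype.ofFinite _
  have i₀ : Fin n := ⟨0, by omega⟩
  have hcf : ∀ i, IsClassFunction (Subgroup.normalizer S) (χ i) := fun i =>
    genChar_isClassFunction (genChar_of_irr (hirr i))
  have hcf2 : ∀ i j, IsClassFunction (Subgroup.normalizer S) (χ i - χ j) := fun i j =>
    genChar_isClassFunction (genChar_sub (genChar_of_irr (hirr i)) (genChar_of_irr (hirr j)))
  obtain ⟨ε, hε, μ, hμ, hμinj, hτ⟩ := Cfsg.Agent.S0198.result (G := G) n i₀
    (fun i => indFun (Subgroup.normalizer S) (χ i - χ i₀)) (by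
      simp only [sub_self]
      have := Cfsg.Agent.Lib.Helper2.indFun_smul (Subgroup.normalizer S) 0 (0 : (Subgroup.normalizer S) → ℂ)
      simpa using this)
    (fun i => Cfsg.Agent.Lib.Helper2.IsGeneralizedCharacter.ind (Subgroup.normalizer S)
      (genChar_sub (genChar_of_irr (hirr i)) (genChar_of_irr (hirr i₀))))
    (fun i => by
      rw [Cfsg.Agent.Lib.Helper2.indFun_one_eq]
      simp [hdeg i i₀])
    (fun i j hi hj => by
      rw [Cfsg.Agent.S0150.result S hTI hSN (χ i - χ i₀) (χ j - χ i₀) (hcf2 _ _) (hcf2 _ _)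
        (fun x hx => by simp [hvan _ x hx]) (fun x hx => by simp [hvan _ x hx])
        (by simp [hdeg i i₀])]
      rw [classInner_sub_left, classInner_sub_right, classInner_sub_right,
        classInner_irr (hirr i) (hirr j), classInner_irr (hirr i) (hirr i₀),
        classInner_irr (hirr i₀) (hirr j), classInner_irr (hirr i₀) (hirr i₀)]
      have h1 : χ i ≠ χ i₀ := fun h => hi (hinj h)
      have h2 : χ i₀ ≠ χ j := fun h => hj (hinj h).symm
      rw [if_neg h1, if_neg h2, if_pos rfl]
      by_cases hij : i = j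
      · subst hij; simp; norm_num
      · have h3 : χ i ≠ χ j := fun h => hij (hinj h)
        rw [if_neg h3, if_neg hij]; norm_num)
  refine ⟨ε, hε, μ, hμ, hμinj, fun i j => ?_⟩
  have h1 := hτ i
  have h2 := hτ j
  simp only [Cfsg.Agent.Lib.Helper2.indFun_sub] at h1 h2
  have : indFun (Subgroup.normalizer S) (χ i) - indFun (Subgroup.normalizer S) (χ j) =
      (indFun (Subgroup.normalizer S) (χ i) - indFun (Subgroup.normalizer S) (χ i₀)) - (indFun (Subgroup.normalizer S) (χ j) - indFun (Subgroup.normalizer S) (χ i₀)) := by abel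
  rw [this, h1, h2, ← smul_sub]
  congr 1
  abel

end Cfsg.Agent.S0170
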