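import Cfsg.Statements.S0853
import Cfsg.Agent.Lib.Helper24.TIFrob2

set_option autoImplicit false
open Cfsg

namespace Cfsg.Agent.S0853


open Cfsg.Agent.Lib.Helper7 Cfsg.Agent.Lib.Helper11 Cfsg.Agent.Lib.Helper24.Coh
open Cfsg.Agent.Lib.Helper24.TIFrob
open Cfsg.Agent.Lib.Helper25 (indFun_apply extendByZero_mem extendByZero_not_mem)
open scoped ComplexConjugate

open Classical in
theorem ind_eq_of_TI {G : Type*} [Group G] [Fintype G] (K : Subgroup G)
    (hTI : ∀ g : G, g ∉ Subgroup.normalizer (K : Set G) → ∀ k ∈ K, g * k * g⁻¹ ∈ K → k = 1)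
    [Fintype ↥(Subgroup.normalizer (K : Set G))]
    (θ : ↥(Subgroup.normalizer (K : Set G)) → ℂ)
    (hθ : IsClassFunction ↥(Subgroup.normalizer (K : Set G)) θ)
    (hoff : ∀ x : ↥(Subgroup.normalizer (K : Set G)), (x : G) ∉ K → θ x = 0)
    (k : ↥(Subgroup.normalizer (K : Set G))) (hk : (k : G) ∈ K) (hk1 : k ≠ 1) :
    indFun (Subgroup.normalizer (K : Set G)) θ k = θ k := by
  rw [indFun_apply]
  have e : ∀ x : G, extendByZero (Subgroup.normalizer (K : Set G)) θ (x⁻¹ * k * x) =
      if x ∈ Subgroup.normalizer (K : Set G) then θ k else 0 := by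
    intro x
    by_cases hx : x ∈ Subgroup.normalizer (K : Set G)
    · rw [if_pos hx]
      have hm : x⁻¹ * k * x ∈ Subgroup.normalizer (K : Set G) :=
        Subgroup.mul_mem _ (Subgroup.mul_mem _ (Subgroup.inv_mem _ hx) k.2) hx
      rw [extendByZero_mem _ θ hm]
      have h1 := hθ k (⟨x, hx⟩ : ↥(Subgroup.normalizer (K : Set G)))⁻¹
      rw [← h1]
      congr 1
      apply Subtype.ext
      simp
    · rw [if_neg hx]
      by_cases hm : x⁻¹ * k * x ∈ Subgroup.normalizer (K : Set G)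
      · rw [extendByZero_mem _ θ hm]
        apply hoff
        intro hK
        apply hk1
        apply Subtype.ext
        have hx' : x⁻¹ ∉ Subgroup.normalizer (K : Set G) :=
          fun h => hx (by simpa using Subgroup.inv_mem _ h)
        exact hTI x⁻¹ hx' k hk (by simpa using hK)
      · exact extendByZero_not_mem _ θ hm
  rw [Finset.sum_congr rfl (fun x _ => e x), ← Finset.sum_filter, Finset.sum_const, nsmul_eq_mul]
  have hcard : ((Finset.univ.filter (· ∈ Subgroup.normalizer (K : Set G))).card : ℂ) =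
      (Nat.card ↥(Subgroup.normalizer (K : Set G)) : ℂ) := by
    congr 1
    rw [Nat.card_eq_fintype_card, Fintype.card_subtype]
  rw [hcard, ← mul_assoc, inv_mul_cancel₀ (by exact_mod_cast Nat.card_pos.ne'), one_mul]

theorem genChar_apply_one_int {G : Type*} [Group G] {f : G → ℂ} (hf : IsGeneralizedCharacter G f) :
    ∃ z : ℤ, f 1 = z := by
  obtain ⟨a, b, ha, hb, rfl⟩ := hf
  obtain ⟨n, hn⟩ := isCharacter_apply_one ha
  obtain ⟨m, hm⟩ := isCharacter_apply_one hb
  exact ⟨(n : ℤ) - m, by rw [Pi.sub_apply, hn, hm]; push_cast; ring⟩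

theorem genChar_restrict' {G : Type*} [Group G] {f : G → ℂ} (hf : IsGeneralizedCharacter G f)
    (H : Subgroup G) : IsGeneralizedCharacter H (fun h : H => f h) := by
  obtain ⟨a, b, ha, hb, rfl⟩ := hf
  exact ⟨_, _, isCharacter_restrict ha H, isCharacter_restrict hb H, rfl⟩


/-- Let K be a subgroup of the finite group G that meets each conjugate by an element outside its normalizer N trivially, is properly contained in N, and contains the centralizer of each of its non-identity elements (a T.I. subgroup with Frobenius normalizer). Let S be the set of irreducible characters of N taking at some element of K a value different from their degree, suppose S has at least two members, and let star be a linear isometry on the integer span of S into the generalized characters of G that agrees with induction on the members vanishing at the identity (so S is coherent, with star as the extending isometry). Then there is a single integer m such that star χ k - χ k = m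 * χ 1 / e for every χ in S and every non-identity element k of K, where e is the index of K in N. -/
theorem result {G : Type*} [Group G] [Fintype G] (K : Subgroup G) (hTI : ∀ g : G, g ∉ Subgroup.normalizer (K : Set G) → ∀ k ∈ K, g * k * g⁻¹ ∈ K → k = 1) (hlt : K < Subgroup.normalizer (K : Set G)) (hC : ∀ k ∈ K, k ≠ 1 → Subgroup.centralizer ({k} : Set G) ≤ K) [Fintype ↥(Subgroup.normalizer (K : Set G))] (S : Set (↥(Subgroup.normalizer (K : Set G)) → ℂ)) (hS : S = {χ : ↥(Subgroup.normalizer (K : Set G)) → ℂ | Cfsg.IsIrrCharacter ↥(Subgroup.normalizer (K : Set G)) χ ∧ ∃ k : ↥(Subgroup.normalizer (K : Set G)), (k : G) ∈ K ∧ χ k ≠ χ 1}) (htwo : ∃ χ ∈ S, ∃ ξ ∈ S, χ ≠ ξ) (star : (↥(Subgroup.normalizer (K : Set G)) → ℂ) → (G → ℂ)) (hstar : Cfsg.IsLinearIsometryOn (Cfsg.zspan S) star) (hext : ∀ α ∈ Cfsg.zspanOn S ({1}ᶜ : Set ↥(Subgroup.normalizer (K : Set G))), star α = Cfsg.indFun (Subgroup.normalizer (K : Set G)) α) : ∃ m : ℤ, ∀ χ ∈ S, ∀ k : ↥(Subgroup.normalizer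 (K : Set G)), (k : G) ∈ K → k ≠ 1 → star χ k - χ k = (m : ℂ) * χ 1 / ((K.subgroupOf (Subgroup.normalizer (K : Set G))).index : ℂ) := by
  classical
  haveI := Fintype.ofFinite (IrrCharacter ↥(Subgroup.normalizer (K : Set G)))
  have hKN : K ≤ Subgroup.normalizer (K : Set G) := hlt.le
  have hC' : ∀ h ∈ K.subgroupOf (Subgroup.normalizer (K : Set G)), h ≠ 1 →
      Subgroup.centralizer ({h} : Set ↥(Subgroup.normalizer (K : Set G))) ≤
        K.subgroupOf (Subgroup.normalizer (K : Set G)) := by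
    intro h hh h1 c hc
    rw [Subgroup.mem_subgroupOf]
    apply hC (h : G) hh (fun e => h1 (Subtype.ext e))
    rw [Subgroup.mem_centralizer_singleton_iff] at hc ⊢
    exact congrArg Subtype.val hc
  have hS' : S = {χ | IsIrrCharacter ↥(Subgroup.normalizer (K : Set G)) χ ∧
      ∃ h ∈ K.subgroupOf (Subgroup.normalizer (K : Set G)), χ h ≠ χ 1} := hS
  have hirr : ∀ χ ∈ S, IsIrrCharacter ↥(Subgroup.normalizer (K : Set G)) χ := by
    intro χ hχ; rw [hS] at hχ; exact hχ.1
  have hrel : ∀ χ ∈ S, ∃ h ∈ K.subgroupOf (Subgroup.normalizer (K : Set G)), χ h ≠ χ 1 := by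
    intro χ hχ; rw [hS] at hχ; exact hχ.2
  have hconst : ∀ χ : ↥(Subgroup.normalizer (K : Set G)) → ℂ, ∃ C : ℂ, χ ∈ S →
      ∀ h ∈ K.subgroupOf (Subgroup.normalizer (K : Set G)), h ≠ 1 → star χ h - χ h = C := by
    intro χ
    by_cases hχ : χ ∈ S
    · have cχ := subset_zspan hχ
      obtain ⟨C, hCc⟩ := const_of_star (Subgroup.normalizer (K : Set G))
        (K.subgroupOf (Subgroup.normalizer (K : Set G))) S hS' (star χ)
        (genChar_isClassFunction (hstar.2.2.2 χ cχ)) χ
        (isClassFunction_of_isCharacter (isCharacter_of_irr (hirr χ hχ)))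
        (by
          intro θ hθ
          rw [← hext θ hθ, hstar.2.2.1 θ hθ.1 χ cχ])
      exact ⟨C, fun _ => hCc⟩
    · exact ⟨0, fun h => absurd h hχ⟩
  choose Cc hCc using hconst
  obtain ⟨χ₀, hχ₀, -⟩ := htwo
  obtain ⟨k₀, hk₀, hk₀ne⟩ := hrel χ₀ hχ₀
  have hk₀1 : k₀ ≠ 1 := fun e => hk₀ne (by rw [e])
  have hprop : ∀ χ ∈ S, ∀ ξ ∈ S, ξ 1 * Cc χ = χ 1 * Cc ξ := by
    intro χ hχ ξ hξ
    obtain ⟨a₁, _, e₁⟩ := irr_apply_one (hirr χ hχ)
    obtain ⟨a₂, _, e₂⟩ := irr_apply_one (hirr ξ hξ)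
    have cχ := subset_zspan hχ
    have cξ := subset_zspan hξ
    have mθ := pair_mem hχ hξ (a₁ := (a₁ : ℤ)) (a₂ := (a₂ : ℤ)) (by simpa using e₁)
      (by simpa using e₂)
    have h1 := hext _ mθ
    have h2 := ind_eq_of_TI K hTI (((a₂ : ℕ) : ℤ) • χ - ((a₁ : ℕ) : ℤ) • ξ)
      (genChar_isClassFunction (genChar_sub (genChar_zsmul (genChar_of_irr (hirr χ hχ)) _)
        (genChar_zsmul (genChar_of_irr (hirr ξ hξ)) _)))
      (by
        intro x hx
        simp only [Pi.sub_apply, Pi.smul_apply]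
        rw [vanish_off _ hC' (hirr χ hχ) (hrel χ hχ) hx, vanish_off _ hC' (hirr ξ hξ) (hrel ξ hξ) hx]
        simp)
      k₀ hk₀ hk₀1
    rw [← h1, iso_sub hstar (zspan_zsmul _ cχ) (zspan_zsmul _ cξ), hstar.2.1 _ cχ,
      hstar.2.1 _ cξ] at h2
    simp only [Pi.sub_apply, Pi.smul_apply, zsmul_eq_mul, Pi.mul_apply, Pi.intCast_apply] at h2
    push_cast at h2
    rw [← hCc χ hχ k₀ hk₀ hk₀1, ← hCc ξ hξ k₀ hk₀ hk₀1, e₁, e₂]
    linear_combination h2
  have hN0 : (Nat.card ↥(Subgroup.normalizer (K : Set G)) : ℂ) ≠ 0 := by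
    exact_mod_cast Nat.card_pos.ne'
  -- quotient of the group order by a degree
  have hquot : ∀ χ ∈ S, ∃ q : ℕ,
      (Nat.card ↥(Subgroup.normalizer (K : Set G)) : ℂ) = χ 1 * q := by
    intro χ hχ
    obtain ⟨q, hq⟩ := charDegree_dvd_card
      (⟨χ, hirr χ hχ⟩ : IrrCharacter ↥(Subgroup.normalizer (K : Set G)))
    refine ⟨q, ?_⟩
    rw [hq, ← charDegree_cast (isCharacter_of_irr (hirr χ hχ))]
    push_cast
    rfl
  have hCint : ∀ χ ∈ S, ∃ z : ℤ, Cc χ = z := by
    intro χ hχ
    have cχ := subset_zspan hχ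
    have hfg : IsGeneralizedCharacter ↥(Subgroup.normalizer (K : Set G))
        (fun x => star χ x - χ x) :=
      genChar_sub (genChar_restrict' (hstar.2.2.2 χ cχ) _) (genChar_of_irr (hirr χ hχ))
    obtain ⟨w, hw⟩ := genChar_inner_char_int hfg (isCharacter_of_irr (hirr χ hχ))
    have h1 := inner_of_const _ hC' (f := fun x => star χ x - χ x) (C := Cc χ) (hCc χ hχ)
      (hirr χ hχ) (hrel χ hχ)
    obtain ⟨z, hz⟩ := genChar_apply_one_int hfg
    obtain ⟨q, hq⟩ := hquot χ hχ
    rw [hw, hz, hq] at h1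
    have hd := irr_apply_one_ne_zero (hirr χ hχ)
    have hq0 : (q : ℂ) ≠ 0 := by
      intro e
      rw [e, mul_zero] at hq
      exact hN0 hq
    refine ⟨z - w * q, ?_⟩
    push_cast
    field_simp at h1
    linear_combination h1
  have hd₀ := irr_apply_one_ne_zero (hirr χ₀ hχ₀)
  have hCc' : ∀ χ ∈ S, Cc χ = Cc χ₀ / χ₀ 1 * χ 1 := by
    intro χ hχ
    have := hprop χ hχ χ₀ hχ₀
    field_simp
    linear_combination this
  obtain ⟨A, hA⟩ : ∃ A : ℤ,
      Cc χ₀ / χ₀ 1 * (Nat.card ↥(Subgroup.normalizer (K : Set G)) : ℂ) = A := by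
    obtain ⟨z, hz⟩ := hCint χ₀ hχ₀
    obtain ⟨q, hq⟩ := hquot χ₀ hχ₀
    refine ⟨z * q, ?_⟩
    rw [hq, hz]
    push_cast
    field_simp
  obtain ⟨B, hB⟩ : ∃ B : ℤ,
      Cc χ₀ / χ₀ 1 * ((Nat.card ↥(Subgroup.normalizer (K : Set G)) : ℂ) -
        ((K.subgroupOf (Subgroup.normalizer (K : Set G))).index : ℂ)) = B := by
    have hterm : ∀ χ : IrrCharacter ↥(Subgroup.normalizer (K : Set G)), ∃ t : ℤ,
        (if ∃ h ∈ K.subgroupOf (Subgroup.normalizer (K : Set G)),
          (χ : ↥(Subgroup.normalizer (K : Set G)) → ℂ) h ≠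
            (χ : ↥(Subgroup.normalizer (K : Set G)) → ℂ) 1 then
          Cc χ₀ / χ₀ 1 * (χ : ↥(Subgroup.normalizer (K : Set G)) → ℂ) 1 ^ 2 else 0) = t := by
      intro χ
      split_ifs with hr
      · have hm : (χ : ↥(Subgroup.normalizer (K : Set G)) → ℂ) ∈ S := by
          rw [hS']; exact ⟨χ.2, hr⟩
        obtain ⟨z, hz⟩ := hCint _ hm
        obtain ⟨a, _, ea⟩ := irr_apply_one χ.2
        refine ⟨z * a, ?_⟩
        have := hCc' _ hm
        rw [hz] at this
        push_cast
        rw [this, ea]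
        ring
      · exact ⟨0, by simp⟩
    choose t ht using hterm
    refine ⟨∑ χ, t χ, ?_⟩
    push_cast
    rw [← Finset.sum_congr rfl (fun χ _ => ht χ), ← sum_sq_all,
      ← sum_sq_nonrel (K.subgroupOf (Subgroup.normalizer (K : Set G))) hC',
      ← Finset.sum_sub_distrib, Finset.mul_sum]
    apply Finset.sum_congr rfl
    intro χ _
    split_ifs <;> ring
  refine ⟨A - B, ?_⟩
  intro χ hχ k hk hk1
  have he : ((K.subgroupOf (Subgroup.normalizer (K : Set G))).index : ℂ) ≠ 0 := by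
    exact_mod_cast Subgroup.index_ne_zero_of_finite
  rw [hCc χ hχ k hk hk1, hCc' χ hχ]
  push_cast
  rw [← hA, ← hB]
  field_simp
  ring

end Cfsg.Agent.S0853
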