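import Cfsg.Statements.S1521
import Cfsg.Agent.Lib.Helper24.Coherence6
import Cfsg.Agent.S1517

set_option autoImplicit false
open Cfsg

namespace Cfsg.Agent.S1521

open Cfsg.Agent.Lib.Helper7 Cfsg.Agent.Lib.Helper24.Coh Cfsg.Agent.Lib.Helper24.Coh5
  Cfsg.Agent.Lib.Helper24.Coh6
open scoped ComplexConjugate commutatorElement


/-- Let K be a solvable normal subgroup of the finite group L of odd order and (S, τ, R) a coherence system from L to G with S the functions induced from non-principal irreducible characters of K; S(A) as before. Let M ≤ K be normal in L with K/M nilpotent, H₁ = [K, K] ⊔ M, H₁ < K < L, and suppose every element of K outside H₁ is centralised modulo H₁ only from inside K (L/H₁ is a Frobenius group with kernel K/H₁). Suppose one of the following: some normal subgroup of L lies strictly between H₁ and K; or [K:H₁] > 4[L:K]^2 + 1; or [K:M] is not a prime power; or [K,K] ≤ M; or [K:M]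 is a power of a prime p with [L:K] dividing p − 1. Then S(M) is coherent. -/
theorem result {L : Type*} [Group L] [Fintype L] {G : Type*} [Group G] [Fintype G] (K : Subgroup L) [hK : K.Normal] (hsolv : Group.IsSolvable K) (τ : (L → ℂ) → (G → ℂ)) (R : (L → ℂ) → Finset (G → ℂ)) (hS : Cfsg.IsCoherenceSystem (Cfsg.inducedIrrAbove K ⊥) τ R) (hodd : Odd (Nat.card L)) (M : Subgroup L) [M.Normal] (hMK : M ≤ K) [(M.subgroupOf K).Normal] (hnil : Group.IsNilpotent (↥K ⧸ M.subgroupOf K)) (H₁ : Subgroup L) (hH₁ : H₁ = ⁅K, K⁆ ⊔ M) (hH₁K : H₁ < K) (hKL : K < ⊤) (hfrob : ∀ k ∈ K, k ∉ H₁ → ∀ x : L, x * k * x⁻¹ * k⁻¹ ∈ H₁ → x ∈ K) (hgood : (∃ N : Subgroup L, N.Normal ∧ H₁ < N ∧ N < K) ∨ 4 * K.index ^ 2 + 1 < H₁.relIndex K ∨ (¬ ∃ p m : ℕ, p.Prime ∧ M.relIndex K = p ^ m) ∨ ⁅K, K⁆ ≤ M ∨ (∃ p m : ℕ, p.Prime ∧ M.relIndex K = p ^ m ∧ K.index ∣ p - 1)) : Cfsg.IsCoherent (Cfsg.inducedIrrAbove K M) {1}ᶜ τ := by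
  classical
  subst hH₁
  haveI : Fintype K := Fintype.ofFinite _
  have : Finite (IrrCharacter K) := Cfsg.Agent.Lib.Helper25.finite_irrCharacter
  haveI : Fintype (IrrCharacter K) := Fintype.ofFinite _
  have hKK : ⁅K, K⁆ ≤ ⁅K, K⁆ ⊔ M := le_sup_left
  have hMH₁ : M ≤ ⁅K, K⁆ ⊔ M := le_sup_right
  have he0 : 0 < K.index := Nat.pos_of_ne_zero Subgroup.index_ne_zero_of_finite
  have heodd : Odd K.index := hodd.of_dvd_nat (Subgroup.index_dvd_card K)
  have hrodd : ∀ X Y : Subgroup L, Odd (X.relIndex Y) := fun X Y =>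
    hodd.of_dvd_nat ((Subgroup.relIndex_dvd_card X Y).trans (Subgroup.card_subgroup_dvd_card Y))
  have hrlt : ∀ X Y : Subgroup L, X < Y → 1 < X.relIndex Y := by
    intro X Y hXY
    have h0 : X.relIndex Y ≠ 0 := Subgroup.index_ne_zero_of_finite
    have h1 : X.relIndex Y ≠ 1 := fun h => not_le_of_gt hXY (Subgroup.relIndex_eq_one.mp h)
    omega
  -- S(H₁) is coherent
  have hF1 : Cfsg.IsCoherent (Cfsg.inducedIrrAbove K (⁅K, K⁆ ⊔ M)) {1}ᶜ τ := by
    have htop : (⁅K, K⁆ ⊔ M).subgroupOf K ≠ ⊤ := by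
      intro h
      exact absurd (Subgroup.subgroupOf_eq_top.mp h) (not_le_of_gt hH₁K)
    obtain ⟨l, hl1, hl2, hl3, hl4⟩ := exists_linear hsolv ((⁅K, K⁆ ⊔ M).subgroupOf K) htop
    have hne : (Cfsg.inducedIrrAbove K (⁅K, K⁆ ⊔ M)).Nonempty :=
      ⟨indFun K l, l, hl1, hl2, fun a ha => hl3 a (Subgroup.mem_subgroupOf.mpr ha), rfl⟩
    have hsys := sys_mono hS (above_subset K (⁅K, K⁆ ⊔ M)) hne
      (fun χ hχ => above_conj K (⁅K, K⁆ ⊔ M) hχ)
    apply Cfsg.Agent.S1517.result _ τ R hsys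
    rintro φ ⟨θ, h1, h2, h3, rfl⟩ ψ ⟨θ', h1', h2', h3', rfl⟩
    rw [Cfsg.Agent.Lib.Helper25.indFun_one, Cfsg.Agent.Lib.Helper25.indFun_one,
      (ind_norm_one K (⁅K, K⁆ ⊔ M) hKK hfrob h1 h2 h3).1,
      (ind_norm_one K (⁅K, K⁆ ⊔ M) hKK hfrob h1' h2' h3').1]
  have hF2 : 4 * K.index ^ 2 + 1 < (⁅K, K⁆ ⊔ M).relIndex K →
      Cfsg.IsCoherent (Cfsg.inducedIrrAbove K M) {1}ᶜ τ := fun h =>
    Cfsg.Agent.S1520.result K hsolv τ R hS M (⁅K, K⁆ ⊔ M) K hMH₁ hH₁K.le le_rfl hnil hF1 h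
  have hF4 : ⁅K, K⁆ ≤ M → Cfsg.IsCoherent (Cfsg.inducedIrrAbove K M) {1}ᶜ τ := by
    intro h
    have h' : ⁅K, K⁆ ⊔ M = M := sup_eq_right.mpr h
    rw [h'] at hF1
    exact hF1
  have hF3 : (∃ N : Subgroup L, N.Normal ∧ ⁅K, K⁆ ⊔ M < N ∧ N < K) →
      Cfsg.IsCoherent (Cfsg.inducedIrrAbove K M) {1}ᶜ τ := by
    rintro ⟨N, hNn, hN1, hN2⟩
    apply hF2
    have r1 := relIndex_eq K (⁅K, K⁆ ⊔ M) hS hKK hfrob N hN1.le
    have r0 := relIndex_eq K (⁅K, K⁆ ⊔ M) hS hKK hfrob (⁅K, K⁆ ⊔ M) le_rfl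
    have rm : (⁅K, K⁆ ⊔ M).relIndex N * N.relIndex K = (⁅K, K⁆ ⊔ M).relIndex K :=
      Subgroup.relIndex_mul_relIndex _ N K hN1.le hN2.le
    have b1 : 2 * K.index + 1 ≤ N.relIndex K :=
      two_e heodd (hrodd _ _) (hrlt _ _ hN2) (by rw [r1]; simp)
    have hb1 := hrlt _ _ hN1
    have b2 : 2 * K.index + 1 ≤ (⁅K, K⁆ ⊔ M).relIndex N := by
      refine two_e heodd (hrodd _ _) hb1 ?_
      have : ((K.index : ℕ) : ℤ) ∣ (((⁅K, K⁆ ⊔ M).relIndex N - 1 : ℕ) : ℤ) := by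
        rw [Nat.cast_sub hb1.le]
        rw [r1, r0] at rm
        have rm' : (((⁅K, K⁆ ⊔ M).relIndex N : ℕ) : ℤ) * ((K.index : ℤ) * ((SF K N).card : ℤ) + 1) =
            (K.index : ℤ) * ((SF K (⁅K, K⁆ ⊔ M)).card : ℤ) + 1 := by exact_mod_cast rm
        refine ⟨((SF K (⁅K, K⁆ ⊔ M)).card : ℤ) -
          (((⁅K, K⁆ ⊔ M).relIndex N : ℕ) : ℤ) * ((SF K N).card : ℤ), ?_⟩
        push_cast
        linear_combination rm'
      exact Int.natCast_dvd_natCast.mp this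
    rw [← rm]
    nlinarith
  rcases hgood with h | h | h | h | ⟨p, m, hp, hpm, hdvd⟩
  · exact hF3 h
  · exact hF2 h
  · apply hF3
    apply exists_between K (⁅K, K⁆ ⊔ M) hKK hH₁K
    rintro ⟨p, j, hp, hj⟩
    apply h
    haveI : Fact p.Prime := ⟨hp⟩
    obtain ⟨m, hm⟩ := nilP (M.subgroupOf K) ((⁅K, K⁆ ⊔ M).subgroupOf K) hnil (by
      intro x hx
      have hle : ⁅K, K⁆ ⊔ M ≤ (commutator K ⊔ M.subgroupOf K).map K.subtype := by
        refine sup_le ?_ ?_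
        · rw [Subgroup.commutator_le]
          intro a ha b hb
          refine ⟨⁅(⟨a, ha⟩ : ↥K), (⟨b, hb⟩ : ↥K)⁆, ?_, rfl⟩
          apply (le_sup_left : commutator K ≤ commutator K ⊔ M.subgroupOf K)
          rw [commutator_def]
          exact Subgroup.commutator_mem_commutator (Subgroup.mem_top _) (Subgroup.mem_top _)
        · intro y hy
          exact ⟨⟨y, hMK hy⟩, (le_sup_right : M.subgroupOf K ≤ commutator K ⊔ M.subgroupOf K)
            (Subgroup.mem_subgroupOf.mpr hy), rfl⟩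
      obtain ⟨y, hy, hxy⟩ := hle (Subgroup.mem_subgroupOf.mp hx)
      have : y = x := Subtype.ext hxy
      rw [← this]
      exact hy) p j hj
    exact ⟨p, m, hp, hm⟩
  · exact hF4 h
  · by_cases hbig : 4 * K.index ^ 2 + 1 < (⁅K, K⁆ ⊔ M).relIndex K
    · exact hF2 hbig
    · apply hF4
      have hd : (⁅K, K⁆ ⊔ M).relIndex K ∣ p ^ m := by
        rw [← hpm]
        exact Subgroup.relIndex_dvd_of_le_left K hMH₁
      obtain ⟨i, -, hi⟩ := (Nat.dvd_prime_pow hp).mp hd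
      have ha1 := hrlt _ _ hH₁K
      have hi0 : i ≠ 0 := by
        rintro rfl
        rw [pow_zero] at hi
        omega
      have hpodd : Odd p := by
        have : p ∣ (⁅K, K⁆ ⊔ M).relIndex K := by rw [hi]; exact dvd_pow_self p hi0
        exact (hrodd _ _).of_dvd_nat this
      have hp2 : 2 * K.index + 1 ≤ p := two_e heodd hpodd hp.one_lt hdvd
      have hi1 : i = 1 := by
        by_contra hne
        have h2 : 2 ≤ i := by omega
        have h3 : p ^ 2 ≤ p ^ i := Nat.pow_le_pow_right hp.pos h2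
        apply hbig
        rw [hi]
        nlinarith
      rw [hi1, pow_one] at hi
      exact comm_le_of_prime K M hMK hnil p hp hi

end Cfsg.Agent.S1521
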