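import Cfsg.Statements.S1522
import Cfsg.Agent.Lib.Helper24.Coherence7
import Cfsg.Agent.S1521

set_option autoImplicit false
open Cfsg

namespace Cfsg.Agent.S1522

open Cfsg.Agent.Lib.Helper7 Cfsg.Agent.Lib.Helper24.Coh Cfsg.Agent.Lib.Helper24.Coh5
  Cfsg.Agent.Lib.Helper24.Coh6 Cfsg.Agent.Lib.Helper24.Coh7
open scoped ComplexConjugate commutatorElement

section aux

variable {L : Type*} [Group L] [Fintype L] (K : Subgroup L) [hK : K.Normal] [Fintype K]

theorem ker_of_ind (Z : Subgroup L) {θ : K → ℂ} (hθ : IsIrrCharacter K θ)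
    (h : ∀ z : K, (z : L) ∈ Z → indFun K θ z = indFun K θ 1) (z : K) (hz : (z : L) ∈ Z) :
    θ z = θ 1 := by
  have hθc := isCharacter_of_irr hθ
  have hind := Cfsg.Agent.Lib.Helper25.isCharacter_indFun K θ hθc
  have hres := isCharacter_restrict hind K
  have hne : classInner (fun k : K => indFun K θ k) θ ≠ 0 := by
    intro h0
    have h1 := Cfsg.Agent.Lib.Helper25.frobenius_reciprocity K θ (indFun K θ)
      (Cfsg.Agent.Lib.Helper25.indFun_isClassFunction K θ)
    have h1' : classInner θ (fun k : K => indFun K θ k) = 0 := by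
      rw [← classInner_conj_symm, h0, map_zero]
    rw [h1'] at h1
    have h2 := classInner_self_eq_zero h1
    have h3 := congrFun h2 1
    rw [Cfsg.Agent.Lib.Helper25.indFun_one, Pi.zero_apply] at h3
    rcases mul_eq_zero.mp h3 with h4 | h4
    · exact (Subgroup.index_ne_zero_of_finite : K.index ≠ 0) (by exact_mod_cast h4)
    · exact irr_apply_one_ne_zero hθ h4
  exact Cfsg.Agent.Lib.Helper25.ker_constituent hres hθ hne (x := z) (h z hz)

theorem mem_T_iff (Z : Subgroup L) [hZ : Z.Normal] (φ : L → ℂ) :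
    φ ∈ Cfsg.inducedIrrAbove K ⊥ \ Cfsg.inducedIrrAbove K Z ↔
      ∃ θ : K → ℂ, IsIrrCharacter K θ ∧ (¬ ∀ z : K, (z : L) ∈ Z → θ z = θ 1) ∧ φ = indFun K θ := by
  constructor
  · rintro ⟨⟨θ, h1, h2, -, rfl⟩, hn⟩
    exact ⟨θ, h1, fun h => hn ⟨θ, h1, h2, h, rfl⟩, rfl⟩
  · rintro ⟨θ, h1, h2, rfl⟩
    refine ⟨⟨θ, h1, ?_, ?_, rfl⟩, ?_⟩
    · rintro rfl
      exact h2 (fun _ _ => rfl)
    · intro a ha
      have : a = 1 := Subtype.ext (Subgroup.mem_bot.mp ha)
      rw [this]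
    · rintro ⟨θ', h1', h2', h3', he⟩
      apply h2
      apply ker_of_ind K Z h1
      intro z hz
      rw [he]
      exact ind_const K Z h3' z hz

end aux

theorem arith3 {e A B U : ℕ} (he : 0 < e) (hA : 0 < A) (hAB : 3 * A ≤ B) (hU : B ^ 2 ≤ U) :
    2 * (e * B) * (e * A) < e ^ 2 * U := by
  have h1 : 2 * A * B < B * B := by nlinarith
  have h2 : 0 < e ^ 2 := by positivity
  calc 2 * (e * B) * (e * A) = e ^ 2 * (2 * A * B) := by ring
    _ < e ^ 2 * (B * B) := by exact Nat.mul_lt_mul_of_pos_left h1 h2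
    _ = e ^ 2 * B ^ 2 := by ring
    _ ≤ e ^ 2 * U := by gcongr


/-- Let K be a nilpotent normal subgroup of the finite group L of odd order with [K,K] < K < L and L/[K,K] a Frobenius group with kernel K/[K,K] (elements of K outside [K,K] are centralised modulo [K,K] only from inside K); let (S, τ, R) be a coherence system from L to G with S the functions induced from non-principal irreducible characters of K. Let Z be a nontrivial normal subgroup of L contained in the centre of K, and suppose every member of S outside S(Z) is an irreducible character of L. Then S minus S(Z) is the set of irreducible characters χ of L with χ z ≠ χ 1 for some z ∈ Z, and it is coherent. -/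
theorem result {L : Type*} [Group L] [Fintype L] {G : Type*} [Group G] [Fintype G] (K : Subgroup L) [hK : K.Normal] (hsolv : Group.IsSolvable K) (τ : (L → ℂ) → (G → ℂ)) (R : (L → ℂ) → Finset (G → ℂ)) (hS : Cfsg.IsCoherenceSystem (Cfsg.inducedIrrAbove K ⊥) τ R) (hodd : Odd (Nat.card L)) (hnil : Group.IsNilpotent K) (hH₁K : ⁅K, K⁆ < K) (hKL : K < ⊤) (hfrob : ∀ k ∈ K, k ∉ ⁅K, K⁆ → ∀ x : L, x * k * x⁻¹ * k⁻¹ ∈ ⁅K, K⁆ → x ∈ K) (Z : Subgroup L) [Z.Normal] (hZ1 : Z ≠ ⊥) (hZK : Z ≤ K) (hZc : ∀ z ∈ Z, ∀ k ∈ K, z * k = k * z) (hirr : ∀ χ ∈ Cfsg.inducedIrrAbove K ⊥ \ Cfsg.inducedIrrAbove K Z, Cfsg.IsIrrCharacter L χ) : Cfsg.inducedIrrAbove K ⊥ \ Cfsg.inducedIrrAbove K Z = {χ | Cfsg.IsIrrCharacter L χ ∧ ∃ z ∈ Z, χ z ≠ χ 1} ∧ Cfsg.IsCoherent (Cfsg.inducedIrrAbove K ⊥ \ Cfsg.inducedIrrAbove K Z) {1}ᶜ τ := by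
  classical
  haveI : Fintype K := Fintype.ofFinite _
  have : Finite (IrrCharacter K) := Cfsg.Agent.Lib.Helper25.finite_irrCharacter
  haveI : Fintype (IrrCharacter K) := Fintype.ofFinite _
  have hmem := mem_T_iff K Z
  have hTS : Cfsg.inducedIrrAbove K ⊥ \ Cfsg.inducedIrrAbove K Z ⊆ Cfsg.inducedIrrAbove K ⊥ :=
    Set.sdiff_subset
  have hTc : ∀ φ ∈ Cfsg.inducedIrrAbove K ⊥ \ Cfsg.inducedIrrAbove K Z,
      Cfsg.conjFun φ ∈ Cfsg.inducedIrrAbove K ⊥ \ Cfsg.inducedIrrAbove K Z := by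
    rintro φ ⟨h1, h2⟩
    refine ⟨hS.conj_mem φ h1, fun h => h2 ?_⟩
    have := above_conj K Z h
    rwa [conjFun_conjFun] at this
  -- T is nonempty
  obtain ⟨φ₀, hφ₀⟩ : (Cfsg.inducedIrrAbove K ⊥ \ Cfsg.inducedIrrAbove K Z).Nonempty := by
    obtain ⟨⟨z₀, hz₀⟩, hz₀1'⟩ := (Subgroup.ne_bot_iff_exists_ne_one).mp hZ1
    have hz₀1 : z₀ ≠ 1 := fun h => hz₀1' (Subtype.ext h)
    by_contra hemp
    have hall : ∀ θ : IrrCharacter K, (θ : K → ℂ) ⟨z₀, hZK hz₀⟩ = (θ : K → ℂ) 1 := by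
      intro θ
      by_contra hne
      exact hemp ⟨indFun K θ, (hmem _).mpr ⟨θ, θ.2, fun h => hne (h _ hz₀), rfl⟩⟩
    have h1 := Cfsg.Agent.Lib.Helper24.TIFrob.sum_deg_mul (N := K) (x := ⟨z₀, hZK hz₀⟩)
      (fun h => hz₀1 (congrArg Subtype.val h))
    have h2 := Cfsg.Agent.Lib.Helper24.TIFrob.sum_sq_all (N := K)
    have h3 : ∑ χ : IrrCharacter K, (χ : K → ℂ) 1 * (χ : K → ℂ) ⟨z₀, hZK hz₀⟩ =
        ∑ χ : IrrCharacter K, (χ : K → ℂ) 1 ^ 2 := by
      apply Finset.sum_congr rfl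
      intro χ _
      rw [hall χ]; ring
    rw [h3, h2] at h1
    exact (Nat.card_pos (α := K)).ne' (by exact_mod_cast h1)
  have hnz : ∃ α ∈ zspanOn (Cfsg.inducedIrrAbove K ⊥ \ Cfsg.inducedIrrAbove K Z) {1}ᶜ, α ≠ 0 :=
    ⟨_, sys_sub_mem hφ₀ (hTc _ hφ₀) (sys_conj_one hS (hTS hφ₀)).symm,
      fun h => hS.conj_ne _ (hTS hφ₀) (sub_eq_zero.mp h).symm⟩
  refine ⟨?_, ?_⟩
  · -- the set equality
    ext χ
    constructor
    · intro hχ
      refine ⟨hirr χ hχ, ?_⟩
      obtain ⟨θ, h1, h2, rfl⟩ := (hmem χ).mp hχ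
      by_contra hcon
      push Not at hcon
      exact h2 (ker_of_ind K Z h1 (fun z hz => hcon z hz))
    · rintro ⟨hχ, z₀, hz₀, hne⟩
      have hχc := isCharacter_of_irr hχ
      have hres := isCharacter_restrict hχc K
      have hne0 : (fun a : K => χ a) ≠ 0 := by
        intro h0
        have h1 := congrFun h0 1
        simp only [OneMemClass.coe_one, Pi.zero_apply] at h1
        exact irr_apply_one_ne_zero hχ h1
      obtain ⟨θ, hθ, hc⟩ := Cfsg.Agent.Lib.Helper25.exists_irr_constituent hres hne0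
      have hθZ : ¬ ∀ z : K, (z : L) ∈ Z → θ z = θ 1 := by
        intro hker
        apply hne
        have hcl := Cfsg.Agent.Lib.Helper25.clifford' K hχ hθ hc
        have e1 := congrFun hcl ⟨z₀, hZK hz₀⟩
        have e2 := congrFun hcl 1
        simp only [Pi.smul_apply, Finset.sum_apply, OneMemClass.coe_one] at e1 e2
        rw [e1, e2]
        congr 1
        apply Finset.sum_congr rfl
        intro ψ hψ
        obtain ⟨g, -, rfl⟩ := Finset.mem_image.mp hψ
        rw [Cfsg.Agent.Lib.Helper25.conjFun_apply, Cfsg.Agent.Lib.Helper25.conjFun_apply,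
          hker _ (‹Z.Normal›.conj_mem z₀ hz₀ g)]
        congr 1
        apply Subtype.ext
        simp
      have hT : indFun K θ ∈ Cfsg.inducedIrrAbove K ⊥ \ Cfsg.inducedIrrAbove K Z :=
        (hmem _).mpr ⟨θ, hθ, hθZ, rfl⟩
      have hi := hirr _ hT
      have heq : indFun K θ = χ := by
        by_contra hne'
        have h0 := classInner_irr_ne hi hχ hne'
        rw [Cfsg.Agent.Lib.Helper25.frobenius_reciprocity K θ χ
          (isClassFunction_of_isCharacter hχc), ← classInner_conj_symm] at h0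
        exact hc (by simpa using h0)
      rw [← heq]
      exact hT
  · -- coherence
    by_cases hpp : ∃ p m : ℕ, p.Prime ∧ Nat.card K = p ^ m
    swap
    · have hbot : ⁅K, K⁆ ⊔ (⊥ : Subgroup L) = ⁅K, K⁆ := sup_bot_eq _
      have hall := Cfsg.Agent.S1521.result K hsolv τ R hS hodd ⊥ bot_le inferInstance
        (⁅K, K⁆ ⊔ ⊥) rfl (by rw [hbot]; exact hH₁K) hKL (by rw [hbot]; exact hfrob)
        (Or.inr (Or.inr (Or.inl (by rw [Subgroup.relIndex_bot_left]; exact hpp))))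
      exact coherent_mono hTS hall hnz
    obtain ⟨p, m, hp, hpm⟩ := hpp
    choose! d hd0 hd using (fun (φ : L → ℂ) (hφ : φ ∈ Cfsg.inducedIrrAbove K ⊥) => sys_deg hS hφ)
    choose! n hn0 hn using (fun (φ : L → ℂ) (hφ : φ ∈ Cfsg.inducedIrrAbove K ⊥) => sys_norm hS hφ)
    have he0 : 0 < K.index := Nat.pos_of_ne_zero Subgroup.index_ne_zero_of_finite
    have hcoe : (↑(SF K ⊥ \ SF K Z) : Set (L → ℂ)) =
        Cfsg.inducedIrrAbove K ⊥ \ Cfsg.inducedIrrAbove K Z := by
      rw [Finset.coe_sdiff, coe_SF, coe_SF]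
    have hmemF : ∀ φ, φ ∈ SF K ⊥ \ SF K Z ↔
        φ ∈ Cfsg.inducedIrrAbove K ⊥ \ Cfsg.inducedIrrAbove K Z := by
      intro φ
      rw [← hcoe, Finset.mem_coe]
    have hn1 : ∀ φ ∈ SF K ⊥ \ SF K Z, n φ = 1 := by
      intro φ hφ
      have h1 := (hmemF φ).mp hφ
      have h2 := hn φ (hTS h1)
      rw [classInner_irr_self (hirr φ h1)] at h2
      exact_mod_cast h2.symm
    -- p is odd and prime to e
    have hKlt : 1 < ⁅K, K⁆.relIndex K := by
      have h0 : ⁅K, K⁆.relIndex K ≠ 0 := Subgroup.index_ne_zero_of_finite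
      have h1 : ⁅K, K⁆.relIndex K ≠ 1 := fun h => not_le_of_gt hH₁K (Subgroup.relIndex_eq_one.mp h)
      omega
    have hpK : p ∣ ⁅K, K⁆.relIndex K := by
      have hd' : ⁅K, K⁆.relIndex K ∣ p ^ m := by rw [← hpm]; exact Subgroup.relIndex_dvd_card _ _
      obtain ⟨i, -, hi⟩ := (Nat.dvd_prime_pow hp).mp hd'
      have hi0 : i ≠ 0 := by
        rintro rfl
        rw [pow_zero] at hi
        omega
      rw [hi]
      exact dvd_pow_self p hi0
    have hp3 : 3 ≤ p := by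
      have hodd' : Odd p := hodd.of_dvd_nat
        (hpK.trans ((Subgroup.relIndex_dvd_card _ _).trans (Subgroup.card_subgroup_dvd_card K)))
      have h2 := hp.two_le
      rcases hodd' with ⟨x, hx⟩
      omega
    have hcop : Nat.Coprime p K.index := by
      rw [Nat.Prime.coprime_iff_not_dvd hp]
      intro hdv
      have r0 := relIndex_eq K ⁅K, K⁆ hS le_rfl hfrob ⁅K, K⁆ le_rfl
      rw [r0] at hpK
      have : p ∣ 1 := (Nat.dvd_add_right (hdv.mul_right _)).mp hpK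
      exact hp.one_lt.ne' (Nat.dvd_one.mp this)
    obtain ⟨y, hy⟩ : ∃ y, Z.relIndex K = p ^ y := by
      have hd' : Z.relIndex K ∣ p ^ m := by rw [← hpm]; exact Subgroup.relIndex_dvd_card _ _
      obtain ⟨i, -, hi⟩ := (Nat.dvd_prime_pow hp).mp hd'
      exact ⟨i, hi⟩
    have hdeg : ∀ φ ∈ SF K ⊥ \ SF K Z, ∃ a : ℕ, d φ = K.index * p ^ a ∧
        p ^ (2 * a) ∣ Z.relIndex K := by
      intro φ hφ
      have hφT := (hmemF φ).mp hφ
      obtain ⟨θ, h1, h2, rfl⟩ := (hmem φ).mp hφT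
      obtain ⟨t, ht0, ht⟩ := irr_apply_one h1
      have htd : t ∣ p ^ m := by
        have h3 := charDegree_dvd_card (⟨θ, h1⟩ : IrrCharacter K)
        have h4 := charDegree_cast (isCharacter_of_irr h1)
        rw [ht] at h4
        have h5 : charDegree θ = t := by exact_mod_cast h4
        rw [← hpm, ← h5]
        exact h3
      obtain ⟨a, -, rfl⟩ := (Nat.dvd_prime_pow hp).mp htd
      refine ⟨a, ?_, ?_⟩
      · have h := hd _ (hTS hφT)
        rw [Cfsg.Agent.Lib.Helper25.indFun_one, ht] at h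
        exact_mod_cast h.symm
      · have h3 := Cfsg.Agent.Lib.Helper25.degree_sq_mul_card_le h1 (Z.subgroupOf K) (by
          intro z hz c
          have : z * c * z⁻¹ * c⁻¹ = 1 := by
            apply Subtype.ext
            have := hZc z (Subgroup.mem_subgroupOf.mp hz) c c.2
            push_cast
            rw [this]
            group
          rw [this])
        rw [ht, Complex.norm_natCast] at h3
        have h4 : (p ^ a) ^ 2 * Nat.card (Z.subgroupOf K) ≤ Nat.card K := by exact_mod_cast h3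
        have h5 := (Z.subgroupOf K).card_mul_index
        have h6 : (p ^ a) ^ 2 ≤ Z.relIndex K := by
          have hpos : 0 < Nat.card (Z.subgroupOf K) := Nat.card_pos
          apply Nat.le_of_mul_le_mul_right _ hpos
          calc (p ^ a) ^ 2 * Nat.card (Z.subgroupOf K) ≤ Nat.card K := h4
            _ = Z.relIndex K * Nat.card (Z.subgroupOf K) := by rw [← h5, mul_comm]; rfl
        rw [hy] at h6 ⊢
        rw [← pow_mul, mul_comm a 2] at h6
        exact Nat.pow_dvd_pow p ((Nat.pow_le_pow_iff_right hp.one_lt).mp h6)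
    choose! a ha1 ha2 using hdeg
    -- the total weight
    have htot : K.index * ∑ φ ∈ SF K ⊥ \ SF K Z, p ^ (2 * a φ) + Z.relIndex K = Nat.card K := by
      have hs : ∀ A : Subgroup L, [A.Normal] → ∑ φ ∈ SF K A, φ 1 ^ 2 / classInner φ φ =
          (K.index : ℂ) * ((A.relIndex K : ℂ) - 1) := by
        intro A _
        have hsub := above_subset K A
        exact sum_sq_div K A
          (fun χ hχ φ hφ hne => hS.orthogonal χ (hsub hχ) φ (hsub hφ) hne)
          (fun χ hχ => sys_ne_zero hS (hsub hχ))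
          (fun χ hχ => by rw [hd χ (hsub hχ)]; simp)
      have h1 := hs ⊥
      have h2 := hs Z
      have hsub : SF K Z ⊆ SF K ⊥ := by
        intro x hx
        have : x ∈ (↑(SF K Z) : Set (L → ℂ)) := hx
        rw [coe_SF] at this
        have h3 := above_subset K Z this
        rw [← coe_SF] at h3
        exact h3
      have h3 := Finset.sum_sdiff (f := fun φ : L → ℂ => φ 1 ^ 2 / classInner φ φ) hsub
      rw [h1, h2, Subgroup.relIndex_bot_left] at h3
      have h4 : ∑ φ ∈ SF K ⊥ \ SF K Z, φ 1 ^ 2 / classInner φ φ =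
          (K.index : ℂ) ^ 2 * ((∑ φ ∈ SF K ⊥ \ SF K Z, p ^ (2 * a φ) : ℕ) : ℂ) := by
        push_cast
        rw [Finset.mul_sum]
        apply Finset.sum_congr rfl
        intro φ hφ
        have hφT := (hmemF φ).mp hφ
        rw [hd φ (hTS hφT), classInner_irr_self (hirr φ hφT), ha1 φ hφ]
        push_cast
        ring
      rw [h4] at h3
      have heC : (K.index : ℂ) ≠ 0 := by exact_mod_cast he0.ne'
      have h5 : (K.index : ℂ) * ((∑ φ ∈ SF K ⊥ \ SF K Z, p ^ (2 * a φ) : ℕ) : ℂ) +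
          (Z.relIndex K : ℂ) = (Nat.card K : ℂ) := by
        apply mul_left_cancel₀ heC
        linear_combination h3
      exact_mod_cast h5
    rw [← hcoe]
    apply coherent_by_degree hS d n hd hn (SF K ⊥ \ SF K Z) (by rw [hcoe]; exact hTS)
      (fun φ hφ => (hmemF _).mpr (hTc φ ((hmemF φ).mp hφ))) ⟨φ₀, (hmemF _).mpr hφ₀⟩ hn1
    intro χ hχ χ₁ hχ₁ hlt
    rw [ha1 χ hχ, ha1 χ₁ hχ₁] at hlt ⊢
    have hak : a χ₁ < a χ := by
      have := Nat.lt_of_mul_lt_mul_left hlt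
      exact (Nat.pow_lt_pow_iff_right hp.one_lt).mp this
    refine ⟨Nat.mul_dvd_mul_left _ (Nat.pow_dvd_pow p hak.le), ?_⟩
    have hsplit := Finset.sum_filter_add_sum_filter_not (SF K ⊥ \ SF K Z)
      (fun φ => d φ < K.index * p ^ a χ) (fun φ => p ^ (2 * a φ))
    have hge : p ^ (2 * a χ) ∣ ∑ φ ∈ (SF K ⊥ \ SF K Z).filter
        (fun φ => ¬ d φ < K.index * p ^ a χ), p ^ (2 * a φ) := by
      apply Finset.dvd_sum
      intro φ hφ
      obtain ⟨h1, h2⟩ := Finset.mem_filter.mp hφ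
      rw [ha1 φ h1, not_lt] at h2
      have h3 := Nat.le_of_mul_le_mul_left h2 he0
      have h4 := (Nat.pow_le_pow_iff_right hp.one_lt).mp h3
      exact Nat.pow_dvd_pow p (by omega)
    have hr := ha2 χ hχ
    have hcard : p ^ (2 * a χ) ∣ Nat.card K := hr.trans (Subgroup.relIndex_dvd_card _ _)
    have h1 : p ^ (2 * a χ) ∣ K.index * ∑ φ ∈ SF K ⊥ \ SF K Z, p ^ (2 * a φ) := by
      rw [← htot] at hcard
      exact (Nat.dvd_add_left hr).mp hcard
    have h2 : p ^ (2 * a χ) ∣ ∑ φ ∈ SF K ⊥ \ SF K Z, p ^ (2 * a φ) :=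
      (Nat.Coprime.pow_left _ hcop).dvd_of_dvd_mul_left h1
    rw [← hsplit] at h2
    have h3 : p ^ (2 * a χ) ∣ ∑ φ ∈ (SF K ⊥ \ SF K Z).filter
        (fun φ => d φ < K.index * p ^ a χ), p ^ (2 * a φ) := (Nat.dvd_add_left hge).mp h2
    have hpos : 0 < ∑ φ ∈ (SF K ⊥ \ SF K Z).filter
        (fun φ => d φ < K.index * p ^ a χ), p ^ (2 * a φ) := by
      apply Finset.sum_pos' (fun _ _ => Nat.zero_le _)
      exact ⟨χ₁, Finset.mem_filter.mpr ⟨hχ₁, by rw [ha1 χ₁ hχ₁]; exact hlt⟩, pow_pos hp.pos _⟩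
    have h4 := Nat.le_of_dvd hpos h3
    have h5 : ∑ φ ∈ (SF K ⊥ \ SF K Z).filter (fun φ => d φ < K.index * p ^ a χ), d φ ^ 2 =
        K.index ^ 2 * ∑ φ ∈ (SF K ⊥ \ SF K Z).filter
          (fun φ => d φ < K.index * p ^ a χ), p ^ (2 * a φ) := by
      rw [Finset.mul_sum]
      apply Finset.sum_congr rfl
      intro φ hφ
      rw [ha1 φ (Finset.mem_filter.mp hφ).1]
      ring
    rw [h5]
    apply arith3 he0 (pow_pos hp.pos (a χ₁)) _ (by rw [← pow_mul, mul_comm (a χ) 2]; exact h4)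
    obtain ⟨j, hj⟩ : ∃ j, a χ = a χ₁ + 1 + j := ⟨a χ - a χ₁ - 1, by omega⟩
    rw [hj, pow_add, pow_add, pow_one]
    have hj1 : 1 ≤ p ^ j := Nat.one_le_pow _ _ hp.pos
    have hA : 0 < p ^ a χ₁ := pow_pos hp.pos _
    nlinarith [Nat.mul_le_mul (Nat.mul_le_mul (le_refl (p ^ a χ₁)) hp3) hj1]

end Cfsg.Agent.S1522
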