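import Cfsg.Statements.S0193
import Cfsg.Agent.Lib.Helper2.CharConst

set_option autoImplicit false
open Cfsg

namespace Cfsg.Agent.S0193

/-- Let H be a normal subgroup of a finite group G and θ an irreducible character of H. Then |H| times the inner product of the induced function of θ with itself equals the number of g in G with θ(g h g⁻¹) = θ(h) for all h in H; in particular the induced character is irreducible when only elements of H stabilise θ. -/
theorem result {G : Type*} [Group G] [Fintype G] (H : Subgroup G) [hN : H.Normal] (θ : H → ℂ) (hθ : Cfsg.IsIrrCharacter H θ) : (Nat.card H : ℂ) * Cfsg.classInner (Cfsg.indFun H θ) (Cfsg.indFun H θ) = (Nat.card {g : G // ∀ h : H, θ ⟨g * h * g⁻¹, hN.conj_mem h h.2 g⟩ = θ h} : ℂ) := by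
  classical
  have hcl := Cfsg.Agent.Lib.Helper2.indFun_isClassFunction H θ
  rw [Cfsg.Agent.Lib.Helper2.frobenius_reciprocity H θ _ hcl]
  have h1 : (fun h : H => Cfsg.indFun H θ h) =
      (Nat.card H : ℂ)⁻¹ • ∑ g : G, Cfsg.Agent.Lib.Helper2.conjChar hN θ g := by
    ext h
    rw [Cfsg.Agent.Lib.Helper2.indFun_coe_of_normal hN]
    simp
  rw [h1, Cfsg.Agent.Lib.Helper2.classInner_smul_right,
    Cfsg.Agent.Lib.Helper2.classInner_sum_right]
  have h2 : ∀ g : G, Cfsg.classInner θ (Cfsg.Agent.Lib.Helper2.conjChar hN θ g) =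
      if (∀ h : H, θ ⟨g * h * g⁻¹, hN.conj_mem h h.2 g⟩ = θ h) then 1 else 0 := by
    intro g
    rw [Cfsg.Agent.Lib.Helper2.irr_orthonormal hθ
      (Cfsg.Agent.Lib.Helper2.IsIrrCharacter.conjChar hN hθ g)]
    congr 1
    apply propext
    constructor
    · intro h x
      exact (congrFun h x).symm
    · intro h
      ext x
      exact (h x).symm
  have h3 : (Nat.card {g : G // ∀ h : H, θ ⟨g * h * g⁻¹, hN.conj_mem h h.2 g⟩ = θ h} : ℂ) =
      ((Finset.univ.filter fun g : G =>
        ∀ h : H, θ ⟨g * h * g⁻¹, hN.conj_mem h h.2 g⟩ = θ h).card : ℂ) := by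
    rw [Nat.card_eq_fintype_card, Fintype.card_subtype]
  rw [Finset.sum_congr rfl fun g _ => h2 g, Finset.sum_boole, h3]
  have := Cfsg.Agent.Lib.Helper2.card_subgroup_ne_zero H
  simp only [map_inv₀, map_natCast]
  field_simp

end Cfsg.Agent.S0193
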