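import Cfsg.Statements.S1528
import Mathlib
import Cfsg.Agent.Lib.Helper11.BrauerFix
import Cfsg.Agent.S0193
import Cfsg.Agent.Lib.Helper2.CharInd
import Cfsg.Agent.Lib.Helper25.IndChar
-- import your own Cfsg.Agent.* helpers here

set_option autoImplicit false
open Cfsg

namespace Cfsg.Agent.S1528

open Cfsg.Agent.Lib.Helper7 Cfsg.Agent.Lib.Helper11

/-- Let N be a normal subgroup of the finite group G such that every element of G commuting with a non-identity element of N lies in N. If χ is an irreducible character of G with χ n ≠ χ 1 for some n ∈ N, then χ is the function induced from some irreducible character of N. -/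
theorem result {G : Type*} [Group G] [Fintype G] (N : Subgroup G) [N.Normal] (hC : ∀ n ∈ N, n ≠ 1 → Subgroup.centralizer ({n} : Set G) ≤ N) (χ : G → ℂ) (hχ : Cfsg.IsIrrCharacter G χ) (hker : ∃ n ∈ N, χ n ≠ χ 1) : ∃ φ : N → ℂ, Cfsg.IsIrrCharacter N φ ∧ χ = Cfsg.indFun N φ := by
  classical
  let _ : Fintype N := Fintype.ofFinite _
  have hNn : N.Normal := inferInstance
  have hχc := isCharacter_of_irr hχ
  have hres : IsCharacter N (fun n : N => χ n) := isCharacter_restrict hχc N
  obtain ⟨φ, hφ, hφ1, hφc⟩ : ∃ φ : N → ℂ, IsIrrCharacter N φ ∧ φ ≠ (fun _ => 1) ∧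
      classInner (fun n : N => χ n) φ ≠ 0 := by
    by_contra hcon
    push Not at hcon
    have : Finite (IrrCharacter N) := finite_irrCharacter
    cases nonempty_fintype (IrrCharacter N)
    have hsum := classFunction_eq_sum (isClassFunction_of_isCharacter hres)
    have hconst : (fun n : N => χ n) =
        classInner (fun n : N => χ n) (fun _ => 1) • (fun _ => (1:ℂ)) := by
      conv_lhs => rw [hsum]
      rw [Finset.sum_eq_single ⟨fun _ => 1, isIrrCharacter_one⟩]
      · intro b _ hb
        rw [hcon b.1 b.2 (fun h => hb (Subtype.ext h)), zero_smul]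
      · intro h; exact absurd (Finset.mem_univ _) h
    obtain ⟨n, hn, hne⟩ := hker
    apply hne
    have e1 := congrFun hconst ⟨n, hn⟩
    have e2 := congrFun hconst 1
    simp only [Pi.smul_apply, smul_eq_mul, mul_one, Subgroup.coe_one] at e1 e2
    rw [e1, e2]
  have hstab : ∀ g : G, (∀ h : N, φ ⟨g * h * g⁻¹, hNn.conj_mem h h.2 g⟩ = φ h) → g ∈ N := by
    intro g hg
    obtain ⟨h, hh, hne, m, hm, he⟩ := (exists_fixed_irr_iff N g).mp ⟨φ, hφ, hφ1, funext hg⟩
    have h1 : m⁻¹ * g ∈ Subgroup.centralizer ({h} : Set G) := by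
      rw [Subgroup.mem_centralizer_singleton_iff]
      have h2 : g * h = m * h * m⁻¹ * g := by rw [← he]; group
      calc m⁻¹ * g * h = m⁻¹ * (g * h) := by group
        _ = m⁻¹ * (m * h * m⁻¹ * g) := by rw [h2]
        _ = h * (m⁻¹ * g) := by group
    have h3 := N.mul_mem hm (hC h hh hne h1)
    simpa using h3
  have hnorm : classInner (indFun N φ) (indFun N φ) = 1 := by
    have h193 := Cfsg.Agent.S0193.result N φ hφ
    have hcard : Nat.card {g : G // ∀ h : N, φ ⟨g * h * g⁻¹, hNn.conj_mem h h.2 g⟩ = φ h} =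
        Nat.card N := by
      apply Nat.card_congr
      refine Equiv.subtypeEquivRight (fun g => ⟨hstab g, fun hg h => ?_⟩)
      exact isClassFunction_of_isCharacter (isCharacter_of_irr hφ) h ⟨g, hg⟩
    rw [hcard] at h193
    have hN0 : (Nat.card N : ℂ) ≠ 0 := by exact_mod_cast Nat.card_pos.ne'
    exact mul_left_cancel₀ hN0 (by rw [h193, mul_one])
  have hind : IsIrrCharacter G (indFun N φ) :=
    isIrrCharacter_of_classInner_self_eq_one
      (Cfsg.Agent.Lib.Helper25.isCharacter_indFun N φ (isCharacter_of_irr hφ)) hnorm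
  refine ⟨φ, hφ, ?_⟩
  by_contra hne
  have h1 := classInner_irr_ne hχ hind hne
  rw [Cfsg.Agent.Lib.Helper2.frobenius_reciprocity' N φ χ (isClassFunction_of_isCharacter hχc)] at h1
  exact hφc h1

end Cfsg.Agent.S1528
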