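import Cfsg.Statements.S0857
import Cfsg.Agent.Lib.Helper25.GoDown2

set_option autoImplicit false
open Cfsg

namespace Cfsg.Agent.S0857

open Cfsg.Agent.Lib.Helper25

/-- Let L < K be normal subgroups of the finite group G with no normal subgroup of G strictly between them and with K / L abelian (the commutator subgroup of K lies in L). Let ϑ be an irreducible character of K invariant under conjugation by G. Then the restriction of ϑ to L is irreducible; or it equals e times an irreducible character of L with e ^ 2 equal to the index of L in K; or it is the sum of a family of pairwise distinct irreducible characters of L indexed by a set whose size is the index of L in K. -/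
theorem result {G : Type*} [Group G] [Fintype G] (K L : Subgroup G) [hK : K.Normal] [L.Normal] (hLK : L < K) (hchief : ∀ M : Subgroup G, M.Normal → L ≤ M → M ≤ K → M = L ∨ M = K) (hab : ⁅K, K⁆ ≤ L) (ϑ : K → ℂ) (hϑ : Cfsg.IsIrrCharacter K ϑ) (hinv : ∀ (g : G) (n : K), ϑ ⟨g * n * g⁻¹, hK.conj_mem (n : G) n.2 g⟩ = ϑ n) : Cfsg.IsIrrCharacter L (fun x : L => ϑ ⟨(x : G), hLK.le x.2⟩) ∨ (∃ (φ : L → ℂ) (e : ℕ), Cfsg.IsIrrCharacter L φ ∧ (fun x : L => ϑ ⟨(x : G), hLK.le x.2⟩) = (e : ℂ) • φ ∧ e ^ 2 = L.relIndex K) ∨ (∃ F : Finset (L → ℂ), (∀ φ ∈ F, Cfsg.IsIrrCharacter L φ) ∧ F.card = L.relIndex K ∧ (fun x : L => ϑ ⟨(x : G), hLK.le x.2⟩) = ∑ φ ∈ F, φ) := by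
  classical
  set L' : Subgroup K := L.subgroupOf K with hL'
  haveI : L'.Normal := inferInstance
  let e : L' ≃* L := Subgroup.subgroupOfEquivOfLe hLK.le
  have he : ∀ x : L, ((e.symm x : L') : K) = ⟨(x : G), hLK.le x.2⟩ := fun x => Subtype.ext rfl
  let tr : (L' → ℂ) → (L → ℂ) := fun f x => f (e.symm x)
  have htr_inj : Function.Injective tr := by
    intro f f' h
    funext y
    have := congrFun h (e y)
    simpa [tr] using this
  have htr_irr : ∀ f : L' → ℂ, Cfsg.IsIrrCharacter L' f → Cfsg.IsIrrCharacter L (tr f) := fun f hf =>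
    isIrrCharacter_comp_surjective e.symm.toMonoidHom e.symm.surjective hf
  have hR : (fun x : L => ϑ ⟨(x : G), hLK.le x.2⟩) = tr (fun l : L' => ϑ l) := by
    funext x
    show _ = ϑ ((e.symm x : L') : K)
    rw [he]
  have key := going_down L'
    (by
      intro x y
      rw [hL', Subgroup.mem_subgroupOf]
      apply hab
      have := Subgroup.commutator_mem_commutator x.2 y.2
      rw [commutatorElement_def] at this
      exact this)
    (Set.range (fun g : G => (MulAut.conjNormal g : K ≃* K)))
    (by
      rintro _ ⟨g, rfl⟩ l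
      rw [hL', Subgroup.mem_subgroupOf, Subgroup.mem_subgroupOf, MulAut.conjNormal_apply]
      constructor
      · intro h
        have := (inferInstance : L.Normal).conj_mem _ h g⁻¹
        simpa [mul_assoc] using this
      · intro h
        exact (inferInstance : L.Normal).conj_mem _ h g)
    (by
      intro M hLM hinvM
      have hMn : (M.map K.subtype).Normal := by
        constructor
        rintro _ ⟨m, hm, rfl⟩ g
        exact ⟨MulAut.conjNormal g m, hinvM _ ⟨g, rfl⟩ m hm, by simp [MulAut.conjNormal_apply]⟩
      have hM : M = (M.map K.subtype).subgroupOf K := by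
        rw [Subgroup.subgroupOf, Subgroup.comap_map_eq_self_of_injective K.subtype_injective]
      rcases hchief (M.map K.subtype) hMn
        (by
          intro l hl
          exact ⟨⟨l, hLK.le hl⟩, hLM (by rw [hL', Subgroup.mem_subgroupOf]; exact hl), rfl⟩)
        (Subgroup.map_subtype_le M) with h | h
      · left
        rw [hM, h]
      · right
        rw [hM, h, Subgroup.subgroupOf_self])
    hϑ
    (by
      rintro _ ⟨g, rfl⟩ k
      have := hinv g k
      rw [← this]
      congr 1)
  rw [hR]
  rcases key with h | ⟨φ, n, hφ, hres, hn⟩ | ⟨F, hF, hcard, hsum⟩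
  · exact Or.inl (htr_irr _ h)
  · right; left
    refine ⟨tr φ, n, htr_irr _ hφ, ?_, hn⟩
    rw [hres]
    rfl
  · right; right
    refine ⟨F.image tr, ?_, ?_, ?_⟩
    · intro φ hφ
      obtain ⟨f, hf, rfl⟩ := Finset.mem_image.1 hφ
      exact htr_irr _ (hF f hf)
    · rw [Finset.card_image_of_injective _ htr_inj, hcard]
      rfl
    · rw [hsum, Finset.sum_image (fun a _ b _ h => htr_inj h)]
      funext x
      simp [tr, Finset.sum_apply]

end Cfsg.Agent.S0857
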