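import Cfsg.Statements.S0717
import Cfsg.Agent.Lib.Helper25.Hecke7

set_option autoImplicit false
open Cfsg

namespace Cfsg.Agent.S0717

open Cfsg.Agent.Lib.Helper25 Cfsg.Agent.Lib

/-- All suborbits of a transitive group are self-paired (every pair of points is interchanged by some group element) if and only if the permutation character is multiplicity-free and each of its irreducible constituents is real-valued. -/
theorem result {G : Type*} [Group G] [Fintype G] {Ω : Type*} [Fintype Ω] [MulAction G Ω] [MulAction.IsPretransitive G Ω] : (∀ a b : Ω, ∃ g : G, g • a = b ∧ g • b = a) ↔ ∀ χ : G → ℂ, Cfsg.IsIrrCharacter G χ → Cfsg.classInner (fun g : G => (Nat.card (MulAction.fixedBy Ω g) : ℂ)) χ ≠ 0 → Cfsg.classInner (fun g : G => (Nat.card (MulAction.fixedBy Ω g) : ℂ)) χ = 1 ∧ ∀ g : G, (starRingEnd ℂ) (χ g) = χ g := by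
  classical
  have : Fintype (IrrCharacter G) := Fintype.ofFinite _
  have hπ : IsCharacter G (fun g : G => (Nat.card (MulAction.fixedBy Ω g) : ℂ)) :=
    isCharacter_permChar (G := G) Ω
  have hcl := Helper7.isClassFunction_of_isCharacter hπ
  obtain ⟨m, hm, -⟩ := Helper7.character_eq_sum_nat hπ
  have hfs := fsInd_eq_sum_irr hcl
  have hnorm := Helper7.classInner_eq_sum
    (f₂ := fun g : G => (Nat.card (MulAction.fixedBy Ω g) : ℂ)) hcl
  simp only [hm, map_natCast] at hfs hnorm
  constructor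
  · intro h χ hχ hχ0
    rw [swap_iff_fsInd, hfs, hnorm] at h
    have hν : ∀ χ : IrrCharacter G, ∃ z : ℤ, fsInd (χ : G → ℂ) = z ∧ z ≤ 1 := by
      intro χ
      rcases fsInd_trichotomy χ.2 with h | h | h
      · exact ⟨0, by rw [h]; simp, by norm_num⟩
      · exact ⟨1, by rw [h]; simp, by norm_num⟩
      · exact ⟨-1, by rw [h]; simp, by norm_num⟩
    choose ν hν1 hν2 using hν
    simp only [hν1] at h
    have h' : ∑ χ : IrrCharacter G, ((m χ : ℤ) * (m χ : ℤ) - (m χ : ℤ) * ν χ) = 0 := by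
      rw [Finset.sum_sub_distrib, sub_eq_zero]
      exact_mod_cast h.symm
    have hnn : ∀ χ ∈ (Finset.univ : Finset (IrrCharacter G)),
        0 ≤ ((m χ : ℤ) * (m χ : ℤ) - (m χ : ℤ) * ν χ) := by
      intro χ _
      have h1 := hν2 χ
      have h2 : (0 : ℤ) ≤ m χ := Int.natCast_nonneg _
      rcases Nat.eq_zero_or_pos (m χ) with h3 | h3
      · rw [h3]; simp
      · have h4 : (1 : ℤ) ≤ m χ := by exact_mod_cast h3
        nlinarith
    have hz := (Finset.sum_eq_zero_iff_of_nonneg hnn).1 h' ⟨χ, hχ⟩ (Finset.mem_univ _)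
    have hm0 : m ⟨χ, hχ⟩ ≠ 0 := by
      intro h0
      apply hχ0
      have := hm ⟨χ, hχ⟩
      rw [h0] at this
      simpa using this
    have h4 : (1 : ℤ) ≤ m ⟨χ, hχ⟩ := by exact_mod_cast Nat.pos_of_ne_zero hm0
    have h5 : (m ⟨χ, hχ⟩ : ℤ) = ν ⟨χ, hχ⟩ := by
      have h6 : (m ⟨χ, hχ⟩ : ℤ) * ((m ⟨χ, hχ⟩ : ℤ) - ν ⟨χ, hχ⟩) = 0 := by linear_combination hz
      rcases mul_eq_zero.1 h6 with h7 | h7
      · omega
      · omega
    have h6 := hν2 ⟨χ, hχ⟩
    have h7 : (m ⟨χ, hχ⟩ : ℤ) = 1 := by omega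
    have h8 : ν ⟨χ, hχ⟩ = 1 := by omega
    constructor
    · have := hm ⟨χ, hχ⟩
      simp only at this
      rw [this]
      exact_mod_cast h7
    · have h9 := hν1 ⟨χ, hχ⟩
      rw [h8] at h9
      simp only [Int.cast_one] at h9
      exact conj_eq_of_fsInd_eq_one hχ h9
  · intro h a b
    refine (swap_iff_fsInd (G := G) (Ω := Ω)).2 ?_ a b
    rw [hfs, hnorm]
    apply Finset.sum_congr rfl
    intro χ _
    by_cases h0 : m χ = 0
    · rw [h0]; simp
    · have h1 : classInner (fun g : G => (Nat.card (MulAction.fixedBy Ω g) : ℂ)) (χ : G → ℂ) ≠ 0 := by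
        rw [hm]; exact_mod_cast h0
      obtain ⟨h2, h3⟩ := h χ χ.2 h1
      have h4 : (m χ : ℂ) = 1 := by rw [← hm, h2]
      rw [h4]
      congr 1
      obtain ⟨n, ρ, hirr, hρ⟩ := χ.2
      rw [← hρ]
      have hH : (Nat.card (MulAction.stabilizer G a) : ℂ) ≠ 0 := by
        exact_mod_cast Nat.card_pos.ne'
      apply fsInd_eq_one_of_fixed ρ _ (MulAction.stabilizer G a)
      · rw [classInner_perm_eq a (Helper7.isClassFunction_of_isCharacter
          (Helper7.isCharacter_of_irr χ.2))] at h2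
        simp only [h3] at h2
        rw [hρ]
        field_simp at h2
        exact h2
      · intro g
        rw [hρ, ← Helper2.IsCharacter.conj_eq_inv (Helper7.isCharacter_of_irr χ.2), h3]

end Cfsg.Agent.S0717
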