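import Cfsg.Statements.S4669
import Cfsg.Agent.Lib.Helper24.CanonB
import Cfsg.Agent.Lib.Helper24.BlockRank

set_option autoImplicit false
open Cfsg

namespace Cfsg.Agent.S4669

/-- Fix a prime p and a maximal ideal M of the algebraic integers containing p. If the p-block B of the finite group G has a defect group P contained in the centre of G, then B has p-regular rank one (a single irreducible Brauer character). -/
theorem result {G : Type*} [Group G] [Fintype G] (p : ℕ) [Fact p.Prime] (M : Ideal Cfsg.AlgInt) (hM : Cfsg.IsPModular p M) (B : Set (Cfsg.IrrCharacter G)) (hB : Cfsg.IsPBlock M B) (P : Subgroup G) (hD : Cfsg.IsDefectGroup p M B P) (hPZ : P ≤ Subgroup.center G) : Cfsg.blockRank p B = 1 := by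
  haveI := hM.2.1.isPrime
  obtain ⟨χ₀, hχ₀⟩ := Cfsg.Agent.Lib.Helper7.isPBlock_nonempty hB
  have himg : (fun χ : Cfsg.IrrCharacter G => Cfsg.pRegularPart p (χ : G → ℂ)) '' B
      = {Cfsg.pRegularPart p (χ₀ : G → ℂ)} := by
    ext f
    constructor
    · rintro ⟨χ, hχ, rfl⟩
      rw [Set.mem_singleton_iff]
      ext y
      simp only [Cfsg.pRegularPart]
      by_cases hy : Cfsg.IsPRegular p y
      · rw [if_pos hy, if_pos hy]
        exact Cfsg.Agent.Lib.Helper24.central_regular_eq hM hB hPZ hD hχ hχ₀ y hy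
      · rw [if_neg hy, if_neg hy]
    · intro hf
      rw [Set.mem_singleton_iff] at hf
      exact ⟨χ₀, hχ₀, hf.symm⟩
  rw [Cfsg.blockRank, himg]
  apply finrank_span_singleton
  intro h
  have h1 := congrFun h 1
  have hreg : Cfsg.IsPRegular p (1 : G) := by
    rw [Cfsg.IsPRegular, orderOf_one, Nat.dvd_one]
    exact (Fact.out : p.Prime).one_lt.ne'
  simp only [Cfsg.pRegularPart, if_pos hreg, Pi.zero_apply] at h1
  exact Cfsg.Agent.Lib.Helper7.irr_apply_one_ne_zero χ₀.2 h1

end Cfsg.Agent.S4669
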