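import Cfsg.Statements.S4667
import Cfsg.Agent.Lib.Helper24.BlockComb

set_option autoImplicit false
open Cfsg

namespace Cfsg.Agent.S4667

open Cfsg.Agent.Lib.Helper7 Cfsg.Agent.Lib.Helper24
open scoped ComplexConjugate

theorem pRegularPart_eq_indicator {G : Type*} [Group G] (p : ℕ) (χ : G → ℂ) :
    Cfsg.pRegularPart p χ = ({x : G | ¬ p ∣ orderOf x} : Set G).indicator χ := by
  classical
  ext g
  unfold Cfsg.pRegularPart
  by_cases h : p ∣ orderOf g
  · rw [Set.indicator_of_notMem (by simpa using h), if_neg (by simpa [Cfsg.IsPRegular] using h)]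
  · rw [Set.indicator_of_mem (by simpa using h), if_pos (by simpa [Cfsg.IsPRegular] using h)]

/-- inner product with a fixed function, as a linear functional. -/
noncomputable def innerL {G : Type*} [Group G] [Fintype G] (χ : G → ℂ) : (G → ℂ) →ₗ[ℂ] ℂ where
  toFun ϑ := Cfsg.classInner ϑ χ
  map_add' a b := classInner_add_left a b χ
  map_smul' r a := classInner_smul_left r a χ

theorem rank_formula {G : Type*} [Group G] [Fintype G] (p : ℕ) (M : Ideal Cfsg.AlgInt)
    (hM : Cfsg.IsPModular p M) (B : Set (Cfsg.IrrCharacter G)) (hB : Cfsg.IsPBlock M B)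
    [Fintype (Cfsg.IrrCharacter G)] [DecidablePred (· ∈ B)] :
    (Cfsg.blockRank p B : ℂ) = ∑ χ ∈ Finset.univ.filter (· ∈ B),
      Cfsg.classInner (Cfsg.pRegularPart p (χ : G → ℂ)) (χ : G → ℂ) := by
  classical
  set S : Set G := {x : G | ¬ p ∣ orderOf x} with hS
  let f : (G → ℂ) →ₗ[ℂ] (G → ℂ) := ∑ χ ∈ Finset.univ.filter (· ∈ B),
    (innerL (χ : G → ℂ)).smulRight (Cfsg.pRegularPart p (χ : G → ℂ))
  have hf : ∀ ϑ, f ϑ = S.indicator (Cfsg.blockPart B ϑ) := by
    intro ϑ
    ext g
    simp only [f, LinearMap.sum_apply, LinearMap.smulRight_apply, Finset.sum_apply,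
      Pi.smul_apply, smul_eq_mul, pRegularPart_eq_indicator, innerL, LinearMap.coe_mk,
      AddHom.coe_mk]
    by_cases hg : g ∈ S
    · rw [Set.indicator_of_mem hg, blockPart_apply, Finset.sum_filter]
      apply Finset.sum_congr rfl
      intro χ _
      by_cases h : χ ∈ B
      · rw [if_pos h, Set.indicator_of_mem h, Set.indicator_of_mem hg]
      · rw [if_neg h, Set.indicator_of_notMem h]
    · rw [Set.indicator_of_notMem hg]
      apply Finset.sum_eq_zero
      intro χ _
      rw [Set.indicator_of_notMem hg, mul_zero]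
  have hproj : LinearMap.IsProj (Submodule.span ℂ
      ((fun χ : Cfsg.IrrCharacter G => Cfsg.pRegularPart p (χ : G → ℂ)) '' B)) f := by
    constructor
    · intro ϑ
      simp only [f, LinearMap.sum_apply, LinearMap.smulRight_apply]
      apply Submodule.sum_mem
      intro χ hχ
      apply Submodule.smul_mem
      apply Submodule.subset_span
      exact ⟨χ, (Finset.mem_filter.1 hχ).2, rfl⟩
    · intro w hw
      induction hw using Submodule.span_induction with
      | mem w hw =>
        obtain ⟨χ, hχ, rfl⟩ := hw
        simp only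
        rw [hf, pRegularPart_eq_indicator, blockPart_indicator hM hB (isSectionClosed_regular hM.1),
          blockPart_self hχ]
        ext g
        by_cases hg : g ∈ S
        · rw [Set.indicator_of_mem hg]
        · rw [Set.indicator_of_notMem hg, Set.indicator_of_notMem hg]
      | zero => simp
      | add a b _ _ ha hb => rw [map_add, ha, hb]
      | smul r a _ ha => rw [map_smul, ha]
  have ht := hproj.trace
  rw [Cfsg.blockRank, ← ht]
  simp only [f, map_sum, LinearMap.trace_smulRight]
  rfl


/-- Fix a prime p and a maximal ideal M of the algebraic integers containing p, and a p-block B of the finite group G. The p-regular rank of B (the number of irreducible Brauer characters in B) times the order of G equals the sum over the p-regular elements x of G of Σ_{χ ∈ B} χ(x) χ(x⁻¹) (written with the restriction of χ to p-regular elements, which vanishes at p-singular x). -/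
theorem result {G : Type*} [Group G] [Fintype G] (p : ℕ) [Fact p.Prime] (M : Ideal Cfsg.AlgInt) (hM : Cfsg.IsPModular p M) (B : Set (Cfsg.IrrCharacter G)) (hB : Cfsg.IsPBlock M B) : (Nat.card G : ℂ) * (Cfsg.blockRank p B : ℂ) = ∑ x : G, ∑ᶠ χ ∈ B, Cfsg.pRegularPart p (χ : G → ℂ) x * (χ : G → ℂ) x⁻¹ := by
  classical
  haveI := Fintype.ofFinite (Cfsg.IrrCharacter G)
  have hcard : (Nat.card G : ℂ) ≠ 0 := by exact_mod_cast Nat.card_pos.ne'
  rw [rank_formula p M hM B hB, Finset.mul_sum]
  simp only [finsum_mem_eq_sum_indicator]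
  rw [Finset.sum_comm, Finset.sum_filter]
  apply Finset.sum_congr rfl
  intro χ _
  by_cases h : χ ∈ B
  · rw [if_pos h, Cfsg.classInner, ← mul_assoc, mul_inv_cancel₀ hcard, one_mul]
    apply Finset.sum_congr rfl
    intro x _
    rw [Set.indicator_of_mem h, char_inv_eq_conj (isCharacter_of_irr χ.2)]
  · rw [if_neg h]
    symm
    apply Finset.sum_eq_zero
    intro x _
    rw [Set.indicator_of_notMem h]

end Cfsg.Agent.S4667
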