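import Cfsg.Statements.S5344
import Mathlib
import Cfsg.Agent.Lib.Helper21.CoxA

set_option autoImplicit false
open Cfsg

namespace Cfsg.Agent.S5344

set_option maxRecDepth 100000 in
lemma normal_gen : ∀ g : Equiv.Perm (Fin 4), g ≠ 1 → ∃ x y : Equiv.Perm (Fin 4),
    x * g * x⁻¹ * (y * g * y⁻¹) = Equiv.swap 0 1 * Equiv.swap 2 3 := by decide

lemma cube_of_not_commute {G : Type*} [Group G] {a b : G} (ha : a * a = 1) (hb : b * b = 1)
    (h : (a * b) ^ 2 = 1 ∨ (a * b) ^ 3 = 1) (hc : ¬ Commute a b) : (a * b) ^ 3 = 1 := by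
  rcases h with h | h
  · exfalso
    apply hc
    rw [pow_two] at h
    show a * b = b * a
    calc a * b = a * b * (a * b * (b * a)) := by
          rw [show a * b * (b * a) = a * (b * b) * a by group, hb, mul_one, ha, mul_one]
      _ = (a * b * (a * b)) * (b * a) := by group
      _ = b * a := by rw [h, one_mul]
  · exact h

/-- In a set of 3-transpositions, let a, b, c be members with a and c different and commuting, while neither a nor c commutes with b (a 3-string). Then there is an injective homomorphism from the symmetric group of degree 4 into the ambient group sending the transpositions (0 1), (1 2), (2 3) to a, b, c; so a, b, c generate a copy of the symmetric group of degree 4 in which they are transpositions. -/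
theorem result {G : Type*} [Group G] {D : Set G} (hD : Cfsg.IsThreeTranspositionSet D) {a b c : G} (ha : a ∈ D) (hb : b ∈ D) (hc : c ∈ D) (hac : a ≠ c) (hac' : Commute a c) (hab : ¬ Commute a b) (hbc : ¬ Commute b c) : ∃ φ : Equiv.Perm (Fin 4) →* G, Function.Injective φ ∧ φ (Equiv.swap 0 1) = a ∧ φ (Equiv.swap 1 2) = b ∧ φ (Equiv.swap 2 3) = c := by
  classical
  obtain ⟨hord, hprod⟩ := hD
  have hsq : ∀ d ∈ D, d * d = 1 := by
    intro d hd
    have := pow_orderOf_eq_one d
    rwa [hord d hd, pow_two] at this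
  have haa := hsq a ha
  have hbb := hsq b hb
  have hcc := hsq c hc
  have hab3 := cube_of_not_commute haa hbb (hprod a ha b hb) hab
  have hbc3 := cube_of_not_commute hbb hcc (hprod b hb c hc) hbc
  have hac2 : (a * c) ^ 2 = 1 := Cfsg.Agent.Lib.Helper21.CoxA.sq_of_commute a c haa hcc hac'.eq
  have hlift : (CoxeterMatrix.A 3).IsLiftable (![a, b, c] : Fin 3 → G) := by
    intro i j
    fin_cases i <;> fin_cases j
    · show (a * a) ^ (CoxeterMatrix.A 3 0 0) = 1
      rw [haa, one_pow]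
    · show (a * b) ^ (CoxeterMatrix.A 3 0 1) = 1
      rw [Cfsg.Agent.Lib.Helper21.CoxA.A_three 3 0 1 rfl]
      exact hab3
    · show (a * c) ^ (CoxeterMatrix.A 3 0 2) = 1
      rw [Cfsg.Agent.Lib.Helper21.CoxA.A_two 3 0 2 (le_refl _)]
      exact hac2
    · show (b * a) ^ (CoxeterMatrix.A 3 1 0) = 1
      rw [(CoxeterMatrix.A 3).symmetric, Cfsg.Agent.Lib.Helper21.CoxA.A_three 3 0 1 rfl]
      exact Cfsg.Agent.Lib.Helper21.CoxA.pow_swap _ _ _ hab3
    · show (b * b) ^ (CoxeterMatrix.A 3 1 1) = 1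
      rw [hbb, one_pow]
    · show (b * c) ^ (CoxeterMatrix.A 3 1 2) = 1
      rw [Cfsg.Agent.Lib.Helper21.CoxA.A_three 3 1 2 rfl]
      exact hbc3
    · show (c * a) ^ (CoxeterMatrix.A 3 2 0) = 1
      rw [(CoxeterMatrix.A 3).symmetric, Cfsg.Agent.Lib.Helper21.CoxA.A_two 3 0 2 (le_refl _)]
      exact Cfsg.Agent.Lib.Helper21.CoxA.pow_swap _ _ _ hac2
    · show (c * b) ^ (CoxeterMatrix.A 3 2 1) = 1
      rw [(CoxeterMatrix.A 3).symmetric, Cfsg.Agent.Lib.Helper21.CoxA.A_three 3 1 2 rfl]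
      exact Cfsg.Agent.Lib.Helper21.CoxA.pow_swap _ _ _ hbc3
    · show (c * c) ^ (CoxeterMatrix.A 3 2 2) = 1
      rw [hcc, one_pow]
  obtain ⟨φ, hφ⟩ : ∃ φ : Equiv.Perm (Fin 4) →* G,
      φ = (Cfsg.Agent.Lib.Helper21.CoxA.permSystem 3).lift ⟨_, hlift⟩ := ⟨_, rfl⟩
  have hs : ∀ i : Fin 3, φ (Equiv.swap i.castSucc i.succ) = (![a, b, c] : Fin 3 → G) i := by
    intro i
    rw [hφ, ← Cfsg.Agent.Lib.Helper21.CoxA.permSystem_simple 3 i]
    exact (Cfsg.Agent.Lib.Helper21.CoxA.permSystem 3).lift_apply_simple hlift i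
  have h0 : φ (Equiv.swap 0 1) = a := hs 0
  have h1 : φ (Equiv.swap 1 2) = b := hs 1
  have h2 : φ (Equiv.swap 2 3) = c := hs 2
  refine ⟨φ, ?_, h0, h1, h2⟩
  rw [injective_iff_map_eq_one]
  intro g hg
  by_contra hg1
  obtain ⟨x, y, hxy⟩ := normal_gen g hg1
  have h3 := congrArg φ hxy
  rw [map_mul, map_mul, map_mul, map_mul, map_mul, hg, map_mul, h0, h2, mul_one, mul_one,
    ← map_mul, ← map_mul, mul_inv_cancel, mul_inv_cancel, map_one, one_mul] at h3
  apply hac
  calc a = a * (c * c) := by rw [hcc, mul_one]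
    _ = (a * c) * c := by group
    _ = c := by rw [← h3, one_mul]

end Cfsg.Agent.S5344
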