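import Cfsg.Statements.S0286
import Cfsg.Agent.Lib.Helper16.Orth25

set_option autoImplicit false

open Cfsg

namespace Cfsg.Agent.S0286

open Cfsg.Agent.Lib.Helper16 Cfsg.Agent.Lib.Helper6

theorem result {F : Type*} [Field F] [Fintype F] {q : ℕ} (hF : Fintype.card F = q) (hodd : Odd q) (m : ℕ) : Nat.card (Cfsg.isometryGroup F (Cfsg.quadFormOdd m F)) = 2 * q ^ (m ^ 2) * ∏ i ∈ Finset.range m, (q ^ (2 * (i + 1)) - 1) := by
  subst hF
  have h2 : (2 : F) ≠ 0 := two_ne_zero_of_odd_card hodd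
  rw [← qOdd_coe, Nat.card_congr (bridge (qOdd m F)).toEquiv,
    card_OG_odd m _ (qOdd m F) (qOdd_nondeg h2) qOdd_wtype finrank_odd', Nat.card_eq_fintype_card]

end Cfsg.Agent.S0286
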