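import Cfsg.Statements.S0287
import Cfsg.Agent.Lib.Helper16.Orth25

set_option autoImplicit false

open Cfsg

namespace Cfsg.Agent.S0287

open Cfsg.Agent.Lib.Helper16 Cfsg.Agent.Lib.Helper6

theorem result {F : Type*} [Field F] [Fintype F] {q : ℕ} (hF : Fintype.card F = q) (m : ℕ) (hm : 1 ≤ m) : Nat.card (Cfsg.isometryGroup F (Cfsg.quadFormPlus m F)) = 2 * q ^ (m * (m - 1)) * (q ^ m - 1) * ∏ i ∈ Finset.range (m - 1), (q ^ (2 * (i + 1)) - 1) := by
  subst hF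
  obtain ⟨k, rfl⟩ : ∃ k, m = k + 1 := ⟨m - 1, by omega⟩
  rw [← qPlus_coe, Nat.card_congr (bridge (qPlus (k + 1) F)).toEquiv,
    card_OG_plus k _ (qPlus (k + 1) F) qPlus_nondeg qPlus_wtype finrank_plus', Nat.card_eq_fintype_card,
    Nat.add_sub_cancel]

end Cfsg.Agent.S0287
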