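import Cfsg.Statements.S0306
import Mathlib

set_option autoImplicit false
open Cfsg

namespace Cfsg.Agent.S0306

section aux

variable {F : Type*} [Field F]

abbrev I2 := (Fin 0 ⊕ Fin 0) ⊕ Fin 2

theorem forall_I2 {P : I2 → Prop} (h0 : P (Sum.inr 0)) (h1 : P (Sum.inr 1)) : ∀ i, P i := by
  rintro ((i | i) | i)
  · exact i.elim0
  · exact i.elim0
  · fin_cases i
    · exact h0
    · exact h1

def mk2 (p q r s : F) : Matrix I2 I2 F :=
  Matrix.of fun i j => Sum.elim (fun _ => 0)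
    (fun i' => Sum.elim (fun _ => 0) (fun j' => !![p, q; r, s] i' j') j) i

theorem mk2_mul (a b c d a' b' c' d' : F) : mk2 a b c d * mk2 a' b' c' d' =
    mk2 (a * a' + b * c') (a * b' + b * d') (c * a' + d * c') (c * b' + d * d') := by
  ext i j
  revert i j
  refine forall_I2 (forall_I2 ?_ ?_) (forall_I2 ?_ ?_) <;>
    simp [mk2, Matrix.mul_apply, Fintype.sum_sum_type, Fin.sum_univ_two]

theorem mk2_one : mk2 (1 : F) 0 0 1 = 1 := by
  ext i j
  revert i j
  refine forall_I2 (forall_I2 ?_ ?_) (forall_I2 ?_ ?_) <;>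
    simp [mk2, Matrix.one_apply]

theorem mk2_zero : mk2 (0 : F) 0 0 0 = 0 := by
  ext i j
  revert i j
  refine forall_I2 (forall_I2 ?_ ?_) (forall_I2 ?_ ?_) <;>
    simp [mk2]

theorem mk2_add (a b c d a' b' c' d' : F) : mk2 a b c d + mk2 a' b' c' d' =
    mk2 (a + a') (b + b') (c + c') (d + d') := by
  ext i j
  revert i j
  refine forall_I2 (forall_I2 ?_ ?_) (forall_I2 ?_ ?_) <;>
    simp [mk2]

theorem mk2_neg (a b c d : F) : - mk2 a b c d = mk2 (-a) (-b) (-c) (-d) := by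
  ext i j
  revert i j
  refine forall_I2 (forall_I2 ?_ ?_) (forall_I2 ?_ ?_) <;>
    simp [mk2]

theorem eq_mk2 (M : Matrix I2 I2 F) :
    M = mk2 (M (Sum.inr 0) (Sum.inr 0)) (M (Sum.inr 0) (Sum.inr 1))
      (M (Sum.inr 1) (Sum.inr 0)) (M (Sum.inr 1) (Sum.inr 1)) := by
  ext i j
  revert i j
  refine forall_I2 (forall_I2 ?_ ?_) (forall_I2 ?_ ?_) <;>
    simp [mk2]

theorem mk2_inj {a b c d a' b' c' d' : F} (h : mk2 a b c d = mk2 a' b' c' d') :
    a = a' ∧ b = b' ∧ c = c' ∧ d = d' :=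
  ⟨congrFun (congrFun h (Sum.inr 0)) (Sum.inr 0), congrFun (congrFun h (Sum.inr 0)) (Sum.inr 1),
    congrFun (congrFun h (Sum.inr 1)) (Sum.inr 0), congrFun (congrFun h (Sum.inr 1)) (Sum.inr 1)⟩

def Qf (a b : F) (z : F × F) : F := z.1 ^ 2 + a * z.1 * z.2 + b * z.2 ^ 2

def mulK (a b : F) (z w : F × F) : F × F :=
  (z.1 * w.1 - b * z.2 * w.2, z.1 * w.2 + z.2 * w.1 + a * z.2 * w.2)

def conjK (a : F) (z : F × F) : F × F := (z.1 + a * z.2, -z.2)

def Mz (a b : F) (z : F × F) : Matrix I2 I2 F := mk2 z.1 (-b * z.2) z.2 (z.1 + a * z.2)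

def Cm (a : F) : Matrix I2 I2 F := mk2 1 a 0 (-1)

theorem Q_eq (a b : F) (v : I2 → F) :
    Cfsg.quadFormMinus 0 F a b v = Qf a b (v (Sum.inr 0), v (Sum.inr 1)) := by
  simp [Cfsg.quadFormMinus, Qf]

theorem Q_mk2 (a b p q r s : F) (v : I2 → F) :
    Cfsg.quadFormMinus 0 F a b (Matrix.mulVec (mk2 p q r s) v) =
      Qf a b (p * v (Sum.inr 0) + q * v (Sum.inr 1), r * v (Sum.inr 0) + s * v (Sum.inr 1)) := by
  simp [Cfsg.quadFormMinus, Qf, mk2, Matrix.mulVec, dotProduct, Fintype.sum_sum_type,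
    Fin.sum_univ_two]

theorem Qf_mul (a b : F) (z w : F × F) : Qf a b (mulK a b z w) = Qf a b z * Qf a b w := by
  simp only [Qf, mulK]; ring

theorem Qf_conj (a b : F) (z : F × F) : Qf a b (conjK a z) = Qf a b z := by
  simp only [Qf, conjK]; ring

theorem mulK_comm (a b : F) (z w : F × F) : mulK a b z w = mulK a b w z := by
  simp only [mulK]; ext <;> simp <;> ring

theorem mulK_conj (a b : F) (z : F × F) : mulK a b z (conjK a z) = (Qf a b z, 0) := by
  simp only [mulK, conjK, Qf]; ext <;> simp <;> ring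

theorem mulK_conj_mul (a b : F) (z u : F × F) :
    mulK a b z (mulK a b (conjK a z) u) = (Qf a b z * u.1, Qf a b z * u.2) := by
  simp only [mulK, conjK, Qf]; ext <;> simp <;> ring

theorem mulK_conj_mul' (a b : F) (z u : F × F) :
    mulK a b (conjK a z) (mulK a b z u) = (Qf a b z * u.1, Qf a b z * u.2) := by
  simp only [mulK, conjK, Qf]; ext <;> simp <;> ring

theorem Mz_mul (a b : F) (z w : F × F) : Mz a b z * Mz a b w = Mz a b (mulK a b z w) := by
  simp only [Mz, mulK, mk2_mul]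
  congr 1 <;> ring

theorem Mz_one (a b : F) : Mz a b (1, 0) = 1 := by
  simp [Mz, mk2_one]

theorem Mz_zero (a b : F) : Mz a b 0 = 0 := by
  simp [Mz, mk2_zero]

theorem Mz_add (a b : F) (z w : F × F) : Mz a b z + Mz a b w = Mz a b (z + w) := by
  simp only [Mz, mk2_add, Prod.fst_add, Prod.snd_add]
  congr 1 <;> ring

theorem Mz_neg (a b : F) (z : F × F) : - Mz a b z = Mz a b (-z) := by
  simp only [Mz, mk2_neg, Prod.fst_neg, Prod.snd_neg]
  congr 1 <;> ring

theorem Mz_inj (a b : F) {z w : F × F} (h : Mz a b z = Mz a b w) : z = w := by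
  have := mk2_inj h
  exact Prod.ext this.1 this.2.2.1

theorem Cm_mul_Cm (a : F) : Cm a * Cm a = 1 := by
  simp only [Cm, mk2_mul]
  rw [← mk2_one]
  congr 1 <;> ring

theorem Cm_Mz_Cm (a b : F) (z : F × F) : Cm a * Mz a b z * Cm a = Mz a b (conjK a z) := by
  simp only [Cm, Mz, conjK, mk2_mul]
  congr 1 <;> ring

theorem Q_Mz (a b : F) (z : F × F) (v : I2 → F) :
    Cfsg.quadFormMinus 0 F a b (Matrix.mulVec (Mz a b z) v) =
      Qf a b z * Cfsg.quadFormMinus 0 F a b v := by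
  rw [Mz, Q_mk2, Q_eq]
  simp only [Qf]; ring

theorem Q_Cm (a b : F) (v : I2 → F) :
    Cfsg.quadFormMinus 0 F a b (Matrix.mulVec (Cm a) v) = Cfsg.quadFormMinus 0 F a b v := by
  rw [Cm, Q_mk2, Q_eq]
  simp only [Qf]; ring

end aux

section aux2

variable {F : Type*} [Field F]

theorem dihedral_of {G : Type*} [Group G] (n : ℕ) (ρ : Multiplicative (ZMod n) →* G)
    (hρ : Function.Injective ρ) (c : G) (hc : c * c = 1)
    (hcρ : ∀ u, c * ρ u * c = (ρ u)⁻¹) (hne : ∀ u, ρ u ≠ c)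
    (hall : ∀ g, (∃ u, g = ρ u) ∨ (∃ u, g = ρ u * c)) : Nonempty (G ≃* DihedralGroup n) := by
  have hsw : ∀ u, ρ u * c = c * (ρ u)⁻¹ := by
    intro u
    rw [← hcρ u]
    calc ρ u * c = (c * c) * ρ u * c := by rw [hc, one_mul]
      _ = c * (c * ρ u * c) := by group
  let f : DihedralGroup n → G := fun x =>
    match x with
    | DihedralGroup.r i => ρ (Multiplicative.ofAdd i)
    | DihedralGroup.sr i => c * ρ (Multiplicative.ofAdd i)
  have hmul : ∀ x y, f (x * y) = f x * f y := by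
    intro x y
    rcases x with i | i <;> rcases y with j | j
    · show ρ (Multiplicative.ofAdd (i + j)) = ρ _ * ρ _
      rw [ofAdd_add, map_mul]
    · show c * ρ (Multiplicative.ofAdd (j - i)) = ρ _ * (c * ρ _)
      rw [ofAdd_sub, map_div, ← mul_assoc, hsw, div_eq_mul_inv, mul_assoc]
      congr 1
      rw [← map_inv, ← map_mul, ← map_mul, mul_comm]
    · show c * ρ (Multiplicative.ofAdd (i + j)) = c * ρ _ * ρ _
      rw [ofAdd_add, map_mul, mul_assoc]
    · show ρ (Multiplicative.ofAdd (j - i)) = c * ρ _ * (c * ρ _)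
      rw [ofAdd_sub, map_div, ← mul_assoc, hcρ, div_eq_mul_inv]
      rw [← map_inv, ← map_mul, ← map_mul, mul_comm]
  have hinj : Function.Injective f := by
    intro x y h
    rcases x with i | i <;> rcases y with j | j
    · have h' : ρ (Multiplicative.ofAdd i) = ρ (Multiplicative.ofAdd j) := h
      rw [Multiplicative.ofAdd.injective (hρ h')]
    · exfalso
      have h' : ρ (Multiplicative.ofAdd i) = c * ρ (Multiplicative.ofAdd j) := h
      apply hne (Multiplicative.ofAdd i * (Multiplicative.ofAdd j)⁻¹)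
      rw [map_mul, map_inv, h', mul_assoc, mul_inv_cancel, mul_one]
    · exfalso
      have h' : c * ρ (Multiplicative.ofAdd i) = ρ (Multiplicative.ofAdd j) := h
      apply hne (Multiplicative.ofAdd j * (Multiplicative.ofAdd i)⁻¹)
      rw [map_mul, map_inv, ← h', mul_assoc, mul_inv_cancel, mul_one]
    · have h' : c * ρ (Multiplicative.ofAdd i) = c * ρ (Multiplicative.ofAdd j) := h
      rw [Multiplicative.ofAdd.injective (hρ (mul_left_cancel h'))]
  have hsurj : Function.Surjective f := by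
    intro g
    rcases hall g with ⟨u, rfl⟩ | ⟨u, rfl⟩
    · exact ⟨DihedralGroup.r (Multiplicative.toAdd u), rfl⟩
    · refine ⟨DihedralGroup.sr (Multiplicative.toAdd u⁻¹), ?_⟩
      show c * ρ (Multiplicative.ofAdd (Multiplicative.toAdd u⁻¹)) = _
      rw [hsw, ofAdd_toAdd, map_inv]
  exact ⟨(MulEquiv.ofBijective (MonoidHom.mk' f hmul) ⟨hinj, hsurj⟩).symm⟩

/-- anisotropy in terms of `Qf` -/
theorem aniso {a b : F} (hab : ∀ z₁ z₂ : F, z₁ ^ 2 + a * z₁ * z₂ + b * z₂ ^ 2 = 0 → z₁ = 0 ∧ z₂ = 0)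
    {z : F × F} (h : Qf a b z = 0) : z = 0 := by
  have := hab z.1 z.2 h
  exact Prod.ext this.1 this.2

theorem classify {a b : F}
    (hab : ∀ z₁ z₂ : F, z₁ ^ 2 + a * z₁ * z₂ + b * z₂ ^ 2 = 0 → z₁ = 0 ∧ z₂ = 0)
    (g : Matrix.GeneralLinearGroup I2 F)
    (hg : g ∈ Cfsg.isometryGroup F (Cfsg.quadFormMinus 0 F a b)) :
    ∃ z : F × F, Qf a b z = 1 ∧ ((g : Matrix I2 I2 F) = Mz a b z ∨
      (g : Matrix I2 I2 F) = Mz a b z * Cm a) := by
  obtain ⟨α, β, γ, δ, hM⟩ : ∃ α β γ δ : F, (g : Matrix I2 I2 F) =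
      mk2 α β γ δ := ⟨_, _, _, _, eq_mk2 _⟩
  have key : ∀ x y : F, Qf a b (α * x + β * y, γ * x + δ * y) = Qf a b (x, y) := by
    intro x y
    have h := hg (Sum.elim (fun _ => 0) ![x, y]) 0
    have h' : Cfsg.quadFormMinus 0 F a b (Matrix.mulVec (g : Matrix I2 I2 F)
        (Sum.elim (fun _ => 0) ![x, y])) =
        Cfsg.quadFormMinus 0 F a b (Sum.elim (fun _ => 0) ![x, y]) := h
    rw [hM, Q_mk2, Q_eq] at h'
    simpa using h'
  have h1 : Qf a b (α, γ) = 1 := by simpa [Qf] using key 1 0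
  have h2 : Qf a b (β, δ) = b := by simpa [Qf] using key 0 1
  have h3 : 2 * α * β + a * (α * δ + β * γ) + 2 * b * γ * δ = a := by
    have := key 1 1
    simp only [Qf] at this h1 h2
    linear_combination this - h1 - h2
  refine ⟨(α, γ), h1, ?_⟩
  set β' : F := (α + a * γ) * β + b * γ * δ with hβ'
  set δ' : F := α * δ - β * γ with hδ'
  have hw : mulK a b (conjK a (α, γ)) (β, δ) = (β', δ') := by
    simp only [mulK, conjK, hβ', hδ']; ext <;> simp <;> ring
  have E1 : 2 * β' + a * δ' = a := by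
    rw [hβ', hδ']; linear_combination h3
  have E2 : Qf a b (β', δ') = b := by
    rw [← hw, Qf_mul, Qf_conj, h1, h2, one_mul]
  have hback : (β, δ) = mulK a b (α, γ) (β', δ') := by
    rw [← hw, mulK_conj_mul, h1]; simp
  have hprod : mulK a b (β', δ' - 1) (β' - a, δ' + 1) = 0 := by
    simp only [Qf] at E2
    simp only [mulK]
    ext
    · simp only [Prod.fst_zero]
      linear_combination β' * E1 - E2
    · simp only [Prod.snd_zero]
      linear_combination δ' * E1
  have hQ : Qf a b (β', δ' - 1) * Qf a b (β' - a, δ' + 1) = 0 := by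
    rw [← Qf_mul, hprod]; simp [Qf]
  rcases mul_eq_zero.1 hQ with h | h
  · left
    have h0 := aniso hab h
    have hb0 : β' = 0 := congrArg Prod.fst h0
    have hd0 : δ' = 1 := by
      have : δ' - 1 = 0 := congrArg Prod.snd h0
      linear_combination this
    rw [hb0, hd0] at hback
    have e1 : β = -b * γ := by
      have := congrArg Prod.fst hback
      simp only [mulK] at this
      linear_combination this
    have e2 : δ = α + a * γ := by
      have := congrArg Prod.snd hback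
      simp only [mulK] at this
      linear_combination this
    rw [hM, Mz, e1, e2]
  · right
    have h0 := aniso hab h
    have hb0 : β' = a := by
      have : β' - a = 0 := congrArg Prod.fst h0
      linear_combination this
    have hd0 : δ' = -1 := by
      have : δ' + 1 = 0 := congrArg Prod.snd h0
      linear_combination this
    rw [hb0, hd0] at hback
    have e1 : β = a * α + b * γ := by
      have := congrArg Prod.fst hback
      simp only [mulK] at this
      linear_combination this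
    have e2 : δ = -α := by
      have := congrArg Prod.snd hback
      simp only [mulK] at this
      linear_combination this
    rw [hM, Mz, Cm, mk2_mul, e1, e2]
    congr 1 <;> ring

end aux2

section aux3

variable {F : Type*} [Field F]

theorem card_fib {α β : Type*} [Finite α] [Finite β] (f : α → β) (k : ℕ)
    (h : ∀ b, Nat.card {a // f a = b} = k) : Nat.card α = Nat.card β * k := by
  classical
  haveI := Fintype.ofFinite β
  rw [Nat.card_congr (Equiv.sigmaFiberEquiv f).symm, Nat.card_sigma]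
  simp [h]

/-- the form is universal -/
theorem universal [Fintype F] {a b : F}
    (hab : ∀ z₁ z₂ : F, z₁ ^ 2 + a * z₁ * z₂ + b * z₂ ^ 2 = 0 → z₁ = 0 ∧ z₂ = 0) (c : F) :
    ∃ z : F × F, Qf a b z = c := by
  by_cases h2 : ringChar F = 2
  · obtain ⟨s, hs⟩ := FiniteField.isSquare_of_char_two h2 c
    exact ⟨(s, 0), by simp [Qf, hs, pow_two]⟩
  · have h20 : (2 : F) ≠ 0 := Ring.two_ne_zero h2
    have hodd := FiniteField.odd_card_of_char_ne_two h2
    obtain ⟨h, hh⟩ : ∃ h : F, 2 * h = 1 := ⟨2⁻¹, mul_inv_cancel₀ h20⟩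
    have hD : b - (a * h) ^ 2 ≠ 0 := by
      intro hD
      have := (hab (-a * h) 1 (by linear_combination hD + a ^ 2 * h * hh)).2
      exact one_ne_zero this
    obtain ⟨x, y, hxy⟩ := FiniteField.exists_root_sum_quadratic
      (f := (Polynomial.X : Polynomial F) ^ 2)
      (g := Polynomial.C (b - (a * h) ^ 2) * Polynomial.X ^ 2 - Polynomial.C c)
      (Polynomial.degree_X_pow 2)
      (by rw [Polynomial.degree_sub_C, Polynomial.degree_C_mul_X_pow 2 hD]; rfl
          rw [Polynomial.degree_C_mul_X_pow 2 hD]; norm_num) hodd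
    simp at hxy
    refine ⟨(x - a * h * y, y), ?_⟩
    simp only [Qf]
    linear_combination hxy + (-a * x * y + a ^ 2 * h * y ^ 2) * hh

theorem card_N1 [Fintype F] {a b : F}
    (hab : ∀ z₁ z₂ : F, z₁ ^ 2 + a * z₁ * z₂ + b * z₂ ^ 2 = 0 → z₁ = 0 ∧ z₂ = 0) :
    Nat.card {z : F × F // Qf a b z = 1} = Fintype.card F + 1 := by
  classical
  have hne : ∀ z : {z : F × F // z ≠ 0}, Qf a b z.1 ≠ 0 := fun z h => z.2 (aniso hab h)
  have h1 := card_fib (fun z : {z : F × F // z ≠ 0} => Units.mk0 (Qf a b z.1) (hne z))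
    (Nat.card {z : F × F // Qf a b z = 1}) (by
      intro c
      obtain ⟨zc, hzc⟩ := universal hab (c : F)
      apply Nat.card_congr
      refine ⟨fun w => ⟨((c⁻¹ : Fˣ) : F) • mulK a b (conjK a zc) w.1.1, ?_⟩,
        fun w => ⟨⟨mulK a b zc w.1, ?_⟩, ?_⟩, ?_, ?_⟩
      · have hw : Qf a b w.1.1 = c := congrArg Units.val w.2
        have : Qf a b (mulK a b (conjK a zc) w.1.1) = c * c := by
          rw [Qf_mul, Qf_conj, hzc, hw]
        have hc : ((c⁻¹ : Fˣ) : F) * c = 1 := by simp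
        simp only [Qf, Prod.smul_fst, Prod.smul_snd, smul_eq_mul] at this ⊢
        linear_combination ((c⁻¹ : Fˣ) : F) ^ 2 * this + (((c⁻¹ : Fˣ) : F) * c + 1) * hc
      · intro h0
        have : Qf a b (mulK a b zc w.1) = c := by rw [Qf_mul, hzc, w.2, mul_one]
        rw [h0] at this
        exact c.ne_zero (by rw [← this]; simp [Qf])
      · apply Units.ext
        show Qf a b (mulK a b zc w.1) = c
        rw [Qf_mul, hzc, w.2, mul_one]
      · intro w
        apply Subtype.ext; apply Subtype.ext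
        show mulK a b zc (((c⁻¹ : Fˣ) : F) • mulK a b (conjK a zc) w.1.1) = w.1.1
        have h := mulK_conj_mul a b zc w.1.1
        rw [hzc] at h
        have hc : ((c⁻¹ : Fˣ) : F) * c = 1 := by simp
        have e1 := congrArg Prod.fst h
        have e2 := congrArg Prod.snd h
        simp only [mulK, Prod.smul_fst, Prod.smul_snd, smul_eq_mul] at e1 e2 ⊢
        ext
        · simp only
          linear_combination ((c⁻¹ : Fˣ) : F) * e1 + w.1.1.1 * hc
        · simp only
          linear_combination ((c⁻¹ : Fˣ) : F) * e2 + w.1.1.2 * hc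
      · intro w
        apply Subtype.ext
        show ((c⁻¹ : Fˣ) : F) • mulK a b (conjK a zc) (mulK a b zc w.1) = w.1
        rw [mulK_conj_mul', hzc]
        ext <;> simp)
  have h2 : Nat.card {z : F × F // z ≠ 0} = Fintype.card F ^ 2 - 1 := by
    rw [Nat.card_eq_fintype_card, Fintype.card_subtype_compl, Fintype.card_prod,
      Fintype.card_subtype_eq, pow_two]
  have h3 : Nat.card Fˣ = Fintype.card F - 1 := by
    rw [Nat.card_eq_fintype_card, Fintype.card_units]
  rw [h2, h3] at h1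
  have hq : 2 ≤ Fintype.card F := Fintype.one_lt_card
  obtain ⟨r, hr⟩ : ∃ r, Fintype.card F = r + 2 := ⟨Fintype.card F - 2, by omega⟩
  rw [hr] at h1 ⊢
  have e1 : (r + 2) ^ 2 - 1 = (r + 1) * (r + 2 + 1) := by
    have : (r + 2) ^ 2 = (r + 1) * (r + 2 + 1) + 1 := by ring
    omega
  have e2 : r + 2 - 1 = r + 1 := by omega
  rw [e1, e2] at h1
  exact (Nat.eq_of_mul_eq_mul_left (by omega) h1).symm

end aux3

section aux4

variable {F : Type*} [Field F]

/-- the commutative subring `F[θ]` of matrices -/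
def SK (a b : F) : Subring (Matrix I2 I2 F) where
  carrier := {M | ∃ z : F × F, M = Mz a b z}
  mul_mem' := by rintro _ _ ⟨z, rfl⟩ ⟨w, rfl⟩; exact ⟨_, Mz_mul a b z w⟩
  one_mem' := ⟨(1, 0), (Mz_one a b).symm⟩
  add_mem' := by rintro _ _ ⟨z, rfl⟩ ⟨w, rfl⟩; exact ⟨_, Mz_add a b z w⟩
  zero_mem' := ⟨0, (Mz_zero a b).symm⟩
  neg_mem' := by rintro _ ⟨z, rfl⟩; exact ⟨_, Mz_neg a b z⟩

/-- rotations as elements of `GL` -/
def GLz (a b : F) (z : F × F) (hz : Qf a b z = 1) : Matrix.GeneralLinearGroup I2 F :=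
  ⟨Mz a b z, Mz a b (conjK a z), by rw [Mz_mul, mulK_conj, hz, Mz_one],
    by rw [Mz_mul, mulK_comm, mulK_conj, hz, Mz_one]⟩

theorem GLz_mem (a b : F) (z : F × F) (hz : Qf a b z = 1) :
    GLz a b z hz ∈ Cfsg.isometryGroup F (Cfsg.quadFormMinus 0 F a b) := by
  intro v _
  show Cfsg.quadFormMinus 0 F a b (Matrix.mulVec (Mz a b z) v) = Cfsg.quadFormMinus 0 F a b v
  rw [Q_Mz, hz, one_mul]

def GLc (a : F) : Matrix.GeneralLinearGroup I2 F := ⟨Cm a, Cm a, Cm_mul_Cm a, Cm_mul_Cm a⟩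

theorem GLc_mem (a b : F) :
    GLc a ∈ Cfsg.isometryGroup F (Cfsg.quadFormMinus 0 F a b) := by
  intro v _
  show Cfsg.quadFormMinus 0 F a b (Matrix.mulVec (Cm a) v) = Cfsg.quadFormMinus 0 F a b v
  rw [Q_Cm]

/-- the rotation subgroup -/
def Rot (a b : F) : Subgroup (Cfsg.isometryGroup F (Cfsg.quadFormMinus 0 F a b)) where
  carrier := {g | ∃ z : F × F, Qf a b z = 1 ∧
    ((g : Matrix.GeneralLinearGroup I2 F) : Matrix I2 I2 F) = Mz a b z}
  mul_mem' := by
    rintro g h ⟨z, hz, hg⟩ ⟨w, hw, hh⟩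
    refine ⟨mulK a b z w, by rw [Qf_mul, hz, hw, one_mul], ?_⟩
    show ((g : Matrix.GeneralLinearGroup I2 F) : Matrix I2 I2 F) *
      ((h : Matrix.GeneralLinearGroup I2 F) : Matrix I2 I2 F) = _
    rw [hg, hh, Mz_mul]
  one_mem' := ⟨(1, 0), by simp [Qf], (Mz_one a b).symm⟩
  inv_mem' := by
    rintro g ⟨z, hz, hg⟩
    refine ⟨conjK a z, by rw [Qf_conj, hz], ?_⟩
    show (((g : Matrix.GeneralLinearGroup I2 F)⁻¹ : Matrix.GeneralLinearGroup I2 F) :
      Matrix I2 I2 F) = _
    apply Units.inv_eq_of_mul_eq_one_right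
    rw [hg, Mz_mul, mulK_conj, hz, Mz_one]

theorem rot_cyclic [Fintype F] {a b : F}
    (hab : ∀ z₁ z₂ : F, z₁ ^ 2 + a * z₁ * z₂ + b * z₂ ^ 2 = 0 → z₁ = 0 ∧ z₂ = 0) :
    IsCyclic (Rot a b) := by
  classical
  letI : CommRing (SK a b) :=
    { (inferInstance : Ring (SK a b)) with
      mul_comm := by
        rintro ⟨_, z, rfl⟩ ⟨_, w, rfl⟩
        apply Subtype.ext
        show Mz a b z * Mz a b w = Mz a b w * Mz a b z
        rw [Mz_mul, Mz_mul, mulK_comm] }
  haveI : NoZeroDivisors (SK a b) := ⟨by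
    rintro ⟨_, z, rfl⟩ ⟨_, w, rfl⟩ h
    have h' : Mz a b z * Mz a b w = 0 := congrArg Subtype.val h
    rw [Mz_mul, ← Mz_zero a b] at h'
    have h0 := Mz_inj a b h'
    have hQ : Qf a b z * Qf a b w = 0 := by rw [← Qf_mul, h0]; simp [Qf]
    rcases mul_eq_zero.1 hQ with h1 | h1
    · left
      apply Subtype.ext
      show Mz a b z = 0
      rw [aniso hab h1, Mz_zero]
    · right
      apply Subtype.ext
      show Mz a b w = 0
      rw [aniso hab h1, Mz_zero]⟩
  haveI : IsDomain (SK a b) := NoZeroDivisors.to_isDomain _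
  let f : Rot a b →* SK a b :=
    { toFun := fun g => ⟨((g.1 : Matrix.GeneralLinearGroup I2 F) : Matrix I2 I2 F), by
        obtain ⟨z, _, hz⟩ := g.2
        exact ⟨z, hz⟩⟩
      map_one' := rfl
      map_mul' := fun _ _ => rfl }
  have hf : Function.Injective f := by
    intro g h hgh
    apply Subtype.ext; apply Subtype.ext; apply Units.ext
    exact congrArg Subtype.val hgh
  exact isCyclic_of_subgroup_isDomain f hf

theorem card_rot [Fintype F] {a b : F}
    (hab : ∀ z₁ z₂ : F, z₁ ^ 2 + a * z₁ * z₂ + b * z₂ ^ 2 = 0 → z₁ = 0 ∧ z₂ = 0) :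
    Nat.card (Rot a b) = Fintype.card F + 1 := by
  rw [← card_N1 hab]
  apply Nat.card_congr
  refine Equiv.symm (Equiv.ofBijective
    (fun z => ⟨⟨GLz a b z.1 z.2, GLz_mem a b z.1 z.2⟩, ⟨z.1, z.2, rfl⟩⟩) ⟨?_, ?_⟩)
  · intro z w h
    apply Subtype.ext
    have h' : Mz a b z.1 = Mz a b w.1 :=
      congrArg (fun g : Rot a b => ((g.1 : Matrix.GeneralLinearGroup I2 F) : Matrix I2 I2 F)) h
    exact Mz_inj a b h'
  · rintro ⟨g, z, hz, hg⟩
    refine ⟨⟨z, hz⟩, ?_⟩
    apply Subtype.ext; apply Subtype.ext; apply Units.ext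
    exact hg.symm

theorem Mz_ne_Cm [Fintype F] {a b : F}
    (hab : ∀ z₁ z₂ : F, z₁ ^ 2 + a * z₁ * z₂ + b * z₂ ^ 2 = 0 → z₁ = 0 ∧ z₂ = 0) (z : F × F) :
    Mz a b z ≠ Cm a := by
  intro h
  obtain ⟨e1, e2, e3, e4⟩ := mk2_inj h
  rw [e3] at e2 e4
  have ha : a = 0 := by linear_combination -e2
  have h2 : (2 : F) = 0 := by linear_combination e4 - e1
  have hchar : ringChar F = 2 := by
    by_contra hne
    exact Ring.two_ne_zero hne h2
  obtain ⟨s, hs⟩ := FiniteField.isSquare_of_char_two hchar b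
  have := (hab s 1 (by rw [ha, hs]; linear_combination s ^ 2 * h2)).2
  exact one_ne_zero this

end aux4

/-- GO^-_2(q) is dihedral of order 2(q+1). -/
theorem result {F : Type*} [Field F] [Fintype F] {q : ℕ} (hF : Fintype.card F = q) (a b : F) (hab : ∀ z₁ z₂ : F, z₁ ^ 2 + a * z₁ * z₂ + b * z₂ ^ 2 = 0 → z₁ = 0 ∧ z₂ = 0) : Nonempty (Cfsg.isometryGroup F (Cfsg.quadFormMinus 0 F a b) ≃* DihedralGroup (q + 1)) := by
  classical
  subst hF
  haveI := rot_cyclic hab
  have hcard := card_rot hab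
  let e : Multiplicative (ZMod (Fintype.card F + 1)) ≃* Rot a b :=
    hcard ▸ zmodCyclicMulEquiv (inferInstance : IsCyclic (Rot a b))
  let c : Cfsg.isometryGroup F (Cfsg.quadFormMinus 0 F a b) := ⟨GLc a, GLc_mem a b⟩
  refine dihedral_of _ ((Rot a b).subtype.comp e.toMonoidHom)
    ((Rot a b).subtype_injective.comp e.injective) c ?_ ?_ ?_ ?_
  · apply Subtype.ext; apply Units.ext
    exact Cm_mul_Cm a
  · intro u
    obtain ⟨z, hz, hg⟩ := (e u).2
    apply eq_inv_of_mul_eq_one_left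
    apply Subtype.ext; apply Units.ext
    show Cm a * (((e u).1 : Matrix.GeneralLinearGroup I2 F) : Matrix I2 I2 F) * Cm a *
      (((e u).1 : Matrix.GeneralLinearGroup I2 F) : Matrix I2 I2 F) = 1
    rw [hg, Cm_Mz_Cm, Mz_mul, mulK_comm, mulK_conj, hz, Mz_one]
  · intro u h
    obtain ⟨z, hz, hg⟩ := (e u).2
    apply Mz_ne_Cm hab z
    rw [← hg]
    exact congrArg (fun g : Cfsg.isometryGroup F (Cfsg.quadFormMinus 0 F a b) =>
      ((g : Matrix.GeneralLinearGroup I2 F) : Matrix I2 I2 F)) h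
  · rintro ⟨g, hg⟩
    obtain ⟨z, hz, h | h⟩ := classify hab g hg
    · left
      refine ⟨e.symm ⟨⟨g, hg⟩, z, hz, h⟩, ?_⟩
      show _ = ((e (e.symm _) : Rot a b) : Cfsg.isometryGroup F (Cfsg.quadFormMinus 0 F a b))
      rw [e.apply_symm_apply]
    · right
      refine ⟨e.symm ⟨⟨GLz a b z hz, GLz_mem a b z hz⟩, z, hz, rfl⟩, ?_⟩
      show _ = ((e (e.symm _) : Rot a b) : Cfsg.isometryGroup F (Cfsg.quadFormMinus 0 F a b)) * c
      rw [e.apply_symm_apply]
      apply Subtype.ext; apply Units.ext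
      exact h

end Cfsg.Agent.S0306
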