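import Mathlib
import Cfsg.Statements.S5627
import Cfsg.Agent.Lib.Helper3.StArc21

set_option autoImplicit false
open Cfsg

namespace Cfsg.Agent.S5627

open Cfsg.Agent.Lib.Helper3.Stq


/-- In a projective plane of order 4 (a Steiner system S(2, 5, 21)), call a set of points independent when no line meets it in more than two points. There are exactly 2520 independent 4-sets and exactly 168 independent 6-sets (hyperovals), and every independent 4-set lies in exactly one hyperoval. -/
theorem result {α : Type*} [Fintype α] [DecidableEq α] (hα : Fintype.card α = 21) (L : Set (Finset α)) (hL : Cfsg.IsSteinerSystem 2 5 L) : {S : Finset α | (S.card = 4 ∧ ∀ l ∈ L, (l ∩ S).card ≤ 2)}.ncard = 2520 ∧ {H : Finset α | (H.card = 6 ∧ ∀ l ∈ L, (l ∩ H).card ≤ 2)}.ncard = 168 ∧ ∀ S : Finset α, (S.card = 4 ∧ ∀ l ∈ L, (l ∩ S).card ≤ 2) → ∃! H : Finset α, (H.card = 6 ∧ ∀ l ∈ L, (l ∩ H).card ≤ 2) ∧ S ⊆ H := by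
  obtain ⟨e, he⟩ := iso_of_P D21.main hα hL
  refine ⟨?_, ?_, ?_⟩
  · rw [arc_ncard (by norm_num) e he 4 (by rw [D21.A4_eq]; exact D21.A4_nodup), D21.A4_eq]
    exact D21.A4_len
  · rw [arc_ncard (by norm_num) e he 6 (by rw [D21.A6_eq]; exact D21.A6_nodup), D21.A6_eq]
    exact D21.A6_len
  · exact arc_unique_ext (by norm_num) e he 4 6 (by rw [D21.A4_eq, D21.A6_eq]; exact D21.A46)

end Cfsg.Agent.S5627
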