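import Mathlib
import Cfsg.Statements.S5628
import Cfsg.Agent.Lib.Helper3.StH21

set_option autoImplicit false
open Cfsg

namespace Cfsg.Agent.S5628

open Cfsg.Agent.Lib.Helper3.Stq


/-- In a projective plane of order 4 (a Steiner system S(2, 5, 21)), every permutation of the six points of a hyperoval (a 6-set met by no line in more than two points) is the restriction of exactly one automorphism of the plane. In particular the stabiliser of a hyperoval in the automorphism group is isomorphic to the symmetric group of degree 6 acting faithfully on the hyperoval. -/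
theorem result {α : Type*} [Fintype α] [DecidableEq α] (hα : Fintype.card α = 21) (L : Set (Finset α)) (hL : Cfsg.IsSteinerSystem 2 5 L) (H : Finset α) (hH : (H.card = 6 ∧ ∀ l ∈ L, (l ∩ H).card ≤ 2)) (σ : Equiv.Perm ↥H) : ∃! g : Equiv.Perm α, g ∈ Cfsg.setSystemAut L ∧ ∀ p : ↥H, g p = σ p := by
  classical
  let f : Fin 6 ≃ H := (Finset.equivFinOfCardEq hH.1).symm
  let x : Fin 6 ↪ α := f.toEmbedding.trans (Function.Embedding.subtype _)
  let y : Fin 6 ↪ α := (f.trans σ).toEmbedding.trans (Function.Embedding.subtype _)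
  have hxi : Finset.univ.image x = H := by
    ext a
    rw [Finset.mem_image]
    constructor
    · rintro ⟨i, -, rfl⟩
      exact (f i).2
    · intro ha
      refine ⟨f.symm ⟨a, ha⟩, Finset.mem_univ _, ?_⟩
      show ((f (f.symm ⟨a, ha⟩) : H) : α) = a
      rw [Equiv.apply_symm_apply]
  have hyi : Finset.univ.image y = H := by
    ext a
    rw [Finset.mem_image]
    constructor
    · rintro ⟨i, -, rfl⟩
      exact (σ (f i)).2
    · intro ha
      refine ⟨f.symm (σ.symm ⟨a, ha⟩), Finset.mem_univ _, ?_⟩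
      show ((σ (f (f.symm (σ.symm ⟨a, ha⟩))) : H) : α) = a
      rw [Equiv.apply_symm_apply, Equiv.apply_symm_apply]
  obtain ⟨e1, h1, hx⟩ := iso_of_PC H21.main hα hL x (by rw [hxi]; exact hH.2)
  obtain ⟨e2, h2, hy⟩ := iso_of_PC H21.main hα hL y (by rw [hyi]; exact hH.2)
  have hmem : e1.trans e2.symm ∈ setSystemAut L := by
    rw [mem_aut_iff]
    intro b
    have k1 := mem_image_iff e1 h1 (b.image e1)
    have k2 := mem_image_iff e2 h2 (b.image e1)
    have e3 : (b.image e1).image e1.symm = b := by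
      rw [Finset.image_image]; simp
    have e4 : (b.image e1).image e2.symm = b.image (e1.trans e2.symm) := by
      rw [Finset.image_image]; rfl
    rw [e3] at k1
    rw [e4] at k2
    rw [← k2, k1]
  have hg0 : ∀ i : Fin 6, (e1.trans e2.symm) (x i) = y i := by
    intro i
    show e2.symm (e1 (x i)) = y i
    rw [Equiv.symm_apply_eq]
    apply Fin.ext
    rw [hx, hy]
  refine ⟨e1.trans e2.symm, ⟨hmem, ?_⟩, ?_⟩
  · intro p
    obtain ⟨i, rfl⟩ := f.surjective p
    exact hg0 i
  · rintro g ⟨hg, hgp⟩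
    have hS : IsSteinerSystem 2 5 (setOf' 21 H21.B0) := h1 ▸ steiner_image e1 hL
    have hmem2 : (e1.trans e2.symm : Equiv.Perm α)⁻¹ * g ∈ setSystemAut L :=
      mul_mem (inv_mem hmem) hg
    have hτ := (permCongr_mem e1 h1 _).mpr hmem2
    have h3 : e1.permCongr ((e1.trans e2.symm : Equiv.Perm α)⁻¹ * g) = 1 := by
      apply H21.rigid hS _ (fun b hb => (mem_aut_iff.mp hτ b).mpr hb)
      intro i hi
      have hxi' : e1 (x ⟨i, hi⟩) = i := Fin.ext (hx ⟨i, hi⟩)
      have hgx : g (x ⟨i, hi⟩) = y ⟨i, hi⟩ := hgp (f ⟨i, hi⟩)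
      rw [Equiv.permCongr_apply, ← hxi', Equiv.symm_apply_apply, Equiv.Perm.mul_apply, hgx,
        ← hg0]
      simp
    have h4 : (e1.trans e2.symm : Equiv.Perm α)⁻¹ * g = 1 := by
      ext a
      have h5 := DFunLike.congr_fun h3 (e1 a)
      rw [Equiv.permCongr_apply, Equiv.symm_apply_apply, Equiv.Perm.one_apply] at h5
      exact e1.injective h5
    exact (inv_mul_eq_one.mp h4).symm

end Cfsg.Agent.S5628
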