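import Cfsg.Statements.S0543
import Mathlib
import Cfsg.Agent.Lib.Helper4.CompSys

set_option autoImplicit false
open Pointwise
open Cfsg

namespace Cfsg.Agent.S0543

/-- In a finite solvable group any two Hall complement systems are simultaneously conjugate: one element conjugates every member of the first system to the corresponding member of the second. -/
theorem result {G : Type*} [Group G] [Finite G] [Group.IsSolvable G] (K L : Nat.Primes → Subgroup G) (hK : Cfsg.IsComplementSystem K) (hL : Cfsg.IsComplementSystem L) : ∃ g : G, ∀ p : Nat.Primes, MulAut.conj g • K p = L p := by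
  classical
  choose a ha using fun p => Lib.Helper4.compSys_conj_one K L hK hL p
  obtain ⟨g, hg⟩ := Lib.Helper4.exists_mem_cosets (fun p => Subgroup.normalizer (K p : Set G)) a
    (Lib.Helper4.primesOf G)
    (fun p _ q _ hpq => Lib.Helper4.compSys_normalizer_coprime K hK p q hpq)
  refine ⟨g, fun p => ?_⟩
  by_cases hp : (p : ℕ) ∣ Nat.card G
  · have h1 := hg p ((Lib.Helper4.mem_primesOf p).mpr hp)
    have h2 := Lib.Helper4.conj_smul_eq_self_iff_mem_normalizer.mpr h1
    rw [← ha p]
    conv_rhs => rw [← h2]
    rw [← mul_smul, ← map_mul]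
    congr 2
    group
  · rw [Lib.Helper4.compSys_eq_top K hK p hp, Lib.Helper4.compSys_eq_top L hL p hp]
    exact Subgroup.Normal.conj_smul_eq_self g ⊤

end Cfsg.Agent.S0543
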