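import Cfsg.Statements.S0545
import Mathlib
import Cfsg.Agent.Lib.Helper4.CompSys

set_option autoImplicit false
open Cfsg

namespace Cfsg.Agent.S0545

open scoped Pointwise in
theorem step {G : Type*} [Group G] [Finite G] [Group.IsSolvable G] (K : Nat.Primes → Subgroup G)
    (hK : Cfsg.IsComplementSystem K) (N : Subgroup G) [hN : N.Normal] (p : Nat.Primes) (x : G)
    (hx : QuotientGroup.mk' N x ∈ Subgroup.normalizer (((K p).map (QuotientGroup.mk' N) : Subgroup (G ⧸ N)) : Set (G ⧸ N))) :
    ∃ n ∈ N, x * n ∈ Subgroup.normalizer (K p : Set G) := by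
  have hsurj := QuotientGroup.mk'_surjective N
  have h1 : x ∈ Subgroup.normalizer ((K p ⊔ N : Subgroup G) : Set G) := by
    have : x ∈ (Subgroup.normalizer (((K p).map (QuotientGroup.mk' N) : Subgroup (G ⧸ N)) : Set (G ⧸ N))).comap
      (QuotientGroup.mk' N) := hx
    rwa [Subgroup.comap_normalizer_eq_of_surjective _ hsurj, Subgroup.comap_map_eq,
      QuotientGroup.ker_mk'] at this
  have h2 : MulAut.conj x • K p ≤ K p ⊔ N := by
    rw [← Lib.Helper4.conj_smul_eq_self_iff_mem_normalizer.mpr h1]
    exact Subgroup.pointwise_smul_le_pointwise_smul_iff.mpr le_sup_left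
  have hcard : Nat.card (K p) = Nat.card (MulAut.conj x • K p : Subgroup G) :=
    Nat.card_congr (Subgroup.equivSMul (MulAut.conj x) (K p)).toEquiv
  have hcop : (Nat.card (K p)).Coprime ((K p).relIndex (K p ⊔ N)) :=
    Nat.Coprime.coprime_dvd_right (Subgroup.relIndex_dvd_index_of_le le_sup_left)
      (Lib.Helper4.compSys_coprime K hK p)
  obtain ⟨m, hm, e⟩ := Lib.Helper4.hall_conj_rel (K p ⊔ N) (K p) (MulAut.conj x • K p) le_sup_left h2
    hcard hcop
  rw [sup_comm, Subgroup.mem_sup_of_normal_left] at hm
  obtain ⟨n, hn, k, hk, rfl⟩ := hm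
  rw [map_mul, mul_smul, Subgroup.conj_smul_eq_self_of_mem hk] at e
  have h3 : MulAut.conj (n⁻¹ * x) • K p = K p := by
    rw [map_mul, mul_smul, ← e, ← mul_smul, ← map_mul, inv_mul_cancel, map_one, one_smul]
  refine ⟨x⁻¹ * n⁻¹ * x, ?_, ?_⟩
  · have := hN.conj_mem n⁻¹ (N.inv_mem hn) x⁻¹
    simpa using this
  · have h4 := Lib.Helper4.conj_smul_eq_self_iff_mem_normalizer.mp h3
    convert h4 using 1
    group

/-- Let K be a Hall complement system of a finite solvable group G and N a normal subgroup. Then the images of the K p in G modulo N form a Hall complement system of the quotient, and its system normalizer is the image of the system normalizer of K. -/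
theorem result {G : Type*} [Group G] [Finite G] [Group.IsSolvable G] (K : Nat.Primes → Subgroup G) (hK : Cfsg.IsComplementSystem K) (N : Subgroup G) [N.Normal] : Cfsg.IsComplementSystem (fun p => (K p).map (QuotientGroup.mk' N)) ∧ Cfsg.systemNormalizer (fun p => (K p).map (QuotientGroup.mk' N)) = (Cfsg.systemNormalizer K).map (QuotientGroup.mk' N) := by
  classical
  have hsurj := QuotientGroup.mk'_surjective N
  constructor
  · intro p
    have hp := p.2
    have h1 : ((K p).map (QuotientGroup.mk' N)).index ∣ (p : ℕ) ^ (Nat.card G).factorization p := by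
      rw [← hK p]; exact Subgroup.index_map_dvd _ hsurj
    obtain ⟨b, -, hb⟩ := (Nat.dvd_prime_pow hp).mp h1
    have h2 : ¬ (p : ℕ) ∣ Nat.card ((K p).map (QuotientGroup.mk' N)) := fun hd =>
      Lib.Helper4.compSys_not_dvd_card K hK p (hd.trans (Subgroup.card_map_dvd _ _))
    have h3 := Subgroup.card_mul_index ((K p).map (QuotientGroup.mk' N))
    change ((K p).map (QuotientGroup.mk' N)).index = _
    rw [← h3, hb, Nat.factorization_mul Nat.card_pos.ne' (pow_ne_zero _ hp.ne_zero), Finsupp.add_apply,
      Nat.factorization_eq_zero_of_not_dvd h2, Nat.factorization_pow, Finsupp.smul_apply,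
      hp.factorization_self]
    simp
  · apply le_antisymm
    · intro y hy
      obtain ⟨x, rfl⟩ := hsurj y
      have hy' : ∀ p : Nat.Primes, QuotientGroup.mk' N x ∈ Subgroup.normalizer
          (((K p).map (QuotientGroup.mk' N) : Subgroup (G ⧸ N)) : Set (G ⧸ N)) := by
        intro p
        exact Subgroup.mem_iInf.mp hy p
      choose a ha ha' using fun p => step K hK N p x (hy' p)
      obtain ⟨g, hg⟩ := Lib.Helper4.exists_mem_cosets
        (fun p => (Subgroup.normalizer (K p : Set G)).subgroupOf N) (fun p => (⟨a p, ha p⟩ : N))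
        (Lib.Helper4.primesOf G) (by
          intro p _ q _ hpq
          exact Nat.Coprime.coprime_dvd_left (Lib.Helper4.relIndex_dvd_index_of_normal_right _ N)
            (Nat.Coprime.coprime_dvd_right (Lib.Helper4.relIndex_dvd_index_of_normal_right _ N)
              (Lib.Helper4.compSys_normalizer_coprime K hK p q hpq)))
      refine ⟨x * g, ?_, ?_⟩
      · rw [SetLike.mem_coe]
        apply Subgroup.mem_iInf.mpr
        intro p
        by_cases hp : (p : ℕ) ∣ Nat.card G
        · have h1 := hg p ((Lib.Helper4.mem_primesOf p).mpr hp)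
          have h2 : (a p)⁻¹ * (g : G) ∈ Subgroup.normalizer (K p : Set G) := Subgroup.mem_subgroupOf.mp h1
          have h3 : x * (g : G) = (x * a p) * ((a p)⁻¹ * (g : G)) := by group
          rw [h3]
          exact mul_mem (ha' p) h2
        · rw [Lib.Helper4.compSys_eq_top K hK p hp]
          have : Subgroup.normalizer ((⊤ : Subgroup G) : Set G) = ⊤ :=
            Subgroup.normalizer_eq_top_iff.mpr inferInstance
          rw [this]; trivial
      · rw [map_mul]
        have : QuotientGroup.mk' N (g : G) = 1 := (QuotientGroup.eq_one_iff _).mpr g.2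
        rw [this, mul_one]
    · rintro _ ⟨d, hd, rfl⟩
      apply Subgroup.mem_iInf.mpr
      intro p
      apply Subgroup.le_normalizer_map
      exact ⟨d, Subgroup.mem_iInf.mp hd p, rfl⟩

end Cfsg.Agent.S0545
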