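import Cfsg.Statements.S0640
import Mathlib
import Cfsg.Agent.Lib.Helper5.Thompson
import Cfsg.Agent.S0093
import Cfsg.Agent.S0121
import Cfsg.Agent.S0120
import Cfsg.Agent.S0096

set_option autoImplicit false
open Cfsg

namespace Cfsg.Agent.S0640

/-- restriction of an automorphism to an invariant subgroup -/
noncomputable def resAut {R : Type*} [Group R] [Finite R] (a : MulAut R) (U : Subgroup R)
    (hU : ∀ x ∈ U, a x ∈ U) : MulAut U :=
  MulEquiv.ofBijective ((a.toMonoidHom.comp U.subtype).codRestrict U (fun x => hU x x.2))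
    (Finite.injective_iff_bijective.mp (by
      intro x y h
      have h1 : a (x : R) = a (y : R) := congrArg Subtype.val h
      exact Subtype.ext (a.injective h1)))

theorem resAut_apply {R : Type*} [Group R] [Finite R] (a : MulAut R) (U : Subgroup R)
    (hU : ∀ x ∈ U, a x ∈ U) (x : U) : ((resAut a U hU x : U) : R) = a x := rfl

theorem resAut_pow {R : Type*} [Group R] [Finite R] (a : MulAut R) (U : Subgroup R)
    (hU : ∀ x ∈ U, a x ∈ U) (n : ℕ) (x : U) : (((resAut a U hU) ^ n) x : R) = (a ^ n) x := by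
  induction n generalizing x with
  | zero => simp
  | succ n ih =>
    rw [pow_succ, pow_succ, MulAut.mul_apply, MulAut.mul_apply, ih, resAut_apply]

theorem resAut_pow_eq_one {R : Type*} [Group R] [Finite R] (a : MulAut R) (U : Subgroup R)
    (hU : ∀ x ∈ U, a x ∈ U) (n : ℕ) (h : a ^ n = 1) : (resAut a U hU) ^ n = 1 := by
  ext x
  rw [resAut_pow, h]
  simp

/-- fixed points of an automorphism -/
def fixSub {R : Type*} [Group R] (a : MulAut R) : Subgroup R where
  carrier := {x | a x = x}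
  mul_mem' := by
    intro x y hx hy
    show a (x * y) = x * y
    rw [map_mul, hx, hy]
  one_mem' := map_one a
  inv_mem' := by
    intro x hx
    show a x⁻¹ = x⁻¹
    rw [map_inv, hx]

theorem mem_fixSub {R : Type*} [Group R] (a : MulAut R) (x : R) : x ∈ fixSub a ↔ a x = x := Iff.rfl

theorem card_modEq {R : Type*} [Group R] [Finite R] (a : MulAut R) (U : Subgroup R)
    (hU : ∀ x ∈ U, a x ∈ U) (q : ℕ) [Fact q.Prime] (hq : a ^ q = 1) :
    Nat.card U ≡ Nat.card ↥(U ⊓ fixSub a) [MOD q] := by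
  obtain ⟨b, hb⟩ : ∃ b, b = resAut a U hU := ⟨_, rfl⟩
  have hbq : b ^ q = 1 := by rw [hb]; exact resAut_pow_eq_one a U hU q hq
  have hbx : ∀ x : U, ((b x : U) : R) = a x := by intro x; rw [hb]; rfl
  have hZ : IsPGroup q (Subgroup.zpowers b) := by
    rintro ⟨g, hg⟩
    obtain ⟨n, rfl⟩ := Subgroup.mem_zpowers_iff.mp hg
    refine ⟨1, ?_⟩
    apply Subtype.ext
    show (b ^ n) ^ q ^ 1 = 1
    rw [pow_one, ← zpow_natCast, ← zpow_mul, mul_comm, zpow_mul, zpow_natCast, hbq, one_zpow]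
  have h1 := hZ.card_modEq_card_fixedPoints U
  have h2 : Nat.card ↑(MulAction.fixedPoints (Subgroup.zpowers b) U)
      = Nat.card ↥(U ⊓ fixSub a) := by
    apply Nat.card_congr
    refine ⟨fun x => ⟨x.1.1, x.1.2, ?_⟩, fun x => ⟨⟨x.1, x.2.1⟩, ?_⟩, ?_, ?_⟩
    · have h3 := x.2 ⟨b, Subgroup.mem_zpowers b⟩
      have h4 : b x.1 = x.1 := h3
      have h5 := congrArg Subtype.val h4
      rw [hbx] at h5
      exact h5
    · have h3 : b ∈ MulAction.stabilizer (MulAut U) (⟨x.1, x.2.1⟩ : U) := by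
        rw [MulAction.mem_stabilizer_iff]
        show b ⟨x.1, x.2.1⟩ = ⟨x.1, x.2.1⟩
        apply Subtype.ext
        rw [hbx]
        exact x.2.2
      intro g
      have h4 := (Subgroup.zpowers_le.mpr h3) g.2
      exact MulAction.mem_stabilizer_iff.mp h4
    · intro x; rfl
    · intro x; rfl
  rw [h2] at h1
  exact h1

theorem arith {p q i j : ℕ} (hp : p.Prime) (hq : q.Prime) (hqp : q ≠ p) (hij : i < j)
    (hj : j ≤ i + 2) (h : q ∣ p ^ j - p ^ i) : q ∣ p ^ 2 - 1 := by
  obtain ⟨k, rfl⟩ : ∃ k, j = i + k := ⟨j - i, by omega⟩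
  have h1 : p ^ (i + k) - p ^ i = p ^ i * (p ^ k - 1) := by
    rw [pow_add, Nat.mul_sub, mul_one]
  rw [h1] at h
  have hc : Nat.Coprime q (p ^ i) := Nat.Coprime.pow_right i ((Nat.coprime_primes hq hp).mpr hqp)
  have h2 := hc.dvd_of_dvd_mul_left h
  have hk : k = 1 ∨ k = 2 := by omega
  rcases hk with rfl | rfl
  · rw [pow_one] at h2
    have : p ^ 2 - 1 = (p + 1) * (p - 1) := by
      have := Nat.sq_sub_sq p 1
      simpa using this
    rw [this]
    exact Dvd.dvd.mul_left h2 _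
  · exact h2

theorem arith2 {p q : ℕ} (hp : p.Prime) (hp2 : p ≠ 2) (hq : q.Prime) (hqp : q ≠ p)
    (h : q ∣ p ^ 2 - 1) : q < p := by
  have h0 : p ^ 2 - 1 = (p + 1) * (p - 1) := by
    have := Nat.sq_sub_sq p 1
    simpa using this
  rw [h0] at h
  have hp1 := hp.one_lt
  rcases (Nat.Prime.dvd_mul hq).mp h with h1 | h1
  · have h2 := Nat.le_of_dvd (by omega) h1
    by_contra hcon
    have h3 : q = p + 1 := by omega
    obtain ⟨k, hk⟩ := hp.odd_of_ne_two hp2
    have h4 : 2 ∣ q := ⟨k + 1, by omega⟩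
    rcases hq.eq_one_or_self_of_dvd 2 h4 with h5 | h5
    · omega
    · omega
  · have h2 := Nat.le_of_dvd (by omega) h1
    omega
open scoped commutatorElement in
open Cfsg.Agent.Lib.Helper5 in
theorem core {R : Type*} [Group R] [Finite R] {p : ℕ} [Fact p.Prime] (hR : IsPGroup p R)
    (hrk : Cfsg.PRankLE p 2 R) (q : ℕ) [Fact q.Prime] (hqp : q ≠ p) (a : MulAut R) (haq : a ^ q = 1)
    (D : Subgroup R) (hDa : ∀ x ∈ D, a x ∈ D) (hDexp : ∀ x ∈ D, x ^ p = 1)
    (hDcl : ⁅D, D⁆ ≤ Subgroup.centralizer (D : Set R)) (y : R) (hyD : y ∈ D) (hay : a y ≠ y) :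
    q ∣ p ^ 2 - 1 := by
  have hp : p.Prime := Fact.out
  have hq : q.Prime := Fact.out
  obtain ⟨Z, hZ⟩ : ∃ Z, Z = D ⊓ Subgroup.centralizer (D : Set R) := ⟨_, rfl⟩
  have hZD : Z ≤ D := by rw [hZ]; exact inf_le_left
  have hZc : ∀ z ∈ Z, ∀ d ∈ D, d * z = z * d := by
    intro z hz d hd
    rw [hZ] at hz
    exact Subgroup.mem_centralizer_iff.mp hz.2 d hd
  have hZe : Cfsg.IsElementaryAbelian p Z := by
    refine ⟨⟨⟨fun x y => Subtype.ext (hZc y.1 y.2 x.1 (hZD x.2))⟩⟩, fun z hz => hDexp z (hZD hz)⟩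
  have hcardpow : ∀ U : Subgroup R, ∃ k, Nat.card U = p ^ k :=
    fun U => IsPGroup.iff_card.mp (hR.to_subgroup U)
  have fin : ∀ U : Subgroup R, (∀ x ∈ U, a x ∈ U) → (∃ u ∈ U, a u ≠ u) →
      (Nat.card U ≤ p ^ 2 * Nat.card ↥(U ⊓ fixSub a)) → q ∣ p ^ 2 - 1 := by
    intro U hU ⟨u, huU, hu⟩ hle
    obtain ⟨j, hj⟩ := hcardpow U
    obtain ⟨i, hi⟩ := hcardpow (U ⊓ fixSub a)
    have hlt : Nat.card ↥(U ⊓ fixSub a) < Nat.card U := by
      apply lt_of_le_of_ne (Subgroup.card_le_of_le inf_le_left)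
      intro heq
      have := Subgroup.eq_of_le_of_card_ge (inf_le_left : U ⊓ fixSub a ≤ U) heq.ge
      have h2 : u ∈ U ⊓ fixSub a := by rw [this]; exact huU
      exact hu h2.2
    have hmod := card_modEq a U hU q haq
    rw [hi, hj] at hlt hle hmod
    have hij : i < j := (Nat.pow_lt_pow_iff_right hp.one_lt).mp hlt
    have hj2 : j ≤ i + 2 := by
      rw [← pow_add] at hle
      have := (Nat.pow_le_pow_iff_right hp.one_lt).mp hle
      omega
    have := (Nat.modEq_iff_dvd' hlt.le).mp hmod.symm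
    exact arith hp hq hqp hij hj2 this
  have hcomm : ∀ d ∈ D, ∀ e ∈ D, d * e * d⁻¹ * e⁻¹ ∈ Z := by
    intro d hd e he
    rw [hZ]
    refine ⟨D.mul_mem (D.mul_mem (D.mul_mem hd he) (D.inv_mem hd)) (D.inv_mem he), ?_⟩
    exact hDcl (Subgroup.commutator_mem_commutator hd he)
  by_cases hcase : ∃ z ∈ Z, a z ≠ z
  · apply fin Z ?_ hcase ?_
    · intro z hz
      rw [hZ]
      refine ⟨hDa z (hZD hz), ?_⟩
      show a z ∈ Subgroup.centralizer (D : Set R)
      rw [Subgroup.mem_centralizer_iff]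
      intro d hd
      obtain ⟨d', hd'⟩ := (resAut a D hDa).surjective ⟨d, hd⟩
      have h1 : a (d' : R) = d := congrArg Subtype.val hd'
      rw [← h1, ← map_mul, ← map_mul, hZc z hz d' d'.2]
    · calc Nat.card Z ≤ p ^ 2 := hrk Z hZe.1 hZe.2
        _ ≤ _ := Nat.le_mul_of_pos_right _ Nat.card_pos
  · push Not at hcase
    have hyZ : y ∉ Z := fun h => hay (hcase y h)
    have hZbot : Z ≠ ⊥ := by
      intro hb
      apply hyZ
      rw [hZ]
      refine ⟨hyD, ?_⟩
      show y ∈ Subgroup.centralizer (D : Set R)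
      rw [Subgroup.mem_centralizer_iff]
      intro d hd
      have h1 := hcomm d hd y hyD
      rw [hb, Subgroup.mem_bot] at h1
      calc d * y = (d * y * d⁻¹ * y⁻¹) * (y * d) := by group
        _ = y * d := by rw [h1, one_mul]
    obtain ⟨M, hM⟩ : ∃ M, M = Z ⊔ Subgroup.zpowers y := ⟨_, rfl⟩
    have hMe : Cfsg.IsElementaryAbelian p M := by
      rw [hM]
      exact elemAb_sup hZe (elemAb_zpowers (hDexp y hyD)) (by
        rw [Subgroup.zpowers_le, Subgroup.mem_centralizer_iff]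
        intro z hz
        exact (hZc z hz y hyD).symm)
    obtain ⟨z', hz'⟩ := hcardpow Z
    obtain ⟨m, hm⟩ := hcardpow M
    have hZM : Z ≤ M := by rw [hM]; exact le_sup_left
    have hyM : y ∈ M := by
      rw [hM]; exact (le_sup_right : Subgroup.zpowers y ≤ _) (Subgroup.mem_zpowers y)
    have hlt : Nat.card Z < Nat.card M :=
      lt_of_le_of_ne (Subgroup.card_le_of_le hZM)
        (fun heq => hyZ (by rw [Subgroup.eq_of_le_of_card_ge hZM heq.ge]; exact hyM))
    have hM2 : Nat.card M ≤ p ^ 2 := hrk M hMe.1 hMe.2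
    have hz1 : 1 ≤ z' := by
      by_contra hcon
      have h0 : z' = 0 := by omega
      rw [h0, pow_zero] at hz'
      exact hZbot (Subgroup.card_eq_one.mp hz')
    rw [hz', hm] at hlt
    rw [hm] at hM2
    have h1 : z' < m := (Nat.pow_lt_pow_iff_right hp.one_lt).mp hlt
    have h2 : m ≤ 2 := (Nat.pow_le_pow_iff_right hp.one_lt).mp hM2
    have hz'1 : z' = 1 := by omega
    have hm2 : m = 2 := by omega
    have hCy : ∀ w ∈ D, w * y = y * w → w ∈ M := by
      intro w hw hwy
      have hMw : M ≤ Subgroup.centralizer ({w} : Set R) := by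
        rw [hM]
        apply sup_le
        · intro z hz
          rw [Subgroup.mem_centralizer_singleton_iff]
          exact (hZc z hz w hw).symm
        · rw [Subgroup.zpowers_le, Subgroup.mem_centralizer_singleton_iff]
          exact hwy.symm
      have he : Cfsg.IsElementaryAbelian p (M ⊔ Subgroup.zpowers w) :=
        elemAb_sup hMe (elemAb_zpowers (hDexp w hw)) (by
          rw [Subgroup.zpowers_le, Subgroup.mem_centralizer_iff]
          intro x hx
          exact Subgroup.mem_centralizer_singleton_iff.mp (hMw hx))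
      have hc := hrk _ he.1 he.2
      have h3 : M = M ⊔ Subgroup.zpowers w :=
        Subgroup.eq_of_le_of_card_ge le_sup_left (by rw [hm, hm2]; exact hc)
      rw [h3]
      exact (le_sup_right : Subgroup.zpowers w ≤ _) (Subgroup.mem_zpowers w)
    let φ : D →* Z := MonoidHom.mk'
      (fun d => ⟨d.1 * y * d.1⁻¹ * y⁻¹, hcomm d.1 d.2 y hyD⟩) (by
      intro d e
      apply Subtype.ext
      show (d.1 * e.1) * y * (d.1 * e.1)⁻¹ * y⁻¹
        = (d.1 * y * d.1⁻¹ * y⁻¹) * (e.1 * y * e.1⁻¹ * y⁻¹)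
      have h1 := hZc _ (hcomm e.1 e.2 y hyD) (y * d.1⁻¹ * y⁻¹)
        (D.mul_mem (D.mul_mem hyD (D.inv_mem d.2)) (D.inv_mem hyD))
      calc (d.1 * e.1) * y * (d.1 * e.1)⁻¹ * y⁻¹
          = d.1 * ((e.1 * y * e.1⁻¹ * y⁻¹) * (y * d.1⁻¹ * y⁻¹)) := by group
        _ = d.1 * ((y * d.1⁻¹ * y⁻¹) * (e.1 * y * e.1⁻¹ * y⁻¹)) := by rw [h1]
        _ = _ := by group)
    have hker : φ.ker.map D.subtype ≤ M := by
      rintro _ ⟨d, hd, rfl⟩
      apply hCy d.1 d.2
      have h1 : d.1 * y * d.1⁻¹ * y⁻¹ = 1 := congrArg Subtype.val (MonoidHom.mem_ker.mp hd)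
      calc d.1 * y = (d.1 * y * d.1⁻¹ * y⁻¹) * (y * d.1) := by group
        _ = y * d.1 := by rw [h1, one_mul]
    have hcardD : Nat.card D ≤ p ^ 2 * p := by
      rw [← Subgroup.card_mul_index φ.ker, Subgroup.index_ker]
      apply Nat.mul_le_mul
      · rw [← Subgroup.card_map_of_injective D.subtype_injective, ← hm2, ← hm]
        exact Subgroup.card_le_of_le hker
      · calc Nat.card φ.range ≤ Nat.card Z := Subgroup.card_le_card_group _
          _ = p := by rw [hz', hz'1, pow_one]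
    apply fin D hDa ⟨y, hyD, hay⟩
    have hZF : Z ≤ D ⊓ fixSub a := le_inf hZD (fun z hz => hcase z hz)
    calc Nat.card D ≤ p ^ 2 * p := hcardD
      _ = p ^ 2 * Nat.card Z := by rw [hz', hz'1, pow_one]
      _ ≤ _ := Nat.mul_le_mul_left _ (Subgroup.card_le_of_le hZF)

/-- For odd p, a prime q ≠ p dividing the order of the automorphism group of a p-group of rank at most 2 divides p² - 1 and is less than p. -/
theorem result {R : Type*} [Group R] [Finite R] {p : ℕ} [Fact p.Prime] (hp : p ≠ 2) (hR : IsPGroup p R) (hrk : Cfsg.PRankLE p 2 R) (q : ℕ) (hq : q.Prime) (hqp : q ≠ p) (hdvd : q ∣ Nat.card (MulAut R)) : q ∣ p ^ 2 - 1 ∧ q < p := by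
  classical
  haveI : Fact q.Prime := ⟨hq⟩
  have hpp : p.Prime := Fact.out
  obtain ⟨a, ha⟩ := exists_prime_orderOf_dvd_card' q hdvd
  have haq : a ^ q = 1 := by rw [← ha]; exact pow_orderOf_eq_one a
  have hcop : Nat.Coprime q p := (Nat.coprime_primes hq hpp).mpr hqp
  obtain ⟨H, hHc, h1, h2, h3⟩ := Cfsg.Agent.S0093.result hR
  have hHa : ∀ x ∈ H, a x ∈ H := by
    intro x hx
    have := hHc.fixed a
    have h4 : x ∈ H.comap a.toMonoidHom := by rw [this]; exact hx
    exact h4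
  have hex : ∃ x ∈ H, a x ≠ x := by
    by_contra hcon
    push Not at hcon
    have := Cfsg.Agent.S0121.result hR H hHc h1 h2 h3 a (by rw [ha]; exact hcop) hcon
    rw [this, orderOf_one] at ha
    exact hq.one_lt.ne ha
  obtain ⟨x, hxH, hx⟩ := hex
  have hey : ∃ y : H, y ^ p = 1 ∧ resAut a H hHa y ≠ y := by
    by_contra hcon
    push Not at hcon
    have hb := Cfsg.Agent.S0120.result hp (hR.to_subgroup H) (resAut a H hHa)
      (Nat.Coprime.coprime_dvd_left
        (orderOf_dvd_of_pow_eq_one (resAut_pow_eq_one a H hHa q haq)) hcop) hcon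
    apply hx
    have h5 := resAut_apply a H hHa ⟨x, hxH⟩
    rw [hb] at h5
    exact h5.symm
  obtain ⟨y, hyp, hy⟩ := hey
  obtain ⟨D, hD⟩ : ∃ D, D = Subgroup.closure {x : R | x ∈ H ∧ x ^ p = 1} := ⟨_, rfl⟩
  have hDH : D ≤ H := by
    rw [hD, Subgroup.closure_le]
    intro x hx
    exact hx.1
  have hcl : ⁅commutator H, (⊤ : Subgroup H)⁆ = ⊥ := by
    rw [Subgroup.commutator_eq_bot_iff_le_centralizer, commutator_def, Subgroup.commutator_le]
    intro g₁ _ g₂ _
    rw [Subgroup.mem_centralizer_iff]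
    intro h _
    apply Subtype.ext
    have h6 := (h2 (Subgroup.commutator_mem_commutator g₁.2 (Subgroup.mem_top (g₂ : R)))).2
    exact Subgroup.mem_centralizer_iff.mp h6 h h.2
  have hDexp : ∀ d ∈ D, d ^ p = 1 := by
    have hle : D ≤ (Subgroup.closure {x : H | x ^ p = 1}).map H.subtype := by
      rw [hD, Subgroup.closure_le]
      intro x hx
      refine ⟨⟨x, hx.1⟩, Subgroup.subset_closure ?_, rfl⟩
      exact Subtype.ext hx.2
    intro d hd
    obtain ⟨g, hg, rfl⟩ := hle hd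
    have := Cfsg.Agent.S0096.result hp (hR.to_subgroup H) hcl g hg
    exact congrArg Subtype.val this
  have hDa : ∀ d ∈ D, a d ∈ D := by
    have hle : D ≤ D.comap a.toMonoidHom := by
      conv_lhs => rw [hD]
      rw [Subgroup.closure_le]
      intro x hx
      show a x ∈ D
      rw [hD]
      apply Subgroup.subset_closure
      refine ⟨hHa x hx.1, ?_⟩
      rw [← map_pow, hx.2, map_one]
    intro d hd
    exact hle hd
  have hDcl : ⁅D, D⁆ ≤ Subgroup.centralizer (D : Set R) :=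
    (Subgroup.commutator_mono hDH le_top).trans ((h2.trans inf_le_right).trans
      (Subgroup.centralizer_le (SetLike.coe_subset_coe.mpr hDH)))
  have hyD : (y : R) ∈ D := by
    rw [hD]
    exact Subgroup.subset_closure ⟨y.2, congrArg Subtype.val hyp⟩
  have hay : a (y : R) ≠ y := by
    intro h
    apply hy
    exact Subtype.ext h
  have hfin := core hR hrk q hqp a haq D hDa hDexp hDcl y hyD hay
  exact ⟨hfin, arith2 hpp hp hq hqp hfin⟩

end Cfsg.Agent.S0640
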