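import Cfsg.Statements.S0600
import Cfsg.Agent.Lib.Helper5.PCore

set_option autoImplicit false
open Cfsg

namespace Cfsg.Agent.S0600

/-- A normal elementary abelian p-subgroup generated by the fixed points of the Sylow p-subgroups admits no nontrivial normal p-subgroup of G modulo its centralizer. -/
theorem result {G : Type*} [Group G] [Finite G] {p : ℕ} [Fact p.Prime] (V : Subgroup G) [V.Normal] (hV : Cfsg.IsElementaryAbelian p V) (hgen : V = ⨆ S : Sylow p G, V ⊓ Subgroup.centralizer ((S : Subgroup G) : Set G)) : Cfsg.pCore p (G ⧸ Subgroup.centralizer (V : Set G)) = ⊥ := by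
  unfold Cfsg.pCore
  rw [sSup_eq_bot]
  rintro N ⟨hNn, hNp⟩
  rw [eq_bot_iff]
  intro q hq
  obtain ⟨x, rfl⟩ := QuotientGroup.mk'_surjective _ q
  rw [Subgroup.mem_bot, QuotientGroup.mk'_apply, QuotientGroup.eq_one_iff]
  have hs : Function.Surjective (QuotientGroup.mk' (Subgroup.centralizer (V : Set G))) :=
    QuotientGroup.mk'_surjective _
  have key : ∀ S : Sylow p G, V ⊓ Subgroup.centralizer ((S : Subgroup G) : Set G) ≤
      Subgroup.centralizer ({x} : Set G) := by
    intro S v hv
    have h1 : QuotientGroup.mk' (Subgroup.centralizer (V : Set G)) x ∈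
        ((S.mapSurjective hs : Sylow p _) : Subgroup (G ⧸ Subgroup.centralizer (V : Set G))) :=
      Cfsg.Agent.Lib.Helper5.normal_pgroup_le_sylow hNn hNp _ hq
    obtain ⟨s, hs', hsx⟩ := h1
    have h2 : s⁻¹ * x ∈ Subgroup.centralizer (V : Set G) := QuotientGroup.eq.mp hsx
    rw [Subgroup.mem_centralizer_singleton_iff]
    have h3 : v * (s⁻¹ * x) = (s⁻¹ * x) * v := h2 v hv.1
    have h4 : s * v = v * s := hv.2 s hs'
    calc v * x = v * s * (s⁻¹ * x) := by group
      _ = s * (v * (s⁻¹ * x)) := by rw [← h4]; group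
      _ = s * ((s⁻¹ * x) * v) := by rw [h3]
      _ = x * v := by group
  have hV' : V ≤ Subgroup.centralizer ({x} : Set G) := by
    rw [hgen]
    exact iSup_le key
  rw [Subgroup.mem_centralizer_iff]
  intro v hv
  have := hV' hv
  rw [Subgroup.mem_centralizer_singleton_iff] at this
  exact this

end Cfsg.Agent.S0600
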