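import Cfsg.Statements.S0601
import Cfsg.Agent.Lib.Helper5.Omega
import Cfsg.Agent.S0600

set_option autoImplicit false
open Cfsg

namespace Cfsg.Agent.S0601

/-- When O_p(G) contains its centralizer, the normal closure of Ω₁(Z(S)) is elementary abelian and G has no nontrivial normal p-subgroup modulo its centralizer. -/
theorem result {G : Type*} [Group G] [Finite G] {p : ℕ} [Fact p.Prime] (hc : Subgroup.centralizer (Cfsg.pCore p G : Set G) ≤ Cfsg.pCore p G) : (⨆ S : Sylow p G, Cfsg.omegaOne p (((S : Subgroup G)) ⊓ Subgroup.centralizer ((S : Subgroup G) : Set G))).Normal ∧ Cfsg.IsElementaryAbelian p (⨆ S : Sylow p G, Cfsg.omegaOne p (((S : Subgroup G)) ⊓ Subgroup.centralizer ((S : Subgroup G) : Set G))) ∧ ∀ D : Subgroup G, D.Normal → Subgroup.centralizer ((⨆ S : Sylow p G, Cfsg.omegaOne p (((S : Subgroup G)) ⊓ Subgroup.centralizer ((S : Subgroup G) : Set G)) : Subgroup G) : Set G) ≤ D → (∃ k : ℕ, (Subgroup.centralizer ((⨆ S : Sylow p G, Cfsg.omegaOne p (((S : Subgroup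 G)) ⊓ Subgroup.centralizer ((S : Subgroup G) : Set G)) : Subgroup G) : Set G)).relIndex D = p ^ k) → D = Subgroup.centralizer ((⨆ S : Sylow p G, Cfsg.omegaOne p (((S : Subgroup G)) ⊓ Subgroup.centralizer ((S : Subgroup G) : Set G)) : Subgroup G) : Set G) := by
  set V : Subgroup G := ⨆ S : Sylow p G, Cfsg.omegaOne p (((S : Subgroup G)) ⊓
    Subgroup.centralizer ((S : Subgroup G) : Set G)) with hVdef
  have hZE : ∀ S : Sylow p G, Cfsg.omegaOne p (((S : Subgroup G)) ⊓
      Subgroup.centralizer ((S : Subgroup G) : Set G)) ≤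
      Cfsg.omegaOne p (Cfsg.pCore p G ⊓ Subgroup.centralizer (Cfsg.pCore p G : Set G)) := by
    intro S
    apply Cfsg.Agent.Lib.Helper5.omegaOne_mono
    intro x hx
    have h1 : x ∈ Subgroup.centralizer (Cfsg.pCore p G : Set G) :=
      Subgroup.centralizer_le (SetLike.coe_subset_coe.mpr
        (Cfsg.Agent.Lib.Helper5.pCore_le_sylow S)) hx.2
    exact ⟨hc h1, h1⟩
  have hVe : Cfsg.IsElementaryAbelian p V :=
    Cfsg.Agent.Lib.Helper5.elemAb_of_le (iSup_le hZE)
      (Cfsg.Agent.Lib.Helper5.elemAb_omegaOne (Cfsg.Agent.Lib.Helper5.comm_inf_centralizer _))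
  have hVn : V.Normal := by
    constructor
    intro n hn g
    have hle : V.map (MulAut.conj g).toMonoidHom ≤ V := by
      rw [hVdef, Subgroup.map_iSup]
      apply iSup_le
      intro S
      refine le_trans ?_ (le_iSup _ (g • S))
      refine (Cfsg.Agent.Lib.Helper5.omegaOne_map_le _ _).trans
        (Cfsg.Agent.Lib.Helper5.omegaOne_mono ?_)
      rintro _ ⟨x, hx, rfl⟩
      refine ⟨⟨x, hx.1, rfl⟩, ?_⟩
      rintro _ ⟨y, hy, rfl⟩
      have := hx.2 y hy
      show g * y * g⁻¹ * (g * x * g⁻¹) = (g * x * g⁻¹) * (g * y * g⁻¹)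
      calc g * y * g⁻¹ * (g * x * g⁻¹) = g * (y * x) * g⁻¹ := by group
        _ = g * (x * y) * g⁻¹ := by rw [this]
        _ = _ := by group
    exact hle ⟨n, hn, rfl⟩
  refine ⟨hVn, hVe, ?_⟩
  have hgen : V = ⨆ S : Sylow p G, V ⊓ Subgroup.centralizer ((S : Subgroup G) : Set G) := by
    apply le_antisymm
    · conv_lhs => rw [hVdef]
      apply iSup_le
      intro S
      refine le_trans ?_ (le_iSup _ S)
      exact le_inf (le_iSup (fun S : Sylow p G => Cfsg.omegaOne p (((S : Subgroup G)) ⊓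
        Subgroup.centralizer ((S : Subgroup G) : Set G))) S)
        ((Cfsg.Agent.Lib.Helper5.omegaOne_le _).trans inf_le_right)
    · exact iSup_le fun S => inf_le_left
  have h600 := Cfsg.Agent.S0600.result V hVe hgen
  intro D hDn hCD hk
  obtain ⟨k, hk⟩ := hk
  apply le_antisymm _ hCD
  have hs : Function.Surjective (QuotientGroup.mk' (Subgroup.centralizer (V : Set G))) :=
    QuotientGroup.mk'_surjective _
  have h1 : (D.map (QuotientGroup.mk' (Subgroup.centralizer (V : Set G)))).Normal := hDn.map _ hs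
  have h2 : IsPGroup p (D.map (QuotientGroup.mk' (Subgroup.centralizer (V : Set G)))) := by
    apply IsPGroup.of_card (n := k)
    rw [← Subgroup.relIndex_ker, QuotientGroup.ker_mk', hk]
  have h3 := Cfsg.Agent.Lib.Helper5.le_pCore h1 h2
  rw [h600, le_bot_iff, Subgroup.map_eq_bot_iff, QuotientGroup.ker_mk'] at h3
  exact h3

end Cfsg.Agent.S0601
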