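import Cfsg.Statements.S0608
import Cfsg.Agent.Lib.Helper5.SylowMore

set_option autoImplicit false
open Cfsg

namespace Cfsg.Agent.S0608

/-- With trivial p'-core, Thompson factorizability is equivalent to J(G) centralizing the subgroup generated by all Ω₁(Z(S)), S Sylow. -/
theorem result {G : Type*} [Group G] [Finite G] {p : ℕ} [Fact p.Prime] (hO : Cfsg.pPrimeCore p G = ⊥) : Cfsg.IsThompsonFactorizable p G ↔ Cfsg.thompsonSubgroup p G ≤ Subgroup.centralizer ((⨆ S : Sylow p G, Cfsg.omegaOne p (((S : Subgroup G)) ⊓ Subgroup.centralizer ((S : Subgroup G) : Set G)) : Subgroup G) : Set G) := by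
  set V : Subgroup G := ⨆ S : Sylow p G, Cfsg.omegaOne p (((S : Subgroup G)) ⊓
    Subgroup.centralizer ((S : Subgroup G) : Set G)) with hVdef
  have hVn : V.Normal := Cfsg.Agent.Lib.Helper5.iSup_omegaZ_normal
  have hJle : ∀ S : Sylow p G, Cfsg.thompsonSubgroupOf p (S : Subgroup G) ≤ (S : Subgroup G) :=
    fun S => Subgroup.map_subtype_le _
  constructor
  · intro hfac
    -- J(G) is generated by members of 𝒜(G), each inside J(S) for some S
    have key : ∀ S : Sylow p G, V ≤ Subgroup.centralizer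
        (Cfsg.thompsonSubgroupOf p (S : Subgroup G) : Set G) := by
      intro S
      rw [hVdef]
      apply iSup_le
      intro S'
      obtain ⟨g, hg⟩ := MulAction.exists_smul_eq G S' S
      intro x hx
      -- z = g x g⁻¹ ∈ Z_S
      have hz : g * x * g⁻¹ ∈ Cfsg.omegaOne p (((S : Subgroup G)) ⊓
          Subgroup.centralizer ((S : Subgroup G) : Set G)) := by
        have := Cfsg.Agent.Lib.Helper5.omegaZ_map_conj_le S' g ⟨x, hx, rfl⟩
        rwa [hg] at this
      obtain ⟨y, hy, c, hc, n, hn, hgcn⟩ := hfac S g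
      rw [hO, Subgroup.mem_bot] at hy
      rw [hy, one_mul] at hgcn
      -- g = c n, so x = n⁻¹ c⁻¹ z c n = n⁻¹ z n
      have hcz : (g * x * g⁻¹) * c = c * (g * x * g⁻¹) := hc _ hz
      have hx' : x = n⁻¹ * (g * x * g⁻¹) * n := by
        have h1 : c⁻¹ * (g * x * g⁻¹) * c = g * x * g⁻¹ := by
          rw [mul_assoc, hcz]; group
        calc x = n⁻¹ * (c⁻¹ * ((c * n) * x * (c * n)⁻¹) * c) * n := by group
          _ = n⁻¹ * (c⁻¹ * (g * x * g⁻¹) * c) * n := by rw [← hgcn]
          _ = _ := by rw [h1]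
      have hzC : g * x * g⁻¹ ∈ Subgroup.centralizer
          (Cfsg.thompsonSubgroupOf p (S : Subgroup G) : Set G) :=
        Subgroup.centralizer_le (SetLike.coe_subset_coe.mpr (hJle S))
          ((Cfsg.Agent.Lib.Helper5.omegaOne_le _ hz).2)
      rw [hx', Subgroup.mem_centralizer_iff]
      intro j hj
      have hj' : n * j * n⁻¹ ∈ Cfsg.thompsonSubgroupOf p (S : Subgroup G) :=
        (Subgroup.mem_normalizer_iff.mp hn j).mp hj
      have := hzC _ hj'
      calc j * (n⁻¹ * (g * x * g⁻¹) * n) = n⁻¹ * ((n * j * n⁻¹) * (g * x * g⁻¹)) * n := by group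
        _ = n⁻¹ * ((g * x * g⁻¹) * (n * j * n⁻¹)) * n := by rw [this]
        _ = _ := by group
    unfold Cfsg.thompsonSubgroup
    apply sSup_le
    intro A hA
    obtain ⟨S, hS⟩ := (Cfsg.Agent.Lib.Helper5.elemAb_isPGroup hA.1).exists_le_sylow
    have h1 : A ≤ Cfsg.thompsonSubgroupOf p (S : Subgroup G) := by
      rw [Cfsg.Agent.Lib.Helper5.thompsonOf_eq hA hS]
      exact le_sSup ⟨hA, hS⟩
    exact h1.trans (Subgroup.le_centralizer_iff.mp (key S))
  · intro hJ S g
    set C := Subgroup.centralizer (V : Set G) with hC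
    obtain ⟨A₀, hA₀, hA₀S⟩ := Cfsg.Agent.Lib.Helper5.exists_maxElemAb_le_sylow S
    have hA₀T : A₀ ≤ (S : Subgroup G) ⊓ C :=
      le_inf hA₀S ((Cfsg.Agent.Lib.Helper5.le_thompson hA₀).trans hJ)
    have hJeq : Cfsg.thompsonSubgroupOf p ((S : Subgroup G) ⊓ C) =
        Cfsg.thompsonSubgroupOf p (S : Subgroup G) := by
      rw [Cfsg.Agent.Lib.Helper5.thompsonOf_eq hA₀ hA₀T, Cfsg.Agent.Lib.Helper5.thompsonOf_eq hA₀ hA₀S]
      congr 1
      ext A
      constructor
      · rintro ⟨hA, hAT⟩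
        exact ⟨hA, hAT.trans inf_le_left⟩
      · rintro ⟨hA, hAS⟩
        exact ⟨hA, le_inf hAS ((Cfsg.Agent.Lib.Helper5.le_thompson hA).trans hJ)⟩
    obtain ⟨P, hP⟩ := Cfsg.Agent.Lib.Helper5.exists_sylow_subgroupOf_normal S C
    have hfr := Sylow.normalizer_sup_eq_top P
    rw [hP, Subgroup.subgroupOf_map_subtype] at hfr
    have hg : g ∈ C ⊔ Subgroup.normalizer (((S : Subgroup G) ⊓ C : Subgroup G) : Set G) := by
      rw [sup_comm, hfr]; exact Subgroup.mem_top g
    obtain ⟨c, hc, n, hn, rfl⟩ := Subgroup.mem_sup_of_normal_left.mp hg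
    refine ⟨1, one_mem _, c, ?_, n, ?_, by rw [one_mul]⟩
    · refine Subgroup.centralizer_le (SetLike.coe_subset_coe.mpr ?_) hc
      exact le_iSup (fun S : Sylow p G => Cfsg.omegaOne p (((S : Subgroup G)) ⊓
        Subgroup.centralizer ((S : Subgroup G) : Set G))) S
    · rw [← hJeq]
      exact Cfsg.Agent.Lib.Helper5.normalizer_le_normalizer_thompsonOf hA₀ hA₀T hn

end Cfsg.Agent.S0608
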