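import Cfsg.Statements.S5657
import Cfsg.Agent.Lib.Helper6.ULag

set_option autoImplicit false
open Cfsg

namespace Cfsg.Agent.S5657

open Cfsg.Agent.Lib.Helper6 Matrix

section aux

variable {F : Type*} [Field F] {ι : Type} [Fintype ι] [DecidableEq ι]

theorem gl_injective (g : Matrix.GeneralLinearGroup ι F) :
    Function.Injective (Matrix.toLin' (g : Matrix ι ι F)) := by
  intro x y hxy
  simp only [Matrix.toLin'_apply] at hxy
  have := congrArg (fun z => ((g⁻¹ : Matrix.GeneralLinearGroup ι F) : Matrix ι ι F) *ᵥ z) hxy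
  simpa only [gl_inv_mulVec] using this

theorem map_eq {t k : ℕ} {D : Fin t → Submodule F (ι → F)}
    (hD : Cfsg.Geo.IsMDecomposition k D)
    (g : Matrix.GeneralLinearGroup ι F) (i j : Fin t)
    (h : ∀ x ∈ D i, (g : Matrix ι ι F) *ᵥ x ∈ D j) :
    (D i).map (Matrix.toLin' (g : Matrix ι ι F)) = D j := by
  apply Submodule.eq_of_le_of_finrank_eq
  · rintro _ ⟨x, hx, rfl⟩
    rw [Matrix.toLin'_apply]
    exact h x hx
  · rw [← (Submodule.equivMapOfInjective _ (gl_injective g) (D i)).finrank_eq,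
      hD.finrank_eq, hD.finrank_eq]

theorem mem_stab_of_le {t k : ℕ} {D : Fin t → Submodule F (ι → F)}
    (hD : Cfsg.Geo.IsMDecomposition k D)
    (g : Matrix.GeneralLinearGroup ι F) (σ : Equiv.Perm (Fin t))
    (h : ∀ i, ∀ x ∈ D i, (g : Matrix ι ι F) *ᵥ x ∈ D (σ i)) :
    g ∈ Cfsg.Geo.decompositionStabilizer D :=
  ⟨σ, fun i => map_eq hD g i (σ i) (h i)⟩

theorem sub_union (X A B : Submodule F (ι → F)) (g : Matrix ι ι F)
    (hcov : ∀ x ∈ X, g *ᵥ x ∈ A ∨ g *ᵥ x ∈ B) :
    (∀ x ∈ X, g *ᵥ x ∈ A) ∨ (∀ x ∈ X, g *ᵥ x ∈ B) := by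
  by_contra hc
  push Not at hc
  obtain ⟨⟨x, hx, hx1⟩, ⟨y, hy, hy1⟩⟩ := hc
  have hx2 := (hcov x hx).resolve_left hx1
  have hy2 := (hcov y hy).resolve_right hy1
  rcases hcov (x + y) (X.add_mem hx hy) with h3 | h3
  · rw [Matrix.mulVec_add] at h3
    apply hx1
    have := A.sub_mem h3 hy2
    simpa using this
  · rw [Matrix.mulVec_add] at h3
    apply hy1
    have := B.sub_mem h3 hx2
    simpa using this

theorem lagPair {k : ℕ} {f : (ι → F) → (ι → F) → F} {D : Fin 2 → Submodule F (ι → F)}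
    (hD : Cfsg.Geo.IsMDecomposition k D)
    (hts : ∀ i, Cfsg.Geo.IsTotallySingularFor f (D i)) :
    ULag f (D 0) (D 1) where
  tsA := hts 0
  tsB := hts 1
  span := by
    intro x
    have hx : x ∈ iSup D := by rw [hD.iSup_eq_top]; trivial
    induction hx using Submodule.iSup_induction' with
    | mem i y hy =>
      fin_cases i
      · exact ⟨y, hy, 0, (D 1).zero_mem, by simp⟩
      · exact ⟨0, (D 0).zero_mem, y, hy, by simp⟩
    | zero => exact ⟨0, (D 0).zero_mem, 0, (D 1).zero_mem, by simp⟩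
    | add y z _ _ h1 h2 =>
      obtain ⟨a, ha, b, hb, rfl⟩ := h1
      obtain ⟨a', ha', b', hb', rfl⟩ := h2
      exact ⟨a + a', (D 0).add_mem ha ha', b + b', (D 1).add_mem hb hb', by abel⟩
  dim := by rw [hD.finrank_eq, hD.finrank_eq]

end aux

/-- Let F be the field with q² elements and n = 2k ≥ 13. Let D be a decomposition of F^n into two complementary subspaces of dimension k on each of which the standard unitary form vanishes identically. Then the elements of SU_n(q) preserving or interchanging the two subspaces form a maximal subgroup of SU_n(q). -/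
theorem result {F : Type*} [Field F] [Fintype F] (n q : ℕ) (hF : Fintype.card F = q ^ 2) (hn : 13 ≤ n) (k : ℕ) (hk : 2 * k = n) (D : Fin 2 → Submodule F (Fin n → F)) (hD : Cfsg.Geo.IsMDecomposition k D) (hts : ∀ i, Cfsg.Geo.IsTotallySingularFor (Cfsg.hermForm n F q) (D i)) : Cfsg.Geo.IsMaximalIn (Cfsg.GU n F q ⊓ Cfsg.Geo.specialLinear (Fin n) F) (Cfsg.Geo.decompositionStabilizer D ⊓ (Cfsg.GU n F q ⊓ Cfsg.Geo.specialLinear (Fin n) F)) := by
  have hf := herm_isUnitary hF n
  obtain ⟨σ, hσ⟩ : ∃ σ, σ = frobEquiv hF := ⟨_, rfl⟩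
  obtain ⟨f, hfdef⟩ : ∃ f, f = hermForm n F q := ⟨_, rfl⟩
  rw [← hσ, ← hfdef] at hf
  have hGU : GU n F q = uIso f := by rw [hfdef]; rfl
  rw [← hfdef] at hts
  obtain ⟨ζ, hζ0, hζ⟩ := uf_exists_skew hf
  have hL := lagPair hD hts
  have hdA : 4 ≤ Module.finrank F (D 0) := by rw [hD.finrank_eq]; omega
  have hdB : 4 ≤ Module.finrank F (D 1) := by rw [hD.finrank_eq]; omega
  have stab_id : ∀ g : Matrix.GeneralLinearGroup (Fin n) F,
      (∀ x ∈ D 0, (g : Matrix (Fin n) (Fin n) F) *ᵥ x ∈ D 0) →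
      (∀ x ∈ D 1, (g : Matrix (Fin n) (Fin n) F) *ᵥ x ∈ D 1) →
      g ∈ Cfsg.Geo.decompositionStabilizer D := by
    intro g h0 h1
    apply mem_stab_of_le hD g 1
    intro i
    fin_cases i
    · exact h0
    · exact h1
  have stab_sw : ∀ g : Matrix.GeneralLinearGroup (Fin n) F,
      (∀ x ∈ D 0, (g : Matrix (Fin n) (Fin n) F) *ᵥ x ∈ D 1) →
      (∀ x ∈ D 1, (g : Matrix (Fin n) (Fin n) F) *ᵥ x ∈ D 0) →
      g ∈ Cfsg.Geo.decompositionStabilizer D := by
    intro g h0 h1
    apply mem_stab_of_le hD g (Equiv.swap 0 1)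
    intro i
    fin_cases i
    · simpa using h0
    · simpa using h1
  apply isMaximalIn_of _ _ inf_le_right
  · obtain ⟨u, hu, hu0, -⟩ := uf_exists_kernel_vec hf (D 0) hdA 0 0 0
    have huB : u ∉ D 1 := fun h => hu0 (hL.disj hf hu h)
    obtain ⟨w, hw, huw⟩ := hL.exists_ne_right hf huB
    have hwu : f w u ≠ 0 := uf_ne_zero_symm hf huw
    have huu : f u u = 0 := hL.tsA u hu u hu
    refine ⟨glT u (ζ • uPhi f u) (uS_aux hf u huu ζ),
      Subgroup.mem_inf.mpr ⟨?_, glT_mem_SL _ _ _⟩, fun hmem => ?_⟩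
    · rw [hGU]
      exact fun x y => uS_isom hf u huu ζ hζ x y
    obtain ⟨τ, hτ⟩ := (Subgroup.mem_inf.mp hmem).1
    have hy : (glT u (ζ • uPhi f u) (uS_aux hf u huu ζ) : Matrix (Fin n) (Fin n) F) *ᵥ w ∈
        D (τ 1) := by
      rw [← hτ 1]
      exact ⟨w, hw, by rw [Matrix.toLin'_apply]⟩
    rw [uS_mulVec hf u huu] at hy
    have hne : ζ * f w u ≠ 0 := mul_ne_zero hζ0 hwu
    have hcase : ∀ j : Fin 2, w + (ζ * f w u) • u ∈ D j → False := by
      intro j hj
      fin_cases j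
      · have h1 : w ∈ D 0 := by
          have := (D 0).sub_mem hj ((D 0).smul_mem (ζ * f w u) hu)
          simpa using this
        have := hL.disj hf h1 hw
        rw [this, uf_zero_left hf] at hwu
        exact hwu rfl
      · have h1 : (ζ * f w u) • u ∈ D 1 := by
          have := (D 1).sub_mem hj hw
          simpa using this
        have h3 := (D 1).smul_mem (ζ * f w u)⁻¹ h1
        rw [smul_smul, inv_mul_cancel₀ hne, one_smul] at h3
        exact huB h3
    exact hcase _ hy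
  · intro M hPM hMK ⟨h, hhM, hhP⟩
    have hMI : M ≤ uIso f := by
      rw [← hGU]; exact hMK.trans inf_le_left
    have hhS : h ∈ uIso f := hMI hhM
    have hfin : ∀ v : Fin n → F, f v v = 0 → v ∈ uSet σ f M := by
      have hΨ : ∀ u ∈ D 0, ∀ w ∈ D 1, f u w = 0 → EHas f M u w := by
        intro u hu w hw huw
        have hww := hL.tsB w hw w hw
        have huu := hL.tsA u hu u hu
        refine ⟨uE hf u w huw, ?_, uE_mulVec hf u w huw hww⟩
        apply hPM
        refine Subgroup.mem_inf.mpr ⟨?_, Subgroup.mem_inf.mpr ⟨?_, uE_mem_SL hf u w huw⟩⟩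
        · apply stab_id
          · intro x hx
            rw [uE_mulVec hf u w huw hww, hL.tsA x hx u hu, zero_smul, sub_zero]
            exact (D 0).add_mem hx ((D 0).smul_mem _ hu)
          · intro x hx
            rw [uE_mulVec hf u w huw hww, hL.tsB x hx w hw, zero_smul, add_zero]
            exact (D 1).sub_mem hx ((D 1).smul_mem _ hw)
        · rw [hGU]
          exact uE_mem_uIso hf u w huw huu hww
      have hΨ' : ∀ u ∈ D 1, ∀ w ∈ D 0, f u w = 0 → EHas f M u w := by
        intro u hu w hw huw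
        obtain ⟨g, hg, eg⟩ := hΨ (-w) ((D 0).neg_mem hw) u hu
          (by rw [uf_neg_left hf, uf_eq_zero_symm hf huw, neg_zero])
        refine ⟨g, hg, fun x => ?_⟩
        rw [eg, uf_neg_right hf]
        module
      have hA0 : D 0 ≠ ⊥ := by
        intro h0
        rw [h0, finrank_bot] at hdA
        omega
      obtain ⟨s, hsS, hsL, hs0, hs1⟩ := hL.exists_swap hf hA0
      have hsM : s ∈ M := hPM (Subgroup.mem_inf.mpr ⟨stab_sw s hs0 hs1,
        Subgroup.mem_inf.mpr ⟨by rw [hGU]; exact hsS, hsL⟩⟩)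
      have transfer : ∀ X Y : Submodule F (Fin n → F),
          (∀ y ∈ Y, (s : Matrix (Fin n) (Fin n) F) *ᵥ y ∈ X) →
          (∀ x ∈ X, x ∈ uSet σ f M) → ∀ y ∈ Y, y ∈ uSet σ f M := by
        intro X Y hYX hX y hy
        have h1 := uSet_mulVec hf (hX _ (hYX y hy)) (M.inv_mem hsM) (Subgroup.inv_mem _ hsS)
        rwa [gl_inv_mulVec] at h1
      have key : (∃ u ∈ D 0, u ≠ 0 ∧ u ∈ uSet σ f M) ∨ (∃ u ∈ D 1, u ≠ 0 ∧ u ∈ uSet σ f M) := by
        by_contra hcon
        push Not at hcon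
        obtain ⟨hc0, hc1⟩ := hcon
        have hne0 : ∀ x, x ≠ 0 → (h : Matrix (Fin n) (Fin n) F) *ᵥ x ≠ 0 := by
          intro x hx h0
          apply hx
          have := gl_inv_mulVec h x
          rw [h0, Matrix.mulVec_zero] at this
          exact this.symm
        have split : ∀ u ∈ D 0, ∀ w ∈ D 1, u ≠ 0 → w ≠ 0 → f u w = 0 →
            ((h : Matrix (Fin n) (Fin n) F) *ᵥ u ∈ D 0 ∧
              (h : Matrix (Fin n) (Fin n) F) *ᵥ w ∈ D 1) ∨
            ((h : Matrix (Fin n) (Fin n) F) *ᵥ u ∈ D 1 ∧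
              (h : Matrix (Fin n) (Fin n) F) *ᵥ w ∈ D 0) := by
          intro u hu w hw hu0 hw0 huw
          have hM : ∀ l : F, EHas f M (l • ((h : Matrix (Fin n) (Fin n) F) *ᵥ u))
              ((h : Matrix (Fin n) (Fin n) F) *ᵥ w) := by
            intro l
            have h1 := (hΨ (l • u) ((D 0).smul_mem l hu) w hw
              (by rw [hf.smul_left, huw, mul_zero])).conj hf hhM hhS
            rwa [Matrix.mulVec_smul] at h1
          have h1 : (h : Matrix (Fin n) (Fin n) F) *ᵥ u ∈ D 1 ∨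
              (h : Matrix (Fin n) (Fin n) F) *ᵥ w ∈ D 1 := by
            by_contra hc
            push Not at hc
            obtain ⟨x, hx, hx0, hxΩ⟩ := hL.success hf hdA hMI hΨ hM hc.1 hc.2
            exact hc0 x hx hx0 hxΩ
          have h3 : (h : Matrix (Fin n) (Fin n) F) *ᵥ u ∈ D 0 ∨
              (h : Matrix (Fin n) (Fin n) F) *ᵥ w ∈ D 0 := by
            by_contra hc
            push Not at hc
            obtain ⟨x, hx, hx0, hxΩ⟩ := hL.symm.success hf hdB hMI hΨ' hM hc.1 hc.2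
            exact hc1 x hx hx0 hxΩ
          rcases h1 with h1 | h1
          · rcases h3 with h3 | h3
            · exact absurd (hL.disj hf h3 h1) (hne0 u hu0)
            · exact Or.inr ⟨h1, h3⟩
          · rcases h3 with h3 | h3
            · exact Or.inl ⟨h3, h1⟩
            · exact absurd (hL.disj hf h3 h1) (hne0 w hw0)
        have cov0 : ∀ u ∈ D 0, (h : Matrix (Fin n) (Fin n) F) *ᵥ u ∈ D 0 ∨
            (h : Matrix (Fin n) (Fin n) F) *ᵥ u ∈ D 1 := by
          intro u hu
          by_cases hu0 : u = 0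
          · subst hu0; rw [Matrix.mulVec_zero]; exact Or.inl (D 0).zero_mem
          obtain ⟨w, hw, hw0, hwu, -⟩ := uf_exists_kernel_vec hf (D 1) hdB u u u
          have huw : f u w = 0 := uf_eq_zero_symm hf hwu
          rcases split u hu w hw hu0 hw0 huw with h1 | h1
          · exact Or.inl h1.1
          · exact Or.inr h1.1
        have cov1 : ∀ w ∈ D 1, (h : Matrix (Fin n) (Fin n) F) *ᵥ w ∈ D 0 ∨
            (h : Matrix (Fin n) (Fin n) F) *ᵥ w ∈ D 1 := by
          intro w hw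
          by_cases hw0 : w = 0
          · subst hw0; rw [Matrix.mulVec_zero]; exact Or.inl (D 0).zero_mem
          obtain ⟨u, hu, hu0, huw, -⟩ := uf_exists_kernel_vec hf (D 0) hdA w w w
          rcases split u hu w hw hu0 hw0 huw with h1 | h1
          · exact Or.inr h1.2
          · exact Or.inl h1.2
        have hall : ∀ X : Submodule F (Fin n → F),
            (∀ x ∈ D 0, (h : Matrix (Fin n) (Fin n) F) *ᵥ x ∈ X) →
            (∀ x ∈ D 1, (h : Matrix (Fin n) (Fin n) F) *ᵥ x ∈ X) → ∀ y, y ∈ X := by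
          intro X h0 h1 y
          obtain ⟨a, ha, b, hb, hab⟩ := hL.span (((h⁻¹ : Matrix.GeneralLinearGroup (Fin n) F) :
            Matrix (Fin n) (Fin n) F) *ᵥ y)
          have := congrArg (fun z => (h : Matrix (Fin n) (Fin n) F) *ᵥ z) hab
          simp only [gl_mulVec_inv, Matrix.mulVec_add] at this
          rw [this]
          exact X.add_mem (h0 a ha) (h1 b hb)
        obtain ⟨u, hu, hu0, -⟩ := uf_exists_kernel_vec hf (D 0) hdA 0 0 0
        obtain ⟨w, hw, hw0, -⟩ := uf_exists_kernel_vec hf (D 1) hdB 0 0 0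
        rcases sub_union _ _ _ _ cov0 with h0 | h0
        · rcases sub_union _ _ _ _ cov1 with h1 | h1
          · exact hw0 (hL.disj hf (hall _ h0 h1 w) hw)
          · exact hhP (Subgroup.mem_inf.mpr ⟨stab_id h h0 h1, hMK hhM⟩)
        · rcases sub_union _ _ _ _ cov1 with h1 | h1
          · exact hhP (Subgroup.mem_inf.mpr ⟨stab_sw h h0 h1, hMK hhM⟩)
          · exact hu0 (hL.disj hf hu (hall _ h0 h1 u))
      rcases key with ⟨u, hu, hu0, huΩ⟩ | ⟨u, hu, hu0, huΩ⟩
      · have hA := hL.spread hf hMI hΨ hu hu0 huΩ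
        exact hL.all_mem hf hA (transfer _ _ hs1 hA)
      · have hB := hL.symm.spread hf hMI hΨ' hu hu0 huΩ
        exact hL.all_mem hf (transfer _ _ hs0 hB) hB
    subst hfdef hσ
    exact SU_le_of_uSet hF n (by omega) M hfin

end Cfsg.Agent.S5657
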