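import Cfsg.Statements.S0631
import Cfsg.Agent.Lib.Helper5.PConstr2

set_option autoImplicit false
open Cfsg

namespace Cfsg.Agent.S0631

open Cfsg.Agent.Lib.Helper5 in
theorem lift_aux {G : Type*} [Group G] [Finite G] {p : ℕ} [Fact p.Prime] (N : Subgroup G) [N.Normal]
    (hN : (Nat.card N).Coprime p) (H : Subgroup G) (Hb : Subgroup (G ⧸ N))
    (h1 : ∀ h ∈ H, QuotientGroup.mk' N h ∈ Hb)
    (h2 : ∀ g, QuotientGroup.mk' N g ∈ Hb → ∃ h ∈ H, QuotientGroup.mk' N h = QuotientGroup.mk' N g)
    (hc : Cfsg.IsPConstrained p ↥Hb) : Cfsg.IsPConstrained p ↥H := by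
  let f : ↥H →* ↥Hb := ((QuotientGroup.mk' N).comp H.subtype).codRestrict Hb (fun h => h1 h.1 h.2)
  have hf : Function.Surjective f := by
    rintro ⟨y, hy⟩
    obtain ⟨g, rfl⟩ := QuotientGroup.mk'_surjective N y
    obtain ⟨h, hh, hhg⟩ := h2 g hy
    exact ⟨⟨h, hh⟩, Subtype.ext hhg⟩
  have hk : (Nat.card f.ker).Coprime p := by
    have hle : f.ker.map H.subtype ≤ N := by
      rintro _ ⟨x, hx, rfl⟩
      have h3 : f x = 1 := hx
      have h4 : QuotientGroup.mk' N (x : G) = 1 := congrArg Subtype.val h3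
      rwa [← MonoidHom.mem_ker, QuotientGroup.ker_mk'] at h4
    have h5 := Subgroup.card_dvd_of_le hle
    rw [Subgroup.card_map_of_injective H.subtype_injective] at h5
    exact Nat.Coprime.of_dvd_left h5 hN
  exact isPConstrained_of_surjective f hf hk hc

/-- In a p-constrained group the normalizer and the centralizer of any p-subgroup are again p-constrained. -/
theorem result {G : Type*} [Group G] [Finite G] {p : ℕ} [Fact p.Prime] (hG : Cfsg.IsPConstrained p G) (P : Subgroup G) (hP : IsPGroup p P) : Cfsg.IsPConstrained p ↥(Subgroup.normalizer (P : Set G)) ∧ Cfsg.IsPConstrained p ↥(Subgroup.centralizer (P : Set G)) := by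
  have hC := Cfsg.Agent.Lib.Helper5.isPConstrained_iff.mp hG
  have hN : (Nat.card (Cfsg.pPrimeCore p G)).Coprime p := Cfsg.Agent.Lib.Helper5.pPrimeCore_coprime
  have hPb : IsPGroup p (P.map (QuotientGroup.mk' (Cfsg.pPrimeCore p G))) := hP.map _
  constructor
  · apply lift_aux (Cfsg.pPrimeCore p G) hN _
      (Subgroup.normalizer ((P.map (QuotientGroup.mk' (Cfsg.pPrimeCore p G)) : Subgroup _) : Set _))
    · intro h hh
      exact Subgroup.le_normalizer_map _ ⟨h, hh, rfl⟩
    · intro g hg
      exact Cfsg.Agent.Lib.Helper5.exists_mem_normalizer_of_quot hN hP hg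
    · apply Cfsg.Agent.Lib.Helper5.isPConstrained_local _ Cfsg.Agent.Lib.Helper5.pCore_isPGroup hC _ hPb
      · exact inf_le_right.trans (Subgroup.centralizer_le_normalizer _)
      · refine inf_le_right.trans (Subgroup.centralizer_le ?_)
        intro x hx
        refine ⟨⟨x, Subgroup.le_normalizer hx⟩, ?_, rfl⟩
        have : (P.map (QuotientGroup.mk' (Cfsg.pPrimeCore p G))).subgroupOf
            (Subgroup.normalizer ((P.map (QuotientGroup.mk' (Cfsg.pPrimeCore p G)) : Subgroup _) : Set _))
            ≤ Cfsg.pCore p _ :=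
          Cfsg.Agent.Lib.Helper5.le_pCore inferInstance hPb.comap_subtype
        exact this (Subgroup.mem_subgroupOf.mpr hx)
  · apply lift_aux (Cfsg.pPrimeCore p G) hN _
      (Subgroup.centralizer ((P.map (QuotientGroup.mk' (Cfsg.pPrimeCore p G)) : Subgroup _) : Set _))
    · intro h hh
      rw [Subgroup.mem_centralizer_iff]
      rintro _ ⟨x, hx, rfl⟩
      rw [← map_mul, ← map_mul, hh x hx]
    · intro g hg
      exact Cfsg.Agent.Lib.Helper5.exists_mem_centralizer_of_quot hN hP hg
    · apply Cfsg.Agent.Lib.Helper5.isPConstrained_local _ Cfsg.Agent.Lib.Helper5.pCore_isPGroup hC _ hPb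
      · exact inf_le_right
      · exact inf_le_left

end Cfsg.Agent.S0631
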