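import Cfsg.Statements.S0661
import Cfsg.Agent.Lib.Helper5.PConstr2

set_option autoImplicit false
open Cfsg

namespace Cfsg.Agent.S0661

open Cfsg Cfsg.Agent.Lib.Helper5 in
theorem pPrimeCore_local {G : Type*} [Group G] {p : ℕ} [Fact p.Prime] [Finite G] (R : Subgroup G) [R.Normal]
    (hR : IsPGroup p R) (hCR : Subgroup.centralizer (R : Set G) ≤ R)
    (P : Subgroup G) (hP : IsPGroup p P) (H : Subgroup G)
    (h1 : R ⊓ Subgroup.centralizer (P : Set G) ≤ H)
    (h2 : H ⊓ Subgroup.centralizer (((pCore p ↥H).map H.subtype : Subgroup G) : Set G) ≤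
      Subgroup.centralizer (P : Set G)) : pPrimeCore p ↥H = ⊥ := by
  set T : Subgroup G := (pCore p ↥H).map H.subtype with hT
  have hRT : R ⊓ H ≤ T := by
    intro x hx
    have hx' := Subgroup.mem_inf.mp hx
    refine ⟨⟨x, hx'.2⟩, ?_, rfl⟩
    have : R.subgroupOf H ≤ pCore p ↥H := by
      apply le_pCore inferInstance
      exact hR.comap_subtype
    exact this (Subgroup.mem_subgroupOf.mpr hx'.1)
  have hC : IsPGroup p ↥(H ⊓ Subgroup.centralizer (T : Set G)) := by
    apply isPGroup_of_coprime_elements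
    intro x hx hxo
    have hxP := h2 hx
    have hxT := (Subgroup.mem_inf.mp hx).2
    have hQ : Subgroup.zpowers x ≤ Subgroup.centralizer (R : Set G) := by
      apply Cfsg.Agent.Lib.Helper1.pq_lemma p P (Subgroup.zpowers x) hP
        (by rw [Nat.card_zpowers]; exact hxo) _ _ R rfl hR Subgroup.le_normalizer_of_normal
        Subgroup.le_normalizer_of_normal
      · intro y hy
        have hy' := Subgroup.mem_inf.mp hy
        have hyT : y ∈ T := hRT (Subgroup.mem_inf.mpr ⟨hy'.1, h1 hy⟩)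
        have : Subgroup.zpowers x ≤ Subgroup.centralizer (T : Set G) := by
          rw [Subgroup.zpowers_le]; exact hxT
        exact (Subgroup.le_centralizer_iff.mp this) hyT
      · rw [Subgroup.le_centralizer_iff, Subgroup.zpowers_le]
        exact hxP
    have hxR : x ∈ R := hCR (hQ (Subgroup.mem_zpowers x))
    obtain ⟨k, hk⟩ := hR ⟨x, hxR⟩
    have hk' : x ^ p ^ k = 1 := by simpa using congrArg Subtype.val hk
    have h3 : orderOf x ∣ p ^ k := orderOf_dvd_of_pow_eq_one hk'
    have h4 : orderOf x = 1 := Nat.Coprime.eq_one_of_dvd (hxo.pow_right k) h3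
    exact orderOf_eq_one_iff.mp h4
  have hC' : Subgroup.centralizer (pCore p ↥H : Set ↥H) ≤ pCore p ↥H := by
    apply le_pCore inferInstance
    have hinj : Function.Injective H.subtype := H.subtype_injective
    have hle : (Subgroup.centralizer (pCore p ↥H : Set ↥H)).map H.subtype ≤
        H ⊓ Subgroup.centralizer (T : Set G) := by
      rintro _ ⟨y, hy, rfl⟩
      refine Subgroup.mem_inf.mpr ⟨y.2, ?_⟩
      rw [Subgroup.mem_centralizer_iff]
      rintro _ ⟨t, ht, rfl⟩
      exact congrArg Subtype.val (hy t ht)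
    have := hC.to_le hle
    exact IsPGroup.of_equiv this (Subgroup.equivMapOfInjective _ H.subtype hinj).symm
  have hbot : pPrimeCore p ↥H = ⊥ := by
    have hdisj : pPrimeCore p ↥H ⊓ pCore p ↥H = ⊥ := by
      rw [inf_comm]
      exact pgroup_inf_coprime_eq_bot pCore_isPGroup pPrimeCore_coprime
    have hle : pPrimeCore p ↥H ≤ Subgroup.centralizer (pCore p ↥H : Set ↥H) := by
      rw [← Subgroup.commutator_eq_bot_iff_le_centralizer, eq_bot_iff, ← hdisj]
      exact Subgroup.commutator_le_inf _ _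
    have h5 : pPrimeCore p ↥H ≤ pPrimeCore p ↥H ⊓ pCore p ↥H := le_inf le_rfl (hle.trans hC')
    rw [hdisj] at h5
    exact eq_bot_iff.mpr h5
  exact hbot


/-- If, modulo the largest normal subgroup of order prime to p, the largest normal p-subgroup contains its centralizer, then for every p-subgroup P the p'-core of N_G(P) is just O_p'(G) ∩ N_G(P). -/
theorem result {G : Type*} [Group G] [Finite G] {p : ℕ} [Fact p.Prime] (hc : Subgroup.centralizer (Cfsg.pCore p (G ⧸ Cfsg.pPrimeCore p G) : Set (G ⧸ Cfsg.pPrimeCore p G)) ≤ Cfsg.pCore p (G ⧸ Cfsg.pPrimeCore p G)) (P : Subgroup G) (hP : IsPGroup p P) : (Cfsg.pPrimeCore p ↥(Subgroup.normalizer (P : Set G))).map (Subgroup.normalizer (P : Set G)).subtype = Cfsg.pPrimeCore p G ⊓ Subgroup.normalizer (P : Set G) := by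
  have hN : (Nat.card (Cfsg.pPrimeCore p G)).Coprime p := Cfsg.Agent.Lib.Helper5.pPrimeCore_coprime
  have hPb : IsPGroup p (P.map (QuotientGroup.mk' (Cfsg.pPrimeCore p G))) := hP.map _
  have hbot : Cfsg.pPrimeCore p ↥(Subgroup.normalizer
      ((P.map (QuotientGroup.mk' (Cfsg.pPrimeCore p G)) : Subgroup (G ⧸ Cfsg.pPrimeCore p G)) : Set (G ⧸ Cfsg.pPrimeCore p G))) = ⊥ := by
    apply pPrimeCore_local _ Cfsg.Agent.Lib.Helper5.pCore_isPGroup hc _ hPb
    · exact inf_le_right.trans (Subgroup.centralizer_le_normalizer _)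
    · refine inf_le_right.trans (Subgroup.centralizer_le ?_)
      intro x hx
      refine ⟨⟨x, Subgroup.le_normalizer hx⟩, ?_, rfl⟩
      have : (P.map (QuotientGroup.mk' (Cfsg.pPrimeCore p G))).subgroupOf
          (Subgroup.normalizer ((P.map (QuotientGroup.mk' (Cfsg.pPrimeCore p G)) : Subgroup (G ⧸ Cfsg.pPrimeCore p G)) : Set (G ⧸ Cfsg.pPrimeCore p G)))
          ≤ Cfsg.pCore p _ :=
        Cfsg.Agent.Lib.Helper5.le_pCore inferInstance hPb.comap_subtype
      exact this (Subgroup.mem_subgroupOf.mpr hx)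
  let f : ↥(Subgroup.normalizer (P : Set G)) →* ↥(Subgroup.normalizer
      ((P.map (QuotientGroup.mk' (Cfsg.pPrimeCore p G)) : Subgroup (G ⧸ Cfsg.pPrimeCore p G)) : Set (G ⧸ Cfsg.pPrimeCore p G))) :=
    ((QuotientGroup.mk' (Cfsg.pPrimeCore p G)).comp (Subgroup.subtype _)).codRestrict _
      (fun h => Subgroup.le_normalizer_map _ ⟨h.1, h.2, rfl⟩)
  have hf : Function.Surjective f := by
    rintro ⟨y, hy⟩
    obtain ⟨g, rfl⟩ := QuotientGroup.mk'_surjective _ y
    obtain ⟨h, hh, hhg⟩ := Cfsg.Agent.Lib.Helper5.exists_mem_normalizer_of_quot hN hP hy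
    exact ⟨⟨h, hh⟩, Subtype.ext hhg⟩
  have hker : ∀ x : ↥(Subgroup.normalizer (P : Set G)), x ∈ f.ker ↔ (x : G) ∈ Cfsg.pPrimeCore p G := by
    intro x
    rw [MonoidHom.mem_ker]
    constructor
    · intro h3
      have h4 : QuotientGroup.mk' (Cfsg.pPrimeCore p G) (x : G) = 1 := congrArg Subtype.val h3
      rwa [← MonoidHom.mem_ker, QuotientGroup.ker_mk'] at h4
    · intro h3
      apply Subtype.ext
      show QuotientGroup.mk' (Cfsg.pPrimeCore p G) (x : G) = 1
      rwa [← MonoidHom.mem_ker, QuotientGroup.ker_mk']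
  have hk : (Nat.card f.ker).Coprime p := by
    have hle : f.ker.map (Subgroup.subtype _) ≤ Cfsg.pPrimeCore p G := by
      rintro _ ⟨x, hx, rfl⟩
      exact (hker x).mp hx
    have h5 := Subgroup.card_dvd_of_le hle
    rw [Subgroup.card_map_of_injective (Subgroup.subtype_injective _)] at h5
    exact Nat.Coprime.of_dvd_left h5 hN
  rw [← Cfsg.Agent.Lib.Helper5.pPrimeCore_comap_of_surjective f hf hk, hbot]
  ext x
  constructor
  · rintro ⟨y, hy, rfl⟩
    exact Subgroup.mem_inf.mpr ⟨(hker y).mp hy, y.2⟩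
  · intro hx
    have hx' := Subgroup.mem_inf.mp hx
    exact ⟨⟨x, hx'.2⟩, (hker ⟨x, hx'.2⟩).mpr hx'.1, rfl⟩

end Cfsg.Agent.S0661
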