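import Cfsg.Statements.S1224
import Cfsg.Agent.Lib.Helper9.StrEmb

set_option autoImplicit false
open Cfsg

namespace Cfsg.Agent.S1224

open Cfsg.Agent.Lib.Helper9

variable {G : Type*} [Group G] [Finite G] {H : Subgroup G}

/-- number of involutions fixing a given point -/
theorem card_fix (y : G ⧸ H) :
    Nat.card {i : G // orderOf i = 2 ∧ i • y = y} = Nat.card {t : G // orderOf t = 2 ∧ t ∈ H} := by
  induction y using QuotientGroup.induction_on with
  | H g =>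
  apply Nat.card_congr
  refine ⟨fun i => ⟨g⁻¹ * i.1 * g, ?_, ?_⟩, fun t => ⟨g * t.1 * g⁻¹, ?_, ?_⟩, ?_, ?_⟩
  · have : g⁻¹ * i.1 * g = MulAut.conj g⁻¹ i.1 := by simp [MulAut.conj_apply]
    rw [this, MulEquiv.orderOf_eq]; exact i.2.1
  · exact (smul_mk_eq_iff i.1 g).1 i.2.2
  · have : g * t.1 * g⁻¹ = MulAut.conj g t.1 := by simp [MulAut.conj_apply]
    rw [this, MulEquiv.orderOf_eq]; exact t.2.1
  · rw [smul_mk_eq_iff]; simpa [mul_assoc] using t.2.2
  · intro i; ext; simp [mul_assoc]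
  · intro t; ext; simp [mul_assoc]

theorem sum_move (x : G ⧸ H) [Fintype (G ⧸ H)] :
    ∑ y : G ⧸ H, Nat.card {i : G // orderOf i = 2 ∧ i • x = y} = Nat.card {i : G // orderOf i = 2} := by
  rw [← Nat.card_sigma]
  apply Nat.card_congr
  refine ⟨fun p => ⟨p.2.1, p.2.2.1⟩, fun i => ⟨i.1 • x, ⟨i.1, i.2, rfl⟩⟩, ?_, ?_⟩
  · rintro ⟨y, i, h1, rfl⟩; rfl
  · intro i; rfl

theorem sum_fix (hH : Cfsg.IsStronglyEmbedded H) [Fintype (G ⧸ H)] :
    ∑ y : G ⧸ H, Nat.card {i : G // orderOf i = 2 ∧ i • y = y} = Nat.card {i : G // orderOf i = 2} := by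
  rw [← Nat.card_sigma]
  apply Nat.card_eq_of_bijective
    (fun p : (Σ y : G ⧸ H, {i : G // orderOf i = 2 ∧ i • y = y}) => (⟨p.2.1, p.2.2.1⟩ : {i : G // orderOf i = 2}))
  constructor
  · rintro ⟨y, i, h1, h2⟩ ⟨y', i', h1', h2'⟩ h
    have hi : i = i' := congrArg Subtype.val h
    subst hi
    have hy : y = y' := se_fix_unique hH h1 h2 h2'
    subst hy
    rfl
  · rintro ⟨i, hi⟩
    obtain ⟨y, hy⟩ := se_fix_exists hH hi
    exact ⟨⟨y, i, hi, hy⟩, rfl⟩

theorem le_move (hH : Cfsg.IsStronglyEmbedded H) (x y : G ⧸ H) :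
    Nat.card {i : G // orderOf i = 2 ∧ i • x = x} ≤ Nat.card {i : G // orderOf i = 2 ∧ i • x = y} := by
  by_cases hxy : x = y
  · subst hxy; exact le_rfl
  -- an involution fixing y
  have hr : ∃ r : G, orderOf r = 2 ∧ r • y = y := by
    obtain ⟨s, hsH, hs⟩ := se_exists_invol hH
    have hpos : 0 < Nat.card {i : G // orderOf i = 2 ∧ i • y = y} := by
      rw [card_fix y]
      exact Nat.card_pos_iff.2 ⟨⟨⟨s, hs, hsH⟩⟩, inferInstance⟩
    obtain ⟨⟨r, hr⟩⟩ := (Nat.card_pos_iff.1 hpos).1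
    exact ⟨r, hr⟩
  obtain ⟨r, hr, hry⟩ := hr
  have hex : ∀ s : {i : G // orderOf i = 2 ∧ i • x = x}, ∃ i : G, orderOf i = 2 ∧ i * s.1 * i⁻¹ = r ∧ i • x = y :=
    fun s => se_conj hH s.2.1 hr s.2.2 hry hxy
  choose Φ hΦ1 hΦ2 hΦ3 using hex
  apply Nat.card_le_card_of_injective (fun s => (⟨Φ s, hΦ1 s, hΦ3 s⟩ : {i : G // orderOf i = 2 ∧ i • x = y}))
  intro s s' h
  have h1 : Φ s = Φ s' := congrArg Subtype.val h
  have h2 := hΦ2 s
  have h3 := hΦ2 s'
  rw [h1, ← h3] at h2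
  exact Subtype.ext (mul_left_cancel (mul_right_cancel h2))


/-- Let H be a strongly embedded subgroup of the finite group G and x ≠ y two cosets in G/H. Then the number of involutions i of G with i • x = y equals the number of involutions lying in H. -/
theorem result {G : Type*} [Group G] [Finite G] (H : Subgroup G) (hH : Cfsg.IsStronglyEmbedded H) (x y : G ⧸ H) (hxy : x ≠ y) : Nat.card {i : G // orderOf i = 2 ∧ i • x = y} = Nat.card {t : G // orderOf t = 2 ∧ t ∈ H} := by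
  haveI : Fintype (G ⧸ H) := Fintype.ofFinite _
  have h1 := sum_move (H := H) x
  have h2 := sum_fix hH
  have h3 : ∑ y : G ⧸ H, Nat.card {i : G // orderOf i = 2 ∧ i • x = x}
      = ∑ y : G ⧸ H, Nat.card {i : G // orderOf i = 2 ∧ i • x = y} := by
    rw [h1, ← h2]
    apply Finset.sum_congr rfl
    intro y _
    rw [card_fix x, card_fix y]
  have h4 := (Finset.sum_eq_sum_iff_of_le (fun y _ => le_move hH x y)).1 h3 y (Finset.mem_univ y)
  rw [← h4, card_fix x]

end Cfsg.Agent.S1224
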