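import Cfsg.Statements.S0006
import Mathlib
import Cfsg.Agent.S0144
import Cfsg.Agent.Lib.Helper4.CompSys
import Cfsg.Agent.Lib.Helper4.MinNormal
import Cfsg.Agent.Lib.Helper4.Supersolvable3

set_option autoImplicit false
open Cfsg

namespace Cfsg.Agent.S0006

universe u

open Cfsg.Agent.Lib.Helper4

theorem pow_eq_of {p b c n : ℕ} (hp : p.Prime) (hc : ¬ p ∣ c) (hn : c * p ^ b = n) (hn0 : n ≠ 0) :
    p ^ b = p ^ n.factorization p := by
  have hc0 : c ≠ 0 := by
    rintro rfl
    simp at hc
  rw [← hn, Nat.factorization_mul hc0 (pow_ne_zero _ hp.ne_zero), Finsupp.add_apply,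
    Nat.factorization_eq_zero_of_not_dvd hc, Nat.factorization_pow, Finsupp.smul_apply,
    hp.factorization_self]
  simp

def HasComps (G : Type u) [Group G] : Prop :=
  ∀ p : ℕ, p.Prime → ∃ H : Subgroup G, H.index = p ^ (Nat.card G).factorization p

theorem not_dvd_card_of_index {G : Type u} [Group G] [Finite G] {p : ℕ} (hp : p.Prime) (H : Subgroup G)
    (h : H.index = p ^ (Nat.card G).factorization p) : ¬ p ∣ Nat.card H := by
  intro hd
  have h1 := Subgroup.card_mul_index H
  rw [h] at h1
  apply Nat.pow_succ_factorization_not_dvd (Nat.card_pos (α := G)).ne' hp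
  rw [pow_succ, mul_comm]
  conv_rhs => rw [← h1]
  exact Nat.mul_dvd_mul_right hd _

theorem hasComps_subgroup {G : Type u} [Group G] [Finite G] (N : Subgroup G) [N.Normal] (h : HasComps G) :
    HasComps N := by
  intro p hp
  obtain ⟨H, hH⟩ := h p hp
  refine ⟨H.subgroupOf N, ?_⟩
  have h1 : (H.subgroupOf N).index ∣ p ^ (Nat.card G).factorization p := by
    rw [← hH]; exact relIndex_dvd_index_of_normal_right H N
  obtain ⟨b, -, hb⟩ := (Nat.dvd_prime_pow hp).mp h1
  rw [hb]
  apply pow_eq_of hp (c := Nat.card (H.subgroupOf N)) _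
    (by rw [← hb]; exact Subgroup.card_mul_index _) Nat.card_pos.ne'
  intro hd
  apply not_dvd_card_of_index hp H hH
  rw [card_subgroupOf_eq_card_inf] at hd
  exact hd.trans (Subgroup.card_dvd_of_le inf_le_left)

theorem hasComps_quotient {G : Type u} [Group G] [Finite G] (N : Subgroup G) [N.Normal] (h : HasComps G) :
    HasComps (G ⧸ N) := by
  intro p hp
  obtain ⟨H, hH⟩ := h p hp
  refine ⟨H.map (QuotientGroup.mk' N), ?_⟩
  have h1 : (H.map (QuotientGroup.mk' N)).index ∣ p ^ (Nat.card G).factorization p := by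
    rw [← hH]; exact Subgroup.index_map_dvd _ (QuotientGroup.mk'_surjective N)
  obtain ⟨b, -, hb⟩ := (Nat.dvd_prime_pow hp).mp h1
  rw [hb]
  apply pow_eq_of hp (c := Nat.card (H.map (QuotientGroup.mk' N))) _
    (by rw [← hb]; exact Subgroup.card_mul_index _) Nat.card_pos.ne'
  intro hd
  apply not_dvd_card_of_index hp H hH
  exact hd.trans (Subgroup.card_map_dvd _ _)

theorem two_primes (n p q : ℕ) (hn : n ≠ 0) (hp : p.Prime) (hq : q.Prime) (hpq : p ≠ q)
    (h : ∀ d, d.Prime → d ∣ n → d = p ∨ d = q) :
    n = p ^ n.factorization p * q ^ n.factorization q := by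
  apply Nat.eq_of_factorization_eq hn
    (mul_ne_zero (pow_ne_zero _ hp.ne_zero) (pow_ne_zero _ hq.ne_zero))
  intro d
  rw [Nat.factorization_mul (pow_ne_zero _ hp.ne_zero) (pow_ne_zero _ hq.ne_zero),
    Nat.factorization_pow, Nat.factorization_pow, hp.factorization, hq.factorization]
  simp only [Finsupp.add_apply, Finsupp.smul_apply, Finsupp.single_apply, smul_eq_mul]
  by_cases h1 : d = p
  · subst h1; simp [hpq.symm]
  · by_cases h2 : d = q
    · subst h2; simp [hpq]
    · have : n.factorization d = 0 := by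
        by_cases hd : d.Prime
        · apply Nat.factorization_eq_zero_of_not_dvd
          intro hdd
          rcases h d hd hdd with h | h <;> contradiction
        · exact Nat.factorization_eq_zero_of_not_prime n hd
      simp [this, Ne.symm h1, Ne.symm h2]

theorem copK {G : Type u} [Group G] (K : Nat.Primes → Subgroup G)
    (hK : Cfsg.IsComplementSystem K) (p q : Nat.Primes) (hpq : p ≠ q) :
    (K p).index.Coprime (K q).index := by
  rw [hK p, hK q]
  exact Nat.coprime_pow_primes _ _ p.2 q.2 (fun h => hpq (Subtype.ext h))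

theorem facts {G : Type u} [Group G] [Finite G] (K : Nat.Primes → Subgroup G)
    (hK : Cfsg.IsComplementSystem K) (r s : Nat.Primes) (H : Subgroup G)
    (hH : H = ⨅ p ∈ primesOf G \ {r, s}, K p) :
    (∀ q : Nat.Primes, (q = r ∨ q = s) → H.index.Coprime (K q).index) ∧
    (∀ q : ℕ, q.Prime → q ∣ Nat.card H → q = r ∨ q = s) := by
  classical
  have hidx : H.index = ∏ p ∈ primesOf G \ {r, s}, (K p).index := by
    rw [hH]; exact index_iInf_of_coprime K _ (fun p _ q _ hpq => copK K hK p q hpq)
  constructor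
  · intro q hq
    rw [hidx]
    apply Nat.Coprime.prod_left
    intro p hp
    apply copK K hK p q
    rintro rfl
    rw [Finset.mem_sdiff] at hp
    apply hp.2
    rcases hq with rfl | rfl <;> simp
  · intro q hq hd
    by_contra hcon
    push Not at hcon
    have hqG : q ∣ Nat.card G := hd.trans (Subgroup.card_subgroup_dvd_card H)
    obtain ⟨q', hq'⟩ : ∃ q' : Nat.Primes, (q' : ℕ) = q := ⟨⟨q, hq⟩, rfl⟩
    subst hq'
    have hmem : q' ∈ primesOf G \ {r, s} := by
      rw [Finset.mem_sdiff, mem_primesOf]
      refine ⟨hqG, ?_⟩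
      intro hm
      rw [Finset.mem_insert, Finset.mem_singleton] at hm
      rcases hm with hm | hm
      · exact hcon.1 (congrArg Subtype.val hm)
      · exact hcon.2 (congrArg Subtype.val hm)
    have hle : H ≤ K q' := by rw [hH]; exact iInf₂_le _ hmem
    exact compSys_not_dvd_card K hK q' (hd.trans (Subgroup.card_dvd_of_le hle))

open scoped Pointwise in
theorem key {G : Type u} [Group G] [Finite G] (K : Nat.Primes → Subgroup G)
    (hK : Cfsg.IsComplementSystem K) (r s : Nat.Primes) (hrs : r ≠ s) (hs : (s : ℕ) ∣ Nat.card G)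
    (H : Subgroup G) (hH : H = ⨅ p ∈ primesOf G \ {r, s}, K p) (M : Subgroup H) [hMn : M.Normal]
    (hM : M ≠ ⊥) (hMr : IsPGroup r M) : ∃ N : Subgroup G, N.Normal ∧ N ≠ ⊥ ∧ N ≠ ⊤ := by
  classical
  obtain ⟨hHcop, hprimes⟩ := facts K hK r s H hH
  have hP : IsPGroup r ((K s).subgroupOf H) := by
    have : Nat.card ((K s).subgroupOf H) = (r : ℕ) ^ _ :=
      Nat.eq_prime_pow_of_unique_prime_dvd Nat.card_pos.ne' (by
        intro d hd hdd
        rw [card_subgroupOf_eq_card_inf] at hdd
        rcases hprimes d hd (hdd.trans (Subgroup.card_dvd_of_le inf_le_right)) with h | h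
        · exact h
        · exfalso
          exact compSys_not_dvd_card K hK s (h ▸ hdd.trans (Subgroup.card_dvd_of_le inf_le_left)))
    exact IsPGroup.of_card this
  have hrel : (K s).relIndex H = (K s).index := by
    have h1 := index_inf_of_coprime H (K s) (hHcop s (Or.inr rfl))
    have h2 := Subgroup.relIndex_mul_index (inf_le_left : H ⊓ K s ≤ H)
    rw [h1, Subgroup.inf_relIndex_left, mul_comm] at h2
    exact Nat.eq_of_mul_eq_mul_left (Nat.pos_of_ne_zero Subgroup.index_ne_zero_of_finite) h2
  have hnd : ¬ (r : ℕ) ∣ ((K s).subgroupOf H).index := by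
    change ¬ (r : ℕ) ∣ (K s).relIndex H
    rw [hrel, hK s]
    intro hd
    exact hrs (Subtype.ext ((Nat.prime_dvd_prime_iff_eq r.2 s.2).mp (r.2.dvd_of_dvd_pow hd)))
  have : Fact (r : ℕ).Prime := ⟨r.2⟩
  have hMle : M ≤ (K s).subgroupOf H := hMr.le_sylow_of_normal (hP.toSylow hnd)
  have hfac : ((K s : Subgroup G) : Set G) * ((H ⊓ K r : Subgroup G) : Set G) = Set.univ := by
    apply mul_eq_univ_of_coprime_index
    rw [index_inf_of_coprime H (K r) (hHcop r (Or.inl rfl))]
    exact Nat.Coprime.mul_right (hHcop s (Or.inr rfl)).symm (copK K hK s r hrs.symm)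
  refine ⟨(K s).normalCore, inferInstance, ?_, ?_⟩
  · intro hbot
    apply hM
    rw [eq_bot_iff]
    intro m hm
    have hmem : (m : G) ∈ (K s).normalCore := by
      intro g
      obtain ⟨k, hk, h, hh, e⟩ := (mul_eq_univ_iff _ _).mp hfac g
      have h1 : (⟨h, hh.1⟩ : H) * m * (⟨h, hh.1⟩ : H)⁻¹ ∈ M := hMn.conj_mem m hm _
      have h2 := hMle h1
      have h3 : h * m * h⁻¹ ∈ K s := Subgroup.mem_subgroupOf.mp h2
      rw [e]
      have h4 : k * h * m * (k * h)⁻¹ = k * (h * m * h⁻¹) * k⁻¹ := by group
      rw [h4]; exact mul_mem (mul_mem hk h3) (inv_mem hk)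
    rw [hbot, Subgroup.mem_bot] at hmem
    exact Subgroup.mem_bot.mpr (Subtype.ext hmem)
  · intro htop
    have h0 : K s = ⊤ := top_le_iff.mp (htop ▸ (K s).normalCore_le)
    have h1 := hK s
    rw [h0, Subgroup.index_top] at h1
    have hpos : 0 < (Nat.card G).factorization s := s.2.factorization_pos_of_dvd Nat.card_pos.ne' hs
    have := Nat.one_lt_pow hpos.ne' s.2.one_lt
    omega

theorem aux : ∀ (n : ℕ) (G : Type u) [Group G] [Finite G], Nat.card G = n → HasComps G →
    Group.IsSolvable G := by
  intro n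
  induction n using Nat.strong_induction_on with
  | _ n ih =>
    intro G _ _ hn h
    by_cases h2 : ∃ p q : ℕ, p.Prime ∧ q.Prime ∧ p ≠ q ∧ p ∣ Nat.card G ∧ q ∣ Nat.card G
    · obtain ⟨p, q, hp, hq, hpq, hpG, hqG⟩ := h2
      have hN : ∃ N : Subgroup G, N.Normal ∧ N ≠ ⊥ ∧ N ≠ ⊤ := by
        classical
        choose K hK using fun p : Nat.Primes => h p p.2
        obtain ⟨P, hP⟩ : ∃ P : Nat.Primes, (P : ℕ) = p := ⟨⟨p, hp⟩, rfl⟩
        obtain ⟨Q, hQ⟩ : ∃ Q : Nat.Primes, (Q : ℕ) = q := ⟨⟨q, hq⟩, rfl⟩
        have hPQ : P ≠ Q := by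
          intro h'; apply hpq; rw [← hP, ← hQ, h']
        obtain ⟨H, hH⟩ : ∃ H : Subgroup G, H = ⨅ t ∈ primesOf G \ {P, Q}, K t := ⟨_, rfl⟩
        obtain ⟨hHcop, hprimes⟩ := facts K hK P Q H hH
        rw [hP, hQ] at hprimes
        have hsolv : Group.IsSolvable H :=
          Cfsg.Agent.S0144.result p q _ _ hp hq (two_primes (Nat.card H) p q Nat.card_pos.ne' hp hq hpq hprimes)
        have hpH : p ∣ Nat.card H := by
          have h1 := hHcop P (Or.inl rfl)
          rw [hK P, hP] at h1
          have hpos : 0 < (Nat.card G).factorization p := hp.factorization_pos_of_dvd Nat.card_pos.ne' hpG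
          have h3 : H.index.Coprime p := Nat.Coprime.coprime_dvd_right (dvd_pow_self p hpos.ne') h1
          have h4 : p ∣ Nat.card H * H.index := by rw [Subgroup.card_mul_index]; exact hpG
          exact h3.symm.dvd_of_dvd_mul_right h4
        have hnt : Nontrivial H := by
          rw [← Finite.one_lt_card_iff_nontrivial]
          exact lt_of_lt_of_le hp.one_lt (Nat.le_of_dvd Nat.card_pos hpH)
        obtain ⟨r, M, hr, hMn, hMb, hMr⟩ := exists_normal_pgroup (G := H)
        have : Fact r.Prime := ⟨hr⟩
        have hrM : r ∣ Nat.card M := by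
          rcases hMr.card_eq_or_dvd with h1 | h1
          · exact absurd (Subgroup.card_eq_one.mp h1) hMb
          · exact h1
        rcases hprimes r hr (hrM.trans (Subgroup.card_subgroup_dvd_card M)) with h1 | h1
        · rw [h1, ← hP] at hMr
          exact key K hK P Q hPQ (hQ ▸ hqG) H hH M hMb hMr
        · rw [h1, ← hQ] at hMr
          rw [Finset.pair_comm] at hH
          exact key K hK Q P hPQ.symm (hP ▸ hpG) H hH M hMb hMr
      obtain ⟨N, hNn, hNb, hNt⟩ := hN
      have l1 : Nat.card N < n := by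
        rw [← hn, ← Subgroup.card_mul_index N]
        have h1 : N.index ≠ 1 := fun h' => hNt (Subgroup.index_eq_one.mp h')
        have h2 : N.index ≠ 0 := Subgroup.index_ne_zero_of_finite
        have h3 : 0 < Nat.card N := Nat.card_pos
        have h4 : 2 ≤ N.index := by omega
        nlinarith
      have l2 : Nat.card (G ⧸ N) < n := by
        rw [← hn]
        apply card_quotient_lt N
        have h1 : Nat.card N ≠ 1 := fun h' => hNb (Subgroup.card_eq_one.mp h')
        have h3 : 0 < Nat.card N := Nat.card_pos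
        omega
      have s1 : Group.IsSolvable N := ih _ l1 N rfl (hasComps_subgroup N h)
      have s2 : Group.IsSolvable (G ⧸ N) := ih _ l2 (G ⧸ N) rfl (hasComps_quotient N h)
      exact (Group.isSolvable_iff_subgroup_quotient N).mpr ⟨s1, s2⟩
    · push Not at h2
      by_cases h1 : Nat.card G = 1
      · have : Subsingleton G := (Nat.card_eq_one_iff_unique.mp h1).1
        infer_instance
      · have hp := Nat.minFac_prime h1
        have hpow := Nat.eq_prime_pow_of_unique_prime_dvd (n := Nat.card G) (p := (Nat.card G).minFac)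
          Nat.card_pos.ne' (by
            intro d hd hdd
            by_contra hne
            exact h2 d _ hd hp hne hdd (Nat.minFac_dvd _))
        exact Cfsg.Agent.S0144.result (Nat.card G).minFac 2 (Nat.card G).primeFactorsList.length 0 hp
          Nat.prime_two (by rw [pow_zero, mul_one]; exact hpow)

/-- Converse of Hall's Theorem: if for every prime p a finite group has a subgroup of index equal to the p-part of the group order (a Hall p-complement), then the group is solvable. -/
theorem result {G : Type*} [Group G] [Finite G]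
    (h : ∀ p : ℕ, p.Prime → ∃ H : Subgroup G, H.index = p ^ (Nat.card G).factorization p) :
    Group.IsSolvable G := by
  exact aux _ G rfl h

end Cfsg.Agent.S0006
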