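import Cfsg.Statements.S0007
import Mathlib

set_option autoImplicit false
open Cfsg

namespace Cfsg.Agent.S0007

/-- Subgroups of coprime index: the intersection has index equal to the product of the indices, and every element is a product of an element of the first subgroup and an element of the second. -/
theorem result {G : Type*} [Group G] [Finite G] (H K : Subgroup G)
    (h : H.index.Coprime K.index) :
    (H ⊓ K).index = H.index * K.index ∧ ∀ g : G, ∃ x ∈ H, ∃ y ∈ K, g = x * y := by
  have h1 : (H ⊓ K).index = H.index * K.index := by
    apply Nat.dvd_antisymm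
    · have h0 : (H ⊓ K).index ≤ H.index * K.index := Subgroup.index_inf_le
      have h2 : H.index * K.index ∣ (H ⊓ K).index :=
        Nat.Coprime.mul_dvd_of_dvd_of_dvd h (Subgroup.index_dvd_of_le inf_le_left)
          (Subgroup.index_dvd_of_le inf_le_right)
      have h3 : (H ⊓ K).index ≠ 0 := Subgroup.index_ne_zero_of_finite
      have h4 := Nat.le_of_dvd (Nat.pos_of_ne_zero h3) h2
      rw [le_antisymm h0 h4]
    · exact Nat.Coprime.mul_dvd_of_dvd_of_dvd h (Subgroup.index_dvd_of_le inf_le_left)
          (Subgroup.index_dvd_of_le inf_le_right)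
  refine ⟨h1, ?_⟩
  have h2 : K.relIndex H = K.index := by
    have h3 := Subgroup.relIndex_mul_index (inf_le_left : H ⊓ K ≤ H)
    rw [Subgroup.inf_relIndex_left, h1, mul_comm] at h3
    exact Nat.eq_of_mul_eq_mul_left (Nat.pos_of_ne_zero Subgroup.index_ne_zero_of_finite) h3
  let f : H ⧸ K.subgroupOf H → G ⧸ K := Quotient.map' (fun h => (h : G)) (by
    intro a b hab
    rw [QuotientGroup.leftRel_apply] at hab ⊢
    exact hab)
  have hf : Function.Injective f := by
    intro a b
    induction a using QuotientGroup.induction_on
    induction b using QuotientGroup.induction_on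
    intro hab
    rw [QuotientGroup.eq]
    have := QuotientGroup.eq.mp hab
    exact this
  have hbij := hf.bijective_of_nat_card_le (by
    rw [← Subgroup.index_eq_card, ← Subgroup.index_eq_card, ← h2]; rfl)
  intro g
  obtain ⟨a, ha⟩ := hbij.2 (g : G ⧸ K)
  induction a using QuotientGroup.induction_on with
  | H a =>
    have := QuotientGroup.eq.mp ha
    exact ⟨a, a.2, _, this, by group⟩

end Cfsg.Agent.S0007
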