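import Cfsg.Statements.S0011
import Cfsg.Agent.Lib.Helper1.Frattini

set_option autoImplicit false
open Cfsg

namespace Cfsg.Agent.S0011

/-- If the Frattini quotient of a finite group is nilpotent then the group is nilpotent. -/
theorem result {G : Type*} [Group G] [Finite G]
    (h : Group.IsNilpotent (G ⧸ frattini G)) : Group.IsNilpotent G := by
  rw [← Group.isNilpotent_top]
  apply Cfsg.Agent.Lib.Helper1.nilpotent_of_map_frattini_nilpotent ⊤ le_top
  rw [Subgroup.map_top_of_surjective _ (QuotientGroup.mk'_surjective _)]
  exact Group.isNilpotent_top.mpr h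

end Cfsg.Agent.S0011
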