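import Cfsg.Statements.S0014
import Mathlib
import Cfsg.Agent.Lib.Helper1.Frattini

set_option autoImplicit false
open Cfsg

namespace Cfsg.Agent.S0014

open Cfsg.Agent.Lib.Helper1
open scoped commutatorElement

variable {G : Type*} [Group G]

def KK (T : Finset G) : Subgroup G := Subgroup.closure (T : Set G) ⊔ frattini G

theorem KK_insert [DecidableEq G] (x : G) (T : Finset G) :
    KK (insert x T) = Subgroup.zpowers x ⊔ KK T := by
  unfold KK
  rw [Finset.coe_insert, Set.insert_eq, Subgroup.closure_union, Subgroup.zpowers_eq_closure, sup_assoc]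

theorem KK_mono {T T' : Finset G} (h : T ⊆ T') : KK T ≤ KK T' :=
  sup_le_sup_right (Subgroup.closure_mono (Finset.coe_subset.mpr h)) _

theorem frattini_le_KK (T : Finset G) : frattini G ≤ KK T := le_sup_right

theorem KK_insert_of_mem [DecidableEq G] {x : G} {T : Finset G} (h : x ∈ KK T) :
    KK (insert x T) = KK T := by
  rw [KK_insert]
  exact sup_eq_right.mpr (by rwa [Subgroup.zpowers_le])

theorem step [Finite G] {p : ℕ} [Fact p.Prime] (hG : IsPGroup p G) (K : Subgroup G)
    (hK : frattini G ≤ K) (x : G) (hx : x ∉ K) :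
    K.relIndex (Subgroup.zpowers x ⊔ K) = p := by
  haveI : K.Normal := ⟨fun k hk g => by
    have e : g * k * g⁻¹ = ⁅g, k⁆ * k := by simp [commutatorElement_def]
    rw [e]
    exact K.mul_mem (hK (pgroup_commutator_le_frattini hG
      (Subgroup.commutator_mem_commutator (Subgroup.mem_top g) (Subgroup.mem_top k)))) hk⟩
  rw [Subgroup.relIndex_sup_right]
  calc K.relIndex (Subgroup.zpowers x)
      = ((⊥ : Subgroup (G ⧸ K)).comap (QuotientGroup.mk' K)).relIndex (Subgroup.zpowers x) := by
        rw [MonoidHom.comap_bot, QuotientGroup.ker_mk']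
    _ = (⊥ : Subgroup (G ⧸ K)).relIndex ((Subgroup.zpowers x).map (QuotientGroup.mk' K)) :=
        Subgroup.relIndex_comap _ _ _
    _ = Nat.card ((Subgroup.zpowers x).map (QuotientGroup.mk' K)) := Subgroup.relIndex_bot_left _
    _ = Nat.card (Subgroup.zpowers (QuotientGroup.mk' K x)) := by rw [MonoidHom.map_zpowers]
    _ = orderOf (QuotientGroup.mk' K x) := Nat.card_zpowers _
    _ = p := orderOf_eq_prime
        (by
          rw [← map_pow, QuotientGroup.mk'_apply, QuotientGroup.eq_one_iff]
          exact hK (pgroup_pow_mem_frattini hG x))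
        (by
          rw [Ne, QuotientGroup.mk'_apply, QuotientGroup.eq_one_iff]
          exact hx)

theorem rel_insert [Finite G] [DecidableEq G] {p : ℕ} [Fact p.Prime] (hG : IsPGroup p G)
    (T : Finset G) (x : G) (hx : x ∉ KK T) :
    (frattini G).relIndex (KK (insert x T)) = (frattini G).relIndex (KK T) * p := by
  have h1 := Subgroup.relIndex_mul_relIndex (frattini G) (KK T) (KK (insert x T))
    (frattini_le_KK T) (KK_mono (Finset.subset_insert x T))
  rw [← h1, KK_insert, step hG (KK T) (frattini_le_KK T) x hx]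

theorem upper [Finite G] {p : ℕ} [Fact p.Prime] (hG : IsPGroup p G) (T : Finset G) :
    ∃ j ≤ T.card, (frattini G).relIndex (KK T) = p ^ j := by
  classical
  induction T using Finset.induction_on with
  | empty =>
    refine ⟨0, le_rfl, ?_⟩
    simp [KK]
  | insert x T hxT ih =>
    obtain ⟨j, hj, e⟩ := ih
    rw [Finset.card_insert_of_notMem hxT]
    by_cases hx : x ∈ KK T
    · exact ⟨j, by omega, by rw [KK_insert_of_mem hx, e]⟩
    · exact ⟨j + 1, by omega, by rw [rel_insert hG T x hx, e, pow_succ]⟩

theorem exact [Finite G] [DecidableEq G] {p : ℕ} [Fact p.Prime] (hG : IsPGroup p G) (T : Finset G)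
    (hT : ∀ x ∈ T, x ∉ KK (T.erase x)) (T' : Finset G) :
    T' ⊆ T → (frattini G).relIndex (KK T') = p ^ T'.card := by
  induction T' using Finset.induction_on with
  | empty =>
    intro _
    simp [KK]
  | insert x T' hxT ih =>
    intro hsub
    have h1 : T' ⊆ T := (Finset.subset_insert x T').trans hsub
    have hxm : x ∈ T := hsub (Finset.mem_insert_self x T')
    have h2 : T' ⊆ T.erase x := by
      intro y hy
      rw [Finset.mem_erase]
      exact ⟨fun e => hxT (e ▸ hy), h1 hy⟩
    have hx : x ∉ KK T' := fun h => hT x hxm (KK_mono h2 h)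
    rw [rel_insert hG T' x hx, ih h1, Finset.card_insert_of_notMem hxT, pow_succ]

/-- Burnside's basis Theorem: in a finite p-group whose Frattini quotient has order p ^ n, every generating set contains n elements that already generate, and no set with fewer than n elements generates. -/
theorem result {G : Type*} [Group G] [Finite G] (p n : ℕ) [Fact p.Prime]
    (hG : IsPGroup p G) (hn : (frattini G).index = p ^ n) :
    (∀ S : Finset G, Subgroup.closure (S : Set G) = ⊤ → ∃ T : Finset G, T ⊆ S ∧ T.card = n ∧ Subgroup.closure (T : Set G) = ⊤) ∧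
    (∀ T : Finset G, Subgroup.closure (T : Set G) = ⊤ → n ≤ T.card) := by
  classical
  have hp1 : 1 < p := (Fact.out : p.Prime).one_lt
  have hKtop : ∀ T : Finset G, Subgroup.closure (T : Set G) = ⊤ → KK T = ⊤ := by
    intro T hT
    unfold KK
    rw [hT, top_sup_eq]
  constructor
  · intro S hS
    have hne : (S.powerset.filter (fun T => KK T = ⊤)).Nonempty :=
      ⟨S, by simp [hKtop S hS]⟩
    obtain ⟨T, hTmem, hTmin⟩ := Finset.exists_min_image _ Finset.card hne
    rw [Finset.mem_filter, Finset.mem_powerset] at hTmem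
    obtain ⟨hTS, hTtop⟩ := hTmem
    have hind : ∀ x ∈ T, x ∉ KK (T.erase x) := by
      intro x hx hmem
      have h1 : KK (T.erase x) = ⊤ := by
        rw [← KK_insert_of_mem hmem, Finset.insert_erase hx, hTtop]
      have h2 := hTmin (T.erase x) (by
        rw [Finset.mem_filter, Finset.mem_powerset]
        exact ⟨(Finset.erase_subset x T).trans hTS, h1⟩)
      rw [Finset.card_erase_of_mem hx] at h2
      have := Finset.card_pos.mpr ⟨x, hx⟩
      omega
    have h3 := exact hG T hind T (Finset.Subset.refl T)
    rw [hTtop, Subgroup.relIndex_top_right, hn] at h3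
    refine ⟨T, hTS, (Nat.pow_right_injective hp1 h3).symm, ?_⟩
    exact frattini_nongenerating hTtop
  · intro T hT
    obtain ⟨j, hj, e⟩ := upper hG T
    rw [hKtop T hT, Subgroup.relIndex_top_right, hn] at e
    have := Nat.pow_right_injective hp1 e
    omega

end Cfsg.Agent.S0014
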