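import Cfsg.Statements.S0018
import Cfsg.Agent.Lib.Helper1.Fitting
import Cfsg.Agent.Lib.Helper1.SZSub

set_option autoImplicit false
open Cfsg

namespace Cfsg.Agent.S0018

/-- A finite solvable group whose Sylow p-subgroups are abelian has p-length one: a Sylow p-subgroup together with the largest normal subgroup of order prime to p generates a normal subgroup. -/
theorem result {G : Type*} [Group G] [Finite G] [Group.IsSolvable G]
    (p : ℕ) [Fact p.Prime] (P : Sylow p G) (hP : IsMulCommutative P) :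
    ((P : Subgroup G) ⊔ Cfsg.pPrimeCore p G).Normal := by
  classical
  have hKn : (Cfsg.pPrimeCore p G).Normal := Cfsg.Agent.Lib.Helper1.pPrimeCore_normal p
  set K := Cfsg.pPrimeCore p G with hK
  have hKc : (Nat.card K).Coprime p := Cfsg.Agent.Lib.Helper1.pPrimeCore_coprime p
  let π := QuotientGroup.mk' K
  have hπ : Function.Surjective π := QuotientGroup.mk'_surjective K
  have hker : π.ker = K := QuotientGroup.ker_mk' K
  have h1 : Cfsg.pPrimeCore p (G ⧸ K) = ⊥ := by
    rw [eq_bot_iff]
    apply sSup_le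
    rintro N ⟨hN1, hN2⟩
    have h2 : N.comap π ≤ K := by
      apply Cfsg.Agent.Lib.Helper1.le_pPrimeCore (hN1.comap π)
      rw [Cfsg.Agent.Lib.Helper1.card_comap_mk']
      exact Nat.Coprime.mul_left hKc hN2
    have h3 := Subgroup.map_mono (f := π) h2
    rw [Subgroup.map_comap_eq_self_of_surjective hπ] at h3
    have h4 : K.map π = ⊥ := by
      rw [Subgroup.map_eq_bot_iff]; exact hker.ge
    rwa [h4] at h3
  have h2 := Cfsg.Agent.Lib.Helper1.centralizer_pCore_le (G := G ⧸ K) p h1
  have hOn : (Cfsg.pCore p (G ⧸ K)).Normal := Cfsg.Agent.Lib.Helper1.pCore_normal p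
  have h3 : Cfsg.pCore p (G ⧸ K) ≤ (P : Subgroup G).map π := by
    have := (Cfsg.Agent.Lib.Helper1.pCore_isPGroup (G := G ⧸ K) p).le_sylow_of_normal
      (P.mapSurjective hπ)
    rwa [Sylow.coe_mapSurjective] at this
  have h4 : (P : Subgroup G).map π ≤ Subgroup.centralizer ((P : Subgroup G).map π : Set (G ⧸ K)) := by
    rintro _ ⟨x, hx, rfl⟩
    rw [Subgroup.mem_centralizer_iff]
    rintro _ ⟨y, hy, rfl⟩
    have := hP.is_comm.comm ⟨y, hy⟩ ⟨x, hx⟩
    have h5 : y * x = x * y := congrArg Subtype.val this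
    rw [← map_mul, ← map_mul, h5]
  have h5 : (P : Subgroup G).map π = Cfsg.pCore p (G ⧸ K) :=
    le_antisymm ((h4.trans (Subgroup.centralizer_le h3)).trans h2) h3
  have h6 : (P : Subgroup G) ⊔ K = ((P : Subgroup G).map π).comap π := by
    rw [Subgroup.comap_map_eq, hker]
  rw [h6, h5]
  exact hOn.comap π

end Cfsg.Agent.S0018
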