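import Cfsg.Statements.S0019
import Cfsg.Agent.Lib.Helper1.Glauberman

set_option autoImplicit false
open Cfsg

namespace Cfsg.Agent.S0019

open Subgroup Cfsg.Agent.Lib.Helper1 in
theorem step {G : Type*} [Group G] [Finite G] (H₁ H₂ : Subgroup G)
    (h12 : ∀ g : G, ∃ x ∈ H₁, ∃ y ∈ H₂, g = x * y) (p : ℕ) [Fact p.Prime] (P : Subgroup G)
    (hPn : ∀ h ∈ H₁, ∀ x ∈ P, h * x * h⁻¹ ∈ P) (hP : IsPGroup p P) (hne : P ≠ ⊥)
    (hidx : ¬ p ∣ H₂.index) : ∃ M : Subgroup G, M.Normal ∧ M ≠ ⊥ ∧ M ≤ H₂ := by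
  obtain ⟨x, hx⟩ := hP.nonempty_fixed_point_of_prime_not_dvd_card (G ⧸ H₂)
    (by rw [← index_eq_card]; exact hidx)
  induction x using QuotientGroup.induction_on with
  | H g =>
  have hg : ∀ z ∈ P, g⁻¹ * z * g ∈ H₂ := by
    intro z hz
    have h1 : ((z * g : G) : G ⧸ H₂) = (g : G ⧸ H₂) := hx ⟨z, hz⟩
    have h2 := QuotientGroup.eq.mp h1.symm
    simpa [mul_assoc] using h2
  have hPH₂ : P ≤ H₂ := by
    obtain ⟨a, ha, b, hb, rfl⟩ := h12 g
    intro z hz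
    have h1 := hg _ (hPn a ha z hz)
    have h2 : z = b * ((a * b)⁻¹ * (a * z * a⁻¹) * (a * b)) * b⁻¹ := by group
    rw [h2]
    exact H₂.mul_mem (H₂.mul_mem hb h1) (H₂.inv_mem hb)
  refine ⟨normalClosure (P : Set G), normalClosure_normal, ?_, ?_⟩
  · intro h
    apply hne
    rw [eq_bot_iff, ← h]
    exact le_normalClosure
  · rw [normalClosure, closure_le]
    intro z hz
    obtain ⟨a, ha, hc⟩ := Group.mem_conjugatesOfSet_iff.mp hz
    obtain ⟨c, rfl⟩ := isConj_iff.mp hc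
    obtain ⟨u, hu, v, hv, huv⟩ := h12 c⁻¹
    have hc' : c = v⁻¹ * u⁻¹ := by
      have : c = (c⁻¹)⁻¹ := by group
      rw [this, huv]; group
    have h1 := hPn u⁻¹ (H₁.inv_mem hu) a ha
    have h2 : c * a * c⁻¹ = v⁻¹ * (u⁻¹ * a * u⁻¹⁻¹) * v := by rw [hc']; group
    rw [h2]
    exact H₂.mul_mem (H₂.mul_mem (H₂.inv_mem hv) (hPH₂ h1)) hv

open Subgroup Cfsg.Agent.Lib.Helper1 in
theorem main.{u} : ∀ (n : ℕ) (G : Type u) [Group G] [Finite G], Nat.card G = n →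
    ∀ (H₁ H₂ H₃ : Subgroup G), Group.IsSolvable H₁ → Group.IsSolvable H₂ → Group.IsSolvable H₃ →
    (∀ g : G, ∃ x ∈ H₁, ∃ y ∈ H₂, g = x * y) → (∀ g : G, ∃ x ∈ H₁, ∃ y ∈ H₃, g = x * y) →
    H₂.index.Coprime H₃.index → Group.IsSolvable G := by
  intro n
  induction n using Nat.strong_induction_on with
  | _ n ih =>
  intro G _ _ hn H₁ H₂ H₃ h₁ h₂ h₃ h12 h13 hcop
  by_cases hbot : H₁ = ⊥
  · have htop : H₂ = ⊤ := by
      rw [eq_top_iff]
      intro g _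
      obtain ⟨x, hx, y, hy, rfl⟩ := h12 g
      rw [hbot, mem_bot] at hx
      rw [hx, one_mul]; exact hy
    rw [htop] at h₂
    exact Group.isSolvable_of_surjective (f := (⊤ : Subgroup G).subtype)
      (fun g => ⟨⟨g, mem_top g⟩, rfl⟩)
  have : Nontrivial H₁ := (nontrivial_iff_ne_bot H₁).mpr hbot
  obtain ⟨p, hp, P0', hchar, hpg, hne, -⟩ := exists_char_pSubgroup_of_solvable H₁
  haveI := Fact.mk hp
  set P := P0'.map H₁.subtype with hP
  have hPpg : IsPGroup p P := hpg.map _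
  have hPne : P ≠ ⊥ := by
    rw [Ne, map_eq_bot_iff_of_injective _ H₁.subtype_injective]
    exact hne
  have hPnorm : ∀ h ∈ H₁, ∀ x ∈ P, h * x * h⁻¹ ∈ P := by
    intro h hh x hx
    obtain ⟨y, hy, rfl⟩ := hx
    have hn' : P0'.Normal := inferInstance
    exact ⟨⟨h, hh⟩ * y * ⟨h, hh⟩⁻¹, hn'.conj_mem y hy _, rfl⟩
  have hex : ∃ M : Subgroup G, M.Normal ∧ M ≠ ⊥ ∧ Group.IsSolvable M := by
    by_cases hd : p ∣ H₂.index
    · have hd3 : ¬ p ∣ H₃.index := fun h =>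
        hp.one_lt.ne' (Nat.eq_one_of_dvd_coprimes hcop hd h)
      obtain ⟨M, hM1, hM2, hM3⟩ := step H₁ H₃ h13 p P hPnorm hPpg hPne hd3
      exact ⟨M, hM1, hM2, isSolvable_of_le hM3 h₃⟩
    · obtain ⟨M, hM1, hM2, hM3⟩ := step H₁ H₂ h12 p P hPnorm hPpg hPne hd
      exact ⟨M, hM1, hM2, isSolvable_of_le hM3 h₂⟩
  obtain ⟨M, hMn, hMne, hMs⟩ := hex
  let π := QuotientGroup.mk' M
  have hπ : Function.Surjective π := QuotientGroup.mk'_surjective M
  have hlt : Nat.card (G ⧸ M) < n := by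
    rw [← hn, card_eq_card_quotient_mul_card_subgroup M]
    have h1 : 1 < Nat.card M := (one_lt_card_iff_ne_bot M).mpr hMne
    have h2 : 0 < Nat.card (G ⧸ M) := Nat.card_pos
    nlinarith
  have hq : Group.IsSolvable (G ⧸ M) := by
    apply ih _ hlt (G ⧸ M) rfl (H₁.map π) (H₂.map π) (H₃.map π)
      (Group.isSolvable_of_surjective (π.subgroupMap_surjective H₁))
      (Group.isSolvable_of_surjective (π.subgroupMap_surjective H₂))
      (Group.isSolvable_of_surjective (π.subgroupMap_surjective H₃))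
    · intro g
      obtain ⟨g, rfl⟩ := hπ g
      obtain ⟨x, hx, y, hy, rfl⟩ := h12 g
      exact ⟨π x, mem_map_of_mem π hx, π y, mem_map_of_mem π hy, map_mul π x y⟩
    · intro g
      obtain ⟨g, rfl⟩ := hπ g
      obtain ⟨x, hx, y, hy, rfl⟩ := h13 g
      exact ⟨π x, mem_map_of_mem π hx, π y, mem_map_of_mem π hy, map_mul π x y⟩
    · exact Nat.Coprime.coprime_dvd_left (index_map_dvd H₂ hπ)
        (Nat.Coprime.coprime_dvd_right (index_map_dvd H₃ hπ) hcop)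
  exact (Group.isSolvable_iff_subgroup_quotient M).mpr ⟨hMs, hq⟩


/-- A finite group that factorises as H₁H₂ and as H₁H₃ with all three subgroups solvable and the indices of H₂ and H₃ coprime is solvable. -/
theorem result {G : Type*} [Group G] [Finite G] (H₁ H₂ H₃ : Subgroup G)
    (h₁ : Group.IsSolvable H₁) (h₂ : Group.IsSolvable H₂) (h₃ : Group.IsSolvable H₃)
    (h12 : ∀ g : G, ∃ x ∈ H₁, ∃ y ∈ H₂, g = x * y) (h13 : ∀ g : G, ∃ x ∈ H₁, ∃ y ∈ H₃, g = x * y)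
    (hcop : H₂.index.Coprime H₃.index) : Group.IsSolvable G := by
  exact main _ G rfl H₁ H₂ H₃ h₁ h₂ h₃ h12 h13 hcop

end Cfsg.Agent.S0019
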