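import Cfsg.Statements.S0020
import Cfsg.Agent.Lib.Helper1.Hall
import Cfsg.Agent.Lib.Helper1.Index

set_option autoImplicit false
open Pointwise
open Cfsg

namespace Cfsg.Agent.S0020

open Cfsg.Agent.Lib.Helper1 in
theorem aux {G : Type*} [Group G] [Finite G] [Group.IsSolvable G] :
    ∃ S : (p : Nat.Primes) → Sylow (p : ℕ) G,
      ∀ p q : Nat.Primes, ∀ g : G, (∃ x ∈ S p, ∃ y ∈ S q, g = x * y) →
        ∃ y ∈ S q, ∃ x ∈ S p, g = y * x := by
  classical
  set n := Nat.card G with hn
  have hn0 : n ≠ 0 := Nat.card_pos.ne'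
  let f : ℕ → ℕ := fun r => r ^ n.factorization r
  have hfpos : ∀ r : ℕ, r.Prime → 0 < f r := fun r hr => pow_pos hr.pos _
  have hex : ∀ r : ℕ, ∃ H : Subgroup G, r.Prime → H.index = f r := by
    intro r
    by_cases hr : r.Prime
    · obtain ⟨H, hH⟩ := hall_exists _ G rfl (n / f r) (f r)
        (by rw [mul_comm]; exact (Nat.ordProj_mul_ordCompl_eq_self n r).symm)
        ((Nat.Coprime.pow_left _ (Nat.coprime_ordCompl hr hn0)).symm)
      refine ⟨H, fun _ => ?_⟩
      have h1 := H.card_mul_index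
      rw [hH] at h1
      have h2 : n / f r * f r = n := by
        rw [mul_comm]; exact Nat.ordProj_mul_ordCompl_eq_self n r
      have h3 : 0 < n / f r := by
        rcases Nat.eq_zero_or_pos (n / f r) with h | h
        · rw [h, zero_mul] at h2; exact absurd h2.symm hn0
        · exact h
      exact Nat.eq_of_mul_eq_mul_left h3 (h1.trans h2.symm)
    · exact ⟨⊤, fun h => absurd h hr⟩
  choose H hH using hex
  have hidx : ∀ T : Finset ℕ, (∀ r ∈ T, r.Prime) → (T.inf H).index = ∏ r ∈ T, f r := by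
    intro T
    induction T using Finset.induction_on with
    | empty => intro _; simp
    | insert a T ha ih =>
      intro hT
      have hT' : ∀ r ∈ T, r.Prime := fun r hr => hT r (Finset.mem_insert_of_mem hr)
      have hap : a.Prime := hT a (Finset.mem_insert_self a T)
      rw [Finset.inf_insert, Finset.prod_insert ha, index_inf_of_coprime, hH a hap, ih hT']
      rw [hH a hap, ih hT']
      apply Nat.Coprime.prod_right
      intro r hr
      apply Nat.Coprime.pow
      exact (Nat.coprime_primes hap (hT' r hr)).mpr (fun h => ha (h ▸ hr))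
  set π := n.primeFactors with hπ
  have hπp : ∀ r ∈ π, r.Prime := fun r hr => Nat.prime_of_mem_primeFactors hr
  have hprod : ∏ r ∈ π, f r = n := Nat.prod_factorization_pow_eq_self hn0
  have hf1 : ∀ r, r ∉ π → f r = 1 := by
    intro r hr
    have : n.factorization r = 0 := by
      rw [← Finsupp.notMem_support_iff, Nat.support_factorization]
      exact hr
    simp [f, this]
  have herase : ∀ (T : Finset ℕ) (q : ℕ), (q ∉ T → f q = 1) →
      (∏ r ∈ T.erase q, f r) * f q = ∏ r ∈ T, f r := by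
    intro T q hq
    by_cases hqT : q ∈ T
    · exact Finset.prod_erase_mul T f hqT
    · rw [Finset.erase_eq_of_notMem hqT, hq hqT, mul_one]
  have hposprod : ∀ T : Finset ℕ, (∀ r ∈ T, r.Prime) → 0 < ∏ r ∈ T, f r :=
    fun T hT => Finset.prod_pos fun r hr => hfpos r (hT r hr)
  have hcard1 : ∀ p : ℕ, Nat.card ((π.erase p).inf H : Subgroup G) = f p := by
    intro p
    have hT : ∀ r ∈ π.erase p, r.Prime := fun r hr => hπp r (Finset.mem_of_mem_erase hr)
    have h1 := ((π.erase p).inf H).card_mul_index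
    rw [hidx _ hT] at h1
    have h2 := herase π p (hf1 p)
    rw [hprod] at h2
    apply Nat.eq_of_mul_eq_mul_right (hposprod _ hT)
    rw [h1, mul_comm, h2]
  have hcard2 : ∀ p q : ℕ, p ≠ q →
      Nat.card (((π.erase p).erase q).inf H : Subgroup G) = f p * f q := by
    intro p q hpq
    have hT : ∀ r ∈ (π.erase p).erase q, r.Prime :=
      fun r hr => hπp r (Finset.mem_of_mem_erase (Finset.mem_of_mem_erase hr))
    have h1 := (((π.erase p).erase q).inf H).card_mul_index
    rw [hidx _ hT] at h1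
    have h2 := herase π p (hf1 p)
    rw [hprod] at h2
    have h3 := herase (π.erase p) q (by
      intro hq
      apply hf1
      intro hq2
      exact hq (Finset.mem_erase.mpr ⟨hpq.symm, hq2⟩))
    apply Nat.eq_of_mul_eq_mul_right (hposprod _ hT)
    rw [h1, ← hn, ← h2, ← h3]
    ring
  refine ⟨fun p => haveI : Fact (p : ℕ).Prime := ⟨p.2⟩
    Sylow.ofCard ((π.erase (p : ℕ)).inf H) (hcard1 p), ?_⟩
  intro p q g hg
  by_cases hpq : (p : ℕ) = q
  · have : p = q := Subtype.ext hpq
    subst this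
    exact hg
  obtain ⟨x, hx, y, hy, rfl⟩ := hg
  have hx' : x ∈ (π.erase (p : ℕ)).inf H := hx
  have hy' : y ∈ (π.erase (q : ℕ)).inf H := hy
  have hle1 : (π.erase (p : ℕ)).inf H ≤ ((π.erase (p : ℕ)).erase q).inf H :=
    Finset.inf_mono (Finset.erase_subset _ _)
  have hle2 : (π.erase (q : ℕ)).inf H ≤ ((π.erase (p : ℕ)).erase q).inf H := by
    apply Finset.inf_mono
    intro r hr
    rw [Finset.mem_erase, Finset.mem_erase] at hr
    exact Finset.mem_erase.mpr ⟨hr.1, hr.2.2⟩
  have hcop : (f q).Coprime (f p) :=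
    Nat.Coprime.pow _ _ ((Nat.coprime_primes q.2 p.2).mpr (fun h => hpq h.symm))
  obtain ⟨b, hb, a, ha, hab⟩ := exists_mul_of_card_mul _ _ _ hle2 hle1
    (by rw [hcard1, hcard1]; exact hcop)
    (by rw [hcard1, hcard1, hcard2 _ _ hpq, mul_comm]) (x * y)
    (mul_mem (hle1 hx') (hle2 hy'))
  exact ⟨b, hb, a, ha, hab⟩


/-- A finite solvable group admits a Sylow system: Sylow subgroups, one for each prime, that pairwise permute as sets. -/
theorem result {G : Type*} [Group G] [Finite G] [Group.IsSolvable G] :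
    ∃ S : (p : Nat.Primes) → Sylow (p : ℕ) G,
      ∀ p q : Nat.Primes, (S p : Set G) * (S q : Set G) = (S q : Set G) * (S p : Set G) := by
  obtain ⟨S, hS⟩ := aux (G := G)
  refine ⟨S, fun p q => ?_⟩
  ext g
  constructor
  · intro hg
    obtain ⟨x, hx, y, hy, rfl⟩ := Set.mem_mul.mp hg
    obtain ⟨b, hb, a, ha, hab⟩ := hS p q (x * y) ⟨x, hx, y, hy, rfl⟩
    exact Set.mem_mul.mpr ⟨b, hb, a, ha, hab.symm⟩
  · intro hg
    obtain ⟨x, hx, y, hy, rfl⟩ := Set.mem_mul.mp hg
    obtain ⟨b, hb, a, ha, hab⟩ := hS q p (x * y) ⟨x, hx, y, hy, rfl⟩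
    exact Set.mem_mul.mpr ⟨b, hb, a, ha, hab.symm⟩

end Cfsg.Agent.S0020
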