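import Cfsg.Statements.S0021
import Cfsg.Agent.S0006
import Cfsg.Agent.Lib.Helper4.Factor

set_option autoImplicit false
open Pointwise
open Cfsg

namespace Cfsg.Agent.S0021

open Pointwise in
theorem coe_sup_of_mul_comm {G : Type*} [Group G] (A B : Subgroup G)
    (h : (A : Set G) * (B : Set G) = (B : Set G) * (A : Set G)) :
    ((A ⊔ B : Subgroup G) : Set G) = (A : Set G) * (B : Set G) := by
  let C : Subgroup G :=
    { carrier := (A : Set G) * (B : Set G)
      mul_mem' := by
        rintro _ _ ⟨a, ha, b, hb, rfl⟩ ⟨a', ha', b', hb', rfl⟩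
        have h1 : b * a' ∈ (B : Set G) * (A : Set G) := ⟨b, hb, a', ha', rfl⟩
        rw [← h] at h1
        obtain ⟨a'', ha'', b'', hb'', e⟩ := h1
        refine ⟨a * a'', A.mul_mem ha ha'', b'' * b', B.mul_mem hb'' hb', ?_⟩
        simp only at e ⊢
        calc a * a'' * (b'' * b') = a * (a'' * b'') * b' := by group
          _ = a * (b * a') * b' := by rw [e]
          _ = a * b * (a' * b') := by group
      one_mem' := ⟨1, A.one_mem, 1, B.one_mem, by simp⟩
      inv_mem' := by
        rintro _ ⟨a, ha, b, hb, rfl⟩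
        have h1 : b⁻¹ * a⁻¹ ∈ (B : Set G) * (A : Set G) := ⟨b⁻¹, B.inv_mem hb, a⁻¹, A.inv_mem ha, rfl⟩
        rw [← h] at h1
        simpa using h1 }
  have h1 : A ⊔ B ≤ C := sup_le (fun a ha => ⟨a, ha, 1, B.one_mem, mul_one a⟩)
    (fun b hb => ⟨1, A.one_mem, b, hb, one_mul b⟩)
  apply Set.Subset.antisymm h1
  rintro _ ⟨a, ha, b, hb, rfl⟩
  exact (A ⊔ B).mul_mem ((le_sup_left : A ≤ A ⊔ B) ha) ((le_sup_right : B ≤ A ⊔ B) hb)

open Pointwise in
theorem aux {G : Type*} [Group G] [Finite G]
    (S : (p : Nat.Primes) → Sylow (p : ℕ) G)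
    (hS : ∀ p q : Nat.Primes, (S p : Set G) * (S q : Set G) = (S q : Set G) * (S p : Set G))
    (T : Finset Nat.Primes) :
    ∃ H : Subgroup G, (∀ q ∈ T, (S q : Subgroup G) ≤ H) ∧
      (∀ t : Nat.Primes, (H : Set G) * ((S t : Subgroup G) : Set G) = ((S t : Subgroup G) : Set G) * (H : Set G)) ∧
      (∀ p : ℕ, p.Prime → (∀ q ∈ T, (q : ℕ) ≠ p) → ¬ p ∣ Nat.card H) := by
  classical
  induction T using Finset.induction_on with
  | empty =>
    refine ⟨⊥, by simp, ?_, ?_⟩
    · intro t
      simp
    · intro p hp _ hd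
      rw [Subgroup.card_bot] at hd
      exact hp.one_lt.ne' (Nat.dvd_one.mp hd)
  | insert r T hr ih =>
    obtain ⟨H, h1, h2, h3⟩ := ih
    have hc := coe_sup_of_mul_comm H (S r : Subgroup G) (h2 r)
    refine ⟨H ⊔ (S r : Subgroup G), ?_, ?_, ?_⟩
    · intro q hq
      rcases Finset.mem_insert.mp hq with rfl | hq
      · exact le_sup_right
      · exact (h1 q hq).trans le_sup_left
    · intro t
      rw [hc]
      have e1 : ((S r : Subgroup G) : Set G) * ((S t : Subgroup G) : Set G) =
        ((S t : Subgroup G) : Set G) * ((S r : Subgroup G) : Set G) := hS r t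
      have e2 := h2 t
      calc (H : Set G) * ((S r : Subgroup G) : Set G) * ((S t : Subgroup G) : Set G)
          = (H : Set G) * (((S r : Subgroup G) : Set G) * ((S t : Subgroup G) : Set G)) := mul_assoc _ _ _
        _ = (H : Set G) * (((S t : Subgroup G) : Set G) * ((S r : Subgroup G) : Set G)) := by rw [e1]
        _ = ((H : Set G) * ((S t : Subgroup G) : Set G)) * ((S r : Subgroup G) : Set G) := (mul_assoc _ _ _).symm
        _ = (((S t : Subgroup G) : Set G) * (H : Set G)) * ((S r : Subgroup G) : Set G) := by rw [e2]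
        _ = ((S t : Subgroup G) : Set G) * ((H : Set G) * ((S r : Subgroup G) : Set G)) := mul_assoc _ _ _
    · intro p hp hq hd
      have e := Cfsg.Agent.Lib.Helper4.card_mul_set H (S r : Subgroup G)
      rw [← hc] at e
      have hd2 : p ∣ Nat.card H * Nat.card (S r : Subgroup G) := by
        rw [← e]
        exact Dvd.dvd.mul_right hd _
      rcases (Nat.Prime.dvd_mul hp).mp hd2 with h | h
      · exact h3 p hp (fun q hq' => hq q (Finset.mem_insert_of_mem hq')) h
      · haveI := Fact.mk r.2
        obtain ⟨k, hk⟩ := IsPGroup.iff_card.mp (S r).2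
        rw [hk] at h
        have := (Nat.prime_dvd_prime_iff_eq hp r.2).mp (hp.dvd_of_dvd_pow h)
        exact hq r (Finset.mem_insert_self r T) this.symm

/-- A finite group with a family of pairwise permuting Sylow subgroups, one for each prime, is solvable (this direction rests on Burnside's two-prime Theorem). -/
theorem result {G : Type*} [Group G] [Finite G]
    (S : (p : Nat.Primes) → Sylow (p : ℕ) G)
    (hS : ∀ p q : Nat.Primes, (S p : Set G) * (S q : Set G) = (S q : Set G) * (S p : Set G)) :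
    Group.IsSolvable G := by
  classical
  apply Cfsg.Agent.S0006.result
  intro p hp
  obtain ⟨H, h1, -, h3⟩ := aux S hS (((Nat.card G).primeFactors.erase p).subtype Nat.Prime)
  refine ⟨H, ?_⟩
  have hpH : ¬ p ∣ Nat.card H := h3 p hp (by
    intro q hq
    have hq' : (q : ℕ) ∈ (Nat.card G).primeFactors.erase p :=
      Finset.mem_subtype.mp (show (q : {x // Nat.Prime x}) ∈ _ from hq)
    exact (Finset.mem_erase.mp hq').1)
  have hidx0 : H.index ≠ 0 := Subgroup.index_ne_zero_of_finite
  have huniq : ∀ q : ℕ, q.Prime → q ∣ H.index → q = p := by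
    intro q hq hd
    by_contra hne
    have hqG : q ∣ Nat.card G := hd.trans (Subgroup.index_dvd_card H)
    have hmem : (⟨q, hq⟩ : {x // Nat.Prime x}) ∈ ((Nat.card G).primeFactors.erase p).subtype Nat.Prime :=
      Finset.mem_subtype.mpr
        (Finset.mem_erase.mpr ⟨hne, Nat.mem_primeFactors.mpr ⟨hq, hqG, Nat.card_pos.ne'⟩⟩)
    have hle := h1 _ hmem
    haveI := Fact.mk hq
    exact (S ⟨q, hq⟩).not_dvd_index (hd.trans (Subgroup.index_dvd_of_le hle))
  have hk := Nat.eq_prime_pow_of_unique_prime_dvd hidx0 (fun {q} hq hd => huniq q hq hd)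
  have hmul := H.card_mul_index
  have hf : (Nat.card G).factorization p = H.index.primeFactorsList.length := by
    rw [← hmul, Nat.factorization_mul Nat.card_pos.ne' hidx0, Finsupp.add_apply,
      Nat.factorization_eq_zero_of_not_dvd hpH, zero_add]
    conv_lhs => rw [hk]
    rw [Nat.Prime.factorization_pow hp, Finsupp.single_eq_same]
  rw [hf]
  exact hk

end Cfsg.Agent.S0021
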