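import Cfsg.Statements.S0031
import Mathlib

set_option autoImplicit false
open Cfsg

namespace Cfsg.Agent.S0031

/-- A fixed-point-free automorphism of a finite group maps some Sylow p-subgroup to itself. -/
theorem result {G : Type*} [Group G] [Finite G] (φ : G ≃* G)
    (hφ : MonoidHom.FixedPointFree (φ : G →* G)) (p : ℕ) [Fact p.Prime] :
    ∃ P : Sylow p G, (P : Subgroup G).map (φ : G →* G) = P := by
  obtain ⟨P⟩ : Nonempty (Sylow p G) := inferInstance
  let φ' : MulAut G := φ
  obtain ⟨g, hg⟩ := MulAction.exists_smul_eq G P (φ' • P)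
  obtain ⟨y, hy⟩ := hφ.commutatorMap_surjective g⁻¹
  have hy' : y / φ y = g⁻¹ := hy
  refine ⟨y⁻¹ • P, ?_⟩
  have h1 : (φ' • P : Sylow p G) = MulAut.conj g • P := by rw [← hg]; rfl
  have h2 : φ' * MulAut.conj y⁻¹ = MulAut.conj (φ y⁻¹) * φ' := by
    ext z; simp [φ']
  have h3 : φ' • (MulAut.conj y⁻¹ • P) = MulAut.conj y⁻¹ • P := by
    rw [smul_smul, h2, mul_smul, h1, smul_smul, ← map_mul]
    congr 2
    rw [map_inv]
    have : g = φ y * y⁻¹ := by
      have := congrArg (·⁻¹) hy'
      simpa [div_eq_mul_inv] using this.symm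
    rw [this]; group
  have h4 := congrArg (fun Q : Sylow p G => (Q : Subgroup G)) h3
  exact h4

end Cfsg.Agent.S0031
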