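import Cfsg.Statements.S0032
import Mathlib

set_option autoImplicit false
open Cfsg

namespace Cfsg.Agent.S0032

/-- If an automorphism of a finite group fixes only the identity and maps a normal subgroup N into itself, then the only cosets of N it fixes are those in N: a fixed coset xN forces x ∈ N. -/
theorem result {G : Type*} [Group G] [Finite G] (φ : G ≃* G)
    (hφ : MonoidHom.FixedPointFree (φ : G →* G)) (N : Subgroup G) [N.Normal] (hN : ∀ n ∈ N, φ n ∈ N)
    (x : G) (hx : (φ x)⁻¹ * x ∈ N) : x ∈ N := by
  classical
  -- restrict φ to N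
  let ψ : N →* N := 
    { toFun := fun n => ⟨φ n, hN n n.2⟩
      map_one' := by ext; simp
      map_mul' := by intro a b; ext; simp }
  have hψ : MonoidHom.FixedPointFree ψ := by
    intro n hn
    have : φ (n : G) = n := congrArg Subtype.val hn
    have h1 := hφ (n : G) this
    ext; simpa using h1
  obtain ⟨n, hn⟩ := hψ.commutatorMap_surjective ⟨x⁻¹ * φ x, by
    have := N.inv_mem hx
    simpa [mul_inv_rev] using this⟩
  have h2 : (n : G) / φ n = x⁻¹ * φ x := congrArg Subtype.val hn
  -- then φ (x n) = x n
  have h3 : φ (x * n) = x * n := by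
    rw [map_mul]
    have : (n : G) = x⁻¹ * φ x * φ n := by
      rw [← h2]; simp
    calc φ x * φ n = x * (x⁻¹ * φ x * φ n) := by group
      _ = x * n := by rw [← this]
  have h4 := hφ _ h3
  have h5 : x = (n : G)⁻¹ := eq_inv_of_mul_eq_one_left h4
  rw [h5]; exact N.inv_mem n.2

end Cfsg.Agent.S0032
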