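import Cfsg.Statements.S0043
import Mathlib

set_option autoImplicit false
open Cfsg

namespace Cfsg.Agent.S0043

/-- A minimal normal subgroup of a finite solvable group is abelian, and for some prime p all of its elements have order dividing p. -/
theorem result {G : Type*} [Group G] [Finite G] [Group.IsSolvable G]
    (N : Subgroup G) [N.Normal] (hN : N ≠ ⊥) (hmin : ∀ M : Subgroup G, M.Normal → M ≤ N → M = ⊥ ∨ M = N) :
    IsMulCommutative N ∧ ∃ p : ℕ, p.Prime ∧ ∀ x ∈ N, x ^ p = 1 := by
  classical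
  have hcomm : ⁅N, N⁆ = ⊥ := by
    have hlt := Group.IsSolvable.commutator_lt_of_ne_bot hN
    have hnorm : (⁅N, N⁆ : Subgroup G).Normal := inferInstance
    rcases hmin _ hnorm hlt.le with h | h
    · exact h
    · exact absurd h hlt.ne
  have hab : ∀ x ∈ N, ∀ y ∈ N, x * y = y * x := by
    intro x hx y hy
    have := Subgroup.commutator_mem_commutator hx hy
    rw [hcomm, Subgroup.mem_bot] at this
    exact commutatorElement_eq_one_iff_mul_comm.mp this
  refine ⟨⟨⟨fun a b => Subtype.ext (hab a a.2 b b.2)⟩⟩, ?_⟩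
  have hcard : Nat.card N ≠ 1 := by
    intro h
    apply hN
    exact (Subgroup.card_eq_one).mp h
  obtain ⟨p, hp, hdvd⟩ := Nat.exists_prime_and_dvd hcard
  haveI := Fact.mk hp
  obtain ⟨x, hx⟩ := exists_prime_orderOf_dvd_card' p hdvd
  refine ⟨p, hp, ?_⟩
  let M : Subgroup G :=
    { carrier := {y | y ∈ N ∧ y ^ p = 1}
      mul_mem' := by
        rintro a b ⟨ha, ha'⟩ ⟨hb, hb'⟩
        refine ⟨N.mul_mem ha hb, ?_⟩
        have : Commute a b := hab a ha b hb
        rw [this.mul_pow, ha', hb', one_mul]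
      one_mem' := ⟨N.one_mem, one_pow _⟩
      inv_mem' := by
        rintro a ⟨ha, ha'⟩
        exact ⟨N.inv_mem ha, by rw [inv_pow, ha', inv_one]⟩ }
  have hMn : M.Normal := by
    constructor
    rintro a ⟨ha, ha'⟩ g
    refine ⟨(inferInstance : N.Normal).conj_mem a ha g, ?_⟩
    rw [conj_pow, ha', mul_one, mul_inv_cancel]
  have hMle : M ≤ N := fun y hy => hy.1
  rcases hmin M hMn hMle with h | h
  · exfalso
    have hxM : (x : G) ∈ M := by
      refine ⟨x.2, ?_⟩
      have := pow_orderOf_eq_one x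
      rw [hx] at this
      exact_mod_cast congrArg Subtype.val this
    rw [h, Subgroup.mem_bot] at hxM
    have hx1 : x = 1 := Subtype.ext hxM
    rw [hx1, orderOf_one] at hx
    exact hp.one_lt.ne hx
  · intro y hy
    rw [← h] at hy
    exact hy.2

end Cfsg.Agent.S0043
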