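import Cfsg.Statements.S0047
import Mathlib

set_option autoImplicit false
open Cfsg

namespace Cfsg.Agent.S0047

open Subgroup in
open scoped commutatorElement in
theorem aux {G : Type*} [Group G] [Finite G] (A B : Subgroup G)
    [IsMulCommutative A] [IsMulCommutative B] (hAB : ∀ g : G, ∃ a ∈ A, ∃ b ∈ B, g = a * b) :
    Group.IsSolvable G := by
  have hA : ∀ x ∈ A, ∀ y ∈ A, x * y = y * x := fun x hx y hy => setLike_mul_comm hx hy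
  have hB : ∀ x ∈ B, ∀ y ∈ B, x * y = y * x := fun x hx y hy => setLike_mul_comm hx hy
  have hBA : ∀ g : G, ∃ b ∈ B, ∃ a ∈ A, g = b * a := by
    intro g
    obtain ⟨a, ha, b, hb, h⟩ := hAB g⁻¹
    refine ⟨b⁻¹, B.inv_mem hb, a⁻¹, A.inv_mem ha, ?_⟩
    have : g = (g⁻¹)⁻¹ := by group
    rw [this, h]; group
  have L1 : ∀ a' ∈ A, ∀ b' a1 b2 a2 : G, a1 ∈ A → a2 ∈ A → a1 * b' * a1⁻¹ = b2 * a2 →
      a1 * ⁅a', b'⁆ * a1⁻¹ = ⁅a', b2⁆ := by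
    intro a' ha' b' a1 b2 a2 ha1 ha2 h
    have e1 : a1 * a' * a1⁻¹ = a' := by rw [hA a1 ha1 a' ha']; group
    have e2 : ⁅a', a2⁆ = 1 := commutatorElement_eq_one_iff_mul_comm.mpr (hA a' ha' a2 ha2)
    rw [conjugate_commutatorElement, e1, h, commutatorElement_mul_right_eq_mul_conj, e2]
    group
  have L2 : ∀ b' ∈ B, ∀ a' b1 a3 b3 : G, b1 ∈ B → b3 ∈ B → b1 * a' * b1⁻¹ = a3 * b3 →
      b1 * ⁅a', b'⁆ * b1⁻¹ = ⁅a3, b'⁆ := by
    intro b' hb' a' b1 a3 b3 hb1 hb3 h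
    have e1 : b1 * b' * b1⁻¹ = b' := by rw [hB b1 hb1 b' hb']; group
    have e2 : ⁅b3, b'⁆ = 1 := commutatorElement_eq_one_iff_mul_comm.mpr (hB b3 hb3 b' hb')
    rw [conjugate_commutatorElement, e1, h, commutatorElement_mul_left_eq_conj_mul, e2]
    group
  have key : ∀ a ∈ A, ∀ b ∈ B, ∀ a1 ∈ A, ∀ b1 ∈ B,
      (a1 * b1) * ⁅a, b⁆ * (a1 * b1)⁻¹ = (b1 * a1) * ⁅a, b⁆ * (b1 * a1)⁻¹ := by
    intro a ha b hb a1 ha1 b1 hb1
    obtain ⟨a3, ha3, b3, hb3, h3⟩ := hAB (b1 * a * b1⁻¹)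
    obtain ⟨b2, hb2, a2, ha2, h2⟩ := hBA (a1 * b * a1⁻¹)
    have e1 := L2 b hb a b1 a3 b3 hb1 hb3 h3
    have e2 := L1 a3 ha3 b a1 b2 a2 ha1 ha2 h2
    have e3 := L1 a ha b a1 b2 a2 ha1 ha2 h2
    have e4 := L2 b2 hb2 a b1 a3 b3 hb1 hb3 h3
    calc (a1 * b1) * ⁅a, b⁆ * (a1 * b1)⁻¹ = a1 * (b1 * ⁅a, b⁆ * b1⁻¹) * a1⁻¹ := by group
      _ = ⁅a3, b2⁆ := by rw [e1, e2]
      _ = b1 * (a1 * ⁅a, b⁆ * a1⁻¹) * b1⁻¹ := by rw [e3, e4]
      _ = (b1 * a1) * ⁅a, b⁆ * (b1 * a1)⁻¹ := by group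
  have hcomm : ∀ a ∈ A, ∀ b ∈ B, ∀ a1 ∈ A, ∀ b1 ∈ B,
      ⁅a, b⁆ * ⁅a1, b1⁆ = ⁅a1, b1⁆ * ⁅a, b⁆ := by
    intro a ha b hb a1 ha1 b1 hb1
    have h := key a ha b hb a1⁻¹ (A.inv_mem ha1) b1⁻¹ (B.inv_mem hb1)
    set c := ⁅a, b⁆ with hc
    have h2 : ⁅a1, b1⁆ = (b1⁻¹ * a1⁻¹)⁻¹ * (a1⁻¹ * b1⁻¹) := by
      rw [commutatorElement_def]; group
    rw [h2]
    calc c * ((b1⁻¹ * a1⁻¹)⁻¹ * (a1⁻¹ * b1⁻¹))
        = (b1⁻¹ * a1⁻¹)⁻¹ * ((b1⁻¹ * a1⁻¹) * c * (b1⁻¹ * a1⁻¹)⁻¹) * (a1⁻¹ * b1⁻¹) := by group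
      _ = (b1⁻¹ * a1⁻¹)⁻¹ * ((a1⁻¹ * b1⁻¹) * c * (a1⁻¹ * b1⁻¹)⁻¹) * (a1⁻¹ * b1⁻¹) := by rw [h]
      _ = (b1⁻¹ * a1⁻¹)⁻¹ * (a1⁻¹ * b1⁻¹) * c := by group
  set N : Subgroup G := ⁅A, B⁆ with hN
  have hNab : IsMulCommutative N := by
    rw [hN, Subgroup.commutator_def]
    apply isMulCommutative_closure
    rintro _ ⟨a, ha, b, hb, rfl⟩ _ ⟨a1, ha1, b1, hb1, rfl⟩
    exact hcomm a ha b hb a1 ha1 b1 hb1
  have hsup : A ⊔ B = ⊤ := by
    rw [eq_top_iff]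
    intro g _
    obtain ⟨a, ha, b, hb, rfl⟩ := hAB g
    exact mul_mem (mem_sup_left ha) (mem_sup_right hb)
  have hNn : N.Normal := by
    rw [← normalizer_eq_top_iff, eq_top_iff, ← hsup]
    exact sup_le (normalizer_commutator_ge_left A B) (normalizer_commutator_ge_right A B)
  have hq : IsMulCommutative (G ⧸ N) := by
    have hab : ∀ a ∈ A, ∀ b ∈ B, (a : G ⧸ N) * (b : G ⧸ N) = (b : G ⧸ N) * (a : G ⧸ N) := by
      intro a ha b hb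
      rw [← QuotientGroup.mk_mul, ← QuotientGroup.mk_mul, QuotientGroup.eq]
      have h1 : ⁅b⁻¹, a⁻¹⁆ ∈ N := by
        rw [hN, commutator_comm]
        exact commutator_mem_commutator (B.inv_mem hb) (A.inv_mem ha)
      have h2 : (a * b)⁻¹ * (b * a) = ⁅b⁻¹, a⁻¹⁆ := by
        rw [commutatorElement_def]; group
      rw [h2]; exact h1
    refine ⟨⟨fun x y => ?_⟩⟩
    induction x using QuotientGroup.induction_on with
    | H x =>
    induction y using QuotientGroup.induction_on with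
    | H y =>
    obtain ⟨a, ha, b, hb, rfl⟩ := hAB x
    obtain ⟨a', ha', b', hb', rfl⟩ := hAB y
    simp only [QuotientGroup.mk_mul]
    have e1 : (a : G ⧸ N) * (a' : G ⧸ N) = (a' : G ⧸ N) * (a : G ⧸ N) := by
      rw [← QuotientGroup.mk_mul, hA a ha a' ha', QuotientGroup.mk_mul]
    have e2 : (b : G ⧸ N) * (b' : G ⧸ N) = (b' : G ⧸ N) * (b : G ⧸ N) := by
      rw [← QuotientGroup.mk_mul, hB b hb b' hb', QuotientGroup.mk_mul]
    calc (a : G ⧸ N) * b * (a' * b') = a * (b * a') * b' := by group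
      _ = a * (a' * b) * b' := by rw [hab a' ha' b hb]
      _ = (a * a') * (b * b') := by group
      _ = (a' * a) * (b' * b) := by rw [e1, e2]
      _ = a' * (a * b') * b := by group
      _ = a' * (b' * a) * b := by rw [hab a ha b' hb']
      _ = a' * b' * (a * b) := by group
  have s1 : Group.IsSolvable N := Group.isSolvable_of_comm (fun a b => hNab.is_comm.comm a b)
  have s2 : Group.IsSolvable (G ⧸ N) := Group.isSolvable_of_comm (fun a b => hq.is_comm.comm a b)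
  exact (Group.isSolvable_iff_subgroup_quotient N).mpr ⟨s1, s2⟩


/-- A finite group which is the product AB of two abelian subgroups A and B is solvable. -/
theorem result {G : Type*} [Group G] [Finite G] (A B : Subgroup G)
    [IsMulCommutative A] [IsMulCommutative B] (hAB : ∀ g : G, ∃ a ∈ A, ∃ b ∈ B, g = a * b) :
    Group.IsSolvable G := by
  exact aux A B hAB

end Cfsg.Agent.S0047
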