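import Cfsg.Statements.S0049
import Cfsg.Agent.Lib.Helper1.Frattini

set_option autoImplicit false
open Cfsg

namespace Cfsg.Agent.S0049

/-- A prime divisor of the order of a finite group also divides the index of the Frattini subgroup. -/
theorem result {G : Type*} [Group G] [Finite G] (p : ℕ) (hp : p.Prime) (hdvd : p ∣ Nat.card G) :
    p ∣ (frattini G).index := by
  by_contra hnd
  haveI := Fact.mk hp
  haveI : Group.IsNilpotent (frattini G) := frattini_nilpotent
  obtain ⟨Q⟩ : Nonempty (Sylow p (frattini G)) := inferInstance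
  have hQn : (Q : Subgroup (frattini G)).Normal := inferInstance
  haveI := Sylow.characteristic_of_normal Q hQn
  set Q' := (Q : Subgroup (frattini G)).map (frattini G).subtype with hQ'
  haveI hQ'n : Q'.Normal := ConjAct.normal_of_characteristic_of_normal
  have hidx : ¬ p ∣ Q'.index := by
    rw [hQ', Subgroup.index_map_subtype]
    intro h
    rcases (Nat.Prime.dvd_mul hp).mp h with h | h
    · exact Q.not_dvd_index h
    · exact hnd h
  have hpg : IsPGroup p Q' := Q.2.map _
  obtain ⟨k, hk⟩ := IsPGroup.iff_card.mp hpg
  have hcop : (Nat.card Q').Coprime Q'.index := by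
    rw [hk]
    exact Nat.Coprime.pow_left k ((Nat.Prime.coprime_iff_not_dvd hp).mpr hidx)
  obtain ⟨H, hH⟩ := Subgroup.exists_right_complement'_of_coprime hcop
  have h1 : H ⊔ frattini G = ⊤ := by
    rw [eq_top_iff, ← hH.sup_eq_top]
    exact sup_le ((Subgroup.map_subtype_le _).trans le_sup_right) le_sup_left
  have h2 : H = ⊤ := frattini_nongenerating h1
  rw [h2, Subgroup.isComplement'_top_right] at hH
  rw [hH, Subgroup.index_bot] at hidx
  exact hidx hdvd

end Cfsg.Agent.S0049
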