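import Cfsg.Statements.S0050
import Cfsg.Agent.Lib.Helper1.Hall

set_option autoImplicit false
open Cfsg

namespace Cfsg.Agent.S0050

open Pointwise Cfsg.Agent.Lib.Helper1 in
theorem aux {G : Type*} [Group G] [Finite G] (L : Subgroup G) [L.Normal]
    (hL : Group.IsSolvable L)
    (H : Subgroup G) (hHL : H ≤ L) (hHall : (Nat.card H).Coprime (H.relIndex L)) :
    L ⊔ Subgroup.normalizer (H : Set G) = ⊤ := by
  rw [eq_top_iff]
  intro g _
  have hgL : MulAut.conj g • H ≤ L := by
    apply conj_smul_le_of_forall
    intro x hx
    exact Subgroup.Normal.conj_mem inferInstance x (hHL hx) g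
  have hcard : Nat.card L = Nat.card H * H.relIndex L := by
    have := (H.subgroupOf L).card_mul_index
    rw [card_subgroupOf_of_le hHL] at this
    exact this.symm
  obtain ⟨l, hl⟩ := hall_conj _ L rfl _ _ hcard hHall ((MulAut.conj g • H).subgroupOf L)
    (H.subgroupOf L) (by rw [card_subgroupOf_of_le hgL, card_conj_smul])
    (card_subgroupOf_of_le hHL)
  have h1 : MulAut.conj ((l : G) * g) • H = H := by
    apply conj_smul_eq_of_forall le_rfl
    intro x hx
    have h2 := hl ⟨g * x * g⁻¹, hgL (conj_mem_conj_smul hx)⟩
      (Subgroup.mem_subgroupOf.mpr (conj_mem_conj_smul hx))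
    have h3 := Subgroup.mem_subgroupOf.mp h2
    simpa [mul_assoc] using h3
  have h2 : (l : G) * g ∈ Subgroup.normalizer (H : Set G) :=
    Subgroup.mem_normalizer_iff_map_conj_eq.mpr h1
  have : g = (l : G)⁻¹ * ((l : G) * g) := by group
  rw [this]
  exact mul_mem (Subgroup.mem_sup_left (inv_mem l.2)) (Subgroup.mem_sup_right h2)


/-- Frattini argument for Hall subgroups: if L is a solvable normal subgroup and H a subgroup of L of order coprime to its index in L, then L together with the normaliser of H generates the whole group. -/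
theorem result {G : Type*} [Group G] [Finite G] (L : Subgroup G) [L.Normal] (hL : Group.IsSolvable L)
    (H : Subgroup G) (hHL : H ≤ L) (hHall : (Nat.card H).Coprime (H.relIndex L)) :
    L ⊔ Subgroup.normalizer (H : Set G) = ⊤ := by
  exact aux L hL H hHL hHall

end Cfsg.Agent.S0050
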