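import Cfsg.Statements.S0053
import Cfsg.Agent.Lib.Helper1.Frattini

set_option autoImplicit false
open Cfsg

namespace Cfsg.Agent.S0053

/-- An abelian minimal normal subgroup N of a finite group is complemented exactly when N is not inside the Frattini subgroup. -/
theorem result {G : Type*} [Group G] [Finite G]
    (N : Subgroup G) [N.Normal] [IsMulCommutative N] (hN : N ≠ ⊥)
    (hmin : ∀ M : Subgroup G, M.Normal → M ≤ N → M = ⊥ ∨ M = N) :
    (∃ H : Subgroup G, Subgroup.IsComplement' N H) ↔ ¬ N ≤ frattini G := by
  constructor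
  · rintro ⟨H, hH⟩ hle
    have h1 : H ⊔ frattini G = ⊤ := by
      rw [eq_top_iff, ← hH.sup_eq_top]
      exact sup_le (hle.trans le_sup_right) le_sup_left
    have h2 : H = ⊤ := frattini_nongenerating h1
    rw [h2, Subgroup.isComplement'_top_right] at hH
    exact hN hH
  · intro hle
    rw [Cfsg.Agent.Lib.Helper1.le_frattini_iff] at hle
    push Not at hle
    obtain ⟨M, hM, hNM⟩ := hle
    have hsup : N ⊔ M = ⊤ := by
      apply hM.2
      refine lt_of_le_of_ne le_sup_right ?_
      intro h
      apply hNM
      rw [h]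
      exact le_sup_left
    have hnorm : (N ⊓ M).Normal := by
      rw [← Subgroup.normalizer_eq_top_iff, eq_top_iff, ← hsup]
      apply sup_le
      · rw [Subgroup.le_normalizer_iff]
        intro n hn x hx
        have hc := (inferInstance : IsMulCommutative N).is_comm.comm ⟨n, hn⟩
          ⟨x, (Subgroup.mem_inf.mp hx).1⟩
        have hc' : n * x = x * n := congrArg Subtype.val hc
        rw [hc']
        simpa using hx
      · rw [Subgroup.le_normalizer_iff]
        intro m hm x hx
        obtain ⟨hx1, hx2⟩ := Subgroup.mem_inf.mp hx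
        exact Subgroup.mem_inf.mpr ⟨Subgroup.Normal.conj_mem inferInstance x hx1 m,
          M.mul_mem (M.mul_mem hm hx2) (M.inv_mem hm)⟩
    rcases hmin (N ⊓ M) hnorm inf_le_left with h | h
    · refine ⟨M, Subgroup.isComplement'_of_disjoint_and_mul_eq_univ (disjoint_iff.mpr h) ?_⟩
      rw [← Subgroup.normal_mul, hsup]
      rfl
    · exact absurd (inf_eq_left.mp h) hNM

end Cfsg.Agent.S0053
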