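import Cfsg.Statements.S0054
import Mathlib

set_option autoImplicit false
open Cfsg

namespace Cfsg.Agent.S0054

/-- A regular normal subgroup of a finite 2-transitive group is elementary abelian: it is commutative and all its elements have order dividing one prime. -/
theorem result {G : Type*} [Group G] [Finite G]
    {X : Type*} [Nonempty X] [MulAction G X] (h2 : MulAction.IsMultiplyPretransitive G X 2)
    (N : Subgroup G) [N.Normal] (htrans : MulAction.IsPretransitive N X) (hreg : ∀ x : X, MulAction.stabilizer N x = ⊥) :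
    IsMulCommutative N ∧ ∃ p : ℕ, p.Prime ∧ ∀ n ∈ N, n ^ p = 1 := by
  classical
  obtain ⟨x₀⟩ := ‹Nonempty X›
  rw [MulAction.is_two_pretransitive_iff] at h2
  have hfix : ∀ n ∈ N, n • x₀ = x₀ → n = 1 := by
    intro n hn hnx
    have h1 : (⟨n, hn⟩ : N) ∈ MulAction.stabilizer N x₀ := hnx
    rw [hreg x₀, Subgroup.mem_bot] at h1
    exact congrArg Subtype.val h1
  have hconj : ∀ n ∈ N, ∀ m ∈ N, n ≠ 1 → m ≠ 1 → ∃ g : G, g * n * g⁻¹ = m := by
    intro n hn m hm hn1 hm1
    have h1 : x₀ ≠ n • x₀ := fun e => hn1 (hfix n hn e.symm)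
    have h3 : x₀ ≠ m • x₀ := fun e => hm1 (hfix m hm e.symm)
    obtain ⟨g, hg1, hg2⟩ := h2 h1 h3
    refine ⟨g, ?_⟩
    have hg1' : g⁻¹ • x₀ = x₀ := by
      rw [inv_smul_eq_iff]; exact hg1.symm
    have h4 : (m⁻¹ * (g * n * g⁻¹)) • x₀ = x₀ := by
      rw [mul_smul, mul_smul, mul_smul, hg1', hg2, inv_smul_smul]
    have h5 := hfix _ (N.mul_mem (N.inv_mem hm) (‹N.Normal›.conj_mem n hn g)) h4
    exact (inv_mul_eq_one.mp h5).symm
  by_cases hN : N = ⊥
  · subst hN
    refine ⟨⟨⟨fun a b => Subsingleton.elim _ _⟩⟩, 2, Nat.prime_two, ?_⟩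
    intro n hn
    rw [Subgroup.mem_bot] at hn
    rw [hn, one_pow]
  have hcard : Nat.card N ≠ 1 := fun h => hN (Subgroup.card_eq_one.mp h)
  have hp : (Nat.card N).minFac.Prime := Nat.minFac_prime hcard
  have := Fact.mk hp
  obtain ⟨a, ha⟩ := exists_prime_orderOf_dvd_card' (G := N) _ (Nat.minFac_dvd _)
  have ha1 : (a : G) ≠ 1 := by
    intro e
    have : a = 1 := Subtype.ext e
    rw [this, orderOf_one] at ha
    exact hp.one_lt.ne ha
  have hap : (a : G) ^ (Nat.card N).minFac = 1 := by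
    have := pow_orderOf_eq_one a
    rw [ha] at this
    exact_mod_cast congrArg Subtype.val this
  have hexp : ∀ n ∈ N, n ^ (Nat.card N).minFac = 1 := by
    intro n hn
    by_cases hn1 : n = 1
    · rw [hn1, one_pow]
    · obtain ⟨g, hg⟩ := hconj a a.2 n hn ha1 hn1
      rw [← hg, conj_pow, hap]
      group
  refine ⟨?_, _, hp, hexp⟩
  have hPG : IsPGroup (Nat.card N).minFac N := by
    intro n
    refine ⟨1, ?_⟩
    rw [pow_one]
    exact Subtype.ext (hexp n n.2)
  have : Nontrivial N := (Subgroup.nontrivial_iff_ne_bot N).mpr hN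
  have := hPG.center_nontrivial
  obtain ⟨z, hz⟩ := exists_ne (1 : Subgroup.center N)
  have hz1 : ((z : N) : G) ≠ 1 := fun e => hz (Subtype.ext (Subtype.ext e))
  have hzc : ∀ m ∈ N, m * ((z : N) : G) = ((z : N) : G) * m := by
    intro m hm
    have := (Subgroup.mem_center_iff.mp z.2) ⟨m, hm⟩
    exact congrArg Subtype.val this
  refine ⟨⟨fun n m => Subtype.ext ?_⟩⟩
  by_cases hn1 : (n : G) = 1
  · simp [hn1]
  · obtain ⟨g, hg⟩ := hconj _ (z : N).2 n n.2 hz1 hn1
    have hm' : g⁻¹ * (m : G) * g ∈ N := by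
      have := ‹N.Normal›.conj_mem m m.2 g⁻¹
      simpa using this
    have h1 := hzc _ hm'
    change (n : G) * m = m * n
    rw [← hg]
    calc g * ((z : N) : G) * g⁻¹ * m = g * (((z : N) : G) * (g⁻¹ * m * g)) * g⁻¹ := by group
      _ = g * ((g⁻¹ * m * g) * ((z : N) : G)) * g⁻¹ := by rw [h1]
      _ = m * (g * ((z : N) : G) * g⁻¹) := by group

end Cfsg.Agent.S0054
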