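import Cfsg.Statements.S0057
import Mathlib
import Cfsg.Agent.S0023
import Cfsg.Agent.Lib.Helper1.CoprimeAbelian
import Cfsg.Agent.Lib.Helper5.Card

set_option autoImplicit false
open Cfsg

namespace Cfsg.Agent.S0057


open scoped commutatorElement

/-- factorisation from equality of relative indices -/
theorem exists_mul_of_relIndex_eq {G : Type*} [Group G] [Finite G] (P K C : Subgroup G) (hPK : P ≤ K)
    (h : C.relIndex P = C.relIndex K) : ∀ k ∈ K, ∃ u ∈ P, ∃ c ∈ C, k = u * c := by
  have hinj := (Subgroup.quotientSubgroupOfEmbeddingOfLE C hPK).injective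
  have hcard : Nat.card (P ⧸ C.subgroupOf P) = Nat.card (K ⧸ C.subgroupOf K) := h
  have hbij : Function.Bijective (Subgroup.quotientSubgroupOfEmbeddingOfLE C hPK) :=
    (Nat.bijective_iff_injective_and_card _).mpr ⟨hinj, hcard⟩
  intro k hk
  obtain ⟨q, hq⟩ := hbij.2 (QuotientGroup.mk ⟨k, hk⟩)
  induction q using QuotientGroup.induction_on with
  | H u =>
    rw [Subgroup.quotientSubgroupOfEmbeddingOfLE_apply_mk, QuotientGroup.eq,
      Subgroup.mem_subgroupOf] at hq
    refine ⟨u, u.2, _, hq, ?_⟩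
    simp

/-- a `p`-subgroup not inside `C` whose overgroup has relative index `p` -/
theorem relIndex_eq_prime {G : Type*} [Group G] [Finite G] {p : ℕ} (hp : p.Prime)
    (X Y C : Subgroup G) (hXY : X ≤ Y) (hX : IsPGroup p X) (hY : C.relIndex Y = p)
    (hXC : ¬ X ≤ C) : C.relIndex X = p := by
  have := Fact.mk hp
  obtain ⟨k, hk⟩ := (IsPGroup.iff_card).mp hX
  have h1 : C.relIndex X ∣ p ^ k := by rw [← hk]; exact Subgroup.relIndex_dvd_card _ _
  obtain ⟨j, -, hj⟩ := (Nat.dvd_prime_pow hp).mp h1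
  have h2 : C.relIndex X ≤ p := by
    rw [← hY]
    exact Subgroup.relIndex_le_of_le_right hXY (by rw [hY]; exact hp.ne_zero)
  have h3 : C.relIndex X ≠ 1 := fun e => hXC (Subgroup.relIndex_eq_one.mp e)
  rcases j with _ | _ | j
  · rw [pow_zero] at hj; exact absurd hj h3
  · simpa using hj
  · exfalso
    rw [hj] at h2
    have h6 : p ^ (j + 1 + 1) = p ^ j * p * p := by ring
    have h4 : 1 ≤ p ^ j := pow_pos hp.pos j
    have h5 := hp.two_le
    have h7 : 1 * p * p ≤ p ^ j * p * p := by gcongr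
    have h8 : p * 2 ≤ p * p := Nat.mul_le_mul_left p h5
    rw [h6] at h2
    rw [one_mul] at h7
    have h9 : p * 2 ≤ p := h8.trans (h7.trans h2)
    omega

/-- Under coprime action, if the centraliser of A in K has prime index p in K then the commutator subgroup [K, A] has order exactly p. -/
theorem result {G : Type*} [Group G] [Finite G] (A K : Subgroup G) (hAK : A ≤ Subgroup.normalizer (K : Set G))
    (hcop : (Nat.card A).Coprime (Nat.card K)) (hsolv : Group.IsSolvable A ∨ Group.IsSolvable K)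
    (p : ℕ) (hp : p.Prime) (hidx : (K ⊓ Subgroup.centralizer (A : Set G)).relIndex K = p) :
    Nat.card (⁅K, A⁆ : Subgroup G) = p := by
  classical
  have := Fact.mk hp
  obtain ⟨CA, hCA⟩ : ∃ CA : Subgroup G, CA = Subgroup.centralizer (A : Set G) := ⟨_, rfl⟩
  rw [← hCA, Subgroup.inf_relIndex_left] at hidx
  obtain ⟨PK, hPK⟩ := Cfsg.Agent.S0023.result A K hAK hcop hsolv p
  obtain ⟨P, hP⟩ : ∃ P : Subgroup G, P = (PK : Subgroup K).map K.subtype := ⟨_, rfl⟩
  rw [← hP] at hPK
  have hPle : P ≤ K := by rw [hP]; exact Subgroup.map_subtype_le _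
  have hPp : IsPGroup p P := by rw [hP]; exact PK.2.map _
  have hcardP : Nat.card P = Nat.card (PK : Subgroup K) := by
    rw [hP]
    exact Subgroup.card_map_of_injective (Subgroup.subtype_injective K)
  -- P is not contained in CA
  have hPC : ¬ P ≤ CA := by
    intro hle
    have h1 : Nat.card (K ⊓ CA : Subgroup G) * (K ⊓ CA).relIndex K = Nat.card K :=
      Cfsg.Agent.Lib.Helper5.card_mul_relIndex inf_le_left
    rw [Subgroup.inf_relIndex_left, hidx] at h1
    have h2 : Nat.card P ∣ Nat.card (K ⊓ CA : Subgroup G) :=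
      Subgroup.card_dvd_of_le (le_inf hPle hle)
    have h3 := (PK : Subgroup K).card_mul_index
    have h4 := PK.not_dvd_index
    obtain ⟨m, hm⟩ := h2
    rw [hm, hcardP, ← h3, mul_assoc] at h1
    have h5 : m * p = (PK : Subgroup K).index :=
      Nat.eq_of_mul_eq_mul_left Nat.card_pos h1
    exact h4 (Dvd.intro_left m h5)
  have hPidx : CA.relIndex P = p := relIndex_eq_prime hp P K CA hPle hPp hidx hPC
  have hfac := exists_mul_of_relIndex_eq P K CA hPle (by rw [hPidx, hidx])
  have hcomm : ⁅K, A⁆ = ⁅P, A⁆ := by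
    apply le_antisymm
    · rw [Subgroup.commutator_le]
      intro k hk a ha
      obtain ⟨u, hu, c, hc, rfl⟩ := hfac k hk
      have hca : a * c = c * a := by
        rw [hCA] at hc
        exact (Subgroup.mem_centralizer_iff.mp hc) a ha
      have : ⁅u * c, a⁆ = ⁅u, a⁆ := by
        simp only [commutatorElement_def]
        calc u * c * a * (u * c)⁻¹ * a⁻¹ = u * (c * a) * c⁻¹ * u⁻¹ * a⁻¹ := by group
          _ = u * (a * c) * c⁻¹ * u⁻¹ * a⁻¹ := by rw [hca]
          _ = u * a * u⁻¹ * a⁻¹ := by group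
      rw [this]
      exact Subgroup.commutator_mem_commutator hu ha
    · exact Subgroup.commutator_mono hPle le_rfl
  rw [hcomm]
  have hcopP : (Nat.card A).Coprime (Nat.card P) :=
    Nat.Coprime.coprime_dvd_right (Subgroup.card_dvd_of_le hPle) hcop
  have hsolvP : Group.IsSolvable A ∨ Group.IsSolvable P :=
    Or.inr (Cfsg.Agent.Lib.Helper1.isSolvable_of_isPGroup hPp)
  obtain ⟨W, hW⟩ : ∃ W : Subgroup G, W = ⁅P, A⁆ := ⟨_, rfl⟩
  have hWW : ⁅W, A⁆ = W := by
    rw [hW]; exact Cfsg.Agent.Lib.Helper1.coprime_comm_comm A P hPK hcopP hsolvP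
  rw [← hW]
  have hWP : W ≤ P := by
    rw [hW]; exact Subgroup.le_normalizer_iff_commutator_le_left.mp hPK
  have hWp : IsPGroup p W := hPp.to_le hWP
  have hAW : A ≤ Subgroup.normalizer (W : Set G) := by
    rw [hW]; exact Subgroup.normalizer_commutator_ge_right P A
  have hWC : ¬ W ≤ CA := by
    intro hle
    have h1 : ⁅W, A⁆ = ⊥ := by
      rw [Subgroup.commutator_eq_bot_iff_le_centralizer, ← hCA]; exact hle
    rw [hWW] at h1
    apply hPC
    rw [hCA, ← Subgroup.commutator_eq_bot_iff_le_centralizer, ← hW, h1]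
  have hWidx : CA.relIndex W = p := relIndex_eq_prime hp W P CA hWP hWp hPidx hWC
  obtain ⟨CW, hCW⟩ : ∃ CW : Subgroup G, CW = W ⊓ CA := ⟨_, rfl⟩
  have hCWW : CW ≤ W := by rw [hCW]; exact inf_le_left
  have hCWidx : (CW.subgroupOf W).index = p := by
    change CW.relIndex W = p
    rw [hCW, Subgroup.inf_relIndex_left, hWidx]
  have hCWn : (CW.subgroupOf W).Normal := by
    apply Subgroup.normal_of_index_eq_minFac_card
    rw [hCWidx]
    obtain ⟨k, hk⟩ := (IsPGroup.iff_card).mp hWp
    rw [hk]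
    have hk0 : k ≠ 0 := by
      rintro rfl
      rw [pow_zero] at hk
      apply hWC
      rw [Subgroup.card_eq_one.mp hk]
      exact bot_le
    exact (hp.pow_minFac hk0).symm
  have hWnCW : W ≤ Subgroup.normalizer (CW : Set G) :=
    (Subgroup.normal_subgroupOf_iff_le_normalizer hCWW).mp hCWn
  have hCWA : ⁅CW, A⁆ = ⊥ := by
    rw [Subgroup.commutator_eq_bot_iff_le_centralizer, hCW, ← hCA]; exact inf_le_right
  have h3 : ⁅⁅W, A⁆, CW⁆ = ⊥ := by
    apply Subgroup.commutator_commutator_eq_bot_of_rotate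
    · rw [Subgroup.commutator_comm A CW, hCWA, Subgroup.commutator_bot_left]
    · rw [eq_bot_iff, ← hCWA]
      exact Subgroup.commutator_mono (Subgroup.le_normalizer_iff_commutator_le_left.mp hWnCW) le_rfl
  rw [hWW] at h3
  have hcenter : CW.subgroupOf W ≤ Subgroup.center W := by
    intro x hx
    rw [Subgroup.mem_subgroupOf] at hx
    rw [Subgroup.mem_center_iff]
    intro y
    have h4 := (Subgroup.commutator_eq_bot_iff_le_centralizer.mp h3) y.2
    have h5 := (Subgroup.mem_centralizer_iff.mp h4) x hx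
    exact Subtype.ext h5.symm
  have hcyc : IsCyclic (W ⧸ CW.subgroupOf W) := by
    apply isCyclic_of_prime_card (p := p)
    exact hCWidx
  have hWcomm : IsMulCommutative W :=
    (QuotientGroup.mk' (CW.subgroupOf W)).isMulCommutative_of_isCyclic_of_ker_le_center
      (by rw [QuotientGroup.ker_mk']; exact hcenter)
  have h6 := Cfsg.Agent.Lib.Helper1.coprime_abelian_inf A W hAW
    (Nat.Coprime.coprime_dvd_right (Subgroup.card_dvd_of_le hWP) hcopP)
  rw [hWW, ← hCA, inf_eq_left.mpr (inf_le_left : W ⊓ CA ≤ W)] at h6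
  have h7 : (W ⊓ CA).relIndex W = p := by rw [Subgroup.inf_relIndex_left, hWidx]
  rw [h6, Subgroup.relIndex_bot_left] at h7
  exact h7

end Cfsg.Agent.S0057
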