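import Cfsg.Statements.S0060
import Cfsg.Agent.Lib.Helper1.Fitting

set_option autoImplicit false
open Pointwise
open Cfsg

namespace Cfsg.Agent.S0060

/-- Brodkey's Theorem: in a finite group with abelian Sylow p-subgroups and no nontrivial normal p-subgroup, some conjugate of a Sylow p-subgroup meets it trivially. -/
theorem result {G : Type*} [Group G] [Finite G] (p : ℕ) [Fact p.Prime]
    (S : Sylow p G) (hS : IsMulCommutative S) (hOp : Cfsg.pCore p G = ⊥) :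
    ∃ g : G, (S : Subgroup G) ⊓ MulAut.conj g • (S : Subgroup G) = ⊥ := by
  classical
  have hcS : ∀ x ∈ S, ∀ y ∈ S, x * y = y * x := fun x hx y hy =>
    congrArg Subtype.val (hS.is_comm.comm ⟨x, hx⟩ ⟨y, hy⟩)
  have memsmul : ∀ (g x : G) (Q : Sylow p G), x ∈ g • Q ↔ g⁻¹ * x * g ∈ Q := by
    intro g x Q
    have : x ∈ ((g • Q : Sylow p G) : Subgroup G) ↔ g⁻¹ * x * g ∈ (Q : Subgroup G) := by
      rw [Sylow.coe_subgroup_smul, Cfsg.Agent.Lib.Helper1.mem_conj_smul]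
    exact this
  have hcomm : ∀ Q : Sylow p G, ∀ x ∈ Q, ∀ y ∈ Q, x * y = y * x := by
    intro Q x hx y hy
    obtain ⟨g, rfl⟩ := MulAction.exists_smul_eq G S Q
    rw [memsmul] at hx hy
    have h := hcS _ hx _ hy
    calc x * y = g * ((g⁻¹ * x * g) * (g⁻¹ * y * g)) * g⁻¹ := by group
      _ = g * ((g⁻¹ * y * g) * (g⁻¹ * x * g)) * g⁻¹ := by rw [h]
      _ = y * x := by group
  obtain ⟨⟨S0, T0⟩, hmin⟩ := Finite.exists_min
    (fun x : Sylow p G × Sylow p G => Nat.card ((x.1 : Subgroup G) ⊓ (x.2 : Subgroup G) : Subgroup G))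
  simp only at hmin
  set D : Subgroup G := (S0 : Subgroup G) ⊓ (T0 : Subgroup G) with hD
  set N := Subgroup.normalizer (D : Set G) with hN
  have hS0N : (S0 : Subgroup G) ≤ N := by
    rw [Subgroup.le_normalizer_iff]
    intro s hs d hd
    have := hcomm S0 s hs d (Subgroup.mem_inf.mp hd).1
    rw [this]; simpa using hd
  have hT0N : (T0 : Subgroup G) ≤ N := by
    rw [Subgroup.le_normalizer_iff]
    intro s hs d hd
    have := hcomm T0 s hs d (Subgroup.mem_inf.mp hd).2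
    rw [this]; simpa using hd
  have hDR : ∀ R : Sylow p G, D ≤ (R : Subgroup G) := by
    intro R
    have hpg : IsPGroup p (((R : Subgroup G) ⊓ N).subgroupOf N) :=
      (R.2.to_inf_left).comap_subtype
    obtain ⟨Q, hQ⟩ := hpg.exists_le_sylow
    obtain ⟨n, hn⟩ := MulAction.exists_smul_eq N (S0.subtype hS0N) Q
    have h1 : ∀ x ∈ (R : Subgroup G) ⊓ N, (n : G)⁻¹ * x * n ∈ S0 := by
      intro x hx
      have hxN : x ∈ N := (Subgroup.mem_inf.mp hx).2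
      have h2 : (⟨x, hxN⟩ : N) ∈ (Q : Subgroup N) := hQ (Subgroup.mem_subgroupOf.mpr hx)
      rw [← hn, Sylow.coe_subgroup_smul, Cfsg.Agent.Lib.Helper1.mem_conj_smul,
        Sylow.coe_subtype, Subgroup.mem_subgroupOf] at h2
      exact h2
    have h2 : (((n : G)⁻¹ • R : Sylow p G) : Subgroup G) ⊓ (T0 : Subgroup G) ≤ D := by
      intro y hy
      obtain ⟨hy1, hy2⟩ := Subgroup.mem_inf.mp hy
      have hy1' : (n : G)⁻¹⁻¹ * y * (n : G)⁻¹ ∈ R := (memsmul _ _ _).mp hy1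
      rw [inv_inv] at hy1'
      have hyN : (n : G) * y * (n : G)⁻¹ ∈ N := N.mul_mem (N.mul_mem n.2 (hT0N hy2)) (N.inv_mem n.2)
      have h3 := h1 _ (Subgroup.mem_inf.mpr ⟨hy1', hyN⟩)
      have h4 : (n : G)⁻¹ * ((n : G) * y * (n : G)⁻¹) * n = y := by group
      rw [h4] at h3
      exact Subgroup.mem_inf.mpr ⟨h3, hy2⟩
    have h3 := Subgroup.eq_of_le_of_card_ge h2 (hmin ((n : G)⁻¹ • R, T0))
    intro d hd
    have hd' : (n : G)⁻¹ * d * (n : G)⁻¹⁻¹ ∈ D :=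
      (Subgroup.le_normalizer_iff.mp (le_refl N)) _ (N.inv_mem n.2) d hd
    rw [← h3] at hd'
    have h5 := (memsmul _ _ _).mp (Subgroup.mem_inf.mp hd').1
    have h6 : (n : G)⁻¹⁻¹ * ((n : G)⁻¹ * d * (n : G)⁻¹⁻¹) * (n : G)⁻¹ = d := by group
    rw [h6] at h5
    exact h5
  have hDbot : D = ⊥ := by
    rw [eq_bot_iff, ← hOp, Cfsg.Agent.Lib.Helper1.pCore_eq_iInf_sylow]
    exact le_iInf hDR
  obtain ⟨x, hx⟩ := MulAction.exists_smul_eq G S S0
  obtain ⟨y, hy⟩ := MulAction.exists_smul_eq G S T0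
  refine ⟨x⁻¹ * y, ?_⟩
  rw [eq_bot_iff]
  intro z hz
  obtain ⟨hz1, hz2⟩ := Subgroup.mem_inf.mp hz
  rw [Cfsg.Agent.Lib.Helper1.mem_conj_smul] at hz2
  have h1 : x * z * x⁻¹ ∈ S0 := by
    rw [← hx, memsmul]
    have : x⁻¹ * (x * z * x⁻¹) * x = z := by group
    rw [this]; exact hz1
  have h2 : x * z * x⁻¹ ∈ T0 := by
    rw [← hy, memsmul]
    have : y⁻¹ * (x * z * x⁻¹) * y = (x⁻¹ * y)⁻¹ * z * (x⁻¹ * y) := by group
    rw [this]; exact hz2
  have h3 : x * z * x⁻¹ ∈ D := Subgroup.mem_inf.mpr ⟨h1, h2⟩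
  rw [hDbot, Subgroup.mem_bot] at h3
  rw [Subgroup.mem_bot]
  have : z = x⁻¹ * (x * z * x⁻¹) * x := by group
  rw [this, h3]; group

end Cfsg.Agent.S0060
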