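import Cfsg.Statements.S0065
import Mathlib

set_option autoImplicit false
open Cfsg

namespace Cfsg.Agent.S0065

/-- A nontrivial normal subgroup of a nilpotent group intersects the centre nontrivially. -/
theorem result {G : Type*} [Group G] [Finite G] [Group.IsNilpotent G]
    (N : Subgroup G) [N.Normal] (hN : N ≠ ⊥) : N ⊓ Subgroup.center G ≠ ⊥ := by
  obtain ⟨n, hn⟩ := Subgroup.nilpotent_iff_lowerCentralSeries.mp (inferInstance : Group.IsNilpotent G)
  have key : ∀ d i : ℕ, i + d = n → ∀ M : Subgroup G, M ≤ (⊤ : Subgroup G).lowerCentralSeries i →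
      M ≤ N → M ≠ ⊥ → N ⊓ Subgroup.center G ≠ ⊥ := by
    intro d
    induction d with
    | zero =>
      intro i hi M hM _ hne
      rw [add_zero] at hi
      rw [hi, hn] at hM
      exact absurd (le_bot_iff.mp hM) hne
    | succ d ih =>
      intro i hi M hM hMN hne
      by_cases hc : ⁅M, (⊤ : Subgroup G)⁆ = ⊥
      · have h1 : M ≤ Subgroup.center G := by
          rw [Subgroup.commutator_eq_bot_iff_le_centralizer] at hc
          simpa [Subgroup.centralizer_univ] using hc
        intro hbot
        apply hne
        rw [eq_bot_iff, ← hbot]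
        exact le_inf hMN h1
      · refine ih (i + 1) (by omega) ⁅M, (⊤ : Subgroup G)⁆ ?_ ?_ hc
        · rw [Subgroup.lowerCentralSeries_succ]
          exact Subgroup.commutator_mono hM le_rfl
        · exact (Subgroup.commutator_mono hMN le_rfl).trans (Subgroup.commutator_le_left N ⊤)
  exact key n 0 (by omega) N (by simp) le_rfl hN

end Cfsg.Agent.S0065
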