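import Cfsg.Statements.S0068
import Mathlib

set_option autoImplicit false
open Cfsg

namespace Cfsg.Agent.S0068

/-- Frobenius complements of even order: if H complements a nontrivial normal subgroup K, each nonidentity element of H has trivial centraliser in K, and H has even order, then H contains a unique involution s, K is abelian, and s inverts every element of K. -/
theorem result {G : Type*} [Group G] [Finite G] (K H : Subgroup G) [K.Normal]
    (hc : Subgroup.IsComplement' K H) (hK : K ≠ ⊥) (hfpf : ∀ h ∈ H, h ≠ 1 → K ⊓ Subgroup.centralizer {h} = ⊥)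
    (heven : 2 ∣ Nat.card H) :
    (∃ s ∈ H, orderOf s = 2 ∧ (∀ t ∈ H, orderOf t = 2 → t = s) ∧ ∀ k ∈ K, s * k * s⁻¹ = k⁻¹) ∧ IsMulCommutative K := by
  classical
  haveI : Fact (Nat.Prime 2) := ⟨Nat.prime_two⟩
  obtain ⟨s', hs'⟩ := exists_prime_orderOf_dvd_card' (G := H) 2 heven
  obtain ⟨s, hs⟩ : ∃ s : G, s = (s' : G) := ⟨_, rfl⟩
  have hsH : s ∈ H := by rw [hs]; exact s'.2
  have hs2 : orderOf s = 2 := by rw [hs, Subgroup.orderOf_coe]; exact hs'
  have hinv : ∀ t ∈ H, orderOf t = 2 → ∀ k ∈ K, t * k * t⁻¹ = k⁻¹ := by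
    intro t htH ht2
    have ht1 : t ≠ 1 := by intro e; rw [e, orderOf_one] at ht2; omega
    have htt : t * t = 1 := by rw [← pow_two, ← ht2]; exact pow_orderOf_eq_one t
    have htinv : t⁻¹ = t := inv_eq_of_mul_eq_one_left htt
    let f : K → K := fun k => ⟨(k : G)⁻¹ * (t * k * t⁻¹),
      K.mul_mem (K.inv_mem k.2) (‹K.Normal›.conj_mem _ k.2 _)⟩
    have hfinj : Function.Injective f := by
      intro a b hab
      have hab' : (a : G)⁻¹ * (t * a * t⁻¹) = (b : G)⁻¹ * (t * b * t⁻¹) := congrArg Subtype.val hab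
      have hcm : (b : G) * (a : G)⁻¹ ∈ K ⊓ Subgroup.centralizer {t} := by
        refine Subgroup.mem_inf.mpr ⟨K.mul_mem b.2 (K.inv_mem a.2), ?_⟩
        rw [Subgroup.mem_centralizer_singleton_iff]
        calc (b : G) * (a : G)⁻¹ * t = b * ((a : G)⁻¹ * (t * a * t⁻¹)) * t * (a : G)⁻¹ := by group
          _ = b * ((b : G)⁻¹ * (t * b * t⁻¹)) * t * (a : G)⁻¹ := by rw [hab']
          _ = t * (b * (a : G)⁻¹) := by group
      rw [hfpf t htH ht1, Subgroup.mem_bot] at hcm
      apply Subtype.ext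
      exact (mul_inv_eq_one.mp hcm).symm
    have hfsurj : Function.Surjective f := Finite.surjective_of_injective hfinj
    intro k hk
    obtain ⟨a, ha⟩ := hfsurj ⟨k, hk⟩
    have hka : k = (a : G)⁻¹ * (t * a * t⁻¹) := (congrArg Subtype.val ha).symm
    rw [hka, htinv]
    calc t * ((a : G)⁻¹ * (t * a * t)) * t = t * (a : G)⁻¹ * t * a * (t * t) := by group
      _ = t * (a : G)⁻¹ * t * a := by rw [htt, mul_one]
      _ = t⁻¹ * (a : G)⁻¹ * t⁻¹ * a := by rw [htinv]
      _ = ((a : G)⁻¹ * (t * a * t))⁻¹ := by group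
  have hss : s * s = 1 := by rw [← pow_two, ← hs2]; exact pow_orderOf_eq_one s
  refine ⟨⟨s, hsH, hs2, ?_, hinv s hsH hs2⟩, ?_⟩
  · intro t htH ht2
    by_contra hne
    have hst1 : s * t ≠ 1 := by
      intro e
      apply hne
      have h1 : t = s⁻¹ := eq_inv_of_mul_eq_one_right e
      rw [h1]
      exact inv_eq_of_mul_eq_one_left hss
    have hle : K ≤ K ⊓ Subgroup.centralizer {s * t} := by
      intro k hk
      refine Subgroup.mem_inf.mpr ⟨hk, ?_⟩
      rw [Subgroup.mem_centralizer_singleton_iff]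
      have h1 := hinv t htH ht2 k hk
      have h2 := hinv s hsH hs2 k⁻¹ (K.inv_mem hk)
      rw [inv_inv] at h2
      calc k * (s * t) = (s * k⁻¹ * s⁻¹) * (s * t) := by rw [h2]
        _ = s * k⁻¹ * t := by group
        _ = s * (t * k * t⁻¹) * t := by rw [h1]
        _ = s * t * k := by group
    rw [hfpf (s * t) (H.mul_mem hsH htH) hst1] at hle
    exact hK (le_bot_iff.mp hle)
  · refine ⟨⟨fun a b => Subtype.ext ?_⟩⟩
    have h1 := hinv s hsH hs2 (a * b) (K.mul_mem a.2 b.2)
    have h2 := hinv s hsH hs2 a a.2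
    have h3 := hinv s hsH hs2 b b.2
    have h4 : ((a : G) * b)⁻¹ = (a : G)⁻¹ * (b : G)⁻¹ := by
      rw [← h1, ← h2, ← h3]; group
    have h5 : ((a : G) * b)⁻¹ = ((b : G) * a)⁻¹ := by rw [h4]; group
    exact inv_injective h5

end Cfsg.Agent.S0068
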