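import Cfsg.Statements.S0070
import Mathlib
import Cfsg.Agent.Lib.Helper10.Fitting
import Cfsg.Agent.S0584

set_option autoImplicit false
open Cfsg

namespace Cfsg.Agent.S0070

/-- The Fitting subgroup commutes with passing to the Frattini quotient: the Fitting subgroup of G modulo its Frattini subgroup is the image of the Fitting subgroup of G. -/
theorem result {G : Type*} [Group G] [Finite G] :
    Cfsg.fittingSubgroup (G ⧸ frattini G) = (Cfsg.fittingSubgroup G).map (QuotientGroup.mk' (frattini G)) := by
  classical
  have hFn : (Cfsg.fittingSubgroup G).Normal := Cfsg.Agent.Lib.Helper10.fittingSubgroup_normal G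
  have hFQn : (Cfsg.fittingSubgroup (G ⧸ frattini G)).Normal :=
    Cfsg.Agent.Lib.Helper10.fittingSubgroup_normal _
  have hsurj : Function.Surjective (QuotientGroup.mk' (frattini G)) := QuotientGroup.mk'_surjective _
  apply le_antisymm
  · -- preimage is nilpotent
    obtain ⟨A, hA⟩ : ∃ A : Subgroup G,
      A = (Cfsg.fittingSubgroup (G ⧸ frattini G)).comap (QuotientGroup.mk' (frattini G)) := ⟨_, rfl⟩
    have hAn : A.Normal := by rw [hA]; exact hFQn.comap _
    have hBA : frattini G ≤ A := by
      rw [hA]
      intro x hx
      rw [Subgroup.mem_comap]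
      have : QuotientGroup.mk' (frattini G) x = 1 := (QuotientGroup.eq_one_iff x).mpr hx
      rw [this]; exact Subgroup.one_mem _
    have hnil : Group.IsNilpotent (↥A ⧸ (frattini G).subgroupOf A) := by
      let f : A →* Cfsg.fittingSubgroup (G ⧸ frattini G) :=
        ((QuotientGroup.mk' (frattini G)).comp A.subtype).codRestrict _ (by
          intro x
          have h0 : (x : G) ∈ (Cfsg.fittingSubgroup (G ⧸ frattini G)).comap
              (QuotientGroup.mk' (frattini G)) := hA ▸ x.2
          exact h0)
      have hfsurj : Function.Surjective f := by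
        rintro ⟨y, hy⟩
        obtain ⟨x, rfl⟩ := hsurj y
        exact ⟨⟨x, by rw [hA]; exact hy⟩, rfl⟩
      have hker : f.ker = (frattini G).subgroupOf A := by
        ext x
        rw [MonoidHom.mem_ker, Subgroup.mem_subgroupOf]
        constructor
        · intro h
          have := congrArg Subtype.val h
          exact (QuotientGroup.eq_one_iff (x : G)).mp this
        · intro h
          apply Subtype.ext
          exact (QuotientGroup.eq_one_iff (x : G)).mpr h
      have e1 := QuotientGroup.quotientKerEquivOfSurjective f hfsurj
      have e2 : (↥A ⧸ (frattini G).subgroupOf A) ≃* (↥A ⧸ f.ker) :=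
        QuotientGroup.quotientMulEquivOfEq hker.symm
      have := Cfsg.Agent.Lib.Helper10.fittingSubgroup_isNilpotent (G ⧸ frattini G)
      exact Group.nilpotent_of_mulEquiv (e2.trans e1).symm
    have hAnil : Group.IsNilpotent A := Cfsg.Agent.S0584.result A (frattini G) hBA le_rfl hnil
    have hAF : A ≤ Cfsg.fittingSubgroup G := Cfsg.Agent.Lib.Helper10.le_fittingSubgroup hAn hAnil
    calc Cfsg.fittingSubgroup (G ⧸ frattini G) = A.map (QuotientGroup.mk' (frattini G)) := by
          rw [hA, Subgroup.map_comap_eq_self_of_surjective hsurj]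
      _ ≤ _ := Subgroup.map_mono hAF
  · apply Cfsg.Agent.Lib.Helper10.le_fittingSubgroup
    · exact hFn.map _ hsurj
    · have := Cfsg.Agent.Lib.Helper10.fittingSubgroup_isNilpotent G
      exact Group.nilpotent_of_surjective
        ((QuotientGroup.mk' (frattini G)).subgroupMap (Cfsg.fittingSubgroup G))
        (MonoidHom.subgroupMap_surjective _ _)

end Cfsg.Agent.S0070
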