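import Cfsg.Statements.S0075
import Mathlib
import Cfsg.Agent.Lib.Lead.PRes

set_option autoImplicit false
open Cfsg

namespace Cfsg.Agent.S0075

open scoped commutatorElement

/-- For an abelian Sylow p-subgroup T, its intersection with the subgroup generated by the elements of order prime to p is the commutator of T with its normalizer. -/
theorem result {G : Type*} [Group G] [Finite G] {p : ℕ} [Fact p.Prime] (T : Sylow p G) (hT : IsMulCommutative T) : (T : Subgroup G) ⊓ Cfsg.pResidual p G = ⁅(T : Subgroup G), Subgroup.normalizer (T : Set G)⁆ := by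
  have hctl : ∀ x ∈ T, ∀ u : G, u * x * u⁻¹ ∈ T →
      ∃ n ∈ Subgroup.normalizer (T : Set G), u * x * u⁻¹ = n * x * n⁻¹ := by
    intro x hx u hu
    have hu' : u⁻¹⁻¹ * x * u⁻¹ ∈ T := by simpa using hu
    obtain ⟨n, hn, hnx⟩ := T.conj_eq_normalizer_conj_of_mem x u⁻¹ hx hu'
    refine ⟨n⁻¹, inv_mem hn, ?_⟩
    simpa using hnx
  apply le_antisymm
  · have h1 : (T : Subgroup G) ⊓ Cfsg.pResidual p G ≤ commutator G ⊓ (T : Subgroup G) := by
      refine le_inf ?_ inf_le_left
      rw [inf_comm]
      exact Cfsg.Agent.Lib.Lead.pResidual_inf_le_commutator _ T.2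
    refine h1.trans ?_
    rw [Subgroup.commutator_inf_eq_focalSubgroup T]
    exact Cfsg.Agent.Lib.Lead.focal_le_of_control T _ hctl
  · refine le_inf ?_ ?_
    · rw [Subgroup.commutator_le]
      intro t ht n hn
      have : ⁅t, n⁆ = t * (n * t⁻¹ * n⁻¹) := by simp [commutatorElement_def, mul_assoc]
      rw [this]
      exact (T : Subgroup G).mul_mem ht
        ((Subgroup.mem_normalizer_iff.mp hn t⁻¹).mp ((T : Subgroup G).inv_mem ht))
    · refine le_trans ?_ (Cfsg.Agent.Lib.Lead.commutator_le_pResidual_of_comm T hT)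
      rw [commutator_def]
      exact Subgroup.commutator_mono le_top le_top

end Cfsg.Agent.S0075
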