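import Cfsg.Statements.S0077
import Mathlib
import Cfsg.Agent.Lib.Lead.PRes

set_option autoImplicit false
open Cfsg

namespace Cfsg.Agent.S0077

/-- If a subgroup Z of the centre of a Sylow p-subgroup P is weakly closed in P, then P meets the derived subgroup of G exactly where it meets the derived subgroup of the normalizer of Z. -/
theorem result {G : Type*} [Group G] [Finite G] {p : ℕ} [Fact p.Prime] (P : Sylow p G) (Z : Subgroup G) (hZ : Z ≤ Subgroup.centralizer (P : Set G)) (hW : Cfsg.IsWeaklyClosed Z P) : commutator G ⊓ (P : Subgroup G) = ⁅Subgroup.normalizer (Z : Set G), Subgroup.normalizer (Z : Set G)⁆ ⊓ (P : Subgroup G) := by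
  obtain ⟨hZP, hWC⟩ := hW
  have hPN : (P : Subgroup G) ≤ Subgroup.normalizer (Z : Set G) := by
    have h1 : (P : Subgroup G) ≤ Subgroup.centralizer (Z : Set G) := by
      rw [Subgroup.le_centralizer_iff]; exact hZ
    exact h1.trans (Subgroup.centralizer_le_normalizer _)
  apply Cfsg.Agent.Lib.Lead.commutator_inf_sylow_of_control P _ hPN
  intro x hx u hu
  set y := u * x * u⁻¹ with hy
  have hZp : IsPGroup p Z := P.2.to_le hZP
  have hZu : IsPGroup p (Z.map (MulAut.conj u).toMonoidHom) := hZp.map _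
  have hA : Z ≤ Subgroup.centralizer {y} := by
    intro z hz
    rw [Subgroup.mem_centralizer_singleton_iff]
    exact (hZ hz y hu).symm
  have hB : Z.map (MulAut.conj u).toMonoidHom ≤ Subgroup.centralizer {y} := by
    rintro _ ⟨z, hz, rfl⟩
    rw [Subgroup.mem_centralizer_singleton_iff]
    have := (hZ hz x hx)
    simp only [MulEquiv.coe_toMonoidHom, MulAut.conj_apply, hy]
    calc u * z * u⁻¹ * (u * x * u⁻¹) = u * (z * x) * u⁻¹ := by group
      _ = u * (x * z) * u⁻¹ := by rw [this]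
      _ = u * x * u⁻¹ * (u * z * u⁻¹) := by group
  obtain ⟨c, hc, Q, hQ1, hQ2⟩ := Cfsg.Agent.Lib.Lead.exists_sylow_conj_le _ _ _ hZp hZu hA hB
  obtain ⟨h, hh⟩ := MulAction.exists_smul_eq G P Q
  -- weak closure facts
  have key : ∀ g : G, (∀ z ∈ Z, g * z * g⁻¹ ∈ Q) → h⁻¹ * g ∈ Subgroup.normalizer (Z : Set G) := by
    intro g hg
    rw [Subgroup.mem_normalizer_iff_map_conj_eq]
    apply hWC
    rintro _ ⟨z, hz, rfl⟩
    have := hg z hz
    rw [← hh, Cfsg.Agent.Lib.Lead.mem_sylow_smul_iff] at this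
    simp only [MulEquiv.coe_toMonoidHom, MulAut.conj_apply]
    have e : h⁻¹ * g * z * (h⁻¹ * g)⁻¹ = h⁻¹ * (g * z * g⁻¹) * h := by group
    rw [e]; exact this
  have k1 : h⁻¹ * 1 ∈ Subgroup.normalizer (Z : Set G) := key 1 (by intro z hz; rw [one_mul, inv_one, mul_one]; exact hQ1 hz)
  have k2 : h⁻¹ * (c * u) ∈ Subgroup.normalizer (Z : Set G) := by
    apply key
    intro z hz
    have := hQ2 (u * z * u⁻¹) ⟨z, hz, rfl⟩
    have e : c * u * z * (c * u)⁻¹ = c * (u * z * u⁻¹) * c⁻¹ := by group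
    rw [e]; exact this
  have k3 : c * u ∈ Subgroup.normalizer (Z : Set G) := by
    have := mul_mem (inv_mem k1) k2
    simpa using this
  refine ⟨c * u, k3, ?_⟩
  rw [Subgroup.mem_centralizer_singleton_iff] at hc
  have e : c * u * x * (c * u)⁻¹ = c * y * c⁻¹ := by rw [hy]; group
  rw [e, hc]; simp

end Cfsg.Agent.S0077
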