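import Cfsg.Statements.S0078
-- import your own Cfsg.Agent.* helpers here
import Cfsg.Agent.Lib.Helper13.Tate
import Cfsg.Agent.S0077

set_option autoImplicit false
open Cfsg

namespace Cfsg.Agent.S0078

open Cfsg.Agent.Lib.Helper13 Cfsg.Agent.Lib.Helper17

/-- In a p-normal group, a Sylow p-subgroup P meets O^p(G) exactly where it meets O^p(V), for any subgroup V containing the normalizer of the centre of P. -/
theorem result {G : Type*} [Group G] [Finite G] {p : ℕ} [Fact p.Prime] (P : Sylow p G) (hn : ∀ Q : Sylow p G, (P : Subgroup G) ⊓ Subgroup.centralizer (P : Set G) ≤ (Q : Subgroup G) → (Q : Subgroup G) ⊓ Subgroup.centralizer (Q : Set G) = (P : Subgroup G) ⊓ Subgroup.centralizer (P : Set G)) (V : Subgroup G) (hV : Subgroup.normalizer (((P : Subgroup G) ⊓ Subgroup.centralizer (P : Set G) : Subgroup G) : Set G) ≤ V) : (P : Subgroup G) ⊓ Cfsg.pResidual p G = (P : Subgroup G) ⊓ (Cfsg.pResidual p V).map V.subtype := by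
  set Z : Subgroup G := (P : Subgroup G) ⊓ Subgroup.centralizer (P : Set G) with hZdef
  have hW : Cfsg.IsWeaklyClosed Z P := by
    refine ⟨inf_le_left, fun g hg => ?_⟩
    have hmem : ∀ w : G, w ∈ ((g⁻¹ • P : Sylow p G) : Subgroup G) ↔ g * w * g⁻¹ ∈ (P : Subgroup G) := by
      intro w
      rw [Sylow.coe_subgroup_smul, Subgroup.mem_pointwise_smul_iff_inv_smul_mem]
      simp [MulAut.smul_def]
    have hcen : ∀ z : G, z ∈ Subgroup.centralizer ((g⁻¹ • P : Sylow p G) : Set G) ↔
        g * z * g⁻¹ ∈ Subgroup.centralizer (P : Set G) := by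
      intro z
      rw [Subgroup.mem_centralizer_iff, Subgroup.mem_centralizer_iff]
      constructor
      · intro h w hw
        have h3 := h (g⁻¹ * w * g) ((hmem _).mpr (by
          have : g * (g⁻¹ * w * g) * g⁻¹ = w := by group
          rw [this]; exact hw))
        calc w * (g * z * g⁻¹) = g * (g⁻¹ * w * g * z) * g⁻¹ := by group
          _ = g * (z * (g⁻¹ * w * g)) * g⁻¹ := by rw [h3]
          _ = g * z * g⁻¹ * w := by group
      · intro h w hw
        have h3 := h (g * w * g⁻¹) ((hmem w).mp hw)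
        calc w * z = g⁻¹ * (g * w * g⁻¹ * (g * z * g⁻¹)) * g := by group
          _ = g⁻¹ * (g * z * g⁻¹ * (g * w * g⁻¹)) * g := by rw [h3]
          _ = z * w := by group
    have h1 : Z ≤ ((g⁻¹ • P : Sylow p G) : Subgroup G) := by
      intro z hz
      rw [hmem]
      exact hg ⟨z, hz, rfl⟩
    have h2 := hn (g⁻¹ • P) h1
    have h3 : ∀ z : G, z ∈ Z ↔ g * z * g⁻¹ ∈ Z := by
      intro z
      conv_lhs => rw [← h2]
      rw [Subgroup.mem_inf, hmem, hcen, hZdef, Subgroup.mem_inf]
    apply le_antisymm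
    · rintro _ ⟨z, hz, rfl⟩
      exact (h3 z).mp hz
    · intro z hz
      refine ⟨g⁻¹ * z * g, (h3 _).mpr ?_, by show g * (g⁻¹ * z * g) * g⁻¹ = z; group⟩
      have : g * (g⁻¹ * z * g) * g⁻¹ = z := by group
      rw [this]; exact hz
  have h77 := Cfsg.Agent.S0077.result P Z inf_le_right hW
  have hPV : (P : Subgroup G) ≤ V := by
    refine le_trans ?_ hV
    intro x hx
    rw [Subgroup.mem_normalizer_iff]
    intro z
    have hc : ∀ x ∈ (P : Subgroup G), ∀ z ∈ Z, x * z * x⁻¹ ∈ Z := by
      intro x hx z hz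
      have h3 := (Subgroup.mem_centralizer_iff.mp (Subgroup.mem_inf.mp hz).2) x hx
      have : x * z * x⁻¹ = z := by rw [h3]; group
      rw [this]; exact hz
    constructor
    · exact hc x hx z
    · intro hz
      have := hc x⁻¹ (inv_mem hx) _ hz
      convert this using 1
      group
  have h1 := tate_commutator P V hPV (by
    rw [inf_comm, h77]
    exact inf_le_left.trans (Subgroup.commutator_mono hV hV))
  rw [← h1, ← inf_assoc, inf_comm (P : Subgroup G), inf_assoc, inf_eq_left.mpr hPV]

end Cfsg.Agent.S0078
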