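import Cfsg.Statements.S0080
import Mathlib
import Cfsg.Agent.Lib.Lead.PRes

set_option autoImplicit false
open Cfsg

namespace Cfsg.Agent.S0080

/-- When the index of H is prime to the order of H/H', the focal subgroup of H is G' ∩ H, and H/(G' ∩ H) has a normal complement. -/
theorem result {G : Type*} [Group G] [Finite G] (H : Subgroup G) (h : Nat.Coprime H.index (⁅H, H⁆.relIndex H)) : Subgroup.focalSubgroup H = commutator G ⊓ H ∧ ∃ N : Subgroup G, N.Normal ∧ N ⊓ H = commutator G ⊓ H ∧ N ⊔ H = ⊤ := by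
  classical
  set V := H.transferFocal with hV
  set n := H.index with hn
  have hle : ⁅H, H⁆ ≤ H.focalSubgroup := H.commutator_le_focalSubgroup
  have hcardQ : Nat.card (H ⧸ H.focalSubgroupOf) ∣ ⁅H, H⁆.relIndex H := by
    have : Nat.card (H ⧸ H.focalSubgroupOf) = H.focalSubgroup.relIndex H := rfl
    rw [this]
    exact Subgroup.relIndex_dvd_of_le_left H hle
  have hcop : (Nat.card (H ⧸ H.focalSubgroupOf)).Coprime n :=
    (Nat.Coprime.coprime_dvd_right hcardQ h).symm
  have hVx : ∀ x : H, V x = (x : H ⧸ H.focalSubgroupOf) ^ n := fun x => H.transferFocal_eq_pow x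
  have hker : V.ker ⊓ H = H.focalSubgroup := by
    ext x
    constructor
    · rintro ⟨hx1, hx2⟩
      have h1 : V ((⟨x, hx2⟩ : H) : G) = 1 := hx1
      rw [hVx] at h1
      have h2 : ((⟨x, hx2⟩ : H) : H ⧸ H.focalSubgroupOf) = 1 := by
        have := (powCoprime hcop).injective (a₁ := ((⟨x, hx2⟩ : H) : H ⧸ H.focalSubgroupOf)) (a₂ := 1)
        apply this
        simp only [powCoprime_apply, one_pow]
        exact h1
      rw [QuotientGroup.eq_one_iff] at h2
      exact h2
    · intro hx
      have hx2 : x ∈ H := H.focalSubgroup_le hx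
      refine ⟨?_, hx2⟩
      show V ((⟨x, hx2⟩ : H) : G) = 1
      rw [hVx]
      have : ((⟨x, hx2⟩ : H) : H ⧸ H.focalSubgroupOf) = 1 := by
        rw [QuotientGroup.eq_one_iff]; exact hx
      rw [this, one_pow]
  have hcomm : commutator G ≤ V.ker := by
    letI : CommGroup (H ⧸ H.focalSubgroupOf) :=
      { (inferInstance : Group (H ⧸ H.focalSubgroupOf)) with
        mul_comm := fun a b => (inferInstance : IsMulCommutative (H ⧸ H.focalSubgroupOf)).is_comm.comm a b }
    exact Abelianization.commutator_subset_ker V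
  have hfoc : H.focalSubgroup = commutator G ⊓ H := by
    apply le_antisymm
    · exact le_inf H.focalSubgroup_le_commutator H.focalSubgroup_le
    · rw [← hker]; exact inf_le_inf_right _ hcomm
  refine ⟨hfoc, V.ker, inferInstance, by rw [hker, hfoc], ?_⟩
  rw [eq_top_iff]
  intro g _
  obtain ⟨y, hy⟩ := (powCoprime hcop).surjective (V g)
  obtain ⟨x, rfl⟩ := QuotientGroup.mk_surjective y
  have hx : V (x : G) = V g := by rw [hVx]; simpa using hy
  have h1 : g * (x : G)⁻¹ ∈ V.ker := by
    rw [MonoidHom.mem_ker, map_mul, map_inv, hx, mul_inv_cancel]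
  have : g = (g * (x : G)⁻¹) * x := by group
  rw [this]
  exact mul_mem (Subgroup.mem_sup_left h1) (Subgroup.mem_sup_right x.2)

end Cfsg.Agent.S0080
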