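import Cfsg.Statements.S0082
import Mathlib
import Cfsg.Agent.Lib.Lead.PRes
import Cfsg.Agent.Lib.Lead.NC

set_option autoImplicit false
open Cfsg

namespace Cfsg.Agent.S0082

/-- With a cyclic Sylow p-subgroup, either there is a normal p-complement or the elements of order prime to p generate the whole group. -/
theorem result {G : Type*} [Group G] [Finite G] {p : ℕ} [Fact p.Prime] (P : Sylow p G) (hP : IsCyclic P) : Cfsg.HasNormalPComplement p G ∨ Cfsg.pResidual p G = ⊤ := by
  have hcomm : IsMulCommutative P := by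
    obtain ⟨g, hg⟩ := hP.exists_generator
    refine ⟨⟨fun a b => ?_⟩⟩
    obtain ⟨m, rfl⟩ := Subgroup.mem_zpowers_iff.mp (hg a)
    obtain ⟨n, rfl⟩ := Subgroup.mem_zpowers_iff.mp (hg b)
    rw [← zpow_add, ← zpow_add, add_comm]
  rcases P.normalizer_le_centralizer_or_le_commutator with h | h
  · left
    exact ⟨P, _, inferInstance, MonoidHom.ker_transferSylow_isComplement' P h⟩
  · right
    have h1 : (P : Subgroup G) ≤ Cfsg.pResidual p G :=
      h.trans (Cfsg.Agent.Lib.Lead.commutator_le_pResidual_of_comm P hcomm)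
    have h2 := Cfsg.Agent.Lib.Lead.pResidual_sup_sylow P
    rwa [sup_eq_left.mpr h1] at h2

end Cfsg.Agent.S0082
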