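import Cfsg.Statements.S0083
import Mathlib
import Cfsg.Agent.Lib.Lead.PRes

set_option autoImplicit false
open Cfsg

namespace Cfsg.Agent.S0083

open scoped Pointwise

/-- For an abelian Sylow p-subgroup P, a normal p-complement exists exactly when the normalizer of P is an internal direct product of P with some subgroup. -/
theorem result {G : Type*} [Group G] [Finite G] {p : ℕ} [Fact p.Prime] (P : Sylow p G) (hP : IsMulCommutative P) : Cfsg.HasNormalPComplement p G ↔ ∃ Q : Subgroup G, Q ≤ Subgroup.centralizer (P : Set G) ∧ Q ⊓ (P : Subgroup G) = ⊥ ∧ Q ⊔ (P : Subgroup G) = Subgroup.normalizer (P : Set G) := by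
  constructor
  · intro hc
    obtain ⟨N, hN, hc⟩ := (Cfsg.Agent.Lib.Lead.hasNormalPComplement_iff P).mp hc
    have hdisj : N ⊓ (P : Subgroup G) = ⊥ := hc.disjoint.eq_bot
    refine ⟨N ⊓ Subgroup.normalizer (P : Set G), ?_, ?_, ?_⟩
    · intro q hq x hx
      have hx' : x ∈ (P : Subgroup G) := hx
      have h1 : q * x * q⁻¹ * x⁻¹ ∈ N ⊓ (P : Subgroup G) := by
        constructor
        · have : q * x * q⁻¹ * x⁻¹ = q * (x * q⁻¹ * x⁻¹) := by group
          rw [this]
          exact mul_mem hq.1 (hN.conj_mem _ (inv_mem hq.1) x)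
        · exact (P : Subgroup G).mul_mem ((Subgroup.mem_normalizer_iff.mp hq.2 x).mp hx') ((P : Subgroup G).inv_mem hx')
      rw [hdisj, Subgroup.mem_bot] at h1
      have : q * x = x * q := by
        have := congrArg (fun t => t * x * q) h1
        simpa [mul_assoc] using this
      exact this.symm
    · rw [eq_bot_iff, ← hdisj]
      exact inf_le_inf_right _ inf_le_left
    · apply le_antisymm
      · exact sup_le inf_le_right Subgroup.le_normalizer
      · intro g hg
        have htop : g ∈ (N : Set G) * ((P : Subgroup G) : Set G) := by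
          rw [← Subgroup.normal_mul, hc.sup_eq_top]; trivial
        obtain ⟨n, hn, x, hx, rfl⟩ := htop
        have hn' : n ∈ Subgroup.normalizer (P : Set G) := by
          have : n = (n * x) * x⁻¹ := by group
          rw [this]
          exact mul_mem hg (inv_mem (Subgroup.le_normalizer hx))
        exact mul_mem (Subgroup.mem_sup_left ⟨hn, hn'⟩) (Subgroup.mem_sup_right hx)
  · rintro ⟨Q, hQ1, _, hQ3⟩
    have hPC : (P : Subgroup G) ≤ Subgroup.centralizer (P : Set G) := by
      intro x hx y hy
      have := hP.is_comm.comm ⟨y, hy⟩ ⟨x, hx⟩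
      exact congrArg Subtype.val this
    have hNC : Subgroup.normalizer (P : Set G) ≤ Subgroup.centralizer (P : Set G) := by
      rw [← hQ3]; exact sup_le hQ1 hPC
    exact ⟨P, _, inferInstance, MonoidHom.ker_transferSylow_isComplement' P hNC⟩

end Cfsg.Agent.S0083
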