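import Cfsg.Statements.S0085
import Mathlib
import Cfsg.Agent.Lib.Lead.PRes
import Cfsg.Agent.Lib.Lead.NC

set_option autoImplicit false
open Cfsg

namespace Cfsg.Agent.S0085

/-- A group whose Sylow 2-subgroups are elementary abelian of order 8 and whose order is prime to 3 and to 7 has a normal 2-complement. -/
theorem result {G : Type*} [Group G] [Finite G] (T : Sylow 2 G) (h8 : Nat.card T = 8) (he : ∀ x : T, x * x = 1) (h3 : ¬ 3 ∣ Nat.card G) (h7 : ¬ 7 ∣ Nat.card G) : Cfsg.HasNormalPComplement 2 G := by
  have hcomm : IsMulCommutative T := by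
    refine ⟨⟨fun a b => ?_⟩⟩
    have h1 := he (a * b)
    have ha := he a
    have hb := he b
    calc a * b = a * (a * b * (a * b)) * b := by rw [h1, mul_one]
      _ = (a * a) * (b * a) * (b * b) := by group
      _ = b * a := by rw [ha, hb, one_mul, mul_one]
  have hNC : Subgroup.normalizer (T : Set G) ≤ Subgroup.centralizer (T : Set G) := by
    apply Cfsg.Agent.Lib.Lead.normalizer_le_centralizer_of_card T hcomm
    intro q hq hqG hq2 D hD hdvd
    have h1 : Nat.card D ∣ 8 := h8 ▸ Subgroup.card_subgroup_dvd_card D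
    have h2 : Nat.card D ≠ 8 := by
      intro h4
      exact hD (Subgroup.eq_top_of_card_eq D (h4.trans h8.symm))
    have h3' : Nat.card D ≤ 8 := Nat.le_of_dvd (by norm_num) h1
    rw [h8] at hdvd
    have hpos : 0 < Nat.card D := Nat.card_pos
    interval_cases hD' : Nat.card D
    · have : q ∣ 7 := hdvd
      have := (Nat.prime_dvd_prime_iff_eq hq (by norm_num)).mp this
      subst this; exact h7 hqG
    · have : q ∣ 2 * 3 := hdvd
      rcases (Nat.Prime.dvd_mul hq).mp this with h | h
      · exact hq2 ((Nat.prime_dvd_prime_iff_eq hq (by norm_num)).mp h)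
      · have := (Nat.prime_dvd_prime_iff_eq hq (by norm_num)).mp h
        subst this; exact h3 hqG
    · omega
    · have : q ∣ 2 ^ 2 := hdvd
      exact hq2 ((Nat.prime_dvd_prime_iff_eq hq (by norm_num)).mp (hq.dvd_of_dvd_pow this))
    · omega
    · omega
    · omega
    · exact h2 rfl
  exact ⟨T, _, inferInstance, MonoidHom.ker_transferSylow_isComplement' T hNC⟩

end Cfsg.Agent.S0085
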