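import Cfsg.Statements.S0087
import Mathlib
import Cfsg.Agent.S0079
import Cfsg.Agent.S0581
import Cfsg.Agent.Lib.Helper17.Core
-- import your own Cfsg.Agent.* helpers here

set_option autoImplicit false
open Cfsg

namespace Cfsg.Agent.S0087

open scoped Pointwise
open Cfsg.Agent.Lib.Helper17

/-- A Hall subgroup that is central in its normalizer has a normal complement. -/
theorem result {G : Type*} [Group G] [Finite G] (H : Subgroup G) (hHall : Nat.Coprime (Nat.card H) H.index) (h : Subgroup.normalizer (H : Set G) ≤ Subgroup.centralizer (H : Set G)) : ∃ N : Subgroup G, N.Normal ∧ N.IsComplement' H := by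
  have hcomm : ∀ a ∈ H, ∀ b ∈ H, a * b = b * a := fun a ha b hb =>
    (Subgroup.mem_centralizer_iff.mp (h (Subgroup.le_normalizer hb)) a ha)
  have hHc : IsMulCommutative H := ⟨⟨fun a b => Subtype.ext (hcomm a a.2 b b.2)⟩⟩
  have hHnil : Group.IsNilpotent H := by
    open scoped IsMulCommutative in
    exact CommGroup.isNilpotent
  refine (Cfsg.Agent.S0079.result H hHnil hHall).mpr ?_
  rintro x hx y hy ⟨g, hg⟩
  refine ⟨1, H.one_mem, ?_⟩
  rw [one_mul, inv_one, mul_one]
  -- work in `C = C_G(y)`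
  obtain ⟨C, hC⟩ : ∃ C, C = Subgroup.centralizer ({y} : Set G) := ⟨_, rfl⟩
  have hmemC : ∀ c, c ∈ C ↔ c * y = y * c := by
    intro c
    rw [hC, Subgroup.mem_centralizer_iff]
    constructor
    · intro hc; exact (hc y rfl).symm
    · intro hc z hz; rw [Set.mem_singleton_iff.mp hz]; exact hc.symm
  have hHC : H ≤ C := fun a ha => (hmemC a).mpr (hcomm a ha y hy)
  obtain ⟨H', hH'⟩ : ∃ H', H' = H.map (MulAut.conj g).toMonoidHom := ⟨_, rfl⟩
  have hH'C : H' ≤ C := by
    rw [hH']
    rintro _ ⟨a, ha, rfl⟩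
    rw [hmemC, ← hg]
    simp only [MulEquiv.coe_toMonoidHom, MulAut.conj_apply]
    calc g * a * g⁻¹ * (g * x * g⁻¹) = g * (a * x) * g⁻¹ := by group
      _ = g * (x * a) * g⁻¹ := by rw [hcomm a ha x hx]
      _ = g * x * g⁻¹ * (g * a * g⁻¹) := by group
  have hcardH' : Nat.card H' = Nat.card H := by
    rw [hH', Subgroup.card_map_of_injective (MulAut.conj g).injective]
  have e1 : Nat.card (H.subgroupOf C) = Nat.card H :=
    Nat.card_congr (Subgroup.subgroupOfEquivOfLe hHC).toEquiv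
  have e2 : Nat.card (H'.subgroupOf C) = Nat.card H := by
    rw [Nat.card_congr (Subgroup.subgroupOfEquivOfLe hH'C).toEquiv, hcardH']
  obtain ⟨c, hc⟩ := Cfsg.Agent.S0581.result (H.subgroupOf C) (H'.subgroupOf C)
    (Group.nilpotent_of_mulEquiv (Subgroup.subgroupOfEquivOfLe hHC).symm) (by
      rw [e1]
      exact Nat.Coprime.coprime_dvd_right (Subgroup.relIndex_dvd_index_of_le hHC) hHall)
    (by intro p _ hp; rw [e1]; rwa [e2] at hp)
  -- `g⁻¹ c` normalizes `H`
  have hle : H' ≤ H.map (MulAut.conj (c : G)).toMonoidHom := by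
    intro a ha
    have h1 : (⟨a, hH'C ha⟩ : C) ∈ MulAut.conj c • H.subgroupOf C := hc (Subgroup.mem_subgroupOf.mpr ha)
    obtain ⟨b, hb, hba⟩ := h1
    refine ⟨b, Subgroup.mem_subgroupOf.mp hb, ?_⟩
    have := congrArg Subtype.val hba
    simpa using this
  have heq : H' = H.map (MulAut.conj (c : G)).toMonoidHom :=
    Subgroup.eq_of_le_of_card_ge hle (by
      rw [Subgroup.card_map_of_injective (MulAut.conj (c : G)).injective, hcardH'])
  have hn : (c : G)⁻¹ * g ∈ Subgroup.normalizer (H : Set G) := by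
    rw [mem_normalizer_iff_map_conj, ← map_conj_map_conj, ← hH', heq, map_conj_map_conj,
      inv_mul_cancel, map_conj_one]
  have h3 := Subgroup.mem_centralizer_iff.mp (h hn) x hx
  have h4 := (hmemC c).mp c.2
  -- x * (c⁻¹ g) = (c⁻¹ g) * x
  have h5 : (c : G)⁻¹ * y * c = y := by
    rw [mul_assoc, ← h4]; group
  calc x = ((c : G)⁻¹ * g) * x * ((c : G)⁻¹ * g)⁻¹ := by rw [← h3]; group
    _ = (c : G)⁻¹ * (g * x * g⁻¹) * c := by group
    _ = y := by rw [hg, h5]

end Cfsg.Agent.S0087
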