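import Cfsg.Statements.S0088
import Mathlib
import Cfsg.Agent.Lib.Lead.Basic

set_option autoImplicit false
open Cfsg

namespace Cfsg.Agent.S0088

/-- An abelian Hall subgroup meets G' ∩ Z(G) trivially. -/
theorem result {G : Type*} [Group G] [Finite G] (H : Subgroup G) (hc : IsMulCommutative H) (hHall : Nat.Coprime (Nat.card H) H.index) : H ⊓ commutator G ⊓ Subgroup.center G = ⊥ := by
  classical
  rw [eq_bot_iff]
  intro z hz
  obtain ⟨⟨hzH, hzG'⟩, hzZ⟩ := hz
  rw [Subgroup.mem_bot]
  let _ : CommGroup H := { (inferInstance : Group H) with mul_comm := fun a b => hc.is_comm.comm a b }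
  have key : ∀ (k : ℕ) (g₀ : G), g₀⁻¹ * z ^ k * g₀ ∈ H → g₀⁻¹ * z ^ k * g₀ = z ^ k := by
    intro k g₀ _
    have hzk : z ^ k ∈ Subgroup.center G := Subgroup.pow_mem _ hzZ k
    rw [Subgroup.mem_center_iff] at hzk
    rw [mul_assoc, ← hzk g₀, inv_mul_cancel_left]
  have h1 := MonoidHom.transfer_eq_pow (MonoidHom.id H) z key
  have h2 : MonoidHom.transfer (MonoidHom.id H) z = 1 := by
    have : commutator G ≤ (MonoidHom.transfer (MonoidHom.id H)).ker :=
      Abelianization.commutator_subset_ker _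
    exact this hzG'
  rw [h2] at h1
  have h3 : z ^ H.index = 1 := by
    have := congrArg Subtype.val h1
    simpa using this.symm
  have h4 : z ^ Nat.card H = 1 := by
    have := pow_card_eq_one' (G := H) (x := ⟨z, hzH⟩)
    have h := congrArg Subtype.val this
    rwa [Subgroup.coe_pow, Subgroup.coe_one] at h
  have h5 : orderOf z ∣ Nat.gcd (Nat.card H) H.index :=
    Nat.dvd_gcd (orderOf_dvd_of_pow_eq_one h4) (orderOf_dvd_of_pow_eq_one h3)
  rw [hHall] at h5
  exact orderOf_eq_one_iff.mp (Nat.dvd_one.mp h5)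

end Cfsg.Agent.S0088
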