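import Cfsg.Statements.S0089
import Mathlib
import Cfsg.Agent.Lib.Lead.PRes
import Cfsg.Agent.S0088

set_option autoImplicit false
open Cfsg

namespace Cfsg.Agent.S0089

/-- When all Sylow subgroups are abelian, the derived subgroup meets the centre trivially. -/
theorem result {G : Type*} [Group G] [Finite G] (h : ∀ p : ℕ, p.Prime → ∀ P : Sylow p G, IsMulCommutative P) : commutator G ⊓ Subgroup.center G = ⊥ := by
  by_contra hne
  have hnt : Nontrivial ↥(commutator G ⊓ Subgroup.center G) :=
    (Subgroup.nontrivial_iff_ne_bot _).mpr hne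
  have hcard : Nat.card ↥(commutator G ⊓ Subgroup.center G) ≠ 1 := by
    have := Finite.one_lt_card_iff_nontrivial.mpr hnt
    omega
  obtain ⟨p, hp, hpd⟩ := Nat.exists_prime_and_dvd hcard
  haveI : Fact p.Prime := ⟨hp⟩
  obtain ⟨w, hw⟩ := exists_prime_orderOf_dvd_card' p hpd
  have hw' : orderOf (w : G) = p := by rw [Subgroup.orderOf_coe]; exact hw
  have hpg : IsPGroup p (Subgroup.zpowers (w : G)) := by
    apply IsPGroup.of_card (n := 1)
    rw [Nat.card_zpowers, hw', pow_one]
  obtain ⟨P, hP⟩ := hpg.exists_le_sylow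
  have h88 := Cfsg.Agent.S0088.result (P : Subgroup G) (h p hp P) P.card_coprime_index
  have hmem : (w : G) ∈ (P : Subgroup G) ⊓ commutator G ⊓ Subgroup.center G :=
    ⟨⟨hP (Subgroup.mem_zpowers _), w.2.1⟩, w.2.2⟩
  rw [h88, Subgroup.mem_bot] at hmem
  rw [hmem, orderOf_one] at hw'
  exact hp.one_lt.ne hw'

end Cfsg.Agent.S0089
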