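import Cfsg.Statements.S0090
import Mathlib
import Cfsg.Agent.Lib.Lead.PRes
import Cfsg.Agent.S0088

set_option autoImplicit false
open Cfsg

namespace Cfsg.Agent.S0090

open scoped commutatorElement Pointwise

/-- An abelian normal Hall subgroup A splits as the internal direct product of G' ∩ A and Z(G) ∩ A, and [A, G] = G' ∩ A. -/
theorem result {G : Type*} [Group G] [Finite G] (A : Subgroup G) [A.Normal] (hc : IsMulCommutative A) (hHall : Nat.Coprime (Nat.card A) A.index) : ⁅A, (⊤ : Subgroup G)⁆ = commutator G ⊓ A ∧ (commutator G ⊓ A) ⊓ (Subgroup.center G ⊓ A) = ⊥ ∧ (commutator G ⊓ A) ⊔ (Subgroup.center G ⊓ A) = A := by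
  classical
  have h88 := Cfsg.Agent.S0088.result A hc hHall
  have h1 : ⁅A, (⊤ : Subgroup G)⁆ ≤ commutator G ⊓ A := by
    refine le_inf ?_ (Subgroup.commutator_le_left A ⊤)
    rw [commutator_def]
    exact Subgroup.commutator_mono le_top le_rfl
  have h2 : (commutator G ⊓ A) ⊓ (Subgroup.center G ⊓ A) = ⊥ := by
    rw [eq_bot_iff, ← h88]
    intro x hx
    exact ⟨⟨hx.1.2, hx.1.1⟩, hx.2.1⟩
  -- the averaging argument
  obtain ⟨K, hK⟩ := Subgroup.exists_right_complement'_of_coprime hHall
  let _ : CommGroup A := { (inferInstance : Group A) with mul_comm := fun a b => hc.is_comm.comm a b }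
  have : Fintype K := Fintype.ofFinite K
  let τ : A → A := fun a => ∏ k : K, MulAut.conjNormal (k : G) a
  have hτK : ∀ (j : K) (a : A), MulAut.conjNormal (j : G) (τ a) = τ a := by
    intro j a
    simp only [τ, map_prod]
    apply Fintype.prod_equiv (Equiv.mulLeft j)
    intro k
    simp [map_mul, MulAut.mul_apply]
  have hτZ : ∀ a : A, ((τ a : A) : G) ∈ Subgroup.center G ⊓ A := by
    intro a
    refine Subgroup.mem_inf.mpr ⟨?_, (τ a).2⟩
    rw [Subgroup.mem_center_iff]
    intro g
    have htop : g ∈ (A : Set G) * (K : Set G) := by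
      rw [← Subgroup.normal_mul, hK.sup_eq_top]; trivial
    obtain ⟨b, hb, k, hk, rfl⟩ := htop
    have e1 : k * (τ a : G) * k⁻¹ = (τ a : G) := by
      have := congrArg Subtype.val (hτK ⟨k, hk⟩ a)
      simpa using this
    have e2 : b * (τ a : G) = (τ a : G) * b := by
      have := congrArg Subtype.val (hc.is_comm.comm ⟨b, hb⟩ (τ a))
      simpa using this
    have e3 : k * (τ a : G) = (τ a : G) * k := by
      have := congrArg (fun t => t * k) e1
      simpa [mul_assoc] using this
    rw [mul_assoc, e3, ← mul_assoc, e2, mul_assoc]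
  have hcomm : ∀ a : A, ((a ^ Nat.card K * (τ a)⁻¹ : A) : G) ∈ ⁅A, (⊤ : Subgroup G)⁆ := by
    intro a
    have e : a ^ Nat.card K * (τ a)⁻¹ = ∏ k : K, (a * (MulAut.conjNormal (k : G) a)⁻¹) := by
      simp only [τ]
      rw [Finset.prod_mul_distrib, Finset.prod_inv_distrib, Finset.prod_const, Finset.card_univ,
        Nat.card_eq_fintype_card]
    rw [e]
    have : ∀ s : Finset K, ((∏ k ∈ s, (a * (MulAut.conjNormal (k : G) a)⁻¹) : A) : G) ∈ ⁅A, (⊤ : Subgroup G)⁆ := by
      intro s
      induction s using Finset.induction_on with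
      | empty => simp
      | insert k s hk ih =>
        rw [Finset.prod_insert hk, Subgroup.coe_mul]
        refine mul_mem ?_ ih
        have : ((a * (MulAut.conjNormal (k : G) a)⁻¹ : A) : G) = ⁅(a : G), (k : G)⁆ := by
          simp [commutatorElement_def, mul_assoc]
        rw [this]
        exact Subgroup.commutator_mem_commutator a.2 (Subgroup.mem_top _)
    exact this Finset.univ
  have hcardK : Nat.card K = A.index := hK.symm.index_eq_card.symm
  have h3 : A ≤ ⁅A, (⊤ : Subgroup G)⁆ ⊔ (Subgroup.center G ⊓ A) := by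
    intro a ha
    have hpow : a ^ Nat.card K ∈ ⁅A, (⊤ : Subgroup G)⁆ ⊔ (Subgroup.center G ⊓ A) := by
      have e : a ^ Nat.card K = (((⟨a, ha⟩ : A) ^ Nat.card K * (τ ⟨a, ha⟩)⁻¹ : A) : G) * ((τ ⟨a, ha⟩ : A) : G) := by
        simp
      rw [e]
      exact mul_mem (Subgroup.mem_sup_left (hcomm _)) (Subgroup.mem_sup_right (hτZ _))
    have hcop : (Nat.card K).Coprime (orderOf a) := by
      have h5 : orderOf a ∣ Nat.card A := by
        have := orderOf_dvd_natCard (⟨a, ha⟩ : A)
        rwa [Subgroup.orderOf_mk] at this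
      rw [hcardK]
      exact (Nat.Coprime.coprime_dvd_left h5 hHall).symm
    obtain ⟨m, hm⟩ := exists_pow_eq_self_of_coprime hcop
    rw [← hm]
    exact pow_mem hpow m
  have h4 : commutator G ⊓ A ≤ ⁅A, (⊤ : Subgroup G)⁆ := by
    intro x hx
    have hx' := h3 hx.2
    have hn : (⁅A, (⊤ : Subgroup G)⁆).Normal := inferInstance
    have : x ∈ ((⁅A, (⊤ : Subgroup G)⁆ : Subgroup G) : Set G) * ((Subgroup.center G ⊓ A : Subgroup G) : Set G) := by
      rw [← Subgroup.normal_mul]; exact hx'
    obtain ⟨c, hc', z, hz, rfl⟩ := this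
    have hz' : z ∈ (commutator G ⊓ A) ⊓ (Subgroup.center G ⊓ A) := by
      refine Subgroup.mem_inf.mpr ⟨?_, hz⟩
      have : z = c⁻¹ * (c * z) := by group
      rw [this]
      exact Subgroup.mul_mem _ (Subgroup.inv_mem _ (h1 hc')) hx
    rw [h2, Subgroup.mem_bot] at hz'
    subst hz'
    simpa using hc'
  have h5 : ⁅A, (⊤ : Subgroup G)⁆ = commutator G ⊓ A := le_antisymm h1 h4
  refine ⟨h5, h2, ?_⟩
  apply le_antisymm
  · exact sup_le inf_le_right inf_le_right
  · rw [← h5]; exact h3

end Cfsg.Agent.S0090
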