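import Cfsg.Statements.S0091
import Mathlib
import Cfsg.Agent.Lib.Lead.Basic

set_option autoImplicit false
open Cfsg

namespace Cfsg.Agent.S0091

open scoped commutatorElement

/-- If a nontrivial Sylow p-subgroup controls its own fusion then it is not contained in the derived subgroup. -/
theorem result {G : Type*} [Group G] [Finite G] {p : ℕ} [Fact p.Prime] (P : Sylow p G) (hp : p ∣ Nat.card G) (h : ∀ x ∈ P, ∀ y ∈ P, (∃ g : G, g * x * g⁻¹ = y) → ∃ z ∈ P, z * x * z⁻¹ = y) : ¬ (P : Subgroup G) ≤ commutator G := by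
  intro hle
  have hfoc : commutator G ⊓ (P : Subgroup G) = (P : Subgroup G).focalSubgroup :=
    Subgroup.commutator_inf_eq_focalSubgroup P
  have h1 : (P : Subgroup G).focalSubgroup ≤ ⁅(P : Subgroup G), (P : Subgroup G)⁆ := by
    rw [Subgroup.focalSubgroup_def, Subgroup.closure_le]
    rintro g ⟨hgP, x, hx, u, rfl⟩
    have hx' : x⁻¹ ∈ (P : Subgroup G) := inv_mem hx
    have hy : u * x⁻¹ * u⁻¹ ∈ (P : Subgroup G) := by
      have : u * x⁻¹ * u⁻¹ = x⁻¹ * ⁅x, u⁆ := by
        simp [commutatorElement_def, mul_assoc]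
      rw [this]; exact mul_mem hx' hgP
    obtain ⟨z, hz, hzx⟩ := h x⁻¹ hx' _ hy ⟨u, rfl⟩
    have : ⁅x, u⁆ = ⁅x, z⁆ := by
      simp only [commutatorElement_def]
      rw [mul_assoc x u, mul_assoc x (u * x⁻¹), ← hzx]
      simp [mul_assoc]
    rw [SetLike.mem_coe, this]
    exact Subgroup.commutator_mem_commutator hx hz
  have h2 : (P : Subgroup G) ≤ ⁅(P : Subgroup G), (P : Subgroup G)⁆ := by
    calc (P : Subgroup G) = commutator G ⊓ (P : Subgroup G) := (inf_eq_right.mpr hle).symm
      _ = _ := hfoc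
      _ ≤ _ := h1
  have h3 : commutator (P : Subgroup G) = ⊤ := by
    rw [eq_top_iff]
    intro x _
    have := h2 x.2
    rw [← Subgroup.map_subtype_commutator] at this
    obtain ⟨y, hy, hyx⟩ := this
    have : y = x := Subtype.ext hyx
    rwa [← this]
  have hnil : Group.IsNilpotent (P : Subgroup G) := P.2.isNilpotent
  have hnt : Nontrivial (P : Subgroup G) := by
    have hcard : p ∣ Nat.card (P : Subgroup G) := by
      rw [P.card_eq_multiplicity]
      have : (Nat.card G).factorization p ≠ 0 := by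
        have hp' : p.Prime := Fact.out
        exact (Nat.Prime.factorization_pos_of_dvd hp' Nat.card_pos.ne' hp).ne'
      exact dvd_pow_self p this
    have hp' : p.Prime := Fact.out
    have : 1 < Nat.card (P : Subgroup G) := lt_of_lt_of_le hp'.one_lt (Nat.le_of_dvd Nat.card_pos hcard)
    exact Finite.one_lt_card_iff_nontrivial.mp this
  have : Group.IsPerfect (P : Subgroup G) := ⟨h3⟩
  exact Group.IsPerfect.not_isNilpotent (G := (P : Subgroup G)) hnil

end Cfsg.Agent.S0091
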