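import Cfsg.Statements.S0092
import Mathlib
import Cfsg.Agent.Lib.Helper17.Syl
import Cfsg.Agent.Lib.Helper1.SZSub
import Cfsg.Agent.S0075
import Cfsg.Agent.S0088
-- import your own Cfsg.Agent.* helpers here

set_option autoImplicit false
open Cfsg

namespace Cfsg.Agent.S0092

open Cfsg.Agent.Lib.Helper17 Cfsg.Agent.Lib.Helper1
open scoped Pointwise

theorem core {G : Type*} [Group G] [Finite G] {p : ℕ} [Fact p.Prime] (N : Subgroup G) [N.Normal]
    (k : ℕ) (hidx : N.index = p ^ k) (Q : Subgroup G) (hQ : IsSyl p Q N)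
    (hQc : ∀ a ∈ Q, ∀ b ∈ Q, a * b = b * a)
    (hQL' : Q ≤ ⁅N ⊓ Subgroup.normalizer (Q : Set G), N ⊓ Subgroup.normalizer (Q : Set G)⁆) :
    ∃ K : Subgroup G, K.IsComplement' N := by
  have hp : p.Prime := Fact.out
  obtain ⟨M, hM⟩ : ∃ M, M = Subgroup.normalizer (Q : Set G) := ⟨_, rfl⟩
  obtain ⟨L, hL⟩ : ∃ L, L = N ⊓ M := ⟨_, rfl⟩
  rw [← hM, ← hL] at hQL'
  have hQN : Q ≤ N := hQ.le
  have hQM : Q ≤ M := by rw [hM]; exact Subgroup.le_normalizer
  have hQL : Q ≤ L := by rw [hL]; exact le_inf hQN hQM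
  have hLN : L ≤ N := by rw [hL]; exact inf_le_left
  have hLM : L ≤ M := by rw [hL]; exact inf_le_right
  have hLnQ : L ≤ Subgroup.normalizer (Q : Set G) := by rw [← hM]; exact hLM
  have hQsL : IsSyl p Q L := hQ.of_le hQL hLN
  have hQp : IsPGroup p Q := hQ.isPGroup
  obtain ⟨a, ha⟩ := hQp.exists_card_eq
  have hcop : (Nat.card Q).Coprime (Q.relIndex L) := by
    rw [ha]
    exact Nat.Coprime.pow_left a ((Nat.Prime.coprime_iff_not_dvd hp).mpr hQsL.not_dvd_relIndex)
  -- Step B : `C_Q(L) = 1`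
  have hB : ∀ u ∈ Q, (∀ l ∈ L, u * l = l * u) → u = 1 := by
    intro u hu hul
    have hc : IsMulCommutative (Q.subgroupOf L) :=
      ⟨⟨fun x y => Subtype.ext (Subtype.ext (hQc x.1 x.2 y.1 y.2))⟩⟩
    have h88 := Cfsg.Agent.S0088.result (Q.subgroupOf L) hc (by
      rw [Nat.card_congr (Subgroup.subgroupOfEquivOfLe hQL).toEquiv]
      exact hcop)
    have hu' : (⟨u, hQL hu⟩ : L) ∈ Q.subgroupOf L ⊓ commutator L ⊓ Subgroup.center L := by
      refine ⟨⟨Subgroup.mem_subgroupOf.mpr hu, ?_⟩, ?_⟩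
      · have h1 := hQL' hu
        rw [← Subgroup.map_subtype_commutator] at h1
        obtain ⟨w, hw, hwu⟩ := h1
        have : w = ⟨u, hQL hu⟩ := Subtype.ext hwu
        rwa [← this]
      · change (⟨u, hQL hu⟩ : L) ∈ Subgroup.center L
        rw [Subgroup.mem_center_iff]
        intro l
        exact Subtype.ext (hul l l.2).symm
    rw [h88, Subgroup.mem_bot] at hu'
    exact congrArg Subtype.val hu'
  -- Step C : a complement `X` of `Q` in `L`
  obtain ⟨X, hXL, hXcard⟩ := sz_exists_sub Q L hQL hLnQ hcop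
  have hQX : Q ⊓ X = ⊥ := by
    have := Subgroup.disjoint_of_coprime_natCard (H := Q) (K := X) (by rw [hXcard]; exact hcop)
    exact disjoint_iff.mp this
  have hsup : Q ⊔ X = L := by
    apply Subgroup.eq_of_le_of_card_ge (sup_le hQL hXL)
    have h1 : Nat.card Q ∣ Nat.card (Q ⊔ X : Subgroup G) := Subgroup.card_dvd_of_le le_sup_left
    have h2 : Nat.card X ∣ Nat.card (Q ⊔ X : Subgroup G) := Subgroup.card_dvd_of_le le_sup_right
    have h3 : Nat.card Q * Nat.card X ∣ Nat.card (Q ⊔ X : Subgroup G) :=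
      Nat.Coprime.mul_dvd_of_dvd_of_dvd (by rw [hXcard]; exact hcop) h1 h2
    have h4 : Nat.card Q * Nat.card X = Nat.card L := by
      rw [hXcard]
      have := Subgroup.relIndex_mul_relIndex ⊥ Q L bot_le hQL
      rwa [Subgroup.relIndex_bot_left, Subgroup.relIndex_bot_left] at this
    rw [← h4]
    exact Nat.le_of_dvd Nat.card_pos h3
  obtain ⟨R, hR⟩ : ∃ R, R = M ⊓ Subgroup.normalizer (X : Set G) := ⟨_, rfl⟩
  -- Step D : Frattini
  have hD : ∀ m ∈ M, ∃ x ∈ Q, x * m ∈ R := by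
    intro m hm
    have hXm : MulAut.conj m • X ≤ L := by
      rintro _ ⟨y, hy, rfl⟩
      have hyL := hXL hy
      rw [hL]
      refine ⟨?_, ?_⟩
      · exact (inferInstance : N.Normal).conj_mem y (hLN hyL) m
      · exact M.mul_mem (M.mul_mem hm (hLM hyL)) (M.inv_mem hm)
    have hcardm : Nat.card (MulAut.conj m • X : Subgroup G) = Q.relIndex L := by
      rw [← hXcard]
      exact Subgroup.card_map_of_injective (MulAut.conj m).injective
    obtain ⟨x, hxQ, hx⟩ := sz_conj_sub Q L hQL hLnQ hcop (MulAut.conj m • X) X hXm hXL hcardm hXcard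
      (Or.inl (by
        have : IsMulCommutative Q := ⟨⟨fun x y => Subtype.ext (hQc x.1 x.2 y.1 y.2)⟩⟩
        open scoped IsMulCommutative in
        infer_instance))
    refine ⟨x, hxQ, ?_⟩
    rw [hR]
    refine ⟨M.mul_mem (hQM hxQ) hm, ?_⟩
    change x * m ∈ Subgroup.normalizer (X : Set G)
    rw [mem_normalizer_iff_map_conj, ← map_conj_map_conj]
    exact hx
  -- Step E : `R ⊓ Q = ⊥`
  have hE : ∀ u ∈ Q, u ∈ R → u = 1 := by
    intro u hu huR
    apply hB u hu
    have huX : u ∈ Subgroup.normalizer (X : Set G) := by rw [hR] at huR; exact huR.2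
    have hcen : L ≤ Subgroup.centralizer ({u} : Set G) := by
      rw [← hsup]
      apply sup_le
      · intro q hq
        rw [Subgroup.mem_centralizer_iff]
        intro z hz
        rw [Set.mem_singleton_iff.mp hz]
        exact hQc u hu q hq
      · intro x hx
        rw [Subgroup.mem_centralizer_iff]
        intro z hz
        rw [Set.mem_singleton_iff.mp hz]
        have h1 : u * x * u⁻¹ * x⁻¹ ∈ X :=
          X.mul_mem ((Subgroup.mem_normalizer_iff.mp huX x).mp hx) (X.inv_mem hx)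
        have h2 : u * x * u⁻¹ * x⁻¹ ∈ Q := by
          have : u * x * u⁻¹ * x⁻¹ = u * (x * u⁻¹ * x⁻¹) := by group
          rw [this]
          exact Q.mul_mem hu ((Subgroup.mem_normalizer_iff.mp (hLnQ (hXL hx)) u⁻¹).mp (Q.inv_mem hu))
        have h3 : u * x * u⁻¹ * x⁻¹ ∈ Q ⊓ X := ⟨h2, h1⟩
        rw [hQX, Subgroup.mem_bot] at h3
        calc u * x = (u * x * u⁻¹ * x⁻¹) * (x * u) := by group
          _ = x * u := by rw [h3, one_mul]
    intro l hl
    exact Subgroup.mem_centralizer_iff.mp (hcen hl) u rfl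
  -- `N ⊔ R = ⊤`
  have hNR : N ⊔ R = ⊤ := by
    rw [eq_top_iff]
    intro g _
    obtain ⟨n, hn, hnm⟩ := frattini_arg (M := ⊤) hQ (by
      rw [Subgroup.normalizer_eq_top]) (Subgroup.mem_top g)
    rw [← hM] at hnm
    obtain ⟨x, hx, hxm⟩ := hD _ hnm
    have : g = (n * x⁻¹) * (x * (n⁻¹ * g)) := by group
    rw [this]
    exact Subgroup.mul_mem _ ((le_sup_left : N ≤ N ⊔ R) (N.mul_mem hn (N.inv_mem (hQN hx))))
      ((le_sup_right : R ≤ N ⊔ R) hxm)
  obtain ⟨K, hK⟩ := exists_isSyl p R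
  have hRM : R ≤ M := by rw [hR]; exact inf_le_left
  have hdisj : Disjoint K N := by
    rw [Subgroup.disjoint_def]
    intro y hyK hyN
    have hyR := hK.le hyK
    have hyL : y ∈ L := by rw [hL]; exact ⟨hyN, hRM hyR⟩
    have hzp : IsPGroup p (Subgroup.zpowers y) :=
      hK.isPGroup.to_le (by rwa [Subgroup.zpowers_le])
    obtain ⟨l, hl, hle⟩ := hQsL.exists_conj_ge (A := Subgroup.zpowers y)
      (by rwa [Subgroup.zpowers_le]) hzp
    rw [map_conj_eq_of_mem_normalizer (hLnQ hl)] at hle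
    exact hE y (hle (Subgroup.mem_zpowers y)) hyR
  refine ⟨K, Subgroup.isComplement'_of_card_mul_and_disjoint ?_ hdisj⟩
  have h1 : Nat.card K * Nat.card N ≤ Nat.card G := by
    rw [← Nat.card_prod]
    exact Nat.card_le_card_of_injective _ (Subgroup.mul_injective_of_disjoint hdisj)
  apply le_antisymm h1
  have h2 : N.relIndex R = p ^ k := by
    rw [← hidx, ← Subgroup.relIndex_top_right, ← hNR, Subgroup.relIndex_sup_left]
  have h3 : p ^ k ∣ Nat.card R := by rw [← h2]; exact Subgroup.relIndex_dvd_card _ _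
  obtain ⟨j, hj⟩ := hK.isPGroup.exists_card_eq
  have h4 : Nat.card K * K.relIndex R = Nat.card R := by
    have := Subgroup.relIndex_mul_relIndex ⊥ K R bot_le hK.le
    rwa [Subgroup.relIndex_bot_left, Subgroup.relIndex_bot_left] at this
  have h5 : p ^ k ∣ Nat.card K := by
    rw [← h4] at h3
    exact Nat.Coprime.dvd_of_dvd_mul_right
      (Nat.Coprime.pow_left k ((Nat.Prime.coprime_iff_not_dvd hp).mpr hK.not_dvd_relIndex)) h3
  rw [← N.card_mul_index, hidx, mul_comm]
  exact Nat.mul_le_mul_right _ (Nat.le_of_dvd Nat.card_pos h5)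

/-- If the Sylow p-subgroups of O^p(G) are abelian then G splits over O^p(G). -/
theorem result {G : Type*} [Group G] [Finite G] {p : ℕ} [Fact p.Prime] (h : ∀ Q : Sylow p (Cfsg.pResidual p G), IsMulCommutative Q) : ∃ K : Subgroup G, K.IsComplement' (Cfsg.pResidual p G) := by
  have hNn : (Cfsg.pResidual p G).Normal := inferInstance
  obtain ⟨k, hk⟩ := IsPGroup.iff_card.mp (pResidual_quotient_isPGroup (G := G) (p := p))
  obtain ⟨Q0⟩ : Nonempty (Sylow p (Cfsg.pResidual p G)) := inferInstance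
  have hQ0c := h Q0
  have hA := Cfsg.Agent.S0075.result Q0 hQ0c
  have htop : Cfsg.pResidual p (Cfsg.pResidual p G) = ⊤ := by
    have h1 := pResidual_map_subtype p (Cfsg.pResidual p G)
    have h2 : {g : G | g ∈ Cfsg.pResidual p G ∧ (orderOf g).Coprime p} =
        {g : G | (orderOf g).Coprime p} := by
      ext g
      exact ⟨fun hg => hg.2, fun hg => ⟨mem_pResidual_of_coprime hg, hg⟩⟩
    rw [h2] at h1
    rw [eq_top_iff]
    intro n _
    have h3 : (n : G) ∈ Subgroup.closure {g : G | (orderOf g).Coprime p} := n.2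
    rw [← h1] at h3
    obtain ⟨w, hw, hwn⟩ := h3
    have : w = n := Subtype.ext hwn
    rwa [← this]
  rw [htop, inf_top_eq] at hA
  refine core (Cfsg.pResidual p G) k hk _ (isSyl_of_sylow Q0) ?_ ?_
  · rintro _ ⟨a, ha, rfl⟩ _ ⟨b, hb, rfl⟩
    have h1 := hQ0c.is_comm.comm ⟨a, ha⟩ ⟨b, hb⟩
    have h2 : a * b = b * a := congrArg Subtype.val h1
    exact congrArg Subtype.val h2
  · have hmap : ∀ A : Subgroup (Cfsg.pResidual p G), A ≤ Subgroup.normalizer ((Q0 : Subgroup (Cfsg.pResidual p G)) : Set (Cfsg.pResidual p G)) →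
        A.map (Cfsg.pResidual p G).subtype ≤ Cfsg.pResidual p G ⊓ Subgroup.normalizer
          (((Q0 : Subgroup (Cfsg.pResidual p G)).map (Cfsg.pResidual p G).subtype : Subgroup G) : Set G) := by
      rintro A hAn _ ⟨a, ha, rfl⟩
      refine ⟨a.2, ?_⟩
      change (a : G) ∈ Subgroup.normalizer _
      apply le_normalizer_of_conj_mem (K := Subgroup.zpowers (a : G)) _ (Subgroup.mem_zpowers _)
      rintro _ ⟨i, rfl⟩ _ ⟨q, hq, rfl⟩
      have h1 : a ^ i ∈ Subgroup.normalizer ((Q0 : Subgroup (Cfsg.pResidual p G)) : Set (Cfsg.pResidual p G)) :=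
        Subgroup.zpow_mem _ (hAn ha) i
      exact ⟨a ^ i * q * (a ^ i)⁻¹, (Subgroup.mem_normalizer_iff.mp h1 q).mp hq, by simp⟩
    conv_lhs => rw [hA]
    rw [Subgroup.map_commutator]
    exact Subgroup.commutator_mono (hmap _ Subgroup.le_normalizer) (hmap _ le_rfl)

end Cfsg.Agent.S0092
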