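import Cfsg.Statements.S0099
-- import your own Cfsg.Agent.* helpers here
import Mathlib
import Cfsg.Agent.Lib.Helper29.Extra3

set_option autoImplicit false
open Cfsg

namespace Cfsg.Agent.S0099

/-- Among three extraspecial 2-groups of equal order, some two are isomorphic. -/
theorem result {E₁ : Type*} {E₂ : Type*} {E₃ : Type*} [Group E₁] [Group E₂] [Group E₃] [Finite E₁] [Finite E₂] [Finite E₃] (h₁ : Cfsg.IsExtraspecial 2 E₁) (h₂ : Cfsg.IsExtraspecial 2 E₂) (h₃ : Cfsg.IsExtraspecial 2 E₃) (h12 : Nat.card E₁ = Nat.card E₂) (h23 : Nat.card E₂ = Nat.card E₃) : Nonempty (E₁ ≃* E₂) ∨ Nonempty (E₂ ≃* E₃) ∨ Nonempty (E₁ ≃* E₃) := by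
  haveI : Fact (Nat.Prime 2) := ⟨Nat.prime_two⟩
  obtain ⟨z₁, hz₁, -⟩ := Cfsg.Agent.Lib.Helper29.Extra.of_extraspecial h₁
  obtain ⟨z₂, hz₂, -⟩ := Cfsg.Agent.Lib.Helper29.Extra.of_extraspecial h₂
  obtain ⟨z₃, hz₃, -⟩ := Cfsg.Agent.Lib.Helper29.Extra.of_extraspecial h₃
  obtain ⟨m₁, a₁, b₁⟩ := Cfsg.Agent.Lib.Helper29.Extra.order_count (Nat.card E₁) E₁ z₁ hz₁ rfl
  obtain ⟨m₂, a₂, b₂⟩ := Cfsg.Agent.Lib.Helper29.Extra.order_count (Nat.card E₂) E₂ z₂ hz₂ rfl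
  obtain ⟨m₃, a₃, b₃⟩ := Cfsg.Agent.Lib.Helper29.Extra.order_count (Nat.card E₃) E₃ z₃ hz₃ rfl
  have e12 : m₁ = m₂ := by
    have : 2 ^ (2 * m₁ + 1) = 2 ^ (2 * m₂ + 1) := by rw [← a₁, ← a₂, h12]
    have := Nat.pow_right_injective (le_refl 2) this
    omega
  have e23 : m₂ = m₃ := by
    have : 2 ^ (2 * m₂ + 1) = 2 ^ (2 * m₃ + 1) := by rw [← a₂, ← a₃, h23]
    have := Nat.pow_right_injective (le_refl 2) this
    omega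
  subst e12 e23
  have key : Cfsg.Agent.Lib.Helper29.Extra.NN E₁ = Cfsg.Agent.Lib.Helper29.Extra.NN E₂ ∨
      Cfsg.Agent.Lib.Helper29.Extra.NN E₂ = Cfsg.Agent.Lib.Helper29.Extra.NN E₃ ∨
      Cfsg.Agent.Lib.Helper29.Extra.NN E₁ = Cfsg.Agent.Lib.Helper29.Extra.NN E₃ := by
    rcases b₁ with b₁ | b₁ <;> rcases b₂ with b₂ | b₂ <;> rcases b₃ with b₃ | b₃ <;> omega
  rcases key with k | k | k
  · left
    obtain ⟨F, -⟩ := Cfsg.Agent.Lib.Helper29.Extra.iso_two (Nat.card E₁) E₁ z₁ E₂ z₂ hz₁ hz₂ rfl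
      h12.symm k
    exact ⟨F⟩
  · right; left
    obtain ⟨F, -⟩ := Cfsg.Agent.Lib.Helper29.Extra.iso_two (Nat.card E₂) E₂ z₂ E₃ z₃ hz₂ hz₃ rfl
      h23.symm k
    exact ⟨F⟩
  · right; right
    obtain ⟨F, -⟩ := Cfsg.Agent.Lib.Helper29.Extra.iso_two (Nat.card E₁) E₁ z₁ E₃ z₃ hz₁ hz₃ rfl
      (h12.trans h23).symm k
    exact ⟨F⟩

end Cfsg.Agent.S0099
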