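import Cfsg.Statements.S0102
import Mathlib
import Cfsg.Agent.S0101
-- import your own Cfsg.Agent.* helpers here

set_option autoImplicit false
open Cfsg

namespace Cfsg.Agent.S0102

/-- A finite perfect group with cyclic Sylow p-subgroups has no perfect central extension whose kernel has order divisible by p. -/
theorem result {G : Type*} {H : Type*} [Group G] [Group H] [Finite G] [Finite H] (hG : commutator G = ⊤) {p : ℕ} [Fact p.Prime] (hcyc : ∀ P : Sylow p G, IsCyclic P) (σ : H →* G) (hσ : Function.Surjective σ) (hz : σ.ker ≤ Subgroup.center H) (hH : commutator H = ⊤) : ¬ p ∣ Nat.card σ.ker := by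
  intro hdvd
  obtain ⟨z, hzord⟩ := exists_prime_orderOf_dvd_card' p hdvd
  have hzord' : orderOf (z : H) = p := by rw [Subgroup.orderOf_coe]; exact hzord
  have hpz : IsPGroup p (Subgroup.zpowers (z : H)) := by
    rw [IsPGroup.iff_card]
    exact ⟨1, by rw [Nat.card_zpowers, hzord', pow_one]⟩
  obtain ⟨P, hP⟩ := hpz.exists_le_sylow
  have hzP : (z : H) ∈ (P : Subgroup H) := hP (Subgroup.mem_zpowers _)
  have hcy : IsCyclic (P.mapSurjective hσ) := hcyc _
  have hcy' : IsCyclic ((P : Subgroup H).map σ) := hcy
  let f : (P : Subgroup H) →* ((P : Subgroup H).map σ) := σ.subgroupMap (P : Subgroup H)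
  have hf : f.ker ≤ Subgroup.center (P : Subgroup H) := by
    intro x hx
    have hx1 : σ (x : H) = 1 := by
      have := congrArg Subtype.val (MonoidHom.mem_ker.mp hx)
      simpa [f] using this
    have hx2 : (x : H) ∈ Subgroup.center H := hz (MonoidHom.mem_ker.mpr hx1)
    rw [Subgroup.mem_center_iff]
    intro g
    apply Subtype.ext
    exact Subgroup.mem_center_iff.mp hx2 g
  have hcomm : IsMulCommutative (P : Subgroup H) := f.isMulCommutative_of_isCyclic_of_ker_le_center hf
  have h := Cfsg.Agent.S0101.central_mem_commutator hH P z (hz z.2) hzP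
  rw [(commutator_eq_bot_iff _).mpr hcomm, Subgroup.mem_bot] at h
  have h1 : (z : H) = 1 := congrArg Subtype.val h
  rw [h1, orderOf_one] at hzord'
  exact (Fact.out : p.Prime).one_lt.ne hzord'

end Cfsg.Agent.S0102
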