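import Cfsg.Statements.S0104
import Mathlib
-- import your own Cfsg.Agent.* helpers here

set_option autoImplicit false
open Cfsg

namespace Cfsg.Agent.S0104

open scoped Pointwise

/-- A subgroup Z of a Sylow p-subgroup P that is normalized by N_G(P) is weakly closed in P exactly when it is normal in every Sylow p-subgroup containing it. -/
theorem result {G : Type*} [Group G] [Finite G] {p : ℕ} [Fact p.Prime] (P : Sylow p G) (Z : Subgroup G) (hZP : Z ≤ (P : Subgroup G)) (hZN : Subgroup.normalizer (P : Set G) ≤ Subgroup.normalizer (Z : Set G)) : Cfsg.IsWeaklyClosed Z P ↔ ∀ R : Sylow p G, Z ≤ (R : Subgroup G) → (R : Subgroup G) ≤ Subgroup.normalizer (Z : Set G) := by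
  constructor
  · rintro ⟨_, hW⟩ R hZR
    obtain ⟨g, hg⟩ := MulAction.exists_smul_eq G R P
    have hgR : ∀ r ∈ (R : Subgroup G), g * r * g⁻¹ ∈ (P : Subgroup G) := by
      intro r hr
      rw [← hg]
      exact ⟨r, hr, rfl⟩
    have h1 : Z.map (MulAut.conj g).toMonoidHom ≤ P := by
      rintro _ ⟨z, hz, rfl⟩
      exact hgR z (hZR hz)
    have hgN : g ∈ Subgroup.normalizer (Z : Set G) :=
      Subgroup.mem_normalizer_iff_map_conj_eq.mpr (hW g h1)
    intro r hr
    have h2 : g * r * g⁻¹ ∈ Subgroup.normalizer (Z : Set G) := hZN (Subgroup.le_normalizer (hgR r hr))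
    have : r = g⁻¹ * (g * r * g⁻¹) * g := by group
    rw [this]
    exact Subgroup.mul_mem _ (Subgroup.mul_mem _ (Subgroup.inv_mem _ hgN) h2) hgN
  · intro h
    refine ⟨hZP, fun g hg => ?_⟩
    have hZR : Z ≤ ((g⁻¹ • P : Sylow p G) : Subgroup G) := by
      intro z hz
      show z ∈ MulAut.conj g⁻¹ • (P : Subgroup G)
      refine ⟨g * z * g⁻¹, hg ⟨z, hz, rfl⟩, ?_⟩
      simp [mul_assoc]
    have hR := h _ hZR
    have hP := h P hZP
    obtain ⟨n, hn⟩ := MulAction.exists_smul_eq (Subgroup.normalizer (Z : Set G))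
      ((g⁻¹ • P).subtype hR) (P.subtype hP)
    simp_rw [Sylow.smul_subtype, Subgroup.smul_def, smul_smul] at hn
    have h3 : (n : G) * g⁻¹ ∈ Subgroup.normalizer (Z : Set G) :=
      hZN (Sylow.smul_eq_iff_mem_normalizer.mp (Sylow.subtype_injective hn))
    have h4 : g ∈ Subgroup.normalizer (Z : Set G) := by
      have : g = ((n : G) * g⁻¹)⁻¹ * n := by group
      rw [this]
      exact Subgroup.mul_mem _ (Subgroup.inv_mem _ h3) n.2
    exact Subgroup.mem_normalizer_iff_map_conj_eq.mp h4

end Cfsg.Agent.S0104
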