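import Cfsg.Statements.S0105
import Mathlib
-- import your own Cfsg.Agent.* helpers here

set_option autoImplicit false
open Cfsg

namespace Cfsg.Agent.S0105

/-- conjugation by an element of the normalizer, as an endomorphism of the subgroup. -/
def cj {G : Type*} [Group G] (H : Subgroup G) (n : Subgroup.normalizer (H : Set G)) : H →* H where
  toFun x := ⟨n * x * (n : G)⁻¹, (Subgroup.mem_normalizer_iff.mp n.2 x).mp x.2⟩
  map_one' := Subtype.ext (by simp)
  map_mul' x y := Subtype.ext (by simp)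

theorem cj_mul {G : Type*} [Group G] (H : Subgroup G) (n n' : Subgroup.normalizer (H : Set G)) (x : H) :
    cj H (n * n') x = cj H n (cj H n' x) := Subtype.ext (by simp [cj, mul_assoc])

open scoped IsMulCommutative in
/-- With an abelian Sylow p-subgroup P, some quotient of G is isomorphic to the part of P central in N_G(P). -/
theorem result {G : Type*} [Group G] [Finite G] {p : ℕ} [Fact p.Prime] (P : Sylow p G) (hP : IsMulCommutative P) : ∃ (N : Subgroup G) (hN : N.Normal), Nonempty (G ⧸ N ≃* ((P : Subgroup G) ⊓ Subgroup.centralizer (Subgroup.normalizer (P : Set G) : Set G) : Subgroup G)) := by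
  classical
  have hpp : p.Prime := Fact.out
  have hPc : IsMulCommutative (P : Subgroup G) := hP
  set N := Subgroup.normalizer ((P : Subgroup G) : Set G) with hN
  set Z₀ : Subgroup G := (P : Subgroup G) ⊓ Subgroup.centralizer (N : Set G) with hZ₀
  have hPN : (P : Subgroup G) ≤ N := Subgroup.le_normalizer
  set P' : Subgroup N := (P : Subgroup G).subgroupOf N with hP'
  have hP'n : P'.Normal := Subgroup.normal_in_normalizer
  obtain ⟨k₀, hk₀⟩ := IsPGroup.iff_card.mp P.isPGroup'
  have hP'card : Nat.card P' = p ^ k₀ := by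
    rw [hP', Nat.card_congr (Subgroup.subgroupOfEquivOfLe hPN).toEquiv, hk₀]
  have hP'idx : ¬ p ∣ P'.index := by
    intro h
    exact P.not_dvd_index (h.trans (Subgroup.relIndex_dvd_index_of_le hPN))
  have hcop : Nat.Coprime (Nat.card P') P'.index := by
    rw [hP'card]
    exact Nat.Coprime.pow_left _ ((Nat.Prime.coprime_iff_not_dvd hpp).mpr hP'idx)
  obtain ⟨K', hK'⟩ := Subgroup.exists_right_complement'_of_coprime hcop
  have hK'card : Nat.card K' = P'.index := hK'.symm.index_eq_card.symm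
  have := Fintype.ofFinite K'
  let θ : (P : Subgroup G) →* (P : Subgroup G) := ∏ k : K', cj (P : Subgroup G) (k : N)
  have hθ : ∀ x, θ x = ∏ k : K', cj (P : Subgroup G) (k : N) x := by
    intro x
    simp [θ]
  have hcjP : ∀ (y : N), (y : G) ∈ (P : Subgroup G) → ∀ x, cj (P : Subgroup G) y x = x := by
    intro y hy x
    apply Subtype.ext
    show (y : G) * x * (y : G)⁻¹ = x
    have := congrArg Subtype.val (hPc.is_comm.comm ⟨y, hy⟩ x)
    have h2 : (y : G) * x = x * y := this
    rw [h2, mul_inv_cancel_right]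
  have hcjK : ∀ (k₁ : K') x, cj (P : Subgroup G) (k₁ : N) (θ x) = θ x := by
    intro k₁ x
    rw [hθ, map_prod]
    refine Fintype.prod_equiv (Equiv.mulLeft k₁) _ _ (fun k => ?_)
    rw [← cj_mul]
    rfl
  have hcjN : ∀ (n : N) x, cj (P : Subgroup G) n (θ x) = θ x := by
    intro n x
    obtain ⟨⟨y, k⟩, hyk⟩ := hK'.2 n
    have : n = (y : N) * (k : N) := hyk.symm
    rw [this, cj_mul, hcjK ⟨k, k.2⟩ x]
    exact hcjP y y.2 _
  have hθZ : ∀ x, ((θ x : (P : Subgroup G)) : G) ∈ Z₀ := by
    intro x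
    refine ⟨(θ x).2, fun n hn => ?_⟩
    have h1 := congrArg Subtype.val (hcjN ⟨n, hn⟩ x)
    have h2 : n * ((θ x : (P : Subgroup G)) : G) * n⁻¹ = θ x := h1
    calc n * ((θ x : (P : Subgroup G)) : G) = (n * ((θ x : (P : Subgroup G)) : G) * n⁻¹) * n := by group
      _ = ((θ x : (P : Subgroup G)) : G) * n := by rw [h2]
  have hθz : ∀ (z : (P : Subgroup G)), (z : G) ∈ Z₀ → θ z = z ^ Nat.card K' := by
    intro z hz
    rw [hθ]
    have h1 : ∀ k : K', cj (P : Subgroup G) (k : N) z = z := by
      intro k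
      apply Subtype.ext
      show ((k : N) : G) * z * ((k : N) : G)⁻¹ = z
      rw [hz.2 _ (k : N).2, mul_inv_cancel_right]
    simp only [h1, Finset.prod_const, Finset.card_univ, Nat.card_eq_fintype_card]
  let τ : G →* (P : Subgroup G) := MonoidHom.transfer (MonoidHom.id (P : Subgroup G))
  have hkey : ∀ z ∈ Z₀, ∀ (k : ℕ) (g₀ : G), g₀⁻¹ * z ^ k * g₀ ∈ (P : Subgroup G) →
      g₀⁻¹ * z ^ k * g₀ = z ^ k := by
    intro z hz k g₀ h
    have hzk : z ^ k ∈ Z₀ := Subgroup.pow_mem _ hz k
    obtain ⟨n, hn, h2⟩ := P.conj_eq_normalizer_conj_of_mem (z ^ k) g₀ hzk.1 h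
    rw [h2, mul_assoc, ← hzk.2 n hn, inv_mul_cancel_left]
  have hτz : ∀ (z : G) (hz : z ∈ Z₀), τ z = ⟨z, hz.1⟩ ^ (P : Subgroup G).index := by
    intro z hz
    show MonoidHom.transfer (MonoidHom.id (P : Subgroup G)) z = _
    rw [MonoidHom.transfer_eq_pow _ z (hkey z hz)]
    apply Subtype.ext
    simp
  let f : G →* Z₀ := ((P : Subgroup G).subtype.comp (θ.comp τ)).codRestrict Z₀ (fun g => hθZ (τ g))
  have hfz : ∀ z : Z₀, f (z : G) = z ^ ((P : Subgroup G).index * Nat.card K') := by
    intro z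
    apply Subtype.ext
    show ((θ (τ (z : G)) : (P : Subgroup G)) : G) = _
    rw [hτz z z.2, hθz _ (by simpa using Subgroup.pow_mem _ z.2 _), ← pow_mul]
    simp
  have hsurj : Function.Surjective f := by
    intro z
    obtain ⟨j, hj⟩ := (IsPGroup.iff_orderOf.mp (P.isPGroup'.to_le (inf_le_left : Z₀ ≤ _))) z
    have hc : Nat.Coprime ((P : Subgroup G).index * Nat.card K') (orderOf z) := by
      rw [hj]
      apply Nat.Coprime.pow_right
      apply Nat.Coprime.mul_left
      · exact ((Nat.Prime.coprime_iff_not_dvd hpp).mpr P.not_dvd_index).symm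
      · rw [hK'card]; exact ((Nat.Prime.coprime_iff_not_dvd hpp).mpr hP'idx).symm
    obtain ⟨i, hi⟩ := exists_pow_eq_self_of_coprime hc
    refine ⟨(z : G) ^ i, ?_⟩
    rw [map_pow, hfz, hi]
  exact ⟨f.ker, inferInstance, ⟨QuotientGroup.quotientKerEquivOfSurjective f hsurj⟩⟩

end Cfsg.Agent.S0105
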