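import Cfsg.Statements.S0110
import Mathlib
import Cfsg.Agent.Lib.Helper14.Pairing
import Cfsg.Agent.Lib.Helper11.PGroup
-- import your own Cfsg.Agent.* helpers here

set_option autoImplicit false
open Cfsg

namespace Cfsg.Agent.S0110

open scoped commutatorElement

/-- In a p-group G, an extraspecial subgroup E with [G, E] ≤ Z(E) satisfies G = E C_G(E). -/
theorem result {G : Type*} [Group G] [Finite G] {p : ℕ} [Fact p.Prime] (hG : IsPGroup p G) (E : Subgroup G) (hE : Cfsg.IsExtraspecial p E) (h : ⁅(⊤ : Subgroup G), E⁆ ≤ E ⊓ Subgroup.centralizer (E : Set G)) : E ⊔ Subgroup.centralizer (E : Set G) = ⊤ := by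
  have hp : p.Prime := Fact.out
  have hcard := hE.2
  set C := Subgroup.centralizer (E : Set G) with hCdef
  set Z := E ⊓ C with hZdef
  have hEn : E.Normal := Subgroup.commutator_top_left_le_iff.mp (h.trans inf_le_left)
  have hCn : C.Normal := inferInstance
  have hZn : Z.Normal := inferInstance
  have hZmap : Z = (Subgroup.center E).map E.subtype := by
    ext x
    constructor
    · rintro ⟨hxE, hxC⟩
      refine ⟨⟨x, hxE⟩, ?_, rfl⟩
      rw [SetLike.mem_coe, Subgroup.mem_center_iff]
      intro g
      exact Subtype.ext (hxC g g.2)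
    · rintro ⟨y, hy, rfl⟩
      refine ⟨y.2, fun g hg => ?_⟩
      exact congrArg Subtype.val (Subgroup.mem_center_iff.mp hy ⟨g, hg⟩)
  have hZcard : Nat.card Z = p := by
    rw [hZmap, Subgroup.card_map_of_injective E.subtype_injective, hcard]
  have hZne : Z ≠ ⊥ := by
    intro h0
    rw [h0, Subgroup.card_bot] at hZcard
    exact hp.one_lt.ne hZcard
  have hZc : Z ≤ Subgroup.center G := by
    obtain ⟨z, hzZ, hz1, hzc⟩ := Cfsg.Agent.Lib.Helper11.exists_mem_center_of_normal_ne_bot p hG Z hZne
    intro x hx
    have h1 : (⟨x, hx⟩ : Z) ∈ Subgroup.zpowers (⟨z, hzZ⟩ : Z) :=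
      mem_zpowers_of_prime_card hZcard (fun h => hz1 (congrArg Subtype.val h))
    obtain ⟨k, hk⟩ := h1
    have : x = z ^ k := by
      have := congrArg Subtype.val hk
      simpa using this.symm
    rw [this]
    exact Subgroup.zpow_mem _ hzc k
  have hpair := Cfsg.Agent.Lib.Helper14.comm_pairing Z ⊤ E hZc hZcard (by
    intro x _ y hy
    exact h (Subgroup.commutator_mem_commutator (Subgroup.mem_top x) hy))
  rw [Subgroup.relIndex_top_right, Subgroup.coe_top, Subgroup.centralizer_univ] at hpair
  have h1 : Subgroup.center G ⊓ E = C ⊓ E := by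
    apply le_antisymm
    · exact inf_le_inf_right _ (Subgroup.center_le_centralizer _)
    · refine le_inf ?_ inf_le_right
      rw [inf_comm]
      exact hZc
  have h2 : (Subgroup.center G).relIndex E = C.relIndex E := by
    rw [← Subgroup.inf_relIndex_right, h1, Subgroup.inf_relIndex_right]
  rw [h2] at hpair
  have h3 := Subgroup.relIndex_mul_index (show C ≤ E ⊔ C from le_sup_right)
  rw [Subgroup.relIndex_sup_right, hpair] at h3
  have h4 : C.relIndex E ≠ 0 := by
    rw [← hpair]; exact Subgroup.index_ne_zero_of_finite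
  have h5 : (E ⊔ C).index = 1 := by
    have : C.relIndex E * (E ⊔ C).index = C.relIndex E * 1 := by rw [h3, mul_one]
    exact Nat.eq_of_mul_eq_mul_left (Nat.pos_of_ne_zero h4) this
  exact Subgroup.index_eq_one.mp h5

end Cfsg.Agent.S0110
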