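import Cfsg.Statements.S0114
import Mathlib
import Cfsg.Agent.S0113
import Cfsg.Agent.Lib.Helper14.MaxClass
import Cfsg.Agent.Lib.Helper14.DihRec
import Cfsg.Agent.Lib.Helper11.PGroup
-- import your own Cfsg.Agent.* helpers here

set_option autoImplicit false
open Cfsg

namespace Cfsg.Agent.S0114

/-- If `C = ⟨c⟩` has index two, every element outside `C` squares into the centre. -/
theorem sq_mem_center {X : Type*} [Group X] (c : X) (hi : (Subgroup.zpowers c).index = 2) (y : X)
    (hy : y ∉ Subgroup.zpowers c) : y * y ∈ Subgroup.center X := by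
  have hyy : y * y ∈ Subgroup.zpowers c := Subgroup.mul_self_mem_of_index_two hi y
  have hCcomm : ∀ a ∈ Subgroup.zpowers c, ∀ b ∈ Subgroup.zpowers c, a * b = b * a := by
    rintro _ ⟨i, rfl⟩ _ ⟨j, rfl⟩
    show c ^ i * c ^ j = c ^ j * c ^ i
    rw [← zpow_add, ← zpow_add, add_comm]
  rw [Subgroup.mem_center_iff]
  intro g
  by_cases hg : g ∈ Subgroup.zpowers c
  · exact hCcomm g hg _ hyy
  · have h1 : y⁻¹ * g ∈ Subgroup.zpowers c := by
      rw [Subgroup.mul_mem_iff_of_index_two hi, Subgroup.inv_mem_iff]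
      exact ⟨fun h => absurd h hy, fun h => absurd h hg⟩
    have h2 := hCcomm _ h1 _ hyy
    calc g * (y * y) = y * ((y⁻¹ * g) * (y * y)) := by group
      _ = y * ((y * y) * (y⁻¹ * g)) := by rw [h2]
      _ = y * y * g := by group

/-- The central quotient of a 2-group of maximal class is dihedral. -/
theorem result {X : Type*} [Group X] [Finite X] (n : ℕ) (hn : 3 ≤ n) (hX : Nat.card X = 2 ^ n) (hc : Group.nilpotencyClass X = n - 1) : Nonempty (X ⧸ Subgroup.center X ≃* DihedralGroup (2 ^ (n - 2))) := by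
  have hXp : IsPGroup 2 X := IsPGroup.of_card hX
  obtain ⟨hZcard, hQcard, -⟩ := Cfsg.Agent.Lib.Helper14.maxclass_center (p := 2) n hn hX hc
  obtain ⟨C, hCcyc, hCi⟩ := Cfsg.Agent.S0113.result n hn hX hc
  obtain ⟨⟨c, hcC⟩, hcgen⟩ := hCcyc.exists_generator
  have hCc : C = Subgroup.zpowers c := by
    apply le_antisymm
    · intro y hy
      obtain ⟨k, hk⟩ := Subgroup.mem_zpowers_iff.mp (hcgen ⟨y, hy⟩)
      have := congrArg Subtype.val hk
      exact ⟨k, by simpa using this⟩
    · rw [Subgroup.zpowers_le]; exact hcC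
  subst hCc
  set Z := Subgroup.center X with hZ
  let π := QuotientGroup.mk' Z
  have hπ : Function.Surjective π := QuotientGroup.mk'_surjective Z
  have hCn : (Subgroup.zpowers c).Normal := Subgroup.normal_of_index_eq_two hCi
  have hCne : Subgroup.zpowers c ≠ ⊥ := by
    intro h
    rw [h, Subgroup.index_bot, hX] at hCi
    have : 2 ^ 3 ≤ 2 ^ n := Nat.pow_le_pow_right (by norm_num) hn
    omega
  obtain ⟨w, hwC, hw1, hwZ⟩ := Cfsg.Agent.Lib.Helper11.exists_mem_center_of_normal_ne_bot 2 hXp _ hCne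
  have hZC : Z ≤ Subgroup.zpowers c := by
    intro ζ hζ
    have h1 : (⟨ζ, hζ⟩ : Z) ∈ Subgroup.zpowers (⟨w, hwZ⟩ : Z) :=
      mem_zpowers_of_prime_card hZcard (fun h => hw1 (congrArg Subtype.val h))
    obtain ⟨k, hk⟩ := h1
    have h2 : ζ = w ^ k := by
      have := congrArg Subtype.val hk
      simpa using this.symm
    rw [h2]
    exact Subgroup.zpow_mem _ hwC k
  obtain ⟨x, hx⟩ : ∃ x, x ∉ Subgroup.zpowers c := by
    by_contra hcon
    push Not at hcon
    have : Subgroup.zpowers c = ⊤ := eq_top_iff.mpr (fun y _ => hcon y)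
    rw [this, Subgroup.index_top] at hCi
    omega
  have hpow : 2 ^ (n - 1) = 2 * 2 ^ (n - 2) := by
    rw [← pow_succ']; congr 1; omega
  have : NeZero (2 ^ (n - 2)) := ⟨by positivity⟩
  apply Cfsg.Agent.Lib.Helper14.nonempty_mulEquiv_dihedral (2 ^ (n - 2)) (π c) (π x)
  · -- order of π c
    rw [← Nat.card_zpowers, ← MonoidHom.map_zpowers]
    have h1 : ((Subgroup.zpowers c).map π).index = 2 := by
      rw [Subgroup.index_map_eq _ hπ (by rw [QuotientGroup.ker_mk']; exact hZC), hCi]
    have h2 := Subgroup.card_mul_index ((Subgroup.zpowers c).map π)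
    rw [h1, hQcard, hpow, mul_comm] at h2
    exact Nat.eq_of_mul_eq_mul_left (by norm_num) h2
  · rintro ⟨k, hk⟩
    apply hx
    have h1 : (c ^ k)⁻¹ * x ∈ Z := by
      rw [← QuotientGroup.eq_one_iff]
      show π ((c ^ k)⁻¹ * x) = 1
      rw [map_mul, map_inv, map_zpow]
      have : π c ^ k = π x := hk
      rw [this, inv_mul_cancel]
    have h2 : x = c ^ k * ((c ^ k)⁻¹ * x) := by group
    rw [h2]
    exact Subgroup.mul_mem _ (Subgroup.zpow_mem _ (Subgroup.mem_zpowers c) k) (hZC h1)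
  · rw [← map_mul]
    exact (QuotientGroup.eq_one_iff _).mpr (sq_mem_center c hCi x hx)
  · have hxc : x * c ∉ Subgroup.zpowers c := by
      rw [Subgroup.mul_mem_iff_of_index_two hCi]
      intro h
      exact hx (h.mpr (Subgroup.mem_zpowers c))
    have h1 : π ((x * c) * (x * c)) = 1 := (QuotientGroup.eq_one_iff _).mpr (sq_mem_center c hCi _ hxc)
    have h2 : π (x * x) = 1 := (QuotientGroup.eq_one_iff _).mpr (sq_mem_center c hCi x hx)
    rw [map_mul, map_mul] at h1
    rw [map_mul] at h2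
    have h3 : (π x)⁻¹ = π x := by rw [inv_eq_iff_mul_eq_one, h2]
    rw [h3, eq_inv_iff_mul_eq_one]
    rw [← h1]; group
  · rw [hQcard, hpow]

end Cfsg.Agent.S0114
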