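import Cfsg.Statements.S0119
import Mathlib
import Cfsg.Agent.S0012
import Cfsg.Agent.S0013
import Cfsg.Agent.Lib.Helper14.Class2
import Cfsg.Agent.Lib.Helper14.PGroupRel
-- import your own Cfsg.Agent.* helpers here

set_option autoImplicit false
open Cfsg

namespace Cfsg.Agent.S0119

open scoped commutatorElement

/-- `G' ≤ C_G(Z₂(G))`. -/
theorem comm_le_centralizer_Z2 {G : Type*} [Group G] :
    commutator G ≤ Subgroup.centralizer (Subgroup.upperCentralSeriesStep (Subgroup.center G) : Set G) := by
  rw [← Subgroup.commutator_eq_bot_iff_le_centralizer, commutator_def]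
  have h0 : ⁅Subgroup.upperCentralSeriesStep (Subgroup.center G), (⊤ : Subgroup G)⁆ ≤ Subgroup.center G := by
    rw [Subgroup.commutator_le]
    intro x hx y _
    exact hx y
  have h1 : ⁅⁅Subgroup.upperCentralSeriesStep (Subgroup.center G), (⊤ : Subgroup G)⁆, (⊤ : Subgroup G)⁆ = ⊥ := by
    rw [Subgroup.commutator_eq_bot_iff_le_centralizer, Subgroup.coe_top, Subgroup.centralizer_univ]
    exact h0
  apply Subgroup.commutator_commutator_eq_bot_of_rotate
  · rw [Subgroup.commutator_comm ⊤]; exact h1
  · exact h1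

/-- If all characteristic abelian subgroups of a `p`-group are central, the class is at most two. -/
theorem class_two_of_char_abelian_central {G : Type*} [Group G] [Finite G] {p : ℕ} [Fact p.Prime]
    (hG : IsPGroup p G)
    (h : ∀ H : Subgroup G, H.Characteristic → IsMulCommutative H → H ≤ Subgroup.center G) :
    commutator G ≤ Subgroup.center G := by
  by_contra hcon
  obtain ⟨x, hx, hxZ, -, hxc⟩ := Cfsg.Agent.Lib.Helper14.exists_rel_central_order_p p hG
    (Subgroup.center G) (commutator G) hcon
  apply hxZ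
  have hK : (commutator G ⊓ Subgroup.upperCentralSeriesStep (Subgroup.center G)) ≤ Subgroup.center G := by
    apply h _ inferInstance
    refine ⟨⟨fun a b => ?_⟩⟩
    apply Subtype.ext
    exact (comm_le_centralizer_Z2 b.2.1 a a.2.2)
  exact hK ⟨hx, hxc⟩

/-- power step. -/
theorem pow_step {G : Type*} [Group G]
    (h : ∀ H : Subgroup G, H.Characteristic → IsMulCommutative H → H ≤ Subgroup.center G)
    (h2 : commutator G ≤ Subgroup.center G) (m : ℕ) (hm : ∀ x : G, x ^ (m * m) ∈ Subgroup.center G)
    (x : G) : x ^ m ∈ Subgroup.center G := by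
  have hcen : ∀ a b : G, ⁅a, b⁆ ∈ Subgroup.center G := fun a b =>
    h2 (Subgroup.commutator_mem_commutator (Subgroup.mem_top a) (Subgroup.mem_top b))
  have hW : Subgroup.closure {y : G | ∃ x : G, y = x ^ m} ≤ Subgroup.center G := by
    apply h
    · rw [Subgroup.characteristic_iff_map_le]
      intro ϕ
      rw [MonoidHom.map_closure]
      apply Subgroup.closure_mono
      rintro _ ⟨_, ⟨x, rfl⟩, rfl⟩
      exact ⟨ϕ x, by simp⟩
    · apply Subgroup.isMulCommutative_closure
      rintro _ ⟨a, rfl⟩ _ ⟨b, rfl⟩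
      rw [← commutatorElement_eq_one_iff_mul_comm,
        Cfsg.Agent.Lib.Helper14.comm_pow_left a (b ^ m) (hcen _ _),
        Cfsg.Agent.Lib.Helper14.comm_pow_right a b (hcen _ _), ← pow_mul,
        ← Cfsg.Agent.Lib.Helper14.comm_pow_left a b (hcen _ _), commutatorElement_eq_one_iff_mul_comm]
      exact (Subgroup.mem_center_iff.mp (hm a) b).symm
  exact hW (Subgroup.subset_closure ⟨x, rfl⟩)

theorem pow_p_mem_center {G : Type*} [Group G] (p : ℕ)
    (h : ∀ H : Subgroup G, H.Characteristic → IsMulCommutative H → H ≤ Subgroup.center G)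
    (h2 : commutator G ≤ Subgroup.center G) (k : ℕ)
    (hk : ∀ x : G, x ^ (p ^ (k + 1)) ∈ Subgroup.center G) (x : G) : x ^ p ∈ Subgroup.center G := by
  induction k with
  | zero => simpa using hk x
  | succ k ih =>
    apply ih
    intro y
    apply pow_step h h2
    intro z
    have : p ^ (k + 1) * p ^ (k + 1) = p ^ (k + 1 + 1) * p ^ k := by ring
    rw [this, pow_mul]
    exact Subgroup.pow_mem _ (hk z) _

/-- If a p'-group A of automorphisms of a p-group G satisfies G = [G, A] and acts trivially on every characteristic abelian subgroup, then G is special with centre equal to the fixed points of A. -/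
theorem result {G : Type*} [Group G] [Finite G] {p : ℕ} [Fact p.Prime] (hG : IsPGroup p G) (A : Subgroup (MulAut G)) (hA : Nat.Coprime (Nat.card A) p) (hGA : Subgroup.closure {x : G | ∃ g : G, ∃ a ∈ A, x = g⁻¹ * a g} = ⊤) (hchar : ∀ H : Subgroup G, H.Characteristic → IsMulCommutative H → ∀ a ∈ A, ∀ h ∈ H, a h = h) : Cfsg.IsSpecial p G ∧ (∀ g : G, (g ∈ Subgroup.center G ↔ ∀ a ∈ A, a g = g)) := by
  classical
  have hp : p.Prime := Fact.out
  -- (1) characteristic abelian subgroups are central
  have h1 : ∀ H : Subgroup G, H.Characteristic → IsMulCommutative H → H ≤ Subgroup.center G := by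
    intro H hHc hHa x hx
    have hle : Subgroup.closure {x : G | ∃ g : G, ∃ a ∈ A, x = g⁻¹ * a g} ≤
        Subgroup.centralizer {x} := by
      rw [Subgroup.closure_le]
      rintro _ ⟨g, a, ha, rfl⟩
      rw [SetLike.mem_coe, Subgroup.mem_centralizer_singleton_iff]
      have hn : g * x * g⁻¹ ∈ H := Subgroup.Normal.conj_mem inferInstance x hx g
      have e1 := hchar H hHc hHa a ha _ hn
      rw [map_mul, map_mul, map_inv, hchar H hHc hHa a ha x hx] at e1
      calc g⁻¹ * a g * x = g⁻¹ * (a g * x * (a g)⁻¹) * a g := by group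
        _ = x * (g⁻¹ * a g) := by rw [e1]; group
    rw [hGA] at hle
    rw [Subgroup.mem_center_iff]
    intro g
    have := Subgroup.mem_centralizer_singleton_iff.mp (hle (Subgroup.mem_top g))
    exact this
  have h2 : commutator G ≤ Subgroup.center G := class_two_of_char_abelian_central hG h1
  -- (3) fixed points lie in the commutator subgroup
  have hfinA : Finite A := inferInstance
  have := Fintype.ofFinite A
  let N : G →* Abelianization G := ∏ a : A, (Abelianization.of.comp (a : MulAut G).toMonoidHom)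
  have hN : ∀ g, N g = ∏ a : A, Abelianization.of ((a : MulAut G) g) := by
    intro g
    simp [N]
  have hNa : ∀ (a₀ : A) (g : G), N ((a₀ : MulAut G) g) = N g := by
    intro a₀ g
    rw [hN, hN]
    exact Fintype.prod_equiv (Equiv.mulRight a₀) _ _ (fun a => rfl)
  have hN1 : ∀ g, N g = 1 := by
    intro g
    have hle : Subgroup.closure {x : G | ∃ g : G, ∃ a ∈ A, x = g⁻¹ * a g} ≤ N.ker := by
      rw [Subgroup.closure_le]
      rintro _ ⟨g, a, ha, rfl⟩
      rw [SetLike.mem_coe, MonoidHom.mem_ker, map_mul, map_inv, hNa ⟨a, ha⟩ g, inv_mul_cancel]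
    rw [hGA] at hle
    exact hle (Subgroup.mem_top g)
  have h3 : ∀ g : G, (∀ a ∈ A, a g = g) → g ∈ commutator G := by
    intro g hg
    have e1 := hN1 g
    rw [hN] at e1
    have e2 : ∀ a : A, Abelianization.of ((a : MulAut G) g) = Abelianization.of g := fun a => by
      rw [hg a a.2]
    simp only [e2, Finset.prod_const, Finset.card_univ] at e1
    rw [← map_pow, ← MonoidHom.mem_ker, Abelianization.ker_of, ← Nat.card_eq_fintype_card] at e1
    obtain ⟨j, hj⟩ := (IsPGroup.iff_orderOf.mp hG) g
    have hcop : Nat.Coprime (Nat.card A) (orderOf g) := by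
      rw [hj]; exact Nat.Coprime.pow_right _ hA
    obtain ⟨m, hm⟩ := exists_pow_eq_self_of_coprime hcop
    rw [← hm]
    exact Subgroup.pow_mem _ e1 m
  have h4 : ∀ g ∈ Subgroup.center G, ∀ a ∈ A, a g = g := fun g hg a ha =>
    hchar _ inferInstance inferInstance a ha g hg
  have h5 : commutator G = Subgroup.center G :=
    le_antisymm h2 (fun g hg => h3 g (h4 g hg))
  have h6 : ∀ x : G, x ^ p ∈ Subgroup.center G := by
    obtain ⟨k, hk⟩ := IsPGroup.iff_card.mp hG
    apply pow_p_mem_center p h1 h2 k
    intro x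
    rw [pow_succ, pow_mul, ← hk, pow_card_eq_one', one_pow]
    exact Subgroup.one_mem _
  refine ⟨⟨hG, le_antisymm ?_ ?_, h5⟩, fun g => ⟨h4 g, fun hg => h2 (h3 g hg)⟩⟩
  · exact Cfsg.Agent.S0013.result p hG _ h2 h6
  · rw [← h5]; exact (Cfsg.Agent.S0012.result p hG).1

end Cfsg.Agent.S0119
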