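import Cfsg.Statements.S0124
import Cfsg.Agent.Lib.Helper22.Class3

set_option autoImplicit false
open Cfsg

namespace Cfsg.Agent.S0124

open Cfsg.Agent.Lib.Helper22.Class3 in
theorem mul_pow_one {R : Type*} [Group R] {p : ℕ} (hpp : p.Prime) (hp : 3 < p)
    (hcl : ⁅⁅commutator R, (⊤ : Subgroup R)⁆, (⊤ : Subgroup R)⁆ = ⊥) (x y : R)
    (hx : x ^ p = 1) (hy : y ^ p = 1) : (x * y) ^ p = 1 := by
  obtain ⟨c, d, e, h, -, -, -⟩ := rel_of_class3 hcl x y
  have h2 : p ∣ p.choose 2 := hpp.dvd_choose_self (by norm_num) (by omega)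
  have h3 : p ∣ p.choose 3 := hpp.dvd_choose_self (by norm_num) hp
  have hd : d ^ p = 1 := by
    have := h.c_xpow p
    rw [hx, mul_one, one_mul] at this
    exact (mul_eq_left.mp this.symm)
  have he : e ^ p = 1 := by
    have := h.c_ypow p
    rw [hy, mul_one, one_mul] at this
    exact (mul_eq_left.mp this.symm)
  have hc : c ^ p = 1 := by
    have := h.ypow_x p
    rw [hy, one_mul, mul_one, pow_eq_one_of_dvd he h2, mul_one] at this
    exact (mul_eq_left.mp this.symm)
  rw [h.mul_pow p, hx, hy, pow_eq_one_of_dvd hc h2, pow_eq_one_of_dvd hd h3,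
    pow_eq_one_of_dvd he (Dvd.dvd.add h2 (Dvd.dvd.mul_left h3 2))]
  simp

/-- For p > 3, in a p-group of class at most three the elements of order dividing p generate a subgroup of exponent dividing p. -/
theorem result {R : Type*} [Group R] [Finite R] {p : ℕ} [Fact p.Prime] (hp : 3 < p) (hR : IsPGroup p R) (hcl : ⁅⁅commutator R, (⊤ : Subgroup R)⁆, (⊤ : Subgroup R)⁆ = ⊥) (g : R) (hg : g ∈ Subgroup.closure {x : R | x ^ p = 1}) : g ^ p = 1 := by
  have hpp : p.Prime := Fact.out
  induction hg using Subgroup.closure_induction with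
  | mem x hx => exact hx
  | one => exact one_pow p
  | mul x y _ _ hx hy => exact mul_pow_one hpp hp hcl x y hx hy
  | inv x _ hx => rw [inv_pow, hx, inv_one]

end Cfsg.Agent.S0124
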