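import Cfsg.Statements.S0123
import Cfsg.Agent.Lib.Helper22.Class3
import Cfsg.Agent.S0124
import Cfsg.Agent.S0096

set_option autoImplicit false
open Cfsg

namespace Cfsg.Agent.S0123

/-- For a p-group of small class relative to p (class ≤ 2 with p odd, or class ≤ 3 with p > 3) whose derived subgroup is generated by elements of order dividing p, the p-th power map is multiplicative. -/
theorem result {R : Type*} [Group R] [Finite R] {p : ℕ} [Fact p.Prime] (hR : IsPGroup p R) (hcl : (p ≠ 2 ∧ ⁅commutator R, (⊤ : Subgroup R)⁆ = ⊥) ∨ (3 < p ∧ ⁅⁅commutator R, (⊤ : Subgroup R)⁆, (⊤ : Subgroup R)⁆ = ⊥)) (hder : commutator R ≤ Subgroup.closure {x : R | x ^ p = 1}) (x y : R) : (x * y) ^ p = x ^ p * y ^ p := by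
  have hpp : p.Prime := Fact.out
  have hle3 : ⁅commutator R, (⊤ : Subgroup R)⁆ ≤ commutator R := Subgroup.commutator_le_left _ _
  rcases hcl with ⟨hp2, hcl2⟩ | ⟨hp3, hcl3⟩
  · have hcl3 : ⁅⁅commutator R, (⊤ : Subgroup R)⁆, (⊤ : Subgroup R)⁆ = ⊥ := by
      rw [hcl2]; exact Subgroup.commutator_bot_left _
    obtain ⟨c, d, e, h, hc, hd, he⟩ := Cfsg.Agent.Lib.Helper22.Class3.rel_of_class3 hcl3 x y
    rw [hcl2, Subgroup.mem_bot] at hd he
    have hcp : c ^ p = 1 := Cfsg.Agent.S0096.result hp2 hR hcl2 c (hder hc)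
    have h2 : p ∣ p.choose 2 := hpp.dvd_choose_self (by norm_num) (by have := hpp.two_le; omega)
    rw [h.mul_pow p, Cfsg.Agent.Lib.Helper22.Class3.pow_eq_one_of_dvd hcp h2, hd, he]
    simp
  · obtain ⟨c, d, e, h, hc, hd, he⟩ := Cfsg.Agent.Lib.Helper22.Class3.rel_of_class3 hcl3 x y
    have hcp : c ^ p = 1 := Cfsg.Agent.S0124.result hp3 hR hcl3 c (hder hc)
    have hdp : d ^ p = 1 := Cfsg.Agent.S0124.result hp3 hR hcl3 d (hder (hle3 hd))
    have hep : e ^ p = 1 := Cfsg.Agent.S0124.result hp3 hR hcl3 e (hder (hle3 he))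
    have h2 : p ∣ p.choose 2 := hpp.dvd_choose_self (by norm_num) (by omega)
    have h3 : p ∣ p.choose 3 := hpp.dvd_choose_self (by norm_num) hp3
    rw [h.mul_pow p, Cfsg.Agent.Lib.Helper22.Class3.pow_eq_one_of_dvd hcp h2,
      Cfsg.Agent.Lib.Helper22.Class3.pow_eq_one_of_dvd hdp h3,
      Cfsg.Agent.Lib.Helper22.Class3.pow_eq_one_of_dvd hep (Dvd.dvd.add h2 (Dvd.dvd.mul_left h3 2))]
    simp

end Cfsg.Agent.S0123
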