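import Cfsg.Statements.S0125
import Mathlib
import Cfsg.Agent.Lib.Helper17.Syl
-- import your own Cfsg.Agent.* helpers here

set_option autoImplicit false
open Cfsg

namespace Cfsg.Agent.S0125

/-- The centralizer of a self-centralizing normal subgroup A of a Sylow p-subgroup is the direct product of A with a normal p'-subgroup. -/
theorem result {G : Type*} [Group G] [Finite G] {p : ℕ} [Fact p.Prime] (R : Sylow p G) (A : Subgroup G) (hAR : A ≤ (R : Subgroup G)) (hAn : (R : Subgroup G) ≤ Subgroup.normalizer (A : Set G)) (hC : (R : Subgroup G) ⊓ Subgroup.centralizer (A : Set G) = A) : ∃ H : Subgroup G, H ≤ Subgroup.centralizer (A : Set G) ∧ Nat.Coprime (Nat.card H) p ∧ Subgroup.centralizer (A : Set G) ≤ Subgroup.normalizer (H : Set G) ∧ H ⊓ A = ⊥ ∧ H ⊔ A = Subgroup.centralizer (A : Set G) := by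
  have hpp : p.Prime := Fact.out
  set C := Subgroup.centralizer (A : Set G) with hCdef
  have hCN : C ≤ Subgroup.normalizer (A : Set G) := Subgroup.centralizer_le_normalizer _
  have hNC : Subgroup.normalizer (A : Set G) ≤ Subgroup.normalizer (C : Set G) := by
    intro n hn
    rw [Subgroup.mem_normalizer_iff]
    have key : ∀ m ∈ Subgroup.normalizer (A : Set G), ∀ c ∈ C, m * c * m⁻¹ ∈ C := by
      intro m hm c hc a ha
      have h1 : m⁻¹ * a * m ∈ A := by
        have := (Subgroup.mem_normalizer_iff.mp (Subgroup.inv_mem _ hm) a).mp ha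
        simpa using this
      have h2 := hc _ h1
      calc a * (m * c * m⁻¹) = m * ((m⁻¹ * a * m) * c) * m⁻¹ := by group
        _ = m * (c * (m⁻¹ * a * m)) * m⁻¹ := by rw [h2]
        _ = m * c * m⁻¹ * a := by group
    intro c
    constructor
    · exact key n hn c
    · intro h
      have := key n⁻¹ (Subgroup.inv_mem _ hn) _ h
      simpa [mul_assoc] using this
  have hsyl : Cfsg.Agent.Lib.Helper17.IsSyl p ((R : Subgroup G) ⊓ C) C :=
    ((Cfsg.Agent.Lib.Helper17.isSyl_top R).of_le hAn le_top).inf_normal hCN hNC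
  rw [hC] at hsyl
  obtain ⟨S, hS⟩ := hsyl
  have hScen : ∀ s ∈ (S : Subgroup C), ∀ c : C, c * s = s * c := by
    intro s hs c
    have hsA : (s : G) ∈ A := hS ▸ (⟨s, hs, rfl⟩ : (s : G) ∈ (S : Subgroup C).map C.subtype)
    exact Subtype.ext (c.2 s hsA).symm
  have hSN : Subgroup.normalizer ((S : Subgroup C) : Set C) ≤ Subgroup.centralizer ((S : Subgroup C) : Set C) := by
    intro c _ s hs
    exact (hScen s hs c).symm
  obtain ⟨K, hKn, hcompl, hnd⟩ : ∃ K : Subgroup C, K.Normal ∧ Subgroup.IsComplement' K S ∧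
      ¬ p ∣ Nat.card K :=
    ⟨(MonoidHom.transferSylow S hSN).ker, inferInstance,
      MonoidHom.ker_transferSylow_isComplement' S hSN, MonoidHom.not_dvd_card_ker_transferSylow S hSN⟩
  refine ⟨K.map C.subtype, Subgroup.map_subtype_le _, ?_, ?_, ?_, ?_⟩
  · rw [Subgroup.card_map_of_injective C.subtype_injective]
    exact ((Nat.Prime.coprime_iff_not_dvd hpp).mpr hnd).symm
  · intro c hc
    rw [Subgroup.mem_normalizer_iff]
    intro h
    constructor
    · rintro ⟨k, hk, rfl⟩
      exact ⟨⟨c, hc⟩ * k * ⟨c, hc⟩⁻¹, hKn.conj_mem k hk _, rfl⟩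
    · rintro ⟨k, hk, hkk⟩
      refine ⟨⟨c, hc⟩⁻¹ * k * ⟨c, hc⟩, ?_, ?_⟩
      · have := hKn.conj_mem k hk ⟨c, hc⟩⁻¹
        simpa using this
      · have : (k : G) = c * h * c⁻¹ := hkk
        simp [this, mul_assoc]
  · rw [← hS, ← Subgroup.map_inf _ _ _ C.subtype_injective, hcompl.disjoint.eq_bot, Subgroup.map_bot]
  · rw [← hS, ← Subgroup.map_sup, hcompl.sup_eq_top, ← MonoidHom.range_eq_map, Subgroup.range_subtype]

end Cfsg.Agent.S0125
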