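import Cfsg.Statements.S0129
import Cfsg.Agent.S0015

set_option autoImplicit false
open Cfsg

namespace Cfsg.Agent.S0129

theorem comm_top_ne {G : Type*} [Group G] [hn : Group.IsNilpotent G] (A : Subgroup G) (hA : A ≠ ⊥) :
    ⁅A, (⊤ : Subgroup G)⁆ ≠ A := by
  intro h
  obtain ⟨n, hn⟩ := Subgroup.nilpotent_iff_lowerCentralSeries.mp hn
  have key : ∀ k, A ≤ Subgroup.lowerCentralSeries (⊤ : Subgroup G) k := by
    intro k
    induction k with
    | zero => simp
    | succ k ih =>
      calc A = ⁅A, (⊤ : Subgroup G)⁆ := h.symm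
        _ ≤ ⁅Subgroup.lowerCentralSeries (⊤ : Subgroup G) k, (⊤ : Subgroup G)⁆ := Subgroup.commutator_mono ih le_rfl
        _ = Subgroup.lowerCentralSeries (⊤ : Subgroup G) (k+1) := rfl
  apply hA
  have := key n
  rw [hn] at this
  exact le_bot_iff.mp this

theorem index_centralizer_le {G : Type*} [Group G] [Finite G] {p : ℕ} [hp : Fact p.Prime]
    (hG : IsPGroup p G) :
    ∀ (a : ℕ) (A : Subgroup G), A.Normal → Nat.card A = p ^ a →
      (Subgroup.centralizer (A : Set G)).index ≤ p ^ (∑ i ∈ Finset.range a, i) := by
  haveI : Group.IsNilpotent G := hG.isNilpotent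
  intro a
  induction a with
  | zero =>
    intro A _ hc
    have : A = ⊥ := by
      rw [pow_zero] at hc
      exact Subgroup.card_eq_one.mp hc
    subst this
    have h2 : Subgroup.centralizer (((⊥ : Subgroup G) : Subgroup G) : Set G) = ⊤ := by
      rw [eq_top_iff]
      intro g _
      rw [Subgroup.mem_centralizer_iff]
      intro h hh
      have : h = 1 := Subgroup.mem_bot.mp hh
      rw [this]; simp
    rw [h2]; simp
  | succ a ih =>
    intro A hAn hc
    have hp1 : 1 < p := hp.out.one_lt
    have hAne : A ≠ ⊥ := by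
      intro h
      rw [h] at hc
      simp at hc
      have : 1 < p ^ (a+1) := Nat.one_lt_pow (by omega) hp1
      omega
    set M : Subgroup G := ⁅A, (⊤ : Subgroup G)⁆ with hM
    have hMA : M ≤ A := Subgroup.commutator_le_left A ⊤
    have hMne : M ≠ A := comm_top_ne A hAne
    -- inside A
    have hM'dvd : Nat.card (M.subgroupOf A) ∣ p ^ (a+1) := by
      rw [← hc]; exact Subgroup.card_subgroup_dvd_card _
    obtain ⟨n, hn, hM'c⟩ := (Nat.dvd_prime_pow hp.out).1 hM'dvd
    have hn' : n ≤ a := by
      by_contra hcon
      have hn1 : n = a + 1 := by omega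
      have : M.subgroupOf A = ⊤ := by
        apply Subgroup.eq_top_of_card_eq
        rw [hM'c, hc, hn1]
      rw [Subgroup.subgroupOf_eq_top] at this
      exact hMne (le_antisymm hMA this)
    obtain ⟨K', hK'c, hK'⟩ := Sylow.exists_subgroup_card_pow_prime_le p
      (show p ^ a ∣ Nat.card A by rw [hc]; exact pow_dvd_pow p (by omega)) (M.subgroupOf A) hM'c hn'
    set B : Subgroup G := K'.map A.subtype with hB
    have hBc : Nat.card B = p ^ a := by
      rw [← hK'c]
      exact (Nat.card_congr (Subgroup.equivMapOfInjective K' A.subtype A.subtype_injective).toEquiv).symm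
    have hBA : B ≤ A := Subgroup.map_subtype_le K'
    have hMB : M ≤ B := by
      intro m hm
      refine ⟨⟨m, hMA hm⟩, hK' ?_, rfl⟩
      exact Subgroup.mem_subgroupOf.mpr hm
    have hcomm : ∀ (g y : G), y ∈ A → g * y * g⁻¹ * y⁻¹ ∈ M := by
      intro g y hy
      have := Subgroup.commutator_mem_commutator (Subgroup.mem_top g) hy
      rw [Subgroup.commutator_comm] at this
      exact this
    have hBn : B.Normal := by
      constructor
      intro b hb g
      have h1 := hMB (hcomm g b (hBA hb))
      have := B.mul_mem h1 hb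
      simpa using this
    have ihB := ih B hBn hBc
    have hBltA : B < A := by
      refine lt_of_le_of_ne hBA ?_
      intro h
      rw [h, hc] at hBc
      have := Nat.pow_right_injective (show 2 ≤ p from hp.out.two_le) hBc
      omega
    obtain ⟨x, hxA, hxB⟩ := SetLike.exists_of_lt hBltA
    -- A is generated by B and x
    have hgen : ∀ D : Subgroup G, B ≤ D → x ∈ D → A ≤ D := by
      intro D hBD hxD
      set E : Subgroup G := D ⊓ A with hE
      have hBE : B ≤ E := le_inf hBD hBA
      have hEA : E ≤ A := inf_le_right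
      have hEd : Nat.card E ∣ p ^ (a+1) := by
        rw [← hc]; exact Subgroup.card_dvd_of_le hEA
      obtain ⟨k, hk, hEc⟩ := (Nat.dvd_prime_pow hp.out).1 hEd
      have hBd : p ^ a ∣ p ^ k := by
        rw [← hBc, ← hEc]; exact Subgroup.card_dvd_of_le hBE
      have hak : a ≤ k := (Nat.pow_dvd_pow_iff_le_right hp1).1 hBd
      have hka : k ≠ a := by
        intro h
        have : B = E := Subgroup.eq_of_le_of_card_ge hBE (by rw [hBc, hEc, h])
        exact hxB (this ▸ ⟨hxD, hxA⟩)
      have hk1 : k = a + 1 := by omega
      have : E = A := Subgroup.eq_of_le_of_card_ge hEA (by rw [hc, hEc, hk1])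
      rw [← this]
      exact inf_le_left
    set L : Subgroup G := Subgroup.centralizer (B : Set G) with hL
    set C : Subgroup G := Subgroup.centralizer (A : Set G) with hC
    have hCL : C ≤ L := Subgroup.centralizer_le hBA
    have key : C.relIndex L ≤ Nat.card B := by
      let f : L → B := fun g => ⟨(g:G) * x * (g:G)⁻¹ * x⁻¹, hMB (hcomm g x hxA)⟩
      have hf : ∀ g h : L, f g = f h → (g⁻¹ * h) ∈ C.subgroupOf L := by
        intro g h hgh
        have h1 : (g:G) * x * (g:G)⁻¹ * x⁻¹ = (h:G) * x * (h:G)⁻¹ * x⁻¹ := congrArg Subtype.val hgh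
        have h2 : (g:G) * x * (g:G)⁻¹ = (h:G) * x * (h:G)⁻¹ := mul_right_cancel h1
        rw [Subgroup.mem_subgroupOf]
        set c : G := ((g⁻¹ * h : L) : G) with hc'
        have hcL : c ∈ L := (g⁻¹ * h : L).2
        have hcx : x * c = c * x := by
          have : c = (g:G)⁻¹ * (h:G) := by simp [hc']
          rw [this]
          have h3 : x = (g:G)⁻¹ * ((h:G) * x * (h:G)⁻¹) * (g:G) := by
            rw [← h2]; group
          calc x * ((g:G)⁻¹ * (h:G)) = ((g:G)⁻¹ * ((h:G) * x * (h:G)⁻¹) * (g:G)) * ((g:G)⁻¹ * (h:G)) := by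
                rw [← h3]
            _ = (g:G)⁻¹ * (h:G) * x := by group
        have hAle : A ≤ Subgroup.centralizer ({c} : Set G) := by
          apply hgen
          · intro b hb
            rw [Subgroup.mem_centralizer_singleton_iff]
            exact ((Subgroup.mem_centralizer_iff.mp hcL) b hb)
          · rw [Subgroup.mem_centralizer_singleton_iff]
            exact hcx
        rw [hC, Subgroup.mem_centralizer_iff]
        intro y hy
        have := hAle hy
        rw [Subgroup.mem_centralizer_singleton_iff] at this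
        exact this
      rw [Subgroup.relIndex, Subgroup.index]
      apply Nat.card_le_card_of_injective (fun q => f q.out)
      intro q1 q2 h
      have := hf _ _ h
      rw [← QuotientGroup.out_eq' q1, ← QuotientGroup.out_eq' q2]
      exact QuotientGroup.eq.mpr this
    have hmul : C.relIndex L * L.index = C.index := Subgroup.relIndex_mul_index hCL
    rw [← hmul, Finset.sum_range_succ, pow_add, mul_comm]
    exact Nat.mul_le_mul ihB (hBc ▸ key)

/-- The order of a p-group is bounded by p^(a(a+1)/2) when it has a maximal normal abelian subgroup of order p^a. -/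
theorem result {G : Type*} [Group G] [Finite G] {p : ℕ} [Fact p.Prime] (hG : IsPGroup p G) (A : Subgroup G) [A.Normal] (hA : IsMulCommutative A) (hmax : ∀ B : Subgroup G, B.Normal → IsMulCommutative B → A ≤ B → B = A) (a : ℕ) (ha : Nat.card A = p ^ a) : Nat.card G ≤ p ^ (a * (a + 1) / 2) := by
  haveI : Group.IsNilpotent G := hG.isNilpotent
  haveI := hA
  have hCA : Subgroup.centralizer (A : Set G) = A := Cfsg.Agent.S0015.result A hmax
  have h1 := index_centralizer_le hG a A inferInstance ha
  rw [hCA] at h1
  have h2 : Nat.card G = Nat.card A * A.index := (Subgroup.card_mul_index A).symm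
  have h3 : a * (a + 1) / 2 = a + ∑ i ∈ Finset.range a, i := by
    have := Finset.sum_range_id (a+1)
    rw [Finset.sum_range_succ] at this
    have h4 : (a + 1) * (a + 1 - 1) = a * (a + 1) := by
      rw [Nat.add_sub_cancel, mul_comm]
    rw [h4] at this
    omega
  rw [h2, ha, h3, pow_add]
  exact Nat.mul_le_mul le_rfl h1

end Cfsg.Agent.S0129
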