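import Cfsg.Statements.S0131
import Mathlib
import Cfsg.Agent.Lib.Helper14.SylowConj
-- import your own Cfsg.Agent.* helpers here

set_option autoImplicit false
open Cfsg

namespace Cfsg.Agent.S0131

open scoped commutatorElement

/-- P/P' has a normal complement in G exactly when the focal subgroup G' ∩ P is as small as possible, namely P'. -/
theorem result {G : Type*} [Group G] [Finite G] {p : ℕ} [Fact p.Prime] (P : Sylow p G) : (∃ N : Subgroup G, N.Normal ∧ N ⊓ (P : Subgroup G) = ⁅(P : Subgroup G), (P : Subgroup G)⁆ ∧ N ⊔ (P : Subgroup G) = ⊤) ↔ commutator G ⊓ (P : Subgroup G) = ⁅(P : Subgroup G), (P : Subgroup G)⁆ := by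
  have hpp : p.Prime := Fact.out
  have hle : ⁅(P : Subgroup G), (P : Subgroup G)⁆ ≤ commutator G ⊓ (P : Subgroup G) :=
    le_inf (Subgroup.commutator_mono le_top le_top) (Subgroup.commutator_le_self _)
  constructor
  · rintro ⟨N, hNn, hNP, hNtop⟩
    refine le_antisymm ?_ hle
    rw [← hNP]
    refine inf_le_inf_right _ ?_
    rw [← Subgroup.Normal.quotient_commutative_iff_commutator_le]
    have hrep : ∀ q : G ⧸ N, ∃ x ∈ (P : Subgroup G), (x : G ⧸ N) = q := by
      intro q
      obtain ⟨g, rfl⟩ := QuotientGroup.mk_surjective q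
      have hg : g ∈ N ⊔ (P : Subgroup G) := hNtop ▸ Subgroup.mem_top g
      rw [Subgroup.mem_sup_of_normal_left] at hg
      obtain ⟨n, hn, x, hx, rfl⟩ := hg
      refine ⟨x, hx, ?_⟩
      rw [QuotientGroup.mk_mul, (QuotientGroup.eq_one_iff n).mpr hn, one_mul]
    refine ⟨⟨fun a b => ?_⟩⟩
    obtain ⟨x, hx, rfl⟩ := hrep a
    obtain ⟨y, hy, rfl⟩ := hrep b
    have h1 : ⁅x, y⁆ ∈ N := by
      have : ⁅x, y⁆ ∈ N ⊓ (P : Subgroup G) := hNP ▸ Subgroup.commutator_mem_commutator hx hy
      exact this.1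
    have h2 : ((⁅x, y⁆ : G) : G ⧸ N) = 1 := (QuotientGroup.eq_one_iff _).mpr h1
    have h3 : ((⁅x, y⁆ : G) : G ⧸ N) = ⁅(x : G ⧸ N), (y : G ⧸ N)⁆ :=
      map_commutatorElement (QuotientGroup.mk' N) x y
    rw [h3, commutatorElement_eq_one_iff_mul_comm] at h2
    exact h2
  · intro hfoc
    set m := (P : Subgroup G).index with hm
    set n := Nat.card (P : Subgroup G) with hn
    have hnm : n * m = Nat.card G := Subgroup.card_mul_index _
    obtain ⟨k, hk⟩ := IsPGroup.iff_card.mp P.isPGroup'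
    have hcop : Nat.Coprime n m := by
      rw [hn, hk]
      exact Nat.Coprime.pow_left _ ((Nat.Prime.coprime_iff_not_dvd hpp).mpr P.not_dvd_index)
    let φ : G →* Abelianization G := (powMonoidHom m).comp Abelianization.of
    have hφ : ∀ g, φ g = Abelianization.of (g ^ m) := fun g => by
      show (Abelianization.of g) ^ m = _
      rw [map_pow]
    have hmemK : ∀ g, g ∈ φ.ker ↔ g ^ m ∈ commutator G := by
      intro g
      rw [MonoidHom.mem_ker, hφ, ← MonoidHom.mem_ker, Abelianization.ker_of]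
    have hGK : commutator G ≤ φ.ker := fun g hg => (hmemK g).mpr (Subgroup.pow_mem _ hg m)
    refine ⟨φ.ker, inferInstance, le_antisymm ?_ ?_, ?_⟩
    · rintro x ⟨hxK, hxP⟩
      rw [← hfoc]
      refine ⟨?_, hxP⟩
      have h1 := (hmemK x).mp hxK
      have h2 : orderOf x ∣ n := by
        have := orderOf_dvd_natCard (⟨x, hxP⟩ : (P : Subgroup G))
        rwa [Subgroup.orderOf_mk] at this
      have h3 : Nat.Coprime m (orderOf x) := (Nat.Coprime.coprime_dvd_left h2 hcop).symm
      obtain ⟨i, hi⟩ := exists_pow_eq_self_of_coprime h3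
      rw [← hi]
      exact Subgroup.pow_mem _ h1 i
    · exact le_inf (hle.trans (inf_le_left.trans hGK)) (Subgroup.commutator_le_self _)
    · rw [eq_top_iff]
      intro g _
      have hbez : IsCoprime (n : ℤ) (m : ℤ) := Nat.isCoprime_iff_coprime.mpr hcop
      obtain ⟨u, v, huv⟩ := hbez
      have hg : g = (g ^ n) ^ u * (g ^ m) ^ v := by
        rw [← zpow_natCast, ← zpow_natCast, ← zpow_mul, ← zpow_mul, ← zpow_add, mul_comm (n : ℤ),
          mul_comm (m : ℤ), huv, zpow_one]
      have h1 : (g ^ n) ^ u ∈ φ.ker := by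
        apply Subgroup.zpow_mem
        rw [hmemK, ← pow_mul, hnm, pow_card_eq_one']
        exact Subgroup.one_mem _
      set y := (g ^ m) ^ v with hy
      have hyn : y ^ (p ^ k) = 1 := by
        rw [hy, ← hk, ← hn, ← zpow_natCast, ← zpow_mul, mul_comm, zpow_mul, zpow_natCast, ← pow_mul,
          mul_comm m, hnm, pow_card_eq_one', one_zpow]
      obtain ⟨h, hh⟩ := Cfsg.Agent.Lib.Helper14.exists_conj_mem_sylow P _
        (Cfsg.Agent.Lib.Helper14.isPGroup_zpowers hyn)
      have hyP := hh y (Subgroup.mem_zpowers y)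
      have hy2 : y = ⁅h⁻¹, h * y * h⁻¹⁆ * (h * y * h⁻¹) := by
        rw [commutatorElement_def]; group
      rw [hg, hy2]
      refine Subgroup.mul_mem _ (Subgroup.mem_sup_left h1) (Subgroup.mul_mem _ (Subgroup.mem_sup_left ?_)
        (Subgroup.mem_sup_right hyP))
      exact hGK (Subgroup.commutator_mem_commutator (Subgroup.mem_top _) (Subgroup.mem_top _))

end Cfsg.Agent.S0131
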