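import Cfsg.Statements.S0134
import Cfsg.Agent.Lib.Helper2.CharReg

set_option autoImplicit false
open Cfsg

namespace Cfsg.Agent.S0134

/-- The sum of the squares of the degrees of the irreducible complex characters of a finite group is the order of the group. -/
theorem result {G : Type*} [Group G] [Finite G] : ∑ᶠ χ : Cfsg.IrrCharacter G, (χ : G → ℂ) 1 ^ 2 = (Nat.card G : ℂ) := by
  classical
  cases nonempty_fintype G
  have := Cfsg.Agent.Lib.Helper2.finite_irrCharacter (G := G)
  cases nonempty_fintype (Cfsg.IrrCharacter G)
  rw [finsum_eq_sum_of_fintype]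
  have := Cfsg.Agent.Lib.Helper2.sum_irr_one_mul (G := G) 1
  rw [if_pos rfl] at this
  rw [← this]
  exact Finset.sum_congr rfl fun χ _ => by ring

end Cfsg.Agent.S0134
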