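import Cfsg.Statements.S0136
import Cfsg.Agent.Lib.Helper2.CharReg

set_option autoImplicit false
open Cfsg

namespace Cfsg.Agent.S0136

/-- Two elements of a finite group are conjugate if and only if no irreducible complex character separates them. -/
theorem result {G : Type*} [Group G] [Finite G] (g h : G) : IsConj g h ↔ ∀ χ : Cfsg.IrrCharacter G, (χ : G → ℂ) g = (χ : G → ℂ) h := by
  classical
  cases nonempty_fintype G
  have := Cfsg.Agent.Lib.Helper2.finite_irrCharacter (G := G)
  cases nonempty_fintype (Cfsg.IrrCharacter G)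
  constructor
  · intro hgh χ
    obtain ⟨c, rfl⟩ := isConj_iff.1 hgh
    exact ((Cfsg.Agent.Lib.Helper2.IsCharacter.isClassFunction
      (Cfsg.Agent.Lib.Helper2.IsIrrCharacter.isCharacter χ.2)) g c).symm
  · intro hχ
    by_contra hgh
    have h1 := Cfsg.Agent.Lib.Helper2.column_orthogonality g h
    have h2 := Cfsg.Agent.Lib.Helper2.column_orthogonality g g
    rw [Cfsg.Agent.Lib.Helper2.card_conj_eq_zero g h hgh] at h1
    rw [Cfsg.Agent.Lib.Helper2.card_conj_eq g g (IsConj.refl g)] at h2
    simp only [← hχ] at h1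
    rw [h1] at h2
    have h3 : Nat.card (Subgroup.centralizer ({g} : Set G)) ≠ 0 := Nat.card_pos.ne'
    exact h3 (by exact_mod_cast h2.symm)

end Cfsg.Agent.S0136
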