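import Cfsg.Statements.S0157
import Cfsg.Agent.Lib.Helper25.Perm

set_option autoImplicit false
open Cfsg

namespace Cfsg.Agent.S0157

/-- For a transitive action of a finite group on a finite set with at least two points: the action is 2-transitive if and only if the function sending g to (number of fixed points of g) − 1 is an irreducible character. -/
theorem result {G : Type*} [Group G] [Finite G] (X : Type*) [MulAction G X] [Finite X] [MulAction.IsPretransitive G X] (hX : 2 ≤ Nat.card X) : Cfsg.IsIrrCharacter G (fun g => (Nat.card (MulAction.fixedBy X g) : ℂ) - 1) ↔ MulAction.IsMultiplyPretransitive G X 2 := by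
  classical
  cases nonempty_fintype G
  have hnt : Nontrivial X := Finite.one_lt_card_iff_nontrivial.mp (by omega)
  have hone : Cfsg.IsIrrCharacter G (fun _ => (1 : ℂ)) := Cfsg.Agent.Lib.Helper7.isIrrCharacter_one
  have hπ := Cfsg.Agent.Lib.Helper25.isCharacter_permChar (G := G) X
  have h1 : Cfsg.classInner (Cfsg.Agent.Lib.Helper25.permChar G X) (fun _ => 1) = 1 := by
    rw [Cfsg.Agent.Lib.Helper25.classInner_permChar_one]
    have hs : Subsingleton (MulAction.orbitRel.Quotient G X) :=
      (MulAction.pretransitive_iff_subsingleton_quotient G X).mp inferInstance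
    have hne : Nonempty (MulAction.orbitRel.Quotient G X) :=
      ⟨Quotient.mk'' (Classical.arbitrary X)⟩
    have : Nat.card (MulAction.orbitRel.Quotient G X) = 1 :=
      Nat.card_eq_one_iff_unique.mpr ⟨hs, hne⟩
    rw [this, Nat.cast_one]
  have h1' : Cfsg.classInner (fun _ => 1) (Cfsg.Agent.Lib.Helper25.permChar G X) = 1 := by
    rw [← Cfsg.Agent.Lib.Helper7.classInner_conj_symm, h1, map_one]
  have hψ : Cfsg.IsCharacter G (Cfsg.Agent.Lib.Helper25.permChar G X - fun _ => 1) :=
    Cfsg.Agent.Lib.Helper25.isCharacter_sub_irr hπ hone (by rw [h1]; exact one_ne_zero)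
  have hnorm : Cfsg.classInner (Cfsg.Agent.Lib.Helper25.permChar G X - fun _ => 1)
      (Cfsg.Agent.Lib.Helper25.permChar G X - fun _ => 1)
      = (Nat.card (MulAction.orbitRel.Quotient G (X × X)) : ℂ) - 1 := by
    rw [Cfsg.Agent.Lib.Helper7.classInner_sub_left, Cfsg.Agent.Lib.Helper7.classInner_sub_right,
      Cfsg.Agent.Lib.Helper7.classInner_sub_right, h1, h1',
      Cfsg.Agent.Lib.Helper7.classInner_irr_self hone,
      Cfsg.Agent.Lib.Helper25.classInner_permChar_permChar]
    ring
  have hiff : Cfsg.IsIrrCharacter G (Cfsg.Agent.Lib.Helper25.permChar G X - fun _ => 1)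
      ↔ Nat.card (MulAction.orbitRel.Quotient G (X × X)) = 2 := by
    constructor
    · intro h
      have := Cfsg.Agent.Lib.Helper7.classInner_irr_self h
      rw [hnorm] at this
      have h2 : (Nat.card (MulAction.orbitRel.Quotient G (X × X)) : ℂ) = 2 := by
        linear_combination this
      exact_mod_cast h2
    · intro h
      apply Cfsg.Agent.Lib.Helper7.isIrrCharacter_of_classInner_self_eq_one hψ
      rw [hnorm, h]
      norm_num
  let f : MulAction.orbitRel.Quotient G (X × X) → Bool :=
    Quotient.lift (fun p : X × X => decide (p.1 = p.2)) (by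
      rintro ⟨a, b⟩ ⟨c, d⟩ ⟨g, hg⟩
      have e1 : g • c = a := congrArg Prod.fst hg
      have e2 : g • d = b := congrArg Prod.snd hg
      simp only [decide_eq_decide]
      rw [← e1, ← e2]
      exact smul_left_cancel_iff g)
  have hf : ∀ a b : X, f (Quotient.mk'' (a, b)) = decide (a = b) := fun _ _ => rfl
  have hsurj : Function.Surjective f := by
    obtain ⟨a, b, hab⟩ := exists_pair_ne X
    intro t
    cases t
    · exact ⟨Quotient.mk'' (a, b), by rw [hf]; simpa using hab⟩
    · exact ⟨Quotient.mk'' (a, a), by rw [hf]; simp⟩
  have hcard : Nat.card (MulAction.orbitRel.Quotient G (X × X)) = 2 ↔ Function.Injective f := by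
    constructor
    · intro h
      exact (hsurj.bijective_of_nat_card_le (by rw [h]; simp)).1
    · intro h
      rw [Nat.card_congr (Equiv.ofBijective f ⟨h, hsurj⟩)]
      simp
  have htrans : Function.Injective f ↔ MulAction.IsMultiplyPretransitive G X 2 := by
    rw [MulAction.is_two_pretransitive_iff]
    constructor
    · intro h a b c d hab hcd
      have : (Quotient.mk'' (c, d) : MulAction.orbitRel.Quotient G (X × X))
          = Quotient.mk'' (a, b) := by
        apply h
        rw [hf, hf]
        simp [hab, hcd]
      obtain ⟨g, hg⟩ := Quotient.exact this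
      exact ⟨g, congrArg Prod.fst hg, congrArg Prod.snd hg⟩
    · intro h p q
      induction p using Quotient.inductionOn' with
      | h p =>
      induction q using Quotient.inductionOn' with
      | h q =>
      obtain ⟨a, b⟩ := p
      obtain ⟨c, d⟩ := q
      intro hpq
      rw [hf, hf, decide_eq_decide] at hpq
      apply Quotient.sound'
      by_cases hab : a = b
      · have hcd := hpq.mp hab
        subst hab
        subst hcd
        obtain ⟨g, hg⟩ := MulAction.exists_smul_eq G c a
        exact ⟨g, Prod.ext hg hg⟩
      · have hcd : c ≠ d := fun e => hab (hpq.mpr e)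
        obtain ⟨g, hg1, hg2⟩ := h hcd hab
        exact ⟨g, Prod.ext hg1 hg2⟩
  exact hiff.trans (hcard.trans htrans)

end Cfsg.Agent.S0157
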