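import Cfsg.Statements.S0159
import Cfsg.Agent.Lib.Helper2.CharReg

set_option autoImplicit false
open Cfsg

namespace Cfsg.Agent.S0159

/-- The number of solutions of s * s = 1 in a finite group equals the sum, over the irreducible characters χ, of (the average over s of χ (s * s)) times χ 1. -/
theorem result {G : Type*} [Group G] [Fintype G] : (Nat.card {s : G // s * s = 1} : ℂ) = ∑ᶠ χ : Cfsg.IrrCharacter G, ((Nat.card G : ℂ)⁻¹ * ∑ s : G, (χ : G → ℂ) (s * s)) * (χ : G → ℂ) 1 := by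
  classical
  have := Cfsg.Agent.Lib.Helper2.finite_irrCharacter (G := G)
  cases nonempty_fintype (Cfsg.IrrCharacter G)
  rw [finsum_eq_sum_of_fintype]
  have h1 : ∀ χ : Cfsg.IrrCharacter G,
      ((Nat.card G : ℂ)⁻¹ * ∑ s : G, (χ : G → ℂ) (s * s)) * (χ : G → ℂ) 1 =
      (Nat.card G : ℂ)⁻¹ * ∑ s : G, (χ : G → ℂ) 1 * (χ : G → ℂ) (s * s) := by
    intro χ
    rw [mul_assoc, Finset.sum_mul]
    congr 1
    exact Finset.sum_congr rfl fun s _ => mul_comm _ _
  rw [Finset.sum_congr rfl fun χ _ => h1 χ, ← Finset.mul_sum, Finset.sum_comm]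
  simp only [Cfsg.Agent.Lib.Helper2.sum_irr_one_mul]
  rw [← Finset.sum_filter, Finset.sum_const, nsmul_eq_mul, Nat.card_eq_fintype_card (α := {s : G // s * s = 1}),
    Fintype.card_subtype]
  have := Cfsg.Agent.Lib.Helper2.card_ne_zero' (G := G)
  field_simp

end Cfsg.Agent.S0159
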