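import Cfsg.Statements.S0162
import Cfsg.Agent.Lib.Helper2.CharPerm
import Cfsg.Agent.Lib.Helper2.CharDeg

set_option autoImplicit false
open Cfsg

namespace Cfsg.Agent.S0162

/-- If a finite group has odd order, its order is congruent to its number of conjugacy classes modulo 16. -/
theorem result {G : Type*} [Group G] [Finite G] (hodd : Odd (Nat.card G)) : Nat.card G ≡ Nat.card (ConjClasses G) [MOD 16] := by
  classical
  cases nonempty_fintype G
  have := Cfsg.Agent.Lib.Helper2.finite_irrCharacter (G := G)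
  cases nonempty_fintype (Cfsg.IrrCharacter G)
  choose d hd0 hd1 hd2 using fun χ : Cfsg.IrrCharacter G =>
    Cfsg.Agent.Lib.Helper2.IsIrrCharacter.exists_degree χ.2
  have hsum : ∑ χ, d χ ^ 2 = Nat.card G := by
    have h := Cfsg.Agent.Lib.Helper2.sum_irr_one_mul (G := G) 1
    rw [if_pos rfl] at h
    have h2 : ((∑ χ, d χ ^ 2 : ℕ) : ℂ) = (Nat.card G : ℂ) := by
      rw [← h]
      push_cast
      exact Finset.sum_congr rfl fun χ _ => by rw [hd1 χ]; ring
    exact_mod_cast h2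
  have hodd_d : ∀ χ, Odd (d χ) := fun χ => Odd.of_dvd_nat hodd (hd2 χ)
  let cj : Cfsg.IrrCharacter G → Cfsg.IrrCharacter G := fun χ =>
    ⟨fun g => (starRingEnd ℂ) (χ.1 g), Cfsg.Agent.Lib.Helper2.IsIrrCharacter.conj χ.2⟩
  have hcj_d : ∀ χ, d (cj χ) = d χ := by
    intro χ
    have h1 : ((cj χ : Cfsg.IrrCharacter G) : G → ℂ) 1 = (starRingEnd ℂ) ((χ : G → ℂ) 1) := rfl
    rw [hd1, hd1, Complex.conj_natCast] at h1
    exact_mod_cast h1
  have h16 : ∀ m : ℕ, Odd m → (2 * ((m : ZMod 16) ^ 2 - 1)) = 0 := by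
    rintro m ⟨t, rfl⟩
    obtain ⟨s, hs⟩ := Int.even_mul_succ_self (t : ℤ)
    have h1 : ((16 : ℕ) : ℤ) ∣ 2 * ((2 * (t : ℤ) + 1) ^ 2 - 1) := by
      refine ⟨s, ?_⟩
      have : 2 * ((2 * (t : ℤ) + 1) ^ 2 - 1) = 8 * ((t : ℤ) * (t + 1)) := by ring
      rw [this, hs]; push_cast; ring
    have h2 := (ZMod.intCast_zmod_eq_zero_iff_dvd _ 16).2 h1
    push_cast at h2 ⊢
    exact h2
  have key : ∑ χ, (((d χ : ZMod 16)) ^ 2 - 1) = 0 := by
    refine Finset.sum_involution (fun χ _ => cj χ) ?_ ?_ (fun _ _ => Finset.mem_univ _) ?_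
    · intro χ _
      rw [hcj_d, ← two_mul]
      exact h16 _ (hodd_d χ)
    · intro χ _ hne heq
      apply hne
      have hreal : ∀ g : G, ((χ : G → ℂ) g).im = 0 := by
        intro g
        have := congrFun (congrArg Subtype.val heq) g
        exact Complex.conj_eq_iff_im.1 this
      have h1 := Cfsg.Agent.Lib.Helper2.eq_one_of_real_of_odd hodd χ hreal
      have h2 := congrFun h1 1
      rw [hd1] at h2
      have h3 : d χ = 1 := by exact_mod_cast h2
      rw [h3]; simp
    · intro χ _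
      apply Subtype.ext
      funext g
      exact Complex.conj_conj _
  rw [Finset.sum_sub_distrib, sub_eq_zero] at key
  rw [← Cfsg.Agent.Lib.Helper2.card_irrCharacter, ← ZMod.natCast_eq_natCast_iff, ← hsum]
  push_cast
  rw [key]
  simp [Nat.card_eq_fintype_card]

end Cfsg.Agent.S0162
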