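import Cfsg.Statements.S0167
import Cfsg.Agent.Lib.Helper2.CharDeg

set_option autoImplicit false
open Cfsg

namespace Cfsg.Agent.S0167

/-- An element g of a finite group is a commutator if and only if the sum over the irreducible characters χ of χ g / χ 1 is nonzero. -/
theorem result {G : Type*} [Group G] [Finite G] (g : G) : (∃ a b : G, g = a * b * a⁻¹ * b⁻¹) ↔ ∑ᶠ χ : Cfsg.IrrCharacter G, (χ : G → ℂ) g / (χ : G → ℂ) 1 ≠ 0 := by
  classical
  cases nonempty_fintype G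
  have := Cfsg.Agent.Lib.Helper2.finite_irrCharacter (G := G)
  cases nonempty_fintype (Cfsg.IrrCharacter G)
  rw [finsum_eq_sum_of_fintype]
  have hne := Cfsg.Agent.Lib.Helper2.card_ne_zero' (G := G)
  -- count of pairs
  have hcount : (Nat.card G : ℂ) * ((Finset.univ.filter fun p : G × G =>
      p.1 * p.2 * p.1⁻¹ * p.2⁻¹ = g).card : ℂ) =
      (Nat.card G : ℂ) * ((Nat.card G : ℂ) *
        ∑ χ : Cfsg.IrrCharacter G, (χ : G → ℂ) g⁻¹ / (χ : G → ℂ) 1) := by
    have h1 : (Nat.card G : ℂ) * ((Finset.univ.filter fun p : G × G =>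
        p.1 * p.2 * p.1⁻¹ * p.2⁻¹ = g).card : ℂ) =
        ∑ p : G × G, ∑ χ : Cfsg.IrrCharacter G,
          (χ : G → ℂ) 1 * (χ : G → ℂ) (p.1 * p.2 * p.1⁻¹ * (p.2⁻¹ * g⁻¹)) := by
      simp only [Cfsg.Agent.Lib.Helper2.sum_irr_one_mul]
      have hfilter : (Finset.univ.filter fun p : G × G =>
          p.1 * p.2 * p.1⁻¹ * (p.2⁻¹ * g⁻¹) = 1) =
          Finset.univ.filter fun p : G × G => p.1 * p.2 * p.1⁻¹ * p.2⁻¹ = g := by
        ext p
        simp only [Finset.mem_filter, Finset.mem_univ, true_and]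
        rw [← mul_assoc, mul_inv_eq_one]
      rw [← Finset.sum_filter, Finset.sum_const, nsmul_eq_mul, hfilter, mul_comm]
    rw [h1, Finset.sum_comm, Finset.mul_sum, Finset.mul_sum]
    refine Finset.sum_congr rfl fun χ _ => ?_
    rw [Fintype.sum_prod_type, Finset.sum_comm]
    have h2 : ∀ b : G, ∑ a : G, (χ : G → ℂ) 1 * (χ : G → ℂ) (a * b * a⁻¹ * (b⁻¹ * g⁻¹)) =
        (Nat.card G : ℂ) * ((χ : G → ℂ) b * (χ : G → ℂ) (b⁻¹ * g⁻¹)) := by
      intro b
      rw [← Finset.mul_sum, Cfsg.Agent.Lib.Helper2.sum_char_conj_mul χ.2]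
      have := Cfsg.Agent.Lib.Helper2.IsIrrCharacter.apply_one_ne_zero χ.2
      field_simp
    rw [Finset.sum_congr rfl fun b _ => h2 b, ← Finset.mul_sum,
      Cfsg.Agent.Lib.Helper2.sum_char_mul_char_inv_mul χ.2]
    ring
  have hcount2 := mul_left_cancel₀ hne hcount
  have hconj : ∑ χ : Cfsg.IrrCharacter G, (χ : G → ℂ) g⁻¹ / (χ : G → ℂ) 1 =
      (starRingEnd ℂ) (∑ χ : Cfsg.IrrCharacter G, (χ : G → ℂ) g / (χ : G → ℂ) 1) := by
    rw [map_sum]
    refine Finset.sum_congr rfl fun χ _ => ?_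
    have hc := Cfsg.Agent.Lib.Helper2.IsIrrCharacter.isCharacter χ.2
    rw [map_div₀, Cfsg.Agent.Lib.Helper2.IsCharacter.conj_eq_inv hc,
      Cfsg.Agent.Lib.Helper2.IsCharacter.conj_eq_inv hc, inv_one]
  rw [hconj] at hcount2
  constructor
  · rintro ⟨a, b, hab⟩ h0
    rw [h0, map_zero, mul_zero] at hcount2
    have h3 : (Finset.univ.filter fun p : G × G => p.1 * p.2 * p.1⁻¹ * p.2⁻¹ = g).card = 0 := by
      exact_mod_cast hcount2
    rw [Finset.card_eq_zero, Finset.filter_eq_empty_iff] at h3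
    exact h3 (Finset.mem_univ (a, b)) hab.symm
  · intro h0
    by_contra hcon
    push Not at hcon
    have h3 : (Finset.univ.filter fun p : G × G => p.1 * p.2 * p.1⁻¹ * p.2⁻¹ = g) = ∅ := by
      rw [Finset.filter_eq_empty_iff]
      intro p _ hp
      exact hcon p.1 p.2 hp.symm
    rw [h3, Finset.card_empty, Nat.cast_zero] at hcount2
    rcases mul_eq_zero.1 hcount2.symm with h | h
    · exact hne h
    · exact h0 ((map_eq_zero _).1 h)

end Cfsg.Agent.S0167
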