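import Cfsg.Statements.S0168
import Cfsg.Agent.Lib.Helper2.CharKer
import Cfsg.Agent.Lib.Helper2.CharReg

set_option autoImplicit false
open Cfsg

namespace Cfsg.Agent.S0168

/-- The Burnside–Brauer Theorem. Let χ be the character of a faithful complex representation of a finite group, taking m distinct values. Then every irreducible character has nonzero inner product with χ ^ i for some i < m. -/
theorem result {G : Type*} [Group G] [Fintype G] {V : Type*} [AddCommGroup V] [Module ℂ V] [FiniteDimensional ℂ V] (ρ : Representation ℂ G V) (hfaithful : Function.Injective ρ) (ψ : G → ℂ) (hψ : Cfsg.IsIrrCharacter G ψ) : ∃ i : ℕ, i < Nat.card (Set.range ρ.character) ∧ Cfsg.classInner (fun g => ρ.character g ^ i) ψ ≠ 0 := by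
  classical
  by_contra hcon
  push Not at hcon
  set χ := ρ.character with hχ
  let S : Finset ℂ := Finset.univ.image χ
  have hScard : S.card = Nat.card (Set.range χ) := by
    have : Set.range χ = ↑S := by
      ext z
      simp [S]
    rw [this]
    exact (Nat.card_eq_finsetCard S).symm
  let P : Polynomial ℂ := ∏ a ∈ S.erase (χ 1), (Polynomial.X - Polynomial.C a)
  have hPdeg : P.natDegree < Nat.card (Set.range χ) := by
    rw [Polynomial.natDegree_prod_of_monic _ _ (fun a _ => Polynomial.monic_X_sub_C a)]
    simp only [Polynomial.natDegree_X_sub_C, Finset.sum_const, smul_eq_mul, mul_one]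
    rw [Finset.card_erase_of_mem (Finset.mem_image_of_mem χ (Finset.mem_univ 1))]
    have : 0 < S.card := Finset.card_pos.2 ⟨χ 1, Finset.mem_image_of_mem χ (Finset.mem_univ 1)⟩
    have hS' : (Finset.image χ Finset.univ).card = Nat.card (Set.range χ) := hScard
    have hS'' : 0 < (Finset.image χ Finset.univ).card := this
    omega
  have hPeval : ∀ g : G, g ≠ 1 → P.eval (χ g) = 0 := by
    intro g hg
    rw [Polynomial.eval_prod]
    apply Finset.prod_eq_zero (i := χ g)
    · rw [Finset.mem_erase]
      refine ⟨?_, Finset.mem_image_of_mem χ (Finset.mem_univ g)⟩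
      intro h
      apply hg
      rw [hχ, Representation.char_one] at h
      have := (Cfsg.Agent.Lib.Helper2.char_eq_finrank_iff ρ g).1 h
      apply hfaithful
      rw [this, map_one]; rfl
    · simp
  have hP1 : P.eval (χ 1) ≠ 0 := by
    rw [Polynomial.eval_prod, Finset.prod_ne_zero_iff]
    intro a ha
    simp only [Polynomial.eval_sub, Polynomial.eval_X, Polynomial.eval_C]
    exact sub_ne_zero.2 (Finset.ne_of_mem_erase ha).symm
  have h1 : ∑ g : G, P.eval (χ g) * (starRingEnd ℂ) (ψ g) = P.eval (χ 1) * (starRingEnd ℂ) (ψ 1) := by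
    rw [Finset.sum_eq_single (1 : G)]
    · intro g _ hg
      rw [hPeval g hg, zero_mul]
    · intro h; exact absurd (Finset.mem_univ _) h
  have h2 : ∑ g : G, P.eval (χ g) * (starRingEnd ℂ) (ψ g) = 0 := by
    simp only [Polynomial.eval_eq_sum_range' hPdeg, Finset.sum_mul]
    rw [Finset.sum_comm]
    apply Finset.sum_eq_zero
    intro i hi
    have h3 := hcon i (Finset.mem_range.1 hi)
    rw [Cfsg.Agent.Lib.Helper2.classInner_def] at h3
    have h4 := (mul_eq_zero.1 h3).resolve_left
      (inv_ne_zero (Cfsg.Agent.Lib.Helper2.card_ne_zero' (G := G)))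
    simp only [mul_assoc, ← Finset.mul_sum]
    rw [h4, mul_zero]
  rw [h2] at h1
  rcases mul_eq_zero.1 h1.symm with h | h
  · exact hP1 h
  · exact Cfsg.Agent.Lib.Helper2.IsIrrCharacter.apply_one_ne_zero hψ ((map_eq_zero _).1 h)

end Cfsg.Agent.S0168
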