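import Cfsg.Statements.S0173
import Cfsg.Agent.Lib.Helper2.CharPerm

set_option autoImplicit false
open Cfsg

namespace Cfsg.Agent.S0173

/-- Brauer's permutation lemma for a single automorphism: the number of conjugacy classes mapped to themselves equals the number of irreducible complex characters χ with χ ∘ α = χ. -/
theorem result {G : Type*} [Group G] [Finite G] (α : G ≃* G) : Nat.card {C : ConjClasses G // ConjClasses.map α.toMonoidHom C = C} = Nat.card {χ : Cfsg.IrrCharacter G // (χ : G → ℂ) ∘ α = (χ : G → ℂ)} := by
  symm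
  apply Cfsg.Agent.Lib.Helper2.card_fixed_irr (⇑α)
    (fun χ hχ => Cfsg.Agent.Lib.Helper2.IsIrrCharacter.comp_surjective α.toMonoidHom α.surjective hχ)
    (fun C => ConjClasses.map α.toMonoidHom C = C)
  intro g
  change ConjClasses.mk (α g) = ConjClasses.mk g ↔ _
  rw [ConjClasses.mk_eq_mk_iff_isConj]
  exact ⟨fun h => h.symm, fun h => h.symm⟩

end Cfsg.Agent.S0173
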