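import Cfsg.Statements.S0171
import Cfsg.Agent.Lib.Helper2.CharConst
import Cfsg.Agent.S0193
import Cfsg.Agent.S0173

set_option autoImplicit false
open Cfsg

namespace Cfsg.Agent.S0171

/-- Let G = K H with K normal, K ⊓ H trivial, and no non-identity element of H commuting with a non-identity element of K (a Frobenius group with kernel K and complement H). Then every non-principal irreducible character of K induces to an irreducible character of G. -/
theorem result {G : Type*} [Group G] [Fintype G] (K H : Subgroup G) [K.Normal] (hKH : K ⊓ H = ⊥) (hKH' : K ⊔ H = ⊤) (hfpf : ∀ h ∈ H, h ≠ 1 → ∀ k ∈ K, h * k = k * h → k = 1) (τ : K → ℂ) (hτ : Cfsg.IsIrrCharacter K τ) (hτ1 : τ ≠ fun _ => 1) : Cfsg.IsIrrCharacter G (Cfsg.indFun K τ) := by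
  classical
  have hN : K.Normal := inferInstance
  have hτc := Cfsg.Agent.Lib.Helper2.IsIrrCharacter.isCharacter hτ
  have hτcl := Cfsg.Agent.Lib.Helper2.IsCharacter.isClassFunction hτc
  apply Cfsg.Agent.Lib.Helper2.isIrrCharacter_of_norm_one
    (Cfsg.Agent.Lib.Helper2.IsCharacter.ind K hτc)
  have h193 := Cfsg.Agent.S0193.result K τ hτ
  -- an element of H stabilising τ is trivial
  have hstabH : ∀ h ∈ H, (∀ k : K, τ ⟨h * k * h⁻¹, hN.conj_mem k k.2 h⟩ = τ k) → h = 1 := by
    intro h hh hst
    by_contra hne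
    let α : K ≃* K := MulEquiv.ofBijective (Cfsg.Agent.Lib.Helper2.conjHom hN h)
      ⟨by
        intro a b hab
        have := congrArg Subtype.val hab
        simp only [Cfsg.Agent.Lib.Helper2.conjHom, MonoidHom.coe_mk, OneHom.coe_mk] at this
        ext
        simpa using this, Cfsg.Agent.Lib.Helper2.conjHom_surjective hN h⟩
    have hα : ∀ k : K, ((α k : K) : G) = h * k * h⁻¹ := fun k => rfl
    -- the map y ↦ y⁻¹ * (h y h⁻¹) is surjective on K
    have hφinj : Function.Injective (fun y : K => y⁻¹ * α y) := by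
      intro y z hyz
      have h1 : (y : G)⁻¹ * (h * y * h⁻¹) = (z : G)⁻¹ * (h * z * h⁻¹) := congrArg Subtype.val hyz
      have h2 : h * ((z : G) * (y : G)⁻¹) = ((z : G) * (y : G)⁻¹) * h := by
        have h3 : (z : G) * ((y : G)⁻¹ * (h * y * h⁻¹)) * (h * (y : G)⁻¹) =
            (z : G) * ((z : G)⁻¹ * (h * z * h⁻¹)) * (h * (y : G)⁻¹) := by rw [h1]
        have h4 : (z : G) * ((y : G)⁻¹ * (h * y * h⁻¹)) * (h * (y : G)⁻¹) =
            (z : G) * (y : G)⁻¹ * h := by group
        have h5 : (z : G) * ((z : G)⁻¹ * (h * z * h⁻¹)) * (h * (y : G)⁻¹) =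
            h * ((z : G) * (y : G)⁻¹) := by group
        rw [← h5, ← h3, h4]
      have h6 := hfpf h hh hne _ (mul_mem z.2 (inv_mem y.2)) h2
      exact (Subtype.ext (mul_inv_eq_one.1 h6)).symm
    have hφsurj : Function.Surjective (fun y : K => y⁻¹ * α y) :=
      Finite.surjective_of_injective hφinj
    have hclasses : Nat.card {C : ConjClasses K // ConjClasses.map α.toMonoidHom C = C} ≤ 1 := by
      rw [Finite.card_le_one_iff_subsingleton]
      have hone : ∀ C : ConjClasses K, ConjClasses.map α.toMonoidHom C = C → C = ConjClasses.mk 1 := by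
        intro C hC
        obtain ⟨k, rfl⟩ := ConjClasses.mk_surjective C
        have h1 : ConjClasses.mk (α k) = ConjClasses.mk k := hC
        obtain ⟨x, hx⟩ := isConj_iff.1 (ConjClasses.mk_eq_mk_iff_isConj.1 h1).symm
        obtain ⟨y, hy⟩ := hφsurj x⁻¹
        have hx' : (x : G) * k * (x : G)⁻¹ = h * k * h⁻¹ := congrArg Subtype.val hx
        have hy' : (y : G)⁻¹ * (h * y * h⁻¹) = (x : G)⁻¹ := congrArg Subtype.val hy
        have h2 : h * ((y : G) * k * (y : G)⁻¹) = ((y : G) * k * (y : G)⁻¹) * h := by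
          have h3 : (y : G)⁻¹ * h * y = (x : G)⁻¹ * h := by
            rw [← hy']; group
          have h4 : ((x : G)⁻¹ * h) * k = k * ((x : G)⁻¹ * h) := by
            have : h * k = (x : G) * k * (x : G)⁻¹ * h := by rw [hx']; group
            calc ((x : G)⁻¹ * h) * k = (x : G)⁻¹ * (h * k) := by group
              _ = (x : G)⁻¹ * ((x : G) * k * (x : G)⁻¹ * h) := by rw [this]
              _ = k * ((x : G)⁻¹ * h) := by group
          rw [← h3] at h4
          calc h * ((y : G) * k * (y : G)⁻¹) = y * (((y : G)⁻¹ * h * y) * k) * (y : G)⁻¹ := by group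
            _ = y * (k * ((y : G)⁻¹ * h * y)) * (y : G)⁻¹ := by rw [h4]
            _ = ((y : G) * k * (y : G)⁻¹) * h := by group
        have h5 := hfpf h hh hne _ (mul_mem (mul_mem y.2 k.2) (inv_mem y.2)) h2
        have h6 : (k : G) = 1 := by
          have : (k : G) = (y : G)⁻¹ * ((y : G) * k * (y : G)⁻¹) * y := by group
          rw [this, h5]; group
        have h7 : k = 1 := Subtype.ext h6
        rw [h7]
      constructor
      rintro ⟨C, hC⟩ ⟨D, hD⟩
      apply Subtype.ext
      exact (hone C hC).trans (hone D hD).symm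
    rw [Cfsg.Agent.S0173.result α] at hclasses
    have hfK := Cfsg.Agent.Lib.Helper2.finite_irrCharacter (G := K)
    rw [Finite.card_le_one_iff_subsingleton] at hclasses
    let triv : Cfsg.IrrCharacter K := ⟨fun _ => 1, Cfsg.Agent.Lib.Helper2.IsIrrCharacter.one⟩
    have h7 := hclasses.elim
      (⟨⟨τ, hτ⟩, by funext k; exact hst k⟩ :
        {χ : Cfsg.IrrCharacter K // (χ : K → ℂ) ∘ α = (χ : K → ℂ)})
      ⟨triv, rfl⟩
    exact hτ1 (congrArg (fun z => (z.1 : K → ℂ)) h7)
  have hset : Nat.card {g : G // ∀ k : K, τ ⟨g * k * g⁻¹, hN.conj_mem k k.2 g⟩ = τ k} =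
      Nat.card K := by
    refine Nat.card_congr (Equiv.subtypeEquivRight fun g => ?_)
    constructor
    · intro hst
      have hg : g ∈ ((K ⊔ H : Subgroup G) : Set G) := by rw [hKH']; trivial
      rw [Subgroup.normal_mul] at hg
      obtain ⟨k0, hk0, h, hh, rfl⟩ := Set.mem_mul.1 hg
      have h1 : h = 1 := by
        apply hstabH h hh
        intro k
        rw [← hst k]
        have := hτcl ⟨h * k * h⁻¹, hN.conj_mem k k.2 h⟩ ⟨k0, hk0⟩
        rw [← this]
        congr 1
        ext
        simp [mul_assoc]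
      rw [h1, mul_one]
      exact hk0
    · intro hg k
      exact hτcl k ⟨g, hg⟩
  rw [hset] at h193
  exact mul_left_cancel₀ (Cfsg.Agent.Lib.Helper2.card_subgroup_ne_zero K) (by rw [h193, mul_one])

end Cfsg.Agent.S0171
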