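import Cfsg.Statements.S0172
import Mathlib
import Cfsg.Agent.Lib.Helper21.FrobCount

set_option autoImplicit false
open Cfsg

namespace Cfsg.Agent.S0172

theorem sum_cent (X : Type*) [Group X] [Fintype X] :
    ∑ x : X, Nat.card (Subgroup.centralizer ({x} : Set X))
      = Nat.card (ConjClasses X) * Nat.card X := by
  rw [← card_comm_eq_card_conjClasses_mul_card, ← Nat.card_sigma]
  apply Nat.card_congr
  exact
    { toFun := fun s => ⟨(s.1, s.2.1), (Subgroup.mem_centralizer_singleton_iff.1 s.2.2).symm⟩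
      invFun := fun p => ⟨p.1.1, ⟨p.1.2, Subgroup.mem_centralizer_singleton_iff.2 p.2.symm.eq⟩⟩
      left_inv := fun s => rfl
      right_inv := fun p => rfl }

theorem card_cent_sub {G : Type*} [Group G] (L : Subgroup G) (x : ↥L)
    (h : Subgroup.centralizer ({(x : G)} : Set G) ≤ L) :
    Nat.card (Subgroup.centralizer ({x} : Set ↥L))
      = Nat.card (Subgroup.centralizer ({(x : G)} : Set G)) := by
  have h1 : Subgroup.centralizer ({x} : Set ↥L)
      = (Subgroup.centralizer ({(x : G)} : Set G)).subgroupOf L := by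
    ext y
    rw [Subgroup.mem_subgroupOf, Subgroup.mem_centralizer_singleton_iff,
      Subgroup.mem_centralizer_singleton_iff, Subtype.ext_iff]
    rfl
  rw [h1]
  exact Nat.card_congr (Subgroup.subgroupOfEquivOfLe h).toEquiv

theorem card_cent_conj {G : Type*} [Group G] [Finite G] (x c : G) :
    Nat.card (Subgroup.centralizer ({c * x * c⁻¹} : Set G))
      = Nat.card (Subgroup.centralizer ({x} : Set G)) := by
  have h1 := Cfsg.Agent.Lib.Helper21.fc_card_conj_mul_card_centralizer x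
  have h2 := Cfsg.Agent.Lib.Helper21.fc_card_conj_mul_card_centralizer (c * x * c⁻¹)
  have hc : IsConj x (c * x * c⁻¹) := isConj_iff.2 ⟨c, rfl⟩
  have h3 : Nat.card {u : G // IsConj (c * x * c⁻¹) u} = Nat.card {u : G // IsConj x u} :=
    Nat.card_congr (Equiv.subtypeEquivRight
      (fun u => ⟨fun h => hc.trans h, fun h => hc.symm.trans h⟩))
  rw [h3] at h2
  have hpos : 0 < Nat.card {u : G // IsConj x u} := by
    apply Nat.pos_of_ne_zero
    intro h0
    rw [h0, zero_mul] at h1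
    exact Nat.card_pos.ne h1
  exact Nat.eq_of_mul_eq_mul_left hpos (h2.trans h1.symm)

theorem card_cent_one (X : Type*) [Group X] :
    Nat.card (Subgroup.centralizer ({(1 : X)} : Set X)) = Nat.card X := by
  have : Subgroup.centralizer ({(1 : X)} : Set X) = ⊤ := by
    ext y
    simp [Subgroup.mem_centralizer_singleton_iff]
  rw [this, Subgroup.card_top]

/-- Class number of a Frobenius group: if G = K H with K normal, K ⊓ H trivial and no non-identity element of H commuting with a non-identity element of K, then |H| * k(G) + 1 = |H| * k(H) + k(K), where k denotes the number of conjugacy classes. -/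
theorem result {G : Type*} [Group G] [Finite G] (K H : Subgroup G) [K.Normal] (hKH : K ⊓ H = ⊥) (hKH' : K ⊔ H = ⊤) (hfpf : ∀ h ∈ H, h ≠ 1 → ∀ k ∈ K, h * k = k * h → k = 1) : Nat.card H * Nat.card (ConjClasses G) + 1 = Nat.card H * Nat.card (ConjClasses H) + Nat.card (ConjClasses K) := by
  classical
  haveI := Fintype.ofFinite G
  haveI := Fintype.ofFinite ↥K
  haveI := Fintype.ofFinite ↥H
  have hKn : K.Normal := inferInstance
  have hKH1 : ∀ g, g ∈ K → g ∈ H → g = 1 := fun g h1 h2 => by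
    have h3 : g ∈ K ⊓ H := Subgroup.mem_inf.2 ⟨h1, h2⟩
    rwa [hKH, Subgroup.mem_bot] at h3
  have hdec : ∀ g : G, ∃ k ∈ K, ∃ h ∈ H, k * h = g := by
    intro g
    have h1 : g ∈ ((K ⊔ H : Subgroup G) : Set G) := by rw [hKH']; trivial
    rw [Subgroup.normal_mul] at h1
    obtain ⟨k, hk, h, hh, rfl⟩ := Set.mem_mul.1 h1
    exact ⟨k, hk, h, hh, rfl⟩
  have hlang : ∀ h ∈ H, h ≠ 1 → ∀ k0 ∈ K, ∃ k ∈ K, k * h * k⁻¹ = k0 * h := by
    intro h hh h1 k0 hk0
    let f : ↥K → ↥K := fun k => ⟨k * (h * (k : G)⁻¹ * h⁻¹),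
      K.mul_mem k.2 (hKn.conj_mem _ (K.inv_mem k.2) h)⟩
    have hinj : Function.Injective f := by
      intro k k' hkk
      have e : (k : G) * (h * (k : G)⁻¹ * h⁻¹) = k' * (h * (k' : G)⁻¹ * h⁻¹) :=
        congrArg Subtype.val hkk
      have e3 : (k' : G)⁻¹ * k = h * ((k' : G)⁻¹ * k) * h⁻¹ := by
        calc (k' : G)⁻¹ * k = (k' : G)⁻¹ * (k * (h * (k : G)⁻¹ * h⁻¹)) * (h * k * h⁻¹) := by group
          _ = (k' : G)⁻¹ * (k' * (h * (k' : G)⁻¹ * h⁻¹)) * (h * k * h⁻¹) := by rw [e]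
          _ = h * ((k' : G)⁻¹ * k) * h⁻¹ := by group
      have e2 : h * ((k' : G)⁻¹ * k) = ((k' : G)⁻¹ * k) * h := mul_inv_eq_iff_eq_mul.1 e3.symm
      have e4 := hfpf h hh h1 _ (K.mul_mem (K.inv_mem k'.2) k.2) e2
      exact Subtype.ext (inv_mul_eq_one.1 e4).symm
    obtain ⟨k, hk⟩ := (Finite.injective_iff_surjective.1 hinj) ⟨k0, hk0⟩
    refine ⟨k, k.2, ?_⟩
    have e : (k : G) * (h * (k : G)⁻¹ * h⁻¹) = k0 := congrArg Subtype.val hk
    rw [← e]; group
  have hCH : ∀ h ∈ H, h ≠ 1 → Subgroup.centralizer ({h} : Set G) ≤ H := by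
    intro h hh h1 g hg
    rw [Subgroup.mem_centralizer_singleton_iff] at hg
    obtain ⟨k, hk, h', hh', rfl⟩ := hdec g
    have e1 : h * k * h⁻¹ ∈ K := hKn.conj_mem k hk h
    have e2 : (h * k * h⁻¹)⁻¹ * k = h * h' * h⁻¹ * h'⁻¹ := by
      calc (h * k * h⁻¹)⁻¹ * k = (h * k * h⁻¹)⁻¹ * (k * h' * h) * h⁻¹ * h'⁻¹ := by group
        _ = (h * k * h⁻¹)⁻¹ * (h * (k * h')) * h⁻¹ * h'⁻¹ := by rw [hg]
        _ = h * h' * h⁻¹ * h'⁻¹ := by group
    have e3 : (h * k * h⁻¹)⁻¹ * k = 1 := hKH1 _ (K.mul_mem (K.inv_mem e1) hk) (by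
      rw [e2]
      exact H.mul_mem (H.mul_mem (H.mul_mem hh hh') (H.inv_mem hh)) (H.inv_mem hh'))
    have e4 : h * k * h⁻¹ = k := inv_mul_eq_one.1 e3
    have e5 : k = 1 := hfpf h hh h1 k hk (mul_inv_eq_iff_eq_mul.1 e4)
    rw [e5, one_mul]; exact hh'
  have hCK : ∀ x ∈ K, x ≠ 1 → Subgroup.centralizer ({x} : Set G) ≤ K := by
    intro x hx x1 g hg
    rw [Subgroup.mem_centralizer_singleton_iff] at hg
    obtain ⟨k0, hk0, h, hh, rfl⟩ := hdec g
    by_cases h1 : h = 1
    · rw [h1, mul_one]; exact hk0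
    · exfalso
      obtain ⟨k, hk, e⟩ := hlang h hh h1 k0 hk0
      rw [← e] at hg
      have e2 : h * (k⁻¹ * x * k) = (k⁻¹ * x * k) * h := by
        calc h * (k⁻¹ * x * k) = k⁻¹ * (k * h * k⁻¹ * x) * k := by group
          _ = k⁻¹ * (x * (k * h * k⁻¹)) * k := by rw [hg]
          _ = (k⁻¹ * x * k) * h := by group
      have e3 : k⁻¹ * x * k ∈ K := by
        have := hKn.conj_mem x hx k⁻¹
        simpa using this
      have e4 := hfpf h hh h1 _ e3 e2
      apply x1
      calc x = k * (k⁻¹ * x * k) * k⁻¹ := by group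
        _ = 1 := by rw [e4]; group
  have hψ : Function.Bijective (fun p : ↥K × ↥H => (p.1 : G) * p.2) := by
    constructor
    · rintro ⟨k, h⟩ ⟨k', h'⟩ e
      have e' : (k : G) * h = k' * h' := e
      have e1 : (k' : G)⁻¹ * k = h' * (h : G)⁻¹ := by
        calc (k' : G)⁻¹ * k = (k' : G)⁻¹ * (k * h) * (h : G)⁻¹ := by group
          _ = (k' : G)⁻¹ * (k' * h') * (h : G)⁻¹ := by rw [e']
          _ = h' * (h : G)⁻¹ := by group
      have e2 : (k' : G)⁻¹ * k = 1 := hKH1 _ (K.mul_mem (K.inv_mem k'.2) k.2) (by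
        rw [e1]; exact H.mul_mem h'.2 (H.inv_mem h.2))
      have e3 : (h' : G) * (h : G)⁻¹ = 1 := e1 ▸ e2
      have e4 : k = k' := Subtype.ext (inv_mul_eq_one.1 e2).symm
      have e5 : h = h' := Subtype.ext (mul_inv_eq_one.1 e3).symm
      rw [e4, e5]
    · intro g
      obtain ⟨k, hk, h, hh, e⟩ := hdec g
      exact ⟨(⟨k, hk⟩, ⟨h, hh⟩), e⟩
  have hcardG : Nat.card G = Nat.card ↥K * Nat.card ↥H := by
    rw [← Nat.card_prod]
    exact (Nat.card_congr (Equiv.ofBijective _ hψ)).symm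
  obtain ⟨SH, hSH⟩ : ∃ SH, SH = ∑ h ∈ Finset.univ.erase (1 : ↥H),
      Nat.card (Subgroup.centralizer ({h} : Set ↥H)) := ⟨_, rfl⟩
  obtain ⟨SK, hSK⟩ : ∃ SK, SK = ∑ k ∈ Finset.univ.erase (1 : ↥K),
      Nat.card (Subgroup.centralizer ({k} : Set ↥K)) := ⟨_, rfl⟩
  have h1 : ∑ g : G, Nat.card (Subgroup.centralizer ({g} : Set G))
      = ∑ k : ↥K, ∑ h : ↥H, Nat.card (Subgroup.centralizer ({(k : G) * h} : Set G)) := by
    rw [← Fintype.sum_prod_type']
    exact ((Equiv.ofBijective _ hψ).sum_comp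
      (fun g => Nat.card (Subgroup.centralizer ({g} : Set G)))).symm
  have h2 : ∀ k : ↥K, ∑ h : ↥H, Nat.card (Subgroup.centralizer ({(k : G) * h} : Set G))
      = Nat.card (Subgroup.centralizer ({(k : G)} : Set G)) + SH := by
    intro k
    rw [← Finset.add_sum_erase Finset.univ _ (Finset.mem_univ (1 : ↥H)), hSH]
    congr 1
    · simp
    · apply Finset.sum_congr rfl
      intro h hh
      have hne : h ≠ 1 := Finset.ne_of_mem_erase hh
      have hne' : (h : G) ≠ 1 := fun e => hne (Subtype.ext e)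
      obtain ⟨k', hk', e⟩ := hlang h h.2 hne' k k.2
      rw [← e, card_cent_conj, card_cent_sub H h (hCH h h.2 hne')]
  have h3 : ∑ k : ↥K, Nat.card (Subgroup.centralizer ({(k : G)} : Set G)) = Nat.card G + SK := by
    rw [← Finset.add_sum_erase Finset.univ _ (Finset.mem_univ (1 : ↥K)), hSK]
    congr 1
    · rw [OneMemClass.coe_one, card_cent_one]
    · apply Finset.sum_congr rfl
      intro k hk
      have hne : k ≠ 1 := Finset.ne_of_mem_erase hk
      have hne' : (k : G) ≠ 1 := fun e => hne (Subtype.ext e)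
      rw [card_cent_sub K k (hCK k k.2 hne')]
  have h4 : Nat.card ↥H + SH = Nat.card (ConjClasses ↥H) * Nat.card ↥H := by
    rw [← sum_cent ↥H, ← Finset.add_sum_erase Finset.univ _ (Finset.mem_univ (1 : ↥H)), hSH,
      card_cent_one]
  have h5 : Nat.card ↥K + SK = Nat.card (ConjClasses ↥K) * Nat.card ↥K := by
    rw [← sum_cent ↥K, ← Finset.add_sum_erase Finset.univ _ (Finset.mem_univ (1 : ↥K)), hSK,
      card_cent_one]
  have h6 : Nat.card (ConjClasses G) * (Nat.card ↥K * Nat.card ↥H)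
      = Nat.card ↥K * Nat.card ↥H + SK + Nat.card ↥K * SH := by
    rw [← hcardG, ← sum_cent G, h1]
    simp only [h2]
    rw [Finset.sum_add_distrib, h3, Finset.sum_const, Finset.card_univ, smul_eq_mul,
      Nat.card_eq_fintype_card (α := ↥K)]
  have hpos : 0 < Nat.card ↥K := Nat.card_pos
  have key : Nat.card ↥K * (Nat.card ↥H * Nat.card (ConjClasses G) + 1)
        + Nat.card ↥K * Nat.card ↥H
      = Nat.card ↥K * (Nat.card ↥H * Nat.card (ConjClasses ↥H) + Nat.card (ConjClasses ↥K))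
        + Nat.card ↥K * Nat.card ↥H := by
    calc Nat.card ↥K * (Nat.card ↥H * Nat.card (ConjClasses G) + 1) + Nat.card ↥K * Nat.card ↥H
        = Nat.card (ConjClasses G) * (Nat.card ↥K * Nat.card ↥H) + Nat.card ↥K
          + Nat.card ↥K * Nat.card ↥H := by ring
      _ = (Nat.card ↥K * Nat.card ↥H + SK + Nat.card ↥K * SH) + Nat.card ↥K
          + Nat.card ↥K * Nat.card ↥H := by rw [h6]
      _ = Nat.card ↥K * Nat.card ↥H + (Nat.card ↥K + SK) + Nat.card ↥K * (Nat.card ↥H + SH) := by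
        ring
      _ = Nat.card ↥K * Nat.card ↥H + Nat.card (ConjClasses ↥K) * Nat.card ↥K
          + Nat.card ↥K * (Nat.card (ConjClasses ↥H) * Nat.card ↥H) := by rw [h5, h4]
      _ = _ := by ring
  exact Nat.eq_of_mul_eq_mul_left hpos (Nat.add_right_cancel key)

end Cfsg.Agent.S0172
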