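import Cfsg.Statements.S0174
import Cfsg.Agent.Lib.Helper2.CharConst

set_option autoImplicit false
open Cfsg

namespace Cfsg.Agent.S0174

/-- The Clifford Theorem for characters: if θ is an irreducible character of a finite group G, N is a normal subgroup and χ is an irreducible character of N occurring in the restriction of θ, then θ restricted to N equals e times the sum of the distinct G-conjugates of χ, where e is the inner product of the restriction with χ. -/
theorem result {G : Type*} [Group G] [Fintype G] (N : Subgroup G) [Fintype N] (hN : N.Normal) (θ : G → ℂ) (hθ : Cfsg.IsIrrCharacter G θ) (χ : N → ℂ) (hχ : Cfsg.IsIrrCharacter N χ) (hconst : Cfsg.classInner (fun n : N => θ n) χ ≠ 0) : (fun n : N => θ n) = Cfsg.classInner (fun n : N => θ n) χ • ∑ᶠ ψ ∈ {ψ : N → ℂ | ∃ g : G, ψ = fun n : N => χ ⟨g * n * g⁻¹, hN.conj_mem n n.2 g⟩}, ψ := by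
  classical
  have hfN := Cfsg.Agent.Lib.Helper2.finite_irrCharacter (G := N)
  cases nonempty_fintype (Cfsg.IrrCharacter N)
  have hθc := Cfsg.Agent.Lib.Helper2.IsIrrCharacter.isCharacter hθ
  have hθcl := Cfsg.Agent.Lib.Helper2.IsCharacter.isClassFunction hθc
  have hχc := Cfsg.Agent.Lib.Helper2.IsIrrCharacter.isCharacter hχ
  have hres := Cfsg.Agent.Lib.Helper2.IsCharacter.restrict N hθc
  set e := Cfsg.classInner (fun n : N => θ n) χ with he
  -- (a)
  have ha : ∀ g : G, Cfsg.classInner (fun n : N => θ n)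
      (Cfsg.Agent.Lib.Helper2.conjChar hN χ g) = e := by
    intro g
    rw [he, ← Cfsg.Agent.Lib.Helper2.classInner_conjChar hN (fun n : N => θ n) χ g]
    congr 1
    funext n
    rw [Cfsg.Agent.Lib.Helper2.conjChar_apply]
    exact (hθcl n g).symm
  -- (b)
  have hb : ∀ ψ : N → ℂ, Cfsg.IsIrrCharacter N ψ →
      (∀ g : G, ψ ≠ Cfsg.Agent.Lib.Helper2.conjChar hN χ g) →
      Cfsg.classInner (fun n : N => θ n) ψ = 0 := by
    intro ψ hψ hne
    have hind := Cfsg.Agent.Lib.Helper2.IsCharacter.ind N hχc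
    have hne2 : Cfsg.classInner (Cfsg.indFun N χ) θ ≠ 0 := by
      rw [Cfsg.Agent.Lib.Helper2.frobenius_reciprocity N χ θ hθcl,
        ← Cfsg.Agent.Lib.Helper2.classInner_conj_symm]
      simpa using hconst
    have hδ := Cfsg.Agent.Lib.Helper2.IsCharacter.sub_constituent hind hθ hne2
    have hδres := Cfsg.Agent.Lib.Helper2.IsCharacter.restrict N hδ
    obtain ⟨n1, hn1⟩ := Cfsg.Agent.Lib.Helper2.IsCharacter.classInner_nat hres
      (Cfsg.Agent.Lib.Helper2.IsIrrCharacter.isCharacter hψ)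
    obtain ⟨n2, hn2⟩ := Cfsg.Agent.Lib.Helper2.IsCharacter.classInner_nat hδres
      (Cfsg.Agent.Lib.Helper2.IsIrrCharacter.isCharacter hψ)
    have h1 : (fun n : N => Cfsg.indFun N χ n) =
        (Nat.card N : ℂ)⁻¹ • ∑ g : G, Cfsg.Agent.Lib.Helper2.conjChar hN χ g := by
      ext n
      rw [Cfsg.Agent.Lib.Helper2.indFun_coe_of_normal hN]
      simp
    have h2 : Cfsg.classInner (fun n : N => Cfsg.indFun N χ n) ψ = 0 := by
      rw [h1, Cfsg.Agent.Lib.Helper2.classInner_smul_left,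
        Cfsg.Agent.Lib.Helper2.classInner_sum_left]
      apply mul_eq_zero_of_right
      apply Finset.sum_eq_zero
      intro g _
      exact Cfsg.Agent.Lib.Helper2.irr_orthogonal
        (Cfsg.Agent.Lib.Helper2.IsIrrCharacter.conjChar hN hχ g) hψ (fun h => hne g h.symm)
    have h3 : (fun n : N => Cfsg.indFun N χ n) =
        (fun n : N => θ n) + (fun n : N => (Cfsg.indFun N χ - θ) n) := by
      funext n; simp
    rw [h3, Cfsg.Agent.Lib.Helper2.classInner_add_left, hn1, hn2] at h2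
    have h4 : n1 + n2 = 0 := by exact_mod_cast h2
    have h5 : n1 = 0 := by omega
    rw [hn1, h5]; simp
  let T : Finset (N → ℂ) := (Finset.univ.filter fun ψ : Cfsg.IrrCharacter N =>
    ∃ g : G, (ψ : N → ℂ) = Cfsg.Agent.Lib.Helper2.conjChar hN χ g).image Subtype.val
  have hS : {ψ : N → ℂ | ∃ g : G, ψ = fun n : N => χ ⟨g * n * g⁻¹, hN.conj_mem n n.2 g⟩} = ↑T := by
    ext ψ
    simp only [Set.mem_setOf_eq, T, Finset.coe_image, Finset.coe_filter, Finset.mem_univ, true_and,
      Set.mem_image]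
    constructor
    · rintro ⟨g, rfl⟩
      exact ⟨⟨_, Cfsg.Agent.Lib.Helper2.IsIrrCharacter.conjChar hN hχ g⟩, ⟨g, rfl⟩, rfl⟩
    · rintro ⟨φ, ⟨g, hg⟩, rfl⟩
      exact ⟨g, hg⟩
  rw [hS, finsum_mem_coe_finset, Finset.sum_image (fun a _ b _ h => Subtype.ext h),
    Finset.sum_filter, Finset.smul_sum]
  conv_lhs => rw [Cfsg.Agent.Lib.Helper2.IsCharacter.eq_sum_irr hres]
  refine Finset.sum_congr rfl fun ψ _ => ?_
  split_ifs with h
  · obtain ⟨g, hg⟩ := h
    rw [hg, ha]
  · push Not at h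
    rw [hb ψ ψ.2 h, zero_smul, smul_zero]

end Cfsg.Agent.S0174
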