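import Cfsg.Statements.S0175
import Cfsg.Agent.Lib.Helper2.CharDeg
import Cfsg.Agent.Lib.Helper2.CharConst

set_option autoImplicit false
open Cfsg

namespace Cfsg.Agent.S0175

open Cfsg.Agent.Lib.Helper2 in
theorem mem_of_ind_one_eq {G : Type*} [Group G] [Fintype G] (H : Subgroup G) (g : G)
    (h : Cfsg.indFun H (fun _ => (1 : ℂ)) g = (H.index : ℂ)) : g ∈ H := by
  classical
  by_contra hg
  rw [indFun_apply] at h
  have h1 : ∀ x : G, Cfsg.extendByZero H (fun _ => (1 : ℂ)) (x⁻¹ * g * x) =
      if x⁻¹ * g * x ∈ H then 1 else 0 := by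
    intro x
    split_ifs with hx
    · rw [extendByZero_of_mem H _ hx]
    · rw [extendByZero_of_not_mem H _ hx]
  simp only [h1] at h
  rw [Finset.sum_boole] at h
  have hH := card_subgroup_ne_zero H
  rw [inv_mul_eq_iff_eq_mul₀ hH] at h
  have h2 : (Finset.univ.filter fun x : G => x⁻¹ * g * x ∈ H).card = Nat.card H * H.index := by
    exact_mod_cast h
  rw [H.card_mul_index, Nat.card_eq_fintype_card, ← Finset.card_univ] at h2
  have h3 := Finset.eq_of_subset_of_card_le (Finset.filter_subset _ _) h2.ge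
  have h4 : (1 : G) ∈ (Finset.univ.filter fun x : G => x⁻¹ * g * x ∈ H) := by
    rw [h3]; exact Finset.mem_univ _
  simp at h4
  exact hg h4

open Cfsg.Agent.Lib.Helper2 in
theorem ind_eq_of_ker {G : Type*} [Group G] [Fintype G] (H : Subgroup G) (lam : H →* ℂˣ) (g : G)
    (h : ∀ x : G, ∃ hx : x⁻¹ * g * x ∈ H, lam ⟨_, hx⟩ = 1) :
    Cfsg.indFun H (fun h => (lam h : ℂ)) g = (H.index : ℂ) := by
  rw [indFun_apply]
  have h1 : ∀ x : G, Cfsg.extendByZero H (fun h => (lam h : ℂ)) (x⁻¹ * g * x) = 1 := by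
    intro x
    obtain ⟨hx, hl⟩ := h x
    rw [extendByZero_of_mem H _ hx, hl]; rfl
  simp only [h1]
  have hH := card_subgroup_ne_zero H
  rw [inv_mul_eq_iff_eq_mul₀ hH]
  simp only [Finset.sum_const, Finset.card_univ, nsmul_eq_mul, mul_one]
  rw [← Nat.card_eq_fintype_card, ← H.card_mul_index]
  push_cast; ring

open Cfsg.Agent.Lib.Helper2 in
open scoped commutatorElement in
theorem key {G : Type*} [Group G] [Fintype G] (hM : ∀ χ : G → ℂ, Cfsg.IsIrrCharacter G χ → ∃ (H : Subgroup G) (lam : H →* ℂˣ), χ = Cfsg.indFun H (fun h => (lam h : ℂ))) (n : ℕ) :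
    ∀ χ : G → ℂ, Cfsg.IsIrrCharacter G χ → ∀ d : ℕ, χ 1 = d → d ≤ n →
      ∀ g ∈ derivedSeries G n, χ g = χ 1 := by
  classical
  have := finite_irrCharacter (G := G)
  cases nonempty_fintype (Cfsg.IrrCharacter G)
  induction n with
  | zero =>
    intro χ hχ d hd hd0
    obtain ⟨d', hd', h1, -⟩ := IsIrrCharacter.exists_degree hχ
    rw [hd] at h1
    have : d = d' := by exact_mod_cast h1
    omega
  | succ n ih =>
    intro χ hχ d hd hdn g hg
    obtain ⟨H, lam, rfl⟩ := hM χ hχ
    have hidx : (H.index : ℂ) = d := by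
      rw [← hd, indFun_one_eq]; simp
    have hidx' : H.index = d := by exact_mod_cast hidx
    have hDH : derivedSeries G n ≤ H := by
      by_cases hH : H = ⊤
      · rw [hH]; exact le_top
      have hi2 : 2 ≤ H.index := by
        have h0 : H.index ≠ 0 := Subgroup.index_ne_zero_of_finite
        have h1 : H.index ≠ 1 := fun h => hH (Subgroup.index_eq_one.1 h)
        omega
      set π := Cfsg.indFun H (fun _ => (1 : ℂ)) with hπ
      have hπc : Cfsg.IsCharacter G π := IsCharacter.ind H IsCharacter.one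
      have hπ1 : π 1 = (H.index : ℂ) := by rw [hπ, indFun_one_eq]; simp
      have hone : Cfsg.classInner π (fun _ => (1 : ℂ)) = 1 := by
        rw [hπ, frobenius_reciprocity H _ _ (IsCharacter.isClassFunction IsCharacter.one)]
        exact irr_norm_one IsIrrCharacter.one
      have hdeg : ∀ ψ : G → ℂ, Cfsg.IsIrrCharacter G ψ → Cfsg.classInner π ψ ≠ 0 →
          ∃ e : ℕ, ψ 1 = e ∧ e ≤ n := by
        intro ψ hψ hne
        by_cases h1 : ψ = fun _ => (1 : ℂ)
        · refine ⟨1, by rw [h1]; simp, by omega⟩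
        · have hc : Cfsg.IsCharacter G (π - fun _ => (1 : ℂ)) :=
            IsCharacter.sub_constituent hπc IsIrrCharacter.one (by rw [hone]; exact one_ne_zero)
          have hne' : Cfsg.classInner (π - fun _ => (1 : ℂ)) ψ ≠ 0 := by
            rw [classInner_sub_left, irr_orthogonal IsIrrCharacter.one hψ (Ne.symm h1), sub_zero]
            exact hne
          obtain ⟨k, hk⟩ := IsCharacter.degree_constituent hc hψ hne'
          obtain ⟨e, he, h2, -⟩ := IsIrrCharacter.exists_degree hψ
          refine ⟨e, h2, ?_⟩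
          rw [Pi.sub_apply, hπ1, h2] at hk
          have : (H.index : ℂ) = e + k + 1 := by rw [← hk]; ring
          have h3 : H.index = e + k + 1 := by exact_mod_cast this
          omega
      intro y hy
      apply mem_of_ind_one_eq
      rw [← hπ, ← hπ1]
      rw [IsCharacter.eq_sum_irr hπc]
      simp only [Finset.sum_apply, Pi.smul_apply]
      refine Finset.sum_congr rfl fun ψ _ => ?_
      by_cases hne : Cfsg.classInner π ψ = 0
      · rw [hne, zero_smul, zero_smul]
      · obtain ⟨e, he, hen⟩ := hdeg ψ ψ.2 hne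
        rw [ih ψ ψ.2 e he hen y hy]
    rw [indFun_one_eq]
    simp only [map_one, Units.val_one, mul_one]
    apply ind_eq_of_ker
    intro x
    have hg' : x⁻¹ * g * x ∈ derivedSeries G (n + 1) := by
      have := (inferInstance : (derivedSeries G (n+1)).Normal).conj_mem g hg x⁻¹
      simpa using this
    rw [derivedSeries_succ] at hg'
    have hle : ⁅derivedSeries G n, derivedSeries G n⁆ ≤ (lam.ker).map H.subtype := by
      rw [Subgroup.commutator_le]
      intro a ha b hb
      refine ⟨⁅(⟨a, hDH ha⟩ : H), (⟨b, hDH hb⟩ : H)⁆, ?_, rfl⟩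
      show lam _ = 1
      rw [map_commutatorElement]
      exact commutatorElement_eq_one_iff_mul_comm.2 (mul_comm _ _)
    obtain ⟨z, hz, hzx⟩ := hle hg'
    have hx : x⁻¹ * g * x ∈ H := by rw [← hzx]; exact z.2
    refine ⟨hx, ?_⟩
    have : (⟨_, hx⟩ : H) = z := Subtype.ext hzx.symm
    rw [this]; exact hz

/-- Taketa's Theorem on M-groups: if every irreducible complex character of a finite group is induced from a linear character (a homomorphism to ℂˣ) of some subgroup, the group is solvable. -/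
theorem result {G : Type*} [Group G] [Fintype G] (hM : ∀ χ : G → ℂ, Cfsg.IsIrrCharacter G χ → ∃ (H : Subgroup G) (lam : H →* ℂˣ), χ = Cfsg.indFun H (fun h => (lam h : ℂ))) : Group.IsSolvable G := by
  classical
  have := Cfsg.Agent.Lib.Helper2.finite_irrCharacter (G := G)
  cases nonempty_fintype (Cfsg.IrrCharacter G)
  rw [Group.isSolvable_def]
  refine ⟨Nat.card G, ?_⟩
  rw [eq_bot_iff]
  intro g hg
  rw [Subgroup.mem_bot]
  by_contra hne
  have h1 := Cfsg.Agent.Lib.Helper2.sum_irr_one_mul g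
  have h2 := Cfsg.Agent.Lib.Helper2.sum_irr_one_mul (1 : G)
  rw [if_neg hne] at h1
  rw [if_pos rfl] at h2
  have h3 : ∑ χ : Cfsg.IrrCharacter G, (χ : G → ℂ) 1 * (χ : G → ℂ) g =
      ∑ χ : Cfsg.IrrCharacter G, (χ : G → ℂ) 1 * (χ : G → ℂ) 1 := by
    refine Finset.sum_congr rfl fun χ _ => ?_
    obtain ⟨d, hd, h1, hdvd⟩ := Cfsg.Agent.Lib.Helper2.IsIrrCharacter.exists_degree χ.2
    rw [key hM (Nat.card G) χ χ.2 d h1 (Nat.le_of_dvd Nat.card_pos hdvd) g hg]
  rw [h1, h2] at h3
  exact Cfsg.Agent.Lib.Helper2.card_ne_zero' h3.symm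

end Cfsg.Agent.S0175
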