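import Cfsg.Statements.S0178
import Cfsg.Agent.Lib.Helper2.CharConst

set_option autoImplicit false
open Cfsg

namespace Cfsg.Agent.S0178

/-- The degree of an irreducible complex representation of a finite group is at most the index of any abelian subgroup. -/
theorem result {G : Type*} [Group G] [Finite G] {V : Type*} [AddCommGroup V] [Module ℂ V] [FiniteDimensional ℂ V] (ρ : Representation ℂ G V) [ρ.IsIrreducible] (A : Subgroup G) (hA : ∀ a ∈ A, ∀ b ∈ A, a * b = b * a) : Module.finrank ℂ V ≤ A.index := by
  classical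
  cases nonempty_fintype G
  have hχ := Cfsg.Agent.Lib.Helper2.isIrrCharacter_character ρ
  have hχc := Cfsg.Agent.Lib.Helper2.IsIrrCharacter.isCharacter hχ
  have hres := Cfsg.Agent.Lib.Helper2.IsCharacter.restrict A hχc
  have hne : (fun x : A => ρ.character x) ≠ 0 := by
    intro h0
    have := congrFun h0 1
    simp only [Subgroup.coe_one, Pi.zero_apply] at this
    exact Cfsg.Agent.Lib.Helper2.IsIrrCharacter.apply_one_ne_zero hχ this
  obtain ⟨lam, hlam, hlne⟩ := Cfsg.Agent.Lib.Helper2.IsCharacter.exists_constituent hres hne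
  have hlam1 : lam 1 = 1 := by
    obtain ⟨n, σ, hσ, h⟩ := hlam
    have : IsMulCommutative A := ⟨⟨fun a b => Subtype.ext (hA a a.2 b b.2)⟩⟩
    rw [← h, Representation.char_one,
      Representation.IsIrreducible.finrank_eq_one_of_isMulCommutative σ]
    simp
  have hind := Cfsg.Agent.Lib.Helper2.IsCharacter.ind A
    (Cfsg.Agent.Lib.Helper2.IsIrrCharacter.isCharacter hlam)
  have hne2 : Cfsg.classInner (Cfsg.indFun A lam) ρ.character ≠ 0 := by
    rw [Cfsg.Agent.Lib.Helper2.frobenius_reciprocity A lam _
      (Cfsg.Agent.Lib.Helper2.IsCharacter.isClassFunction hχc),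
      ← Cfsg.Agent.Lib.Helper2.classInner_conj_symm]
    simpa using hlne
  obtain ⟨k, hk⟩ := Cfsg.Agent.Lib.Helper2.IsCharacter.degree_constituent hind hχ hne2
  rw [Cfsg.Agent.Lib.Helper2.indFun_one_eq, hlam1, mul_one, Representation.char_one] at hk
  have : A.index = Module.finrank ℂ V + k := by exact_mod_cast hk
  omega

end Cfsg.Agent.S0178
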