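import Cfsg.Statements.S0180
import Cfsg.Agent.Lib.Helper2.CharGal2
import Cfsg.Agent.Lib.Helper2.CharMore
import Cfsg.Agent.S0136

set_option autoImplicit false
open Cfsg

namespace Cfsg.Agent.S0180

/-- Every irreducible complex character of a finite group takes only rational values if and only if g is conjugate to g ^ m for every element g and every m coprime to the group order. -/
theorem result {G : Type*} [Group G] [Finite G] : (∀ χ : Cfsg.IrrCharacter G, ∀ g : G, ∃ q : ℚ, (χ : G → ℂ) g = (q : ℂ)) ↔ ∀ m : ℕ, m.Coprime (Nat.card G) → ∀ g : G, IsConj g (g ^ m) := by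
  classical
  have hfd := Cfsg.Agent.Lib.Helper2.finiteDimensional_cycField (Nat.card G) Nat.card_pos.ne'
  constructor
  · intro hrat m hm g
    rw [Cfsg.Agent.S0136.result]
    intro χ
    have hχ := Cfsg.Agent.Lib.Helper2.IsIrrCharacter.isCharacter χ.2
    obtain ⟨σ, hσ⟩ := Cfsg.Agent.Lib.Helper2.exists_embedding_char (G := G) hm
    obtain ⟨q, hq⟩ := hrat χ g
    have h1 := hσ χ hχ g ((q : ℚ) : Cfsg.Agent.Lib.Helper2.cycField (Nat.card G)) (by
      rw [hq]; simp)
    rw [← h1, map_ratCast, hq]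
  · intro hconj χ g
    have hχ := Cfsg.Agent.Lib.Helper2.IsIrrCharacter.isCharacter χ.2
    have := Cfsg.Agent.Lib.Helper2.rat_of_fixed (Cfsg.Agent.Lib.Helper2.cycField (Nat.card G))
      ⟨(χ : G → ℂ) g, Cfsg.Agent.Lib.Helper2.char_mem_cycField hχ g⟩ (by
        intro σ
        obtain ⟨m, hm, hσ⟩ := Cfsg.Agent.Lib.Helper2.embedding_char σ
        rw [hσ χ hχ g _ rfl]
        exact (Cfsg.Agent.Lib.Helper2.IsClassFunction.of_isConj
          (Cfsg.Agent.Lib.Helper2.IsCharacter.isClassFunction hχ) (hconj m hm g)).symm)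
    exact this

end Cfsg.Agent.S0180
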