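import Cfsg.Statements.S0181
import Cfsg.Agent.Lib.Helper2.CharKer
import Cfsg.Agent.Lib.Helper2.CharMore

set_option autoImplicit false
open Cfsg

namespace Cfsg.Agent.S0181

/-- Let H be a normal subgroup of a finite group G and ρ an irreducible complex representation whose kernel does not contain H. If g commutes with no non-identity element of H, then the character of ρ vanishes at g. -/
theorem result {G : Type*} [Group G] [Finite G] {V : Type*} [AddCommGroup V] [Module ℂ V] [FiniteDimensional ℂ V] (ρ : Representation ℂ G V) [ρ.IsIrreducible] (H : Subgroup G) [H.Normal] (hker : ∃ h ∈ H, ρ h ≠ LinearMap.id) (g : G) (hg : ∀ h ∈ H, h * g = g * h → h = 1) : ρ.character g = 0 := by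
  classical
  cases nonempty_fintype G
  have hfG := Cfsg.Agent.Lib.Helper2.finite_irrCharacter (G := G)
  have hfQ := Cfsg.Agent.Lib.Helper2.finite_irrCharacter (G := G ⧸ H)
  cases nonempty_fintype (Cfsg.IrrCharacter G)
  cases nonempty_fintype (Cfsg.IrrCharacter (G ⧸ H))
  let χ0 : Cfsg.IrrCharacter G := ⟨ρ.character, Cfsg.Agent.Lib.Helper2.isIrrCharacter_character ρ⟩
  let ι : Cfsg.IrrCharacter (G ⧸ H) → Cfsg.IrrCharacter G := fun ψ =>
    ⟨ψ.1 ∘ QuotientGroup.mk' H, Cfsg.Agent.Lib.Helper2.IsIrrCharacter.comp_surjective _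
      (QuotientGroup.mk'_surjective H) ψ.2⟩
  have hι : Function.Injective ι := by
    intro ψ φ h
    have h1 := congrArg (fun z => (z.1 : G → ℂ)) h
    apply Subtype.ext
    funext x
    obtain ⟨y, rfl⟩ := QuotientGroup.mk'_surjective H x
    exact congrFun h1 y
  have hχ0 : χ0 ∉ Finset.univ.image ι := by
    intro hmem
    obtain ⟨ψ, -, hψ⟩ := Finset.mem_image.1 hmem
    obtain ⟨h, hh, hne⟩ := hker
    apply hne
    rw [← Cfsg.Agent.Lib.Helper2.char_eq_finrank_iff ρ h, ← Representation.char_one ρ]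
    have h1 : ∀ x, ρ.character x = ψ.1 (QuotientGroup.mk' H x) := fun x =>
      (congrFun (congrArg (fun z => (z.1 : G → ℂ)) hψ) x).symm
    have h2 : (QuotientGroup.mk' H) h = 1 := (QuotientGroup.eq_one_iff h).2 hh
    rw [h1, h1, h2, map_one]
  have hG : ∑ χ : Cfsg.IrrCharacter G, Complex.normSq ((χ : G → ℂ) g) =
      (Nat.card (Subgroup.centralizer ({g} : Set G)) : ℝ) := by
    have := Cfsg.Agent.Lib.Helper2.column_orthogonality g g
    rw [Cfsg.Agent.Lib.Helper2.card_conj_eq g g (IsConj.refl g)] at this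
    simp only [Complex.mul_conj] at this
    exact_mod_cast this
  have hQ : ∑ ψ : Cfsg.IrrCharacter (G ⧸ H), Complex.normSq ((ψ : G ⧸ H → ℂ) (g : G ⧸ H)) =
      (Nat.card (Subgroup.centralizer ({(g : G ⧸ H)} : Set (G ⧸ H))) : ℝ) := by
    have := Cfsg.Agent.Lib.Helper2.column_orthogonality (g : G ⧸ H) (g : G ⧸ H)
    rw [Cfsg.Agent.Lib.Helper2.card_conj_eq _ _ (IsConj.refl _)] at this
    simp only [Complex.mul_conj] at this
    exact_mod_cast this
  have hle : Nat.card (Subgroup.centralizer ({g} : Set G)) ≤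
      Nat.card (Subgroup.centralizer ({(g : G ⧸ H)} : Set (G ⧸ H))) := by
    refine Nat.card_le_card_of_injective (fun x => ⟨(x.1 : G ⧸ H), ?_⟩) ?_
    · rw [Subgroup.mem_centralizer_singleton_iff]
      have := Subgroup.mem_centralizer_singleton_iff.1 x.2
      rw [← QuotientGroup.mk_mul, ← QuotientGroup.mk_mul, this]
    · intro x y hxy
      have h1 : (x.1 : G ⧸ H) = (y.1 : G ⧸ H) := congrArg Subtype.val hxy
      rw [QuotientGroup.eq] at h1
      have hx := Subgroup.mem_centralizer_singleton_iff.1 x.2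
      have hy := Subgroup.mem_centralizer_singleton_iff.1 y.2
      have h2 : x.1⁻¹ * y.1 ∈ Subgroup.centralizer ({g} : Set G) := mul_mem (inv_mem x.2) y.2
      have h3 := hg _ h1 (Subgroup.mem_centralizer_singleton_iff.1 h2)
      exact Subtype.ext (inv_mul_eq_one.1 h3)
  have hsub : ∑ χ ∈ insert χ0 (Finset.univ.image ι), Complex.normSq ((χ : G → ℂ) g) ≤
      ∑ χ : Cfsg.IrrCharacter G, Complex.normSq ((χ : G → ℂ) g) :=
    Finset.sum_le_sum_of_subset_of_nonneg (Finset.subset_univ _)
      (fun _ _ _ => Complex.normSq_nonneg _)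
  rw [Finset.sum_insert hχ0, Finset.sum_image (fun a _ b _ h => hι h), hG] at hsub
  have h4 : ∑ ψ : Cfsg.IrrCharacter (G ⧸ H), Complex.normSq ((ι ψ : G → ℂ) g) =
      (Nat.card (Subgroup.centralizer ({(g : G ⧸ H)} : Set (G ⧸ H))) : ℝ) := hQ
  rw [h4] at hsub
  have h5 : (Nat.card (Subgroup.centralizer ({g} : Set G)) : ℝ) ≤
      (Nat.card (Subgroup.centralizer ({(g : G ⧸ H)} : Set (G ⧸ H))) : ℝ) := by exact_mod_cast hle
  have h6 : Complex.normSq (ρ.character g) ≤ 0 := by
    have : Complex.normSq ((χ0 : G → ℂ) g) = Complex.normSq (ρ.character g) := rfl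
    linarith
  exact Complex.normSq_eq_zero.1 (le_antisymm h6 (Complex.normSq_nonneg _))

end Cfsg.Agent.S0181
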