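import Cfsg.Statements.S0184
import Cfsg.Agent.Lib.Helper2.CharMore
import Cfsg.Agent.Lib.Helper2.GrpBasic

set_option autoImplicit false
open Cfsg

namespace Cfsg.Agent.S0184

/-- A finite p-group admits a faithful irreducible complex representation if and only if its centre is cyclic. -/
theorem result {G : Type*} [Group G] [Finite G] (p : ℕ) [Fact p.Prime] (hG : IsPGroup p G) : (∃ (n : ℕ) (ρ : Representation ℂ G (Fin n → ℂ)), ρ.IsIrreducible ∧ Function.Injective ρ) ↔ IsCyclic (Subgroup.center G) := by
  classical
  cases nonempty_fintype G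
  have hfG := Cfsg.Agent.Lib.Helper2.finite_irrCharacter (G := G)
  cases nonempty_fintype (Cfsg.IrrCharacter G)
  have hp : p.Prime := Fact.out
  constructor
  · rintro ⟨n, ρ, hρ, hinj⟩
    have hnt := Cfsg.Agent.Lib.Helper2.nontrivial_of_irr ρ
    have hsc : ∀ z : Subgroup.center G, ρ z =
        (ρ.character z / (Module.finrank ℂ (Fin n → ℂ) : ℂ)) • LinearMap.id := by
      intro z
      apply Cfsg.Agent.Lib.Helper2.schur_trace ρ (ρ z)
      intro g
      rw [← Module.End.mul_eq_comp, ← Module.End.mul_eq_comp, ← map_mul, ← map_mul,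
        Subgroup.mem_center_iff.1 z.2 g]
    have hinjsmul : ∀ a b : ℂ, a • (LinearMap.id : (Fin n → ℂ) →ₗ[ℂ] (Fin n → ℂ)) =
        b • LinearMap.id → a = b := by
      intro a b h
      obtain ⟨v, hv⟩ := exists_ne (0 : Fin n → ℂ)
      have h1 := LinearMap.congr_fun h v
      simp only [LinearMap.smul_apply, LinearMap.id_coe, id_eq] at h1
      exact smul_left_injective ℂ hv h1
    let f : Subgroup.center G →* ℂ :=
      { toFun := fun z => ρ.character z / (Module.finrank ℂ (Fin n → ℂ) : ℂ)
        map_one' := by
          apply hinjsmul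
          rw [← hsc 1, one_smul]
          simp
          rfl
        map_mul' := by
          intro a b
          apply hinjsmul
          rw [← hsc (a * b), Subgroup.coe_mul, map_mul, hsc a, hsc b, smul_mul_smul_comm]
          rfl }
    apply isCyclic_of_subgroup_isDomain f
    intro a b hab
    have h1 : ρ a = ρ b := by
      rw [hsc a, hsc b]
      congr 1
    exact Subtype.ext (hinj h1)
  · intro hcyc
    by_cases hsub : Subsingleton G
    · obtain ⟨n, ρ, hρ, -⟩ :=
        (Cfsg.Agent.Lib.Helper2.IsIrrCharacter.one : Cfsg.IsIrrCharacter G (fun _ => 1))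
      exact ⟨n, ρ, hρ, fun a b _ => Subsingleton.elim a b⟩
    · rw [not_subsingleton_iff_nontrivial] at hsub
      have hcnt := hG.center_nontrivial
      have hZp : IsPGroup p (Subgroup.center G) := hG.to_subgroup _
      obtain ⟨m, hm⟩ := IsPGroup.iff_card.1 hZp
      have hm0 : m ≠ 0 := by
        rintro rfl
        rw [pow_zero] at hm
        have := Finite.one_lt_card (α := Subgroup.center G)
        omega
      have hdvd : p ∣ Nat.card (Subgroup.center G) := by rw [hm]; exact dvd_pow_self p hm0
      obtain ⟨z, hz⟩ := exists_prime_orderOf_dvd_card' p hdvd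
      have hz1 : (z : G) ≠ 1 := by
        intro h
        have : z = 1 := Subtype.ext h
        rw [this, orderOf_one] at hz
        exact hp.one_lt.ne hz
      have hex : ∃ χ : Cfsg.IrrCharacter G, (χ : G → ℂ) z ≠ (χ : G → ℂ) 1 := by
        by_contra hcon
        push Not at hcon
        have h1 := Cfsg.Agent.Lib.Helper2.sum_irr_one_mul (G := G) (z : G)
        have h2 := Cfsg.Agent.Lib.Helper2.sum_irr_one_mul (G := G) 1
        rw [if_neg hz1] at h1
        rw [if_pos rfl] at h2
        simp only [hcon] at h1
        rw [h1] at h2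
        exact Cfsg.Agent.Lib.Helper2.card_ne_zero' (G := G) h2.symm
      obtain ⟨χ, hχ⟩ := hex
      obtain ⟨n, ρ, hρ, hρχ⟩ := χ.2
      refine ⟨n, ρ, hρ, ?_⟩
      rw [← MonoidHom.ker_eq_bot_iff]
      by_contra hker
      obtain ⟨w, hwk, hwc, hw1⟩ :=
        Cfsg.Agent.Lib.Helper2.exists_mem_center_of_normal_of_isPGroup hG ρ.ker hker
      have hmem : z ∈ Subgroup.zpowers (⟨w, hwc⟩ : Subgroup.center G) := by
        apply Cfsg.Agent.Lib.Helper2.mem_zpowers_of_orderOf_eq_prime hz
        · intro h
          exact hw1 (congrArg Subtype.val h)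
        · exact (IsPGroup.iff_orderOf.1 hZp) _
      obtain ⟨i, hi⟩ := Subgroup.mem_zpowers_iff.1 hmem
      have hzk : (z : G) ∈ ρ.ker := by
        rw [← hi]
        simp only [Subgroup.coe_zpow]
        exact Subgroup.zpow_mem _ hwk i
      apply hχ
      rw [← hρχ, Representation.character, Representation.character,
        MonoidHom.mem_ker.1 hzk, map_one ρ]

end Cfsg.Agent.S0184
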