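import Cfsg.Statements.S0185
import Cfsg.Agent.Lib.Helper2.CharKer
import Cfsg.Agent.Lib.Helper2.CharDeg
import Cfsg.Agent.Lib.Helper2.CharConst

set_option autoImplicit false
open Cfsg

namespace Cfsg.Agent.S0185

/-- If a finite group has a faithful complex representation of degree less than the smallest prime dividing its order, the group is abelian. -/
theorem result {G : Type*} [Group G] [Finite G] {V : Type*} [AddCommGroup V] [Module ℂ V] [FiniteDimensional ℂ V] (ρ : Representation ℂ G V) (hfaithful : Function.Injective ρ) (hdeg : ∀ p : ℕ, p.Prime → p ∣ Nat.card G → Module.finrank ℂ V < p) (a b : G) : a * b = b * a := by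
  classical
  cases nonempty_fintype G
  have := Cfsg.Agent.Lib.Helper2.finite_irrCharacter (G := G)
  cases nonempty_fintype (Cfsg.IrrCharacter G)
  have hχ := Cfsg.Agent.Lib.Helper2.isCharacter_character ρ
  have hexp := Cfsg.Agent.Lib.Helper2.IsCharacter.eq_sum_irr hχ
  have key : ∀ ψ : Cfsg.IrrCharacter G, Cfsg.classInner ρ.character ψ ≠ 0 →
      (ψ : G → ℂ) (a * b * a⁻¹ * b⁻¹) = (ψ : G → ℂ) 1 := by
    intro ψ hne
    obtain ⟨k, hk⟩ := Cfsg.Agent.Lib.Helper2.IsCharacter.degree_constituent hχ ψ.2 hne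
    obtain ⟨d, hd0, hd1, hd2⟩ := Cfsg.Agent.Lib.Helper2.IsIrrCharacter.exists_degree ψ.2
    rw [Representation.char_one, hd1] at hk
    have hk' : Module.finrank ℂ V = d + k := by exact_mod_cast hk
    have hd : d = 1 := by
      by_contra hne1
      obtain ⟨p, hp, hpd⟩ := Nat.exists_prime_and_dvd hne1
      have h1 := hdeg p hp (hpd.trans hd2)
      have h2 := Nat.le_of_dvd hd0 hpd
      omega
    rw [hd] at hd1
    obtain ⟨lam, hlam⟩ := Cfsg.Agent.Lib.Helper2.IsCharacter.exists_hom_of_apply_one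
      (Cfsg.Agent.Lib.Helper2.IsIrrCharacter.isCharacter ψ.2) (by simpa using hd1)
    rw [hlam, hlam, map_mul, map_mul, map_mul, map_inv, map_inv, map_one]
    congr 1
    rw [mul_comm (lam a) (lam b), mul_assoc (lam b), mul_inv_cancel, mul_one, mul_inv_cancel]
  have h1 : ρ.character (a * b * a⁻¹ * b⁻¹) = ρ.character 1 := by
    rw [hexp]
    simp only [Finset.sum_apply, Pi.smul_apply, smul_eq_mul]
    refine Finset.sum_congr rfl fun ψ _ => ?_
    by_cases hne : Cfsg.classInner ρ.character ψ = 0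
    · rw [hne]; simp
    · rw [key ψ hne]
  rw [Representation.char_one] at h1
  have h2 := (Cfsg.Agent.Lib.Helper2.char_eq_finrank_iff ρ _).1 h1
  have h3 : a * b * a⁻¹ * b⁻¹ = 1 := by
    apply hfaithful
    rw [h2, map_one]; rfl
  have h4 : a * b * a⁻¹ = b := mul_inv_eq_one.1 h3
  exact mul_inv_eq_iff_eq_mul.1 h4

end Cfsg.Agent.S0185
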