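import Cfsg.Statements.S0186
import Cfsg.Agent.Lib.Helper2.CharDeg
import Cfsg.Agent.S0185

set_option autoImplicit false
open Cfsg

namespace Cfsg.Agent.S0186

/-- Let G be a finite simple group of order n and p a prime dividing n. If G has more than n / p^2 conjugacy classes, then every Sylow p-subgroup of G is abelian. -/
theorem result {G : Type*} [Group G] [Finite G] [IsSimpleGroup G] (p : ℕ) [Fact p.Prime] (hp : p ∣ Nat.card G) (hmany : Nat.card G < p ^ 2 * Nat.card (ConjClasses G)) (P : Sylow p G) (a b : G) (ha : a ∈ P) (hb : b ∈ P) : a * b = b * a := by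
  classical
  cases nonempty_fintype G
  have hfG := Cfsg.Agent.Lib.Helper2.finite_irrCharacter (G := G)
  cases nonempty_fintype (Cfsg.IrrCharacter G)
  have hpp : p.Prime := Fact.out
  by_contra hab
  obtain ⟨n, hn⟩ := IsPGroup.iff_card.1 P.2
  have hn3 : 3 ≤ n := by
    by_contra hlt
    have hcomm : ∀ x y : (P : Subgroup G), x * y = y * x := by
      have hn2 : n = 0 ∨ n = 1 ∨ n = 2 := by omega
      rcases hn2 with rfl | rfl | rfl
      · have : Subsingleton (P : Subgroup G) := by
          rw [← Finite.card_le_one_iff_subsingleton, hn]; simp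
        intro x y; exact Subsingleton.elim _ _
      · have hc : IsCyclic (P : Subgroup G) := isCyclic_of_prime_card (p := p) (by rw [hn]; simp)
        intro x y
        let _ : CommGroup (P : Subgroup G) := IsCyclic.commGroup
        exact mul_comm x y
      · have := IsPGroup.isMulCommutative_of_card_eq_prime_sq (p := p) hn
        intro x y
        exact this.is_comm.comm x y
    exact hab (congrArg Subtype.val (hcomm ⟨a, ha⟩ ⟨b, hb⟩))
  have hp2 : p ^ 2 ∣ Nat.card G :=
    (pow_dvd_pow p (by omega)).trans (hn ▸ Subgroup.card_subgroup_dvd_card (P : Subgroup G))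
  choose d hd0 hd1 hd2 using fun χ : Cfsg.IrrCharacter G =>
    Cfsg.Agent.Lib.Helper2.IsIrrCharacter.exists_degree χ.2
  have hsum : ∑ χ, d χ ^ 2 = Nat.card G := by
    have h := Cfsg.Agent.Lib.Helper2.sum_irr_one_mul (G := G) 1
    rw [if_pos rfl] at h
    have h2 : ((∑ χ, d χ ^ 2 : ℕ) : ℂ) = (Nat.card G : ℂ) := by
      rw [← h]
      push_cast
      exact Finset.sum_congr rfl fun χ _ => by rw [hd1 χ]; ring
    exact_mod_cast h2
  let triv : Cfsg.IrrCharacter G := ⟨fun _ => 1, Cfsg.Agent.Lib.Helper2.IsIrrCharacter.one⟩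
  have hex : ∃ χ : Cfsg.IrrCharacter G, χ ≠ triv ∧ d χ < p := by
    by_contra hcon
    push Not at hcon
    rw [← Finset.add_sum_erase Finset.univ _ (Finset.mem_univ triv)] at hsum
    have h1 : (Finset.univ.erase triv).card * p ^ 2 ≤ ∑ χ ∈ Finset.univ.erase triv, d χ ^ 2 := by
      rw [← smul_eq_mul, ← Finset.sum_const]
      apply Finset.sum_le_sum
      intro χ hχ
      exact Nat.pow_le_pow_left (hcon χ (Finset.ne_of_mem_erase hχ)) 2
    rw [Finset.card_erase_of_mem (Finset.mem_univ triv), Finset.card_univ,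
      ← Nat.card_eq_fintype_card, Cfsg.Agent.Lib.Helper2.card_irrCharacter] at h1
    obtain ⟨t, ht⟩ := hp2
    have hpos : 0 < p ^ 2 := pow_pos hpp.pos 2
    have h2 : t < Nat.card (ConjClasses G) := by
      rw [ht] at hmany
      exact Nat.lt_of_mul_lt_mul_left hmany
    have h3 : t * p ^ 2 ≤ (Nat.card (ConjClasses G) - 1) * p ^ 2 :=
      Nat.mul_le_mul_right _ (by omega)
    have h4 : 0 < d triv ^ 2 := by have := hd0 triv; positivity
    rw [ht] at hsum
    nlinarith
  obtain ⟨χ, hχ1, hχp⟩ := hex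
  obtain ⟨m, ρ, hρ, hρχ⟩ := χ.2
  have hker : ρ.ker = ⊥ := by
    rcases (MonoidHom.normal_ker ρ).eq_bot_or_eq_top with h | h
    · exact h
    · exfalso
      apply hχ1
      apply Subtype.ext
      rw [← hρχ]
      apply Cfsg.Agent.Lib.Helper2.char_eq_one_of_forall_eq_one
      intro x
      have : x ∈ ρ.ker := by rw [h]; trivial
      exact this
  have hinj : Function.Injective ρ := (MonoidHom.ker_eq_bot_iff ρ).1 hker
  let σ : Representation ℂ (P : Subgroup G) (Fin m → ℂ) := ρ.comp (P : Subgroup G).subtype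
  have hfin : Module.finrank ℂ (Fin m → ℂ) = d χ := by
    have h1 := hd1 χ
    rw [← hρχ, Representation.char_one] at h1
    exact_mod_cast h1
  have := Cfsg.Agent.S0185.result σ (hinj.comp Subtype.val_injective) (by
    intro q hq hqd
    rw [hn] at hqd
    have : q = p := (Nat.prime_dvd_prime_iff_eq hq hpp).1 (hq.dvd_of_dvd_pow hqd)
    rw [this, hfin]
    exact hχp) ⟨a, ha⟩ ⟨b, hb⟩
  exact hab (congrArg Subtype.val this)

end Cfsg.Agent.S0186
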