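import Cfsg.Statements.S0188
import Cfsg.Agent.Lib.Helper2.CharMore

set_option autoImplicit false
open Cfsg

namespace Cfsg.Agent.S0188

/-- The irreducible complex characters of G × H are precisely the functions (g, h) ↦ φ g * ψ h with φ, ψ irreducible characters of G and H. -/
theorem result {G : Type*} [Group G] [Finite G] {H : Type*} [Group H] [Finite H] (θ : G × H → ℂ) : Cfsg.IsIrrCharacter (G × H) θ ↔ ∃ (φ : G → ℂ) (ψ : H → ℂ), Cfsg.IsIrrCharacter G φ ∧ Cfsg.IsIrrCharacter H ψ ∧ θ = fun x => φ x.1 * ψ x.2 := by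
  classical
  cases nonempty_fintype G
  cases nonempty_fintype H
  have hfG := Cfsg.Agent.Lib.Helper2.finite_irrCharacter (G := G)
  have hfH := Cfsg.Agent.Lib.Helper2.finite_irrCharacter (G := H)
  cases nonempty_fintype (Cfsg.IrrCharacter G)
  cases nonempty_fintype (Cfsg.IrrCharacter H)
  have hcard : (Nat.card (G × H) : ℂ) = (Nat.card G : ℂ) * (Nat.card H : ℂ) := by
    rw [Nat.card_prod]; push_cast; rfl
  have hinner : ∀ (φ φ' : G → ℂ) (ψ ψ' : H → ℂ),
      Cfsg.classInner (fun x : G × H => φ x.1 * ψ x.2) (fun x : G × H => φ' x.1 * ψ' x.2) =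
      Cfsg.classInner φ φ' * Cfsg.classInner ψ ψ' := by
    intro φ φ' ψ ψ'
    simp only [Cfsg.Agent.Lib.Helper2.classInner_def, hcard, Fintype.sum_prod_type, map_mul]
    rw [mul_inv, mul_mul_mul_comm, Finset.sum_mul_sum]
    congr 1
    refine Finset.sum_congr rfl fun g _ => Finset.sum_congr rfl fun h _ => by ring
  have hprod : ∀ (φ : G → ℂ) (ψ : H → ℂ), Cfsg.IsIrrCharacter G φ → Cfsg.IsIrrCharacter H ψ →
      Cfsg.IsIrrCharacter (G × H) (fun x => φ x.1 * ψ x.2) := by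
    intro φ ψ hφ hψ
    apply Cfsg.Agent.Lib.Helper2.isIrrCharacter_of_norm_one
    · exact Cfsg.Agent.Lib.Helper2.IsCharacter.mul
        (Cfsg.Agent.Lib.Helper2.IsCharacter.comp (MonoidHom.fst G H)
          (Cfsg.Agent.Lib.Helper2.IsIrrCharacter.isCharacter hφ))
        (Cfsg.Agent.Lib.Helper2.IsCharacter.comp (MonoidHom.snd G H)
          (Cfsg.Agent.Lib.Helper2.IsIrrCharacter.isCharacter hψ))
    · rw [hinner, Cfsg.Agent.Lib.Helper2.irr_norm_one hφ, Cfsg.Agent.Lib.Helper2.irr_norm_one hψ,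
        one_mul]
  constructor
  · intro hθ
    by_contra hcon
    push Not at hcon
    have hreg : (Representation.leftRegular ℂ (G × H)).character =
        ∑ φ : Cfsg.IrrCharacter G, ∑ ψ : Cfsg.IrrCharacter H,
          ((φ : G → ℂ) 1 * (ψ : H → ℂ) 1) • (fun x : G × H => (φ : G → ℂ) x.1 * (ψ : H → ℂ) x.2) := by
      funext x
      rw [Cfsg.Agent.Lib.Helper2.char_leftRegular]
      simp only [Finset.sum_apply, Pi.smul_apply, smul_eq_mul]
      have h1 : ∀ (φ : Cfsg.IrrCharacter G) (ψ : Cfsg.IrrCharacter H),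
          (φ : G → ℂ) 1 * (ψ : H → ℂ) 1 * ((φ : G → ℂ) x.1 * (ψ : H → ℂ) x.2) =
          ((φ : G → ℂ) 1 * (φ : G → ℂ) x.1) * ((ψ : H → ℂ) 1 * (ψ : H → ℂ) x.2) := by
        intro φ ψ; ring
      simp only [h1, ← Finset.mul_sum, ← Finset.sum_mul,
        Cfsg.Agent.Lib.Helper2.sum_irr_one_mul]
      by_cases hx : x = 1
      · subst hx; simp [hcard]
      · rw [if_neg hx]
        have : ¬ (x.1 = 1 ∧ x.2 = 1) := fun h => hx (Prod.ext h.1 h.2)
        by_cases h1 : x.1 = 1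
        · have h2 : x.2 ≠ 1 := fun h => this ⟨h1, h⟩
          simp [h2]
        · simp [h1]
    have h2 := Cfsg.Agent.Lib.Helper2.classInner_leftRegular
      (Cfsg.Agent.Lib.Helper2.IsIrrCharacter.isCharacter hθ)
    rw [hreg, Cfsg.Agent.Lib.Helper2.classInner_sum_left] at h2
    have h3 : ∀ φ : Cfsg.IrrCharacter G, Cfsg.classInner (∑ ψ : Cfsg.IrrCharacter H,
          ((φ : G → ℂ) 1 * (ψ : H → ℂ) 1) •
            (fun x : G × H => (φ : G → ℂ) x.1 * (ψ : H → ℂ) x.2)) θ = 0 := by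
      intro φ
      rw [Cfsg.Agent.Lib.Helper2.classInner_sum_left]
      apply Finset.sum_eq_zero
      intro ψ _
      rw [Cfsg.Agent.Lib.Helper2.classInner_smul_left,
        Cfsg.Agent.Lib.Helper2.irr_orthogonal (hprod φ ψ φ.2 ψ.2) hθ
          (fun h => hcon φ ψ φ.2 ψ.2 h.symm), mul_zero]
    rw [Finset.sum_congr rfl fun φ _ => h3 φ, Finset.sum_const_zero] at h2
    exact Cfsg.Agent.Lib.Helper2.IsIrrCharacter.apply_one_ne_zero hθ h2.symm
  · rintro ⟨φ, ψ, hφ, hψ, rfl⟩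
    exact hprod φ ψ hφ hψ

end Cfsg.Agent.S0188
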