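import Cfsg.Statements.S0191
import Cfsg.Agent.Lib.Helper2.CharGal
import Cfsg.Agent.Lib.Helper2.CharDeg

set_option autoImplicit false
open Cfsg

namespace Cfsg.Agent.S0191

/-- An irreducible complex representation of a finite group of degree greater than 1 has a character that vanishes somewhere. -/
theorem result {G : Type*} [Group G] [Finite G] {V : Type*} [AddCommGroup V] [Module ℂ V] [FiniteDimensional ℂ V] (ρ : Representation ℂ G V) [ρ.IsIrreducible] (hdeg : 1 < Module.finrank ℂ V) : ∃ g : G, ρ.character g = 0 := by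
  classical
  cases nonempty_fintype G
  by_contra hcon
  push Not at hcon
  have hχi := Cfsg.Agent.Lib.Helper2.isIrrCharacter_character ρ
  have hχ := Cfsg.Agent.Lib.Helper2.isCharacter_character ρ
  have hfd := Cfsg.Agent.Lib.Helper2.finiteDimensional_cycField (Nat.card G) Nat.card_pos.ne'
  let K := Cfsg.Agent.Lib.Helper2.cycField (Nat.card G)
  let x : G → K := fun g => ⟨ρ.character g, Cfsg.Agent.Lib.Helper2.char_mem_cycField hχ g⟩
  have hx0 : ∀ g, x g ≠ 0 := by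
    intro g h
    exact hcon g (congrArg Subtype.val h)
  have hxint : ∀ g, IsIntegral ℤ (x g) := by
    intro g
    have : IsIntegral ℤ (algebraMap K ℂ (x g)) := Cfsg.Agent.Lib.Helper2.isIntegral_char ρ g
    exact (isIntegral_algebraMap_iff (algebraMap K ℂ).injective).1 this
  set d := Fintype.card (K →ₐ[ℚ] ℂ) with hd
  have hdpos : 0 < d := Fintype.card_pos_iff.2 ⟨K.val⟩
  have hdR : (0 : ℝ) < d := by exact_mod_cast hdpos
  have hnormsum : ∑ g : G, ‖ρ.character g‖ ^ 2 = (Nat.card G : ℝ) := by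
    have h := Cfsg.Agent.Lib.Helper2.sum_char_mul_conj hχi
    simp only [Complex.mul_conj, Complex.normSq_eq_norm_sq] at h
    exact_mod_cast h
  have hsumσ : ∀ σ : K →ₐ[ℚ] ℂ, ∑ g : G, ‖σ (x g)‖ ^ 2 = (Nat.card G : ℝ) := by
    intro σ
    obtain ⟨m, hm, hσ⟩ := Cfsg.Agent.Lib.Helper2.embedding_char σ
    have h1 : ∀ g, σ (x g) = ρ.character (g ^ m) := fun g => hσ _ hχ g (x g) rfl
    simp only [h1]
    rw [← hnormsum]
    exact Equiv.sum_comp (powCoprime hm.symm) (fun g => ‖ρ.character g‖ ^ 2)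
  have hg : ∀ g, (d : ℝ) ≤ ∑ σ : K →ₐ[ℚ] ℂ, ‖σ (x g)‖ ^ 2 := by
    intro g
    have h1 := Cfsg.Agent.Lib.Helper2.one_le_prod_norm_embeddings K (x g) (hxint g) (hx0 g)
    have h2 := Real.geom_mean_le_arith_mean_weighted Finset.univ
      (fun _ : K →ₐ[ℚ] ℂ => (1 / d : ℝ)) (fun σ => ‖σ (x g)‖ ^ 2)
      (fun _ _ => by positivity) (by
        rw [Finset.sum_const, Finset.card_univ, nsmul_eq_mul, ← hd]
        field_simp) (fun _ _ => by positivity)
    rw [Real.finsetProd_rpow _ _ (fun _ _ => by positivity), Finset.prod_pow,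
      ← Finset.mul_sum] at h2
    have h3 : (1 : ℝ) ≤ ((∏ σ : K →ₐ[ℚ] ℂ, ‖σ (x g)‖) ^ 2) ^ (1 / d : ℝ) := by
      apply Real.one_le_rpow _ (by positivity)
      exact one_le_pow₀ h1
    have h4 := h3.trans h2
    rw [one_div, inv_mul_eq_div, le_div_iff₀ hdR, one_mul] at h4
    exact h4
  have h1 : ∑ σ : K →ₐ[ℚ] ℂ, ‖σ (x 1)‖ ^ 2 = (d : ℝ) * (Module.finrank ℂ V : ℝ) ^ 2 := by
    have : ∀ σ : K →ₐ[ℚ] ℂ, σ (x 1) = (Module.finrank ℂ V : ℂ) := by
      intro σ
      have hx1 : x 1 = ((Module.finrank ℂ V : ℕ) : K) := by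
        apply Subtype.ext
        simp [x]
      rw [hx1, map_natCast]
    simp only [this, Complex.norm_natCast, Finset.sum_const, Finset.card_univ, nsmul_eq_mul, ← hd]
  have htot : ∑ g : G, ∑ σ : K →ₐ[ℚ] ℂ, ‖σ (x g)‖ ^ 2 = (d : ℝ) * (Nat.card G : ℝ) := by
    rw [Finset.sum_comm]
    simp only [hsumσ, Finset.sum_const, Finset.card_univ, nsmul_eq_mul, ← hd]
  rw [← Finset.add_sum_erase Finset.univ _ (Finset.mem_univ (1 : G)), h1] at htot
  have h5 : ((Finset.univ.erase (1 : G)).card : ℝ) * d ≤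
      ∑ g ∈ Finset.univ.erase (1 : G), ∑ σ : K →ₐ[ℚ] ℂ, ‖σ (x g)‖ ^ 2 := by
    rw [← nsmul_eq_mul, ← Finset.sum_const]
    exact Finset.sum_le_sum fun g _ => hg g
  rw [Finset.card_erase_of_mem (Finset.mem_univ _), Finset.card_univ,
    ← Nat.card_eq_fintype_card] at h5
  have hcard1 : 1 ≤ Nat.card G := Nat.card_pos
  rw [Nat.cast_sub hcard1] at h5
  have h6 : (2 : ℝ) ≤ (Module.finrank ℂ V : ℝ) := by exact_mod_cast hdeg
  have h7 : (4 : ℝ) ≤ (Module.finrank ℂ V : ℝ) ^ 2 := by nlinarith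
  push_cast at h5
  nlinarith

end Cfsg.Agent.S0191
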