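import Cfsg.Statements.S0192
import Cfsg.Agent.Lib.Helper2.CharDeg
import Cfsg.Agent.Lib.Helper2.CharInd

set_option autoImplicit false
open Cfsg

namespace Cfsg.Agent.S0192

/-- Brauer's generation criterion. Let G be a finite simple group, H₁ and H₂ subgroups, and χ a non-principal irreducible character. If the multiplicity of the principal character in χ restricted to H₁ ⊓ H₂ is less than the sum of the corresponding multiplicities for H₁ and H₂, then H₁ and H₂ do not generate G. -/
theorem result {G : Type*} [Group G] [Fintype G] [IsSimpleGroup G] (H₁ H₂ : Subgroup G) [Fintype H₁] [Fintype H₂] [Fintype ↥(H₁ ⊓ H₂)] (χ : G → ℂ) (hχ : Cfsg.IsIrrCharacter G χ) (hχ1 : χ ≠ fun _ => 1) (hlt : (Cfsg.classInner (fun x : ↥(H₁ ⊓ H₂) => χ x) (fun _ => 1)).re < (Cfsg.classInner (fun x : H₁ => χ x) (fun _ => 1)).re + (Cfsg.classInner (fun x : H₂ => χ x) (fun _ => 1)).re) : H₁ ⊔ H₂ ≠ ⊤ := by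
  classical
  obtain ⟨n, ρ, hρ, rfl⟩ := hχ
  have key : ∀ (H : Subgroup G) [Fintype H],
      Cfsg.classInner (fun x : H => ρ.character x) (fun _ => 1) =
      (Module.finrank ℂ (Representation.invariants (ρ.comp H.subtype :
        Representation ℂ H (Fin n → ℂ))) : ℂ) := by
    intro H _
    have : Invertible (Nat.card H : ℂ) :=
      invertibleOfNonzero (Cfsg.Agent.Lib.Helper2.card_subgroup_ne_zero H)
    rw [← Representation.card_inv_mul_sum_char_eq_finrank,
      Cfsg.Agent.Lib.Helper2.classInner_def]
    congr 1
    refine Finset.sum_congr rfl fun x _ => ?_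
    simp only [map_one, mul_one]
    rfl
  rw [key, key, key] at hlt
  simp only [Complex.natCast_re] at hlt
  intro htop
  let F : Subgroup G → Submodule ℂ (Fin n → ℂ) := fun H =>
    Representation.invariants (ρ.comp H.subtype : Representation ℂ H (Fin n → ℂ))
  have hmem : ∀ (H : Subgroup G) (v : Fin n → ℂ), v ∈ F H ↔ ∀ h ∈ H, ρ h v = v := by
    intro H v
    constructor
    · intro hv h hh
      exact (Representation.mem_invariants _ v).1 hv ⟨h, hh⟩
    · intro hv
      exact (Representation.mem_invariants _ v).2 fun h => hv h h.2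
  have hsup : F H₁ ⊔ F H₂ ≤ F (H₁ ⊓ H₂) := by
    apply sup_le
    · intro v hv
      exact (hmem _ v).2 fun h hh => (hmem _ v).1 hv h hh.1
    · intro v hv
      exact (hmem _ v).2 fun h hh => (hmem _ v).1 hv h hh.2
  have hdim := Submodule.finrank_sup_add_finrank_inf_eq (F H₁) (F H₂)
  have hle := Submodule.finrank_mono hsup
  have hlt' : Module.finrank ℂ (F (H₁ ⊓ H₂)) < Module.finrank ℂ (F H₁) + Module.finrank ℂ (F H₂) := by
    exact_mod_cast hlt
  have hpos : 0 < Module.finrank ℂ ↥(F H₁ ⊓ F H₂) := by omega
  obtain ⟨v, hv⟩ := (Module.finrank_pos_iff_exists_ne_zero (R := ℂ)).1 hpos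
  let S : Subgroup G :=
    { carrier := {g | ρ g v.1 = v.1}
      one_mem' := by simp
      mul_mem' := by
        intro a b ha hb
        simp only [Set.mem_setOf_eq] at ha hb ⊢
        rw [map_mul, Module.End.mul_apply, hb, ha]
      inv_mem' := by
        intro a ha
        simp only [Set.mem_setOf_eq] at ha ⊢
        calc ρ a⁻¹ v.1 = ρ a⁻¹ (ρ a v.1) := by rw [ha]
          _ = v.1 := by rw [← Module.End.mul_apply, ← map_mul, inv_mul_cancel, map_one,
            Module.End.one_apply] }
  have hS : S = ⊤ := by
    rw [eq_top_iff, ← htop]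
    apply sup_le
    · intro h hh
      exact (hmem _ v.1).1 v.2.1 h hh
    · intro h hh
      exact (hmem _ v.1).1 v.2.2 h hh
  let U : Subrepresentation ρ :=
    { toSubmodule := Representation.invariants ρ
      apply_mem_toSubmodule := by
        intro g w hw
        rw [(Representation.mem_invariants ρ w).1 hw g]
        exact hw }
  have hU : U = ⊤ := by
    rcases eq_bot_or_eq_top U with h | h
    · exfalso
      apply hv
      have h1 : v.1 ∈ U.toSubmodule := by
        apply (Representation.mem_invariants ρ v.1).2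
        intro g
        have : g ∈ S := by rw [hS]; trivial
        exact this
      rw [h] at h1
      exact Subtype.ext ((Submodule.mem_bot ℂ).1 h1)
    · exact h
  apply hχ1
  apply Cfsg.Agent.Lib.Helper2.char_eq_one_of_forall_eq_one
  intro g
  apply LinearMap.ext
  intro w
  have h1 : w ∈ U.toSubmodule := by rw [hU]; trivial
  exact (Representation.mem_invariants ρ w).1 h1 g

end Cfsg.Agent.S0192
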