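import Cfsg.Statements.S0194
import Cfsg.Agent.Lib.Helper2.CharConst
import Cfsg.Agent.Lib.Helper2.CharPerm

set_option autoImplicit false
open scoped ComplexConjugate
open Cfsg

namespace Cfsg.Agent.S0194

/-- Let G have odd order, H be a normal subgroup and θ a non-principal irreducible character of H. Then the function induced from θ is orthogonal to its complex conjugate. -/
theorem result {G : Type*} [Group G] [Fintype G] (hodd : Odd (Nat.card G)) (H : Subgroup G) [H.Normal] (θ : H → ℂ) (hθ : Cfsg.IsIrrCharacter H θ) (hθ1 : θ ≠ fun _ => 1) : Cfsg.classInner (fun g => conj (Cfsg.indFun H θ g)) (Cfsg.indFun H θ) = 0 := by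
  classical
  have hN : H.Normal := inferInstance
  have h1 : (fun g => (starRingEnd ℂ) (Cfsg.indFun H θ g)) =
      Cfsg.indFun H (fun h => (starRingEnd ℂ) (θ h)) :=
    funext (Cfsg.Agent.Lib.Helper2.indFun_conj H θ)
  rw [h1, Cfsg.Agent.Lib.Helper2.frobenius_reciprocity H _ _
    (Cfsg.Agent.Lib.Helper2.indFun_isClassFunction H θ)]
  have h2 : (fun h : H => Cfsg.indFun H θ h) =
      (Nat.card H : ℂ)⁻¹ • ∑ g : G, Cfsg.Agent.Lib.Helper2.conjChar hN θ g := by
    ext h
    rw [Cfsg.Agent.Lib.Helper2.indFun_coe_of_normal hN]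
    simp
  rw [h2, Cfsg.Agent.Lib.Helper2.classInner_smul_right,
    Cfsg.Agent.Lib.Helper2.classInner_sum_right]
  apply mul_eq_zero_of_right
  apply Finset.sum_eq_zero
  intro g _
  apply Cfsg.Agent.Lib.Helper2.irr_orthogonal (Cfsg.Agent.Lib.Helper2.IsIrrCharacter.conj hθ)
    (Cfsg.Agent.Lib.Helper2.IsIrrCharacter.conjChar hN hθ g)
  intro heq
  apply hθ1
  have hmul : ∀ (φ : H → ℂ) (a b : G), Cfsg.Agent.Lib.Helper2.conjChar hN φ (a * b) =
      Cfsg.Agent.Lib.Helper2.conjChar hN (Cfsg.Agent.Lib.Helper2.conjChar hN φ a) b := by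
    intro φ a b
    funext h
    simp only [Cfsg.Agent.Lib.Helper2.conjChar_apply]
    congr 1
    ext
    simp [mul_assoc]
  have hsq : Cfsg.Agent.Lib.Helper2.conjChar hN θ (g * g) = θ := by
    rw [hmul, ← heq]
    funext h
    have h3 := congrFun heq h
    rw [Cfsg.Agent.Lib.Helper2.conjChar_apply] at h3 ⊢
    rw [← h3, Complex.conj_conj]
  have hpow : ∀ k : ℕ, Cfsg.Agent.Lib.Helper2.conjChar hN θ ((g * g) ^ k) = θ := by
    intro k
    induction k with
    | zero =>
      funext h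
      rw [Cfsg.Agent.Lib.Helper2.conjChar_apply]
      congr 1
      ext
      simp
    | succ k ih => rw [pow_succ, hmul, ih, hsq]
  obtain ⟨m, hm⟩ := hodd
  have hg : (g * g) ^ (m + 1) = g := by
    have : g ^ (2 * m + 1) = 1 := by rw [← hm]; exact pow_card_eq_one'
    rw [← pow_two, ← pow_mul, show 2 * (m + 1) = (2 * m + 1) + 1 by ring, pow_succ, this, one_mul]
  have hfix : Cfsg.Agent.Lib.Helper2.conjChar hN θ g = θ := by
    calc Cfsg.Agent.Lib.Helper2.conjChar hN θ g
        = Cfsg.Agent.Lib.Helper2.conjChar hN θ ((g * g) ^ (m + 1)) := by rw [hg]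
      _ = θ := hpow (m + 1)
  rw [hfix] at heq
  have hreal : ∀ h, (θ h).im = 0 := fun h => Complex.conj_eq_iff_im.1 (congrFun heq h)
  have hoddH : Odd (Nat.card H) :=
    Odd.of_dvd_nat ⟨m, hm⟩ (Subgroup.card_subgroup_dvd_card H)
  exact Cfsg.Agent.Lib.Helper2.eq_one_of_real_of_odd hoddH ⟨θ, hθ⟩ hreal

end Cfsg.Agent.S0194
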