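import Cfsg.Statements.S0196
import Mathlib

set_option autoImplicit false
open Cfsg

namespace Cfsg.Agent.S0196

/-- Let A be a subgroup of a finite group G that equals the centralizer of each of its non-identity elements, and let N be its normalizer. Then the index of A in N divides |A| − 1 (N/A permutes the non-identity elements of A in orbits of full length). -/
theorem result {G : Type*} [Group G] [Finite G] (A : Subgroup G) (hA : ∀ x ∈ A, x ≠ 1 → Subgroup.centralizer ({x} : Set G) = A) : (A.subgroupOf (Subgroup.normalizer (A : Set G))).index ∣ Nat.card A - 1 := by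
  classical
  cases nonempty_fintype G
  let X := {x : G // x ∈ A ∧ x ≠ 1}
  let inst : MulAction (Subgroup.normalizer (A : Set G)) X :=
    { smul := fun n x => ⟨n * x.1 * (n : G)⁻¹, (Subgroup.mem_normalizer_iff.1 n.2 x.1).1 x.2.1,
        by simpa using x.2.2⟩
      one_smul := fun x => Subtype.ext (by
        change ((1 : Subgroup.normalizer (A : Set G)) : G) * x.1 *
          ((1 : Subgroup.normalizer (A : Set G)) : G)⁻¹ = x.1
        simp)
      mul_smul := fun a b x => Subtype.ext (by
        change ((a * b : Subgroup.normalizer (A : Set G)) : G) * x.1 *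
          ((a * b : Subgroup.normalizer (A : Set G)) : G)⁻¹ =
          (a : G) * ((b : G) * x.1 * (b : G)⁻¹) * (a : G)⁻¹
        simp [mul_assoc]) }
  have hsmul : ∀ (n : Subgroup.normalizer (A : Set G)) (x : X),
      ((n • x : X) : G) = n * x.1 * (n : G)⁻¹ := fun n x => rfl
  have hstab : ∀ x : X, MulAction.stabilizer (Subgroup.normalizer (A : Set G)) x =
      A.subgroupOf (Subgroup.normalizer (A : Set G)) := by
    intro x
    ext n
    have hiff : (n : G) ∈ A ↔ (n : G) * x.1 = x.1 * n := by
      rw [← Subgroup.mem_centralizer_singleton_iff, hA x.1 x.2.1 x.2.2]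
    rw [MulAction.mem_stabilizer_iff, Subgroup.mem_subgroupOf, hiff]
    constructor
    · intro h
      have := congrArg Subtype.val h
      rw [hsmul] at this
      exact mul_inv_eq_iff_eq_mul.1 this
    · intro h
      apply Subtype.ext
      rw [hsmul]
      exact mul_inv_eq_iff_eq_mul.2 h
  have hcard := MulAction.card_eq_sum_card_group_div_card_stabilizer
    (Subgroup.normalizer (A : Set G)) X
  have hterm : ∀ x : X, Fintype.card (Subgroup.normalizer (A : Set G)) /
      Fintype.card (MulAction.stabilizer (Subgroup.normalizer (A : Set G)) x) =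
      (A.subgroupOf (Subgroup.normalizer (A : Set G))).index := by
    intro x
    simp only [← Nat.card_eq_fintype_card]
    rw [hstab x, ← (A.subgroupOf (Subgroup.normalizer (A : Set G))).card_mul_index]
    exact Nat.mul_div_cancel_left _ Nat.card_pos
  simp only [hterm, Finset.sum_const, smul_eq_mul] at hcard
  have hX : Fintype.card X = Nat.card A - 1 := by
    rw [Fintype.card_subtype, Nat.card_eq_fintype_card, Fintype.card_subtype]
    have : (Finset.univ.filter fun x : G => x ∈ A ∧ x ≠ 1) =
        (Finset.univ.filter fun x : G => x ∈ A).erase 1 := by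
      ext x
      simp only [Finset.mem_filter, Finset.mem_univ, true_and, Finset.mem_erase]
      tauto
    rw [this, Finset.card_erase_of_mem (by simp [A.one_mem])]
  rw [← hX, hcard]
  exact Dvd.intro_left _ rfl

end Cfsg.Agent.S0196
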