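import Cfsg.Statements.S0211
import Mathlib
import Cfsg.Agent.Lib.Lead.Dih

set_option autoImplicit false
open Cfsg

namespace Cfsg.Agent.S0211

open Cfsg.Agent.Lib.Lead

/-- Let x, y be involutions with xy of even order n and z = (xy)^(n/2). Then xz is conjugate to x by an element of the subgroup generated by x, y if and only if 4 divides n. -/
theorem result {G : Type*} [Group G] [Finite G] (x y : G) (hx : orderOf x = 2) (hy : orderOf y = 2) (heven : Even (orderOf (x * y))) : (∃ d ∈ Subgroup.closure ({x, y} : Set G), d * x * d⁻¹ = x * (x * y) ^ (orderOf (x * y) / 2)) ↔ 4 ∣ orderOf (x * y) := by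
  have hx2 := mul_self_of_orderOf_two hx
  have hy2 := mul_self_of_orderOf_two hy
  obtain ⟨m, hm⟩ := heven
  have hpos : 0 < orderOf (x * y) := orderOf_pos _
  have hdiv : orderOf (x * y) / 2 = m := by omega
  rw [hdiv]
  have hz : x * (x * y) ^ m = (x * y) ^ (-(m : ℤ)) * x := by
    have := dih_semiconj hx2 hy2 (m : ℤ)
    rw [zpow_natCast] at this
    rw [this, zpow_neg, zpow_natCast]
  constructor
  · rintro ⟨d, hd, hdx⟩
    obtain ⟨k, hk⟩ := dih_conj hx2 hy2 d hd
    rw [hdx, hz] at hk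
    have h2 := mul_right_cancel hk
    have h3 : (x * y) ^ (2 * k + m) = 1 := by
      rw [zpow_add, ← h2, ← zpow_add]; simp
    have h4 : ((orderOf (x * y) : ℕ) : ℤ) ∣ 2 * k + m := orderOf_dvd_iff_zpow_eq_one.mpr h3
    rw [hm] at h4 ⊢
    obtain ⟨c, hc⟩ := h4
    push_cast at hc
    have : (2 : ℤ) ∣ m := ⟨c * m - k, by linarith⟩
    have h2m : 2 ∣ m := by exact_mod_cast this
    omega
  · rintro ⟨c, hc⟩
    have hmc : m = 2 * c := by omega
    refine ⟨(x * y) ^ (c : ℤ), (dih_mem_closure hx2 hy2 _).mpr ⟨c, Or.inl rfl⟩, ?_⟩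
    rw [dih_conj_zpow hx2 hy2, hz]
    congr 1
    have h1 : (x * y) ^ ((m + m : ℕ) : ℤ) = 1 := by
      rw [zpow_natCast, ← hm]; exact pow_orderOf_eq_one _
    have h2 : (2 * (c : ℤ)) = ((m + m : ℕ) : ℤ) + (-(m : ℤ)) := by push_cast; rw [hmc]; push_cast; ring
    rw [h2, zpow_add, h1, one_mul]

end Cfsg.Agent.S0211
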