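import Cfsg.Statements.S0212
import Mathlib
import Cfsg.Agent.Lib.Lead.BF

set_option autoImplicit false
open Cfsg

namespace Cfsg.Agent.S0212

open Cfsg.Agent.Lib.Lead

/-- The Brauer–Fowler bound: if G is a finite simple group and t an involution of G whose centralizer has order n, then |G| ≤ (2n^2)!. -/
theorem result {G : Type*} [Group G] [Finite G] [IsSimpleGroup G] (t : G) (ht : orderOf t = 2) : Nat.card G ≤ Nat.factorial (2 * (Nat.card (Subgroup.centralizer ({t} : Set G))) ^ 2) := by
  classical
  have := Fintype.ofFinite G
  set n := Nat.card (Subgroup.centralizer ({t} : Set G)) with hn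
  let K : Finset G := Finset.univ.filter (fun u => IsConj t u)
  have hK : K.card * n = Nat.card G := by
    have e : K.card = Nat.card {u : G // IsConj t u} := by
      rw [Nat.card_eq_fintype_card, Fintype.card_subtype]
    rw [e, card_conj_mul_card_centralizer t]
  have hnpos : 0 < n := Nat.card_pos
  by_cases hk : K.card ≤ 1
  · have h1 : Nat.card G ≤ n := by
      rw [← hK]
      calc K.card * n ≤ 1 * n := Nat.mul_le_mul_right _ hk
        _ = n := one_mul n
    calc Nat.card G ≤ n := h1
      _ ≤ 2 * n ^ 2 := by nlinarith
      _ ≤ Nat.factorial (2 * n ^ 2) := Nat.self_le_factorial _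
  push Not at hk
  have hinv : ∀ u ∈ K, u * u = 1 := by
    intro u hu
    simp only [K, Finset.mem_filter, Finset.mem_univ, true_and] at hu
    obtain ⟨g, rfl⟩ := isConj_iff.1 hu
    have := mul_self_of_orderOf_two ht
    calc g * t * g⁻¹ * (g * t * g⁻¹) = g * (t * t) * g⁻¹ := by group
      _ = 1 := by rw [this]; group
  let Cc : G → ℕ := fun x => Nat.card (Subgroup.centralizer ({x} : Set G))
  obtain ⟨x, hx, hxmax⟩ := Finset.exists_max_image (Finset.univ.erase (1 : G)) Cc
    ⟨t, by simp [ne_one_of_orderOf_two ht]⟩
  have hx1 : x ≠ 1 := (Finset.mem_erase.mp hx).1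
  let F : G → Finset (G × G) := fun y => (K ×ˢ K).filter (fun p => p.1 * p.2 = y)
  have hF1 : (F 1).card ≤ K.card := by
    apply Finset.card_le_card_of_injOn (fun p => p.1)
    · intro p hp
      simp only [F, Finset.coe_filter, Finset.mem_product, Set.mem_ofPred_eq] at hp
      exact hp.1.1
    · intro p hp q hq hpq
      simp only [F, Finset.coe_filter, Finset.mem_product, Set.mem_ofPred_eq] at hp hq
      have hpq' : p.1 = q.1 := hpq
      apply Prod.ext hpq'
      have := hp.2.trans hq.2.symm
      rw [hpq'] at this
      exact mul_left_cancel this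
  have hFy : ∀ y, (F y).card ≤ Cc y := by
    intro y
    refine le_trans ?_ (card_inverting_le y)
    apply Finset.card_le_card_of_injOn (fun p => p.1)
    · intro p hp
      simp only [F, Finset.coe_filter, Finset.mem_product, Set.mem_ofPred_eq] at hp
      simp only [Finset.coe_filter, Finset.mem_univ, true_and, Set.mem_ofPred_eq]
      have h1 := hinv _ hp.1.1
      have h2 := hinv _ hp.1.2
      have h1' : p.1⁻¹ = p.1 := inv_eq_of_mul_eq_one_left h1
      have h2' : p.2⁻¹ = p.2 := inv_eq_of_mul_eq_one_left h2
      rw [← hp.2, mul_inv_rev, h1', h2', ← mul_assoc, h1, one_mul]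
    · intro p hp q hq hpq
      simp only [F, Finset.coe_filter, Finset.mem_product, Set.mem_ofPred_eq] at hp hq
      have hpq' : p.1 = q.1 := hpq
      apply Prod.ext hpq'
      have := hp.2.trans hq.2.symm
      rw [hpq'] at this
      exact mul_left_cancel this
  have hsum : K.card * K.card = ∑ y : G, (F y).card := by
    rw [← Finset.card_product]
    exact Finset.card_eq_sum_card_fiberwise (fun p _ => Finset.mem_univ _)
  rw [← Finset.add_sum_erase Finset.univ _ (Finset.mem_univ (1 : G))] at hsum
  have hsum2 : ∑ y ∈ Finset.univ.erase (1 : G), (F y).card ≤ (Finset.univ.erase (1 : G)).card * Cc x := by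
    apply Finset.sum_le_card_nsmul
    intro y hy
    exact (hFy y).trans (hxmax y hy)
  have hcard1 : (Finset.univ.erase (1 : G)).card + 1 = K.card * n := by
    rw [Finset.card_erase_of_mem (Finset.mem_univ _), hK, Nat.card_eq_fintype_card, Finset.card_univ]
    have : 0 < Fintype.card G := Fintype.card_pos
    omega
  set c := Cc x with hc
  have hcpos : 0 < c := Nat.card_pos
  generalize (Finset.univ.erase (1 : G)).card = g1 at *
  generalize hkk : K.card = k at *
  have hmain : k * k ≤ k + g1 * c := by
    calc k * k = (F 1).card + ∑ y ∈ Finset.univ.erase (1 : G), (F y).card := hsum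
      _ ≤ k + g1 * c := Nat.add_le_add hF1 hsum2
  have hkle : k ≤ 2 * n * c := by
    by_contra hcon
    push Not at hcon
    have h1 : (g1 + 1) * c = k * n * c := by rw [hcard1]
    have h2 : 2 * (k * n * c) = k * (2 * n * c) := by ring
    have h3 : k * (2 * n * c) + k ≤ k * k := by
      calc k * (2 * n * c) + k = k * (2 * n * c + 1) := by ring
        _ ≤ k * k := Nat.mul_le_mul_left _ hcon
    nlinarith
  let H := Subgroup.centralizer ({x} : Set G)
  have hHtop : H ≠ ⊤ := by
    intro htop
    have hxc : x ∈ Subgroup.center G := by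
      rw [Subgroup.mem_center_iff]
      intro g
      have : g ∈ H := by rw [htop]; trivial
      exact Subgroup.mem_centralizer_singleton_iff.mp this
    have hctop : Subgroup.center G = ⊤ := by
      rcases (inferInstance : (Subgroup.center G).Normal).eq_bot_or_eq_top with h | h
      · rw [h, Subgroup.mem_bot] at hxc
        exact absurd hxc hx1
      · exact h
    have hK1 : K ⊆ {t} := by
      intro u hu
      simp only [K, Finset.mem_filter, Finset.mem_univ, true_and] at hu
      obtain ⟨g, rfl⟩ := isConj_iff.1 hu
      have htc : t ∈ Subgroup.center G := by rw [hctop]; trivial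
      rw [Finset.mem_singleton, (Subgroup.mem_center_iff.mp htc g), mul_assoc, mul_inv_cancel, mul_one]
    have := Finset.card_le_card hK1
    rw [hkk, Finset.card_singleton] at this
    omega
  have hidx : H.index ≤ 2 * n ^ 2 := by
    have h1 : H.index * c = k * n := by
      rw [hK]
      exact H.index_mul_card
    have h2 : H.index * c ≤ (2 * n ^ 2) * c := by
      rw [h1]
      calc k * n ≤ (2 * n * c) * n := Nat.mul_le_mul_right _ hkle
        _ = (2 * n ^ 2) * c := by ring
    exact Nat.le_of_mul_le_mul_right h2 hcpos
  exact (simple_card_le_factorial_index H hHtop).trans (Nat.factorial_le hidx)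

end Cfsg.Agent.S0212
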