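import Cfsg.Statements.S0213
import Mathlib
import Cfsg.Agent.Lib.Lead.Count
import Cfsg.Agent.S0208
import Cfsg.Agent.S0209

set_option autoImplicit false
open Cfsg

namespace Cfsg.Agent.S0213

open Cfsg.Agent.Lib.Lead

theorem mem_zpowers_conj_iff {G : Type*} [Group G] (g r y : G) :
    g * y * g⁻¹ ∈ Subgroup.zpowers (g * r * g⁻¹) ↔ y ∈ Subgroup.zpowers r := by
  constructor
  · rintro ⟨k, hk⟩
    refine ⟨k, ?_⟩
    have hk' : (g * r * g⁻¹) ^ k = g * y * g⁻¹ := hk
    rw [conj_zpow] at hk'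
    show r ^ k = y
    exact mul_left_cancel (mul_right_cancel hk')
  · rintro ⟨k, rfl⟩
    refine ⟨k, ?_⟩
    show (g * r * g⁻¹) ^ k = g * r ^ k * g⁻¹
    rw [conj_zpow]

theorem orderOf_conj' {G : Type*} [Group G] (g x : G) : orderOf (g * x * g⁻¹) = orderOf x := by
  have := (MulAut.conj g).orderOf_eq x
  simpa using this

/-- Thompson Order Formula, two-class case: if every involution of the finite group G is conjugate to exactly one of the non-conjugate involutions x₁, x₂, and nᵢ is the number of pairs (u, v) with u conjugate to x₁, v conjugate to x₂ and xᵢ in the cyclic group generated by uv, then |G| = |C(x₂)| n₁ + |C(x₁)| n₂. -/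
theorem result {G : Type*} [Group G] [Finite G] (x₁ x₂ : G) (h₁ : orderOf x₁ = 2) (h₂ : orderOf x₂ = 2) (hnc : ¬ IsConj x₁ x₂) (hall : ∀ t : G, orderOf t = 2 → IsConj x₁ t ∨ IsConj x₂ t) : Nat.card G = Nat.card (Subgroup.centralizer ({x₂} : Set G)) * Nat.card {p : G × G // IsConj x₁ p.1 ∧ IsConj x₂ p.2 ∧ x₁ ∈ Subgroup.zpowers (p.1 * p.2)} + Nat.card (Subgroup.centralizer ({x₁} : Set G)) * Nat.card {p : G × G // IsConj x₁ p.1 ∧ IsConj x₂ p.2 ∧ x₂ ∈ Subgroup.zpowers (p.1 * p.2)} := by
  classical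
  have := Fintype.ofFinite G
  let N : G → ℕ := fun y => Nat.card {p : G × G // IsConj x₁ p.1 ∧ IsConj x₂ p.2 ∧ y ∈ Subgroup.zpowers (p.1 * p.2)}
  have hNconj : ∀ g y, N y = N (g * y * g⁻¹) := by
    intro g y
    apply Nat.card_congr
    refine Equiv.subtypeEquiv (Equiv.prodCongr (MulAut.conj g).toEquiv (MulAut.conj g).toEquiv) ?_
    rintro ⟨u, v⟩
    simp only [Equiv.prodCongr_apply, Prod.map_apply, MulEquiv.toEquiv_eq_coe, EquivLike.coe_coe, MulAut.conj_apply]
    have e1 : ∀ x w : G, IsConj x w ↔ IsConj x (g * w * g⁻¹) := fun x w =>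
      ⟨fun h => h.trans (isConj_iff.2 ⟨g, rfl⟩), fun h => h.trans (isConj_iff.2 ⟨g, rfl⟩).symm⟩
    rw [← e1, ← e1]
    have e2 : g * u * g⁻¹ * (g * v * g⁻¹) = g * (u * v) * g⁻¹ := by group
    rw [e2, mem_zpowers_conj_iff]
  let K₁ : Finset G := Finset.univ.filter (fun u => IsConj x₁ u)
  let K₂ : Finset G := Finset.univ.filter (fun u => IsConj x₂ u)
  let Inv : Finset G := Finset.univ.filter (fun u => orderOf u = 2)
  let A : Finset (G × G) := K₁ ×ˢ K₂
  have hK₁ : K₁.card * Nat.card (Subgroup.centralizer ({x₁} : Set G)) = Nat.card G := by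
    have e : K₁.card = Nat.card {u : G // IsConj x₁ u} := by
      rw [Nat.card_eq_fintype_card, Fintype.card_subtype]
    rw [e, card_conj_mul_card_centralizer x₁]
  have hK₂ : K₂.card * Nat.card (Subgroup.centralizer ({x₂} : Set G)) = Nat.card G := by
    have e : K₂.card = Nat.card {u : G // IsConj x₂ u} := by
      rw [Nat.card_eq_fintype_card, Fintype.card_subtype]
    rw [e, card_conj_mul_card_centralizer x₂]
  have hord : ∀ x u : G, IsConj x u → orderOf u = orderOf x := by
    intro x u h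
    obtain ⟨g, rfl⟩ := isConj_iff.1 h
    exact orderOf_conj' g x
  have hInv : Inv = K₁ ∪ K₂ := by
    ext u
    simp only [Inv, K₁, K₂, Finset.mem_filter, Finset.mem_univ, true_and, Finset.mem_union]
    constructor
    · exact hall u
    · rintro (h | h)
      · rw [hord _ _ h, h₁]
      · rw [hord _ _ h, h₂]
  have hdisj : Disjoint K₁ K₂ := by
    rw [Finset.disjoint_left]
    intro u hu hu'
    simp only [K₁, K₂, Finset.mem_filter, Finset.mem_univ, true_and] at hu hu'
    exact hnc (hu.trans hu'.symm)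
  have hone : ∀ p ∈ A, (Inv.filter (fun y => y ∈ Subgroup.zpowers (p.1 * p.2))).card = 1 := by
    rintro ⟨u, v⟩ hp
    simp only [A, K₁, K₂, Finset.mem_product, Finset.mem_filter, Finset.mem_univ, true_and] at hp
    have hu : orderOf u = 2 := by rw [hord _ _ hp.1, h₁]
    have hv : orderOf v = 2 := by rw [hord _ _ hp.2, h₂]
    have heven : Even (orderOf (u * v)) := by
      by_contra hodd
      rw [Nat.not_even_iff_odd] at hodd
      obtain ⟨d, -, hd⟩ := Cfsg.Agent.S0208.result u v hu hv hodd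
      exact hnc ((hp.1.trans (isConj_iff.2 ⟨d, hd⟩)).trans hp.2.symm)
    obtain ⟨h, hh⟩ := heven
    have hh' : orderOf (u * v) = 2 * h := by rw [hh, two_mul]
    rw [Finset.card_eq_one]
    refine ⟨(u * v) ^ h, ?_⟩
    ext y
    simp only [Inv, Finset.mem_filter, Finset.mem_univ, true_and, Finset.mem_singleton]
    constructor
    · rintro ⟨hy, hm⟩
      exact uniq_inv _ _ h hh' hy hm
    · rintro rfl
      refine ⟨?_, Subgroup.npow_mem_zpowers _ _⟩
      have := (Cfsg.Agent.S0209.result u v hu hv ⟨h, hh⟩).1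
      rwa [hh', Nat.mul_div_cancel_left _ (by norm_num)] at this
  have hN : ∀ y, (A.filter (fun p => y ∈ Subgroup.zpowers (p.1 * p.2))).card = N y := by
    intro y
    simp only [N]
    rw [Nat.card_eq_fintype_card, Fintype.card_subtype]
    congr 1
    ext p
    simp only [A, K₁, K₂, Finset.mem_product, Finset.mem_filter, Finset.mem_univ, true_and, and_assoc]
  have hcount : A.card = ∑ y ∈ Inv, N y := by
    calc A.card = ∑ p ∈ A, 1 := by simp
      _ = ∑ p ∈ A, (Inv.filter (fun y => y ∈ Subgroup.zpowers (p.1 * p.2))).card :=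
          Finset.sum_congr rfl (fun p hp => (hone p hp).symm)
      _ = ∑ y ∈ Inv, (A.filter (fun p => y ∈ Subgroup.zpowers (p.1 * p.2))).card :=
          Finset.sum_card_bipartiteAbove_eq_sum_card_bipartiteBelow (fun (p : G × G) (y : G) => y ∈ Subgroup.zpowers (p.1 * p.2))
      _ = ∑ y ∈ Inv, N y := Finset.sum_congr rfl (fun y _ => hN y)
  have hs₁ : ∑ y ∈ K₁, N y = K₁.card * N x₁ := by
    rw [Finset.sum_const_nat]
    intro y hy
    simp only [K₁, Finset.mem_filter, Finset.mem_univ, true_and] at hy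
    obtain ⟨g, rfl⟩ := isConj_iff.1 hy
    exact (hNconj g x₁).symm
  have hs₂ : ∑ y ∈ K₂, N y = K₂.card * N x₂ := by
    rw [Finset.sum_const_nat]
    intro y hy
    simp only [K₂, Finset.mem_filter, Finset.mem_univ, true_and] at hy
    obtain ⟨g, rfl⟩ := isConj_iff.1 hy
    exact (hNconj g x₂).symm
  rw [hInv, Finset.sum_union hdisj, hs₁, hs₂, Finset.card_product] at hcount
  show Nat.card G = Nat.card (Subgroup.centralizer ({x₂} : Set G)) * N x₁ + Nat.card (Subgroup.centralizer ({x₁} : Set G)) * N x₂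
  generalize Nat.card (Subgroup.centralizer ({x₁} : Set G)) = c₁ at *
  generalize Nat.card (Subgroup.centralizer ({x₂} : Set G)) = c₂ at *
  generalize N x₁ = n₁ at *
  generalize N x₂ = n₂ at *
  have hpos : 0 < Nat.card G := Nat.card_pos
  generalize Nat.card G = g at *
  have : g * g = g * (c₂ * n₁ + c₁ * n₂) := by
    calc g * g = (K₁.card * c₁) * (K₂.card * c₂) := by rw [hK₁, hK₂]
      _ = (K₁.card * K₂.card) * (c₁ * c₂) := by ring
      _ = (K₁.card * n₁ + K₂.card * n₂) * (c₁ * c₂) := by rw [hcount]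
      _ = (K₁.card * c₁) * (c₂ * n₁) + (K₂.card * c₂) * (c₁ * n₂) := by ring
      _ = g * (c₂ * n₁ + c₁ * n₂) := by rw [hK₁, hK₂]; ring
  exact Nat.eq_of_mul_eq_mul_left hpos this

end Cfsg.Agent.S0213
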