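import Cfsg.Statements.S0216
import Mathlib
import Cfsg.Agent.Lib.Lead.Iso
import Cfsg.Agent.S0209

set_option autoImplicit false
open Cfsg

namespace Cfsg.Agent.S0216

open Cfsg.Agent.Lib.Lead

theorem conj_y {G : Type*} [Group G] {x y : G} (hx : x * x = 1) (hy : y * y = 1) (k : ℤ) :
    (x * y) ^ k * y * ((x * y) ^ k)⁻¹ = (x * y) ^ (2 * k - 1) * x := by
  have h1 : (x * y) ^ k * y * ((x * y) ^ k)⁻¹
      = (x * y) ^ (-1 : ℤ) * ((x * y) ^ k * x * ((x * y) ^ k)⁻¹) := by
    have hy3 : (x * y) ^ k * y = (x * y) ^ (-1 : ℤ) * ((x * y) ^ k * x) := by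
      have : (x * y) ^ k * y = (x * y) ^ k * ((x * y) ^ (-1 : ℤ) * x) := by rw [← dih_y_eq hx hy]
      rw [this, ← mul_assoc, ← mul_assoc, ← zpow_add, ← zpow_add, add_comm]
    rw [hy3]; simp only [mul_assoc]
  rw [h1, dih_conj_zpow hx hy, ← mul_assoc, ← zpow_add]
  congr 2
  ring

/-- For an involution u in a Sylow 2-subgroup P of a finite group G, the following are equivalent: no G-conjugate of u other than u lies in P; every commutator of u with an element of G has odd order. -/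
theorem result {G : Type*} [Group G] [Finite G] (P : Sylow 2 G) (u : G) (hu : orderOf u = 2) (huP : u ∈ P) : (∀ g : G, g * u * g⁻¹ ∈ P → g * u * g⁻¹ = u) ↔ (∀ g : G, Odd (orderOf (u * g * u⁻¹ * g⁻¹))) := by
  have hu2 := mul_self_of_orderOf_two hu
  have hu' := inv_eq_self_of_orderOf_two hu
  constructor
  · intro hiso g
    by_contra hodd
    rw [Nat.not_odd_iff_even] at hodd
    obtain ⟨v, hv⟩ : ∃ v, v = g * u * g⁻¹ := ⟨_, rfl⟩
    have hcomm : u * g * u⁻¹ * g⁻¹ = u * v := by rw [hv, hu']; group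
    rw [hcomm] at hodd
    have hv2o : orderOf v = 2 := by
      rw [hv]
      have := orderOf_injective (MulAut.conj g).toMonoidHom (MulAut.conj g).injective u
      simpa [hu] using this
    have hv2 := mul_self_of_orderOf_two hv2o
    obtain ⟨hz, hzu, hzv⟩ := Cfsg.Agent.S0209.result u v hu hv2o hodd
    obtain ⟨m, hm⟩ := hodd
    have hpos : 0 < orderOf (u * v) := orderOf_pos _
    have hdiv : orderOf (u * v) / 2 = m := by omega
    rw [hdiv] at hz hzu hzv
    have hwconj : ∃ h : G, h * u * h⁻¹ = (u * v) ^ m * u := by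
      rcases Nat.even_or_odd' m with ⟨c, hc | hc⟩
      · refine ⟨(u * v) ^ (c : ℤ), ?_⟩
        rw [dih_conj_zpow hu2 hv2, hc]
        congr 1
        rw [← zpow_natCast]; push_cast; rfl
      · refine ⟨(u * v) ^ ((c : ℤ) + 1) * g, ?_⟩
        have e : (u * v) ^ ((c : ℤ) + 1) * g * u * ((u * v) ^ ((c : ℤ) + 1) * g)⁻¹
            = (u * v) ^ ((c : ℤ) + 1) * v * ((u * v) ^ ((c : ℤ) + 1))⁻¹ := by rw [hv]; group
        rw [e, conj_y hu2 hv2, hc]
        congr 1
        rw [← zpow_natCast]; push_cast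
        congr 1; ring
    obtain ⟨h, hh⟩ := hwconj
    have hc : Commute u (h * u * h⁻¹) := by
      rw [hh]
      exact (hzu.symm.mul_right (Commute.refl u))
    have := isolated_commute P u hu hiso h hc
    rw [hh] at this
    have hz1 : (u * v) ^ m = 1 := by
      have := congrArg (fun t => t * u⁻¹) this
      simpa using this
    rw [hz1, orderOf_one] at hz
    omega
  · intro hodd g hg
    have h1 := hodd g
    have e : u * g * u⁻¹ * g⁻¹ = u * (g * u * g⁻¹) := by rw [hu']; group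
    have hmem : u * g * u⁻¹ * g⁻¹ ∈ (P : Subgroup G) := by
      rw [e]; exact mul_mem huP hg
    obtain ⟨k, hk⟩ := P.2 ⟨_, hmem⟩
    have hk' : (u * g * u⁻¹ * g⁻¹) ^ 2 ^ k = 1 := by simpa using congrArg Subtype.val hk
    have h2 : orderOf (u * g * u⁻¹ * g⁻¹) ∣ 2 ^ k := orderOf_dvd_of_pow_eq_one hk'
    have h3 : Nat.Coprime (orderOf (u * g * u⁻¹ * g⁻¹)) (2 ^ k) :=
      Nat.Coprime.pow_right k (Nat.coprime_two_right.mpr h1)
    have h4 : u * g * u⁻¹ * g⁻¹ = 1 := orderOf_eq_one_iff.mp (Nat.Coprime.eq_one_of_dvd h3 h2)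
    rw [e] at h4
    have := eq_inv_of_mul_eq_one_right h4
    rw [this, hu']

end Cfsg.Agent.S0216
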