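import Cfsg.Statements.S0220
import Mathlib
import Cfsg.Agent.Lib.Helper17.Syl
import Cfsg.Agent.Lib.Helper14.PGroupRel
-- import your own Cfsg.Agent.* helpers here

set_option autoImplicit false
open Cfsg

namespace Cfsg.Agent.S0220

open Cfsg.Agent.Lib.Helper17 Cfsg.Agent.Lib.Helper14

theorem cyc_invol_unique {T : Type*} [Group T] [Finite T] [IsCyclic T] (a b : T)
    (ha : orderOf a = 2) (hb : orderOf b = 2) : a = b := by
  classical
  have := Fintype.ofFinite T
  have h2 : 2 ∣ Fintype.card T := by
    rw [← ha]; exact orderOf_dvd_card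
  have h := IsCyclic.card_orderOf_eq_totient (α := T) h2
  rw [Nat.totient_two] at h
  exact Finset.card_le_one.mp h.le a (by simp [ha]) b (by simp [hb])

/-- a finite group with a nontrivial cyclic Sylow 2-subgroup has a subgroup of index 2 -/
theorem index_two_of_cyclic {G : Type*} [Group G] [Finite G] (P : Sylow 2 G)
    (hP : IsCyclic (P : Subgroup G)) (hne : (P : Subgroup G) ≠ ⊥) :
    ∃ H : Subgroup G, H.index = 2 := by
  have : Fact (Nat.Prime 2) := ⟨Nat.prime_two⟩
  obtain ⟨k, hk⟩ := P.2.exists_card_eq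
  have hk0 : k ≠ 0 := by
    rintro rfl
    rw [pow_zero] at hk
    exact hne ((Subgroup.card_eq_one).mp hk)
  have h2 : 2 ∣ Nat.card G := by
    have : 2 ∣ Nat.card (P : Subgroup G) := by rw [hk]; exact dvd_pow_self 2 hk0
    exact this.trans (Subgroup.card_subgroup_dvd_card _)
  have hmin : (Nat.card G).minFac = 2 := (Nat.minFac_eq_two_iff _).mpr h2
  have hc := IsCyclic.isComplement' hmin hP
  obtain ⟨K, hKn, hK⟩ : ∃ K : Subgroup G, K.Normal ∧ K.IsComplement' P := ⟨_, inferInstance, hc⟩
  have hidx : K.index = 2 ^ k := by rw [hK.symm.index_eq_card, hk]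
  obtain ⟨j, rfl⟩ := Nat.exists_eq_succ_of_ne_zero hk0
  have hcard : Nat.card (G ⧸ K) = 2 ^ (j + 1) := hidx
  obtain ⟨H0, hH0⟩ := Sylow.exists_subgroup_card_pow_prime (G := G ⧸ K) 2 (n := j)
    (by rw [hcard]; exact pow_dvd_pow 2 (Nat.le_succ j))
  refine ⟨H0.comap (QuotientGroup.mk' K), ?_⟩
  rw [Subgroup.index_comap_of_surjective _ (QuotientGroup.mk'_surjective K)]
  have := H0.card_mul_index
  rw [hH0, hcard, pow_succ] at this
  exact Nat.eq_of_mul_eq_mul_left (pow_pos (by norm_num) j) this

/-- If x is an involution of a finite group G and a Sylow 2-subgroup of the centralizer of x is cyclic, then G has a subgroup of index 2; in particular G is not simple unless it has order 2. -/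
theorem result {G : Type*} [Group G] [Finite G] (x : G) (hx : orderOf x = 2) (S : Sylow 2 ↥(Subgroup.centralizer ({x} : Set G))) (hS : IsCyclic (S : Subgroup ↥(Subgroup.centralizer ({x} : Set G)))) : ∃ H : Subgroup G, H.index = 2 := by
  have : Fact (Nat.Prime 2) := ⟨Nat.prime_two⟩
  generalize hC' : Subgroup.centralizer ({x} : Set G) = C at S hS
  have hC := hC'.symm
  have hT : IsSyl 2 ((S : Subgroup C).map C.subtype) C := isSyl_of_sylow S
  obtain ⟨T, hTdef⟩ : ∃ T, T = (S : Subgroup C).map C.subtype := ⟨_, rfl⟩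
  rw [← hTdef] at hT
  have hTcyc : IsCyclic T := by
    rw [hTdef]
    exact (Subgroup.equivMapOfInjective _ _ C.subtype_injective).isCyclic.mp hS
  obtain ⟨P, hTP⟩ := hT.isPGroup.exists_le_sylow
  -- any element of `P ∩ C` lies in `T`
  have hPC : ∀ y ∈ P, y ∈ C → y ∈ T := by
    intro y hyP hyC
    have h1 : T ⊔ Subgroup.zpowers y ≤ C := sup_le hT.le (by rwa [Subgroup.zpowers_le])
    have h2 : T ⊔ Subgroup.zpowers y ≤ P := sup_le hTP (by rwa [Subgroup.zpowers_le])
    have h3 := hT.eq_of_le h1 (P.2.to_le h2) le_sup_left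
    rw [← h3]
    exact (le_sup_right : Subgroup.zpowers y ≤ _) (Subgroup.mem_zpowers y)
  have hxC : x ∈ C := by
    rw [hC, Subgroup.mem_centralizer_iff]
    intro h hh
    rw [Set.mem_singleton_iff.mp hh]
  -- `x ∈ T`
  have hxT : x ∈ T := by
    have h1 : T ⊔ Subgroup.zpowers x ≤ C := sup_le hT.le (by rwa [Subgroup.zpowers_le])
    have h2 : IsPGroup 2 (T ⊔ Subgroup.zpowers x : Subgroup G) := by
      apply IsPGroup.to_sup_of_normal_right' hT.isPGroup
      · rw [IsPGroup.iff_card]  
        exact ⟨1, by rw [Nat.card_zpowers, hx, pow_one]⟩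
      · intro t ht
        have htC := hT.le ht
        rw [hC] at htC
        rw [Subgroup.mem_normalizer_iff]
        intro n
        have hcomm : t * x = x * t := by
          have := Subgroup.mem_centralizer_iff.mp htC x (Set.mem_singleton x)
          exact this.symm
        have hc2 : ∀ n ∈ Subgroup.zpowers x, t * n * t⁻¹ = n := by
          rintro _ ⟨i, rfl⟩
          have : Commute t (x ^ i) := (show Commute t x from hcomm).zpow_right i
          simp only
          rw [this.eq, mul_inv_cancel_right]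
        constructor
        · intro hn
          rw [hc2 n hn]; exact hn
        · intro hn
          have h5 : t⁻¹ * (t * n * t⁻¹) * t = t * n * t⁻¹ := by
            have := hc2 _ hn
            calc t⁻¹ * (t * n * t⁻¹) * t = t⁻¹ * (t * (t * n * t⁻¹) * t⁻¹) * t := by rw [this]
              _ = t * n * t⁻¹ := by group
          have h6 : t⁻¹ * (t * n * t⁻¹) * t = n := by group
          rw [← h6, h5]; exact hn
    have h3 := hT.eq_of_le h1 h2 le_sup_left
    rw [← h3]
    exact (le_sup_right : Subgroup.zpowers x ≤ _) (Subgroup.mem_zpowers x)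
  have hPne : (P : Subgroup G) ≠ ⊥ := by
    intro h
    have := hTP hxT
    rw [h, Subgroup.mem_bot] at this
    rw [this, orderOf_one] at hx
    omega
  -- central involution of `P`
  have htop : (⊤ : Subgroup P) ≠ ⊥ := by
    intro h
    apply hPne
    rw [Subgroup.eq_bot_iff_forall]
    intro y hy
    have : (⟨y, hy⟩ : P) ∈ (⊤ : Subgroup P) := Subgroup.mem_top _
    rw [h, Subgroup.mem_bot] at this
    exact congrArg Subtype.val this
  obtain ⟨z, -, hz1, hzc, hz2⟩ := exists_central_order_p 2 P.2 (⊤ : Subgroup P) htop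
  have hzo : orderOf (z : G) = 2 := by
    apply orderOf_eq_prime
    · exact_mod_cast congrArg Subtype.val hz2
    · intro h; exact hz1 (Subtype.ext h)
  have hzx : (z : G) * x = x * z := by
    have := Subgroup.mem_center_iff.mp hzc ⟨x, hTP hxT⟩
    exact (congrArg Subtype.val this).symm
  have hzC : (z : G) ∈ C := by
    rw [hC, Subgroup.mem_centralizer_iff]
    intro h hh
    rw [Set.mem_singleton_iff.mp hh]
    exact hzx.symm
  have hzT := hPC z z.2 hzC
  have hzeq : (z : G) = x := by
    have := cyc_invol_unique (T := T) ⟨z, hzT⟩ ⟨x, hxT⟩ ((Subgroup.orderOf_mk _ _).trans hzo)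
      ((Subgroup.orderOf_mk _ _).trans hx)
    exact congrArg Subtype.val this
  have hPT : (P : Subgroup G) = T := by
    apply le_antisymm _ hTP
    intro y hy
    apply hPC y hy
    rw [hC, Subgroup.mem_centralizer_iff]
    intro h hh
    rw [Set.mem_singleton_iff.mp hh, ← hzeq]
    have := Subgroup.mem_center_iff.mp hzc ⟨y, hy⟩
    exact (congrArg Subtype.val this).symm
  exact index_two_of_cyclic P (by rw [hPT]; exact hTcyc) hPne

end Cfsg.Agent.S0220
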