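import Cfsg.Statements.S0225
import Cfsg.Agent.Lib.Lead.ZS10
import Cfsg.Agent.Lib.Lead.Klein2

set_option autoImplicit false
open Cfsg

namespace Cfsg.Agent.S0225

/-- If a finite group G has even order but contains no Klein four-subgroup (2-rank 1), then some involution z of G is central modulo a normal subgroup of odd order: there is a normal subgroup N of odd order containing every commutator z g z⁻¹ g⁻¹. -/
theorem result {G : Type*} [Group G] [Finite G] (heven : Even (Nat.card G)) (hrank : ∀ E : Subgroup G, ¬ IsKleinFour E) : ∃ z : G, orderOf z = 2 ∧ ∃ N : Subgroup G, N.Normal ∧ Odd (Nat.card N) ∧ ∀ g : G, z * g * z⁻¹ * g⁻¹ ∈ N := by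
  haveI : Fact (Nat.Prime 2) := ⟨Nat.prime_two⟩
  obtain ⟨z, hz⟩ := exists_prime_orderOf_dvd_card' (G := G) 2 (even_iff_two_dvd.mp heven)
  refine ⟨z, hz, Cfsg.Agent.Lib.Lead.zstar' ⟨hz, ?_⟩⟩
  intro g hg
  by_contra hne
  set s := g * z * g⁻¹ with hs
  have hso : orderOf s = 2 := by
    have := (MulAut.conj g).orderOf_eq z
    rw [MulAut.conj_apply] at this
    rw [hs, this, hz]
  have h1 : ∀ x : G, orderOf x = 2 → x ≠ 1 := by
    intro x hx h; rw [h, orderOf_one] at hx; omega
  exact hrank _ (Cfsg.Agent.Lib.Lead.isKleinFour_kleinSub s z (Cfsg.Agent.Lib.Lead.inv_sq hso)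
    (Cfsg.Agent.Lib.Lead.inv_sq hz) hg.eq (h1 s hso) (h1 z hz) hne)

end Cfsg.Agent.S0225
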