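import Cfsg.Statements.S0226
import Mathlib
import Cfsg.Agent.Lib.Lead.Iso

set_option autoImplicit false
open Cfsg

namespace Cfsg.Agent.S0226

open Cfsg.Agent.Lib.Lead

/-- A finite group of even order has an odd number of involutions. -/
theorem result {G : Type*} [Group G] [Finite G] (heven : Even (Nat.card G)) : Odd (Nat.card {t : G // orderOf t = 2}) := by
  classical
  have : Fintype G := Fintype.ofFinite G
  have : Fact (Nat.Prime 2) := ⟨Nat.prime_two⟩
  let f : Function.End G := fun g => g⁻¹
  have hf : f ^ 2 ^ 1 = 1 := by
    rw [pow_one, sq]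
    funext g
    show (g⁻¹)⁻¹ = g
    exact inv_inv g
  have hmod := Equiv.Perm.card_fixedPoints_modEq hf
  have hfix : Fintype.card (Function.fixedPoints f) = Nat.card {t : G // orderOf t = 2} + 1 := by
    rw [← Nat.card_eq_fintype_card, ← Finite.card_option]
    apply Nat.card_congr
    refine
      { toFun := fun g => if h : g.1 = 1 then none else some ⟨g.1, ?_⟩
        invFun := fun o => match o with
          | none => ⟨1, ?_⟩
          | some t => ⟨t.1, ?_⟩
        left_inv := ?_
        right_inv := ?_ }
    · apply orderOf_two_of _ h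
      have : g.1⁻¹ = g.1 := g.2
      nth_rewrite 1 [← this]; exact inv_mul_cancel _
    · show (1 : G)⁻¹ = 1
      exact inv_one
    · show t.1⁻¹ = t.1
      exact inv_eq_self_of_orderOf_two t.2
    · intro g
      by_cases h : g.1 = 1
      · simp only [h, dite_true]
        apply Subtype.ext; exact h.symm
      · simp only [h, dite_false]
    · intro o
      rcases o with _ | t
      · simp
      · have : t.1 ≠ 1 := ne_one_of_orderOf_two t.2
        simp [this]
  rw [hfix, ← Nat.card_eq_fintype_card] at hmod
  have h0 : Nat.card G % 2 = 0 := Nat.even_iff.mp heven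
  have h1 : (Nat.card {t : G // orderOf t = 2} + 1) % 2 = 0 := by
    rw [← hmod]; exact h0
  rw [Nat.odd_iff]; omega

end Cfsg.Agent.S0226
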