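import Cfsg.Statements.S0229
import Mathlib
import Cfsg.Agent.Lib.Lead.Iso
import Cfsg.Agent.S0208
import Cfsg.Agent.S0209
import Cfsg.Agent.S0211

set_option autoImplicit false
open Cfsg

namespace Cfsg.Agent.S0229

open Cfsg.Agent.Lib.Lead

/-- Let t be an involution of a Sylow 2-subgroup S of a finite group G, conjugate in G to no other element of S, and let s be an involution of G not conjugate to t. Then the order of st is twice an odd number. -/
theorem result {G : Type*} [Group G] [Finite G] (S : Sylow 2 G) (t : G) (ht : orderOf t = 2) (htS : t ∈ S) (hiso : ∀ g : G, g * t * g⁻¹ ∈ S → g * t * g⁻¹ = t) (s : G) (hs : orderOf s = 2) (hns : ¬ IsConj s t) : orderOf (s * t) % 4 = 2 := by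
  have ht2 := mul_self_of_orderOf_two ht
  have hs2 := mul_self_of_orderOf_two hs
  have hcomm : orderOf (s * t) = orderOf (t * s) := by
    have := orderOf_injective (MulAut.conj t).toMonoidHom (MulAut.conj t).injective (s * t)
    rw [← this]
    congr 1
    simp [mul_assoc]
  have heven : Even (orderOf (s * t)) := by
    by_contra hodd
    rw [Nat.not_even_iff_odd] at hodd
    obtain ⟨d, _, hd⟩ := Cfsg.Agent.S0208.result s t hs ht hodd
    exact hns (isConj_iff.mpr ⟨d, hd⟩)
  have h4 : ¬ 4 ∣ orderOf (s * t) := by
    intro h4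
    rw [hcomm] at h4 heven
    obtain ⟨d, _, hd⟩ := (Cfsg.Agent.S0211.result t s ht hs heven).mpr h4
    obtain ⟨hz, hzt, _⟩ := Cfsg.Agent.S0209.result t s ht hs heven
    have hc : Commute t (d * t * d⁻¹) := by
      rw [hd]
      exact (Commute.refl t).mul_right hzt.symm
    have := isolated_commute S t ht hiso d hc
    rw [hd] at this
    have hz1 : (t * s) ^ (orderOf (t * s) / 2) = 1 := by
      have := congrArg (fun w => t⁻¹ * w) this
      simpa using this
    rw [hz1, orderOf_one] at hz
    omega
  obtain ⟨m, hm⟩ := heven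
  omega

end Cfsg.Agent.S0229
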