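import Cfsg.Statements.S0230
import Mathlib
import Cfsg.Agent.Lib.Lead.Count
import Cfsg.Agent.S0208
import Cfsg.Agent.S0209

set_option autoImplicit false
open Cfsg

namespace Cfsg.Agent.S0230

open Cfsg.Agent.Lib.Lead

/-- Let G be a finite group with two non-conjugate involutions, and let t be an involution whose centralizer has maximal order among centralizers of involutions. Then |G| < |C_G(t)|^3. -/
theorem result {G : Type*} [Group G] [Finite G] (s t : G) (hs : orderOf s = 2) (ht : orderOf t = 2) (hnc : ¬ IsConj s t) (hmax : ∀ u : G, orderOf u = 2 → Nat.card (Subgroup.centralizer ({u} : Set G)) ≤ Nat.card (Subgroup.centralizer ({t} : Set G))) : Nat.card G < Nat.card (Subgroup.centralizer ({t} : Set G)) ^ 3 := by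
  classical
  have := Fintype.ofFinite G
  set m := Nat.card (Subgroup.centralizer ({t} : Set G)) with hm
  let C : G → Finset G := fun z => Finset.univ.filter (fun u => u ∈ Subgroup.centralizer ({z} : Set G))
  have hC : ∀ z, (C z).card = Nat.card (Subgroup.centralizer ({z} : Set G)) := by
    intro z
    rw [Nat.card_eq_fintype_card, Fintype.card_subtype]
  let K : Finset G := Finset.univ.filter (fun u => IsConj s u)
  have hK : K.card * Nat.card (Subgroup.centralizer ({s} : Set G)) = Nat.card G := by
    have e : K.card = Nat.card {u : G // IsConj s u} := by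
      rw [Nat.card_eq_fintype_card, Fintype.card_subtype]
    rw [e, card_conj_mul_card_centralizer s]
  let Z : Finset G := (C t).filter (fun z => orderOf z = 2)
  have hZ : Z.card + 1 ≤ m := by
    have h1 : Z ⊆ (C t).erase 1 := by
      intro z hz
      simp only [Z, Finset.mem_filter] at hz
      rw [Finset.mem_erase]
      exact ⟨ne_one_of_orderOf_two hz.2, hz.1⟩
    have h2 := Finset.card_le_card h1
    have h3 : (1 : G) ∈ C t := by simp [C, one_mem]
    rw [Finset.card_erase_of_mem h3, hC t] at h2
    have h4 : 0 < m := Nat.card_pos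
    omega
  have hsub : K ⊆ Z.biUnion C := by
    intro u hu
    simp only [K, Finset.mem_filter, Finset.mem_univ, true_and] at hu
    have hu2 : orderOf u = 2 := by
      obtain ⟨g, rfl⟩ := isConj_iff.1 hu
      have := (MulAut.conj g).orderOf_eq s
      rw [← hs]; simpa using this
    have heven : Even (orderOf (u * t)) := by
      by_contra hodd
      rw [Nat.not_even_iff_odd] at hodd
      obtain ⟨d, -, hd⟩ := Cfsg.Agent.S0208.result u t hu2 ht hodd
      exact hnc (hu.trans (isConj_iff.2 ⟨d, hd⟩))
    obtain ⟨h1, h2, h3⟩ := Cfsg.Agent.S0209.result u t hu2 ht heven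
    rw [Finset.mem_biUnion]
    refine ⟨(u * t) ^ (orderOf (u * t) / 2), ?_, ?_⟩
    · simp only [Z, C, Finset.mem_filter, Finset.mem_univ, true_and]
      refine ⟨?_, h1⟩
      rw [Subgroup.mem_centralizer_singleton_iff]
      exact h3.eq
    · simp only [C, Finset.mem_filter, Finset.mem_univ, true_and]
      rw [Subgroup.mem_centralizer_singleton_iff]
      exact h2.eq.symm
  have hle : K.card ≤ Z.card * m := by
    refine (Finset.card_le_card hsub).trans (Finset.card_biUnion_le_card_mul _ _ _ ?_)
    intro z hz
    simp only [Z, Finset.mem_filter] at hz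
    rw [hC z]
    exact hmax z hz.2
  have hs' := hmax s hs
  have hmpos : 0 < m := Nat.card_pos
  calc Nat.card G = K.card * Nat.card (Subgroup.centralizer ({s} : Set G)) := hK.symm
    _ ≤ (Z.card * m) * m := Nat.mul_le_mul hle hs'
    _ < ((Z.card + 1) * m) * m := by
        apply Nat.mul_lt_mul_of_pos_right _ hmpos
        apply Nat.mul_lt_mul_of_pos_right _ hmpos
        omega
    _ ≤ (m * m) * m := by
        apply Nat.mul_le_mul_right
        apply Nat.mul_le_mul_right
        exact hZ
    _ = m ^ 3 := by ring

end Cfsg.Agent.S0230
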