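import Cfsg.Statements.S0231
import Mathlib
import Cfsg.Agent.Lib.Lead.Iso
import Cfsg.Agent.S0208
import Cfsg.Agent.S0209

set_option autoImplicit false
open scoped Pointwise
open Cfsg

namespace Cfsg.Agent.S0231

open Cfsg.Agent.Lib.Lead

/-- Let T be a Sylow 2-subgroup of the finite group G which is not normal and which intersects every other Sylow 2-subgroup trivially. Then G has a single conjugacy class of involutions. -/
theorem result {G : Type*} [Group G] [Finite G] (T : Sylow 2 G) (hnn : ¬ (T : Subgroup G).Normal) (hTI : ∀ g : G, MulAut.conj g • (T : Subgroup G) ≠ T → MulAut.conj g • (T : Subgroup G) ⊓ T = ⊥) (s t : G) (hs : orderOf s = 2) (ht : orderOf t = 2) : IsConj s t := by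
  have : Fact (Nat.Prime 2) := ⟨Nat.prime_two⟩
  -- any two Sylow 2-subgroups sharing a nontrivial element are equal
  have hTI' : ∀ (A B : Sylow 2 G) (z : G), z ≠ 1 → z ∈ A → z ∈ B → A = B := by
    intro A B z hz hA hB
    obtain ⟨a, rfl⟩ := MulAction.exists_smul_eq G T A
    obtain ⟨b, rfl⟩ := MulAction.exists_smul_eq G T B
    rw [mem_sylow_smul_iff] at hA hB
    by_contra hne
    have hne' : MulAut.conj (b⁻¹ * a) • (T : Subgroup G) ≠ T := by
      intro h
      apply hne
      have h1 : (b⁻¹ * a) • T = T := Sylow.ext h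
      have h2 := congrArg (fun Q => b • Q) h1
      simpa [smul_smul] using h2
    have hbot := hTI _ hne'
    have hmem : b⁻¹ * z * b ∈ MulAut.conj (b⁻¹ * a) • (T : Subgroup G) ⊓ T := by
      refine ⟨?_, hB⟩
      have : b⁻¹ * z * b ∈ ((b⁻¹ * a) • T : Sylow 2 G) := by
        rw [mem_sylow_smul_iff]
        have e : (b⁻¹ * a)⁻¹ * (b⁻¹ * z * b) * (b⁻¹ * a) = a⁻¹ * z * a := by group
        rw [e]; exact hA
      exact this
    rw [hbot, Subgroup.mem_bot] at hmem
    apply hz
    have := congrArg (fun w => b * w * b⁻¹) hmem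
    simpa [mul_assoc] using this
  -- non-conjugate involutions lie in a common Sylow
  have hcommon : ∀ (a b : G), orderOf a = 2 → orderOf b = 2 → ¬ IsConj a b →
      ∀ (A B : Sylow 2 G), a ∈ A → b ∈ B → A = B := by
    intro a b ha hb hnc A B haA hbB
    have heven : Even (orderOf (a * b)) := by
      by_contra hodd
      rw [Nat.not_even_iff_odd] at hodd
      obtain ⟨d, _, hd⟩ := Cfsg.Agent.S0208.result a b ha hb hodd
      exact hnc (isConj_iff.mpr ⟨d, hd⟩)
    obtain ⟨hz, hza, hzb⟩ := Cfsg.Agent.S0209.result a b ha hb heven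
    set z := (a * b) ^ (orderOf (a * b) / 2) with hzdef
    have hz2 := mul_self_of_orderOf_two hz
    have hz1 := ne_one_of_orderOf_two hz
    obtain ⟨Q1, hQ1⟩ := (isPGroup_closure_commuting_invol hz2 (mul_self_of_orderOf_two ha) hza).exists_le_sylow
    obtain ⟨Q2, hQ2⟩ := (isPGroup_closure_commuting_invol hz2 (mul_self_of_orderOf_two hb) hzb).exists_le_sylow
    have e1 : A = Q1 := hTI' A Q1 a (ne_one_of_orderOf_two ha) haA (hQ1 (Subgroup.subset_closure (by simp)))
    have e2 : B = Q2 := hTI' B Q2 b (ne_one_of_orderOf_two hb) hbB (hQ2 (Subgroup.subset_closure (by simp)))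
    have e3 : Q1 = Q2 := hTI' Q1 Q2 z hz1 (hQ1 (Subgroup.subset_closure (by simp))) (hQ2 (Subgroup.subset_closure (by simp)))
    rw [e1, e2, e3]
  by_contra hnc
  -- Sylow subgroups containing s and t
  have hpg : ∀ a : G, orderOf a = 2 → ∃ A : Sylow 2 G, a ∈ A := by
    intro a ha
    have : IsPGroup 2 (Subgroup.zpowers a) := by
      apply IsPGroup.of_card (n := 1)
      rw [Nat.card_zpowers, ha, pow_one]
    obtain ⟨A, hA⟩ := this.exists_le_sylow
    exact ⟨A, hA (Subgroup.mem_zpowers a)⟩
  obtain ⟨A, hsA⟩ := hpg s hs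
  obtain ⟨B, htB⟩ := hpg t ht
  have hAB : A = B := hcommon s t hs ht hnc A B hsA htB
  -- A is normal: contradiction
  have hAll : ∀ g : G, g • A = A := by
    intro g
    have hs' : orderOf (g * s * g⁻¹) = 2 := by
      have := orderOf_injective (MulAut.conj g).toMonoidHom (MulAut.conj g).injective s
      simpa [hs] using this
    have hnc' : ¬ IsConj (g * s * g⁻¹) t := by
      intro h
      apply hnc
      exact (isConj_iff.mpr ⟨g, rfl⟩ : IsConj s (g * s * g⁻¹)).trans h
    have hmem : g * s * g⁻¹ ∈ (g • A : Sylow 2 G) := by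
      rw [mem_sylow_smul_iff]
      simpa [mul_assoc] using hsA
    rw [hcommon _ t hs' ht hnc' (g • A) B hmem htB, hAB]
  apply hnn
  obtain ⟨a, rfl⟩ := MulAction.exists_smul_eq G A T
  rw [hAll a]
  constructor
  intro n hn g
  have := hAll g
  have h2 : g * n * g⁻¹ ∈ (g • A : Sylow 2 G) := by
    rw [mem_sylow_smul_iff]
    have e : g⁻¹ * (g * n * g⁻¹) * g = n := by group
    rw [e]; exact hn
  rw [this] at h2
  exact h2

end Cfsg.Agent.S0231
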