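import Cfsg.Statements.S0232
import Mathlib
import Cfsg.Agent.Lib.Helper4.BrauerFowler

set_option autoImplicit false
open Cfsg

namespace Cfsg.Agent.S0232

open Cfsg.Agent.Lib.Helper4.BF

theorem arith (n c g : ℕ) (h1 : c ^ 3 ≤ g) (h2 : g ≤ c * n)
    (h3 : 2 * n ^ 2 + 2 * n + c ≤ c * (g + n)) (hn : 0 < n) : False := by
  have hc : 0 < c := by
    rcases Nat.eq_zero_or_pos c with rfl | h
    · simp at h3; omega
    · exact h
  have h4 : c ^ 2 ≤ n := by
    apply Nat.le_of_mul_le_mul_left _ hc
    calc c * c ^ 2 = c ^ 3 := by ring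
      _ ≤ g := h1
      _ ≤ c * n := h2
  have h5 : c ≤ n := le_trans (Nat.le_self_pow (by norm_num) c) h4
  have h6 : c * (g + n) ≤ n ^ 2 + c * n := by
    calc c * (g + n) ≤ c * (c * n + n) := Nat.mul_le_mul_left _ (by omega)
      _ = c ^ 2 * n + c * n := by ring
      _ ≤ n * n + c * n := by
        have := Nat.mul_le_mul_right n h4
        omega
      _ = n ^ 2 + c * n := by ring
  have h7 : c * n ≤ n ^ 2 := by
    calc c * n ≤ n * n := Nat.mul_le_mul_right n h5
      _ = n ^ 2 := by ring
  omega

theorem nocentral {G : Type*} [Group G] [Finite G] (heven : Even (Nat.card G))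
    (hgt : 2 < Nat.card G)
    (hnc : ∀ t : G, orderOf t = 2 → Subgroup.centralizer ({t} : Set G) ≠ ⊤) :
    ∃ H : Subgroup G, H ≠ ⊤ ∧ Nat.card G < (Nat.card H) ^ 3 := by
  classical
  haveI : Fintype G := Fintype.ofFinite G
  by_contra hcon
  push Not at hcon
  obtain ⟨g, hg⟩ : ∃ g, g = Nat.card G := ⟨_, rfl⟩
  rw [← hg] at hcon hgt
  obtain ⟨t, ht⟩ := exists_prime_orderOf_dvd_card' 2 (even_iff_two_dvd.mp heven)
  have hnpos : 0 < (Invo G).card := Finset.card_pos.mpr ⟨t, mem_Invo.mpr ht⟩
  obtain ⟨c, hc⟩ : ∃ c, c = Nat.findGreatest (fun c => c ^ 3 ≤ g) g := ⟨_, rfl⟩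
  have hc3 : c ^ 3 ≤ g := by
    rw [hc]
    exact Nat.findGreatest_spec (P := fun c => c ^ 3 ≤ g) (m := 0) (Nat.zero_le _) (by simp)
  have hle : ∀ H : Subgroup G, H ≠ ⊤ → Nat.card H ≤ c := by
    intro H hH
    rw [hc]
    have h3 := hcon H hH
    exact Nat.le_findGreatest (P := fun c => c ^ 3 ≤ g)
      (le_trans (Nat.le_self_pow (by norm_num) _) h3) h3
  have hkey := key (G := G) c ?_ ?_
  · rw [← Nat.card_eq_fintype_card, ← hg] at hkey
    have h2 := card_le_mul t ht
    rw [← Nat.card_eq_fintype_card, ← hg] at h2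
    have h3 : g ≤ c * (Invo G).card :=
      le_trans h2 (Nat.mul_le_mul_right _ (hle _ (hnc t ht)))
    exact arith _ c g hc3 h3 hkey hnpos
  · intro x hx
    exact hle _ (hnc x hx)
  · intro x hx hA
    apply hle
    intro htop
    have h2 := index_two_of_Cstar_top x hx hA htop
    have hne : Subgroup.centralizer ({x} : Set G) ≠ ⊤ := by
      intro h
      rw [h, Subgroup.index_top] at h2
      omega
    have h3 := hcon _ hne
    have h4 := (Subgroup.centralizer ({x} : Set G)).card_mul_index
    rw [h2, ← hg] at h4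
    obtain ⟨k, hk⟩ : ∃ k, k = Nat.card (Subgroup.centralizer ({x} : Set G)) := ⟨_, rfl⟩
    rw [← hk] at h3 h4
    have hk2 : 2 ≤ k := by omega
    have : 4 * k ≤ k ^ 3 := by
      calc 4 * k = 2 * 2 * k := by ring
        _ ≤ k * k * k := by gcongr
        _ = k ^ 3 := by ring
    omega

universe u in
theorem aux (n : ℕ) : ∀ (G : Type u) [Group G] [Finite G], Nat.card G = n → Even n → 2 < n →
    ∃ H : Subgroup G, H ≠ ⊤ ∧ Nat.card G < (Nat.card H) ^ 3 := by
  induction n using Nat.strong_induction_on with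
  | _ n ih =>
  intro G _ _ hG heven hgt
  by_cases hnc : ∀ t : G, orderOf t = 2 → Subgroup.centralizer ({t} : Set G) ≠ ⊤
  · exact nocentral (hG ▸ heven) (hG ▸ hgt) hnc
  push Not at hnc
  obtain ⟨t, ht, htop⟩ := hnc
  rw [Subgroup.centralizer_eq_top_iff_subset, Set.singleton_subset_iff] at htop
  have hN : (Subgroup.zpowers t).Normal := by
    constructor
    intro a ha b
    have : a ∈ Subgroup.center G := by
      have hle : Subgroup.zpowers t ≤ Subgroup.center G := by
        rw [Subgroup.zpowers_le]; exact htop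
      exact hle ha
    have e : b * a * b⁻¹ = a := by
      rw [Subgroup.mem_center_iff] at this
      rw [this b]; group
    rw [e]; exact ha
  have hcN : Nat.card (Subgroup.zpowers t) = 2 := by rw [Nat.card_zpowers, ht]
  have hidx : 2 * (Subgroup.zpowers t).index = n := by
    rw [← hcN, Subgroup.card_mul_index, hG]
  obtain ⟨m, hm⟩ : ∃ m, m = (Subgroup.zpowers t).index := ⟨_, rfl⟩
  rw [← hm] at hidx
  have hQ : Nat.card (G ⧸ Subgroup.zpowers t) = m := by rw [hm]; rfl
  rcases Nat.even_or_odd m with hme | hmo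
  · by_cases hm2 : m = 2
    · refine ⟨Subgroup.zpowers t, ?_, ?_⟩
      · intro h
        rw [h, Subgroup.card_top] at hcN
        omega
      · rw [hcN, hG]; omega
    · have hm3 : 2 < m := by
        rcases hme with ⟨r, hr⟩
        omega
      obtain ⟨Hb, hHb, hlt⟩ := ih m (by omega) (G ⧸ Subgroup.zpowers t) hQ hme hm3
      refine ⟨Hb.comap (QuotientGroup.mk' (Subgroup.zpowers t)), ?_, ?_⟩
      · intro h
        apply hHb
        have := Subgroup.map_comap_eq_self_of_surjective
          (QuotientGroup.mk'_surjective (Subgroup.zpowers t)) Hb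
        rw [h, Subgroup.map_top_of_surjective _
          (QuotientGroup.mk'_surjective (Subgroup.zpowers t))] at this
        exact this.symm
      · have h1 := Subgroup.index_comap_of_surjective Hb
          (QuotientGroup.mk'_surjective (Subgroup.zpowers t))
        have h2 := (Hb.comap (QuotientGroup.mk' (Subgroup.zpowers t))).card_mul_index
        have h3 := Hb.card_mul_index
        rw [h1, hG] at h2
        rw [hQ] at h3 hlt
        have hi : 0 < Hb.index := Nat.pos_of_ne_zero Subgroup.index_ne_zero_of_finite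
        have h4 : Nat.card (Hb.comap (QuotientGroup.mk' (Subgroup.zpowers t))) = 2 * Nat.card Hb := by
          apply Nat.eq_of_mul_eq_mul_right hi
          rw [h2, ← hidx, ← h3]; ring
        rw [h4, hG, ← hidx]
        calc 2 * m < 2 * Nat.card Hb ^ 3 := by omega
          _ ≤ (2 * Nat.card Hb) ^ 3 := by
            rw [mul_pow]
            exact Nat.mul_le_mul_right _ (by norm_num)
  · have hcop : Nat.Coprime (Nat.card (Subgroup.zpowers t)) (Subgroup.zpowers t).index := by
      rw [hcN, ← hm]
      exact (Nat.coprime_two_left).mpr hmo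
    obtain ⟨K, hK⟩ := Subgroup.exists_right_complement'_of_coprime hcop
    have hcK := hK.card_mul_card
    rw [hcN, hG, ← hidx] at hcK
    have hcK' : Nat.card K = m := by omega
    refine ⟨K, ?_, ?_⟩
    · intro h
      rw [h, Subgroup.card_top, hG] at hcK'
      omega
    · rw [hcK', hG, ← hidx]
      have hm3 : 3 ≤ m := by
        rcases hmo with ⟨r, hr⟩
        omega
      calc 2 * m < 3 * 3 * m := by omega
        _ ≤ m * m * m := by gcongr
        _ = m ^ 3 := by ring

/-- A finite group G of even order greater than 2 has a proper subgroup H with |G| < |H|^3. -/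
theorem result {G : Type*} [Group G] [Finite G] (heven : Even (Nat.card G)) (hgt : 2 < Nat.card G) : ∃ H : Subgroup G, H ≠ ⊤ ∧ Nat.card G < (Nat.card H) ^ 3 := by
  exact aux _ G rfl heven hgt

end Cfsg.Agent.S0232
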