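import Cfsg.Statements.S0233
import Mathlib
import Cfsg.Agent.Lib.Helper4.BrauerFowler

set_option autoImplicit false
open Cfsg

namespace Cfsg.Agent.S0233

open Cfsg.Agent.Lib.Helper4.BF

/-- Let G be a finite group of even order with exactly n involutions whose centre has odd order, and put a = |G|/n. Then G has a proper subgroup H with |G : H| = 2 or |G : H| < a(a+1)/2; over ℕ the latter reads 2·|G:H|·n² < |G|·(|G| + n). -/
theorem result {G : Type*} [Group G] [Finite G] (heven : Even (Nat.card G)) (hZ : Odd (Nat.card (Subgroup.center G))) : ∃ H : Subgroup G, H ≠ ⊤ ∧ (H.index = 2 ∨ 2 * H.index * (Nat.card {t : G // orderOf t = 2}) ^ 2 < Nat.card G * (Nat.card G + Nat.card {t : G // orderOf t = 2})) := by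
  classical
  haveI : Fintype G := Fintype.ofFinite G
  by_contra hcon
  push Not at hcon
  obtain ⟨n, hn⟩ : ∃ n, n = Nat.card {t : G // orderOf t = 2} := ⟨_, rfl⟩
  obtain ⟨g, hg⟩ : ∃ g, g = Nat.card G := ⟨_, rfl⟩
  rw [← hn, ← hg] at hcon
  have hgpos : 0 < g := hg ▸ Nat.card_pos
  obtain ⟨t, ht⟩ := exists_prime_orderOf_dvd_card' 2 (even_iff_two_dvd.mp heven)
  have hnI : (Invo G).card = n := by rw [card_Invo, hn]
  have hnpos : 0 < n := by
    rw [← hnI]
    exact Finset.card_pos.mpr ⟨t, mem_Invo.mpr ht⟩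
  have hW : 0 < g * (g + n) := by positivity
  have hle : ∀ H : Subgroup G, H ≠ ⊤ → Nat.card H ≤ 2 * g * n ^ 2 / (g * (g + n)) := by
    intro H hH
    rw [Nat.le_div_iff_mul_le hW]
    have h1 := (hcon H hH).2
    have h2 := H.card_mul_index
    rw [← hg] at h2
    calc Nat.card H * (g * (g + n)) ≤ Nat.card H * (2 * H.index * n ^ 2) := Nat.mul_le_mul_left _ h1
      _ = 2 * (Nat.card H * H.index) * n ^ 2 := by ring
      _ = 2 * g * n ^ 2 := by rw [h2]
  have hkey := key (G := G) (2 * g * n ^ 2 / (g * (g + n))) ?_ ?_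
  · rw [hnI, ← Nat.card_eq_fintype_card, ← hg] at hkey
    have h3 := Nat.div_mul_le_self (2 * g * n ^ 2) (g * (g + n))
    obtain ⟨c, hc⟩ : ∃ c, c = 2 * g * n ^ 2 / (g * (g + n)) := ⟨_, rfl⟩
    rw [← hc] at hkey h3
    have h4 : c * (g + n) ≤ 2 * n ^ 2 := by
      apply Nat.le_of_mul_le_mul_left _ hgpos
      calc g * (c * (g + n)) = c * (g * (g + n)) := by ring
        _ ≤ 2 * g * n ^ 2 := h3
        _ = g * (2 * n ^ 2) := by ring
    omega
  · intro x hx
    apply hle
    intro htop
    rw [Subgroup.centralizer_eq_top_iff_subset, Set.singleton_subset_iff] at htop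
    have h2 : orderOf (⟨x, htop⟩ : Subgroup.center G) = 2 := by
      rw [← hx]; exact Subgroup.orderOf_mk x htop
    have h3 := orderOf_dvd_natCard (⟨x, htop⟩ : Subgroup.center G)
    rw [h2] at h3
    exact (Nat.not_even_iff_odd.mpr hZ) (even_iff_two_dvd.mpr h3)
  · intro x hx hA
    apply hle
    intro htop
    have h2 := index_two_of_Cstar_top x hx hA htop
    refine (hcon _ ?_).1 h2
    intro h
    rw [h, Subgroup.index_top] at h2
    omega

end Cfsg.Agent.S0233
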