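import Cfsg.Statements.S0234
import Mathlib
import Cfsg.Agent.S0233
import Cfsg.Agent.S0073
import Cfsg.Agent.S0144
import Cfsg.Agent.S0494
import Cfsg.Agent.Lib.Helper12.PermEmbed

set_option autoImplicit false
open Cfsg

namespace Cfsg.Agent.S0234

theorem a5_count : (Finset.univ.filter (fun σ : Equiv.Perm (Fin 5) =>
    Equiv.Perm.sign σ = 1 ∧ σ * σ = 1 ∧ σ ≠ 1)).card = 15 := by decide +kernel

theorem a5_invol : Nat.card {t : alternatingGroup (Fin 5) // orderOf t = 2} ≤ 15 := by
  rw [← a5_count, ← Fintype.card_coe, ← Nat.card_eq_fintype_card]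
  apply Nat.card_le_card_of_injective
    (fun t : {t : alternatingGroup (Fin 5) // orderOf t = 2} =>
      (⟨t.1.1, by
        have h := t.2
        rw [orderOf_eq_prime_iff] at h
        rw [Finset.mem_filter]
        refine ⟨Finset.mem_univ _, Equiv.Perm.mem_alternatingGroup.mp t.1.2, ?_, ?_⟩
        · have := congrArg Subtype.val h.1
          simpa [pow_two] using this
        · intro h1
          exact h.2 (Subtype.ext h1)⟩ :
        {σ // σ ∈ (Finset.univ.filter (fun σ : Equiv.Perm (Fin 5) =>
          Equiv.Perm.sign σ = 1 ∧ σ * σ = 1 ∧ σ ≠ 1))}))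
  intro a b h
  have := congrArg Subtype.val h
  exact Subtype.ext (Subtype.ext this)

/-- In a finite simple group G of even order greater than 2, the number n of involutions satisfies 3n < |G|. -/
theorem result {G : Type*} [Group G] [Finite G] [IsSimpleGroup G] (heven : Even (Nat.card G)) (hgt : 2 < Nat.card G) : 3 * Nat.card {t : G // orderOf t = 2} < Nat.card G := by
  classical
  by_contra hcon
  push Not at hcon
  obtain ⟨n, hn⟩ : ∃ n, n = Nat.card {t : G // orderOf t = 2} := ⟨_, rfl⟩
  obtain ⟨g, hg⟩ : ∃ g, g = Nat.card G := ⟨_, rfl⟩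
  rw [← hn, ← hg] at hcon
  obtain ⟨t, ht⟩ := exists_prime_orderOf_dvd_card' 2 (even_iff_two_dvd.mp heven)
  have ht1 : t ≠ 1 := by rintro rfl; simp at ht
  -- the centre is trivial
  have hZ : Subgroup.center G = ⊥ := by
    rcases (inferInstance : (Subgroup.center G).Normal).eq_bot_or_eq_top with h | h
    · exact h
    · exfalso
      have hN : (Subgroup.zpowers t).Normal := by
        constructor
        intro a ha b
        have hac : a ∈ Subgroup.center G := by rw [h]; trivial
        have e : b * a * b⁻¹ = a := by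
          rw [Subgroup.mem_center_iff] at hac
          rw [hac b]; group
        rw [e]; exact ha
      rcases hN.eq_bot_or_eq_top with h2 | h2
      · exact ht1 (Subgroup.zpowers_eq_bot.mp h2)
      · have := Nat.card_zpowers t
        rw [h2, Subgroup.card_top, ht] at this
        omega
  have hnc : ∃ x y : G, x * y ≠ y * x := by
    by_contra hc
    push Not at hc
    have : t ∈ Subgroup.center G := by
      rw [Subgroup.mem_center_iff]; intro b; exact hc b t
    rw [hZ, Subgroup.mem_bot] at this
    exact ht1 this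
  have hZodd : Odd (Nat.card (Subgroup.center G)) := by rw [hZ]; simp
  obtain ⟨H, hH, hH2⟩ := Cfsg.Agent.S0233.result heven hZodd
  rw [← hn, ← hg] at hH2
  have hk6 : H.index < 6 := by
    rcases hH2 with h | h
    · omega
    · by_contra h6
      push Not at h6
      have h1 : g * (g + n) ≤ 12 * n ^ 2 := by
        calc g * (g + n) ≤ (3 * n) * (3 * n + n) := by gcongr
          _ = 12 * n ^ 2 := by ring
      have h2 : 12 * n ^ 2 ≤ 2 * H.index * n ^ 2 := by
        apply Nat.mul_le_mul_right; omega
      omega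
  have hk0 : H.index ≠ 0 := Subgroup.index_ne_zero_of_finite
  have hk1 : H.index ≠ 1 := fun h => hH (Subgroup.index_eq_one.mp h)
  have hex := Cfsg.Agent.Lib.Helper12.exists_injective_of_simple H hH
  clear hH2
  generalize H.index = k at hex hk6 hk0 hk1
  obtain ⟨φ, hφ⟩ := hex
  haveI : Nontrivial (Fin k) := Fin.nontrivial_iff_two_le.mpr (by omega)
  have hsign : (Equiv.Perm.sign.comp φ).ker = ⊤ := by
    rcases (Equiv.Perm.sign.comp φ).normal_ker.eq_bot_or_eq_top with h | h
    · exfalso
      obtain ⟨x, y, hxy⟩ := hnc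
      apply hxy
      apply (MonoidHom.ker_eq_bot_iff _).mp h
      rw [map_mul, map_mul, mul_comm]
    · exact h
  have hle : φ.range ≤ alternatingGroup (Fin k) := by
    rintro _ ⟨x, rfl⟩
    rw [Equiv.Perm.mem_alternatingGroup]
    have : x ∈ (Equiv.Perm.sign.comp φ).ker := by rw [hsign]; trivial
    exact this
  have hd1 : g ∣ Nat.card (alternatingGroup (Fin k)) := by
    have h1 := Subgroup.card_dvd_of_le hle
    rwa [← Nat.card_congr (MonoidHom.ofInjective hφ).toEquiv, ← hg] at h1
  have hd2 : 2 * Nat.card (alternatingGroup (Fin k)) = k.factorial := by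
    have := two_mul_card_alternatingGroup (α := Fin k)
    rw [Fintype.card_perm, Fintype.card_fin] at this
    rw [Nat.card_eq_fintype_card]; exact this
  have hd3 : 2 * g ∣ 120 := by
    have h1 : 2 * g ∣ k.factorial := by rw [← hd2]; exact Nat.mul_dvd_mul_left 2 hd1
    exact h1.trans (Nat.factorial_dvd_factorial (show k ≤ 5 by omega))
  have hd4 : g ∣ 60 := by
    have : 2 * g ∣ 2 * 60 := hd3
    exact Nat.dvd_of_mul_dvd_mul_left (by norm_num) this
  have h73 := Cfsg.Agent.S0073.result hnc
  rw [← hg] at h73 heven hgt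
  have hmf : g.minFac = 2 := (Nat.minFac_eq_two_iff g).mpr (even_iff_two_dvd.mp heven)
  rw [hmf] at h73
  have h12 : 12 ∣ g := by
    rcases h73 with h | h
    · exfalso
      have := h.trans hd4
      norm_num at this
    · exact h
  obtain ⟨j, hj⟩ := h12
  have hj5 : j ∣ 5 := by
    have : 12 * j ∣ 12 * 5 := by rw [← hj]; exact hd4
    exact Nat.dvd_of_mul_dvd_mul_left (by norm_num) this
  rcases (Nat.dvd_prime (by norm_num : Nat.Prime 5)).mp hj5 with rfl | rfl
  · -- order 12
    have hsol : Group.IsSolvable G :=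
      Cfsg.Agent.S0144.result 2 3 2 1 Nat.prime_two Nat.prime_three (by rw [← hg, hj]; norm_num)
    obtain ⟨x, y, hxy⟩ := hnc
    exact hxy (IsSimpleGroup.comm_iff_isSolvable.mpr hsol x y)
  · obtain ⟨e⟩ := Cfsg.Agent.S0494.result (G := G) (by rw [← hg, hj])
    have hcard : n = Nat.card {t : alternatingGroup (Fin 5) // orderOf t = 2} := by
      rw [hn]
      exact Nat.card_congr (e.toEquiv.subtypeEquiv (fun a => by
        rw [MulEquiv.toEquiv_eq_coe, EquivLike.coe_coe, MulEquiv.orderOf_eq]))
    have := a5_invol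
    omega

end Cfsg.Agent.S0234
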