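import Cfsg.Statements.S0236
import Mathlib
import Cfsg.Agent.Lib.Lead.Iso

set_option autoImplicit false
open Cfsg

namespace Cfsg.Agent.S0236

open Cfsg.Agent.Lib.Lead

/-- If x is an involution, the number of ordered pairs (u, v) of involutions with uv = x, plus one, equals the number of involutions in the centralizer of x. -/
theorem result {G : Type*} [Group G] [Finite G] (x : G) (hx : orderOf x = 2) : Nat.card {p : G × G // orderOf p.1 = 2 ∧ orderOf p.2 = 2 ∧ p.1 * p.2 = x} + 1 = Nat.card {t : G // orderOf t = 2 ∧ Commute t x} := by
  classical
  have hx2 := mul_self_of_orderOf_two hx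
  have hx' := inv_eq_self_of_orderOf_two hx
  rw [← Finite.card_option]
  apply Nat.card_congr
  refine
    { toFun := fun o => match o with
        | none => ⟨x, hx, Commute.refl x⟩
        | some p => ⟨p.1.1, p.2.1, ?_⟩
      invFun := fun t => if h : t.1 = x then none else some ⟨(t.1, t.1 * x), t.2.1, ?_, ?_⟩
      left_inv := ?_
      right_inv := ?_ }
  · obtain ⟨⟨u, v⟩, hu, hv, huv⟩ := p
    simp only at hu hv huv ⊢
    have hu' := inv_eq_self_of_orderOf_two hu
    have hv' := inv_eq_self_of_orderOf_two hv
    have hu2 := mul_self_of_orderOf_two hu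
    have h1 : v * u = u * v := by
      have : (u * v)⁻¹ = u * v := by rw [huv]; exact hx'
      rw [mul_inv_rev, hu', hv'] at this
      exact this
    show u * x = x * u
    rw [← huv, mul_assoc u v u, h1]
  · obtain ⟨t, ht, htx⟩ := t
    simp only at h ⊢
    have ht2 := mul_self_of_orderOf_two ht
    apply orderOf_two_of
    · calc t * x * (t * x) = t * (x * t) * x := by group
        _ = t * (t * x) * x := by rw [htx.eq]
        _ = (t * t) * (x * x) := by group
        _ = 1 := by rw [ht2, hx2, one_mul]
    · intro h1
      apply h
      have := eq_inv_of_mul_eq_one_left h1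
      rw [this, hx']
  · obtain ⟨t, ht, htx⟩ := t
    simp only
    rw [← mul_assoc, mul_self_of_orderOf_two ht, one_mul]
  · intro o
    rcases o with _ | ⟨⟨u, v⟩, hu, hv, huv⟩
    · simp
    · simp only at hu hv huv
      have hne : u ≠ x := by
        intro h
        rw [h] at huv
        have : v = 1 := by
          have := congrArg (fun w => x⁻¹ * w) huv
          simpa using this
        exact ne_one_of_orderOf_two hv this
      simp only [hne, dite_false, Option.some.injEq]
      apply Subtype.ext
      simp only [Prod.mk.injEq, true_and]
      rw [← huv, ← mul_assoc, mul_self_of_orderOf_two hu, one_mul]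
  · rintro ⟨t, ht, htx⟩
    by_cases h : t = x
    · subst h; simp
    · simp [h]

end Cfsg.Agent.S0236
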