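import Cfsg.Statements.S0237
import Mathlib
import Cfsg.Agent.Lib.Lead.Iso

set_option autoImplicit false
open Cfsg

namespace Cfsg.Agent.S0237

open Cfsg.Agent.Lib.Lead

/-- If x is real (conjugate to x⁻¹) in a finite group G, the number of g with g x g⁻¹ = x⁻¹ equals |C_G(x)|. -/
theorem result {G : Type*} [Group G] [Finite G] (x : G) (hreal : IsConj x x⁻¹) : Nat.card {g : G // g * x * g⁻¹ = x⁻¹} = Nat.card (Subgroup.centralizer ({x} : Set G)) := by
  obtain ⟨g, hg⟩ := isConj_iff.mp hreal
  symm
  apply Nat.card_congr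
  refine
    { toFun := fun c => ⟨g * c.1, ?_⟩
      invFun := fun h => ⟨g⁻¹ * h.1, ?_⟩
      left_inv := ?_
      right_inv := ?_ }
  · have hc := Subgroup.mem_centralizer_singleton_iff.mp c.2
    have : g * c.1 * x * (g * c.1)⁻¹ = g * (c.1 * x * c.1⁻¹) * g⁻¹ := by group
    rw [this, hc, mul_inv_cancel_right, hg]
  · rw [Subgroup.mem_centralizer_singleton_iff]
    have h2 := h.2
    have e : h.1 * x = x⁻¹ * h.1 := by
      have := congrArg (fun t => t * h.1) h2
      simpa [mul_assoc] using this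
    have e2 : g⁻¹ * x⁻¹ = x * g⁻¹ := by
      rw [← hg]; group
    rw [mul_assoc, e, ← mul_assoc, e2, mul_assoc]
  · intro c
    apply Subtype.ext
    simp
  · intro h
    apply Subtype.ext
    simp

end Cfsg.Agent.S0237
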