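import Cfsg.Statements.S0238
import Mathlib
import Cfsg.Agent.Lib.Lead.Iso
import Cfsg.Agent.S0236
import Cfsg.Agent.S0237

set_option autoImplicit false
open Cfsg

namespace Cfsg.Agent.S0238

open Cfsg.Agent.Lib.Lead

/-- For every x in a finite group G, the number c of ordered pairs (u, v) of involutions with uv = x is at most |C_G(x)|; c = 0 when x is not conjugate to x⁻¹; and c + 2 ≤ |C_G(x)| when x is an involution. -/
theorem result {G : Type*} [Group G] [Finite G] (x : G) : Nat.card {p : G × G // orderOf p.1 = 2 ∧ orderOf p.2 = 2 ∧ p.1 * p.2 = x} ≤ Nat.card (Subgroup.centralizer ({x} : Set G)) ∧ (¬ IsConj x x⁻¹ → Nat.card {p : G × G // orderOf p.1 = 2 ∧ orderOf p.2 = 2 ∧ p.1 * p.2 = x} = 0) ∧ (orderOf x = 2 → Nat.card {p : G × G // orderOf p.1 = 2 ∧ orderOf p.2 = 2 ∧ p.1 * p.2 = x} + 2 ≤ Nat.card (Subgroup.centralizer ({x} : Set G))) := by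
  classical
  have hinvert : ∀ p : {p : G × G // orderOf p.1 = 2 ∧ orderOf p.2 = 2 ∧ p.1 * p.2 = x},
      p.1.1 * x * p.1.1⁻¹ = x⁻¹ := by
    rintro ⟨⟨u, v⟩, hu, hv, huv⟩
    simp only at hu hv huv ⊢
    have hu' := inv_eq_self_of_orderOf_two hu
    have hv' := inv_eq_self_of_orderOf_two hv
    have hu2 := mul_self_of_orderOf_two hu
    rw [← huv, mul_inv_rev, hu', hv', ← mul_assoc, hu2, one_mul]
  have hempty : ¬ IsConj x x⁻¹ → IsEmpty {p : G × G // orderOf p.1 = 2 ∧ orderOf p.2 = 2 ∧ p.1 * p.2 = x} := by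
    intro hn
    refine ⟨fun p => hn (isConj_iff.mpr ⟨p.1.1, hinvert p⟩)⟩
  refine ⟨?_, ?_, ?_⟩
  · by_cases hreal : IsConj x x⁻¹
    · rw [← Cfsg.Agent.S0237.result x hreal]
      apply Nat.card_le_card_of_injective (fun p => (⟨p.1.1, hinvert p⟩ : {g : G // g * x * g⁻¹ = x⁻¹}))
      rintro ⟨⟨u, v⟩, hu, hv, huv⟩ ⟨⟨u', v'⟩, hu', hv', huv'⟩ h
      simp only [Subtype.mk.injEq] at h
      simp only at huv huv'
      subst h
      apply Subtype.ext
      simp only [Prod.mk.injEq, true_and]
      exact mul_left_cancel (huv.trans huv'.symm)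
    · have := hempty hreal
      rw [Nat.card_of_isEmpty]; exact Nat.zero_le _
  · intro hn
    have := hempty hn
    exact Nat.card_of_isEmpty
  · intro hx
    have h1 := Cfsg.Agent.S0236.result x hx
    have h2 : Nat.card {t : G // orderOf t = 2 ∧ Commute t x} + 1
        ≤ Nat.card (Subgroup.centralizer ({x} : Set G)) := by
      rw [← Finite.card_option]
      apply Nat.card_le_card_of_injective
        (fun o : Option {t : G // orderOf t = 2 ∧ Commute t x} => match o with
          | none => (1 : Subgroup.centralizer ({x} : Set G))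
          | some t => ⟨t.1, Subgroup.mem_centralizer_singleton_iff.mpr t.2.2.eq⟩)
      intro a b hab
      rcases a with _ | a <;> rcases b with _ | b
      · rfl
      · exfalso
        have : (1 : G) = b.1 := congrArg Subtype.val hab
        exact ne_one_of_orderOf_two b.2.1 this.symm
      · exfalso
        have : a.1 = (1 : G) := congrArg Subtype.val hab
        exact ne_one_of_orderOf_two a.2.1 this
      · have : a.1 = b.1 := congrArg (fun c : Subgroup.centralizer ({x} : Set G) => (c : G)) hab
        rw [Subtype.ext this]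
    omega

end Cfsg.Agent.S0238
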