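import Cfsg.Statements.S0239
import Mathlib
import Cfsg.Agent.Lib.Lead.Iso

set_option autoImplicit false
open Cfsg

namespace Cfsg.Agent.S0239

open Cfsg.Agent.Lib.Lead

/-- If some nontrivial element x of a finite group G is conjugate to x⁻¹, then |G| is even. -/
theorem result {G : Type*} [Group G] [Finite G] (x : G) (hx : x ≠ 1) (hreal : IsConj x x⁻¹) : Even (Nat.card G) := by
  obtain ⟨g, hg⟩ := isConj_iff.mp hreal
  by_contra hodd
  rw [Nat.not_even_iff_odd] at hodd
  have hog : Odd (orderOf g) := hodd.of_dvd_nat (orderOf_dvd_natCard g)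
  -- g^2 commutes with x
  have h2 : g ^ 2 * x * (g ^ 2)⁻¹ = x := by
    have : g ^ 2 * x * (g ^ 2)⁻¹ = g * (g * x * g⁻¹) * g⁻¹ := by rw [sq]; group
    rw [this, hg]
    have : g * x⁻¹ * g⁻¹ = (g * x * g⁻¹)⁻¹ := by group
    rw [this, hg, inv_inv]
  have hc2 : Commute (g ^ 2) x := by
    have := congrArg (fun t => t * g ^ 2) h2
    show g ^ 2 * x = x * g ^ 2
    simpa [mul_assoc] using this
  obtain ⟨m, hm⟩ := hog
  have hgp : g = (g ^ 2) ^ (m + 1) := by
    rw [← pow_mul, show 2 * (m + 1) = (2 * m + 1) + 1 by ring, ← hm, pow_succ, pow_orderOf_eq_one, one_mul]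
  have hc : Commute g x := by rw [hgp]; exact hc2.pow_left _
  have hxx : x = x⁻¹ := by
    rw [← hg, hc.eq, mul_inv_cancel_right]
  have hx2 : x * x = 1 := by
    nth_rewrite 2 [hxx]; exact mul_inv_cancel x
  have : orderOf x = 2 := orderOf_two_of hx2 hx
  have h2d : 2 ∣ Nat.card G := this ▸ orderOf_dvd_natCard x
  exact (Nat.not_even_iff_odd.mpr hodd) (even_iff_two_dvd.mpr h2d)

end Cfsg.Agent.S0239
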