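import Cfsg.Statements.S0240
import Mathlib
import Cfsg.Agent.Lib.Lead.Iso

set_option autoImplicit false
open Cfsg

namespace Cfsg.Agent.S0240

open Cfsg.Agent.Lib.Lead

/-- Let G be a finite group with n involutions and H a subgroup with |H|·(n+1) > |G|. Then some nontrivial h ∈ H is strongly real in G: an involution t of G satisfies t h t⁻¹ = h⁻¹. -/
theorem result {G : Type*} [Group G] [Finite G] (H : Subgroup G) (hH : Nat.card G < Nat.card H * (Nat.card {t : G // orderOf t = 2} + 1)) : ∃ h : G, h ∈ H ∧ h ≠ 1 ∧ ∃ t : G, orderOf t = 2 ∧ t * h * t⁻¹ = h⁻¹ := by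
  classical
  by_contra hcon
  push Not at hcon
  -- the map from involutions + 1 to G/H is injective
  let I := Option {t : G // orderOf t = 2}
  let f : I → G ⧸ H := fun o => match o with
    | none => ((1 : G) : G ⧸ H)
    | some t => ((t : G) : G ⧸ H)
  have hinj : Function.Injective f := by
    intro a b hab
    rcases a with _ | ⟨a, ha⟩ <;> rcases b with _ | ⟨b, hb⟩
    · rfl
    · exfalso
      simp only [f] at hab
      have hm : (1 : G)⁻¹ * b ∈ H := QuotientGroup.eq.mp hab
      simp only [inv_one, one_mul] at hm
      have := hcon b hm (ne_one_of_orderOf_two hb) b hb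
      apply this
      rw [mul_inv_cancel_right, inv_eq_self_of_orderOf_two hb]
    · exfalso
      simp only [f] at hab
      have hm : a⁻¹ * 1 ∈ H := QuotientGroup.eq.mp hab
      rw [mul_one, inv_eq_self_of_orderOf_two ha] at hm
      have := hcon a hm (ne_one_of_orderOf_two ha) a ha
      apply this
      rw [mul_inv_cancel_right, inv_eq_self_of_orderOf_two ha]
    · simp only [f] at hab
      have hm : a⁻¹ * b ∈ H := QuotientGroup.eq.mp hab
      have ha' := inv_eq_self_of_orderOf_two ha
      have hb' := inv_eq_self_of_orderOf_two hb
      rw [ha'] at hm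
      by_cases hab1 : a * b = 1
      · have : b = a := by
          have := eq_inv_of_mul_eq_one_right hab1
          rw [this, ha']
        subst this; rfl
      · exfalso
        apply hcon (a * b) hm hab1 a ha
        rw [mul_inv_rev, ha', hb', ← mul_assoc, mul_self_of_orderOf_two ha, one_mul]
  have hcard := Nat.card_le_card_of_injective f hinj
  have h1 : Nat.card I = Nat.card {t : G // orderOf t = 2} + 1 := Finite.card_option
  have h2 : Nat.card (G ⧸ H) * Nat.card H = Nat.card G := by
    have := H.index_mul_card
    exact this
  rw [h1] at hcard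
  have : Nat.card H * (Nat.card {t : G // orderOf t = 2} + 1) ≤ Nat.card G := by
    rw [← h2, mul_comm]
    exact Nat.mul_le_mul_right _ hcard
  omega

end Cfsg.Agent.S0240
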