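import Cfsg.Statements.S0241
import Mathlib
import Cfsg.Agent.Lib.Lead.Iso

set_option autoImplicit false
open Cfsg

namespace Cfsg.Agent.S0241

open Cfsg.Agent.Lib.Lead

/-- If x ≠ 1 is conjugate to x⁻¹ in a finite group G and |C_G(x)| is odd, then some involution t satisfies t x t⁻¹ = x⁻¹. -/
theorem result {G : Type*} [Group G] [Finite G] (x : G) (hx : x ≠ 1) (hreal : IsConj x x⁻¹) (hodd : Odd (Nat.card (Subgroup.centralizer ({x} : Set G)))) : ∃ t : G, orderOf t = 2 ∧ t * x * t⁻¹ = x⁻¹ := by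
  obtain ⟨g, hg⟩ := isConj_iff.mp hreal
  have hxmem : x ∈ Subgroup.centralizer ({x} : Set G) := by
    rw [Subgroup.mem_centralizer_singleton_iff]
  have hxodd : Odd (orderOf x) := by
    have := orderOf_dvd_natCard (⟨x, hxmem⟩ : Subgroup.centralizer ({x} : Set G))
    rw [Subgroup.orderOf_mk] at this
    exact hodd.of_dvd_nat this
  have hxne : x ≠ x⁻¹ := by
    intro hxx
    have hx2 : x * x = 1 := by
      nth_rewrite 2 [hxx]; exact mul_inv_cancel x
    have : orderOf x = 2 := orderOf_two_of hx2 hx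
    rw [this] at hxodd
    exact absurd hxodd (by decide)
  have ho : orderOf g ≠ 0 := (orderOf_pos g).ne'
  obtain ⟨a, m, hm, ham⟩ := Nat.exists_eq_pow_mul_and_not_dvd ho 2 (by norm_num)
  have hmodd : Odd m := Nat.odd_iff.mpr (by omega)
  -- odd powers of g invert x
  have hinv : ∀ k : ℕ, g ^ (2 * k + 1) * x * (g ^ (2 * k + 1))⁻¹ = x⁻¹ := by
    intro k
    induction k with
    | zero => simpa using hg
    | succ k ih =>
      have e : g ^ (2 * (k + 1) + 1) * x * (g ^ (2 * (k + 1) + 1))⁻¹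
          = g * (g * (g ^ (2 * k + 1) * x * (g ^ (2 * k + 1))⁻¹) * g⁻¹) * g⁻¹ := by
        rw [show 2 * (k + 1) + 1 = 1 + (1 + (2 * k + 1)) by ring, pow_add, pow_add, pow_one]
        group
      rw [e, ih]
      have e2 : g * x⁻¹ * g⁻¹ = (g * x * g⁻¹)⁻¹ := by group
      rw [e2, hg, inv_inv, hg]
  obtain ⟨k, hk⟩ := hmodd
  set t := g ^ m with ht
  have htx : t * x * t⁻¹ = x⁻¹ := by rw [ht, hk]; exact hinv k
  have hto : t ^ 2 ^ a = 1 := by
    rw [ht, ← pow_mul, mul_comm, ← ham]; exact pow_orderOf_eq_one g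
  have ht2c : t * t ∈ Subgroup.centralizer ({x} : Set G) := by
    rw [Subgroup.mem_centralizer_singleton_iff]
    have : t * t * x * (t * t)⁻¹ = x := by
      have e : t * t * x * (t * t)⁻¹ = t * (t * x * t⁻¹) * t⁻¹ := by group
      rw [e, htx]
      have e2 : t * x⁻¹ * t⁻¹ = (t * x * t⁻¹)⁻¹ := by group
      rw [e2, htx, inv_inv]
    have := congrArg (fun w => w * (t * t)) this
    simpa [mul_assoc] using this
  have ht2 : t * t = 1 := by
    have h1 : Odd (orderOf (t * t)) := by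
      have := orderOf_dvd_natCard (⟨t * t, ht2c⟩ : Subgroup.centralizer ({x} : Set G))
      rw [Subgroup.orderOf_mk] at this
      exact hodd.of_dvd_nat this
    have h2 : (t * t) ^ 2 ^ a = 1 := by
      rw [(Commute.refl t).mul_pow, hto, one_mul]
    have h3 : orderOf (t * t) ∣ 2 ^ a := orderOf_dvd_of_pow_eq_one h2
    have h4 : Nat.Coprime (orderOf (t * t)) (2 ^ a) :=
      Nat.Coprime.pow_right a (Nat.coprime_two_right.mpr h1)
    exact orderOf_eq_one_iff.mp (Nat.Coprime.eq_one_of_dvd h4 h3)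
  refine ⟨t, orderOf_two_of ht2 ?_, htx⟩
  intro h1
  rw [h1] at htx
  apply hxne
  simpa using htx

end Cfsg.Agent.S0241
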