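import Cfsg.Statements.S0247
import Cfsg.Agent.Lib.Helper12.Heart
import Cfsg.Agent.Lib.Helper12.SpCard

set_option autoImplicit false
open Cfsg

namespace Cfsg.Agent.S0247

open Cfsg.Agent.Lib.Helper12

/-- Sp_4(2) is isomorphic to the symmetric group S_6. -/
theorem result {F : Type*} [Field F] [Fintype F] (hF : Fintype.card F = 2) : Nonempty (Matrix.symplecticGroup (Fin 2) F ≃* Equiv.Perm (Fin 6)) := by
  have h2 : (2 : F) = 0 := by
    have := Nat.cast_card_eq_zero F
    rw [hF] at this
    exact_mod_cast this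
  haveI : CharP F 2 := CharTwo.of_one_ne_zero_of_two_eq_zero one_ne_zero h2
  obtain ⟨f, hf⟩ := symm_embeds_sp F 3 le_rfl
  have hcard : Nat.card (Equiv.Perm (Fin (2 * 3))) = Nat.card (Matrix.symplecticGroup (Fin (3 - 1)) F) := by
    show Nat.card (Equiv.Perm (Fin 6)) = Nat.card (Matrix.symplecticGroup (Fin 2) F)
    rw [card_Sp hF 2, Nat.card_eq_fintype_card, Fintype.card_perm, Fintype.card_fin]
    simp [Finset.prod_range_succ, Nat.factorial]
  haveI : Finite (Matrix.symplecticGroup (Fin (3 - 1)) F) :=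
    Finite.of_injective (fun x => x.1) Subtype.val_injective
  have hbij : Function.Bijective f := (Nat.bijective_iff_injective_and_card f).2 ⟨hf, hcard⟩
  exact ⟨(MulEquiv.ofBijective f hbij).symm⟩


end Cfsg.Agent.S0247
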