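import Cfsg.Statements.S0250
import Cfsg.Agent.Lib.Helper12.PermEmbed
import Cfsg.Agent.Lib.Helper12.GLCard
import Cfsg.Agent.S0242

set_option autoImplicit false
open Cfsg

namespace Cfsg.Agent.S0250

/-- SL_2(2) is isomorphic to S_3. -/
theorem result {F : Type*} [Field F] [Fintype F] (hF : Fintype.card F = 2) : Nonempty (Matrix.SpecialLinearGroup (Fin 2) F ≃* Equiv.Perm (Fin 3)) := by
  have hker := Projectivization.SL_mulAction_ker (K := F) (ι := Fin 2)
  have hc := Cfsg.Agent.Lib.Helper12.card_center_SL (F := F) 2 (by norm_num)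
  rw [Cfsg.Agent.Lib.Helper12.card_units_eq, hF] at hc
  norm_num at hc
  rw [hc] at hker
  have hinj := (MonoidHom.ker_eq_bot_iff _).mp hker
  have hX : Nat.card (Projectivization F (Fin 2 → F)) = 3 := by
    rw [Projectivization.card_of_finrank_two _ _ (by simp), Nat.card_eq_fintype_card, hF]
  have : Finite (Projectivization F (Fin 2 → F)) := Nat.finite_of_card_ne_zero (by rw [hX]; norm_num)
  obtain ⟨φ, hφ⟩ := Cfsg.Agent.Lib.Helper12.exists_injective_perm_fin hX _ hinj
  apply Cfsg.Agent.Lib.Helper12.mulEquiv_perm_of_injective φ hφ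
  have h := Cfsg.Agent.S0242.result hF 2 (by norm_num)
  simp only [Fin.prod_univ_two] at h
  norm_num at h
  have hf : (3 : ℕ).factorial = 6 := rfl
  rw [hf]
  omega

end Cfsg.Agent.S0250
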