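import Cfsg.Statements.S0251
import Cfsg.Agent.Lib.Helper12.PermEmbed
import Cfsg.Agent.S0243

set_option autoImplicit false
open Cfsg

namespace Cfsg.Agent.S0251

/-- PSL_2(3) is isomorphic to A_4. -/
theorem result {F : Type*} [Field F] [Fintype F] (hF : Fintype.card F = 3) : Nonempty (Matrix.ProjectiveSpecialLinearGroup (Fin 2) F ≃* alternatingGroup (Fin 4)) := by
  have hinj := Matrix.ProjectiveSpecialLinearGroup.toPermHom_injective (K := F) (ι := Fin 2)
  have hX : Nat.card (Projectivization F (Fin 2 → F)) = 4 := by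
    rw [Projectivization.card_of_finrank_two _ _ (by simp), Nat.card_eq_fintype_card, hF]
  have : Finite (Projectivization F (Fin 2 → F)) := Nat.finite_of_card_ne_zero (by rw [hX]; norm_num)
  obtain ⟨φ, hφ⟩ := Cfsg.Agent.Lib.Helper12.exists_injective_perm_fin hX _ hinj
  apply Cfsg.Agent.Lib.Helper12.mulEquiv_alternating_of_injective φ hφ
  have h := Cfsg.Agent.S0243.result hF 2 le_rfl
  simp only [Fin.prod_univ_two] at h
  norm_num at h
  have hf : (4 : ℕ).factorial = 24 := rfl
  rw [hf]
  omega

end Cfsg.Agent.S0251
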