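import Cfsg.Statements.S0255
import Mathlib
import Cfsg.Agent.Lib.Helper15.S168b
import Cfsg.Agent.S0243
import Cfsg.Agent.S0249

set_option autoImplicit false
open Cfsg

namespace Cfsg.Agent.S0255

/-- PSL_2(7) is isomorphic to PSL_3(2). -/
theorem result {F K : Type*} [Field F] [Fintype F] [Field K] [Fintype K] (hF : Fintype.card F = 7) (hK : Fintype.card K = 2) : Nonempty (Matrix.ProjectiveSpecialLinearGroup (Fin 2) F ≃* Matrix.ProjectiveSpecialLinearGroup (Fin 3) K) := by
  have hfin : Finite (Matrix.ProjectiveSpecialLinearGroup (Fin 2) F) := by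
    unfold Matrix.ProjectiveSpecialLinearGroup; infer_instance
  have hs : IsSimpleGroup (Matrix.ProjectiveSpecialLinearGroup (Fin 2) F) :=
    Matrix.ProjectiveSpecialLinearGroup.rank_two_simple (by rw [Nat.card_eq_fintype_card, hF]; norm_num)
  have hc : Nat.card (Matrix.ProjectiveSpecialLinearGroup (Fin 2) F) = 168 := by
    have h1 := Cfsg.Agent.S0243.result hF 2 le_rfl
    simp only [Fin.prod_univ_two] at h1
    norm_num at h1
    omega
  have hfin' : Finite (Matrix.ProjectiveSpecialLinearGroup (Fin 3) K) := by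
    unfold Matrix.ProjectiveSpecialLinearGroup; infer_instance
  have hs' : IsSimpleGroup (Matrix.ProjectiveSpecialLinearGroup (Fin 3) K) :=
    Cfsg.Agent.S0249.result 3 le_rfl
  have hc' : Nat.card (Matrix.ProjectiveSpecialLinearGroup (Fin 3) K) = 168 := by
    have h1 := Cfsg.Agent.S0243.result hK 3 (by norm_num)
    simp only [Fin.prod_univ_three] at h1
    norm_num at h1
    omega
  exact Cfsg.Agent.Lib.Helper15.S168.iso_of_simple hc hc'

end Cfsg.Agent.S0255
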