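import Cfsg.Statements.S2427
import Mathlib
import Cfsg.Agent.Lib.Helper14.SL23Aut
-- import your own Cfsg.Agent.* helpers here

set_option autoImplicit false
open Cfsg

namespace Cfsg.Agent.S2427

open Cfsg.Agent.Lib.Helper14.SL23
open scoped commutatorElement

set_option maxRecDepth 100000 in
theorem d_norm : ∀ g : S, ∀ q : Q8, ∃ q' : Q8, sfn q' = g * sfn q * g⁻¹ := by decide

set_option maxRecDepth 100000 in
theorem d_comm : ∀ q : Q8, ∃ a b : S, sfn q = a * b * a⁻¹ * b⁻¹ := by decide

set_option maxRecDepth 100000 in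
theorem d_center : ∀ x : S, (∀ y : S, y * x = x * y) ↔ (x = 1 ∨ x = -1) := by decide

set_option maxRecDepth 100000 in
theorem d_out : ∀ x : S, (∀ q : Q8, sfn q ≠ x) →
    ∃ q : Q8, (x * sfn q * x⁻¹ * (sfn q)⁻¹) ^ 2 ≠ 1 := by decide

set_option maxRecDepth 100000 in
theorem d_sq : ∀ x : S, x ^ 2 = 1 → x = 1 ∨ x = -1 := by decide

set_option maxRecDepth 100000 in
theorem d_gen : ∀ p q : Q8, (sfn p) ^ 2 ≠ 1 →
    ∃ g h : S, sfn q = g * sfn p * g⁻¹ * (h * sfn p * h⁻¹) := by decide

set_option maxRecDepth 100000 in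
theorem d_neg : (-1 : S) ≠ 1 := by decide

theorem mem_range_iff (x : S) : x ∈ sHom.range ↔ ∃ q : Q8, sfn q = x := Iff.rfl

instance range_normal : (sHom.range).Normal := by
  constructor
  rintro _ ⟨q, rfl⟩ g
  obtain ⟨q', hq'⟩ := d_norm g q
  exact ⟨q', hq'⟩

theorem card_range : Nat.card sHom.range = 8 := by
  rw [← Nat.card_congr (MonoidHom.ofInjective sHom_injective).toEquiv, Nat.card_eq_fintype_card]
  rfl

theorem cardS : Nat.card S = 24 := by rw [Nat.card_eq_fintype_card]; exact card_S

theorem comm_eq : commutator S = sHom.range := by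
  apply le_antisymm
  · have hidx : (sHom.range).index = 3 := by
      have := (sHom.range).card_mul_index
      rw [card_range, cardS] at this
      omega
    have hcy : IsCyclic (S ⧸ sHom.range) :=
      isCyclic_of_prime_card (p := 3) (hp := ⟨by norm_num⟩) (by rw [← Subgroup.index_eq_card, hidx])
    have hc : ∀ a b : S ⧸ sHom.range, a * b = b * a := fun a b => (IsCyclic.isMulCommutative (α := S ⧸ sHom.range)).is_comm.comm a b
    rw [commutator_def, Subgroup.commutator_le]
    intro a _ b _
    rw [← QuotientGroup.eq_one_iff, commutatorElement_def]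
    simp only [QuotientGroup.mk_mul, QuotientGroup.mk_inv]
    rw [hc (a : S ⧸ sHom.range) b]
    group
  · rintro _ ⟨q, rfl⟩
    obtain ⟨a, b, h⟩ := d_comm q
    have : sHom q = ⁅a, b⁆ := h
    rw [this, commutator_def]
    exact Subgroup.commutator_mem_commutator (Subgroup.mem_top a) (Subgroup.mem_top b)

theorem mem_center (x : S) : x ∈ Subgroup.center S ↔ (x = 1 ∨ x = -1) := by
  rw [Subgroup.mem_center_iff]; exact d_center x

theorem card_center : Nat.card (Subgroup.center S) = 2 := by
  rw [Nat.card_eq_two_iff]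
  refine ⟨⟨1, (mem_center 1).mpr (Or.inl rfl)⟩, ⟨-1, (mem_center _).mpr (Or.inr rfl)⟩, ?_, ?_⟩
  · intro h
    exact d_neg (congrArg Subtype.val h).symm
  · ext ⟨x, hx⟩
    simp only [Set.mem_insert_iff, Set.mem_singleton_iff, Set.mem_univ, iff_true, Subtype.mk.injEq]
    exact (mem_center x).mp hx

theorem range_le_of_mem (N : Subgroup S) [hN : N.Normal] (u : S) (huN : u ∈ N)
    (huQ : u ∈ sHom.range) (hu : u ^ 2 ≠ 1) : sHom.range ≤ N := by
  obtain ⟨p, rfl⟩ := huQ
  rintro _ ⟨q, rfl⟩
  obtain ⟨g, h, e⟩ := d_gen p q hu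
  have : sHom q = g * sHom p * g⁻¹ * (h * sHom p * h⁻¹) := e
  rw [this]
  exact N.mul_mem (hN.conj_mem _ huN g) (hN.conj_mem _ huN h)

theorem normal_cases (N : Subgroup S) (hN : N.Normal) :
    N = ⊥ ∨ N = ⊤ ∨ N = Subgroup.center S ∨ N = sHom.range := by
  by_cases h1 : N ≤ sHom.range
  · by_cases h2 : ∃ u ∈ N, u ^ 2 ≠ 1
    · obtain ⟨u, huN, hu⟩ := h2
      right; right; right
      exact le_antisymm h1 (range_le_of_mem N u huN (h1 huN) hu)
    · push Not at h2
      by_cases h3 : (-1 : S) ∈ N
      · right; right; left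
        ext x
        rw [mem_center]
        constructor
        · intro hx; exact d_sq x (h2 x hx)
        · rintro (rfl | rfl)
          · exact N.one_mem
          · exact h3
      · left
        rw [eq_bot_iff]
        intro x hx
        rcases d_sq x (h2 x hx) with rfl | rfl
        · exact Subgroup.mem_bot.mpr rfl
        · exact absurd hx h3
  · right; left
    obtain ⟨x, hxN, hxQ⟩ := SetLike.not_le_iff_exists.mp h1
    obtain ⟨q, hq⟩ := d_out x (fun q hq => hxQ ⟨q, hq⟩)
    have huN : x * sfn q * x⁻¹ * (sfn q)⁻¹ ∈ N := by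
      have h := hN.conj_mem x⁻¹ (N.inv_mem hxN) (sfn q)
      have e : x * sfn q * x⁻¹ * (sfn q)⁻¹ = x * (sfn q * x⁻¹ * (sfn q)⁻¹) := by group
      rw [e]; exact N.mul_mem hxN h
    have huQ : x * sfn q * x⁻¹ * (sfn q)⁻¹ ∈ sHom.range :=
      (sHom.range).mul_mem (range_normal.conj_mem _ ⟨q, rfl⟩ x) ((sHom.range).inv_mem ⟨q, rfl⟩)
    have hle := range_le_of_mem N _ huN huQ hq
    have hd1 : 8 ∣ Nat.card N := card_range ▸ Subgroup.card_dvd_of_le hle
    have hd2 : Nat.card N ∣ 24 := cardS ▸ Subgroup.card_subgroup_dvd_card N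
    have hne : Nat.card N ≠ 8 := by
      intro h
      apply h1
      exact (Subgroup.eq_of_le_of_card_ge hle (by rw [h, card_range])).ge
    apply Subgroup.eq_top_of_card_eq
    rw [cardS]
    obtain ⟨k, hk⟩ := hd1
    rw [hk] at hd2 hne ⊢
    have hk3 : k ∣ 3 := Nat.dvd_of_mul_dvd_mul_left (by norm_num : 0 < 8) hd2
    rcases (Nat.dvd_prime (by norm_num : Nat.Prime 3)).mp hk3 with rfl | rfl
    · exact absurd rfl hne
    · rfl

/-- The group SL₂ over the field with 3 elements has order 24 and centre of order 2; its commutator subgroup has order 8, is isomorphic to the quaternion group of order 8 and is complemented by every Sylow 3-subgroup (so the group is a semidirect product of a quaternion group of order 8 by a cyclic group of order 3); and its only normal subgroups besides the trivial subgroup and the whole group are the centre and the commutator subgroup. -/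
theorem result :
    Nat.card (Matrix.SpecialLinearGroup (Fin 2) (ZMod 3)) = 24 ∧
    Nat.card (Subgroup.center (Matrix.SpecialLinearGroup (Fin 2) (ZMod 3))) = 2 ∧
    Nat.card (commutator (Matrix.SpecialLinearGroup (Fin 2) (ZMod 3))) = 8 ∧
    Nonempty (commutator (Matrix.SpecialLinearGroup (Fin 2) (ZMod 3)) ≃* QuaternionGroup 2) ∧
    (∀ P : Sylow 3 (Matrix.SpecialLinearGroup (Fin 2) (ZMod 3)),
      Subgroup.IsComplement' (commutator (Matrix.SpecialLinearGroup (Fin 2) (ZMod 3)))
        (P : Subgroup (Matrix.SpecialLinearGroup (Fin 2) (ZMod 3)))) ∧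
    ∀ N : Subgroup (Matrix.SpecialLinearGroup (Fin 2) (ZMod 3)), N.Normal →
      N = ⊥ ∨ N = ⊤ ∨ N = Subgroup.center (Matrix.SpecialLinearGroup (Fin 2) (ZMod 3)) ∨
        N = commutator (Matrix.SpecialLinearGroup (Fin 2) (ZMod 3)) := by
  refine ⟨cardS, card_center, by rw [comm_eq]; exact card_range, ?_, ?_, ?_⟩
  · rw [comm_eq]
    exact ⟨(MonoidHom.ofInjective sHom_injective).symm⟩
  · intro P
    have hP : Nat.card P = 3 := by
      have := P.card_eq_multiplicity
      rw [cardS] at this
      rw [this]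
      have h24 : (24 : ℕ) = 3 ^ 1 * 8 := by norm_num
      have : (24 : ℕ).factorization 3 = 1 := by
        rw [h24, Nat.factorization_mul (by norm_num) (by norm_num)]
        simp [Nat.Prime.factorization_self (by norm_num : Nat.Prime 3),
          Nat.factorization_eq_zero_of_not_dvd (by norm_num : ¬ 3 ∣ 8)]
      rw [this, pow_one]
    apply Subgroup.isComplement'_of_coprime
    · rw [comm_eq, card_range, hP, cardS]
    · rw [comm_eq, card_range, hP]; norm_num
  · intro N hN
    rw [comm_eq]
    exact normal_cases N hN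

end Cfsg.Agent.S2427
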