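import Cfsg.Statements.S0257
import Mathlib
import Cfsg.Agent.S2427
-- import your own Cfsg.Agent.* helpers here

set_option autoImplicit false
open Cfsg

namespace Cfsg.Agent.S0257

open Cfsg.Agent.Lib.Helper14.SL23 Cfsg.Agent.S2427

/-- a ring isomorphism induces an isomorphism of special linear groups -/
noncomputable def slEquiv {A B : Type*} [CommRing A] [CommRing B] (r : A ≃+* B) :
    Matrix.SpecialLinearGroup (Fin 2) A ≃* Matrix.SpecialLinearGroup (Fin 2) B :=
  MonoidHom.toMulEquiv (Matrix.SpecialLinearGroup.map r.toRingHom)
    (Matrix.SpecialLinearGroup.map r.symm.toRingHom)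
    (by
      ext x i j
      simp [Matrix.SpecialLinearGroup.map_apply_coe])
    (by
      ext x i j
      simp [Matrix.SpecialLinearGroup.map_apply_coe])

/-- SL_2(3) has a normal subgroup of index 3 isomorphic to the quaternion group of order 8, and its centre has order 2. -/
theorem result {F : Type*} [Field F] [Fintype F] (hF : Fintype.card F = 3) : (∃ Q : Subgroup (Matrix.SpecialLinearGroup (Fin 2) F), Q.Normal ∧ Q.index = 3 ∧ Nonempty (Q ≃* QuaternionGroup 2)) ∧ Nat.card (Subgroup.center (Matrix.SpecialLinearGroup (Fin 2) F)) = 2 := by
  obtain ⟨e⟩ : Nonempty (S ≃* Matrix.SpecialLinearGroup (Fin 2) F) :=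
    ⟨slEquiv (ZMod.ringEquivOfPrime F (by norm_num) hF)⟩
  constructor
  · refine ⟨sHom.range.map e.toMonoidHom, ?_, ?_, ?_⟩
    · exact Subgroup.Normal.map range_normal _ e.surjective
    · have h1 : (sHom.range.map e.toMonoidHom).index = sHom.range.index :=
        Subgroup.index_map_of_bijective (f := e.toMonoidHom) e.bijective _
      rw [h1]
      have := (sHom.range).card_mul_index
      rw [card_range, cardS] at this
      omega
    · exact ⟨((e.subgroupMap sHom.range).symm).trans (MonoidHom.ofInjective sHom_injective).symm⟩
  · refine Eq.trans ?_ card_center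
    refine Nat.card_congr (Equiv.symm ?_)
    refine (e.toEquiv.subtypeEquiv ?_)
    intro x
    simp only [Subgroup.mem_center_iff]
    constructor
    · intro h y
      obtain ⟨y', rfl⟩ := e.surjective y
      have := congrArg e (h y')
      simpa using this
    · intro h y
      apply e.injective
      have := h (e y)
      simpa using this

end Cfsg.Agent.S0257
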