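import Cfsg.Statements.S0261
import Mathlib
import Cfsg.Agent.Lib.Helper17.Core
import Cfsg.Agent.S0016
import Cfsg.Agent.S0268
-- import your own Cfsg.Agent.* helpers here

set_option autoImplicit false
open Cfsg

namespace Cfsg.Agent.S0261

open Cfsg.Agent.Lib.Helper17

/-- `SL₂(q)`, `q` odd, contains a non-abelian 2-subgroup -/
theorem exists_nonabelian {F : Type*} [Field F] [Fintype F] (hF : Odd (Fintype.card F)) :
    ∃ (E : Subgroup (Matrix.SpecialLinearGroup (Fin 2) F)) (x y : Matrix.SpecialLinearGroup (Fin 2) F),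
      IsPGroup 2 E ∧ x ∈ E ∧ y ∈ E ∧ x * y ≠ y * x := by
  have : Fact (Nat.Prime 2) := ⟨Nat.prime_two⟩
  have h2 : (2 : F) ≠ 0 := by
    intro h
    have hchar : ringChar F = 2 := by
      have : ringChar F ∣ 2 := (ringChar.spec F 2).mp (by exact_mod_cast h)
      rcases (Nat.dvd_prime Nat.prime_two).mp this with h1 | h1
      · exact absurd h1 (CharP.ringChar_ne_one)
      · exact h1
    have := FiniteField.even_card_of_char_two hchar
    exact (Nat.not_even_iff_odd.mpr hF) (Nat.even_iff.mpr this)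
  obtain ⟨p, hp⟩ := CharP.exists F
  have hpp : p.Prime := (CharP.char_is_prime_or_zero F p).resolve_right (by
    intro h0
    subst h0
    have := CharP.charP_to_charZero F
    exact not_finite F |>.elim) 
  have : NeZero p := ⟨hpp.ne_zero⟩
  obtain ⟨a', b', hab'⟩ := CharP.sq_add_sq F p (-1)
  obtain ⟨a, ha⟩ : ∃ a : F, a = a' := ⟨_, rfl⟩
  obtain ⟨b, hb⟩ : ∃ b : F, b = b' := ⟨_, rfl⟩
  have hab : a ^ 2 + b ^ 2 = -1 := by rw [ha, hb, hab']; simp
  let I : Matrix.SpecialLinearGroup (Fin 2) F := ⟨!![0, -1; 1, 0], by simp [Matrix.det_fin_two]⟩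
  let J : Matrix.SpecialLinearGroup (Fin 2) F := ⟨!![a, b; b, -a], by
    rw [Matrix.det_fin_two_of]; linear_combination -hab⟩
  have hIc : (I : Matrix (Fin 2) (Fin 2) F) = !![0, -1; 1, 0] := rfl
  have hJc : (J : Matrix (Fin 2) (Fin 2) F) = !![a, b; b, -a] := rfl
  have hIJI : I * J * I = J := by
    apply Matrix.SpecialLinearGroup.ext
    intro i j
    rw [Matrix.SpecialLinearGroup.coe_mul, Matrix.SpecialLinearGroup.coe_mul, hIc, hJc]
    fin_cases i <;> fin_cases j <;> simp [Matrix.mul_apply, Fin.sum_univ_two]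
  have hI2 : ((I * I : Matrix.SpecialLinearGroup (Fin 2) F) : Matrix (Fin 2) (Fin 2) F) = -1 := by
    rw [Matrix.SpecialLinearGroup.coe_mul, hIc]
    ext i j
    fin_cases i <;> fin_cases j <;> simp [Matrix.mul_apply, Fin.sum_univ_two]
  have hJ2 : ((J * J : Matrix.SpecialLinearGroup (Fin 2) F) : Matrix (Fin 2) (Fin 2) F) = -1 := by
    rw [Matrix.SpecialLinearGroup.coe_mul, hJc]
    ext i j
    fin_cases i <;> fin_cases j <;> simp [Matrix.mul_apply, Fin.sum_univ_two]
    · linear_combination hab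
    · ring
    · ring
    · linear_combination hab
  have h4 : ∀ X : Matrix.SpecialLinearGroup (Fin 2) F, ((X * X : Matrix.SpecialLinearGroup (Fin 2) F) : Matrix (Fin 2) (Fin 2) F) = -1 →
      X ^ 4 = 1 := by
    intro X hX
    have : X ^ 4 = (X * X) * (X * X) := by
      rw [show (4 : ℕ) = 2 + 2 from rfl, pow_add, pow_two]
    rw [this]
    apply Matrix.SpecialLinearGroup.ext
    intro i j
    rw [Matrix.SpecialLinearGroup.coe_mul]
    rw [hX]
    simp
  have hI4 : I ^ 4 = 1 := h4 I hI2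
  have hJ4 : J ^ 4 = 1 := h4 J hJ2
  have hne : I * J ≠ J * I := by
    intro h
    have hm : (I : Matrix (Fin 2) (Fin 2) F) * J = (J : Matrix (Fin 2) (Fin 2) F) * I := by
      rw [← Matrix.SpecialLinearGroup.coe_mul, ← Matrix.SpecialLinearGroup.coe_mul, h]
    rw [hIc, hJc] at hm
    have h00 := congrFun (congrFun hm 0) 0
    have h01 := congrFun (congrFun hm 0) 1
    simp [Matrix.mul_apply, Fin.sum_univ_two] at h00 h01
    have hb0 : b = 0 := by
      have : (2 : F) * b = 0 := by linear_combination -h00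
      exact (mul_eq_zero.mp this).resolve_left h2
    have ha0 : a = 0 := by
      have : (2 : F) * a = 0 := by linear_combination h01
      exact (mul_eq_zero.mp this).resolve_left h2
    rw [ha0, hb0] at hab
    norm_num at hab
  have hpg : ∀ x : Matrix.SpecialLinearGroup (Fin 2) F, x ^ 4 = 1 → IsPGroup 2 (Subgroup.zpowers x) := by
    intro x hx
    have h1 : orderOf x ∣ 2 ^ 2 := orderOf_dvd_of_pow_eq_one (by norm_num; exact hx)
    obtain ⟨k, -, hk⟩ := (Nat.dvd_prime_pow Nat.prime_two).mp h1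
    exact IsPGroup.of_card (n := k) (by rw [Nat.card_zpowers, hk])
  have hJn : J ∈ Subgroup.normalizer (Subgroup.zpowers I : Set (Matrix.SpecialLinearGroup (Fin 2) F)) := by
    rw [mem_normalizer_iff_map_conj, MonoidHom.map_zpowers]
    have : (MulAut.conj J).toMonoidHom I = I⁻¹ := by
      change J * I * J⁻¹ = I⁻¹
      calc J * I * J⁻¹ = I⁻¹ * (I * J * I) * J⁻¹ := by group
        _ = I⁻¹ := by rw [hIJI]; group
    rw [this, Subgroup.zpowers_inv]
  refine ⟨Subgroup.zpowers J ⊔ Subgroup.zpowers I, I, J, ?_, ?_, ?_, hne⟩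
  · exact IsPGroup.to_sup_of_normal_right' (hpg J hJ4) (hpg I hI4) (by rwa [Subgroup.zpowers_le])
  · exact (le_sup_right : Subgroup.zpowers I ≤ _) (Subgroup.mem_zpowers I)
  · exact (le_sup_left : Subgroup.zpowers J ≤ _) (Subgroup.mem_zpowers J)

/-- For q odd, the Sylow 2-subgroups of SL_2(q) are generalised quaternion. -/
theorem result {F : Type*} [Field F] [Fintype F] (hF : Odd (Fintype.card F)) (P : Sylow 2 (Matrix.SpecialLinearGroup (Fin 2) F)) : ∃ k : ℕ, 1 ≤ k ∧ Nonempty ((P : Subgroup (Matrix.SpecialLinearGroup (Fin 2) F)) ≃* QuaternionGroup (2 ^ k)) := by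
  have : Fact (Nat.Prime 2) := ⟨Nat.prime_two⟩
  have hnc : ¬ IsCyclic (P : Subgroup (Matrix.SpecialLinearGroup (Fin 2) F)) := by
    intro hcyc
    obtain ⟨E, x, y, hE, hx, hy, hxy⟩ := exists_nonabelian hF
    obtain ⟨P', hP'⟩ := hE.exists_le_sylow
    have hcyc' : IsCyclic (P' : Subgroup (Matrix.SpecialLinearGroup (Fin 2) F)) :=
      (Sylow.equiv P P').isCyclic.mp hcyc
    have := hcyc'.isMulCommutative.is_comm.comm ⟨x, hP' hx⟩ ⟨y, hP' hy⟩
    exact hxy (congrArg Subtype.val this)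
  have hgen : ∀ D : Subgroup P, Nat.card D = 2 → ∃ d : P, d ≠ 1 ∧ d * d = 1 ∧ D = Subgroup.zpowers d := by
    intro D hD
    have hDne : D ≠ ⊥ := by
      intro h
      rw [h, Subgroup.card_bot] at hD
      omega
    obtain ⟨⟨d, hdD⟩, hd1'⟩ := Subgroup.ne_bot_iff_exists_ne_one.mp hDne
    have hd1 : d ≠ 1 := fun h => hd1' (Subtype.ext h)
    have hdp : d ^ 2 = 1 := by
      have := pow_card_eq_one' (G := D) (x := ⟨d, hdD⟩)
      rw [hD] at this
      exact congrArg Subtype.val this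
    refine ⟨d, hd1, by rw [← pow_two, hdp], ?_⟩
    symm
    apply Subgroup.eq_of_le_of_card_ge (by rwa [Subgroup.zpowers_le])
    rw [Nat.card_zpowers, orderOf_eq_prime hdp hd1]
    exact hD.le
  have huniq : ∀ H K : Subgroup P, Nat.card H = 2 → Nat.card K = 2 → H = K := by
    intro H K hH hK
    obtain ⟨d, hd1, hd2, rfl⟩ := hgen H hH
    obtain ⟨e, he1, he2, rfl⟩ := hgen K hK
    have h1 := Cfsg.Agent.S0268.result hF (d : Matrix.SpecialLinearGroup (Fin 2) F)
      (fun h => hd1 (Subtype.ext h)) (congrArg Subtype.val hd2)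
    have h2 := Cfsg.Agent.S0268.result hF (e : Matrix.SpecialLinearGroup (Fin 2) F)
      (fun h => he1 (Subtype.ext h)) (congrArg Subtype.val he2)
    have : d = e := Subtype.ext (Subtype.ext (h1.trans h2.symm))
    rw [this]
  rcases Cfsg.Agent.S0016.result 2 P.2 huniq with h | ⟨-, n, ⟨e⟩⟩
  · exact absurd h hnc
  · refine ⟨n, ?_, ⟨e⟩⟩
    by_contra hn
    have hn0 : n = 0 := by omega
    subst hn0
    apply hnc
    rw [pow_zero] at e
    exact e.isCyclic.mpr QuaternionGroup.quaternionGroup_one_isCyclic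

end Cfsg.Agent.S0261
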