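import Cfsg.Statements.S0262
import Cfsg.Agent.Lib.Helper12.SL2Sylow
import Cfsg.Agent.Lib.Helper14.Unipotent

set_option autoImplicit false
open Cfsg

namespace Cfsg.Agent.S0262

open Matrix Matrix.SpecialLinearGroup Cfsg.Agent.Lib.Helper12
open scoped MatrixGroups

theorem eigen_of_commute {K : Type*} [Field K] (z g : Matrix (Fin 2) (Fin 2) K) (μ : K)
    (v : Fin 2 → K) (hv : v ≠ 0) (hz : z *ᵥ v = μ • v)
    (hns : ¬ (z 0 1 = 0 ∧ z 1 0 = 0 ∧ z 0 0 = z 1 1))
    (hcomm : g * z = z * g) : ∃ c : K, g *ᵥ v = c • v := by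
  set u := g *ᵥ v with hu
  have hzu : z *ᵥ u = μ • u := by
    rw [hu, mulVec_mulVec, ← hcomm, ← mulVec_mulVec, hz, mulVec_smul]
  have a0 := congrFun hz 0
  have a1 := congrFun hz 1
  have b0 := congrFun hzu 0
  have b1 := congrFun hzu 1
  simp only [mulVec, dotProduct, Fin.sum_univ_two, Pi.smul_apply, smul_eq_mul] at a0 a1 b0 b1
  by_cases hD : u 0 * v 1 - u 1 * v 0 = 0
  · by_cases hv0 : v 0 = 0
    · have hv1 : v 1 ≠ 0 := by
        intro h
        apply hv
        ext i
        fin_cases i <;> simp [hv0, h]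
      refine ⟨u 1 / v 1, ?_⟩
      ext i
      fin_cases i
      · simp only [Fin.zero_eta, Pi.smul_apply, smul_eq_mul, hv0, mul_zero]
        rw [hv0, mul_zero, sub_zero] at hD
        exact (mul_eq_zero.mp hD).resolve_right hv1
      · simp only [Fin.mk_one, Pi.smul_apply, smul_eq_mul]
        field_simp
    · refine ⟨u 0 / v 0, ?_⟩
      ext i
      fin_cases i
      · simp only [Fin.zero_eta, Pi.smul_apply, smul_eq_mul]
        field_simp
      · simp only [Fin.mk_one, Pi.smul_apply, smul_eq_mul]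
        field_simp
        linear_combination -hD
  · exfalso
    apply hns
    have h00 : (z 0 0 - μ) * (u 0 * v 1 - u 1 * v 0) = 0 := by
      linear_combination v 1 * b0 - u 1 * a0
    have h01 : z 0 1 * (u 0 * v 1 - u 1 * v 0) = 0 := by
      linear_combination u 0 * a0 - v 0 * b0
    have h10 : z 1 0 * (u 0 * v 1 - u 1 * v 0) = 0 := by
      linear_combination v 1 * b1 - u 1 * a1
    have h11 : (z 1 1 - μ) * (u 0 * v 1 - u 1 * v 0) = 0 := by
      linear_combination u 0 * a1 - v 0 * b1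
    refine ⟨(mul_eq_zero.mp h01).resolve_right hD, (mul_eq_zero.mp h10).resolve_right hD, ?_⟩
    have e0 := sub_eq_zero.mp ((mul_eq_zero.mp h00).resolve_right hD)
    have e1 := sub_eq_zero.mp ((mul_eq_zero.mp h11).resolve_right hD)
    rw [e0, e1]

theorem eq_one_of_orderOf {G : Type*} [Group G] {r n : ℕ} (hr : r.Prime) (hG : IsPGroup r G)
    (g : G) (hn : g ^ n = 1) (hcop : ¬ r ∣ n) : g = 1 := by
  obtain ⟨k, hk⟩ := hG g
  have h1 : orderOf g ∣ r ^ k := orderOf_dvd_of_pow_eq_one hk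
  have h2 : orderOf g ∣ n := orderOf_dvd_of_pow_eq_one hn
  have hc : Nat.Coprime (r ^ k) n := Nat.Coprime.pow_left k ((Nat.Prime.coprime_iff_not_dvd hr).mpr hcop)
  have h3 : orderOf g ∣ 1 := by
    rw [← hc]; exact Nat.dvd_gcd h1 h2
  exact orderOf_eq_one_iff.mp (Nat.dvd_one.mp h3)


/-- For an odd prime r different from the characteristic, the Sylow r-subgroups of SL_2(q) are cyclic. -/
theorem result {F : Type*} [Field F] [Fintype F] (p : ℕ) [Fact p.Prime] [CharP F p] (r : ℕ) [Fact r.Prime] (hr : r ≠ 2) (hrp : r ≠ p) (R : Sylow r (Matrix.SpecialLinearGroup (Fin 2) F)) : IsCyclic (R : Subgroup (Matrix.SpecialLinearGroup (Fin 2) F)) := by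
  classical
  have hr' : r.Prime := Fact.out
  have hp' : p.Prime := Fact.out
  by_cases hnt : Nontrivial (R : Subgroup (Matrix.SpecialLinearGroup (Fin 2) F))
  swap
  · have : Subsingleton (R : Subgroup (Matrix.SpecialLinearGroup (Fin 2) F)) :=
      not_nontrivial_iff_subsingleton.mp hnt
    exact isCyclic_of_subsingleton
  have hRp : IsPGroup r (R : Subgroup (Matrix.SpecialLinearGroup (Fin 2) F)) := R.2
  have hcn := hRp.center_nontrivial
  obtain ⟨⟨z, hzc⟩, hz1⟩ := exists_ne (1 : Subgroup.center (R : Subgroup (Matrix.SpecialLinearGroup (Fin 2) F)))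
  have hz1' : z ≠ 1 := fun h => hz1 (Subtype.ext h)
  let K := AlgebraicClosure F
  let φ : SL(2, F) →* SL(2, K) := SpecialLinearGroup.map (algebraMap F K)
  have hφ : ∀ (g : SL(2, F)) (i j : Fin 2), (φ g) i j = algebraMap F K (g i j) := fun g i j => rfl
  have hinjK : Function.Injective (algebraMap F K) := (algebraMap F K).injective
  -- z is not scalar
  have hns : ¬ ((φ z.1) 0 1 = 0 ∧ (φ z.1) 1 0 = 0 ∧ (φ z.1) 0 0 = (φ z.1) 1 1) := by
    rintro ⟨h01, h10, h00⟩
    rw [hφ, map_eq_zero] at h01 h10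
    rw [hφ, hφ] at h00
    have h00' := hinjK h00
    have hd := sl2_det z.1
    rw [h01, zero_mul, sub_zero] at hd
    have hzz : z ^ 2 = 1 := by
      apply Subtype.ext
      rw [sq]
      show z.1 * z.1 = 1
      apply sl2_ext <;> simp only [sl2_mul_00, sl2_mul_01, sl2_mul_10, sl2_mul_11, h01, h10] <;> simp
      · linear_combination hd + (z.1 0 0) * h00'
      · linear_combination hd - (z.1 1 1) * h00'
    exact hz1' (eq_one_of_orderOf hr' hRp z hzz (fun h => hr ((Nat.prime_dvd_prime_iff_eq hr' Nat.prime_two).mp h)))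
  obtain ⟨μ, hμ⟩ := Module.End.exists_eigenvalue (Matrix.toLin' ((φ z.1 : SL(2, K)) : Matrix (Fin 2) (Fin 2) K))
  obtain ⟨v, hv⟩ := hμ.exists_hasEigenvector
  have hzv : ((φ z.1 : SL(2, K)) : Matrix (Fin 2) (Fin 2) K) *ᵥ v = μ • v := by
    have := hv.apply_eq_smul
    rwa [Matrix.toLin'_apply] at this
  have hv0 : v ≠ 0 := hv.2
  have hex : ∀ g : (R : Subgroup (Matrix.SpecialLinearGroup (Fin 2) F)),
      ∃ c : K, ((φ g.1 : SL(2, K)) : Matrix (Fin 2) (Fin 2) K) *ᵥ v = c • v := by
    intro g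
    apply eigen_of_commute _ _ μ v hv0 hzv hns
    have h1 := Subgroup.mem_center_iff.mp hzc g
    have h2 : g.1 * z.1 = z.1 * g.1 := congrArg Subtype.val h1
    have h3 := congrArg (fun x : SL(2, F) => ((φ x : SL(2, K)) : Matrix (Fin 2) (Fin 2) K)) h2
    simpa using h3
  choose χ hχ using hex
  have hsi : Function.Injective (fun c : K => c • v) := smul_left_injective K hv0
  let f : (R : Subgroup (Matrix.SpecialLinearGroup (Fin 2) F)) →* K :=
    { toFun := χ
      map_one' := by
        apply hsi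
        show χ 1 • v = (1 : K) • v
        rw [← hχ 1]
        simp
      map_mul' := by
        intro a b
        apply hsi
        show χ (a * b) • v = (χ a * χ b) • v
        rw [← hχ (a * b)]
        have : ((φ (a * b).1 : SL(2, K)) : Matrix (Fin 2) (Fin 2) K) =
            ((φ a.1 : SL(2, K)) : Matrix (Fin 2) (Fin 2) K) * ((φ b.1 : SL(2, K)) : Matrix (Fin 2) (Fin 2) K) := by
          simp
        rw [this, ← mulVec_mulVec, hχ b, mulVec_smul, hχ a, smul_smul, mul_comm] }
  apply isCyclic_of_injective_ringHom f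
  rw [injective_iff_map_eq_one]
  intro g hg
  have hg1 : χ g = 1 := hg
  have hgv := hχ g
  rw [hg1, one_smul] at hgv
  have hdet0 : (((φ g.1 : SL(2, K)) : Matrix (Fin 2) (Fin 2) K) - 1).det = 0 := by
    apply Matrix.exists_mulVec_eq_zero_iff.mp
    exact ⟨v, hv0, by rw [sub_mulVec, hgv, one_mulVec, sub_self]⟩
  rw [Matrix.det_fin_two] at hdet0
  simp only [Matrix.sub_apply, Matrix.one_apply_eq, Matrix.one_apply_ne (zero_ne_one : (0 : Fin 2) ≠ 1),
    Matrix.one_apply_ne (one_ne_zero : (1 : Fin 2) ≠ 0), sub_zero] at hdet0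
  have hdetF : (g.1 0 0 - 1) * (g.1 1 1 - 1) - g.1 0 1 * g.1 1 0 = 0 := by
    apply hinjK
    simp only [map_sub, map_mul, map_one, map_zero]
    exact hdet0
  have hd := sl2_det g.1
  have htr : g.1 0 0 + g.1 1 1 = 2 := by linear_combination hd - hdetF
  have hsq : ((g.1 : Matrix (Fin 2) (Fin 2) F) - 1) ^ 2 = 0 := by
    rw [sq]
    ext i j
    fin_cases i <;> fin_cases j <;>
      simp [Matrix.mul_apply, Fin.sum_univ_two]
    · linear_combination (g.1 0 0) * htr - hd
    · linear_combination (g.1 0 1) * htr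
    · linear_combination (g.1 1 0) * htr
    · linear_combination (g.1 1 1) * htr - hd
  have hpow : ((g.1 : Matrix (Fin 2) (Fin 2) F)) ^ p = 1 := by
    have h1 := Cfsg.Agent.Lib.Helper14.sub_one_pow_char_pow p (g.1 : Matrix (Fin 2) (Fin 2) F) 1
    rw [pow_one, pow_eq_zero_of_le hp'.two_le hsq] at h1
    exact (sub_eq_zero.mp h1.symm)
  have hgp : g ^ p = 1 := by
    apply Subtype.ext
    apply Subtype.ext
    simpa using hpow
  exact eq_one_of_orderOf hr' hRp g hgp (fun h => hrp ((Nat.prime_dvd_prime_iff_eq hr' hp').mp h))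

end Cfsg.Agent.S0262
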