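import Cfsg.Statements.S0264
import Cfsg.Agent.Lib.Helper12.SLn

set_option autoImplicit false
open Cfsg

namespace Cfsg.Agent.S0264

open Matrix Matrix.SpecialLinearGroup
open scoped commutatorElement

theorem comm_eq_of {G : Type*} [Group G] {D T X : G} (h : D * T = X * T * D) : ⁅D, T⁆ = X := by
  rw [commutatorElement_def, h]; group

theorem transv2_mem {F : Type*} [Field F] {a : F} (ha0 : a ≠ 0) (ha1 : a ≠ 1) (i j : Fin 2)
    (hij : i ≠ j) (c : F) :
    toGL (SpecialLinearGroup.transvection hij c) ∈ commutator (GL (Fin 2) F) := by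
  have hsub : a - 1 ≠ 0 := sub_ne_zero.mpr ha1
  have key : ∀ (D : GL (Fin 2) F),
      D * toGL (SpecialLinearGroup.transvection hij (c / (a - 1))) =
        toGL (SpecialLinearGroup.transvection hij c) *
          toGL (SpecialLinearGroup.transvection hij (c / (a - 1))) * D →
      toGL (SpecialLinearGroup.transvection hij c) ∈ commutator (GL (Fin 2) F) := by
    intro D hD
    rw [← comm_eq_of hD]
    exact Subgroup.commutator_mem_commutator (Subgroup.mem_top _) (Subgroup.mem_top _)
  fin_cases i
  · obtain rfl : j = 1 := by fin_cases j <;> tauto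
    apply key (GeneralLinearGroup.mkOfDetNeZero !![a, 0; 0, 1] (by simp [Matrix.det_fin_two, ha0]))
    ext k l
    fin_cases k <;> fin_cases l <;>
      simp [GeneralLinearGroup.mkOfDetNeZero, transvection_coe, Matrix.mul_apply, Fin.sum_univ_two,
        Matrix.single_apply] <;> field_simp <;> ring
  · obtain rfl : j = 0 := by fin_cases j <;> tauto
    apply key (GeneralLinearGroup.mkOfDetNeZero !![1, 0; 0, a] (by simp [Matrix.det_fin_two, ha0]))
    ext k l
    fin_cases k <;> fin_cases l <;>
      simp [GeneralLinearGroup.mkOfDetNeZero, transvection_coe, Matrix.mul_apply, Fin.sum_univ_two,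
        Matrix.single_apply] <;> field_simp <;> ring


/-- GL_n(F)' = SL_n(F) (as the kernel of det), for every field F and every n, except n = 2 over the field of two elements. -/
theorem result {F : Type*} [Field F] (n : ℕ) (h : n = 2 → ∃ a : F, a ≠ 0 ∧ a ≠ 1) : commutator (Matrix.GeneralLinearGroup (Fin n) F) = (Matrix.GeneralLinearGroup.det : Matrix.GeneralLinearGroup (Fin n) F →* Fˣ).ker := by
  apply le_antisymm (Abelianization.commutator_subset_ker _)
  intro g hg
  have hdet : (g : Matrix (Fin n) (Fin n) F).det = 1 := by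
    have := congrArg Units.val (MonoidHom.mem_ker.mp hg)
    simpa using this
  have hgA : g = toGL (⟨g, hdet⟩ : SpecialLinearGroup (Fin n) F) := by
    ext i j; rfl
  rw [hgA]
  suffices hall : ∀ A : SpecialLinearGroup (Fin n) F, toGL A ∈ commutator (GL (Fin n) F) from hall _
  intro A
  rcases Nat.lt_or_ge n 2 with hn | hn
  · have : Subsingleton (Fin n) := by
      rw [Fin.subsingleton_iff_le_one]; omega
    rw [Subsingleton.elim A 1, map_one]
    exact one_mem _
  have : Nontrivial (Fin n) := Fin.nontrivial_iff_two_le.mpr hn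
  refine Cfsg.Agent.Lib.Helper12.transvection_induction
    (fun A => toGL A ∈ commutator (GL (Fin n) F)) ?_ ?_ A
  · intro i j hij c
    rcases Nat.lt_or_ge n 3 with hn3 | hn3
    · obtain rfl : n = 2 := by omega
      obtain ⟨a, ha0, ha1⟩ := h rfl
      exact transv2_mem ha0 ha1 i j hij c
    · have h1 : SpecialLinearGroup.transvection hij c ∈ commutator (SpecialLinearGroup (Fin n) F) := by
        rw [Cfsg.Agent.Lib.Helper12.sl_commutator_eq_top n hn3]; exact Subgroup.mem_top _
      have h2 : (commutator (SpecialLinearGroup (Fin n) F)).map toGL ≤ commutator (GL (Fin n) F) := by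
        rw [commutator_def, Subgroup.map_commutator]
        exact Subgroup.commutator_mono le_top le_top
      exact h2 (Subgroup.mem_map_of_mem _ h1)
  · intro A B hA hB
    rw [map_mul]
    exact mul_mem hA hB

end Cfsg.Agent.S0264
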