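import Cfsg.Statements.S0266
import Mathlib
import Cfsg.Agent.Lib.Helper29.ProjLine

set_option autoImplicit false
open scoped MatrixGroups
open Cfsg

namespace Cfsg.Agent.S0266

open Cfsg.Agent.Lib.Helper29.ProjLine

/-- PGL_2(F) is sharply 3-transitive on the projective line: it is 3-transitive and the stabiliser of three distinct points is trivial. -/
theorem result {F : Type*} [Field F] : MulAction.IsMultiplyPretransitive (Matrix.ProjGenLinGroup (Fin 2) F) (Projectivization F (Fin 2 → F)) 3 ∧ ∀ (g : Matrix.ProjGenLinGroup (Fin 2) F) (a b c : Projectivization F (Fin 2 → F)), a ≠ b → a ≠ c → b ≠ c → g • a = a → g • b = b → g • c = c → g = 1 := by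
  have hmk : ∀ (g : Matrix.GeneralLinearGroup (Fin 2) F) (x : Projectivization F (Fin 2 → F)),
      (Matrix.ProjGenLinGroup.mk g) • x = g • x := fun _ _ => rfl
  constructor
  · refine ⟨fun x y => ?_⟩
    obtain ⟨g, g0, g1, g2⟩ := exists_GL (x.injective.ne (show (0 : Fin 3) ≠ 1 by decide))
      (x.injective.ne (show (0 : Fin 3) ≠ 2 by decide))
      (x.injective.ne (show (1 : Fin 3) ≠ 2 by decide))
    obtain ⟨h, h0, h1, h2⟩ := exists_GL (y.injective.ne (show (0 : Fin 3) ≠ 1 by decide))
      (y.injective.ne (show (0 : Fin 3) ≠ 2 by decide))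
      (y.injective.ne (show (1 : Fin 3) ≠ 2 by decide))
    refine ⟨Matrix.ProjGenLinGroup.mk (h * g⁻¹), ?_⟩
    ext i
    show Matrix.ProjGenLinGroup.mk (h * g⁻¹) • x i = y i
    rw [hmk, mul_smul]
    fin_cases i
    · show h • g⁻¹ • x 0 = y 0
      rw [← g0, inv_smul_smul, h0]
    · show h • g⁻¹ • x 1 = y 1
      rw [← g1, inv_smul_smul, h1]
    · show h • g⁻¹ • x 2 = y 2
      rw [← g2, inv_smul_smul, h2]
  · intro g a b c hab hac hbc ga gb gc
    obtain ⟨h, h0, h1, h2⟩ := exists_GL hab hac hbc
    induction g using Matrix.ProjGenLinGroup.induction_on with | mk M =>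
    rw [hmk] at ga gb gc
    obtain ⟨M', hM'⟩ : ∃ M', M' = h⁻¹ * M * h := ⟨_, rfl⟩
    have f0 : M' • (P0 : Projectivization F (Fin 2 → F)) = P0 := by
      rw [hM', mul_smul, mul_smul, h0, ga, ← h0, inv_smul_smul]
    have f1 : M' • (P1 : Projectivization F (Fin 2 → F)) = P1 := by
      rw [hM', mul_smul, mul_smul, h1, gb, ← h1, inv_smul_smul]
    have f2 : M' • (Pn 1 : Projectivization F (Fin 2 → F)) = Pn 1 := by
      rw [hM', mul_smul, mul_smul, h2, gc, ← h2, inv_smul_smul]
    have e10 := fix_P0 f0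
    have e01 := fix_P1 f1
    have e2 := map_Pn f2
    rw [e10, e01] at e2
    have e11 : M' 1 1 = M' 0 0 := by linear_combination -e2
    have hdet : (M' : Matrix (Fin 2) (Fin 2) F).det ≠ 0 := Matrix.GeneralLinearGroup.det_ne_zero M'
    rw [Matrix.det_fin_two] at hdet
    have hne : M' 0 0 ≠ 0 := by
      intro h00
      apply hdet
      show M' 0 0 * M' 1 1 - M' 0 1 * M' 1 0 = 0
      rw [h00, e01]; ring
    have hsc : M' = Matrix.GeneralLinearGroup.scalar (Fin 2) (Units.mk0 _ hne) := by
      apply Units.ext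
      ext i j
      fin_cases i <;> fin_cases j
      · simp
      · simpa using e01
      · simpa using e10
      · simpa using e11
    have h1' : Matrix.ProjGenLinGroup.mk M' = 1 := by
      rw [hsc]; exact Matrix.ProjGenLinGroup.mk_scalar _
    have hM : M = h * M' * h⁻¹ := by rw [hM']; group
    rw [hM, map_mul, map_mul, h1', mul_one, ← map_mul, mul_inv_cancel, map_one]

end Cfsg.Agent.S0266
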