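import Cfsg.Statements.S0267
import Mathlib
import Cfsg.Agent.Lib.Helper29.ProjLine

set_option autoImplicit false
open Cfsg

namespace Cfsg.Agent.S0267

open Cfsg.Agent.Lib.Helper29.ProjLine

/-- SL_2(q) is 3-transitive on the q+1 points of the projective line if and only if q is even. -/
theorem result {F : Type*} [Field F] [Fintype F] : MulAction.IsMultiplyPretransitive (Matrix.SpecialLinearGroup (Fin 2) F) (Projectivization F (Fin 2 → F)) 3 ↔ ringChar F = 2 := by
  constructor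
  · intro h
    by_contra h2
    obtain ⟨n, hn⟩ := FiniteField.exists_nonsquare h2
    have hn0 : n ≠ 0 := by rintro rfl; exact hn (IsSquare.zero)
    let x : Fin 3 ↪ Projectivization F (Fin 2 → F) :=
      ⟨![P0, P1, Pn 1], inj3 P0_ne_P1 (P0_ne_Pn one_ne_zero) (P1_ne_Pn 1)⟩
    let y : Fin 3 ↪ Projectivization F (Fin 2 → F) :=
      ⟨![P0, P1, Pn n], inj3 P0_ne_P1 (P0_ne_Pn hn0) (P1_ne_Pn n)⟩
    obtain ⟨g, hg⟩ := h.exists_smul_eq x y
    have f0 : g • (P0 : Projectivization F (Fin 2 → F)) = P0 := DFunLike.congr_fun hg 0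
    have f1 : g • (P1 : Projectivization F (Fin 2 → F)) = P1 := DFunLike.congr_fun hg 1
    have f2 : g • (Pn 1 : Projectivization F (Fin 2 → F)) = Pn n := DFunLike.congr_fun hg 2
    rw [SL_smul_eq] at f0 f1 f2
    have e10 : g 1 0 = 0 := fix_P0 f0
    have e01 : g 0 1 = 0 := fix_P1 f1
    have e2 : (g 0 0 + g 0 1 * 1) * n - (g 1 0 + g 1 1 * 1) = 0 := map_Pn f2
    have hdet : g 0 0 * g 1 1 - g 0 1 * g 1 0 = 1 := by
      have := g.det_coe
      rwa [Matrix.det_fin_two] at this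
    rw [e10, e01] at e2 hdet
    exact hn ⟨g 1 1, by linear_combination (-n) * hdet + g 1 1 * e2⟩
  · intro h2
    have hsq := FiniteField.isSquare_of_char_two h2
    refine ⟨fun x y => ?_⟩
    obtain ⟨g, g0, g1, g2⟩ := exists_SL hsq (x.injective.ne (show (0 : Fin 3) ≠ 1 by decide))
      (x.injective.ne (show (0 : Fin 3) ≠ 2 by decide))
      (x.injective.ne (show (1 : Fin 3) ≠ 2 by decide))
    obtain ⟨h, h0, h1, h2⟩ := exists_SL hsq (y.injective.ne (show (0 : Fin 3) ≠ 1 by decide))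
      (y.injective.ne (show (0 : Fin 3) ≠ 2 by decide))
      (y.injective.ne (show (1 : Fin 3) ≠ 2 by decide))
    refine ⟨h * g⁻¹, ?_⟩
    ext i
    show (h * g⁻¹) • x i = y i
    rw [mul_smul]
    fin_cases i
    · show h • g⁻¹ • x 0 = y 0
      rw [← g0, inv_smul_smul, h0]
    · show h • g⁻¹ • x 1 = y 1
      rw [← g1, inv_smul_smul, h1]
    · show h • g⁻¹ • x 2 = y 2
      rw [← g2, inv_smul_smul, h2]

end Cfsg.Agent.S0267
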