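import Cfsg.Statements.S0269
import Cfsg.Agent.Lib.Helper12.SpPerfect

set_option autoImplicit false
open Cfsg

namespace Cfsg.Agent.S0269

theorem field_cond {F : Type*} [Field F] [Fintype F] (hF : 4 ≤ Fintype.card F) :
    ∃ a : F, a ≠ 0 ∧ a ^ 2 ≠ 1 := by
  obtain ⟨x, hx⟩ : IsCyclic Fˣ := by infer_instance
  refine ⟨x, Units.ne_zero x, fun h ↦ ?_⟩
  have h1 : orderOf x = Nat.card Fˣ := orderOf_eq_card_of_forall_mem_zpowers hx
  have h2 : orderOf x ≤ 2 := orderOf_le_of_pow_eq_one zero_lt_two (Units.ext <| by simpa using h)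
  have h3 : Nat.card F = Nat.card Fˣ + 1 := Nat.card_eq_card_units_add_one F
  rw [Nat.card_eq_fintype_card] at h3
  omega


/-- Sp_{2m}(q) is perfect except for Sp_2(2), Sp_2(3) and Sp_4(2): stated as m at least 3, or m = 2 and q at least 3, or q at least 4. -/
theorem result {F : Type*} [Field F] [Fintype F] (m : ℕ) (h : 3 ≤ m ∨ (m = 2 ∧ 3 ≤ Fintype.card F) ∨ 4 ≤ Fintype.card F) : commutator (Matrix.symplecticGroup (Fin m) F) = ⊤ := by
  rcases h with h | ⟨rfl, h⟩ | h
  · exact Cfsg.Agent.Lib.Helper12.sp_perfect_of_three_le h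
  · rcases Nat.lt_or_ge (Fintype.card F) 4 with h4 | h4
    · apply Cfsg.Agent.Lib.Helper12.sp_perfect_of_two_ne le_rfl
      intro h2
      have hc : ringChar F = 2 := CharP.ringChar_of_prime_eq_zero Nat.prime_two (by exact_mod_cast h2)
      have := FiniteField.even_card_of_char_two hc
      omega
    · exact Cfsg.Agent.Lib.Helper12.sp_perfect_of_sq (field_cond h4)
  · exact Cfsg.Agent.Lib.Helper12.sp_perfect_of_sq (field_cond h)

end Cfsg.Agent.S0269
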