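import Cfsg.Statements.S0281
import Cfsg.Agent.Lib.Helper12.UnitarySU
import Cfsg.Agent.Lib.Helper12.UnitaryIso
import Cfsg.Agent.Lib.Helper12.SL2Sylow

set_option autoImplicit false
open Cfsg

namespace Cfsg.Agent.S0281

open Matrix Cfsg Cfsg.Agent.Lib.Helper6 Cfsg.Agent.Lib.Helper12

section
variable {F : Type*} [Field F] [Fintype F] {q : ℕ}

/-- an embedding of the field with `q` elements, with image fixed by the `q`-power map. -/
theorem exists_embedding (hF : Fintype.card F = q ^ 2) {K : Type*} [Field K] [Fintype K]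
    (hK : Fintype.card K = q) : ∃ ι : K →+* F, ∀ a, (ι a) ^ q = ι a := by
  classical
  let S : Subfield F := (frobHom hF).eqLocusField (RingHom.id F)
  have hS : ∀ x : F, x ∈ S ↔ x ^ q = x := fun x => Iff.rfl
  have hcard : Fintype.card S = q := by
    have := card_fixed hF
    rw [← this, ← Nat.card_eq_fintype_card]
    rfl
  let e : K ≃+* S := FiniteField.ringEquivOfCardEq (by rw [hK, hcard])
  exact ⟨S.subtype.comp e.toRingHom, fun a => (hS _).mp (e a).2⟩

/-- a hyperbolic-type basis of the hermitian plane. -/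
theorem exists_basis (hF : Fintype.card F = q ^ 2) :
    ∃ (u v : Fin 2 → F) (η : F), η ≠ 0 ∧ η ^ q = -η ∧ hermForm 2 F q u u = 0 ∧
      hermForm 2 F q v v = 0 ∧ hermForm 2 F q u v = η ∧ u 0 * v 1 - u 1 * v 0 ≠ 0 := by
  have hq := herm_q_pos hF
  obtain ⟨α, hα⟩ := exists_norm_eq hF (-1) (by rw [frob_neg hF, one_pow])
  obtain ⟨l, hl, hl1⟩ := exists_norm_one_ne_one hF
  have hα0 : α ≠ 0 := by
    rintro rfl
    rw [zero_pow (Nat.succ_ne_zero q)] at hα
    exact one_ne_zero (neg_eq_zero.mp hα.symm)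
  have hl0 : l ≠ 0 := by
    rintro rfl
    rw [zero_pow (Nat.succ_ne_zero q)] at hl
    exact zero_ne_one hl
  have hlq : l ^ q ≠ 1 := by
    intro h
    apply hl1
    rw [pow_succ, h, one_mul] at hl
    exact hl
  obtain ⟨t, ht⟩ : ∃ t : F, t ^ q ≠ t := by
    by_contra hcon
    push Not at hcon
    have h3 := card_fixed hF
    have h4 : Nat.card {c : F // c ^ q = c} = Nat.card F :=
      Nat.card_congr (Equiv.subtypeUnivEquiv hcon)
    rw [h3, Nat.card_eq_fintype_card, hF] at h4
    nlinarith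
  set η := t - t ^ q with hη
  have hη0 : η ≠ 0 := sub_ne_zero.mpr (Ne.symm ht)
  have hηq : η ^ q = -η := by
    rw [hη, sub_eq_add_neg, frob_add hF, frob_neg hF, frob_frob hF]; ring
  set ζ := 1 - l ^ q with hζ
  have hζ0 : ζ ≠ 0 := sub_ne_zero.mpr (Ne.symm hlq)
  set c := (η / ζ) ^ q with hc
  have hcq : c ^ q = η / ζ := by rw [hc, frob_frob hF]
  have hc0 : c ≠ 0 := pow_ne_zero _ (div_ne_zero hη0 hζ0)
  have hαα : α * α ^ q = -1 := by rw [← pow_succ', hα]
  have hll : l * l ^ q = 1 := by rw [← pow_succ', hl]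
  refine ⟨![1, α], ![c, c * (l * α)], η, hη0, hηq, ?_, ?_, ?_, ?_⟩
  · simp only [hermForm, Fin.sum_univ_two, Matrix.cons_val_zero, Matrix.cons_val_one, one_pow]
    linear_combination hαα
  · simp only [hermForm, Fin.sum_univ_two, Matrix.cons_val_zero, Matrix.cons_val_one, mul_pow]
    linear_combination (c * c ^ q * (l * l ^ q)) * hαα + (c * c ^ q) * (1 - 1) * hll - (c * c ^ q) * hll
  · simp only [hermForm, Fin.sum_univ_two, Matrix.cons_val_zero, Matrix.cons_val_one, mul_pow]
    have : c ^ q * ζ = η := by rw [hcq]; field_simp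
    rw [← this, hζ]
    linear_combination (c ^ q * l ^ q) * hαα
  · simp only [Matrix.cons_val_zero, Matrix.cons_val_one]
    have : (1 : F) * (c * (l * α)) - α * c = c * α * (l - 1) := by ring
    rw [this]
    exact mul_ne_zero (mul_ne_zero hc0 hα0) (sub_ne_zero.mpr hl1)

end

/-- SU_2(q) is isomorphic to SL_2(q). -/
theorem result {F K : Type*} [Field F] [Fintype F] [Field K] [Fintype K] {q : ℕ} (hF : Fintype.card F = q ^ 2) (hK : Fintype.card K = q) : Nonempty (Cfsg.SU 2 F q ≃* Matrix.SpecialLinearGroup (Fin 2) K) := by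
  classical
  have hq := herm_q_pos hF
  obtain ⟨ι, hι⟩ := exists_embedding hF hK
  obtain ⟨u, v, η, hη0, hηq, huu, hvv, huv, hdet⟩ := exists_basis hF
  have hvu : hermForm 2 F q v u = -η := by rw [← herm_conj hF, huv, hηq]
  let P : Matrix (Fin 2) (Fin 2) F := !![u 0, v 0; u 1, v 1]
  have hPdet : IsUnit P.det := by
    rw [Matrix.det_fin_two_of, isUnit_iff_ne_zero]
    intro h
    apply hdet
    linear_combination h
  have hPP' : P * P⁻¹ = 1 := Matrix.mul_nonsing_inv P hPdet
  have hP'P : P⁻¹ * P = 1 := Matrix.nonsing_inv_mul P hPdet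
  have hPx : ∀ x : Fin 2 → F, P *ᵥ x = x 0 • u + x 1 • v := by
    intro x
    ext i
    fin_cases i <;> simp [P, Matrix.mulVec, dotProduct, Fin.sum_univ_two] <;> ring
  have L1 : ∀ x y : Fin 2 → F, hermForm 2 F q (P *ᵥ x) (P *ᵥ y)
      = η * (x 0 * y 1 ^ q - x 1 * y 0 ^ q) := by
    intro x y
    rw [hPx, hPx, herm_add_left, herm_add_right hF, herm_add_right hF]
    simp only [herm_smul_left, herm_smul_right, huu, hvv, huv, hvu]
    ring
  have L2 : ∀ (A : Matrix.SpecialLinearGroup (Fin 2) K) (x y : Fin 2 → F),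
      (((Matrix.SpecialLinearGroup.map ι A : Matrix.SpecialLinearGroup (Fin 2) F) :
          Matrix (Fin 2) (Fin 2) F) *ᵥ x) 0
        * ((((Matrix.SpecialLinearGroup.map ι A : Matrix.SpecialLinearGroup (Fin 2) F) :
          Matrix (Fin 2) (Fin 2) F) *ᵥ y) 1) ^ q
      - (((Matrix.SpecialLinearGroup.map ι A : Matrix.SpecialLinearGroup (Fin 2) F) :
          Matrix (Fin 2) (Fin 2) F) *ᵥ x) 1
        * ((((Matrix.SpecialLinearGroup.map ι A : Matrix.SpecialLinearGroup (Fin 2) F) :
          Matrix (Fin 2) (Fin 2) F) *ᵥ y) 0) ^ q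
      = x 0 * y 1 ^ q - x 1 * y 0 ^ q := by
    intro A x y
    have hd : ι (A 0 0) * ι (A 1 1) - ι (A 0 1) * ι (A 1 0) = 1 := by
      have := A.2
      rw [Matrix.det_fin_two] at this
      rw [← map_mul, ← map_mul, ← map_sub]
      have h2 : A 0 0 * A 1 1 - A 0 1 * A 1 0 = 1 := this
      rw [h2, map_one]
    simp only [Matrix.mulVec, dotProduct, Fin.sum_univ_two, Matrix.SpecialLinearGroup.map_apply_coe,
      RingHom.mapMatrix_apply, Matrix.map_apply, frob_add hF, mul_pow, hι]
    linear_combination (x 0 * y 1 ^ q - x 1 * y 0 ^ q) * hd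
  have hconj : ∀ X Y : Matrix (Fin 2) (Fin 2) F,
      P * (X * Y) * P⁻¹ = (P * X * P⁻¹) * (P * Y * P⁻¹) := by
    intro X Y
    calc P * (X * Y) * P⁻¹ = P * X * (1 : Matrix (Fin 2) (Fin 2) F) * Y * P⁻¹ := by
          simp only [mul_one, Matrix.mul_assoc]
      _ = P * X * (P⁻¹ * P) * Y * P⁻¹ := by rw [hP'P]
      _ = _ := by simp only [Matrix.mul_assoc]
  let f : Matrix.SpecialLinearGroup (Fin 2) K →* Matrix.SpecialLinearGroup (Fin 2) F :=
    { toFun := fun A => ⟨P * ((Matrix.SpecialLinearGroup.map ι A :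
          Matrix.SpecialLinearGroup (Fin 2) F) : Matrix (Fin 2) (Fin 2) F) * P⁻¹, by
        rw [Matrix.det_mul, Matrix.det_mul, mul_right_comm, ← Matrix.det_mul, hPP', Matrix.det_one,
          one_mul]
        exact (Matrix.SpecialLinearGroup.map ι A).2⟩
      map_one' := by
        apply Subtype.ext
        simp only [map_one, Matrix.SpecialLinearGroup.coe_one, mul_one, hPP']
      map_mul' := by
        intro A B
        apply Subtype.ext
        change P * ((Matrix.SpecialLinearGroup.map ι (A * B) :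
          Matrix.SpecialLinearGroup (Fin 2) F) : Matrix (Fin 2) (Fin 2) F) * P⁻¹
          = (P * ((Matrix.SpecialLinearGroup.map ι A :
          Matrix.SpecialLinearGroup (Fin 2) F) : Matrix (Fin 2) (Fin 2) F) * P⁻¹)
          * (P * ((Matrix.SpecialLinearGroup.map ι B :
          Matrix.SpecialLinearGroup (Fin 2) F) : Matrix (Fin 2) (Fin 2) F) * P⁻¹)
        rw [map_mul, Matrix.SpecialLinearGroup.coe_mul, hconj] }
  have hfcoe : ∀ A, ((f A : Matrix.SpecialLinearGroup (Fin 2) F) : Matrix (Fin 2) (Fin 2) F)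
      = P * ((Matrix.SpecialLinearGroup.map ι A :
          Matrix.SpecialLinearGroup (Fin 2) F) : Matrix (Fin 2) (Fin 2) F) * P⁻¹ := fun A => rfl
  have hmem : ∀ A, f A ∈ Cfsg.SU 2 F q := by
    intro A
    rw [mem_SU_iff]
    intro x y
    have hx : x = P *ᵥ (P⁻¹ *ᵥ x) := by rw [Matrix.mulVec_mulVec, hPP', Matrix.one_mulVec]
    have hy : y = P *ᵥ (P⁻¹ *ᵥ y) := by rw [Matrix.mulVec_mulVec, hPP', Matrix.one_mulVec]
    rw [hfcoe, ← Matrix.mulVec_mulVec, ← Matrix.mulVec_mulVec, ← Matrix.mulVec_mulVec,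
      ← Matrix.mulVec_mulVec, L1, L2]
    conv_rhs => rw [hx, hy, L1]
  have hinj : Function.Injective f := by
    intro A B hAB
    have h1 := congrArg (fun X : Matrix.SpecialLinearGroup (Fin 2) F =>
      P⁻¹ * (X : Matrix (Fin 2) (Fin 2) F) * P) hAB
    simp only [hfcoe] at h1
    have h2 : ∀ X : Matrix (Fin 2) (Fin 2) F, P⁻¹ * (P * X * P⁻¹) * P = X := by
      intro X
      calc P⁻¹ * (P * X * P⁻¹) * P = (P⁻¹ * P) * X * (P⁻¹ * P) := by
            simp only [Matrix.mul_assoc]
        _ = X := by rw [hP'P, one_mul, mul_one]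
    rw [h2, h2] at h1
    ext i j
    have h3 := congrFun (congrFun h1 i) j
    simp only [Matrix.SpecialLinearGroup.map_apply_coe, RingHom.mapMatrix_apply,
      Matrix.map_apply] at h3
    exact ι.injective h3
  let g : Matrix.SpecialLinearGroup (Fin 2) K →* Cfsg.SU 2 F q := f.codRestrict _ hmem
  have hginj : Function.Injective g := by
    intro A B hAB
    exact hinj (congrArg Subtype.val hAB)
  have hcard : Nat.card (Matrix.SpecialLinearGroup (Fin 2) K) = Nat.card (Cfsg.SU 2 F q) := by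
    have h1 := card_GU_eq_mul_SU hF 2 (by omega)
    rw [card_GU hF 2] at h1
    rw [card_SL2, hK]
    have e1 : (∏ i ∈ Finset.range 2, if Even i then q ^ (i + 1) + 1 else q ^ (i + 1) - 1)
        = (q + 1) * (q ^ 2 - 1) := by
      simp [Finset.prod_range_succ]
    rw [e1] at h1
    have : (q + 1) * Nat.card (Cfsg.SU 2 F q) = (q + 1) * (q * (q ^ 2 - 1)) := by
      rw [h1]; norm_num; ring
    exact (Nat.eq_of_mul_eq_mul_left (Nat.succ_pos q) this).symm
  have hbij : Function.Bijective g :=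
    (Nat.bijective_iff_injective_and_card g).mpr ⟨hginj, hcard⟩
  exact ⟨(MulEquiv.ofBijective g hbij).symm⟩


end Cfsg.Agent.S0281
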