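import Cfsg.Statements.S0282
import Cfsg.Agent.Lib.Helper12.UnitarySU
import Cfsg.Agent.Lib.Helper2.CharBurn

set_option autoImplicit false
open Cfsg

namespace Cfsg.Agent.S0282


/-- PSU_3(2) is a solvable group of order 72. -/
theorem result {F : Type*} [Field F] [Fintype F] (hF : Fintype.card F = 4) : Nat.card (Cfsg.PSU 3 F 2) = 72 ∧ Group.IsSolvable (Cfsg.PSU 3 F 2) := by
  have hF' : Fintype.card F = 2 ^ 2 := by rw [hF]; norm_num
  have h1 := Cfsg.Agent.Lib.Helper12.card_GU hF' 3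
  have h2 := Cfsg.Agent.Lib.Helper12.card_GU_eq_mul_SU hF' 3 (by omega)
  have h3 := Cfsg.Agent.Lib.Helper12.card_center_SU hF' 3 (by omega)
  have h4 := Subgroup.card_eq_card_quotient_mul_card_subgroup (Subgroup.center (Cfsg.SU 3 F 2))
  have h5 : Nat.card (Cfsg.PSU 3 F 2) = 72 := by
    rw [h3] at h4
    rw [h4, h1] at h2
    have e1 : (∏ i ∈ Finset.range 3, if Even i then 2 ^ (i + 1) + 1 else 2 ^ (i + 1) - 1) = 81 := by
      decide
    have e2 : Nat.gcd 3 (2 + 1) = 3 := by decide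
    rw [e1, e2] at h2
    change (2 + 1) * (Nat.card (Cfsg.PSU 3 F 2) * 3) = _ at h2
    omega
  have : Finite (Cfsg.PSU 3 F 2) := Nat.finite_of_card_ne_zero (by rw [h5]; norm_num)
  exact ⟨h5, Cfsg.Agent.Lib.Helper2.burnside_paqb 2 3 3 2 Nat.prime_two Nat.prime_three
    (by rw [h5]; norm_num)⟩


end Cfsg.Agent.S0282
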