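import Cfsg.Statements.S0285
import Cfsg.Agent.Lib.Helper12.UnitaryCount

set_option autoImplicit false
open Cfsg

namespace Cfsg.Agent.S0285


/-- The standard Hermitian form on F^n, |F| = q^2, has exactly (q^n - (-1)^n)(q^(n-1) + (-1)^n) non-zero isotropic vectors; counting the zero vector too: -/
theorem result {F : Type*} [Field F] [Fintype F] {q : ℕ} (hF : Fintype.card F = q ^ 2) (n : ℕ) : Nat.card {v : Fin n → F // Cfsg.hermForm n F q v v = 0} = (if Even n then (q ^ n - 1) * (q ^ (n - 1) + 1) else (q ^ n + 1) * (q ^ (n - 1) - 1)) + 1 := by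
  have hq := Cfsg.Agent.Lib.Helper6.herm_q_pos hF
  rcases n with _ | m
  · have := Cfsg.Agent.Lib.Helper12.hcnt_zero_zero (F := F) (q := q)
    unfold Cfsg.Agent.Lib.Helper12.hcnt at this
    rw [this]; simp
  · have := (Cfsg.Agent.Lib.Helper12.hcnt_closed hF m).2
    unfold Cfsg.Agent.Lib.Helper12.hcnt at this
    have h1 : 1 ≤ q ^ (m + 1) := Nat.one_le_pow _ _ (by omega)
    have h2 : 1 ≤ q ^ m := Nat.one_le_pow _ _ (by omega)
    simp only [Nat.add_sub_cancel, Nat.even_add_one]
    by_cases hm : Even m
    · rw [hm.neg_one_pow] at this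
      simp only [hm, not_true_eq_false, if_false]
      zify [h1, h2]
      rw [this]; ring
    · rw [(Nat.not_even_iff_odd.mp hm).neg_one_pow] at this
      simp only [hm, not_false_eq_true, if_true]
      zify [h1, h2]
      rw [this]; ring


end Cfsg.Agent.S0285
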