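import Cfsg.Statements.S0289
import Cfsg.Agent.Lib.Helper16.Orth25

set_option autoImplicit false

open Cfsg

namespace Cfsg.Agent.S0289

open Cfsg.Agent.Lib.Helper16 Cfsg.Agent.Lib.Helper6

theorem result {F : Type*} [Field F] [Fintype F] {q : ℕ} (hF : Fintype.card F = q) (m : ℕ) (hm : 1 ≤ m) : Nat.card {v : Fin m ⊕ Fin m → F // Cfsg.quadFormPlus m F v = 0} = q ^ (2 * m - 1) + q ^ m - q ^ (m - 1) := by
  subst hF
  obtain ⟨k, rfl⟩ : ∃ k, m = k + 1 := ⟨m - 1, by omega⟩
  have h := card_sing_formula (F := F) 0 (k + 1) _ (qPlus (k + 1) F) qPlus_nondeg qPlus_wtype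
    (by rw [finrank_plus']; ring)
  rw [qPlus_coe, Nat.card_eq_fintype_card (α := F)] at h
  have hq : 0 < Fintype.card F := Fintype.card_pos
  rw [Nat.add_sub_cancel, show 2 * (k + 1) - 1 = 2 * k + 1 by omega]
  have h3 : Fintype.card F ^ k ≤ Fintype.card F ^ (k + 1) := Nat.pow_le_pow_right hq (by omega)
  have h4 : Fintype.card F ^ k ≤ Fintype.card F ^ (2 * k + 1) + Fintype.card F ^ (k + 1) := by omega
  apply Nat.eq_of_mul_eq_mul_left hq
  zify [h4] at h ⊢
  linear_combination h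

end Cfsg.Agent.S0289
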