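import Cfsg.Statements.S0291
import Cfsg.Agent.Lib.Helper16.Orth25

set_option autoImplicit false

open Cfsg

namespace Cfsg.Agent.S0291

open Cfsg.Agent.Lib.Helper16 Cfsg.Agent.Lib.Helper6

theorem result {F : Type*} [Field F] [Fintype F] {q : ℕ} (hF : Fintype.card F = q) (hodd : Odd q) (m : ℕ) : Nat.card {v : Unit ⊕ (Fin m ⊕ Fin m) → F // Cfsg.quadFormOdd m F v = 0} = q ^ (2 * m) := by
  subst hF
  have h2 : (2 : F) ≠ 0 := two_ne_zero_of_odd_card hodd
  have h := card_sing_formula (F := F) 1 m _ (qOdd m F) (qOdd_nondeg h2) qOdd_wtype finrank_odd'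
  rw [qOdd_coe, Nat.card_eq_fintype_card (α := F)] at h
  have hq : 0 < Fintype.card F := Fintype.card_pos
  apply Nat.eq_of_mul_eq_mul_left hq
  zify at h ⊢
  linear_combination h

end Cfsg.Agent.S0291
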