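import Cfsg.Statements.S0293
import Cfsg.Agent.Lib.Helper16.Orth27
import Cfsg.Agent.S0790

set_option autoImplicit false

open Cfsg

namespace Cfsg.Agent.S0293

open Cfsg.Agent.Lib.Helper16 Cfsg.Agent.Lib.Helper6

theorem result {F : Type*} [Field F] [Fintype F] {q : ℕ} (hF : Fintype.card F = q) (m : ℕ) (hm : 4 ≤ m) : Nat.gcd 4 (q ^ m - 1) * Nat.card (Cfsg.POmega F (Cfsg.quadFormPlus m F)) = q ^ (m * (m - 1)) * (q ^ m - 1) * ∏ i ∈ Finset.range (m - 1), (q ^ (2 * (i + 1)) - 1) := by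
  subst hF
  obtain ⟨k, rfl⟩ : ∃ k, m = k + 1 := ⟨m - 1, by omega⟩
  have hQ : (QuadraticMap.polarBilin (qPlus (k + 1) F)).Nondegenerate := qPlus_nondeg
  obtain ⟨e, f, hp, -⟩ := (qPlus_wtype (m := k + 1) (F := F)).succ
  have hfr : Module.finrank F (Fin (k + 1) ⊕ Fin (k + 1) → F) = 2 * (k + 1) := finrank_plus'
  have h1 := card_pOmega_mul (qPlus (k + 1) F)
  rw [card_OG_plus k _ _ hQ qPlus_wtype hfr, Nat.card_eq_fintype_card (α := F),
    ← Nat.card_congr (pOmegaEquiv (qPlus (k + 1) F)).toEquiv, qPlus_coe] at h1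
  rw [Nat.add_sub_cancel]
  set X := Fintype.card F ^ ((k + 1) * k) * (Fintype.card F ^ (k + 1) - 1) *
      ∏ i ∈ Finset.range k, (Fintype.card F ^ (2 * (i + 1)) - 1) with hX
  have hX2 : 2 * Fintype.card F ^ ((k + 1) * k) * (Fintype.card F ^ (k + 1) - 1) *
      ∏ i ∈ Finset.range k, (Fintype.card F ^ (2 * (i + 1)) - 1) = 2 * X := by rw [hX]; ring
  rw [hX2] at h1
  have hq0 : 0 < Fintype.card F ^ (k + 1) := Nat.pow_pos Fintype.card_pos
  by_cases h2 : (2 : F) = 0
  · have hev : Even (Fintype.card F ^ (k + 1)) := (even_card_of_two_eq_zero h2).pow_of_ne_zero (by omega)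
    rw [index_comm_even _ h2 hQ (Or.inr (by omega)) (by omega),
      card_center_one hQ (by omega) hp (Or.inl h2)] at h1
    have hg : Nat.gcd 4 (Fintype.card F ^ (k + 1) - 1) = 1 := by
      obtain ⟨t, ht⟩ := hev
      have : Nat.Coprime (2 ^ 2) (Fintype.card F ^ (k + 1) - 1) := by
        apply Nat.Coprime.pow_left
        rw [Nat.coprime_two_left]
        exact ⟨t - 1, by omega⟩
      exact this
    rw [hg]
    omega
  · have hodd := odd_card_of_two_ne_zero h2
    have h4 : Fintype.card F ^ (k + 1) % 4 = 1 ∨ Fintype.card F ^ (k + 1) % 4 = 3 := by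
      obtain ⟨t, ht⟩ := hodd.pow (n := k + 1)
      omega
    have hiff := Cfsg.Agent.S0790.result (F := F) rfl hodd (k + 1) (by omega)
    rw [← qPlus_coe, ← negO_mem_iff] at hiff
    rw [index_comm_odd _ h2 hQ (by omega)] at h1
    rcases h4 with h4 | h4
    · rw [card_center_two hQ (by omega) hp h2 (hiff.2 h4)] at h1
      have hg : Nat.gcd 4 (Fintype.card F ^ (k + 1) - 1) = 4 := by
        apply Nat.gcd_eq_left
        omega
      rw [hg]
      omega
    · rw [card_center_one hQ (by omega) hp (Or.inr (fun h => by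
        have := hiff.1 h; omega))] at h1
      have hg : Nat.gcd 4 (Fintype.card F ^ (k + 1) - 1) = 2 := by
        obtain ⟨t, ht⟩ : ∃ t, Fintype.card F ^ (k + 1) - 1 = 4 * t + 2 :=
          ⟨Fintype.card F ^ (k + 1) / 4, by omega⟩
        rw [ht, Nat.gcd_comm, Nat.gcd_mul_left_add_left]; rfl
      rw [hg]
      omega

end Cfsg.Agent.S0293
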