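import Cfsg.Statements.S0296
import Cfsg.Agent.Lib.Helper16.Orth31

set_option autoImplicit false

open Cfsg

namespace Cfsg.Agent.S0296

open Cfsg.Agent.Lib.Helper16 Cfsg.Agent.Lib.Helper6

theorem result {F : Type*} [Field F] [Fintype F] (m : ℕ) (hm : 4 ≤ m) : IsSimpleGroup (Cfsg.POmega F (Cfsg.quadFormPlus m F)) := by
  rw [← qPlus_coe]
  haveI := pOmega_simple (Q := qPlus m F) qPlus_nondeg (by rw [finrank_plus']; omega)
  exact (pOmegaEquiv (qPlus m F)).isSimpleGroup

end Cfsg.Agent.S0296
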