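import Cfsg.Statements.S0298
import Mathlib
import Cfsg.Agent.Lib.Helper29.O3b

set_option autoImplicit false
open Cfsg

namespace Cfsg.Agent.S0298

section aux

open Matrix Cfsg.Agent.Lib.Helper29.O3
open scoped commutatorElement

variable {F : Type*} [Field F]

theorem comm_central_left {G : Type*} [Group G] {z : G} (hz : ∀ x, z * x = x * z) (a b : G) :
    ⁅z * a, b⁆ = ⁅a, b⁆ := by
  rw [commutatorElement_def, commutatorElement_def, _root_.mul_inv_rev]
  calc z * a * b * (a⁻¹ * z⁻¹) * b⁻¹ = z * (a * b * a⁻¹) * z⁻¹ * b⁻¹ := by group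
    _ = (a * b * a⁻¹) * z * z⁻¹ * b⁻¹ := by rw [hz]
    _ = a * b * a⁻¹ * b⁻¹ := by group

theorem comm_central_right {G : Type*} [Group G] {z : G} (hz : ∀ x, z * x = x * z) (a b : G) :
    ⁅a, z * b⁆ = ⁅a, b⁆ := by
  rw [commutatorElement_def, commutatorElement_def, _root_.mul_inv_rev]
  calc a * (z * b) * a⁻¹ * (b⁻¹ * z⁻¹) = a * (z * (b * a⁻¹ * b⁻¹)) * z⁻¹ := by group
    _ = a * ((b * a⁻¹ * b⁻¹) * z) * z⁻¹ := by rw [hz]
    _ = a * b * a⁻¹ * b⁻¹ := by group

theorem comm_eq_of {G : Type*} [Group G] {d u w : G} (h : d * u = w * u * d) : ⁅d, u⁆ = w := by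
  rw [commutatorElement_def, h]; group

noncomputable def psi : Matrix.SpecialLinearGroup (Fin 2) F →*
    Cfsg.isometryGroup F (Cfsg.quadFormOdd 1 F) := Phi.comp Matrix.SpecialLinearGroup.toGL

theorem psi_ker : (psi : Matrix.SpecialLinearGroup (Fin 2) F →* _).ker =
    Subgroup.center (Matrix.SpecialLinearGroup (Fin 2) F) := by
  ext g
  rw [MonoidHom.mem_ker, ← Matrix.SpecialLinearGroup.toGL_mem_center_iff, ← Phi_ker, MonoidHom.mem_ker]
  rfl

def U (t : F) : Matrix.SpecialLinearGroup (Fin 2) F := ⟨!![1, t; 0, 1], by simp [Matrix.det_fin_two_of]⟩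
def L (t : F) : Matrix.SpecialLinearGroup (Fin 2) F := ⟨!![1, 0; t, 1], by simp [Matrix.det_fin_two_of]⟩

noncomputable def D : GL (Fin 2) F :=
  GeneralLinearGroup.mkOfDetNeZero !![-1, 0; 0, 1] (by simp [Matrix.det_fin_two_of])

theorem U_comm (s : F) : ⁅(D : GL (Fin 2) F), Matrix.SpecialLinearGroup.toGL (U s)⁆ =
    Matrix.SpecialLinearGroup.toGL (U (-2 * s)) := by
  apply comm_eq_of
  apply Units.ext
  show (!![-1, 0; 0, 1] : Matrix (Fin 2) (Fin 2) F) * !![1, s; 0, 1] =
    !![1, -2 * s; 0, 1] * !![1, s; 0, 1] * !![-1, 0; 0, 1]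
  simp only [Matrix.mul_fin_two]
  ext i j
  fin_cases i <;> fin_cases j <;> simp <;> ring

theorem L_comm (s : F) : ⁅(D : GL (Fin 2) F), Matrix.SpecialLinearGroup.toGL (L s)⁆ =
    Matrix.SpecialLinearGroup.toGL (L (-2 * s)) := by
  apply comm_eq_of
  apply Units.ext
  show (!![-1, 0; 0, 1] : Matrix (Fin 2) (Fin 2) F) * !![1, 0; s, 1] =
    !![1, 0; -2 * s, 1] * !![1, 0; s, 1] * !![-1, 0; 0, 1]
  simp only [Matrix.mul_fin_two]
  ext i j
  fin_cases i <;> fin_cases j <;> simp <;> ring

theorem SL_det (g : Matrix.SpecialLinearGroup (Fin 2) F) : g 0 0 * g 1 1 - g 0 1 * g 1 0 = 1 := by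
  have := g.det_coe
  rwa [Matrix.det_fin_two] at this

theorem decomp (g : Matrix.SpecialLinearGroup (Fin 2) F) (hc : g 1 0 ≠ 0) :
    g = U ((g 0 0 - 1) / g 1 0) * L (g 1 0) * U ((g 1 1 - 1) / g 1 0) := by
  apply Subtype.ext
  show (g : Matrix (Fin 2) (Fin 2) F) = !![1, (g 0 0 - 1) / g 1 0; 0, 1] * !![1, 0; g 1 0, 1] *
    !![1, (g 1 1 - 1) / g 1 0; 0, 1]
  have hd := SL_det g
  simp only [Matrix.mul_fin_two]
  ext i j
  fin_cases i <;> fin_cases j
  · simp; field_simp; ring
  · simp; field_simp; linear_combination -hd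
  · simp
  · simp; field_simp; ring

theorem top_le_of (T : Subgroup (Matrix.SpecialLinearGroup (Fin 2) F)) (hU : ∀ t, U t ∈ T)
    (hL : ∀ t, L t ∈ T) (g : Matrix.SpecialLinearGroup (Fin 2) F) : g ∈ T := by
  have key : ∀ g : Matrix.SpecialLinearGroup (Fin 2) F, g 1 0 ≠ 0 → g ∈ T := by
    intro g hc
    rw [decomp g hc]
    exact T.mul_mem (T.mul_mem (hU _) (hL _)) (hU _)
  by_cases hc : g 1 0 = 0
  · have h1 : (L 1 * g : Matrix.SpecialLinearGroup (Fin 2) F) 1 0 ≠ 0 := by
      have e : (L 1 * g : Matrix.SpecialLinearGroup (Fin 2) F) 1 0 = g 0 0 + g 1 0 := by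
        show ((!![1, 0; 1, 1] : Matrix (Fin 2) (Fin 2) F) * (g : Matrix (Fin 2) (Fin 2) F)) 1 0 = _
        simp [Matrix.mul_apply, Fin.sum_univ_two]
      rw [e, hc, add_zero]
      intro h0
      have hd := SL_det g
      rw [h0, hc] at hd
      simp at hd
    have h2 := T.mul_mem (T.inv_mem (hL 1)) (key _ h1)
    rwa [inv_mul_cancel_left] at h2
  · exact key g hc

theorem commutator_eq [Fintype F] (hodd : Odd (Fintype.card F)) :
    commutator (Cfsg.isometryGroup F (Cfsg.quadFormOdd 1 F)) =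
      (psi : Matrix.SpecialLinearGroup (Fin 2) F →* _).range := by
  apply le_antisymm
  · rw [commutator_def, Subgroup.commutator_le]
    intro x _ y _
    have key : ∀ g h : GL (Fin 2) F, ⁅Phi g, Phi h⁆ ∈
        (psi : Matrix.SpecialLinearGroup (Fin 2) F →* _).range := by
      intro g h
      have hk : ⁅g, h⁆ ∈ (GeneralLinearGroup.det : GL (Fin 2) F →* Fˣ).ker := by
        rw [MonoidHom.mem_ker, map_commutatorElement]
        exact commutatorElement_eq_one_iff_mul_comm.2 (mul_comm _ _)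
      rw [← Cfsg.Agent.Lib.Helper12.range_toGL_eq_ker_det] at hk
      obtain ⟨s, hs⟩ := hk
      refine ⟨s, ?_⟩
      show Phi (Matrix.SpecialLinearGroup.toGL s) = _
      rw [hs, map_commutatorElement]
    obtain ⟨g, hg | hg⟩ := exists_pm hodd x <;> obtain ⟨h, hh | hh⟩ := exists_pm hodd y
    · rw [hg, hh]; exact key g h
    · rw [hg, hh, comm_central_right negOne_comm]; exact key g h
    · rw [hg, hh, comm_central_left negOne_comm]; exact key g h
    · rw [hg, hh, comm_central_left negOne_comm, comm_central_right negOne_comm]; exact key g h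
  · rintro _ ⟨g, rfl⟩
    have h2 := two_ne_zero' hodd
    refine top_le_of ((commutator (Cfsg.isometryGroup F (Cfsg.quadFormOdd 1 F))).comap psi)
      ?_ ?_ g
    · intro t
      rw [Subgroup.mem_comap]
      have e : t = -2 * (-t / 2) := by field_simp
      rw [e]
      show Phi (Matrix.SpecialLinearGroup.toGL (U (-2 * (-t / 2)))) ∈ _
      rw [← U_comm, map_commutatorElement]
      exact Subgroup.commutator_mem_commutator (Subgroup.mem_top _) (Subgroup.mem_top _)
    · intro t
      rw [Subgroup.mem_comap]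
      have e : t = -2 * (-t / 2) := by field_simp
      rw [e]
      show Phi (Matrix.SpecialLinearGroup.toGL (L (-2 * (-t / 2)))) ∈ _
      rw [← L_comm, map_commutatorElement]
      exact Subgroup.commutator_mem_commutator (Subgroup.mem_top _) (Subgroup.mem_top _)

theorem center_PSL : Subgroup.center (ProjectiveSpecialLinearGroup (Fin 2) F) = ⊥ := by
  rw [eq_bot_iff]
  intro z hz
  obtain ⟨g, rfl⟩ := QuotientGroup.mk_surjective z
  rw [Subgroup.mem_center_iff] at hz
  have key : ∀ h : Matrix.SpecialLinearGroup (Fin 2) F, ∃ r : F, ∀ i j, (g * h : Matrix.SpecialLinearGroup (Fin 2) F) i j = r * (h * g : Matrix.SpecialLinearGroup (Fin 2) F) i j := by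
    intro h
    have h1 := hz (QuotientGroup.mk h)
    rw [← QuotientGroup.mk_mul, ← QuotientGroup.mk_mul, QuotientGroup.eq] at h1
    rw [Matrix.SpecialLinearGroup.mem_center_iff] at h1
    obtain ⟨r, _, hr⟩ := h1
    refine ⟨r, fun i j => ?_⟩
    have h2 : g * h = (h * g) * ((h * g)⁻¹ * (g * h)) := by group
    have h3 : ((g * h : Matrix.SpecialLinearGroup (Fin 2) F) : Matrix (Fin 2) (Fin 2) F) =
        ((h * g : Matrix.SpecialLinearGroup (Fin 2) F) : Matrix (Fin 2) (Fin 2) F) *
          (((h * g)⁻¹ * (g * h) : Matrix.SpecialLinearGroup (Fin 2) F) : Matrix (Fin 2) (Fin 2) F) := by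
      conv_lhs => rw [h2]
      rfl
    have h4 := congrFun (congrFun h3 i) j
    rw [← hr] at h4
    show ((g * h : Matrix.SpecialLinearGroup (Fin 2) F) : Matrix (Fin 2) (Fin 2) F) i j = _
    rw [h4]
    simp [mul_comm]
  have hd := SL_det g
  have eU : ∀ i j, (g * U 1 : Matrix.SpecialLinearGroup (Fin 2) F) i j = ((g : Matrix (Fin 2) (Fin 2) F) * (!![1, 1; 0, 1] : Matrix (Fin 2) (Fin 2) F)) i j :=
    fun _ _ => rfl
  have eU' : ∀ i j, (U 1 * g : Matrix.SpecialLinearGroup (Fin 2) F) i j = ((!![1, 1; 0, 1] : Matrix (Fin 2) (Fin 2) F) * (g : Matrix (Fin 2) (Fin 2) F)) i j :=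
    fun _ _ => rfl
  have eL : ∀ i j, (g * L 1 : Matrix.SpecialLinearGroup (Fin 2) F) i j = ((g : Matrix (Fin 2) (Fin 2) F) * (!![1, 0; 1, 1] : Matrix (Fin 2) (Fin 2) F)) i j :=
    fun _ _ => rfl
  have eL' : ∀ i j, (L 1 * g : Matrix.SpecialLinearGroup (Fin 2) F) i j = ((!![1, 0; 1, 1] : Matrix (Fin 2) (Fin 2) F) * (g : Matrix (Fin 2) (Fin 2) F)) i j :=
    fun _ _ => rfl
  obtain ⟨r, hr⟩ := key (U 1)
  obtain ⟨r', hr'⟩ := key (L 1)
  have u00 : g 0 0 = r * (g 0 0 + g 1 0) := by
    have := hr 0 0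
    rw [eU, eU'] at this
    simpa [Matrix.mul_apply, Fin.sum_univ_two] using this
  have u01 : g 0 0 + g 0 1 = r * (g 0 1 + g 1 1) := by
    have := hr 0 1
    rw [eU, eU'] at this
    simpa [Matrix.mul_apply, Fin.sum_univ_two] using this
  have u10 : g 1 0 = r * g 1 0 := by
    have := hr 1 0
    rw [eU, eU'] at this
    simpa [Matrix.mul_apply, Fin.sum_univ_two] using this
  have l00 : g 0 0 + g 0 1 = r' * g 0 0 := by
    have := hr' 0 0
    rw [eL, eL'] at this
    simpa [Matrix.mul_apply, Fin.sum_univ_two] using this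
  have l01 : g 0 1 = r' * g 0 1 := by
    have := hr' 0 1
    rw [eL, eL'] at this
    simpa [Matrix.mul_apply, Fin.sum_univ_two] using this
  have c0 : g 1 0 = 0 := by
    by_contra hc
    have hr1 : r = 1 := by
      have : (r - 1) * g 1 0 = 0 := by linear_combination -u10
      have := (mul_eq_zero.1 this).resolve_right hc
      linear_combination this
    rw [hr1] at u00
    apply hc
    linear_combination -u00
  have b0 : g 0 1 = 0 := by
    by_contra hb
    have hr1 : r' = 1 := by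
      have : (r' - 1) * g 0 1 = 0 := by linear_combination -l01
      have := (mul_eq_zero.1 this).resolve_right hb
      linear_combination this
    rw [hr1] at l00
    apply hb
    linear_combination l00
  rw [c0, b0] at hd
  have ha : g 0 0 ≠ 0 := by
    intro h0; rw [h0] at hd; simp at hd
  have hr1 : r = 1 := by
    rw [c0] at u00
    have : (r - 1) * g 0 0 = 0 := by linear_combination -u00
    have := (mul_eq_zero.1 this).resolve_right ha
    linear_combination this
  have had : g 1 1 = g 0 0 := by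
    rw [hr1, b0] at u01
    linear_combination -u01
  rw [Subgroup.mem_bot, QuotientGroup.eq_one_iff, Matrix.SpecialLinearGroup.mem_center_iff]
  refine ⟨g 0 0, ?_, ?_⟩
  · rw [had] at hd
    simp only [Fintype.card_fin]
    linear_combination hd
  · ext i j
    fin_cases i <;> fin_cases j
    · simp
    · simpa using b0.symm
    · simpa using c0.symm
    · simpa using had.symm

end aux

/-- PΩ_3(q) is isomorphic to PSL_2(q) for q odd. -/
theorem result {F : Type*} [Field F] [Fintype F] (hodd : Odd (Fintype.card F)) : Nonempty (Cfsg.POmega F (Cfsg.quadFormOdd 1 F) ≃* Matrix.ProjectiveSpecialLinearGroup (Fin 2) F) := by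
  have e1 : ↥(commutator (Cfsg.isometryGroup F (Cfsg.quadFormOdd 1 F))) ≃*
      ↥(psi : Matrix.SpecialLinearGroup (Fin 2) F →* _).range :=
    MulEquiv.subgroupCongr (commutator_eq hodd)
  have e2 : Matrix.SpecialLinearGroup (Fin 2) F ⧸ (psi : Matrix.SpecialLinearGroup (Fin 2) F →* _).ker
      ≃* ↥(psi : Matrix.SpecialLinearGroup (Fin 2) F →* _).range :=
    QuotientGroup.quotientKerEquivRange psi
  have e3 : Matrix.SpecialLinearGroup (Fin 2) F ⧸ (psi : Matrix.SpecialLinearGroup (Fin 2) F →* _).ker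
      ≃* Matrix.ProjectiveSpecialLinearGroup (Fin 2) F :=
    QuotientGroup.quotientMulEquivOfEq psi_ker
  have ε : ↥(Cfsg.Omega F (Cfsg.quadFormOdd 1 F)) ≃* Matrix.ProjectiveSpecialLinearGroup (Fin 2) F :=
    e1.trans (e2.symm.trans e3)
  have hc : Subgroup.center ↥(Cfsg.Omega F (Cfsg.quadFormOdd 1 F)) = ⊥ := by
    rw [eq_bot_iff]
    intro z hz
    rw [Subgroup.mem_center_iff] at hz
    have h1 : ε z ∈ Subgroup.center (Matrix.ProjectiveSpecialLinearGroup (Fin 2) F) := by
      rw [Subgroup.mem_center_iff]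
      intro y
      obtain ⟨x, rfl⟩ := ε.surjective y
      rw [← map_mul, ← map_mul, hz]
    rw [center_PSL, Subgroup.mem_bot] at h1
    rw [Subgroup.mem_bot]
    exact ε.injective (h1.trans (map_one ε).symm)
  exact ⟨((QuotientGroup.quotientMulEquivOfEq hc).trans QuotientGroup.quotientBot).trans ε⟩

end Cfsg.Agent.S0298
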