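import Cfsg.Statements.S0299
import Mathlib
import Cfsg.Agent.Lib.Helper29.O4b
import Cfsg.Agent.S0298

set_option autoImplicit false
open Cfsg

namespace Cfsg.Agent.S0299

section aux

open Matrix Cfsg.Agent.Lib.Helper29.O4 Cfsg.Agent.S0298
open scoped commutatorElement

variable {F : Type*} [Field F]

abbrev GamT (F : Type*) [Field F] := ↥(Gam : Subgroup (GL (Fin 2) F × GL (Fin 2) F))
abbrev G4 (F : Type*) [Field F] := ↥(Cfsg.isometryGroup F (Cfsg.quadFormPlus 2 F))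
abbrev SL2 (F : Type*) [Field F] := Matrix.SpecialLinearGroup (Fin 2) F

/-- squares in `Fˣ` -/
def sq (F : Type*) [Field F] : Subgroup Fˣ := (powMonoidHom 2 : Fˣ →* Fˣ).range

noncomputable def d1 : GamT F →* Fˣ :=
  GeneralLinearGroup.det.comp ((MonoidHom.fst _ _).comp (Subgroup.subtype _))

noncomputable def dd : GamT F →* Fˣ ⧸ sq F := (QuotientGroup.mk' (sq F)).comp d1

theorem det_snd (γ : GamT F) : GeneralLinearGroup.det γ.1.2 = (d1 γ)⁻¹ := by
  have h : GeneralLinearGroup.det γ.1.1 * GeneralLinearGroup.det γ.1.2 = 1 := γ.2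
  exact eq_inv_of_mul_eq_one_right h

theorem dd_sw (γ : GamT F) : dd (sw γ) = dd γ := by
  show QuotientGroup.mk (GeneralLinearGroup.det γ.1.2) = QuotientGroup.mk (d1 γ)
  rw [det_snd, QuotientGroup.eq, inv_inv]
  exact ⟨d1 γ, by simp [pow_two]⟩

theorem tau_pow_Rho (i : ℕ) (γ : GamT F) :
    ∃ γ' : GamT F, dd γ' = dd γ ∧ tau ^ i * Rho γ = Rho γ' * tau ^ i := by
  induction i with
  | zero => exact ⟨γ, rfl, by simp⟩
  | succ n ih =>
    obtain ⟨γ', h1, h2⟩ := ih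
    refine ⟨sw γ', by rw [dd_sw, h1], ?_⟩
    rw [pow_succ', mul_assoc, h2, ← mul_assoc, tau_Rho, mul_assoc]

def W (c : Fˣ ⧸ sq F) (i : ℕ) (x : G4 F) : Prop := ∃ γ : GamT F, dd γ = c ∧ x = Rho γ * tau ^ i

theorem W_mul {c d : Fˣ ⧸ sq F} {i j : ℕ} {x y : G4 F} (hx : W c i x) (hy : W d j y) :
    W (c * d) (i + j) (x * y) := by
  obtain ⟨γ, rfl, rfl⟩ := hx
  obtain ⟨δ, rfl, rfl⟩ := hy
  obtain ⟨δ', h1, h2⟩ := tau_pow_Rho i δ
  refine ⟨γ * δ', by rw [map_mul, h1], ?_⟩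
  rw [map_mul, pow_add]
  calc Rho γ * tau ^ i * (Rho δ * tau ^ j) = Rho γ * (tau ^ i * Rho δ) * tau ^ j := by group
    _ = Rho γ * Rho δ' * (tau ^ i * tau ^ j) := by rw [h2]; group

theorem tau_pow_inv (i : ℕ) : ((tau : G4 F) ^ i)⁻¹ = tau ^ i := by
  rw [inv_eq_iff_mul_eq_one, ← pow_add, ← two_mul, pow_mul, pow_two, tau_mul_tau, one_pow]

theorem W_inv {c : Fˣ ⧸ sq F} {i : ℕ} {x : G4 F} (hx : W c i x) : W c⁻¹ i x⁻¹ := by
  obtain ⟨γ, rfl, rfl⟩ := hx
  obtain ⟨δ', h1, h2⟩ := tau_pow_Rho i γ⁻¹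
  refine ⟨δ', by rw [h1, map_inv], ?_⟩
  rw [_root_.mul_inv_rev, tau_pow_inv, ← map_inv, h2]

noncomputable def emb : SL2 F × SL2 F →* GamT F where
  toFun e := ⟨(Matrix.SpecialLinearGroup.toGL e.1, Matrix.SpecialLinearGroup.toGL e.2), by
    rw [mem_Gam]
    have h1 := SL_det e.1
    have h2 := SL_det e.2
    show (e.1 0 0 * e.1 1 1 - e.1 0 1 * e.1 1 0) * (e.2 0 0 * e.2 1 1 - e.2 0 1 * e.2 1 0) = 1
    rw [h1, h2, one_mul]⟩
  map_one' := by
    apply Subtype.ext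
    simp
  map_mul' e e' := by
    apply Subtype.ext
    simp

theorem emb_val (e : SL2 F × SL2 F) : (emb e).1 =
    (Matrix.SpecialLinearGroup.toGL e.1, Matrix.SpecialLinearGroup.toGL e.2) := rfl

noncomputable def psi2 : SL2 F × SL2 F →* G4 F := Rho.comp emb

theorem det_sc (u : Fˣ) : GeneralLinearGroup.det (sc u) = u ^ 2 := by
  apply Units.ext
  rw [Cfsg.Agent.Lib.Helper29.O4.det_eq, sc00, sc01, sc10, sc11]
  simp [pow_two]

theorem Rho_mem_range_of_dd (γ : GamT F) (h : dd γ = 1) :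
    Rho γ ∈ (psi2 : SL2 F × SL2 F →* G4 F).range := by
  have h1 : d1 γ ∈ sq F := (QuotientGroup.eq_one_iff _).1 h
  obtain ⟨l, hl⟩ := h1
  have hl' : l ^ 2 = d1 γ := hl
  obtain ⟨γ', hγ'⟩ : ∃ γ', γ' = γ * iota l⁻¹ := ⟨_, rfl⟩
  have hR : Rho γ' = Rho γ := by
    have : iota l⁻¹ ∈ (Rho : GamT F →* G4 F).ker := by rw [Rho_ker]; exact ⟨_, rfl⟩
    rw [hγ', map_mul, MonoidHom.mem_ker.1 this, mul_one]
  have hd1 : GeneralLinearGroup.det γ'.1.1 = 1 := by
    rw [hγ']
    show GeneralLinearGroup.det (γ.1.1 * sc l⁻¹) = 1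
    rw [map_mul, det_sc]
    show d1 γ * _ = 1
    rw [← hl']; simp
  have hd2 : GeneralLinearGroup.det γ'.1.2 = 1 := by
    rw [det_snd]
    show (GeneralLinearGroup.det γ'.1.1)⁻¹ = 1
    rw [hd1, inv_one]
  have m1 : γ'.1.1 ∈ (GeneralLinearGroup.det : GL (Fin 2) F →* Fˣ).ker := hd1
  have m2 : γ'.1.2 ∈ (GeneralLinearGroup.det : GL (Fin 2) F →* Fˣ).ker := hd2
  rw [← Cfsg.Agent.Lib.Helper12.range_toGL_eq_ker_det] at m1 m2
  obtain ⟨s, hs⟩ := m1
  obtain ⟨t, ht⟩ := m2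
  refine ⟨(s, t), ?_⟩
  rw [← hR]
  show Rho (emb (s, t)) = Rho γ'
  congr 1
  apply Subtype.ext
  rw [emb_val]
  exact Prod.ext hs ht

theorem commutator_le [Fintype F] :
    commutator (G4 F) ≤ (psi2 : SL2 F × SL2 F →* G4 F).range := by
  rw [commutator_def, Subgroup.commutator_le]
  intro x _ y _
  have hW : ∀ x : G4 F, ∃ c i, W c i x := by
    intro x
    obtain ⟨γ, h | h⟩ := exists_pm x
    · exact ⟨dd γ, 0, γ, rfl, by rw [h]; simp⟩
    · exact ⟨dd γ, 1, γ, rfl, by rw [h]; simp⟩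
  obtain ⟨c, i, hx⟩ := hW x
  obtain ⟨d, j, hy⟩ := hW y
  have h := W_mul (W_mul (W_mul hx hy) (W_inv hx)) (W_inv hy)
  obtain ⟨γ, h1, h2⟩ := h
  have e1 : c * d * c⁻¹ * d⁻¹ = 1 := by
    rw [mul_comm c d]; group
  have e2 : (tau : G4 F) ^ (i + j + i + j) = 1 := by
    have : i + j + i + j = 2 * (i + j) := by ring
    rw [this, pow_mul, pow_two, tau_mul_tau, one_pow]
  rw [commutatorElement_def, h2, e2, mul_one]
  exact Rho_mem_range_of_dd γ (h1.trans e1)

noncomputable def Dg (a : F) (ha : a ≠ 0) : GL (Fin 2) F :=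
  GeneralLinearGroup.mkOfDetNeZero !![a, 0; 0, 1] (by simpa [Matrix.det_fin_two_of] using ha)

theorem Dg_U (a : F) (ha : a ≠ 0) (s : F) :
    Dg a ha * Matrix.SpecialLinearGroup.toGL (U s) =
      Matrix.SpecialLinearGroup.toGL (U ((a - 1) * s)) * Matrix.SpecialLinearGroup.toGL (U s) *
        Dg a ha := by
  apply Units.ext
  show (!![a, 0; 0, 1] : Matrix (Fin 2) (Fin 2) F) * !![1, s; 0, 1] =
    !![1, (a - 1) * s; 0, 1] * !![1, s; 0, 1] * !![a, 0; 0, 1]
  simp only [Matrix.mul_fin_two]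
  ext i j
  fin_cases i <;> fin_cases j <;> simp <;> ring

theorem Dg_L (a : F) (ha : a ≠ 0) (s : F) :
    Dg a ha * Matrix.SpecialLinearGroup.toGL (L s) =
      Matrix.SpecialLinearGroup.toGL (L ((a⁻¹ - 1) * s)) * Matrix.SpecialLinearGroup.toGL (L s) *
        Dg a ha := by
  apply Units.ext
  show (!![a, 0; 0, 1] : Matrix (Fin 2) (Fin 2) F) * !![1, 0; s, 1] =
    !![1, 0; (a⁻¹ - 1) * s, 1] * !![1, 0; s, 1] * !![a, 0; 0, 1]
  simp only [Matrix.mul_fin_two]
  ext i j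
  fin_cases i <;> fin_cases j <;> simp
  field_simp
  ring

theorem Dg_mem (a : F) (ha : a ≠ 0) : (Dg a ha, Dg a⁻¹ (inv_ne_zero ha)) ∈
    (Gam : Subgroup (GL (Fin 2) F × GL (Fin 2) F)) := by
  rw [mem_Gam]
  show (a * 1 - 0 * 0) * (a⁻¹ * 1 - 0 * 0) = 1
  field_simp
  ring

theorem Dg_mem' (a : F) (ha : a ≠ 0) : (Dg a⁻¹ (inv_ne_zero ha), Dg a ha) ∈
    (Gam : Subgroup (GL (Fin 2) F × GL (Fin 2) F)) := by
  rw [mem_Gam]
  show (a⁻¹ * 1 - 0 * 0) * (a * 1 - 0 * 0) = 1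
  field_simp
  ring

theorem range_le (a : F) (ha : a ≠ 0) (ha1 : a ≠ 1) :
    (psi2 : SL2 F × SL2 F →* G4 F).range ≤ commutator (G4 F) := by
  have hne1 : a - 1 ≠ 0 := sub_ne_zero.2 ha1
  have hne2 : a⁻¹ - 1 ≠ 0 := by
    intro h
    apply ha1
    have : a⁻¹ = 1 := by linear_combination h
    rw [inv_eq_one] at this
    exact this
  have hcomm : ∀ (δ u w : GamT F), δ * u = w * u * δ → Rho w ∈ commutator (G4 F) := by
    intro δ u w h
    rw [← comm_eq_of h, map_commutatorElement]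
    exact Subgroup.commutator_mem_commutator (Subgroup.mem_top _) (Subgroup.mem_top _)
  have h1 : ∀ s : SL2 F, psi2 (s, 1) ∈ commutator (G4 F) := by
    intro s
    refine top_le_of ((commutator (G4 F)).comap (psi2.comp (MonoidHom.inl (SL2 F) (SL2 F)))) ?_ ?_ s
    · intro t
      rw [Subgroup.mem_comap]
      have e : t = (a - 1) * (t / (a - 1)) := by field_simp
      rw [e]
      refine hcomm ⟨_, Dg_mem a ha⟩ (emb (U (t / (a - 1)), 1)) (emb (U ((a - 1) * (t / (a - 1))), 1)) ?_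
      apply Subtype.ext
      apply Prod.ext
      · exact Dg_U a ha _
      · show Dg a⁻¹ (inv_ne_zero ha) * Matrix.SpecialLinearGroup.toGL 1 =
          Matrix.SpecialLinearGroup.toGL 1 * Matrix.SpecialLinearGroup.toGL 1 * Dg a⁻¹ (inv_ne_zero ha)
        simp
    · intro t
      rw [Subgroup.mem_comap]
      have e : t = (a⁻¹ - 1) * (t / (a⁻¹ - 1)) := by field_simp
      rw [e]
      refine hcomm ⟨_, Dg_mem a ha⟩ (emb (L (t / (a⁻¹ - 1)), 1))
        (emb (L ((a⁻¹ - 1) * (t / (a⁻¹ - 1))), 1)) ?_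
      apply Subtype.ext
      apply Prod.ext
      · exact Dg_L a ha _
      · show Dg a⁻¹ (inv_ne_zero ha) * Matrix.SpecialLinearGroup.toGL 1 =
          Matrix.SpecialLinearGroup.toGL 1 * Matrix.SpecialLinearGroup.toGL 1 * Dg a⁻¹ (inv_ne_zero ha)
        simp
  have h2 : ∀ s : SL2 F, psi2 (1, s) ∈ commutator (G4 F) := by
    intro s
    refine top_le_of ((commutator (G4 F)).comap (psi2.comp (MonoidHom.inr (SL2 F) (SL2 F)))) ?_ ?_ s
    · intro t
      rw [Subgroup.mem_comap]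
      have e : t = (a - 1) * (t / (a - 1)) := by field_simp
      rw [e]
      refine hcomm ⟨_, Dg_mem' a ha⟩ (emb (1, U (t / (a - 1)))) (emb (1, U ((a - 1) * (t / (a - 1))))) ?_
      apply Subtype.ext
      apply Prod.ext
      · show Dg a⁻¹ (inv_ne_zero ha) * Matrix.SpecialLinearGroup.toGL 1 =
          Matrix.SpecialLinearGroup.toGL 1 * Matrix.SpecialLinearGroup.toGL 1 * Dg a⁻¹ (inv_ne_zero ha)
        simp
      · exact Dg_U a ha _
    · intro t
      rw [Subgroup.mem_comap]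
      have e : t = (a⁻¹ - 1) * (t / (a⁻¹ - 1)) := by field_simp
      rw [e]
      refine hcomm ⟨_, Dg_mem' a ha⟩ (emb (1, L (t / (a⁻¹ - 1))))
        (emb (1, L ((a⁻¹ - 1) * (t / (a⁻¹ - 1))))) ?_
      apply Subtype.ext
      apply Prod.ext
      · show Dg a⁻¹ (inv_ne_zero ha) * Matrix.SpecialLinearGroup.toGL 1 =
          Matrix.SpecialLinearGroup.toGL 1 * Matrix.SpecialLinearGroup.toGL 1 * Dg a⁻¹ (inv_ne_zero ha)
        simp
      · exact Dg_L a ha _
  rintro _ ⟨⟨s, t⟩, rfl⟩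
  have : ((s, t) : SL2 F × SL2 F) = (s, 1) * (1, t) := by simp
  rw [this, map_mul]
  exact Subgroup.mul_mem _ (h1 s) (h2 t)

theorem central_of_sc {s : SL2 F} {u : Fˣ} (h : Matrix.SpecialLinearGroup.toGL s = sc u) :
    s ∈ Subgroup.center (SL2 F) := by
  have e : ∀ i j, s i j = (sc u) i j := fun i j => by rw [← h]; rfl
  rw [Matrix.SpecialLinearGroup.mem_center_iff]
  refine ⟨u, ?_, ?_⟩
  · have hd := SL_det s
    rw [e, e, e, e, sc00, sc01, sc10, sc11] at hd
    simp only [Fintype.card_fin]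
    linear_combination hd
  · ext i j
    fin_cases i <;> fin_cases j
    · simp; exact (e 0 0).symm
    · simp; exact (e 0 1).symm
    · simp; exact (e 1 0).symm
    · simp; exact (e 1 1).symm

theorem psi2_ker_le {e : SL2 F × SL2 F} (h : psi2 e = 1) :
    e.1 ∈ Subgroup.center (SL2 F) ∧ e.2 ∈ Subgroup.center (SL2 F) := by
  have h1 : emb e ∈ (Rho : GamT F →* G4 F).ker := h
  rw [Rho_ker] at h1
  obtain ⟨u, hu⟩ := h1
  have h2 : (sc u, sc u⁻¹) = (Matrix.SpecialLinearGroup.toGL e.1, Matrix.SpecialLinearGroup.toGL e.2) := by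
    rw [← emb_val, ← hu]; rfl
  exact ⟨central_of_sc (congrArg Prod.fst h2).symm, central_of_sc (congrArg Prod.snd h2).symm⟩

end aux

/-- PΩ^+_4(q) is isomorphic to PSL_2(q) x PSL_2(q) for q at least 3. -/
theorem result {F : Type*} [Field F] [Fintype F] (hF : 3 ≤ Fintype.card F) : Nonempty (Cfsg.POmega F (Cfsg.quadFormPlus 2 F) ≃* Matrix.ProjectiveSpecialLinearGroup (Fin 2) F × Matrix.ProjectiveSpecialLinearGroup (Fin 2) F) := by
  classical
  obtain ⟨a, ha, ha1⟩ : ∃ a : F, a ≠ 0 ∧ a ≠ 1 := by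
    by_contra hcon
    push Not at hcon
    have : (Finset.univ : Finset F) ⊆ {0, 1} := by
      intro x _
      by_cases hx : x = 0
      · simp [hx]
      · simp [hcon x hx]
    have h2 := Finset.card_le_card this
    have h3 : ({0, 1} : Finset F).card ≤ 2 := Finset.card_le_two
    rw [Finset.card_univ] at h2
    omega
  have hΩ : commutator (G4 F) = (psi2 : SL2 F × SL2 F →* G4 F).range :=
    le_antisymm commutator_le (range_le a ha ha1)
  let ψ' : SL2 F × SL2 F →* ↥(Cfsg.Omega F (Cfsg.quadFormPlus 2 F)) :=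
    psi2.codRestrict (commutator (G4 F)) (fun e => by rw [hΩ]; exact ⟨e, rfl⟩)
  have hψ' : Function.Surjective ψ' := by
    rintro ⟨x, hx⟩
    have hx' : x ∈ commutator (G4 F) := hx
    rw [hΩ] at hx'
    obtain ⟨e, he⟩ := hx'
    exact ⟨e, Subtype.ext he⟩
  let f : SL2 F × SL2 F →* Cfsg.POmega F (Cfsg.quadFormPlus 2 F) :=
    (QuotientGroup.mk' _).comp ψ'
  have hf : Function.Surjective f := (QuotientGroup.mk'_surjective _).comp hψ'
  let π : SL2 F × SL2 F →* Matrix.ProjectiveSpecialLinearGroup (Fin 2) F ×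
      Matrix.ProjectiveSpecialLinearGroup (Fin 2) F :=
    MonoidHom.prodMap (QuotientGroup.mk' _) (QuotientGroup.mk' _)
  have hπ : Function.Surjective π := by
    rintro ⟨x, y⟩
    obtain ⟨s, rfl⟩ := QuotientGroup.mk_surjective x
    obtain ⟨t, rfl⟩ := QuotientGroup.mk_surjective y
    exact ⟨(s, t), rfl⟩
  have hπker : ∀ e : SL2 F × SL2 F, π e = 1 ↔
      e.1 ∈ Subgroup.center (SL2 F) ∧ e.2 ∈ Subgroup.center (SL2 F) := by
    intro e
    rw [Prod.ext_iff]
    exact and_congr (QuotientGroup.eq_one_iff _) (QuotientGroup.eq_one_iff _)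
  have hker : f.ker = π.ker := by
    ext e
    rw [MonoidHom.mem_ker, MonoidHom.mem_ker, hπker]
    have hfe : f e = 1 ↔ ψ' e ∈ Subgroup.center ↥(Cfsg.Omega F (Cfsg.quadFormPlus 2 F)) :=
      QuotientGroup.eq_one_iff _
    rw [hfe, Subgroup.mem_center_iff]
    constructor
    · intro h
      have hc : ∀ e' : SL2 F × SL2 F, π e' * π e = π e * π e' := by
        intro e'
        have h1 := h (ψ' e')
        rw [← map_mul, ← map_mul] at h1
        have h2 : psi2 ((e * e')⁻¹ * (e' * e)) = 1 := by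
          have h3 : psi2 (e' * e) = psi2 (e * e') := congrArg Subtype.val h1
          rw [map_mul, map_inv, h3, inv_mul_cancel]
        have h4 := (hπker _).2 (psi2_ker_le h2)
        rw [map_mul, map_inv, inv_mul_eq_one] at h4
        rw [← map_mul, ← map_mul, h4]
      have c1 : (π e).1 ∈ Subgroup.center (Matrix.ProjectiveSpecialLinearGroup (Fin 2) F) := by
        rw [Subgroup.mem_center_iff]
        intro y
        obtain ⟨e', he'⟩ := hπ (y, 1)
        have := congrArg Prod.fst (hc e')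
        rw [he'] at this
        exact this
      have c2 : (π e).2 ∈ Subgroup.center (Matrix.ProjectiveSpecialLinearGroup (Fin 2) F) := by
        rw [Subgroup.mem_center_iff]
        intro y
        obtain ⟨e', he'⟩ := hπ (1, y)
        have := congrArg Prod.snd (hc e')
        rw [he'] at this
        exact this
      rw [Cfsg.Agent.S0298.center_PSL, Subgroup.mem_bot] at c1 c2
      exact (hπker e).1 (Prod.ext c1 c2)
    · rintro ⟨h1, h2⟩ y
      obtain ⟨e', rfl⟩ := hψ' y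
      rw [← map_mul, ← map_mul]
      congr 1
      rw [Subgroup.mem_center_iff] at h1 h2
      exact Prod.ext (h1 e'.1) (h2 e'.2)
  exact ⟨(QuotientGroup.quotientKerEquivOfSurjective f hf).symm.trans
    ((QuotientGroup.quotientMulEquivOfEq hker).trans
      (QuotientGroup.quotientKerEquivOfSurjective π hπ))⟩

end Cfsg.Agent.S0299
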