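import Cfsg.Statements.S0300
import Mathlib
import Cfsg.Agent.Lib.Helper29.O4n
import Cfsg.Agent.S0299

set_option autoImplicit false
open Cfsg

namespace Cfsg.Agent.S0300

section aux

open Matrix Cfsg.Agent.Lib.Helper29.O4m Cfsg.Agent.S0298
open Cfsg.Agent.Lib.Helper29.O4 (sc sc00 sc01 sc10 sc11)
open scoped commutatorElement

variable {F K : Type*} [Field F] [Field K] {a b : F} (C : Coord K a b)

abbrev Gm (F : Type*) [Field F] (a b : F) := ↥(Cfsg.isometryGroup F (Cfsg.quadFormMinus 1 F a b))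
abbrev SL2 (K : Type*) [Field K] := Matrix.SpecialLinearGroup (Fin 2) K

/-- squares in the norm one group -/
def sq : Subgroup C.N1 := (powMonoidHom 2 : C.N1 →* C.N1).range

noncomputable def d1 : C.Gam →* C.N1 where
  toFun γ := ⟨GeneralLinearGroup.det γ.1, γ.2⟩
  map_one' := Subtype.ext (map_one _)
  map_mul' γ δ := Subtype.ext (map_mul GeneralLinearGroup.det γ.1 δ.1)

noncomputable def dd : C.Gam →* C.N1 ⧸ sq C := (QuotientGroup.mk' (sq C)).comp (d1 C)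

theorem d1_sw (γ : C.Gam) : d1 C (C.sw γ) = (d1 C γ)⁻¹ := by
  apply eq_inv_of_mul_eq_one_right
  apply Subtype.ext
  apply Units.ext
  show ((GeneralLinearGroup.det γ.1 : Kˣ) : K) *
    ((GeneralLinearGroup.det (GeneralLinearGroup.map C.cj γ.1) : Kˣ) : K) = 1
  have h1 : ((GeneralLinearGroup.det (GeneralLinearGroup.map C.cj γ.1) : Kˣ) : K) =
      C.cj ((GeneralLinearGroup.det γ.1 : Kˣ) : K) := by
    rw [Cfsg.Agent.Lib.Helper29.O4.det_eq, Cfsg.Agent.Lib.Helper29.O4.det_eq, map_sub, map_mul,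
      map_mul]
    rfl
  rw [h1]
  exact C.mul_cj ((C.mem_N1 _).1 γ.2)

theorem dd_sw (γ : C.Gam) : dd C (C.sw γ) = dd C γ := by
  show QuotientGroup.mk (d1 C (C.sw γ)) = QuotientGroup.mk (d1 C γ)
  rw [d1_sw, QuotientGroup.eq, inv_inv]
  exact ⟨d1 C γ, by simp [pow_two]⟩

theorem tau_pow_Rho (i : ℕ) (γ : C.Gam) :
    ∃ γ' : C.Gam, dd C γ' = dd C γ ∧ tau a b ^ i * C.Rho γ = C.Rho γ' * tau a b ^ i := by
  induction i with
  | zero => exact ⟨γ, rfl, by simp⟩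
  | succ n ih =>
    obtain ⟨γ', h1, h2⟩ := ih
    refine ⟨C.sw γ', by rw [dd_sw, h1], ?_⟩
    rw [pow_succ', mul_assoc, h2, ← mul_assoc, C.tau_Rho, mul_assoc]

def W (c : C.N1 ⧸ sq C) (i : ℕ) (x : Gm F a b) : Prop :=
  ∃ γ : C.Gam, dd C γ = c ∧ x = C.Rho γ * tau a b ^ i

theorem W_mul {c d : C.N1 ⧸ sq C} {i j : ℕ} {x y : Gm F a b} (hx : W C c i x) (hy : W C d j y) :
    W C (c * d) (i + j) (x * y) := by
  obtain ⟨γ, rfl, rfl⟩ := hx
  obtain ⟨δ, rfl, rfl⟩ := hy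
  obtain ⟨δ', h1, h2⟩ := tau_pow_Rho C i δ
  refine ⟨γ * δ', by rw [map_mul, h1], ?_⟩
  rw [map_mul, pow_add]
  calc C.Rho γ * tau a b ^ i * (C.Rho δ * tau a b ^ j)
      = C.Rho γ * (tau a b ^ i * C.Rho δ) * tau a b ^ j := by group
    _ = C.Rho γ * C.Rho δ' * (tau a b ^ i * tau a b ^ j) := by rw [h2]; group

theorem tau_pow_inv (i : ℕ) : (tau a b ^ i)⁻¹ = tau a b ^ i := by
  rw [inv_eq_iff_mul_eq_one, ← pow_add, ← two_mul, pow_mul, pow_two, tau_mul_tau, one_pow]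

theorem W_inv {c : C.N1 ⧸ sq C} {i : ℕ} {x : Gm F a b} (hx : W C c i x) : W C c⁻¹ i x⁻¹ := by
  obtain ⟨γ, rfl, rfl⟩ := hx
  obtain ⟨δ', h1, h2⟩ := tau_pow_Rho C i γ⁻¹
  refine ⟨δ', by rw [h1, map_inv], ?_⟩
  rw [_root_.mul_inv_rev, tau_pow_inv, ← map_inv, h2]

noncomputable def emb : SL2 K →* C.Gam where
  toFun e := ⟨Matrix.SpecialLinearGroup.toGL e, by
    rw [C.mem_Gam]
    have h1 := SL_det e
    show C.Nm (e 0 0 * e 1 1 - e 0 1 * e 1 0) = 1
    rw [h1, map_one]⟩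
  map_one' := by
    apply Subtype.ext
    simp
  map_mul' e e' := by
    apply Subtype.ext
    simp

theorem emb_val (e : SL2 K) : (emb C e).1 = Matrix.SpecialLinearGroup.toGL e := rfl

noncomputable def psi3 : SL2 K →* Gm F a b := C.Rho.comp (emb C)

theorem Rho_mem_range_of_dd
    (hab : ∀ z₁ z₂ : F, z₁ ^ 2 + a * z₁ * z₂ + b * z₂ ^ 2 = 0 → z₁ = 0 ∧ z₂ = 0)
    (γ : C.Gam) (h : dd C γ = 1) : C.Rho γ ∈ (psi3 C).range := by
  have h1 : d1 C γ ∈ sq C := (QuotientGroup.eq_one_iff _).1 h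
  obtain ⟨l, hl⟩ := h1
  have hl' : l ^ 2 = d1 C γ := hl
  obtain ⟨γ', hγ'⟩ : ∃ γ', γ' = γ * C.iota l⁻¹ := ⟨_, rfl⟩
  have hR : C.Rho γ' = C.Rho γ := by
    have : C.iota l⁻¹ ∈ C.Rho.ker := by rw [C.Rho_ker hab]; exact ⟨_, rfl⟩
    rw [hγ', map_mul, MonoidHom.mem_ker.1 this, mul_one]
  have hd1 : GeneralLinearGroup.det γ'.1 = 1 := by
    rw [hγ']
    show GeneralLinearGroup.det (γ.1 * sc (l⁻¹ : C.N1).1) = 1
    rw [map_mul, Cfsg.Agent.S0299.det_sc]
    have h2 : GeneralLinearGroup.det γ.1 = (l.1) ^ 2 := by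
      have := congrArg Subtype.val hl'
      exact this.symm
    rw [h2]
    show l.1 ^ 2 * (l.1⁻¹) ^ 2 = 1
    simp
  have m1 : γ'.1 ∈ (GeneralLinearGroup.det : GL (Fin 2) K →* Kˣ).ker := hd1
  rw [← Cfsg.Agent.Lib.Helper12.range_toGL_eq_ker_det] at m1
  obtain ⟨s, hs⟩ := m1
  refine ⟨s, ?_⟩
  rw [← hR]
  show C.Rho (emb C s) = C.Rho γ'
  congr 1
  apply Subtype.ext
  rw [emb_val]
  exact hs

theorem commutator_le [Fintype F] [Fintype K] (hK : Fintype.card K = Fintype.card F ^ 2)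
    (hab : ∀ z₁ z₂ : F, z₁ ^ 2 + a * z₁ * z₂ + b * z₂ ^ 2 = 0 → z₁ = 0 ∧ z₂ = 0) :
    commutator (Gm F a b) ≤ (psi3 C).range := by
  rw [commutator_def, Subgroup.commutator_le]
  intro x _ y _
  have hW : ∀ x : Gm F a b, ∃ c i, W C c i x := by
    intro x
    obtain ⟨γ, h | h⟩ := C.exists_pm hK hab x
    · exact ⟨dd C γ, 0, γ, rfl, by rw [h]; simp⟩
    · exact ⟨dd C γ, 1, γ, rfl, by rw [h]; simp⟩
  obtain ⟨c, i, hx⟩ := hW x
  obtain ⟨d, j, hy⟩ := hW y
  have h := W_mul C (W_mul C (W_mul C hx hy) (W_inv C hx)) (W_inv C hy)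
  obtain ⟨γ, h1, h2⟩ := h
  have e1 : c * d * c⁻¹ * d⁻¹ = 1 := by
    rw [mul_comm c d]; group
  have e2 : tau a b ^ (i + j + i + j) = 1 := by
    have : i + j + i + j = 2 * (i + j) := by ring
    rw [this, pow_mul, pow_two, tau_mul_tau, one_pow]
  rw [commutatorElement_def, h2, e2, mul_one]
  exact Rho_mem_range_of_dd C hab γ (h1.trans e1)

def Ds (t : K) (ht : t ≠ 0) : SL2 K :=
  ⟨!![t, 0; 0, t⁻¹], by rw [Matrix.det_fin_two_of]; field_simp; ring⟩

theorem Ds_U (t : K) (ht : t ≠ 0) (s : K) :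
    Ds t ht * U s = U ((t ^ 2 - 1) * s) * U s * Ds t ht := by
  apply Subtype.ext
  show (!![t, 0; 0, t⁻¹] : Matrix (Fin 2) (Fin 2) K) * !![1, s; 0, 1] =
    !![1, (t ^ 2 - 1) * s; 0, 1] * !![1, s; 0, 1] * !![t, 0; 0, t⁻¹]
  simp only [Matrix.mul_fin_two]
  ext i j
  fin_cases i <;> fin_cases j <;> simp
  field_simp
  ring

theorem Ds_L (t : K) (ht : t ≠ 0) (s : K) :
    Ds t ht * L s = L (((t⁻¹) ^ 2 - 1) * s) * L s * Ds t ht := by
  apply Subtype.ext
  show (!![t, 0; 0, t⁻¹] : Matrix (Fin 2) (Fin 2) K) * !![1, 0; s, 1] =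
    !![1, 0; ((t⁻¹) ^ 2 - 1) * s, 1] * !![1, 0; s, 1] * !![t, 0; 0, t⁻¹]
  simp only [Matrix.mul_fin_two]
  ext i j
  fin_cases i <;> fin_cases j <;> simp
  field_simp
  ring

theorem range_le (t : K) (ht : t ≠ 0) (ht1 : t ^ 2 ≠ 1) :
    (psi3 C).range ≤ commutator (Gm F a b) := by
  have hne1 : t ^ 2 - 1 ≠ 0 := sub_ne_zero.2 ht1
  have hne2 : (t⁻¹) ^ 2 - 1 ≠ 0 := by
    intro h
    apply ht1
    have h1 : (t⁻¹) ^ 2 = 1 := by linear_combination h
    rw [inv_pow, inv_eq_one] at h1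
    exact h1
  have hcomm : ∀ (δ u w : SL2 K), δ * u = w * u * δ → psi3 C w ∈ commutator (Gm F a b) := by
    intro δ u w h
    rw [← comm_eq_of h, map_commutatorElement]
    exact Subgroup.commutator_mem_commutator (Subgroup.mem_top _) (Subgroup.mem_top _)
  rintro _ ⟨s, rfl⟩
  refine top_le_of ((commutator (Gm F a b)).comap (psi3 C)) ?_ ?_ s
  · intro r
    rw [Subgroup.mem_comap]
    have e : r = (t ^ 2 - 1) * (r / (t ^ 2 - 1)) := by field_simp
    rw [e]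
    exact hcomm _ _ _ (Ds_U t ht _)
  · intro r
    rw [Subgroup.mem_comap]
    have e : r = ((t⁻¹) ^ 2 - 1) * (r / ((t⁻¹) ^ 2 - 1)) := by field_simp
    rw [e]
    exact hcomm _ _ _ (Ds_L t ht _)

theorem psi3_ker_le
    (hab : ∀ z₁ z₂ : F, z₁ ^ 2 + a * z₁ * z₂ + b * z₂ ^ 2 = 0 → z₁ = 0 ∧ z₂ = 0)
    {e : SL2 K} (h : psi3 C e = 1) : e ∈ Subgroup.center (SL2 K) := by
  have h1 : emb C e ∈ C.Rho.ker := h
  rw [C.Rho_ker hab] at h1
  obtain ⟨u, hu⟩ := h1
  have h2 : sc u.1 = Matrix.SpecialLinearGroup.toGL e := by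
    rw [← emb_val C, ← hu]; rfl
  exact Cfsg.Agent.S0299.central_of_sc h2.symm

end aux

/-- PΩ^-_4(q) is isomorphic to PSL_2(q^2). -/
theorem result {F K : Type*} [Field F] [Fintype F] [Field K] [Fintype K] {q : ℕ} (hF : Fintype.card F = q) (hK : Fintype.card K = q ^ 2) (a b : F) (hab : ∀ z₁ z₂ : F, z₁ ^ 2 + a * z₁ * z₂ + b * z₂ ^ 2 = 0 → z₁ = 0 ∧ z₂ = 0) : Nonempty (Cfsg.POmega F (Cfsg.quadFormMinus 1 F a b) ≃* Matrix.ProjectiveSpecialLinearGroup (Fin 2) K) := by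
  classical
  subst hF
  obtain ⟨C⟩ := Cfsg.Agent.Lib.Helper29.O4m.exists_coord hK hab
  obtain ⟨t, ht, ht1⟩ : ∃ t : K, t ≠ 0 ∧ t ^ 2 ≠ 1 := by
    by_contra hcon
    push Not at hcon
    have : (Finset.univ : Finset K) ⊆ {0, 1, -1} := by
      intro x _
      by_cases hx : x = 0
      · simp [hx]
      · have h2 := hcon x hx
        have h3 : (x - 1) * (x + 1) = 0 := by linear_combination h2
        rcases mul_eq_zero.1 h3 with h4 | h4
        · have : x = 1 := by linear_combination h4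
          simp [this]
        · have : x = -1 := by linear_combination h4
          simp [this]
    have h2 := Finset.card_le_card this
    have h3 : ({0, 1, -1} : Finset K).card ≤ 3 := Finset.card_le_three
    rw [Finset.card_univ, hK] at h2
    have hq : 2 ≤ Fintype.card F := Fintype.one_lt_card
    have : 2 ^ 2 ≤ Fintype.card F ^ 2 := Nat.pow_le_pow_left hq 2
    omega
  have hΩ : commutator (Gm F a b) = (psi3 C).range :=
    le_antisymm (commutator_le C hK hab) (range_le C t ht ht1)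
  let ψ' : SL2 K →* ↥(Cfsg.Omega F (Cfsg.quadFormMinus 1 F a b)) :=
    (psi3 C).codRestrict (commutator (Gm F a b)) (fun e => by rw [hΩ]; exact ⟨e, rfl⟩)
  have hψ' : Function.Surjective ψ' := by
    rintro ⟨x, hx⟩
    have hx' : x ∈ commutator (Gm F a b) := hx
    rw [hΩ] at hx'
    obtain ⟨e, he⟩ := hx'
    exact ⟨e, Subtype.ext he⟩
  let f : SL2 K →* Cfsg.POmega F (Cfsg.quadFormMinus 1 F a b) :=
    (QuotientGroup.mk' _).comp ψ'
  have hf : Function.Surjective f := (QuotientGroup.mk'_surjective _).comp hψ'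
  have hker : f.ker = Subgroup.center (SL2 K) := by
    ext e
    rw [MonoidHom.mem_ker]
    have hfe : f e = 1 ↔ ψ' e ∈ Subgroup.center ↥(Cfsg.Omega F (Cfsg.quadFormMinus 1 F a b)) :=
      QuotientGroup.eq_one_iff _
    rw [hfe, Subgroup.mem_center_iff]
    constructor
    · intro h
      have c1 : (QuotientGroup.mk e : Matrix.ProjectiveSpecialLinearGroup (Fin 2) K) ∈
          Subgroup.center (Matrix.ProjectiveSpecialLinearGroup (Fin 2) K) := by
        rw [Subgroup.mem_center_iff]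
        intro y
        obtain ⟨e', rfl⟩ := QuotientGroup.mk_surjective y
        have h1 := h (ψ' e')
        rw [← map_mul, ← map_mul] at h1
        have h2 : psi3 C ((e' * e)⁻¹ * (e * e')) = 1 := by
          have h3 : psi3 C (e' * e) = psi3 C (e * e') := congrArg Subtype.val h1
          rw [map_mul, map_inv, h3, inv_mul_cancel]
        rw [← QuotientGroup.mk_mul, ← QuotientGroup.mk_mul, QuotientGroup.eq]
        exact psi3_ker_le C hab h2
      rw [Cfsg.Agent.S0298.center_PSL, Subgroup.mem_bot] at c1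
      exact (QuotientGroup.eq_one_iff _).1 c1
    · intro h1 y
      obtain ⟨e', rfl⟩ := hψ' y
      rw [← map_mul, ← map_mul]
      congr 1
      rw [Subgroup.mem_center_iff] at h1
      exact h1 e'
  exact ⟨(QuotientGroup.quotientKerEquivOfSurjective f hf).symm.trans
    (QuotientGroup.quotientMulEquivOfEq hker)⟩

end Cfsg.Agent.S0300
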