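import Cfsg.Statements.S0301
import Mathlib
import Cfsg.Agent.Lib.Helper29.O5b
import Cfsg.Agent.Lib.Helper29.O5c
import Cfsg.Agent.Lib.Helper12.SpCard
import Cfsg.Agent.S0246

set_option autoImplicit false
open Cfsg

namespace Cfsg.Agent.S0301

section aux

open Matrix Cfsg.Agent.Lib.Helper29.O5

variable {F : Type*} [Field F]

abbrev G5 (F : Type*) [Field F] := ↥(Cfsg.isometryGroup F (Cfsg.quadFormOdd 2 F))

theorem range_le (h2 : (2 : F) ≠ 0) : (Psi : Sp4 F →* G5 F).range ≤ commutator (G5 F) := by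
  rw [MonoidHom.range_eq_map, ← Cfsg.Agent.Lib.Helper12.sp_perfect_of_two_ne (m := 2) (by norm_num) h2,
    commutator_def, Subgroup.map_commutator, commutator_def]
  exact Subgroup.commutator_mono le_top le_top

theorem grun {G : Type*} [Group G] (hp : commutator G = ⊤) {x : G}
    (hx : ∀ g : G, (g * x)⁻¹ * (x * g) ∈ Subgroup.center G) : x ∈ Subgroup.center G := by
  let φ : G →* Subgroup.center G :=
    { toFun := fun g => ⟨(g * x)⁻¹ * (x * g), hx g⟩
      map_one' := by apply Subtype.ext; simp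
      map_mul' := fun g h => by
        apply Subtype.ext
        show (g * h * x)⁻¹ * (x * (g * h)) = (g * x)⁻¹ * (x * g) * ((h * x)⁻¹ * (x * h))
        have hc := Subgroup.mem_center_iff.1 (hx g) (x⁻¹ * h⁻¹ * x)
        calc (g * h * x)⁻¹ * (x * (g * h)) = (x⁻¹ * h⁻¹ * x) * ((g * x)⁻¹ * (x * g)) * h := by
              simp [mul_assoc]
          _ = (g * x)⁻¹ * (x * g) * (x⁻¹ * h⁻¹ * x) * h := by rw [hc]
          _ = _ := by simp [mul_assoc] }
  have hk : φ.ker = ⊤ := by
    rw [eq_top_iff, ← hp, commutator_def, Subgroup.commutator_le]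
    intro a _ b _
    rw [MonoidHom.mem_ker, map_commutatorElement, commutatorElement_eq_one_iff_mul_comm]
    exact Subtype.ext (Subgroup.mem_center_iff.1 (φ b).2 (φ a).1)
  rw [Subgroup.mem_center_iff]
  intro g
  have h0 : φ g = 1 := by
    have : g ∈ φ.ker := by rw [hk]; trivial
    exact this
  have h1 : (g * x)⁻¹ * (x * g) = 1 := congrArg Subtype.val h0
  exact inv_mul_eq_one.1 h1

end aux

open Matrix Cfsg.Agent.Lib.Helper29.O5 in
/-- PΩ_5(q) is isomorphic to PSp_4(q) for q odd. -/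
theorem result {F : Type*} [Field F] [Fintype F] (hodd : Odd (Fintype.card F)) : Nonempty (Cfsg.POmega F (Cfsg.quadFormOdd 2 F) ≃* Cfsg.PSp 2 F) := by
  classical
  have h2 : (2 : F) ≠ 0 := Cfsg.Agent.Lib.Helper16.two_ne_zero_of_odd_card hodd
  let ψ' : Sp4 F →* ↥(Cfsg.Omega F (Cfsg.quadFormOdd 2 F)) :=
    Psi.codRestrict (commutator (G5 F)) (fun e => range_le h2 ⟨e, rfl⟩)
  let f : Sp4 F →* Cfsg.POmega F (Cfsg.quadFormOdd 2 F) :=
    (QuotientGroup.mk' _).comp ψ'
  have hker_le : f.ker ≤ Subgroup.center (Sp4 F) := by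
    intro e he
    rw [MonoidHom.mem_ker] at he
    have hfe : f e = 1 ↔ ψ' e ∈ Subgroup.center ↥(Cfsg.Omega F (Cfsg.quadFormOdd 2 F)) :=
      QuotientGroup.eq_one_iff _
    rw [hfe, Subgroup.mem_center_iff] at he
    apply grun (Cfsg.Agent.Lib.Helper12.sp_perfect_of_two_ne (F := F) (m := 2) (by norm_num) h2)
    intro e'
    have h1 := he (ψ' e')
    rw [← map_mul, ← map_mul] at h1
    have h2' : Psi ((e' * e)⁻¹ * (e * e')) = 1 := by
      have h3 : Psi (e' * e) = Psi (e * e') := congrArg Subtype.val h1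
      rw [map_mul, map_inv, h3, inv_mul_cancel]
    exact Psi_ker_le h2 h2'
  have cSp : Nat.card (Sp4 F) = 2 * Nat.card (Cfsg.POmega F (Cfsg.quadFormOdd 2 F)) := by
    rw [card_POmega_odd rfl hodd 2 le_rfl, Cfsg.Agent.Lib.Helper12.card_Sp rfl 2]
  have cZ : Nat.card (Subgroup.center (Sp4 F)) = 2 := by
    rw [Cfsg.Agent.S0246.result rfl 2 (by norm_num)]
    obtain ⟨k, hk⟩ := hodd
    rw [hk]
    simp
  have c1 : Nat.card (Sp4 F) = Nat.card f.range * Nat.card f.ker := by
    rw [Subgroup.card_eq_card_quotient_mul_card_subgroup f.ker,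
      Nat.card_congr (QuotientGroup.quotientKerEquivRange f).toEquiv]
  have c2 : Nat.card f.ker ≤ 2 := by
    exact le_trans (Subgroup.card_le_of_le hker_le) cZ.le
  have c3 : Nat.card f.range ≤ Nat.card (Cfsg.POmega F (Cfsg.quadFormOdd 2 F)) :=
    Subgroup.card_le_card_group _
  have c4 : 0 < Nat.card (Cfsg.POmega F (Cfsg.quadFormOdd 2 F)) := Nat.card_pos
  have c5 : Nat.card f.range = Nat.card (Cfsg.POmega F (Cfsg.quadFormOdd 2 F)) := by
    nlinarith
  have c6 : Nat.card f.ker = 2 := by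
    rw [c5, cSp, mul_comm] at c1
    exact (Nat.eq_of_mul_eq_mul_left c4 c1).symm
  have hf : Function.Surjective f := by
    rw [← MonoidHom.range_eq_top]
    exact Subgroup.eq_top_of_card_eq _ c5
  have hker : f.ker = Subgroup.center (Sp4 F) :=
    Subgroup.eq_of_le_of_card_ge hker_le (by rw [cZ, c6])
  exact ⟨(QuotientGroup.quotientKerEquivOfSurjective f hf).symm.trans
    (QuotientGroup.quotientMulEquivOfEq hker)⟩

end Cfsg.Agent.S0301
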