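import Cfsg.Statements.S0302
import Mathlib
import Cfsg.Agent.Lib.Helper29.O6b
import Cfsg.Agent.Lib.Helper12.SLn

set_option autoImplicit false
open Cfsg

namespace Cfsg.Agent.S0302

section aux

open Matrix Cfsg.Agent.Lib.Helper29.O6
open scoped commutatorElement

variable {F : Type*} [Field F]

abbrev GamT (F : Type*) [Field F] := ↥(Gam : Subgroup (Fˣ × GL (Fin 4) F))
abbrev G6 (F : Type*) [Field F] := ↥(Cfsg.isometryGroup F (Cfsg.quadFormPlus 3 F))
abbrev SL4 (F : Type*) [Field F] := Matrix.SpecialLinearGroup (Fin 4) F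

/-- squares in `Fˣ` -/
def sq (F : Type*) [Field F] : Subgroup Fˣ := (powMonoidHom 2 : Fˣ →* Fˣ).range

noncomputable def d1 : GamT F →* Fˣ := (MonoidHom.fst _ _).comp (Subgroup.subtype _)

noncomputable def dd : GamT F →* Fˣ ⧸ sq F := (QuotientGroup.mk' (sq F)).comp d1

theorem dd_sw (γ : GamT F) : dd (sw γ) = dd γ := by
  show QuotientGroup.mk (γ.1.1 * GeneralLinearGroup.det γ.1.2) = QuotientGroup.mk γ.1.1
  rw [QuotientGroup.eq]
  have h := (mem_Gam' γ.1).1 γ.2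
  refine ⟨γ.1.1, ?_⟩
  show γ.1.1 ^ 2 = _
  have h2 : GeneralLinearGroup.det γ.1.2 = (γ.1.1 ^ 2)⁻¹ := eq_inv_of_mul_eq_one_right h
  rw [h2]
  group

theorem tau_pow_Rho (i : ℕ) (γ : GamT F) :
    ∃ γ' : GamT F, dd γ' = dd γ ∧ tau ^ i * Rho γ = Rho γ' * tau ^ i := by
  induction i with
  | zero => exact ⟨γ, rfl, by simp⟩
  | succ n ih =>
    obtain ⟨γ', h1, h2⟩ := ih
    refine ⟨sw γ', by rw [dd_sw, h1], ?_⟩
    rw [pow_succ', mul_assoc, h2, ← mul_assoc, tau_Rho, mul_assoc]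

def W (c : Fˣ ⧸ sq F) (i : ℕ) (x : G6 F) : Prop := ∃ γ : GamT F, dd γ = c ∧ x = Rho γ * tau ^ i

theorem W_mul {c d : Fˣ ⧸ sq F} {i j : ℕ} {x y : G6 F} (hx : W c i x) (hy : W d j y) :
    W (c * d) (i + j) (x * y) := by
  obtain ⟨γ, rfl, rfl⟩ := hx
  obtain ⟨δ, rfl, rfl⟩ := hy
  obtain ⟨δ', h1, h2⟩ := tau_pow_Rho i δ
  refine ⟨γ * δ', by rw [map_mul, h1], ?_⟩
  rw [map_mul, pow_add]
  calc Rho γ * tau ^ i * (Rho δ * tau ^ j) = Rho γ * (tau ^ i * Rho δ) * tau ^ j := by group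
    _ = Rho γ * Rho δ' * (tau ^ i * tau ^ j) := by rw [h2]; group

theorem tau_pow_inv (i : ℕ) : ((tau : G6 F) ^ i)⁻¹ = tau ^ i := by
  rw [inv_eq_iff_mul_eq_one, ← pow_add, ← two_mul, pow_mul, pow_two, tau_mul_tau, one_pow]

theorem W_inv {c : Fˣ ⧸ sq F} {i : ℕ} {x : G6 F} (hx : W c i x) : W c⁻¹ i x⁻¹ := by
  obtain ⟨γ, rfl, rfl⟩ := hx
  obtain ⟨δ', h1, h2⟩ := tau_pow_Rho i γ⁻¹
  refine ⟨δ', by rw [h1, map_inv], ?_⟩
  rw [_root_.mul_inv_rev, tau_pow_inv, ← map_inv, h2]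

noncomputable def emb : SL4 F →* GamT F where
  toFun e := ⟨(1, Matrix.SpecialLinearGroup.toGL e), by
    rw [mem_Gam]
    show ((1 : Fˣ) : F) ^ 2 * (e : Matrix (Fin 4) (Fin 4) F).det = 1
    rw [e.det_coe]; simp⟩
  map_one' := by
    apply Subtype.ext
    simp
  map_mul' e e' := by
    apply Subtype.ext
    simp

theorem emb_val (e : SL4 F) : (emb e).1 = (1, Matrix.SpecialLinearGroup.toGL e) := rfl

noncomputable def psi6 : SL4 F →* G6 F := Rho.comp emb

theorem Rho_mem_range_of_dd (γ : GamT F) (h : dd γ = 1) :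
    Rho γ ∈ (psi6 : SL4 F →* G6 F).range := by
  have h1 : d1 γ ∈ sq F := (QuotientGroup.eq_one_iff _).1 h
  obtain ⟨l, hl⟩ := h1
  have hl' : l ^ 2 = γ.1.1 := hl
  obtain ⟨γ', hγ'⟩ : ∃ γ', γ' = γ * iota l := ⟨_, rfl⟩
  have hR : Rho γ' = Rho γ := by
    have : iota l ∈ (Rho : GamT F →* G6 F).ker := by rw [Rho_ker]; exact ⟨_, rfl⟩
    rw [hγ', map_mul, MonoidHom.mem_ker.1 this, mul_one]
  have hc1 : γ'.1.1 = 1 := by
    rw [hγ']
    show γ.1.1 * (l⁻¹) ^ 2 = 1
    rw [← hl']; simp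
  have hd1 : GeneralLinearGroup.det γ'.1.2 = 1 := by
    have := (mem_Gam' γ'.1).1 γ'.2
    rwa [hc1, one_pow, one_mul] at this
  have m1 : γ'.1.2 ∈ (GeneralLinearGroup.det : GL (Fin 4) F →* Fˣ).ker := hd1
  rw [← Cfsg.Agent.Lib.Helper12.range_toGL_eq_ker_det] at m1
  obtain ⟨s, hs⟩ := m1
  refine ⟨s, ?_⟩
  rw [← hR]
  show Rho (emb s) = Rho γ'
  congr 1
  apply Subtype.ext
  rw [emb_val]
  exact Prod.ext hc1.symm hs

theorem commutator_le [Fintype F] :
    commutator (G6 F) ≤ (psi6 : SL4 F →* G6 F).range := by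
  rw [commutator_def, Subgroup.commutator_le]
  intro x _ y _
  have hW : ∀ x : G6 F, ∃ c i, W c i x := by
    intro x
    obtain ⟨γ, h | h⟩ := exists_pm x
    · exact ⟨dd γ, 0, γ, rfl, by rw [h]; simp⟩
    · exact ⟨dd γ, 1, γ, rfl, by rw [h]; simp⟩
  obtain ⟨c, i, hx⟩ := hW x
  obtain ⟨d, j, hy⟩ := hW y
  have h := W_mul (W_mul (W_mul hx hy) (W_inv hx)) (W_inv hy)
  obtain ⟨γ, h1, h2⟩ := h
  have e1 : c * d * c⁻¹ * d⁻¹ = 1 := by
    rw [mul_comm c d]; group
  have e2 : (tau : G6 F) ^ (i + j + i + j) = 1 := by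
    have : i + j + i + j = 2 * (i + j) := by ring
    rw [this, pow_mul, pow_two, tau_mul_tau, one_pow]
  rw [commutatorElement_def, h2, e2, mul_one]
  exact Rho_mem_range_of_dd γ (h1.trans e1)

theorem range_le : (psi6 : SL4 F →* G6 F).range ≤ commutator (G6 F) := by
  rw [MonoidHom.range_eq_map, ← Cfsg.Agent.Lib.Helper12.sl_commutator_eq_top 4 (by norm_num),
    commutator_def, Subgroup.map_commutator, commutator_def]
  exact Subgroup.commutator_mono le_top le_top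

theorem center_PSL4 : Subgroup.center (Matrix.ProjectiveSpecialLinearGroup (Fin 4) F) = ⊥ := by
  haveI := Cfsg.Agent.Lib.Helper12.psl_isSimpleGroup (F := F) 4 (by norm_num)
  have h1 : Group.IsPerfect (SL4 F) := ⟨Cfsg.Agent.Lib.Helper12.sl_commutator_eq_top 4 (by norm_num)⟩
  have h2 : Group.IsPerfect (Matrix.ProjectiveSpecialLinearGroup (Fin 4) F) := inferInstance
  rcases (inferInstance : (Subgroup.center
    (Matrix.ProjectiveSpecialLinearGroup (Fin 4) F)).Normal).eq_bot_or_eq_top with h | h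
  · exact h
  · exfalso
    have h3 := (commutator_eq_bot_iff_center_eq_top _).2 h
    rw [h2.1] at h3
    exact top_ne_bot h3

theorem psi6_ker_le {e : SL4 F} (h : psi6 e = 1) : e ∈ Subgroup.center (SL4 F) := by
  have h1 : emb e ∈ (Rho : GamT F →* G6 F).ker := h
  rw [Rho_ker] at h1
  obtain ⟨u, hu⟩ := h1
  have h2 : GeneralLinearGroup.scalar (Fin 4) u = Matrix.SpecialLinearGroup.toGL e := by
    have := congrArg (fun γ : GamT F => γ.1.2) hu
    exact this
  rw [← Matrix.SpecialLinearGroup.toGL_mem_center_iff, ← h2,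
    GeneralLinearGroup.center_eq_range_scalar]
  exact ⟨u, rfl⟩

end aux

/-- PΩ^+_6(q) is isomorphic to PSL_4(q). -/
theorem result {F : Type*} [Field F] [Fintype F] : Nonempty (Cfsg.POmega F (Cfsg.quadFormPlus 3 F) ≃* Matrix.ProjectiveSpecialLinearGroup (Fin 4) F) := by
  classical
  have hΩ : commutator (G6 F) = (psi6 : SL4 F →* G6 F).range :=
    le_antisymm commutator_le range_le
  let ψ' : SL4 F →* ↥(Cfsg.Omega F (Cfsg.quadFormPlus 3 F)) :=
    psi6.codRestrict (commutator (G6 F)) (fun e => by rw [hΩ]; exact ⟨e, rfl⟩)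
  have hψ' : Function.Surjective ψ' := by
    rintro ⟨x, hx⟩
    have hx' : x ∈ commutator (G6 F) := hx
    rw [hΩ] at hx'
    obtain ⟨e, he⟩ := hx'
    exact ⟨e, Subtype.ext he⟩
  let f : SL4 F →* Cfsg.POmega F (Cfsg.quadFormPlus 3 F) :=
    (QuotientGroup.mk' _).comp ψ'
  have hf : Function.Surjective f := (QuotientGroup.mk'_surjective _).comp hψ'
  have hker : f.ker = Subgroup.center (SL4 F) := by
    ext e
    rw [MonoidHom.mem_ker]
    have hfe : f e = 1 ↔ ψ' e ∈ Subgroup.center ↥(Cfsg.Omega F (Cfsg.quadFormPlus 3 F)) :=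
      QuotientGroup.eq_one_iff _
    rw [hfe, Subgroup.mem_center_iff]
    constructor
    · intro h
      have c1 : (QuotientGroup.mk e : Matrix.ProjectiveSpecialLinearGroup (Fin 4) F) ∈
          Subgroup.center (Matrix.ProjectiveSpecialLinearGroup (Fin 4) F) := by
        rw [Subgroup.mem_center_iff]
        intro y
        obtain ⟨e', rfl⟩ := QuotientGroup.mk_surjective y
        have h1 := h (ψ' e')
        rw [← map_mul, ← map_mul] at h1
        have h2 : psi6 ((e' * e)⁻¹ * (e * e')) = 1 := by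
          have h3 : psi6 (e' * e) = psi6 (e * e') := congrArg Subtype.val h1
          rw [map_mul, map_inv, h3, inv_mul_cancel]
        rw [← QuotientGroup.mk_mul, ← QuotientGroup.mk_mul, QuotientGroup.eq]
        exact psi6_ker_le h2
      rw [center_PSL4, Subgroup.mem_bot] at c1
      exact (QuotientGroup.eq_one_iff _).1 c1
    · intro h1 y
      obtain ⟨e', rfl⟩ := hψ' y
      rw [← map_mul, ← map_mul]
      congr 1
      rw [Subgroup.mem_center_iff] at h1
      exact h1 e'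
  exact ⟨(QuotientGroup.quotientKerEquivOfSurjective f hf).symm.trans
    (QuotientGroup.quotientMulEquivOfEq hker)⟩

end Cfsg.Agent.S0302
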