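import Cfsg.Statements.S0304
import Cfsg.Agent.Lib.Helper6.SympMore

set_option autoImplicit false
open Cfsg

namespace Cfsg.Agent.S0304

open Matrix Cfsg.Agent.Lib.Helper6

section
variable {F : Type*} [Field F] [CharP F 2] {m : ℕ}

theorem qp_add (w w' : Fin m ⊕ Fin m → F) :
    quadFormPlus m F (w + w') = quadFormPlus m F w + quadFormPlus m F w' + sympForm m F w w' := by
  have h2 : (2 : F) = 0 := CharTwo.two_eq_zero
  rw [sympForm_explicit]
  simp only [quadFormPlus, Pi.add_apply, ← Finset.sum_add_distrib]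
  apply Finset.sum_congr rfl
  intro i _
  linear_combination (w (Sum.inl i) * w' (Sum.inr i)) * h2

omit [CharP F 2] in
theorem qp_smul (c : F) (w : Fin m ⊕ Fin m → F) :
    quadFormPlus m F (c • w) = c ^ 2 * quadFormPlus m F w := by
  simp only [quadFormPlus, Pi.smul_apply, smul_eq_mul, Finset.mul_sum]
  apply Finset.sum_congr rfl
  intro i _
  ring

omit [CharP F 2] in
theorem qo_eq (v : Unit ⊕ (Fin m ⊕ Fin m) → F) :
    quadFormOdd m F v = v (Sum.inl ()) ^ 2 + quadFormPlus m F (v ∘ Sum.inr) := rfl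

theorem qo_add (a b : Unit ⊕ (Fin m ⊕ Fin m) → F) :
    quadFormOdd m F (a + b) = quadFormOdd m F a + quadFormOdd m F b
      + sympForm m F (a ∘ Sum.inr) (b ∘ Sum.inr) := by
  rw [qo_eq, qo_eq, qo_eq]
  have h1 : (a + b) ∘ Sum.inr = a ∘ Sum.inr + b ∘ Sum.inr := rfl
  rw [h1, qp_add, Pi.add_apply, CharTwo.add_sq]
  ring

theorem sq_inj {a b : F} (h : a ^ 2 = b ^ 2) : a = b := by
  have h2 : (2 : F) = 0 := CharTwo.two_eq_zero
  have h1 : (a - b) ^ 2 = 0 := by linear_combination h + (b ^ 2 - a * b) * h2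
  exact sub_eq_zero.1 (pow_eq_zero_iff (two_ne_zero) |>.1 h1)

end

/-- In characteristic 2, O_{2m+1}(q) is isomorphic to Sp_{2m}(q). -/
theorem result {F : Type*} [Field F] [Fintype F] [CharP F 2] (m : ℕ) : Nonempty (Cfsg.isometryGroup F (Cfsg.quadFormOdd m F) ≃* Matrix.symplecticGroup (Fin m) F) := by
  classical
  have h2 : (2 : F) = 0 := CharTwo.two_eq_zero
  -- structure of an isometry
  have hstruct : ∀ g : Cfsg.isometryGroup F (Cfsg.quadFormOdd m F),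
      ((g : GL (Unit ⊕ (Fin m ⊕ Fin m)) F) : Matrix (Unit ⊕ (Fin m ⊕ Fin m)) (Unit ⊕ (Fin m ⊕ Fin m)) F).toBlocks₂₁ = 0 ∧
      ((g : GL (Unit ⊕ (Fin m ⊕ Fin m)) F) : Matrix (Unit ⊕ (Fin m ⊕ Fin m)) (Unit ⊕ (Fin m ⊕ Fin m)) F).toBlocks₁₁ = 1 := by
    intro g
    set M := ((g : GL (Unit ⊕ (Fin m ⊕ Fin m)) F) : Matrix (Unit ⊕ (Fin m ⊕ Fin m)) (Unit ⊕ (Fin m ⊕ Fin m)) F) with hM
    have hQ : ∀ v, quadFormOdd m F (M *ᵥ v) = quadFormOdd m F v := fun v => g.2 v v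
    set e₀ : Unit ⊕ (Fin m ⊕ Fin m) → F := Pi.single (Sum.inl ()) 1 with he₀
    have he₀r : e₀ ∘ Sum.inr = 0 := by ext j; simp [he₀]
    have h1 : ∀ v, sympForm m F ((M *ᵥ e₀) ∘ Sum.inr) ((M *ᵥ v) ∘ Sum.inr) = 0 := by
      intro v
      have h3 := hQ (e₀ + v)
      rw [mulVec_add, qo_add, qo_add, hQ, hQ, he₀r, sympForm_zero_left] at h3
      linear_combination h3
    have h4 : (M *ᵥ e₀) ∘ Sum.inr = 0 := by
      apply sympForm_nondeg_left
      intro w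
      have h5 := h1 (((g⁻¹ : Cfsg.isometryGroup F (Cfsg.quadFormOdd m F)) : GL (Unit ⊕ (Fin m ⊕ Fin m)) F).1 *ᵥ Sum.elim (0 : Unit → F) w)
      have h6 : M *ᵥ (((g⁻¹ : Cfsg.isometryGroup F (Cfsg.quadFormOdd m F)) : GL (Unit ⊕ (Fin m ⊕ Fin m)) F).1 *ᵥ Sum.elim (0 : Unit → F) w) = Sum.elim (0 : Unit → F) w := by
        rw [mulVec_mulVec, hM]
        have : ((g : GL (Unit ⊕ (Fin m ⊕ Fin m)) F) : Matrix (Unit ⊕ (Fin m ⊕ Fin m)) (Unit ⊕ (Fin m ⊕ Fin m)) F) * ((g⁻¹ : Cfsg.isometryGroup F (Cfsg.quadFormOdd m F)) : GL (Unit ⊕ (Fin m ⊕ Fin m)) F).1 = 1 := by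
          rw [Subgroup.coe_inv]
          exact (g : GL (Unit ⊕ (Fin m ⊕ Fin m)) F).mul_inv
        rw [this, one_mulVec]
      rw [h6, Sum.elim_comp_inr] at h5
      exact h5
    have h7 : (M *ᵥ e₀) (Sum.inl ()) = 1 := by
      have h8 := hQ e₀
      rw [qo_eq, qo_eq, h4, he₀r] at h8
      have h9 : e₀ (Sum.inl ()) = 1 := by simp [he₀]
      rw [h9] at h8
      apply sq_inj
      linear_combination h8
    constructor
    · ext i j
      have := congrFun h4 i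
      simpa [toBlocks₂₁, he₀] using this
    · ext i j
      simpa [toBlocks₁₁, he₀] using h7
  have hform : ∀ g : Cfsg.isometryGroup F (Cfsg.quadFormOdd m F),
      ((g : GL (Unit ⊕ (Fin m ⊕ Fin m)) F) : Matrix (Unit ⊕ (Fin m ⊕ Fin m)) (Unit ⊕ (Fin m ⊕ Fin m)) F) = fromBlocks 1
        ((g : GL (Unit ⊕ (Fin m ⊕ Fin m)) F) : Matrix (Unit ⊕ (Fin m ⊕ Fin m)) (Unit ⊕ (Fin m ⊕ Fin m)) F).toBlocks₁₂ 0
        ((g : GL (Unit ⊕ (Fin m ⊕ Fin m)) F) : Matrix (Unit ⊕ (Fin m ⊕ Fin m)) (Unit ⊕ (Fin m ⊕ Fin m)) F).toBlocks₂₂ := by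
    intro g
    conv_lhs => rw [← fromBlocks_toBlocks ((g : GL (Unit ⊕ (Fin m ⊕ Fin m)) F) : Matrix (Unit ⊕ (Fin m ⊕ Fin m)) (Unit ⊕ (Fin m ⊕ Fin m)) F),
      (hstruct g).1, (hstruct g).2]
  have hQblock : ∀ (R : Matrix Unit (Fin m ⊕ Fin m) F) (A : Matrix (Fin m ⊕ Fin m) (Fin m ⊕ Fin m) F)
      (v : Unit ⊕ (Fin m ⊕ Fin m) → F),
      quadFormOdd m F (fromBlocks 1 R 0 A *ᵥ v)
        = v (Sum.inl ()) ^ 2 + ((R *ᵥ (v ∘ Sum.inr)) ()) ^ 2 + quadFormPlus m F (A *ᵥ (v ∘ Sum.inr)) := by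
    intro R A v
    rw [qo_eq, fromBlocks_mulVec]
    simp only [Sum.elim_inl, Sum.elim_comp_inr, zero_mulVec, zero_add, one_mulVec, Pi.add_apply,
      Function.comp_apply, CharTwo.add_sq]
  have hsp : ∀ g : Cfsg.isometryGroup F (Cfsg.quadFormOdd m F),
      ((g : GL (Unit ⊕ (Fin m ⊕ Fin m)) F) : Matrix (Unit ⊕ (Fin m ⊕ Fin m)) (Unit ⊕ (Fin m ⊕ Fin m)) F).toBlocks₂₂ ∈ symplecticGroup (Fin m) F := by
    intro g
    rw [mem_symplecticGroup_iff_sympForm]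
    intro w w'
    set M := ((g : GL (Unit ⊕ (Fin m ⊕ Fin m)) F) : Matrix (Unit ⊕ (Fin m ⊕ Fin m)) (Unit ⊕ (Fin m ⊕ Fin m)) F) with hM
    have hQ : ∀ v, quadFormOdd m F (M *ᵥ v) = quadFormOdd m F v := fun v => g.2 v v
    have h3 := hQ (Sum.elim (0 : Unit → F) w + Sum.elim (0 : Unit → F) w')
    rw [mulVec_add, qo_add, qo_add, hQ, hQ] at h3
    have h4 : ∀ w : Fin m ⊕ Fin m → F, (M *ᵥ Sum.elim (0 : Unit → F) w) ∘ Sum.inr = M.toBlocks₂₂ *ᵥ w := by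
      intro w
      conv_lhs => rw [hM, hform g, fromBlocks_mulVec]
      simp only [Sum.elim_comp_inr, Sum.elim_comp_inl, zero_mulVec, zero_add]
      rfl
    rw [h4, h4, Sum.elim_comp_inr, Sum.elim_comp_inr] at h3
    linear_combination h3
  let Φ : Cfsg.isometryGroup F (Cfsg.quadFormOdd m F) →* symplecticGroup (Fin m) F :=
    { toFun := fun g => ⟨_, hsp g⟩
      map_one' := by
        apply Subtype.ext
        show (1 : Matrix (Unit ⊕ (Fin m ⊕ Fin m)) (Unit ⊕ (Fin m ⊕ Fin m)) F).toBlocks₂₂ = 1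
        rw [← fromBlocks_one, toBlocks_fromBlocks₂₂]
      map_mul' := by
        intro a b
        apply Subtype.ext
        show (((a : GL (Unit ⊕ (Fin m ⊕ Fin m)) F) : Matrix (Unit ⊕ (Fin m ⊕ Fin m)) (Unit ⊕ (Fin m ⊕ Fin m)) F) * ((b : GL (Unit ⊕ (Fin m ⊕ Fin m)) F) : Matrix (Unit ⊕ (Fin m ⊕ Fin m)) (Unit ⊕ (Fin m ⊕ Fin m)) F)).toBlocks₂₂
          = ((a : GL (Unit ⊕ (Fin m ⊕ Fin m)) F) : Matrix (Unit ⊕ (Fin m ⊕ Fin m)) (Unit ⊕ (Fin m ⊕ Fin m)) F).toBlocks₂₂ * ((b : GL (Unit ⊕ (Fin m ⊕ Fin m)) F) : Matrix (Unit ⊕ (Fin m ⊕ Fin m)) (Unit ⊕ (Fin m ⊕ Fin m)) F).toBlocks₂₂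
        conv_lhs => rw [hform a, hform b, fromBlocks_multiply, toBlocks_fromBlocks₂₂]
        simp }
  have hinj : Function.Injective Φ := by
    intro a b hab
    have hA : ((a : GL (Unit ⊕ (Fin m ⊕ Fin m)) F) : Matrix (Unit ⊕ (Fin m ⊕ Fin m)) (Unit ⊕ (Fin m ⊕ Fin m)) F).toBlocks₂₂
        = ((b : GL (Unit ⊕ (Fin m ⊕ Fin m)) F) : Matrix (Unit ⊕ (Fin m ⊕ Fin m)) (Unit ⊕ (Fin m ⊕ Fin m)) F).toBlocks₂₂ := congrArg Subtype.val hab
    have hR : ((a : GL (Unit ⊕ (Fin m ⊕ Fin m)) F) : Matrix (Unit ⊕ (Fin m ⊕ Fin m)) (Unit ⊕ (Fin m ⊕ Fin m)) F).toBlocks₁₂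
        = ((b : GL (Unit ⊕ (Fin m ⊕ Fin m)) F) : Matrix (Unit ⊕ (Fin m ⊕ Fin m)) (Unit ⊕ (Fin m ⊕ Fin m)) F).toBlocks₁₂ := by
      ext i j
      have ha := a.2 (Sum.elim (0 : Unit → F) (Pi.single j 1)) 0
      have hb := b.2 (Sum.elim (0 : Unit → F) (Pi.single j 1)) 0
      have ha' : quadFormOdd m F (((a : GL (Unit ⊕ (Fin m ⊕ Fin m)) F) : Matrix (Unit ⊕ (Fin m ⊕ Fin m)) (Unit ⊕ (Fin m ⊕ Fin m)) F) *ᵥ Sum.elim (0 : Unit → F) (Pi.single j 1)) = quadFormOdd m F (Sum.elim (0 : Unit → F) (Pi.single j 1)) := ha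
      have hb' : quadFormOdd m F (((b : GL (Unit ⊕ (Fin m ⊕ Fin m)) F) : Matrix (Unit ⊕ (Fin m ⊕ Fin m)) (Unit ⊕ (Fin m ⊕ Fin m)) F) *ᵥ Sum.elim (0 : Unit → F) (Pi.single j 1)) = quadFormOdd m F (Sum.elim (0 : Unit → F) (Pi.single j 1)) := hb
      rw [hform a, hQblock] at ha'
      rw [hform b, hQblock, ← hA] at hb'
      simp only [Sum.elim_comp_inr, mulVec_single_one] at ha' hb'
      apply sq_inj
      have hc : ∀ (R : Matrix Unit (Fin m ⊕ Fin m) F), R.col j () = R i j := fun R => rfl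
      rw [hc] at ha' hb'
      linear_combination ha' - hb'
    apply Subtype.ext
    apply Units.ext
    rw [hform a, hform b, hA, hR]
  have hsurj : Function.Surjective Φ := by
    rintro ⟨A, hA⟩
    have hA' := (mem_symplecticGroup_iff_sympForm A).1 hA
    let D : (Fin m ⊕ Fin m → F) → F := fun w => quadFormPlus m F w + quadFormPlus m F (A *ᵥ w)
    have hDadd : ∀ w w', D (w + w') = D w + D w' := by
      intro w w'
      show quadFormPlus m F (w + w') + quadFormPlus m F (A *ᵥ (w + w')) = _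
      rw [mulVec_add, qp_add, qp_add, hA']
      show _ = (quadFormPlus m F w + quadFormPlus m F (A *ᵥ w)) + (quadFormPlus m F w' + quadFormPlus m F (A *ᵥ w'))
      linear_combination (sympForm m F w w') * h2
    have hDsmul : ∀ (c : F) w, D (c • w) = c ^ 2 * D w := by
      intro c w
      show quadFormPlus m F (c • w) + quadFormPlus m F (A *ᵥ (c • w)) = _
      rw [mulVec_smul, qp_smul, qp_smul]
      show _ = c ^ 2 * (quadFormPlus m F w + quadFormPlus m F (A *ᵥ w))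
      ring
    have hD0 : D 0 = 0 := by
      have := hDadd 0 0
      rw [add_zero] at this
      linear_combination -this
    have hDsum : ∀ (s : Finset (Fin m ⊕ Fin m)) (f : Fin m ⊕ Fin m → (Fin m ⊕ Fin m → F)),
        D (∑ j ∈ s, f j) = ∑ j ∈ s, D (f j) := by
      intro s f
      induction s using Finset.induction_on with
      | empty => simpa using hD0
      | insert a s ha ih => rw [Finset.sum_insert ha, Finset.sum_insert ha, hDadd, ih]
    have hsq : ∀ a : F, ∃ b, b ^ 2 = a := by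
      intro a
      obtain ⟨b, hb⟩ := FiniteField.isSquare_of_char_two (ringChar.eq F 2) a
      exact ⟨b, by rw [hb, pow_two]⟩
    choose r hr using fun j => hsq (D (Pi.single j 1))
    let R : Matrix Unit (Fin m ⊕ Fin m) F := Matrix.of fun _ j => r j
    have hRw : ∀ w, ((R *ᵥ w) ()) ^ 2 = D w := by
      intro w
      have h3 : w = ∑ j, w j • (Pi.single j 1 : Fin m ⊕ Fin m → F) := by
        ext j
        simp [Finset.sum_apply, Pi.single_apply]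
      conv_rhs => rw [h3, hDsum]
      simp only [hDsmul, ← hr]
      show (∑ j, r j * w j) ^ 2 = _
      rw [CharTwo.sum_sq]
      apply Finset.sum_congr rfl
      intro j _
      ring
    let M : Matrix (Unit ⊕ (Fin m ⊕ Fin m)) (Unit ⊕ (Fin m ⊕ Fin m)) F := fromBlocks 1 R 0 A
    have hdet : M.det ≠ 0 := by
      show (fromBlocks 1 R 0 A).det ≠ 0
      rw [det_fromBlocks_zero₂₁, det_one, one_mul]
      exact (SymplecticGroup.symplectic_det hA).ne_zero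
    have hMQ : ∀ v, quadFormOdd m F (M *ᵥ v) = quadFormOdd m F v := by
      intro v
      show quadFormOdd m F (fromBlocks 1 R 0 A *ᵥ v) = _
      rw [hQblock, hRw, qo_eq]
      show v (Sum.inl ()) ^ 2 + (quadFormPlus m F (v ∘ Sum.inr) + quadFormPlus m F (A *ᵥ (v ∘ Sum.inr))) + quadFormPlus m F (A *ᵥ (v ∘ Sum.inr)) = _
      linear_combination (quadFormPlus m F (A *ᵥ (v ∘ Sum.inr))) * h2
    refine ⟨⟨Matrix.GeneralLinearGroup.mkOfDetNeZero M hdet, fun u _ => hMQ u⟩, ?_⟩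
    apply Subtype.ext
    show M.toBlocks₂₂ = A
    exact toBlocks_fromBlocks₂₂ _ _ _ _
  exact ⟨MulEquiv.ofBijective Φ ⟨hinj, hsurj⟩⟩


end Cfsg.Agent.S0304
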