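import Cfsg.Statements.S0305
import Mathlib

set_option autoImplicit false
open Cfsg

namespace Cfsg.Agent.S0305

section aux

variable {F : Type*} [Field F]

/-- a `2 × 2` matrix indexed by `Fin 1 ⊕ Fin 1` -/
def mk2 (a b c d : F) : Matrix (Fin 1 ⊕ Fin 1) (Fin 1 ⊕ Fin 1) F :=
  Matrix.of fun i j => Sum.elim (fun _ => Sum.elim (fun _ => a) (fun _ => b) j)
    (fun _ => Sum.elim (fun _ => c) (fun _ => d) j) i

theorem mk2_mul (a b c d a' b' c' d' : F) : mk2 a b c d * mk2 a' b' c' d' =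
    mk2 (a * a' + b * c') (a * b' + b * d') (c * a' + d * c') (c * b' + d * d') := by
  ext i j
  rcases i with i | i <;> rcases j with j | j <;>
    simp [mk2, Matrix.mul_apply, Fintype.sum_sum_type]

theorem mk2_one : mk2 (1 : F) 0 0 1 = 1 := by
  ext i j
  rcases i with i | i <;> rcases j with j | j <;>
    simp [mk2, Matrix.one_apply, Subsingleton.elim i j]

theorem eq_mk2 (M : Matrix (Fin 1 ⊕ Fin 1) (Fin 1 ⊕ Fin 1) F) :
    M = mk2 (M (Sum.inl 0) (Sum.inl 0)) (M (Sum.inl 0) (Sum.inr 0))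
      (M (Sum.inr 0) (Sum.inl 0)) (M (Sum.inr 0) (Sum.inr 0)) := by
  ext i j
  rcases i with i | i <;> rcases j with j | j <;>
    (rw [Subsingleton.elim i 0, Subsingleton.elim j 0]; rfl)

theorem mk2_inj {a b c d a' b' c' d' : F} (h : mk2 a b c d = mk2 a' b' c' d') :
    a = a' ∧ b = b' ∧ c = c' ∧ d = d' :=
  ⟨congrFun (congrFun h (Sum.inl 0)) (Sum.inl 0), congrFun (congrFun h (Sum.inl 0)) (Sum.inr 0),
    congrFun (congrFun h (Sum.inr 0)) (Sum.inl 0), congrFun (congrFun h (Sum.inr 0)) (Sum.inr 0)⟩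

theorem Q_mk2 (a b c d : F) (v : Fin 1 ⊕ Fin 1 → F) :
    Cfsg.quadFormPlus 1 F (Matrix.mulVec (mk2 a b c d) v) =
      (a * v (Sum.inl 0) + b * v (Sum.inr 0)) * (c * v (Sum.inl 0) + d * v (Sum.inr 0)) := by
  simp [Cfsg.quadFormPlus, mk2, Matrix.mulVec, dotProduct, Fintype.sum_sum_type]

theorem Q_eq (v : Fin 1 ⊕ Fin 1 → F) :
    Cfsg.quadFormPlus 1 F v = v (Sum.inl 0) * v (Sum.inr 0) := by
  simp [Cfsg.quadFormPlus]

/-- rotations -/
def Rm (u : Fˣ) : Matrix.GeneralLinearGroup (Fin 1 ⊕ Fin 1) F :=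
  ⟨mk2 u 0 0 (u⁻¹ : Fˣ), mk2 (u⁻¹ : Fˣ) 0 0 u, by rw [mk2_mul]; simp [mk2_one],
    by rw [mk2_mul]; simp [mk2_one]⟩

/-- reflections -/
def Sm (u : Fˣ) : Matrix.GeneralLinearGroup (Fin 1 ⊕ Fin 1) F :=
  ⟨mk2 0 (u⁻¹ : Fˣ) u 0, mk2 0 (u⁻¹ : Fˣ) u 0, by rw [mk2_mul]; simp [mk2_one],
    by rw [mk2_mul]; simp [mk2_one]⟩

theorem Rm_mul_Rm (u v : Fˣ) : Rm u * Rm v = Rm (u * v) := by
  apply Units.ext
  show mk2 _ _ _ _ * mk2 _ _ _ _ = mk2 _ _ _ _
  rw [mk2_mul]; simp [mul_comm]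

theorem Rm_mul_Sm (u v : Fˣ) : Rm u * Sm v = Sm (v * u⁻¹) := by
  apply Units.ext
  show mk2 _ _ _ _ * mk2 _ _ _ _ = mk2 _ _ _ _
  rw [mk2_mul]; simp [mul_comm]

theorem Sm_mul_Rm (u v : Fˣ) : Sm u * Rm v = Sm (u * v) := by
  apply Units.ext
  show mk2 _ _ _ _ * mk2 _ _ _ _ = mk2 _ _ _ _
  rw [mk2_mul]; simp [mul_comm]

theorem Sm_mul_Sm (u v : Fˣ) : Sm u * Sm v = Rm (v * u⁻¹) := by
  apply Units.ext
  show mk2 _ _ _ _ * mk2 _ _ _ _ = mk2 _ _ _ _
  rw [mk2_mul]; simp [mul_comm]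

theorem Rm_mem (u : Fˣ) : Rm u ∈ Cfsg.isometryGroup F (Cfsg.quadFormPlus 1 F) := by
  intro v _
  show Cfsg.quadFormPlus 1 F (Matrix.mulVec (mk2 _ _ _ _) v) = Cfsg.quadFormPlus 1 F v
  rw [Q_mk2, Q_eq]
  have : (u : F) * ((u⁻¹ : Fˣ) : F) = 1 := by simp
  linear_combination (v (Sum.inl 0) * v (Sum.inr 0)) * this

theorem Sm_mem (u : Fˣ) : Sm u ∈ Cfsg.isometryGroup F (Cfsg.quadFormPlus 1 F) := by
  intro v _
  show Cfsg.quadFormPlus 1 F (Matrix.mulVec (mk2 _ _ _ _) v) = Cfsg.quadFormPlus 1 F v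
  rw [Q_mk2, Q_eq]
  have : (u : F) * ((u⁻¹ : Fˣ) : F) = 1 := by simp
  linear_combination (v (Sum.inl 0) * v (Sum.inr 0)) * this

theorem classify (g : Matrix.GeneralLinearGroup (Fin 1 ⊕ Fin 1) F)
    (hg : g ∈ Cfsg.isometryGroup F (Cfsg.quadFormPlus 1 F)) :
    (∃ u : Fˣ, g = Rm u) ∨ (∃ u : Fˣ, g = Sm u) := by
  obtain ⟨a, b, c, d, hM⟩ : ∃ a b c d : F, (g : Matrix (Fin 1 ⊕ Fin 1) (Fin 1 ⊕ Fin 1) F) =
      mk2 a b c d := ⟨_, _, _, _, eq_mk2 _⟩
  have key : ∀ x y : F, (a * x + b * y) * (c * x + d * y) = x * y := by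
    intro x y
    have h := hg (Sum.elim (fun _ => x) (fun _ => y)) 0
    have h' : Cfsg.quadFormPlus 1 F (Matrix.mulVec (g : Matrix (Fin 1 ⊕ Fin 1) (Fin 1 ⊕ Fin 1) F)
        (Sum.elim (fun _ => x) (fun _ => y))) =
        Cfsg.quadFormPlus 1 F (Sum.elim (fun _ => x) (fun _ => y)) := h
    rw [hM, Q_mk2, Q_eq] at h'
    simpa using h'
  have h1 : a * c = 0 := by simpa using key 1 0
  have h2 : b * d = 0 := by simpa using key 0 1
  have h3 : a * d + b * c = 1 := by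
    have := key 1 1
    linear_combination this - h1 - h2
  by_cases ha : a = 0
  · right
    subst ha
    have hbc : b * c = 1 := by simpa using h3
    have hb : b ≠ 0 := by rintro rfl; simp at hbc
    have hd : d = 0 := by
      rcases mul_eq_zero.1 h2 with h | h
      · exact absurd h hb
      · exact h
    refine ⟨⟨c, b, by rw [mul_comm]; exact hbc, hbc⟩, ?_⟩
    apply Units.ext
    rw [hM, hd]
    rfl
  · left
    have hc : c = 0 := by
      rcases mul_eq_zero.1 h1 with h | h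
      · exact absurd h ha
      · exact h
    subst hc
    have had : a * d = 1 := by simpa using h3
    have hd : d ≠ 0 := by rintro rfl; simp at had
    have hb : b = 0 := by
      rcases mul_eq_zero.1 h2 with h | h
      · exact h
      · exact absurd h hd
    refine ⟨⟨a, d, had, by rw [mul_comm]; exact had⟩, ?_⟩
    apply Units.ext
    rw [hM, hb]
    rfl

theorem main (n : ℕ) (e : Multiplicative (ZMod n) ≃* Fˣ) :
    Nonempty (Cfsg.isometryGroup F (Cfsg.quadFormPlus 1 F) ≃* DihedralGroup n) := by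
  let f : DihedralGroup n → Cfsg.isometryGroup F (Cfsg.quadFormPlus 1 F) := fun x =>
    match x with
    | DihedralGroup.r i => ⟨Rm (e (Multiplicative.ofAdd i)), Rm_mem _⟩
    | DihedralGroup.sr i => ⟨Sm (e (Multiplicative.ofAdd i)), Sm_mem _⟩
  have hmul : ∀ x y, f (x * y) = f x * f y := by
    intro x y
    apply Subtype.ext
    rcases x with i | i <;> rcases y with j | j
    · show Rm (e (Multiplicative.ofAdd (i + j))) = Rm _ * Rm _
      rw [Rm_mul_Rm, ofAdd_add, map_mul]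
    · show Sm (e (Multiplicative.ofAdd (j - i))) = Rm _ * Sm _
      rw [Rm_mul_Sm, ofAdd_sub, map_div, div_eq_mul_inv]
    · show Sm (e (Multiplicative.ofAdd (i + j))) = Sm _ * Rm _
      rw [Sm_mul_Rm, ofAdd_add, map_mul]
    · show Rm (e (Multiplicative.ofAdd (j - i))) = Sm _ * Sm _
      rw [Sm_mul_Sm, ofAdd_sub, map_div, div_eq_mul_inv]
  have hRinj : ∀ u v : Fˣ, Rm u = Rm v → u = v := by
    intro u v h
    have h' : mk2 (u : F) 0 0 ((u⁻¹ : Fˣ) : F) = mk2 (v : F) 0 0 ((v⁻¹ : Fˣ) : F) :=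
      congrArg Units.val h
    exact Units.ext (mk2_inj h').1
  have hSinj : ∀ u v : Fˣ, Sm u = Sm v → u = v := by
    intro u v h
    have h' : mk2 0 ((u⁻¹ : Fˣ) : F) (u : F) 0 = mk2 0 ((v⁻¹ : Fˣ) : F) (v : F) 0 :=
      congrArg Units.val h
    exact Units.ext (mk2_inj h').2.2.1
  have hRS : ∀ u v : Fˣ, Rm u ≠ Sm v := by
    intro u v h
    have h' : mk2 (u : F) 0 0 ((u⁻¹ : Fˣ) : F) = mk2 0 ((v⁻¹ : Fˣ) : F) (v : F) 0 :=
      congrArg Units.val h
    exact u.ne_zero (mk2_inj h').1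
  have hinj : Function.Injective f := by
    intro x y h
    have h' : (f x).1 = (f y).1 := congrArg Subtype.val h
    rcases x with i | i <;> rcases y with j | j
    · have := hRinj _ _ h'
      have h2 := Multiplicative.ofAdd.injective (e.injective this)
      rw [h2]
    · exact absurd h' (hRS _ _)
    · exact absurd h'.symm (hRS _ _)
    · have := hSinj _ _ h'
      have h2 := Multiplicative.ofAdd.injective (e.injective this)
      rw [h2]
  have hsurj : Function.Surjective f := by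
    rintro ⟨g, hg⟩
    rcases classify g hg with ⟨u, rfl⟩ | ⟨u, rfl⟩
    · refine ⟨DihedralGroup.r (Multiplicative.toAdd (e.symm u)), ?_⟩
      apply Subtype.ext
      show Rm (e (Multiplicative.ofAdd (Multiplicative.toAdd (e.symm u)))) = Rm u
      simp
    · refine ⟨DihedralGroup.sr (Multiplicative.toAdd (e.symm u)), ?_⟩
      apply Subtype.ext
      show Sm (e (Multiplicative.ofAdd (Multiplicative.toAdd (e.symm u)))) = Sm u
      simp
  exact ⟨(MulEquiv.ofBijective (MonoidHom.mk' f hmul) ⟨hinj, hsurj⟩).symm⟩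

end aux

/-- GO^+_2(q) is dihedral of order 2(q-1). -/
theorem result {F : Type*} [Field F] [Fintype F] {q : ℕ} (hF : Fintype.card F = q) : Nonempty (Cfsg.isometryGroup F (Cfsg.quadFormPlus 1 F) ≃* DihedralGroup (q - 1)) := by
  classical
  have hc : Nat.card Fˣ = q - 1 := by
    rw [Nat.card_eq_fintype_card, Fintype.card_units, hF]
  rw [← hc]
  exact main _ (zmodCyclicMulEquiv (inferInstance : IsCyclic Fˣ))

end Cfsg.Agent.S0305
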