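import Cfsg.Statements.S0307
import Cfsg.Agent.Lib.Helper12.UnitaryGU
import Cfsg.Agent.Lib.Helper12.GLCard

set_option autoImplicit false
open Cfsg

namespace Cfsg.Agent.S0307

open Matrix Cfsg.Agent.Lib.Helper12

/-- PSL_n(q) is normal in PGL_n(q) with cyclic quotient of order gcd(n, q-1): the image of the natural map PSL_n → PGL_n is the kernel of a surjective homomorphism onto the cyclic group of that order. -/
theorem result {F : Type*} [Field F] [Fintype F] {q : ℕ} (hF : Fintype.card F = q) (n : ℕ) (hn : 1 ≤ n) : ∃ g : Matrix.ProjGenLinGroup (Fin n) F →* Multiplicative (ZMod (Nat.gcd n (q - 1))), Function.Surjective g ∧ g.ker = (Matrix.ProjectiveSpecialLinearGroup.toPGL : Matrix.ProjectiveSpecialLinearGroup (Fin n) F →* Matrix.ProjGenLinGroup (Fin n) F).range := by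
  classical
  have hq : 2 ≤ q := by rw [← hF]; exact Fintype.one_lt_card
  set d := Nat.gcd n (q - 1) with hd
  have hdpos : 0 < d := Nat.gcd_pos_of_pos_left _ (by omega)
  obtain ⟨e, he⟩ : d ∣ q - 1 := Nat.gcd_dvd_right _ _
  obtain ⟨n', hn'⟩ : d ∣ n := Nat.gcd_dvd_left _ _
  have hepos : 0 < e := by
    rcases Nat.eq_zero_or_pos e with h | h
    · rw [h, mul_zero] at he; omega
    · exact h
  have hM : Nat.card Fˣ = q - 1 := by
    rw [Nat.card_eq_fintype_card, Fintype.card_units, hF]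
  have hpc : ∀ u : Fˣ, u ^ (q - 1) = 1 := fun u => by rw [← hM]; exact pow_card_eq_one'
  let ψ0 : GL (Fin n) F →* Fˣ := (powMonoidHom e).comp GeneralLinearGroup.det
  have hψ0 : ∀ g, ψ0 g = (GeneralLinearGroup.det g) ^ e := fun g => rfl
  have hdsc : ∀ u : Fˣ, GeneralLinearGroup.det (GeneralLinearGroup.scalar (Fin n) u) = u ^ n := by
    intro u
    ext
    simp
  have hcen : Subgroup.center (GL (Fin n) F) ≤ ψ0.ker := by
    rw [GeneralLinearGroup.center_eq_range_scalar]
    rintro _ ⟨u, rfl⟩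
    rw [MonoidHom.mem_ker, hψ0, hdsc, ← pow_mul, hn']
    have : d * n' * e = (q - 1) * n' := by rw [he]; ring
    rw [this, pow_mul, hpc, one_pow]
  let ψ : Matrix.ProjGenLinGroup (Fin n) F →* Fˣ :=
    QuotientGroup.lift (Subgroup.center (GL (Fin n) F)) ψ0 hcen
  have hψ : ∀ g : GL (Fin n) F, ψ (ProjGenLinGroup.mk g) = (GeneralLinearGroup.det g) ^ e :=
    fun g => rfl
  have hrange : ψ.range = (powMonoidHom d : Fˣ →* Fˣ).ker := by
    ext u
    rw [MonoidHom.mem_ker, powMonoidHom_apply]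
    constructor
    · rintro ⟨x, rfl⟩
      induction x using Matrix.ProjGenLinGroup.induction_on with | mk g =>
      rw [hψ, ← pow_mul, mul_comm, ← he, hpc]
    · intro hu
      obtain ⟨y, hy⟩ := exists_pow_eq_of_pow_eq_one d e hdpos (by rw [hM, he]) u hu
      obtain ⟨g, hg⟩ := det_surjective (F := F) n hn y
      exact ⟨ProjGenLinGroup.mk g, by rw [hψ, hg, hy]⟩
  have hcard : Nat.card ψ.range = d := by
    rw [hrange, IsCyclic.card_powMonoidHom_ker, hM]
    exact Nat.gcd_eq_right (Nat.gcd_dvd_right _ _)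
  have hne : NeZero d := ⟨hdpos.ne'⟩
  let iso : ψ.range ≃* Multiplicative (ZMod d) := mulEquivOfCyclicCardEq (by
    rw [hcard, Nat.card_eq_fintype_card, Fintype.card_multiplicative, ZMod.card])
  refine ⟨iso.toMonoidHom.comp ψ.rangeRestrict,
    iso.surjective.comp ψ.rangeRestrict_surjective, ?_⟩
  have hker : (iso.toMonoidHom.comp ψ.rangeRestrict).ker = ψ.ker := by
    ext g
    rw [MonoidHom.mem_ker, MonoidHom.mem_ker, MonoidHom.comp_apply]
    constructor
    · intro h
      have h1 : ψ.rangeRestrict g = 1 := iso.injective (by rw [map_one]; exact h)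
      exact congrArg Subtype.val h1
    · intro h
      have h1 : ψ.rangeRestrict g = 1 := Subtype.ext h
      rw [h1, map_one]
  rw [hker]
  apply le_antisymm
  · intro x hx
    induction x using Matrix.ProjGenLinGroup.induction_on with | mk g =>
    rw [MonoidHom.mem_ker, hψ] at hx
    obtain ⟨w, hwd⟩ := exists_pow_eq_of_pow_eq_one e d hepos (by rw [hM, he]; ring) _ hx
    have hbez := Nat.gcd_eq_gcd_ab n (q - 1)
    rw [← hd] at hbez
    set l := w ^ (Nat.gcdA n (q - 1)) with hl
    have hln : l ^ n = GeneralLinearGroup.det g := by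
      have h1 : w ^ ((q - 1 : ℕ) : ℤ) = 1 := by rw [zpow_natCast, hpc]
      rw [← hwd]
      calc l ^ n = w ^ (Nat.gcdA n (q - 1) * (n : ℤ)) := by
            rw [hl, ← zpow_natCast, ← _root_.zpow_mul]
        _ = w ^ ((d : ℤ) - ((q - 1 : ℕ) : ℤ) * Nat.gcdB n (q - 1)) := by
            congr 1; rw [hbez]; ring
        _ = w ^ (d : ℤ) * (w ^ (((q - 1 : ℕ) : ℤ) * Nat.gcdB n (q - 1)))⁻¹ := by
            rw [_root_.zpow_sub]
        _ = w ^ d := by
            rw [_root_.zpow_mul, h1, _root_.one_zpow, inv_one, mul_one, zpow_natCast]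
    have hs : g * (GeneralLinearGroup.scalar (Fin n) l)⁻¹ ∈
        (GeneralLinearGroup.det : GL (Fin n) F →* Fˣ).ker := by
      rw [MonoidHom.mem_ker, map_mul, map_inv, hdsc, hln, mul_inv_cancel]
    rw [← range_toGL_eq_ker_det] at hs
    obtain ⟨s, hs⟩ := hs
    refine ⟨QuotientGroup.mk s, ?_⟩
    rw [ProjectiveSpecialLinearGroup.toPGL_mk, hs, ProjGenLinGroup.mk_eq_mk_iff]
    exact ⟨l, by rw [inv_mul_cancel_right]⟩
  · rintro _ ⟨x, rfl⟩
    obtain ⟨s, rfl⟩ := QuotientGroup.mk_surjective x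
    rw [ProjectiveSpecialLinearGroup.toPGL_mk, MonoidHom.mem_ker, hψ]
    have : GeneralLinearGroup.det (SpecialLinearGroup.toGL s) = 1 := by
      have : SpecialLinearGroup.toGL s ∈ (GeneralLinearGroup.det : GL (Fin n) F →* Fˣ).ker := by
        rw [← range_toGL_eq_ker_det]; exact ⟨s, rfl⟩
      exact this
    rw [this, one_pow]


end Cfsg.Agent.S0307
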