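import Cfsg.Statements.S0313
-- import your own Cfsg.Agent.* helpers here
import Cfsg.Agent.Lib.Helper29.BN

set_option autoImplicit false
open Cfsg

namespace Cfsg.Agent.S0313

/-- Two standard parabolic subgroups of a group with a (B,N)-pair which are conjugate in `G` coincide. -/
theorem result {G : Type*} [Group G] (P : Cfsg.BNPair G) {J K : Set G}
    (hJ : J ⊆ P.S) (hK : K ⊆ P.S) (g : G)
    (h : (P.parabolic J).map (MulAut.conj g).toMonoidHom = P.parabolic K) :
    P.parabolic J = P.parabolic K := by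
  have hc : ∀ x ∈ P.parabolic J, g * x * g⁻¹ ∈ P.parabolic K := by
    intro x hx
    rw [← h]
    exact ⟨x, hx, rfl⟩
  have hg : g ∈ P.parabolic K :=
    Cfsg.Agent.Lib.Helper29.BN.mem_of_conj_le' P (le_sup_left : _ ≤ P.parabolic J)
      (le_sup_left : _ ≤ P.parabolic K) hc
  apply le_antisymm
  · intro x hx
    have h1 := hc x hx
    have h2 : x = g⁻¹ * (g * x * g⁻¹) * g := by group
    rw [h2]
    exact mul_mem (mul_mem (inv_mem hg) h1) hg
  · intro y hy
    have h1 : g * y * g⁻¹ ∈ P.parabolic K := mul_mem (mul_mem hg hy) (inv_mem hg)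
    rw [← h] at h1
    obtain ⟨x, hx, hxy⟩ := h1
    have h2 : g * x * g⁻¹ = g * y * g⁻¹ := hxy
    have h3 : x = y := by simpa using h2
    rw [← h3]; exact hx

end Cfsg.Agent.S0313
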