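import Cfsg.Statements.S0321
-- import your own Cfsg.Agent.* helpers here
import Cfsg.Agent.Lib.Helper29.BN

set_option autoImplicit false
open Cfsg

namespace Cfsg.Agent.S0321

/-- For `n ∈ N` not in `B`, the union `B ∪ B n B` is (the underlying set of) a subgroup exactly when `n` agrees
modulo `B ⊓ N` with one of the distinguished representatives; thus the distinguished involutions are
determined by `B` and `N`. -/
theorem result {G : Type*} [Group G] (P : Cfsg.BNPair G) {n : G}
    (hn : n ∈ P.N) (hnB : n ∉ P.B) :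
    (∃ H : Subgroup G, (H : Set G) = (P.B : Set G) ∪ DoubleCoset.doubleCoset n (P.B : Set G) P.B) ↔ ∃ s ∈ P.S, s⁻¹ * n ∈ P.B := by
  constructor
  · rintro ⟨H, hH⟩
    have hBH : P.B ≤ H := by
      intro b hb
      have : b ∈ (H : Set G) := by rw [hH]; exact Or.inl hb
      exact this
    have hnH : n ∈ H := by
      have : n ∈ (H : Set G) := by rw [hH]; exact Or.inr (DoubleCoset.mem_doubleCoset_self _ _ _)
      exact this
    have hpar := Cfsg.Agent.Lib.Helper29.BN.eq_parabolic P hBH
    rcases Set.eq_empty_or_nonempty (P.S ∩ (H : Set G)) with he | ⟨s, hs, hsH⟩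
    · rw [he, Cfsg.Agent.Lib.Helper29.BN.parabolic_empty] at hpar
      rw [hpar] at hnH
      exact absurd hnH hnB
    · refine ⟨s, hs, ?_⟩
      rw [hH] at hsH
      rcases hsH with hsB | hsD
      · exact absurd hsB (Cfsg.Agent.Lib.Helper29.BN.not_mem_B P hs)
      · exact (Cfsg.Agent.Lib.Helper29.BN.dc_eq_iff P (P.subset hs) hn).1
          (DoubleCoset.doubleCoset_eq_of_mem hsD)
  · rintro ⟨s, hs, hsn⟩
    refine ⟨P.parabolic {s}, ?_⟩
    rw [Cfsg.Agent.Lib.Helper29.BN.parabolic_singleton P hs,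
      (Cfsg.Agent.Lib.Helper29.BN.dc_eq_iff P (P.subset hs) hn).2 hsn]

end Cfsg.Agent.S0321
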