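import Cfsg.Statements.S0322
-- import your own Cfsg.Agent.* helpers here
import Cfsg.Agent.Lib.Helper29.BN

set_option autoImplicit false
open Cfsg

namespace Cfsg.Agent.S0322

/-- A group with a (B,N)-pair of rank one acts doubly transitively on the left cosets of `B`. -/
theorem result {G : Type*} [Group G] (P : Cfsg.BNPair G) (h : P.rank = 1) : MulAction.IsMultiplyPretransitive G (G ⧸ P.B) 2 := by
  have hS : ∃ s, P.S = {s} := by
    have h1 : Nat.card P.S = 1 := h
    rw [Nat.card_eq_one_iff_unique] at h1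
    obtain ⟨hsub, ⟨s⟩⟩ := h1
    refine ⟨s, ?_⟩
    ext x
    constructor
    · intro hx
      have : (⟨x, hx⟩ : P.S) = s := Subsingleton.elim _ _
      exact congrArg Subtype.val this
    · intro hx
      rw [Set.mem_singleton_iff.1 hx]; exact s.2
  obtain ⟨s, hS⟩ := hS
  have hs : s ∈ P.S := by rw [hS]; rfl
  have hcover : ∀ g : G, g ∈ P.B ∨ g ∈ DoubleCoset.doubleCoset s (P.B : Set G) P.B := by
    intro g
    have h1 : g ∈ (P.parabolic {s} : Set G) := by
      rw [← hS, Cfsg.Agent.Lib.Helper29.BN.parabolic_S]; trivial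
    rw [Cfsg.Agent.Lib.Helper29.BN.parabolic_singleton P hs] at h1
    exact h1
  have key : ∀ a b : G ⧸ P.B, a ≠ b →
      ∃ g : G, g • (QuotientGroup.mk 1 : G ⧸ P.B) = a ∧ g • (QuotientGroup.mk s : G ⧸ P.B) = b := by
    intro a b hab
    induction a using QuotientGroup.induction_on with
    | H x =>
    induction b using QuotientGroup.induction_on with
    | H y =>
    have hxy : x⁻¹ * y ∉ P.B := fun hmem => hab (QuotientGroup.eq.2 hmem)
    rcases hcover (x⁻¹ * y) with h1 | h1
    · exact absurd h1 hxy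
    · obtain ⟨b1, hb1, b2, hb2, he⟩ := DoubleCoset.mem_doubleCoset.1 h1
      refine ⟨x * b1, ?_, ?_⟩
      · rw [MulAction.Quotient.smul_mk, smul_eq_mul, QuotientGroup.eq]
        simpa using P.B.inv_mem hb1
      · rw [MulAction.Quotient.smul_mk, smul_eq_mul, QuotientGroup.eq]
        have h2 : (x * b1 * s)⁻¹ * y = b2 := by
          have : y = x * (b1 * s * b2) := by rw [← he]; group
          rw [this]; group
        rw [h2]; exact hb2
  rw [MulAction.is_two_pretransitive_iff]
  intro a b c d hab hcd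
  obtain ⟨g, hg1, hg2⟩ := key a b hab
  obtain ⟨g', hg1', hg2'⟩ := key c d hcd
  refine ⟨g' * g⁻¹, ?_, ?_⟩
  · rw [← hg1, mul_smul, inv_smul_smul, hg1']
  · rw [← hg2, mul_smul, inv_smul_smul, hg2']

end Cfsg.Agent.S0322
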