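import Cfsg.Statements.S0325
-- import your own Cfsg.Agent.* helpers here
import Cfsg.Agent.Lib.Helper29.SzSimple

set_option autoImplicit false
open Cfsg

namespace Cfsg.Agent.S0325

/-- The Suzuki group over a field with `2^(2m+1)` elements, `m ≥ 1`, is a simple group. -/
theorem result {F : Type*} [Field F] [Fintype F] {m : ℕ} (hm : 1 ≤ m)
    (hF : Fintype.card F = 2 ^ (2 * m + 1)) :
    IsSimpleGroup (Cfsg.Sz F m) := by
  exact Cfsg.Agent.Lib.Helper29.Sz.simple (Cfsg.Agent.Lib.Helper29.Sz.good_of_card hF)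
    (Cfsg.Agent.Lib.Helper29.Sz.exists_ne_zero_one hm hF)

end Cfsg.Agent.S0325
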