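import Cfsg.Statements.S0327
-- import your own Cfsg.Agent.* helpers here
import Cfsg.Agent.Lib.Helper29.SzZass

set_option autoImplicit false
open Cfsg

namespace Cfsg.Agent.S0327

/-- The Suzuki group (`m ≥ 1`) is a Zassenhaus group on the `q² + 1` points of the Suzuki–Tits ovoid. -/
theorem result {F : Type*} [Field F] [Fintype F] {m : ℕ} (hm : 1 ≤ m)
    (hF : Fintype.card F = 2 ^ (2 * m + 1)) :
    Cfsg.IsZassenhausGroup (Cfsg.Sz F m) (Cfsg.suzukiOvoid F m) := by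
  apply Cfsg.Agent.Lib.Helper29.Sz.zassenhaus (Cfsg.Agent.Lib.Helper29.Sz.good_of_card hF)
    (Cfsg.Agent.Lib.Helper29.Sz.exists_ne_zero_one hm hF)
  rw [hF]
  intro h
  have h1 : 2 ∣ (2 ^ (2 * m + 1)) ^ 2 := Dvd.dvd.pow (dvd_pow_self 2 (by omega)) (by norm_num)
  have h2 : 2 ∣ 1 := (Nat.dvd_add_right h1).1 h
  omega

end Cfsg.Agent.S0327
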