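import Mathlib
import Cfsg.Statements.S0354
import Cfsg.Agent.Lib.Helper3.Steiner

set_option autoImplicit false
open Cfsg

namespace Cfsg.Agent.S0354

/-- In an S(5, 8, 24), each block is disjoint from exactly 30 blocks. -/
theorem result {α : Type*} [Fintype α] [DecidableEq α] (hα : Fintype.card α = 24) {B : Set (Finset α)} (hB : Cfsg.IsSteinerSystem 5 8 B) {b : Finset α} (hb : b ∈ B) : {c : Finset α | c ∈ B ∧ Disjoint b c}.ncard = 30 := by
  classical
  rw [Cfsg.Agent.Lib.Helper3.Stn.ncard_eq]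
  have h := Cfsg.Agent.Lib.Helper3.Stn.card_meet hB (by norm_num) hb (J := ∅) (Finset.empty_subset _)
  rw [hα] at h
  have e : Cfsg.Agent.Lib.Helper3.Stn.Ld (Cfsg.Agent.Lib.Helper3.Stn.lamS 5 8 24) (8 - (∅ : Finset α).card)
      (∅ : Finset α).card = 30 := by
    rw [Finset.card_empty]
    decide +kernel
  rw [e] at h
  have h2 : (Cfsg.Agent.Lib.Helper3.Stn.Bf B).filter (fun c => Disjoint b c) =
      (Cfsg.Agent.Lib.Helper3.Stn.Bf B).filter (fun c => c ∩ b = ∅) := by
    apply Finset.filter_congr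
    intro c _
    rw [Finset.disjoint_iff_inter_eq_empty, Finset.inter_comm]
  rw [h2]
  exact_mod_cast h

end Cfsg.Agent.S0354
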