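import Mathlib
import Cfsg.Statements.S0356
import Cfsg.Agent.Lib.Helper3.Steiner

set_option autoImplicit false
open Cfsg

namespace Cfsg.Agent.S0356

/-- In a Steiner system S(3, 6, 22), two distinct blocks intersect in 0 or 2 points. -/
theorem result {α : Type*} [Fintype α] [DecidableEq α] (hα : Fintype.card α = 22) {B : Set (Finset α)} (hB : Cfsg.IsSteinerSystem 3 6 B) {b c : Finset α} (hb : b ∈ B) (hc : c ∈ B) (hbc : b ≠ c) : (b ∩ c).card = 0 ∨ (b ∩ c).card = 2 := by
  have h := Cfsg.Agent.Lib.Helper3.Stn.Ld_pos_of_mem hB (by norm_num) hb hc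
  have hle := Cfsg.Agent.Lib.Helper3.Stn.inter_card_le hB hb c
  have hne : (c ∩ b).card ≠ 6 := fun e =>
    hbc (Cfsg.Agent.Lib.Helper3.Stn.eq_of_inter_card hB hb hc e).symm
  rw [hα] at h
  rw [Finset.inter_comm b c]
  revert h
  interval_cases (c ∩ b).card
  · intro _; simp
  · intro h; exact absurd h (by decide +kernel)
  · intro _; simp
  · intro h; exact absurd h (by decide +kernel)
  · intro h; exact absurd h (by decide +kernel)
  · intro h; exact absurd h (by decide +kernel)
  · exact absurd rfl hne

end Cfsg.Agent.S0356
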