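import Mathlib
import Cfsg.Statements.S0357
import Cfsg.Agent.Lib.Helper3.Steiner

set_option autoImplicit false
open Cfsg

namespace Cfsg.Agent.S0357

/-- In a Steiner system S(5, 6, 12), the complement of every block is again a block. -/
theorem result {α : Type*} [Fintype α] [DecidableEq α] (hα : Fintype.card α = 12) {B : Set (Finset α)} (hB : Cfsg.IsSteinerSystem 5 6 B) {b : Finset α} (hb : b ∈ B) : bᶜ ∈ B := by
  have h := Cfsg.Agent.Lib.Helper3.Stn.card_meet hB (by norm_num) hb (J := ∅) (Finset.empty_subset _)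
  rw [hα] at h
  have e : Cfsg.Agent.Lib.Helper3.Stn.Ld (Cfsg.Agent.Lib.Helper3.Stn.lamS 5 6 12) (6 - (∅ : Finset α).card)
      (∅ : Finset α).card = 1 := by
    rw [Finset.card_empty]
    decide +kernel
  rw [e] at h
  have hpos : 0 < ((Cfsg.Agent.Lib.Helper3.Stn.Bf B).filter (fun c => c ∩ b = ∅)).card := by
    have : (((Cfsg.Agent.Lib.Helper3.Stn.Bf B).filter (fun c => c ∩ b = ∅)).card : ℤ) = 1 := h
    omega
  obtain ⟨c, hc⟩ := Finset.card_pos.1 hpos
  rw [Finset.mem_filter, Cfsg.Agent.Lib.Helper3.Stn.mem_Bf] at hc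
  have hsub : c ⊆ bᶜ := by
    intro a ha
    rw [Finset.mem_compl]
    intro hab
    have : a ∈ c ∩ b := Finset.mem_inter.2 ⟨ha, hab⟩
    rw [hc.2] at this
    simp at this
  have : c = bᶜ := Finset.eq_of_subset_of_card_le hsub (by
    rw [Finset.card_compl, hα, hB.1 b hb, hB.1 c hc.1])
  rw [← this]
  exact hc.1

end Cfsg.Agent.S0357
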