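import Mathlib
import Cfsg.Statements.S0358
import Cfsg.Agent.Lib.Helper3.Golay

set_option autoImplicit false
open Cfsg

namespace Cfsg.Agent.S0358

/-- The length-24 code built from the squares modulo 23 has dimension 12 over the field with two elements. -/
theorem result : Module.finrank (ZMod 2) Cfsg.golayCode = 12 := by
  have h1 : Nat.card Cfsg.golayCode = 4096 := by
    rw [← Cfsg.Agent.Lib.Helper3.ncard_supports]
    unfold supports
    rw [Set.ncard_image_of_injective _ Cfsg.Agent.Lib.Helper3.support₂_injective]
    rfl
  have h2 := Module.natCard_eq_pow_finrank (K := ZMod 2) (V := Cfsg.golayCode)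
  rw [h1, Nat.card_zmod] at h2
  have h3 : (2 : ℕ) ^ 12 = 2 ^ Module.finrank (ZMod 2) Cfsg.golayCode := by
    rw [← h2]; norm_num
  exact (Nat.pow_right_injective (le_refl 2) h3).symm

end Cfsg.Agent.S0358
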