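import Mathlib
import Cfsg.Statements.S0362
import Cfsg.Agent.Lib.Helper3.Golay

set_option autoImplicit false
open Cfsg

namespace Cfsg.Agent.S0362

/-- The length-24 code is self-orthogonal: the dot product over ZMod 2 of any two of its words vanishes (with dimension 12 this makes it self-dual). -/
theorem result (v w : Cfsg.GolayPt → ZMod 2) (hv : v ∈ Cfsg.golayCode) (hw : w ∈ Cfsg.golayCode) : ∑ i, v i * w i = 0 := by
  have hs : ∑ i, v i * w i = (((support₂ v ∩ support₂ w).card : ℕ) : ZMod 2) := by
    rw [Finset.card_eq_sum_ones, Nat.cast_sum, ← Finset.sum_filter_add_sum_filter_not Finset.univ (fun i => i ∈ support₂ v ∩ support₂ w)]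
    have h0 : ∑ i ∈ Finset.univ.filter (fun i => ¬ i ∈ support₂ v ∩ support₂ w), v i * w i = 0 := by
      apply Finset.sum_eq_zero
      intro i hi
      simp only [support₂, Finset.mem_filter, Finset.mem_univ, true_and, Finset.mem_inter, not_and_or, not_not] at hi
      rcases hi with h | h <;> simp [h]
    rw [h0, add_zero]
    have : Finset.univ.filter (fun i => i ∈ support₂ v ∩ support₂ w) = support₂ v ∩ support₂ w := by
      ext i; simp
    rw [this]
    apply Finset.sum_congr rfl
    intro i hi
    simp only [support₂, Finset.mem_filter, Finset.mem_univ, true_and, Finset.mem_inter] at hi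
    obtain ⟨h1, h2⟩ := hi
    generalize v i = a at h1
    generalize w i = b at h2
    revert a b; decide
  rw [hs]
  have hv' := Cfsg.Agent.Lib.Helper3.code_weights (support₂ v) ⟨v, hv, rfl⟩
  have hw' := Cfsg.Agent.Lib.Helper3.code_weights (support₂ w) ⟨w, hw, rfl⟩
  have hvw : symmDiff (support₂ v) (support₂ w) = support₂ (v + w) := by
    apply Cfsg.Agent.Lib.Helper3.mask_injective
    rw [Cfsg.Agent.Lib.Helper3.mask_symmDiff, Cfsg.Agent.Lib.Helper3.mask_support₂, Cfsg.Agent.Lib.Helper3.mask_support₂,
      Cfsg.Agent.Lib.Helper3.mask_support₂, Cfsg.Agent.Lib.Helper3.W_add]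
  have hvw' := Cfsg.Agent.Lib.Helper3.code_weights (support₂ (v + w)) ⟨v + w, Cfsg.golayCode.add_mem hv hw, rfl⟩
  rw [← hvw] at hvw'
  have hc : (symmDiff (support₂ v) (support₂ w)).card + 2 * (support₂ v ∩ support₂ w).card = (support₂ v).card + (support₂ w).card := by
    have h1 := Finset.card_sdiff_add_card_inter (support₂ v) (support₂ w)
    have h2 := Finset.card_sdiff_add_card_inter (support₂ w) (support₂ v)
    rw [Finset.inter_comm] at h2
    have h3 : (symmDiff (support₂ v) (support₂ w)).card = (support₂ v \ support₂ w).card + (support₂ w \ support₂ v).card := by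
      rw [symmDiff_def, Finset.sup_eq_union, Finset.card_union_of_disjoint]
      exact disjoint_sdiff_sdiff
    omega
  have heven : Even (support₂ v ∩ support₂ w).card := by
    rw [Nat.even_iff]; omega
  exact (ZMod.natCast_eq_zero_iff_even).2 heven

end Cfsg.Agent.S0362
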