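import Mathlib
import Cfsg.Statements.S0377
import Cfsg.Agent.Lib.Helper3.MathieuSimple
import Cfsg.Agent.S0376

set_option autoImplicit false
open Cfsg

namespace Cfsg.Agent.S0377

/-- A point stabiliser in the group of the length-24 code is simple. -/
theorem result (p : Cfsg.GolayPt) : IsSimpleGroup (MulAction.stabilizer Cfsg.M24 p) := by
  open Cfsg.Agent.Lib.Helper3 in
  have hnc : ({p}ᶜ : Set Cfsg.GolayPt).ncard = 23 := by
    have := Set.ncard_add_ncard_compl ({p} : Set Cfsg.GolayPt)
    rw [Set.ncard_singleton] at this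
    have h24 : Nat.card Cfsg.GolayPt = 24 := by
      rw [Nat.card_eq_fintype_card]; rfl
    omega
  have hfix : ∀ g : MulAction.stabilizer Cfsg.M24 p, ∀ s : Set Cfsg.GolayPt, s.ncard = 23 →
      (∀ b ∈ s, g • b = b) → g = 1 := by
    intro g s hs hg
    apply Subtype.ext
    apply Subtype.ext
    exact fix9' g.1.2 s (by omega) hg
  have hT : TwoTrans (MulAction.stabilizer Cfsg.M24 p) ({p}ᶜ : Set Cfsg.GolayPt) := by
    refine ⟨?_, ?_, ?_⟩
    · intro g b hb hc
      apply hb
      have e1 : g • b = g • p := by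
        rw [Set.mem_singleton_iff.1 hc]; exact g.2.symm
      exact MulAction.injective g e1
    · intro g hg
      exact hfix g _ hnc hg
    · intro b hb c hc e he hcb heb
      have hb' : b ≠ p := hb
      have hc' : c ≠ p := hc
      have he' : e ≠ p := he
      obtain ⟨g, hg, h⟩ := M24_lists [p, b, c] [p, b, e]
        (by simp [hb'.symm, hc'.symm, hcb.symm]) (by simp [hb'.symm, he'.symm, heb.symm]) rfl
        (by simp)
      have h0 := h 0 (by simp)
      have h1 := h 1 (by simp)
      have h2 := h 2 (by simp)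
      exact ⟨⟨⟨g, hg⟩, h0⟩, h1, h2⟩
  haveI : Fact (Nat.Prime 23) := ⟨by norm_num⟩
  apply hT.simple_of_prime (Set.toFinite _) 23 11 443520 (by norm_num)
    (Cfsg.Agent.S0376.result p) (by norm_num) (by norm_num) (by rw [hnc]) (by
      rw [← Set.ncard_pos, hnc]; norm_num) hfix
  intro c r n hc hr h1 h3
  rw [hnc] at hc
  have hc1 : c ≤ 1 := by omega
  have hr1 : r ≤ 22 := Nat.le_of_dvd (by norm_num) hr
  interval_cases c
  · omega
  · interval_cases r <;> omega

end Cfsg.Agent.S0377
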