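import Mathlib
import Cfsg.Statements.S0365
import Cfsg.Agent.Lib.Helper3.MathieuSimple
import Cfsg.Agent.S0377

set_option autoImplicit false
open Cfsg

namespace Cfsg.Agent.S0365

/-- The permutation group preserving the length-24 code is simple. -/
theorem result : IsSimpleGroup Cfsg.M24 := by
  open Cfsg.Agent.Lib.Helper3 in
  have hnc : (Set.univ : Set Cfsg.GolayPt).ncard = 24 := by
    rw [Set.ncard_univ, Nat.card_eq_fintype_card]; rfl
  have hT : TwoTrans ↥Cfsg.M24 (Set.univ : Set Cfsg.GolayPt) := by
    refine ⟨fun _ _ _ => trivial, ?_, ?_⟩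
    · intro g hg
      apply Subtype.ext
      apply Equiv.ext
      intro a
      exact hg a trivial
    · intro b _ c _ e _ hcb heb
      obtain ⟨g, hg, h⟩ := M24_lists [b, c] [b, e]
        (by simp [hcb.symm]) (by simp [heb.symm]) rfl (by simp)
      have h0 := h 0 (by simp)
      have h1 := h 1 (by simp)
      exact ⟨⟨g, hg⟩, h0, h1⟩
  exact hT.simple_of_stabilizer (a := none) trivial (Cfsg.Agent.S0377.result none)
    (by rw [hnc]; decide) (by rw [hnc]; norm_num)

end Cfsg.Agent.S0365
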