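import Mathlib
import Cfsg.Statements.S0371
import Cfsg.Agent.Lib.Helper3.GolayPerm

set_option autoImplicit false
open Cfsg

namespace Cfsg.Agent.S0371

open Cfsg.Agent.Lib.Helper3 in
/-- table of multiplication by `a`. -/
def mulT (a i : ℕ) : ℕ := if i = 23 then 23 else (a * i) % 23

/-- the squares modulo 23. -/
def sqList : List ℕ := [0, 1, 2, 3, 4, 6, 8, 9, 12, 13, 16, 18]

open Cfsg.Agent.Lib.Helper3 in
theorem chk : ∀ a ∈ sqList, a ≠ 0 → basisList.all (fun b => decide (InC (pm (mulT a) b))) = true := by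
  decide +kernel


/-- Multiplication by a nonzero square residue modulo 23, fixing the extra point, lies in the group of the length-24 code. -/
theorem result (u : (ZMod 23)ˣ) (hu : IsSquare u) : Equiv.optionCongr (Units.mulLeft u) ∈ Cfsg.M24 := by
  obtain ⟨r, rfl⟩ := hu
  have ha : ((r * r : (ZMod 23)ˣ) : ZMod 23).val ∈ sqList := by
    have : ∀ x : ZMod 23, (x * x).val ∈ sqList := by decide
    simpa using this (r : ZMod 23)
  have ha0 : ((r * r : (ZMod 23)ˣ) : ZMod 23).val ≠ 0 := by
    rw [Ne, ZMod.val_eq_zero]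
    haveI : Fact (Nat.Prime 23) := ⟨by norm_num⟩
    exact Units.ne_zero _
  apply Cfsg.Agent.Lib.Helper3.mem_M24_of_tbl _ (mulT ((r * r : (ZMod 23)ˣ) : ZMod 23).val)
  · intro p
    cases p with
    | none => rfl
    | some x =>
      show (((r * r : (ZMod 23)ˣ) : ZMod 23) * x).val = mulT _ x.val
      have hx : x.val ≠ 23 := (ZMod.val_lt x).ne
      rw [mulT, if_neg hx, ZMod.val_mul]
  · exact chk _ ha ha0

end Cfsg.Agent.S0371
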