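import Mathlib
import Cfsg.Statements.S0375
import Cfsg.Agent.Lib.Helper3.CosetLead
import Cfsg.Agent.Lib.Helper3.StD24
import Cfsg.Agent.Lib.Helper3.GolaySteiner
import Cfsg.Agent.S0358

set_option autoImplicit false
open Cfsg

namespace Cfsg.Agent.S0375

open Cfsg.Agent.Lib.Helper3 Cfsg.Agent.Lib.Helper3.Stq

theorem W_ind {m : ℕ} (hm : m < 2 ^ 24) : W (CL.ind (unmask m)) = m := by
  rw [← mask_support₂]
  have : support₂ (CL.ind (unmask m)) = unmask m := by
    unfold support₂
    ext i
    simp [CL.ind]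
  rw [this, mask_unmask hm]

/-- a code containing all octad words contains the whole length-24 code. -/
theorem golay_le_of_octads (C' : Submodule (ZMod 2) (GolayPt → ZMod 2))
    (h : ∀ o ∈ octads, CL.ind o ∈ C') : golayCode ≤ C' := by
  have hx : ∀ {x y : ℕ}, (∃ v ∈ C', W v = x) → (∃ v ∈ C', W v = y) → ∃ v ∈ C', W v = x ^^^ y := by
    rintro x y ⟨v, hv, rfl⟩ ⟨w, hw, rfl⟩
    exact ⟨v + w, C'.add_mem hv hw, W_add v w⟩
  have hb : ∀ (m : ℕ) (b : Bool), m < 2 ^ 24 → InC m → pc m = 8 →
      ∃ v ∈ C', W v = (bif b then m else 0) := by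
    intro m b hm h1 h2
    cases b
    · exact ⟨0, C'.zero_mem, W_zero⟩
    · refine ⟨CL.ind (unmask m), h _ ?_, W_ind hm⟩
      rw [mem_octads_iff, mask_unmask hm]
      exact ⟨h1, h2⟩
  have henc : ∀ c : ℕ, ∃ v ∈ C', W v = enc c := by
    intro c
    unfold enc
    exact hx (hx (hx (hx (hx (hx (hx (hx (hx (hx (hx
      (hb _ _ (by norm_num) (by decide +kernel) (by decide +kernel))
      (hb _ _ (by norm_num) (by decide +kernel) (by decide +kernel)))
      (hb _ _ (by norm_num) (by decide +kernel) (by decide +kernel)))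
      (hb _ _ (by norm_num) (by decide +kernel) (by decide +kernel)))
      (hb _ _ (by norm_num) (by decide +kernel) (by decide +kernel)))
      (hb _ _ (by norm_num) (by decide +kernel) (by decide +kernel)))
      (hb _ _ (by norm_num) (by decide +kernel) (by decide +kernel)))
      (hb _ _ (by norm_num) (by decide +kernel) (by decide +kernel)))
      (hb _ _ (by norm_num) (by decide +kernel) (by decide +kernel)))
      (hb _ _ (by norm_num) (by decide +kernel) (by decide +kernel)))
      (hb _ _ (by norm_num) (by decide +kernel) (by decide +kernel)))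
      (hb _ _ (by norm_num) (by decide +kernel) (by decide +kernel))
  intro w hw
  have h1 := (mem_golayCode_iff w).mp hw
  obtain ⟨v, hv, hvw⟩ := henc (W w % 4096)
  have : v = w := W_injective (hvw.trans h1.symm)
  exact this ▸ hv


/-- A doubly even self-dual binary code of length 24 with no words of weight 4 is equivalent to the length-24 code built from the squares modulo 23. -/
theorem result (C : Submodule (ZMod 2) (Fin 24 → ZMod 2)) (hdim : Module.finrank (ZMod 2) C = 12) (horth : ∀ v ∈ C, ∀ w ∈ C, ∑ i, v i * w i = 0) (h4 : ∀ w ∈ C, 4 ∣ hammingNorm w) (hno4 : ∀ w ∈ C, hammingNorm w ≠ 4) : ∃ e : Fin 24 ≃ Cfsg.GolayPt, ∀ w : Cfsg.GolayPt → ZMod 2, w ∈ Cfsg.golayCode ↔ (fun i => w (e i)) ∈ C := by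
  classical
  have hC : Nat.card C = 4096 := by
    rw [Module.natCard_eq_pow_finrank (K := ZMod 2) (V := C), hdim, Nat.card_eq_fintype_card,
      ZMod.card]
    norm_num
  have hmin : ∀ w ∈ C, w ≠ 0 → 8 ≤ hammingNorm w := by
    intro w hw h0
    obtain ⟨k, hk⟩ := h4 w hw
    have h1 := hno4 w hw
    have h2 : hammingNorm w ≠ 0 := by
      rw [Ne, hammingNorm_eq_zero]
      exact h0
    omega
  have hS := CL.steiner hmin (Fintype.card_fin 24) hC
  obtain ⟨e1, he1⟩ := iso_of_P D24.main (Fintype.card_fin 24) hS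
  obtain ⟨e2, he2⟩ := iso_of_P D24.main (show Fintype.card GolayPt = 24 from rfl) steiner
  let Ψ : (GolayPt → ZMod 2) ≃ₗ[ZMod 2] (Fin 24 → ZMod 2) :=
    LinearEquiv.funCongrLeft (ZMod 2) (ZMod 2) (e1.trans e2.symm)
  have hΨ : ∀ w : GolayPt → ZMod 2, Ψ w = fun i => w ((e1.trans e2.symm) i) := fun w => rfl
  have hoct : ∀ o ∈ octads, CL.ind o ∈ C.comap Ψ.toLinearMap := by
    intro o ho
    have h1 : o.image e2 ∈ (fun b => b.image e1) '' CL.oct C := by
      rw [he1, ← he2]
      exact ⟨o, ho, rfl⟩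
    obtain ⟨b, hb, hbo⟩ := h1
    show Ψ (CL.ind o) ∈ C
    have h2 : Ψ (CL.ind o) = CL.ind b := by
      rw [hΨ]
      ext i
      have h3 : (e1.trans e2.symm) i ∈ o ↔ i ∈ b := by
        rw [← e2.injective.mem_finset_image, ← hbo]
        simp
      simp only [CL.ind, h3]
    rw [h2]
    exact hb.1
  have hle := golay_le_of_octads _ hoct
  have hcard' : Nat.card (C.comap Ψ.toLinearMap) = 4096 := by
    rw [← hC]
    exact Nat.card_congr
      { toFun := fun w => ⟨Ψ w.1, w.2⟩
        invFun := fun v => ⟨Ψ.symm v.1, by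
          show Ψ (Ψ.symm v.1) ∈ C
          rw [LinearEquiv.apply_symm_apply]
          exact v.2⟩
        left_inv := fun w => Subtype.ext (Ψ.symm_apply_apply w.1)
        right_inv := fun v => Subtype.ext (Ψ.apply_symm_apply v.1) }
  have hG : Nat.card golayCode = 4096 := by
    rw [Module.natCard_eq_pow_finrank (K := ZMod 2) (V := golayCode), Cfsg.Agent.S0358.result,
      Nat.card_eq_fintype_card, ZMod.card]
    norm_num
  have heq : (golayCode : Set (GolayPt → ZMod 2)) = (C.comap Ψ.toLinearMap : Set (GolayPt → ZMod 2)) := by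
    apply Set.eq_of_subset_of_ncard_le hle _ (Set.toFinite _)
    rw [← Nat.card_coe_set_eq, ← Nat.card_coe_set_eq]
    exact le_of_eq (hcard'.trans hG.symm)
  refine ⟨e1.trans e2.symm, fun w => ?_⟩
  have h5 : w ∈ (golayCode : Set (GolayPt → ZMod 2)) ↔
      w ∈ (C.comap Ψ.toLinearMap : Set (GolayPt → ZMod 2)) := by rw [heq]
  exact h5

end Cfsg.Agent.S0375
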