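import Mathlib
import Cfsg.Statements.S0380
import Cfsg.Agent.Lib.Helper3.Pl4Core
import Cfsg.Agent.Lib.Helper3.Pl4F
import Cfsg.Agent.Lib.Helper3.Pl4M
import Cfsg.Agent.S0249
import Cfsg.Agent.S2550

set_option autoImplicit false
open Cfsg

namespace Cfsg.Agent.S0380

/-- A three-point stabiliser in the group of the length-24 code is isomorphic to PSL(3, F) for the field F with 4 elements. -/
theorem result (p q r : Cfsg.GolayPt) (hpq : p ≠ q) (hpr : p ≠ r) (hqr : q ≠ r) (F : Type) [Field F] [Fintype F] (hF : Fintype.card F = 4) : Nonempty (↥(MulAction.stabilizer Cfsg.M24 p ⊓ MulAction.stabilizer Cfsg.M24 q ⊓ MulAction.stabilizer Cfsg.M24 r) ≃* Matrix.ProjectiveSpecialLinearGroup (Fin 3) F) := by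
  obtain ⟨X, iX1, iX2, LX, f1, hX, hLX, hf1, hm1⟩ := Cfsg.Agent.Lib.Helper3.Pl4.planeF F hF
  obtain ⟨Y, iY1, iY2, LY, f2, hY, hLY, hf2, hm2⟩ := Cfsg.Agent.Lib.Helper3.Pl4.planeM p q r hpq hpr hqr
  have : IsSimpleGroup (Matrix.ProjectiveSpecialLinearGroup (Fin 3) F) :=
    Cfsg.Agent.S0249.result 3 (le_refl 3)
  exact Cfsg.Agent.Lib.Helper3.Pl4.iso_of_planes hX hY hLX hLY f1 f2 hf1 hf2 hm1 hm2
    (Cfsg.Agent.S2550.card_psl3 hF) (Cfsg.Agent.Lib.Helper3.Pl4.card_M21 p q r hpq hpr hqr)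

end Cfsg.Agent.S0380
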