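import Mathlib
import Cfsg.Statements.S0382
import Cfsg.Agent.Lib.Helper3.M24Trans

set_option autoImplicit false
open scoped Pointwise
open Cfsg

namespace Cfsg.Agent.S0382

/-- A dodecad stabiliser in the group of the length-24 code has order 95040 = 2^6·3^3·5·11. -/
theorem result (d : Finset Cfsg.GolayPt) (hd : d ∈ Cfsg.dodecads) : Nat.card (MulAction.stabilizer Cfsg.M24 d) = 95040 := by
  have h1 := (MulAction.stabilizer Cfsg.M24 d).card_mul_index
  have h3 : MulAction.orbit Cfsg.M24 d = Cfsg.dodecads := by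
    ext r
    constructor
    · rintro ⟨⟨g, hg⟩, rfl⟩
      exact Cfsg.Agent.Lib.Helper3.smul_mem_dodecads hg hd
    · intro hr
      obtain ⟨g, hg, h⟩ := Cfsg.Agent.Lib.Helper3.trans_dodecads hd hr
      exact ⟨⟨g, hg⟩, h⟩
  rw [MulAction.index_stabilizer, h3, Cfsg.Agent.Lib.Helper3.ncard_dodecads,
    Cfsg.Agent.Lib.Helper3.card_M24] at h1
  omega

end Cfsg.Agent.S0382
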