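import Mathlib
import Cfsg.Statements.S0387
import Cfsg.Agent.Lib.Helper3.M12Chain

set_option autoImplicit false
open scoped Pointwise
open Cfsg

namespace Cfsg.Agent.S0387

/-- The stabiliser of a dodecad and a point on it has order 7920 = 2^4·3^2·5·11. -/
theorem result (d : Finset Cfsg.GolayPt) (hd : d ∈ Cfsg.dodecads) (p : Cfsg.GolayPt) (hp : p ∈ d) : Nat.card ↥(MulAction.stabilizer Cfsg.M24 d ⊓ MulAction.stabilizer Cfsg.M24 p) = 7920 := by
  have h1 := (MulAction.stabilizer Cfsg.M24 d).card_mul_index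
  rw [MulAction.index_stabilizer, Cfsg.Agent.Lib.Helper3.orbit_M24_dodecad hd,
    Cfsg.Agent.Lib.Helper3.ncard_dodecads, Cfsg.Agent.Lib.Helper3.card_M24] at h1
  have h2 := Cfsg.Agent.Lib.Helper3.card_eq_orbit_mul (MulAction.stabilizer Cfsg.M24 d) p
  have h3 : MulAction.orbit (MulAction.stabilizer Cfsg.M24 d) p = (↑d : Set Cfsg.GolayPt) := by
    ext r
    constructor
    · rintro ⟨⟨⟨g, hg⟩, hgd⟩, rfl⟩
      have hgd' : g • d = d := hgd
      show g p ∈ d
      exact (Cfsg.Agent.Lib.Helper3.apply_mem_of_smul_eq hgd').2 hp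
    · intro hr
      obtain ⟨g, hg, hgd, hgp⟩ := Cfsg.Agent.Lib.Helper3.trans_in_dodecad hd hp hr
      exact ⟨⟨⟨g, hg⟩, hgd⟩, hgp⟩
  rw [h3, Set.ncard_coe_finset, hd.2] at h2
  omega

end Cfsg.Agent.S0387
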