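import Mathlib
import Cfsg.Statements.S0388
import Cfsg.Agent.Lib.Helper3.MathieuSimple
import Cfsg.Agent.S0387

set_option autoImplicit false
open scoped Pointwise
open Cfsg

namespace Cfsg.Agent.S0388

/-- The stabiliser of a dodecad and a point on it is simple. -/
theorem result (d : Finset Cfsg.GolayPt) (hd : d ∈ Cfsg.dodecads) (p : Cfsg.GolayPt) (hp : p ∈ d) : IsSimpleGroup ↥(MulAction.stabilizer Cfsg.M24 d ⊓ MulAction.stabilizer Cfsg.M24 p) := by
  open Cfsg.Agent.Lib.Helper3 in
  have hnc : ((d : Set Cfsg.GolayPt) \ {p}).ncard = 11 := by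
    rw [Set.ncard_sdiff_singleton_of_mem (Finset.mem_coe.2 hp), Set.ncard_coe_finset, hd.2]
  have hfix' : ∀ g : ↥(MulAction.stabilizer Cfsg.M24 d ⊓ MulAction.stabilizer Cfsg.M24 p),
      ∀ s : Set Cfsg.GolayPt, 9 ≤ s.ncard → (∀ b ∈ s, g • b = b) → g = 1 := by
    intro g s hs hg
    apply Subtype.ext
    apply Subtype.ext
    exact fix9' g.1.2 s hs hg
  have hT : TwoTrans ↥(MulAction.stabilizer Cfsg.M24 d ⊓ MulAction.stabilizer Cfsg.M24 p)
      ((d : Set Cfsg.GolayPt) \ {p}) := by
    refine ⟨?_, ?_, ?_⟩
    · intro g b hb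
      refine ⟨?_, ?_⟩
      · have e1 : (g : Cfsg.M24) • d = d := g.2.1
        have e2 : ((g : Cfsg.M24) : Equiv.Perm Cfsg.GolayPt) • b ∈
            ((g : Cfsg.M24) : Equiv.Perm Cfsg.GolayPt) • d :=
          Finset.smul_mem_smul_finset (Finset.mem_coe.1 hb.1)
        have e3 : ((g : Cfsg.M24) : Equiv.Perm Cfsg.GolayPt) • d = d := e1
        rw [e3] at e2
        exact Finset.mem_coe.2 e2
      · intro hc
        apply hb.2
        have e1 : g • b = g • p := by
          rw [Set.mem_singleton_iff.1 hc]; exact g.2.2.symm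
        exact MulAction.injective g e1
    · intro g hg
      exact hfix' g _ (by rw [hnc]; norm_num) hg
    · intro b hb c hc e he hcb heb
      have hb' : b ≠ p := hb.2
      have hc' : c ≠ p := hc.2
      have he' : e ≠ p := he.2
      obtain ⟨g, hg, hgd, h⟩ := M12_lists hd [p, b, c] [p, b, e]
        (by simp [hb'.symm, hc'.symm, hcb.symm]) (by simp [hb'.symm, he'.symm, heb.symm])
        (by
          intro x hx
          simp only [List.mem_cons, List.not_mem_nil, or_false] at hx
          rcases hx with rfl | rfl | rfl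
          · exact hp
          · exact hb.1
          · exact hc.1)
        (by
          intro x hx
          simp only [List.mem_cons, List.not_mem_nil, or_false] at hx
          rcases hx with rfl | rfl | rfl
          · exact hp
          · exact hb.1
          · exact he.1) rfl (by simp)
      have h0 := h 0 (by simp)
      have h1 := h 1 (by simp)
      have h2 := h 2 (by simp)
      exact ⟨⟨⟨g, hg⟩, hgd, h0⟩, h1, h2⟩
  haveI : Fact (Nat.Prime 11) := ⟨by norm_num⟩
  apply hT.simple_of_prime (Set.toFinite _) 11 5 720 (by norm_num)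
    (Cfsg.Agent.S0387.result d hd p hp) (by norm_num) (by norm_num) (by rw [hnc]) (by
      rw [← Set.ncard_pos, hnc]; norm_num) (fun g s hs hg => hfix' g s (by omega) hg)
  intro c r n hc hr h1 h3
  rw [hnc] at hc
  have hc1 : c ≤ 1 := by omega
  have hr1 : r ≤ 10 := Nat.le_of_dvd (by norm_num) hr
  interval_cases c
  · omega
  · interval_cases r <;> omega

end Cfsg.Agent.S0388
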