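import Mathlib
import Cfsg.Statements.S0383
import Cfsg.Agent.Lib.Helper3.MathieuSimple
import Cfsg.Agent.S0388

set_option autoImplicit false
open scoped Pointwise
open Cfsg

namespace Cfsg.Agent.S0383

/-- A dodecad stabiliser in the group of the length-24 code is simple. -/
theorem result (d : Finset Cfsg.GolayPt) (hd : d ∈ Cfsg.dodecads) : IsSimpleGroup (MulAction.stabilizer Cfsg.M24 d) := by
  open Cfsg.Agent.Lib.Helper3 in
  have hnc : (d : Set Cfsg.GolayPt).ncard = 12 := by
    rw [Set.ncard_coe_finset, hd.2]
  have hne : d.Nonempty := by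
    rw [← Finset.card_pos, hd.2]; norm_num
  obtain ⟨a, ha⟩ := hne
  have hT : TwoTrans ↥(MulAction.stabilizer Cfsg.M24 d) (d : Set Cfsg.GolayPt) := by
    refine ⟨?_, ?_, ?_⟩
    · intro g b hb
      have e2 : ((g : Cfsg.M24) : Equiv.Perm Cfsg.GolayPt) • b ∈
          ((g : Cfsg.M24) : Equiv.Perm Cfsg.GolayPt) • d :=
        Finset.smul_mem_smul_finset (Finset.mem_coe.1 hb)
      have e3 : ((g : Cfsg.M24) : Equiv.Perm Cfsg.GolayPt) • d = d := g.2
      rw [e3] at e2
      exact Finset.mem_coe.2 e2
    · intro g hg
      apply Subtype.ext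
      apply Subtype.ext
      exact fix9' g.1.2 _ (by rw [hnc]; norm_num) hg
    · intro b hb c hc e he hcb heb
      obtain ⟨g, hg, hgd, h⟩ := M12_lists hd [b, c] [b, e]
        (by simp [hcb.symm]) (by simp [heb.symm])
        (by
          intro x hx
          simp only [List.mem_cons, List.not_mem_nil, or_false] at hx
          rcases hx with rfl | rfl
          · exact hb
          · exact hc)
        (by
          intro x hx
          simp only [List.mem_cons, List.not_mem_nil, or_false] at hx
          rcases hx with rfl | rfl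
          · exact hb
          · exact he) rfl (by simp)
      have h0 := h 0 (by simp)
      have h1 := h 1 (by simp)
      exact ⟨⟨⟨g, hg⟩, hgd⟩, h0, h1⟩
  have hs : IsSimpleGroup (MulAction.stabilizer ↥(MulAction.stabilizer Cfsg.M24 d) a) := by
    haveI := Cfsg.Agent.S0388.result d hd a ha
    exact (stabEquiv (MulAction.stabilizer Cfsg.M24 d) a).isSimpleGroup
  exact hT.simple_of_stabilizer (a := a) (Finset.mem_coe.2 ha) hs
    (by rw [hnc]; decide) (by rw [hnc]; norm_num)

end Cfsg.Agent.S0383
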