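import Mathlib
import Cfsg.Statements.S0385
import Cfsg.Agent.Lib.Helper3.M24Octad

set_option autoImplicit false
open Cfsg

namespace Cfsg.Agent.S0385

/-- The 6-point intersections of octads with a fixed dodecad form a Steiner system S(5, 6, 12) on the dodecad. -/
theorem result (d : Finset Cfsg.GolayPt) (hd : d ∈ Cfsg.dodecads) : Cfsg.IsSteinerSystem 5 6 {h : Finset {p : Cfsg.GolayPt // p ∈ d} | ∃ o ∈ Cfsg.octads, (o ∩ d).card = 6 ∧ h = Finset.subtype (fun p => p ∈ d) o} := by
  constructor
  · rintro b ⟨o, ho, h6, rfl⟩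
    rw [Finset.card_subtype, Finset.filter_mem_eq_inter]
    exact h6
  · intro s hs
    set s' : Finset Cfsg.GolayPt := s.map (Function.Embedding.subtype _) with hs'
    have hs'c : s'.card = 5 := by rw [hs', Finset.card_map, hs]
    have hs'd : s' ⊆ d := by
      intro p hp
      rw [hs', Finset.mem_map] at hp
      obtain ⟨q, _, rfl⟩ := hp
      exact q.2
    obtain ⟨o, ho, hso⟩ := Cfsg.Agent.Lib.Helper3.exists_octad s' hs'c
    have h5 : 5 ≤ (o ∩ d).card := by
      rw [← hs'c]
      exact Finset.card_le_card (Finset.subset_inter hso hs'd)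
    have h6 : (o ∩ d).card = 6 := by
      rcases Cfsg.Agent.Lib.Helper3.octad_inter_dodecad ho hd with h | h | h <;> omega
    refine ⟨Finset.subtype (fun p => p ∈ d) o, ⟨⟨o, ho, h6, rfl⟩, ?_⟩, ?_⟩
    · intro p hp
      rw [Finset.mem_subtype]
      apply hso
      rw [hs', Finset.mem_map]
      exact ⟨p, hp, rfl⟩
    · rintro b ⟨⟨o', ho', _, rfl⟩, hsb⟩
      have hso' : s' ⊆ o' := by
        intro p hp
        rw [hs', Finset.mem_map] at hp
        obtain ⟨q, hq, rfl⟩ := hp
        have := hsb hq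
        rwa [Finset.mem_subtype] at this
      rw [Cfsg.Agent.Lib.Helper3.octad_unique ho' ho (le_of_eq hs'c.symm) hso' hso]

end Cfsg.Agent.S0385
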