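import Mathlib
import Cfsg.Statements.S0389
import Cfsg.Agent.Lib.Helper3.M11Trans

set_option autoImplicit false
open scoped Pointwise
open Cfsg

namespace Cfsg.Agent.S0389

/-- The stabiliser of a dodecad and a point on it is 3-transitive on the complementary dodecad. -/
theorem result (d : Finset Cfsg.GolayPt) (hd : d ∈ Cfsg.dodecads) (p : Cfsg.GolayPt) (hp : p ∈ d) (x y : Fin 3 ↪ Cfsg.GolayPt) (hx : ∀ i, x i ∉ d) (hy : ∀ i, y i ∉ d) : ∃ g ∈ MulAction.stabilizer Cfsg.M24 d ⊓ MulAction.stabilizer Cfsg.M24 p, ∀ i, (g : Equiv.Perm Cfsg.GolayPt) (x i) = y i := by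
  open Cfsg.Agent.Lib.Helper3 in
  obtain ⟨u, hu, hud, hup⟩ := dodecad_point_to_std hd hp
  have out : ∀ q, q ∉ d → u q ∉ D0 := by
    intro q hq hc
    rw [← hud] at hc
    exact hq ((Finset.smul_mem_smul_finset_iff u).1 hc)
  obtain ⟨σx, hσx, x0, x1, x2⟩ := M11_three (x.trans u.toEmbedding) (fun i => out _ (hx i))
  obtain ⟨σy, hσy, y0, y1, y2⟩ := M11_three (y.trans u.toEmbedding) (fun i => out _ (hy i))
  have hτ : σy⁻¹ * σx ∈ StabM [0x5335f, 1] := Subgroup.mul_mem _ (Subgroup.inv_mem _ hσy) hσx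
  have hτD : (σy⁻¹ * σx) • D0 = D0 := hτ.2 _ (by simp)
  have hτ0 : (σy⁻¹ * σx) (pt 0) = pt 0 :=
    fix_of_smul (i := 0) (m := 1) (by norm_num) rfl (hτ.2 _ (by simp))
  have hg : u⁻¹ * (σy⁻¹ * σx) * u ∈ Cfsg.M24 :=
    Cfsg.M24.mul_mem (Cfsg.M24.mul_mem (Cfsg.M24.inv_mem hu) hτ.1) hu
  refine ⟨⟨u⁻¹ * (σy⁻¹ * σx) * u, hg⟩, ⟨?_, ?_⟩, ?_⟩
  · show (u⁻¹ * (σy⁻¹ * σx) * u) • d = d
    rw [mul_smul, mul_smul, hud, hτD, ← hud, inv_smul_smul]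
  · show u⁻¹ ((σy⁻¹ * σx) (u p)) = p
    rw [hup, hτ0, ← hup]; simp
  · intro i
    show u⁻¹ (σy⁻¹ (σx (u (x i)))) = y i
    rw [Equiv.Perm.inv_eq_iff_eq, Equiv.Perm.inv_eq_iff_eq]
    fin_cases i
    · exact x0.trans y0.symm
    · exact x1.trans y1.symm
    · exact x2.trans y2.symm

end Cfsg.Agent.S0389
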