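import Cfsg.Statements.S0398
import Mathlib
import Cfsg.Agent.Lib.Helper11.LeechFrame
-- import your own Cfsg.Agent.* helpers here

set_option autoImplicit false
open Cfsg

namespace Cfsg.Agent.S0398

open Cfsg Cfsg.Agent.Lib.Helper3 Cfsg.Agent.Lib.Helper11
open scoped Pointwise

/-- The centre of the lattice's automorphism group has order 2. -/
theorem result : Nat.card (Subgroup.center Cfsg.Co0) = 2 := by
  rw [Nat.card_eq_two_iff]
  have hneg : negCo0 ∈ Subgroup.center ↥Co0 := by
    rw [Subgroup.mem_center_iff]
    intro g
    exact (negCo0_comm g).symm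
  refine ⟨1, ⟨negCo0, hneg⟩, ?_, ?_⟩
  · intro h
    exact negCo0_ne_one (congrArg Subtype.val h).symm
  · ext z
    simp only [Set.mem_insert_iff, Set.mem_singleton_iff, Set.mem_univ, iff_true]
    rcases center_cases z.2 with h | h
    · left; exact Subtype.ext h
    · right; exact Subtype.ext h

end Cfsg.Agent.S0398
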