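import Cfsg.Statements.S0404
import Mathlib
import Cfsg.Agent.Lib.Helper11.LevelThms2
import Cfsg.Agent.Lib.Helper11.SubOrbDot
-- import your own Cfsg.Agent.* helpers here

set_option autoImplicit false
open Cfsg

namespace Cfsg.Agent.S0404

open Cfsg.Agent.Lib.Helper11 Cfsg.Agent.Lib.Helper3

theorem plevT {rk : ℕ → ℕ} {n0 : ℕ} {tts : ℕ → ℕ} {t : ℕ → ℤ} {c : ℕ}
    (htt : chkTT chP 3 tts t = true) (ht0 : t 0 = 16) (ht1 : t 1 = 0)
    (hall : (slotL pnBIG 2025).all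
      (fun n => bif condAll chP 3 tts n then stepOK m22bTs rk n0 n else true) = true)
    (hcnt : (slotL pnBIG 2025).countP (condAll chP 3 tts) = c)
    (v w x : ↥leechLattice) (hv : sqNorm v.1 = 32) (hw : sqNorm w.1 = 32)
    (hvw : dotInt v.1 w.1 = -8) (hx : x ∈ pset v w) :
    {y | y ∈ pset v w ∧ dotInt x.1 y.1 = t 2}.ncard = c ∧
    ∀ y y', y ∈ pset v w → y' ∈ pset v w → dotInt x.1 y.1 = t 2 → dotInt x.1 y'.1 = t 2 →
      ∃ g : ↥Co0, g • v = v ∧ g • w = w ∧ g • x = x ∧ g • y = y' := by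
  obtain ⟨h, hh⟩ := pn_base3 v w x hv hw hvw hx
  have ht : ∀ r < 2, t r = pnt r := forall_lt_two.2 ⟨ht0, ht1⟩
  have key : ∀ y : ↥leechLattice, (y ∈ pset v w ∧ dotInt x.1 y.1 = t 2) ↔ (sqNorm y.1 = 32 ∧
      ∀ r < 3, dotInt (sel3 (v + w) v x r).1 y.1 = t r) := by
    intro y
    rw [pset_eq v w x t ht0 ht1]
    constructor
    · rintro ⟨⟨a, b⟩, d⟩
      obtain ⟨b0, b1⟩ := forall_lt_two.1 b
      exact ⟨a, forall_lt_three.2 ⟨b0, b1, d⟩⟩
    · rintro ⟨a, b⟩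
      exact ⟨⟨a, fun r hr => b r (by omega)⟩, b 2 (by norm_num)⟩
  constructor
  · have e : {y | y ∈ pset v w ∧ dotInt x.1 y.1 = t 2} = {y : ↥leechLattice | sqNorm y.1 = 32 ∧
      ∀ r < 3, dotInt (sel3 (v + w) v x r).1 y.1 = t r} := Set.ext key
    rw [e]
    exact (ncard_gen (bvec chP) (sel3 (v + w) v x) h hh t).trans
      ((lvl_count (by norm_num) pn_htt pn_complete pn_len (by norm_num) (by norm_num) ht htt).trans hcnt)
  · intro y y' hy hy' hd hd'
    obtain ⟨a, b⟩ := (key y).1 ⟨hy, hd⟩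
    obtain ⟨a', b'⟩ := (key y').1 ⟨hy', hd'⟩
    obtain ⟨g, hg1, hg2⟩ := trans_gen (bvec chP) (baseSet_mem chP 3) (sel3 (v + w) v x) h hh t
      (fun _ _ hw hn hP hw' hn' hP' => descent_of_list (by norm_num) m22b_hg htt rk n0 _
        (lvl_hl pn_complete (by norm_num) ht) hall hw hn hP hw' hn' hP')
      y y' a a' b b'
    exact ⟨g, hg1 1 (by norm_num), fixw' g v w (hg1 1 (by norm_num)) (hg1 0 (by norm_num)),
      hg1 2 (by norm_num), hg2⟩

/-- the standard configuration. -/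
def vS : ↥leechLattice := ⟨vec3 4 4 0, isLeech_sound (by decide +kernel)⟩
def wS : ↥leechLattice := ⟨vec3 (-3) 1 1, isLeech_sound (by decide +kernel)⟩
def aS : ↥leechLattice := ⟨vec3 (-4) 4 0, isLeech_sound (by decide +kernel)⟩

theorem vS_norm : sqNorm vS.1 = 32 := by decide +kernel
theorem wS_norm : sqNorm wS.1 = 32 := by decide +kernel
theorem vwS_dot : dotInt vS.1 wS.1 = -8 := by decide +kernel
theorem aS_norm : sqNorm aS.1 = 32 := by decide +kernel
theorem vaS_dot : dotInt vS.1 aS.1 = 0 := by decide +kernel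
theorem waS_dot : dotInt wS.1 aS.1 = 16 := by decide +kernel

theorem e0 : lE (pt 0) = vS - aS := by
  have : ∀ i, (lE (pt 0)).1 i = (vS - aS).1 i := by decide +kernel
  exact Subtype.ext (funext this)

theorem e1 : lE (pt 1) = vS + aS := by
  have : ∀ i, (lE (pt 1)).1 i = (vS + aS).1 i := by decide +kernel
  exact Subtype.ext (funext this)

theorem nice_stab : IsSimpleGroup (MulAction.stabilizer
      ↥(MulAction.stabilizer ↥Co0 vS ⊓ MulAction.stabilizer ↥Co0 wS) aS) ∧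
    Nat.card (MulAction.stabilizer
      ↥(MulAction.stabilizer ↥Co0 vS ⊓ MulAction.stabilizer ↥Co0 wS) aS) = 443520 := by
  apply triple_m22 pt01 vS wS aS
  · intro σ hσ h0 h1
    exact ⟨Subtype.ext (permCh_vec3 σ h0 h1 _ _ _), Subtype.ext (permCh_vec3 σ h0 h1 _ _ _),
      Subtype.ext (permCh_vec3 σ h0 h1 _ _ _)⟩
  · intro g hu hw ha
    apply perm_of_fix (p := pt 0) (q := pt 1) _ _ wS _ hw
    · rw [e0, Co0_sub, hu, ha]
    · rw [e1, Co0_add, hu, ha]
    · intro i h0 h1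
      show vec3 (-3) 1 1 i = 1
      unfold vec3
      rw [if_neg h0, if_neg h1]

theorem finCo0 : Finite ↥Co0 :=
  Nat.finite_of_card_ne_zero (by rw [Cfsg.Agent.Lib.Helper3.Lee.card_Co0]; norm_num)

theorem haS : aS ∈ pset vS wS := ⟨aS_norm, vaS_dot, waS_dot⟩

theorem lvl (s : ℤ) (hs : s ≠ 32) : {x | x ∈ pset vS wS ∧ x ≠ aS ∧ dotInt aS.1 x.1 = s} =
    {y | y ∈ pset vS wS ∧ dotInt aS.1 y.1 = s} := by
  ext y
  constructor
  · rintro ⟨h1, _, h3⟩
    exact ⟨h1, h3⟩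
  · rintro ⟨h1, h3⟩
    refine ⟨h1, ?_, h3⟩
    rintro rfl
    rw [dotInt_self, aS_norm] at h3
    exact hs h3.symm

theorem nice : IsMcL ↥(MulAction.stabilizer ↥Co0 vS ⊓ MulAction.stabilizer ↥Co0 wS) := by
  haveI := finCo0
  have cN := pn_count vS wS vS_norm wS_norm vwS_dot
  have Lb := plevT pnb_htt rfl rfl pnb_hall pnb_cnt vS wS aS vS_norm wS_norm vwS_dot haS
  have Lc := plevT pnc_htt rfl rfl pnc_hall pnc_cnt vS wS aS vS_norm wS_norm vwS_dot haS
  have Ld := plevT pnd_htt rfl rfl pnd_hall pnd_cnt vS wS aS vS_norm wS_norm vwS_dot haS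
  have hfin : (pset vS wS).Finite := Set.finite_of_ncard_ne_zero (by rw [cN]; norm_num)
  have hinj : Function.Injective (![0, 16, 8] : Fin 3 → ℤ) := by decide
  have hcard : ∀ j, {x | x ∈ pset vS wS ∧ x ≠ aS ∧
      dotInt aS.1 x.1 = (![0, 16, 8] : Fin 3 → ℤ) j}.ncard = (![330, 462, 1232] : Fin 3 → ℕ) j := by
    intro j
    fin_cases j
    · exact (congrArg Set.ncard (lvl 0 (by norm_num))).trans Lb.1
    · exact (congrArg Set.ncard (lvl 16 (by norm_num))).trans Lc.1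
    · exact (congrArg Set.ncard (lvl 8 (by norm_num))).trans Ld.1
  obtain ⟨c, S⟩ := subOrb_of_dots (MulAction.stabilizer ↥Co0 vS ⊓ MulAction.stabilizer ↥Co0 wS)
    (pset vS wS) aS ![0, 16, 8] hinj ![330, 462, 1232] hfin haS
    (by
      rintro g ⟨hg1, hg2⟩ x ⟨h1, h2, h3⟩
      refine ⟨by show sqNorm (g • x).1 = 32; rw [Co0_sqNorm]; exact h1, ?_, ?_⟩
      · have := Co0_dot g vS x
        rw [show g • vS = vS from hg1] at this
        exact this.trans h2
      · have := Co0_dot g wS x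
        rw [show g • wS = wS from hg2] at this
        exact this.trans h3)
    (by
      intro x hx
      obtain ⟨g, h1, h2, h3⟩ := pn_trans vS wS vS_norm wS_norm vwS_dot aS x haS hx
      exact ⟨g, ⟨h1, h2⟩, h3⟩)
    (hall_of_sum _ _ _ hinj _ hfin haS hcard (by rw [cN]; decide))
    hcard
    (by
      intro j x hx y hy _ _ h1 h2
      fin_cases j
      · obtain ⟨g, g1, g2, g3, g4⟩ := Lb.2 x y hx hy h1 h2
        exact ⟨g, ⟨g1, g2⟩, g3, g4⟩
      · obtain ⟨g, g1, g2, g3, g4⟩ := Lc.2 x y hx hy h1 h2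
        exact ⟨g, ⟨g1, g2⟩, g3, g4⟩
      · obtain ⟨g, g1, g2, g3, g4⟩ := Ld.2 x y hx hy h1 h2
        exact ⟨g, ⟨g1, g2⟩, g3, g4⟩)
  refine ⟨S.simple (by decide) nice_stab.1 0 (by decide) ?_ 81 25 ?_ ?_ (by norm_num) ?_, ?_⟩
  · rw [cN]; decide +kernel
  · rw [cN]; norm_num
  · rw [cN]; norm_num
  · decide +kernel
  · rw [S.card_eq, nice_stab.2, cN]

theorem transport (v w : ↥leechLattice) (g : ↥Co0) (h1 : g • v = vS) (h2 : g • w = wS) :
    IsMcL ↥(MulAction.stabilizer ↥Co0 v ⊓ MulAction.stabilizer ↥Co0 w) := by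
  have e := stab2Conj g v w
  rw [h1, h2] at e
  exact ⟨e.isSimpleGroup_congr.2 nice.1, (Nat.card_congr e.toEquiv).trans nice.2⟩

/-- Joint stabiliser of two minimal vectors with coordinate dot product −8 is simple of order 898128000. -/
theorem result (v w : Cfsg.leechLattice) (hv : Cfsg.sqNorm (v : Cfsg.GolayPt → ℤ) = 32) (hw : Cfsg.sqNorm (w : Cfsg.GolayPt → ℤ) = 32) (hvw : Cfsg.dotInt (v : Cfsg.GolayPt → ℤ) (w : Cfsg.GolayPt → ℤ) = -8) : Cfsg.IsMcL ↥(MulAction.stabilizer Cfsg.Co0 v ⊓ MulAction.stabilizer Cfsg.Co0 w) := by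
  obtain ⟨h, hh⟩ := pn_base2 v w v hv hw hvw
  obtain ⟨k, hk⟩ := pn_base2 vS wS vS vS_norm wS_norm vwS_dot
  have e1 : h • v = k • vS := Subtype.ext ((hh 1 (by norm_num)).trans (hk 1 (by norm_num)).symm)
  have e0 : h • (v + w) = k • (vS + wS) :=
    Subtype.ext ((hh 0 (by norm_num)).trans (hk 0 (by norm_num)).symm)
  have e2 : h • w = k • wS := by
    rw [Co0_add, Co0_add, e1] at e0
    exact add_left_cancel e0
  exact transport v w (k⁻¹ * h) (by rw [mul_smul, e1, inv_smul_smul]) (by rw [mul_smul, e2, inv_smul_smul])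

end Cfsg.Agent.S0404
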