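import Cfsg.Statements.S0402
import Mathlib
import Cfsg.Agent.Lib.Helper11.QOrb
import Cfsg.Agent.Lib.Helper11.ChainThms
import Cfsg.Agent.Lib.Helper11.SubOrbDot
import Cfsg.Agent.S0404
import Cfsg.Agent.S1573
import Cfsg.Agent.S1575
-- import your own Cfsg.Agent.* helpers here

set_option autoImplicit false
open Cfsg

namespace Cfsg.Agent.S0402

open Cfsg.Agent.Lib.Helper11 Cfsg.Agent.Lib.Helper3

/-- the points. -/
def dl (v : ↥leechLattice) : Set ↥leechLattice := {x | sqNorm x.1 = 32 ∧ dotInt v.1 x.1 = -8}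

theorem chQ_mem : ∀ r < 2, bvec chQ r ∈ leechLattice := (chkTT_sound qa_htt).2
theorem chQ_norm0 : sqNorm (bvec chQ 0) = 32 := by decide +kernel
theorem chQ_norm1 : sqNorm (bvec chQ 1) = 32 := by decide +kernel
theorem chQ_dot : dotInt (bvec chQ 0) (bvec chQ 1) = -8 := by decide +kernel

theorem q_base (v x : ↥leechLattice) (hv : sqNorm v.1 = 32) (hx : sqNorm x.1 = 32)
    (hd : dotInt v.1 x.1 = -8) :
    ∃ h : ↥Co0, ∀ r < 2, ((h • sel3 v x v r : ↥leechLattice) : GolayPt → ℤ) = bvec chQ r := by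
  obtain ⟨g, h1, h2⟩ := pair_trans8 v x ⟨bvec chQ 0, chQ_mem 0 (by norm_num)⟩
    ⟨bvec chQ 1, chQ_mem 1 (by norm_num)⟩ hv hx chQ_norm0 chQ_norm1 hd chQ_dot
  exact ⟨g, forall_lt_two.2 ⟨congrArg Subtype.val h1, congrArg Subtype.val h2⟩⟩

theorem qlev {tts : ℕ → ℕ} {t : ℕ → ℤ} {c n0 : ℕ}
    (htt : chkTT chQ 2 tts t = true) (ht0 : t 0 = -8)
    (hr : qroots.all (fun m => bif condAll chQ 2 tts m then Nat.beq m n0 else true) = true)
    (hcnt : cntL2 (condAll chQ 2 tts) = c)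
    (v x : ↥leechLattice) (hv : sqNorm v.1 = 32) (hx : sqNorm x.1 = 32)
    (hd : dotInt v.1 x.1 = -8) (hs32 : t 1 ≠ 32) :
    {y | y ∈ dl v ∧ y ≠ x ∧ dotInt x.1 y.1 = t 1}.ncard = c ∧
    ∀ y y', y ∈ dl v → y' ∈ dl v → dotInt x.1 y.1 = t 1 → dotInt x.1 y'.1 = t 1 →
      ∃ g ∈ MulAction.stabilizer ↥Co0 v, g • x = x ∧ g • y = y' := by
  obtain ⟨h, hh⟩ := q_base v x hv hx hd
  have key : ∀ y : ↥leechLattice, (y ∈ dl v ∧ dotInt x.1 y.1 = t 1) ↔ (sqNorm y.1 = 32 ∧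
      ∀ r < 2, dotInt (sel3 v x v r).1 y.1 = t r) := by
    intro y
    constructor
    · rintro ⟨⟨a, b⟩, d⟩
      exact ⟨a, forall_lt_two.2 ⟨b.trans ht0.symm, d⟩⟩
    · rintro ⟨a, b⟩
      obtain ⟨b0, b1⟩ := forall_lt_two.1 b
      exact ⟨⟨a, b0.trans ht0⟩, b1⟩
  constructor
  · have e : {y | y ∈ dl v ∧ y ≠ x ∧ dotInt x.1 y.1 = t 1} = {y : ↥leechLattice | sqNorm y.1 = 32 ∧
      ∀ r < 2, dotInt (sel3 v x v r).1 y.1 = t r} := by
      ext y
      constructor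
      · rintro ⟨a, _, b⟩
        exact (key y).1 ⟨a, b⟩
      · intro hy
        obtain ⟨a, b⟩ := (key y).2 hy
        refine ⟨a, ?_, b⟩
        rintro rfl
        rw [dotInt_self, hx] at b
        exact hs32 b.symm
    rw [e]
    exact (ncard_gen (bvec chQ) (sel3 v x v) h hh t).trans
      ((count_of_check (by norm_num) htt).trans hcnt)
  · intro y y' hy hy' d d'
    obtain ⟨a, b⟩ := (key y).1 ⟨hy, d⟩
    obtain ⟨a', b'⟩ := (key y').1 ⟨hy', d'⟩
    obtain ⟨g, hg1, hg2⟩ := trans_gen (bvec chQ) (baseSet_mem chQ 2) (sel3 v x v) h hh t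
      (fun _ _ hw hn hP hw' hn' hP' => descent_of_multi (by norm_num) (by norm_num) mclq_hg q_htt htt
        (forall_lt_one.2 ht0) qrk qroots n0 q_hall hr hw hn hP hw' hn' hP')
      y y' a a' b b'
    exact ⟨g, hg1 0 (by norm_num), hg1 1 (by norm_num), hg2⟩

theorem finCo0 : Finite ↥Co0 :=
  Nat.finite_of_card_ne_zero (by rw [Cfsg.Agent.Lib.Helper3.Lee.card_Co0]; norm_num)

theorem dl_card (v : ↥leechLattice) (hv : sqNorm v.1 = 32) : (dl v).ncard = 47104 := by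
  have e : Subtype.val '' (dl v) =
      {w : GolayPt → ℤ | w ∈ leechLattice ∧ sqNorm w = 32 ∧ dotInt v.1 w = -8} := by
    ext w
    constructor
    · rintro ⟨x, ⟨h1, h2⟩, rfl⟩
      exact ⟨x.2, h1, h2⟩
    · rintro ⟨h0, h1, h2⟩
      exact ⟨⟨w, h0⟩, ⟨h1, h2⟩, rfl⟩
  rw [← Set.ncard_image_of_injective _ Subtype.val_injective, e]
  exact (Cfsg.Agent.S1573.result v.1 v.2 hv).2.1

theorem stab_mcl (v a : ↥leechLattice) (hv : sqNorm v.1 = 32) (ha : sqNorm a.1 = 32)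
    (hd : dotInt v.1 a.1 = -8) :
    IsMcL (MulAction.stabilizer ↥(MulAction.stabilizer ↥Co0 v) a) := by
  have e := stabEquiv (MulAction.stabilizer ↥Co0 v) a
  have H := Cfsg.Agent.S0404.result v a hv ha hd
  exact ⟨e.isSimpleGroup_congr.2 H.1, (Nat.card_congr e.toEquiv).trans H.2⟩

/-- Stabiliser of a minimal vector is simple of order 42305421312000. -/
theorem result (v : Cfsg.leechLattice) (hv : Cfsg.sqNorm (v : Cfsg.GolayPt → ℤ) = 32) : Cfsg.IsCo2 (MulAction.stabilizer Cfsg.Co0 v) := by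
  haveI := finCo0
  have cN : (dl v).ncard = 47104 := dl_card v hv
  obtain ⟨a, ha⟩ : (dl v).Nonempty := Set.nonempty_of_ncard_ne_zero (by rw [cN]; norm_num)
  have La := qlev qa_htt rfl qa_hr qa_cnt v a hv ha.1 ha.2 (by decide)
  have Lb := qlev qb_htt rfl qb_hr qb_cnt v a hv ha.1 ha.2 (by decide)
  have Lc := qlev qc_htt rfl qc_hr qc_cnt v a hv ha.1 ha.2 (by decide)
  have Ld := qlev qd_htt rfl qd_hr qd_cnt v a hv ha.1 ha.2 (by decide)
  have Le := qlev qe_htt rfl qe_hr qe_cnt v a hv ha.1 ha.2 (by decide)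
  have hfin : (dl v).Finite := Set.finite_of_ncard_ne_zero (by rw [cN]; norm_num)
  have hinj : Function.Injective (![-16, 16, -8, 8, 0] : Fin 5 → ℤ) := by decide
  have hcard : ∀ j, {x | x ∈ dl v ∧ x ≠ a ∧
      dotInt a.1 x.1 = (![-16, 16, -8, 8, 0] : Fin 5 → ℤ) j}.ncard =
        (![275, 2025, 7128, 15400, 22275] : Fin 5 → ℕ) j := by
    intro j
    fin_cases j
    · exact La.1
    · exact Lb.1
    · exact Lc.1
    · exact Ld.1
    · exact Le.1
  obtain ⟨c, S⟩ := subOrb_of_dots (MulAction.stabilizer ↥Co0 v)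
    (dl v) a ![-16, 16, -8, 8, 0] hinj ![275, 2025, 7128, 15400, 22275] hfin ha
    (by
      rintro g hg1 x ⟨h1, h2⟩
      refine ⟨by show sqNorm (g • x).1 = 32; rw [Co0_sqNorm]; exact h1, ?_⟩
      have := Co0_dot g v x
      rw [show g • v = v from hg1] at this
      exact this.trans h2)
    (by
      intro x hx
      obtain ⟨g, h1, h3⟩ := Cfsg.Agent.S1575.result v a x hv ha.1 hx.1 ha.2 hx.2
      exact ⟨g, h1, h3⟩)
    (hall_of_sum _ _ _ hinj _ hfin ha hcard (by rw [cN]; decide))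
    hcard
    (by
      intro j x hx y hy _ _ h1 h2
      fin_cases j
      · exact La.2 x y hx hy h1 h2
      · exact Lb.2 x y hx hy h1 h2
      · exact Lc.2 x y hx hy h1 h2
      · exact Ld.2 x y hx hy h1 h2
      · exact Le.2 x y hx hy h1 h2)
  have H := stab_mcl v a hv ha.1 ha.2
  refine ⟨S.simple (by decide) H.1 0 (by decide) ?_ 2048 23 ?_ ?_ (by norm_num) ?_, ?_⟩
  · rw [cN]; decide +kernel
  · rw [cN]; norm_num
  · rw [cN]; norm_num
  · decide +kernel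
  · rw [S.card_eq, H.2, cN]

end Cfsg.Agent.S0402
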