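import Cfsg.Statements.S0399
import Mathlib
import Cfsg.Agent.Lib.Helper11.Co2OrbC
import Cfsg.Agent.Lib.Helper11.TransLib
import Cfsg.Agent.Lib.Helper11.LevelThms
import Cfsg.Agent.Lib.Helper11.SubOrbDot2
import Cfsg.Agent.S0402
import Cfsg.Agent.S0398
import Cfsg.Agent.S0394
import Cfsg.Agent.S0400
import Cfsg.Agent.S1573
import Cfsg.Agent.S1574
import Cfsg.Agent.S1575
-- import your own Cfsg.Agent.* helpers here

set_option autoImplicit false
open Cfsg

namespace Cfsg.Agent.S0399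

open Cfsg.Agent.Lib.Helper11 Cfsg.Agent.Lib.Helper3

/-- the points. -/
def dl : Set ↥leechLattice := {x | sqNorm x.1 = 32}

/-- a level. -/
def lv (a : ↥leechLattice) (s : ℤ) : Set ↥leechLattice := {x | sqNorm x.1 = 32 ∧ dotInt a.1 x.1 = s}

theorem finCo0 : Finite ↥Co0 :=
  Nat.finite_of_card_ne_zero (by rw [Cfsg.Agent.Lib.Helper3.Lee.card_Co0]; norm_num)

theorem dl_card : dl.ncard = 196560 := by
  have e : Subtype.val '' dl = {w : GolayPt → ℤ | w ∈ leechLattice ∧ sqNorm w = 32} := by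
    ext w
    constructor
    · rintro ⟨x, h1, rfl⟩
      exact ⟨x.2, h1⟩
    · rintro ⟨h0, h1⟩
      exact ⟨⟨w, h0⟩, h1, rfl⟩
  rw [← Set.ncard_image_of_injective _ Subtype.val_injective, e]
  exact Cfsg.Agent.S0394.result

theorem lv_val (a : ↥leechLattice) (s : ℤ) : (lv a s).ncard =
    {w : GolayPt → ℤ | w ∈ leechLattice ∧ sqNorm w = 32 ∧ dotInt a.1 w = s}.ncard := by
  have e : Subtype.val '' (lv a s) =
      {w : GolayPt → ℤ | w ∈ leechLattice ∧ sqNorm w = 32 ∧ dotInt a.1 w = s} := by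
    ext w
    constructor
    · rintro ⟨x, ⟨h1, h2⟩, rfl⟩
      exact ⟨x.2, h1, h2⟩
    · rintro ⟨h0, h1, h2⟩
      exact ⟨⟨w, h0⟩, ⟨h1, h2⟩, rfl⟩
  rw [← Set.ncard_image_of_injective _ Subtype.val_injective, e]

theorem neg_val' (x : ↥leechLattice) : (-x).1 = -x.1 := rfl

theorem lv_neg (a : ↥leechLattice) (s : ℤ) : (lv a (-s)).ncard = (lv a s).ncard := by
  have e : Neg.neg '' (lv a s) = lv a (-s) := by
    ext w
    constructor
    · rintro ⟨x, ⟨h1, h2⟩, rfl⟩
      exact ⟨by rw [neg_val', sqNorm_neg]; exact h1, by rw [neg_val', dotInt_neg_right, h2]⟩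
    · rintro ⟨h1, h2⟩
      refine ⟨-w, ⟨by rw [neg_val', sqNorm_neg]; exact h1, ?_⟩, neg_neg w⟩
      rw [neg_val', dotInt_neg_right, h2, neg_neg]
  rw [← e, Set.ncard_image_of_injective _ neg_injective]

theorem lvl (a : ↥leechLattice) (ha : sqNorm a.1 = 32) (s : ℤ) (hs : s ≠ 32) :
    {x | x ∈ dl ∧ x ≠ a ∧ dotInt a.1 x.1 = s} = lv a s := by
  ext y
  constructor
  · rintro ⟨h1, _, h3⟩
    exact ⟨h1, h3⟩
  · rintro ⟨h1, h3⟩
    refine ⟨h1, ?_, h3⟩
    rintro rfl
    rw [dotInt_self, ha] at h3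
    exact hs h3.symm

theorem eq_neg_of_dot (a x : ↥leechLattice) (ha : sqNorm a.1 = 32) (hx : sqNorm x.1 = 32)
    (hd : dotInt a.1 x.1 = -32) : x = -a := by
  have h : sqNorm (a.1 + x.1) = 0 := by
    rw [← dotInt_self, dotInt_add_left, dotInt_comm a.1, dotInt_comm x.1, dotInt_add_left,
      dotInt_add_left, dotInt_self, dotInt_self, ha, hx, dotInt_comm x.1, hd]
    norm_num
  apply Subtype.ext
  funext p
  have h1 := sq_le_sqNorm (a.1 + x.1) p
  rw [h] at h1
  have h2 : (a.1 + x.1) p = 0 := by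
    have := sq_nonneg ((a.1 + x.1) p)
    exact pow_eq_zero_iff (two_ne_zero) |>.1 (le_antisymm h1 this)
  have h3 : a.1 p + x.1 p = 0 := h2
  show x.1 p = -(a.1 p)
  omega

theorem lv32 (a : ↥leechLattice) (ha : sqNorm a.1 = 32) : (lv a (-32)).ncard = 1 := by
  have e : lv a (-32) = {-a} := by
    ext x
    constructor
    · rintro ⟨h1, h2⟩
      exact eq_neg_of_dot a x ha h1 h2
    · rintro rfl
      exact ⟨by rw [neg_val', sqNorm_neg]; exact ha, by
        rw [neg_val', dotInt_neg_right, dotInt_self, ha]⟩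
  rw [e, Set.ncard_singleton]

theorem hb0 : bvec c2Tb 0 ∈ leechLattice := isLeech_sound (by decide +kernel)

theorem hbn : sqNorm (bvec c2Tb 0) = 32 := by decide +kernel

theorem orth_trans (v w w' : ↥leechLattice) (hv : sqNorm v.1 = 32) (hw : sqNorm w.1 = 32)
    (hw' : sqNorm w'.1 = 32) (hd : dotInt v.1 w.1 = 0) (hd' : dotInt v.1 w'.1 = 0) :
    ∃ g : ↥Co0, g • v = v ∧ g • w = w' := by
  have hvb : Rel v.1 (bvec c2Tb 0) := (rel32 v.2 hv).trans (rel32 hb0 hbn).symm
  exact trans_one (B := baseSet c2Tb 1) ⟨0, by norm_num, rfl⟩ hvb (0)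
    (fun x x' hx hxn hxd hx' hxn' hxd' => descent_of_check (by norm_num) c2_hg c2c_htt c2crk c2cn0
      c2c_hall hx hxn (forall_lt_one.2 hxd) hx' hxn' (forall_lt_one.2 hxd')) w w' hw hw' hd hd'

theorem neg_trans {a : ↥leechLattice} {s : ℤ}
    (H : ∀ w w' : ↥leechLattice, sqNorm w.1 = 32 → sqNorm w'.1 = 32 → dotInt a.1 w.1 = -s →
      dotInt a.1 w'.1 = -s → ∃ g : ↥Co0, g • a = a ∧ g • w = w')
    (w w' : ↥leechLattice) (hw : sqNorm w.1 = 32) (hw' : sqNorm w'.1 = 32)
    (hd : dotInt a.1 w.1 = s) (hd' : dotInt a.1 w'.1 = s) : ∃ g : ↥Co0, g • a = a ∧ g • w = w' := by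
  obtain ⟨g, h1, h2⟩ := H (-w) (-w') (by rw [neg_val', sqNorm_neg]; exact hw)
    (by rw [neg_val', sqNorm_neg]; exact hw') (by rw [neg_val', dotInt_neg_right, hd])
    (by rw [neg_val', dotInt_neg_right, hd'])
  refine ⟨g, h1, ?_⟩
  rw [Co0_neg] at h2
  exact neg_injective h2

theorem normal_cases (N : Subgroup ↥Co0) (hN : N.Normal) :
    N ≤ Subgroup.center ↥Co0 ∨ N = ⊤ := by
  haveI := finCo0
  have cN := dl_card
  obtain ⟨a, ha⟩ : dl.Nonempty := Set.nonempty_of_ncard_ne_zero (by rw [cN]; norm_num)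
  have ha' : sqNorm a.1 = 32 := ha
  obtain ⟨c1, c2, c3⟩ := Cfsg.Agent.S1573.result a.1 a.2 ha'
  have hfin : dl.Finite := Set.finite_of_ncard_ne_zero (by rw [cN]; norm_num)
  have hinj : Function.Injective (![-32, -16, 16, -8, 8, 0] : Fin 6 → ℤ) := by decide
  have hcard : ∀ j, {x | x ∈ dl ∧ x ≠ a ∧
      dotInt a.1 x.1 = (![-32, -16, 16, -8, 8, 0] : Fin 6 → ℤ) j}.ncard =
        (![1, 4600, 4600, 47104, 47104, 93150] : Fin 6 → ℕ) j := by
    intro j
    fin_cases j
    · exact (congrArg Set.ncard (lvl a ha' (-32) (by norm_num))).trans (lv32 a ha')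
    · exact (congrArg Set.ncard (lvl a ha' (-16) (by norm_num))).trans ((lv_val a (-16)).trans c1)
    · exact (congrArg Set.ncard (lvl a ha' 16 (by norm_num))).trans
        ((lv_neg a 16).symm.trans ((lv_val a (-16)).trans c1))
    · exact (congrArg Set.ncard (lvl a ha' (-8) (by norm_num))).trans ((lv_val a (-8)).trans c2)
    · exact (congrArg Set.ncard (lvl a ha' 8 (by norm_num))).trans
        ((lv_neg a 8).symm.trans ((lv_val a (-8)).trans c2))
    · exact (congrArg Set.ncard (lvl a ha' 0 (by norm_num))).trans ((lv_val a 0).trans c3)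
  obtain ⟨c, S0, hc⟩ := subOrb_of_dots' (⊤ : Subgroup ↥Co0)
    dl a ![-32, -16, 16, -8, 8, 0] hinj ![1, 4600, 4600, 47104, 47104, 93150] hfin ha
    (by
      intro g _ x h1
      show sqNorm (g • x).1 = 32
      rw [Co0_sqNorm]; exact h1)
    (by
      intro x hx
      obtain ⟨g, h1⟩ := Cfsg.Agent.S0400.result a x ha' hx
      exact ⟨g, Subgroup.mem_top g, h1⟩)
    (hall_of_sum _ _ _ hinj _ hfin ha hcard (by rw [cN]; decide))
    hcard
    (by
      intro j x hx y hy _ _ h1 h2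
      have hx' : sqNorm x.1 = 32 := hx
      have hy' : sqNorm y.1 = 32 := hy
      have : ∃ g : ↥Co0, g • a = a ∧ g • x = y := by
        fin_cases j
        · refine ⟨1, one_smul _ _, ?_⟩
          rw [one_smul, eq_neg_of_dot a x ha' hx' h1, eq_neg_of_dot a y ha' hy' h2]
        · exact Cfsg.Agent.S1574.result a x y ha' hx' hy' h1 h2
        · exact neg_trans (s := 16) (fun w w' hw hw' hd hd' =>
            Cfsg.Agent.S1574.result a w w' ha' hw hw' hd hd') x y hx' hy' h1 h2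
        · exact Cfsg.Agent.S1575.result a x y ha' hx' hy' h1 h2
        · exact neg_trans (s := 8) (fun w w' hw hw' hd hd' =>
            Cfsg.Agent.S1575.result a w w' ha' hw hw' hd hd') x y hx' hy' h1 h2
        · exact orth_trans a x y ha' hx' hy' h1 h2
      obtain ⟨g, g1, g2⟩ := this
      exact ⟨g, Subgroup.mem_top g, g1, g2⟩)
  have S := S0.of_top
  have H := Cfsg.Agent.S0402.result a ha'
  have hneg : negCo0 ∈ Subgroup.center ↥Co0 := by
    rw [Subgroup.mem_center_iff]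
    intro g
    exact (negCo0_comm g).symm
  refine S.normal_center (by decide) H.1 1 (by decide) 0 ?_ negCo0 hneg ?_ 7 2 ?_ ?_
    (by norm_num) ?_ N
  · rw [cN]; decide +kernel
  · intro x hx hxa hcx
    have := hc x hx hxa
    rw [hcx] at this
    rw [negCo0_smul]
    exact eq_neg_of_dot a x ha' hx this
  · rw [cN]; norm_num
  · rw [cN]; norm_num
  · decide +kernel

/-- Automorphism group of the lattice modulo its centre is simple of order 4157776806543360000. -/
theorem result : Cfsg.IsCo1 (Cfsg.Co0 ⧸ Subgroup.center Cfsg.Co0) := by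
  have hcard : Nat.card (↥Co0 ⧸ Subgroup.center ↥Co0) = 4157776806543360000 := by
    have h := Subgroup.card_eq_card_quotient_mul_card_subgroup (Subgroup.center ↥Co0)
    rw [Cfsg.Agent.Lib.Helper3.Lee.card_Co0, Cfsg.Agent.S0398.result] at h
    omega
  refine ⟨simple_quot_center ?_ normal_cases, hcard⟩
  have h1 : 1 < Nat.card (↥Co0 ⧸ Subgroup.center ↥Co0) := by rw [hcard]; norm_num
  haveI : Finite (↥Co0 ⧸ Subgroup.center ↥Co0) := Nat.finite_of_card_ne_zero (by rw [hcard]; norm_num)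
  exact Finite.one_lt_card_iff_nontrivial.1 h1

end Cfsg.Agent.S0399
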