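import Cfsg.Statements.S1583
import Mathlib
import Cfsg.Agent.Lib.Helper11.ChainThms
-- import your own Cfsg.Agent.* helpers here

set_option autoImplicit false
open Cfsg

namespace Cfsg.Agent.S1583

open Cfsg.Agent.Lib.Helper11

theorem zfacts (v w : ↥leechLattice) (hv : sqNorm v.1 = 48) (hw : sqNorm w.1 = 48)
    (hvw : dotInt v.1 w.1 = -32) : sqNorm (v + w).1 = 32 ∧ dotInt v.1 (v + w).1 = zot 0 := by
  have e : (v + w).1 = v.1 + w.1 := rfl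
  constructor
  · rw [e, ← dotInt_self, dotInt_add_left, dotInt_comm v.1, dotInt_comm w.1, dotInt_add_left,
      dotInt_add_left, dotInt_self, dotInt_self, hv, hw, dotInt_comm w.1, hvw]
    norm_num
  · rw [e, dotInt_comm, dotInt_add_left, dotInt_self, hv, dotInt_comm, hvw]
    decide

theorem key (v w : ↥leechLattice) :
    {x : ↥Cfsg.leechLattice | Cfsg.sqNorm (x : Cfsg.GolayPt → ℤ) = 32 ∧ Cfsg.dotInt (v : Cfsg.GolayPt → ℤ) (x : Cfsg.GolayPt → ℤ) = 24 ∧ Cfsg.dotInt (w : Cfsg.GolayPt → ℤ) (x : Cfsg.GolayPt → ℤ) = -24} =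
      {x : ↥leechLattice | sqNorm x.1 = 32 ∧ dotInt v.1 x.1 = hat 0 ∧ dotInt (v + w).1 x.1 = hat 1} := by
  have e : (v + w).1 = v.1 + w.1 := rfl
  ext x
  constructor
  · rintro ⟨a, b, c⟩
    refine ⟨a, b, ?_⟩
    rw [e, dotInt_add_left, b, c]
    decide
  · rintro ⟨a, b, c⟩
    refine ⟨a, b, ?_⟩
    have b' : dotInt v.1 x.1 = 24 := b
    have c' : dotInt (v + w).1 x.1 = 0 := c
    rw [e, dotInt_add_left, b'] at c'
    omega

theorem fixw (g : ↥Co0) (v w : ↥leechLattice) (h1 : g • v = v) (h2 : g • (v + w) = v + w) :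
    g • w = w := by
  rw [Co0_add, h1] at h2
  exact add_left_cancel h2


/-- The Higman–Sims configuration: for two vectors of customary norm 6 with inner product −4, exactly 100 minimal vectors have customary inner products 3 and −3 with them, and the joint stabiliser permutes these transitively. -/
theorem result (v w : ↥Cfsg.leechLattice) (hv : Cfsg.sqNorm (v : Cfsg.GolayPt → ℤ) = 48) (hw : Cfsg.sqNorm (w : Cfsg.GolayPt → ℤ) = 48) (hvw : Cfsg.dotInt (v : Cfsg.GolayPt → ℤ) (w : Cfsg.GolayPt → ℤ) = -32) : {x : ↥Cfsg.leechLattice | Cfsg.sqNorm (x : Cfsg.GolayPt → ℤ) = 32 ∧ Cfsg.dotInt (v : Cfsg.GolayPt → ℤ) (x : Cfsg.GolayPt → ℤ) = 24 ∧ Cfsg.dotInt (w : Cfsg.GolayPt → ℤ) (x : Cfsg.GolayPt → ℤ) = -24}.ncard = 100 ∧ ∀ x ∈ {x : ↥Cfsg.leechLattice | Cfsg.sqNorm (x : Cfsg.GolayPt → ℤ) = 32 ∧ Cfsg.dotInt (v : Cfsg.GolayPt → ℤ) (x : Cfsg.GolayPt → ℤ) = 24 ∧ Cfsg.dotInt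 (w : Cfsg.GolayPt → ℤ) (x : Cfsg.GolayPt → ℤ) = -24}, ∀ x' ∈ {x : ↥Cfsg.leechLattice | Cfsg.sqNorm (x : Cfsg.GolayPt → ℤ) = 32 ∧ Cfsg.dotInt (v : Cfsg.GolayPt → ℤ) (x : Cfsg.GolayPt → ℤ) = 24 ∧ Cfsg.dotInt (w : Cfsg.GolayPt → ℤ) (x : Cfsg.GolayPt → ℤ) = -24}, ∃ g : ↥Cfsg.Co0, g • v = v ∧ g • w = w ∧ g • x = x' := by
  obtain ⟨z1, z2⟩ := zfacts v w hv hw hvw
  rw [key v w]
  refine ⟨(chH_count2 v (v + w) hv z1 z2).trans ha_cnt, ?_⟩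
  rintro x ⟨a, b, c⟩ x' ⟨a', b', c'⟩
  obtain ⟨g, g1, g2, g3⟩ := chH_trans2 v (v + w) hv z1 z2 x x' a b c a' b' c'
  exact ⟨g, g1, fixw g v w g1 g2, g3⟩

end Cfsg.Agent.S1583
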