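import Cfsg.Statements.S1584
import Mathlib
import Cfsg.Agent.Lib.Helper11.ChainThms
-- import your own Cfsg.Agent.* helpers here

set_option autoImplicit false
open Cfsg

namespace Cfsg.Agent.S1584

open Cfsg.Agent.Lib.Helper11

theorem zfacts (v w : ↥leechLattice) (hv : sqNorm v.1 = 48) (hw : sqNorm w.1 = 48)
    (hvw : dotInt v.1 w.1 = -32) : sqNorm (v + w).1 = 32 ∧ dotInt v.1 (v + w).1 = zot 0 := by
  have e : (v + w).1 = v.1 + w.1 := rfl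
  constructor
  · rw [e, ← dotInt_self, dotInt_add_left, dotInt_comm v.1, dotInt_comm w.1, dotInt_add_left,
      dotInt_add_left, dotInt_self, dotInt_self, hv, hw, dotInt_comm w.1, hvw]
    norm_num
  · rw [e, dotInt_comm, dotInt_add_left, dotInt_self, hv, dotInt_comm, hvw]
    decide

theorem key (v w : ↥leechLattice) :
    {x : ↥Cfsg.leechLattice | Cfsg.sqNorm (x : Cfsg.GolayPt → ℤ) = 32 ∧ Cfsg.dotInt (v : Cfsg.GolayPt → ℤ) (x : Cfsg.GolayPt → ℤ) = 24 ∧ Cfsg.dotInt (w : Cfsg.GolayPt → ℤ) (x : Cfsg.GolayPt → ℤ) = -24} =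
      {x : ↥leechLattice | sqNorm x.1 = 32 ∧ dotInt v.1 x.1 = hat 0 ∧ dotInt (v + w).1 x.1 = hat 1} := by
  have e : (v + w).1 = v.1 + w.1 := rfl
  ext x
  constructor
  · rintro ⟨a, b, c⟩
    refine ⟨a, b, ?_⟩
    rw [e, dotInt_add_left, b, c]
    decide
  · rintro ⟨a, b, c⟩
    refine ⟨a, b, ?_⟩
    have b' : dotInt v.1 x.1 = 24 := b
    have c' : dotInt (v + w).1 x.1 = 0 := c
    rw [e, dotInt_add_left, b'] at c'
    omega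

theorem fixw (g : ↥Co0) (v w : ↥leechLattice) (h1 : g • v = v) (h2 : g • (v + w) = v + w) :
    g • w = w := by
  rw [Co0_add, h1] at h2
  exact add_left_cancel h2


/-- The Higman–Sims group acts with rank 3 and subdegrees 1, 22, 77 on its 100 points, the orbits of a point stabiliser being distinguished by customary inner product 1 with the fixed point. -/
theorem result (v w x : ↥Cfsg.leechLattice) (hv : Cfsg.sqNorm (v : Cfsg.GolayPt → ℤ) = 48) (hw : Cfsg.sqNorm (w : Cfsg.GolayPt → ℤ) = 48) (hvw : Cfsg.dotInt (v : Cfsg.GolayPt → ℤ) (w : Cfsg.GolayPt → ℤ) = -32) (hx : x ∈ {x : ↥Cfsg.leechLattice | Cfsg.sqNorm (x : Cfsg.GolayPt → ℤ) = 32 ∧ Cfsg.dotInt (v : Cfsg.GolayPt → ℤ) (x : Cfsg.GolayPt → ℤ) = 24 ∧ Cfsg.dotInt (w : Cfsg.GolayPt → ℤ) (x : Cfsg.GolayPt → ℤ) = -24}) : {y : ↥Cfsg.leechLattice | y ∈ {x : ↥Cfsg.leechLattice | Cfsg.sqNorm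 (x : Cfsg.GolayPt → ℤ) = 32 ∧ Cfsg.dotInt (v : Cfsg.GolayPt → ℤ) (x : Cfsg.GolayPt → ℤ) = 24 ∧ Cfsg.dotInt (w : Cfsg.GolayPt → ℤ) (x : Cfsg.GolayPt → ℤ) = -24} ∧ Cfsg.dotInt (x : Cfsg.GolayPt → ℤ) (y : Cfsg.GolayPt → ℤ) = 8}.ncard = 22 ∧ {y : ↥Cfsg.leechLattice | y ∈ {x : ↥Cfsg.leechLattice | Cfsg.sqNorm (x : Cfsg.GolayPt → ℤ) = 32 ∧ Cfsg.dotInt (v : Cfsg.GolayPt → ℤ) (x : Cfsg.GolayPt → ℤ) = 24 ∧ Cfsg.dotInt (w : Cfsg.GolayPt → ℤ) (x : Cfsg.GolayPt → ℤ) = -24} ∧ y ≠ x ∧ Cfsg.dotInt (x : Cfsg.GolayPt → ℤ) (y : Cfsg.GolayPt → ℤ) ≠ 8}.ncard = 77 ∧ ∀ y ∈ {x : ↥Cfsg.leechLattice | Cfsg.sqNorm (x : Cfsg.GolayPt → ℤ) = 32 ∧ Cfsg.dotInt (v : Cfsg.GolayPt → ℤ) (x : Cfsg.GolayPt → ℤ) = 24 ∧ Cfsg.dotInt (w : Cfsg.GolayPt → ℤ) (x : Cfsg.GolayPt → ℤ) = -24}, ∀ y' ∈ {x : ↥Cfsg.leechLattice | Cfsg.sqNorm (x : Cfsg.GolayPt → ℤ) = 32 ∧ Cfsg.dotInt (v :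 Cfsg.GolayPt → ℤ) (x : Cfsg.GolayPt → ℤ) = 24 ∧ Cfsg.dotInt (w : Cfsg.GolayPt → ℤ) (x : Cfsg.GolayPt → ℤ) = -24}, y ≠ x → y' ≠ x → (Cfsg.dotInt (x : Cfsg.GolayPt → ℤ) (y : Cfsg.GolayPt → ℤ) = 8 ↔ Cfsg.dotInt (x : Cfsg.GolayPt → ℤ) (y' : Cfsg.GolayPt → ℤ) = 8) → ∃ g : ↥Cfsg.Co0, g • v = v ∧ g • w = w ∧ g • x = x ∧ g • y = y' := by
  obtain ⟨z1, z2⟩ := zfacts v w hv hw hvw
  rw [key v w] at hx ⊢
  obtain ⟨a, b, c⟩ := hx
  refine ⟨?_, ?_, ?_⟩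
  · refine Eq.trans ?_ ((chH_count3b v (v + w) x hv z1 z2 a b c).trans hb_cnt)
    congr 1
    ext y
    constructor
    · rintro ⟨⟨p, q, r⟩, s⟩
      exact ⟨p, q, r, s⟩
    · rintro ⟨p, q, r, s⟩
      exact ⟨⟨p, q, r⟩, s⟩
  · refine Eq.trans ?_ ((chH_count3c v (v + w) x hv z1 z2 a b c).trans hc_cnt)
    congr 1
    ext y
    constructor
    · rintro ⟨⟨p, q, r⟩, s1, s2⟩
      rcases chH_tri v (v + w) x hv z1 z2 a b c y p q r with h1 | h1 | h1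
      · exact absurd h1 s2
      · exact ⟨p, q, r, h1⟩
      · exact absurd h1 s1
    · rintro ⟨p, q, r, s⟩
      have s' : dotInt x.1 y.1 = 16 := s
      refine ⟨⟨p, q, r⟩, ?_, ?_⟩
      · rintro rfl
        rw [dotInt_self, p] at s'
        omega
      · rw [s']; norm_num
  · rintro y ⟨p, q, r⟩ y' ⟨p', q', r'⟩ hy hy' he
    rcases chH_tri v (v + w) x hv z1 z2 a b c y p q r with h1 | h1 | h1
    · obtain ⟨g, g1, g2, g3, g4⟩ := chH_trans3b v (v + w) x hv z1 z2 a b c y y' p q r h1 p' q' r' (he.1 h1)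
      exact ⟨g, g1, fixw g v w g1 g2, g3, g4⟩
    · rcases chH_tri v (v + w) x hv z1 z2 a b c y' p' q' r' with h2 | h2 | h2
      · have h3 : dotInt x.1 y.1 = 8 := he.2 h2
        have h4 : dotInt x.1 y.1 = 16 := h1
        omega
      · obtain ⟨g, g1, g2, g3, g4⟩ := chH_trans3c v (v + w) x hv z1 z2 a b c y y' p q r h1 p' q' r' h2
        exact ⟨g, g1, fixw g v w g1 g2, g3, g4⟩
      · exact absurd h2 hy'
    · exact absurd h1 hy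

end Cfsg.Agent.S1584
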