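import Cfsg.Statements.S0405
import Mathlib
import Cfsg.Agent.Lib.Helper11.ChainThms
import Cfsg.Agent.Lib.Helper11.SubOrbDot
import Cfsg.Agent.S1583
import Cfsg.Agent.S1584
-- import your own Cfsg.Agent.* helpers here

set_option autoImplicit false
open Cfsg

namespace Cfsg.Agent.S0405

open Cfsg.Agent.Lib.Helper11 Cfsg.Agent.Lib.Helper3

theorem zfacts (v w : ↥leechLattice) (hv : sqNorm v.1 = 48) (hw : sqNorm w.1 = 48)
    (hvw : dotInt v.1 w.1 = -32) : sqNorm (v + w).1 = 32 ∧ dotInt v.1 (v + w).1 = zot 0 := by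
  have e : (v + w).1 = v.1 + w.1 := rfl
  constructor
  · rw [e, ← dotInt_self, dotInt_add_left, dotInt_comm v.1, dotInt_comm w.1, dotInt_add_left,
      dotInt_add_left, dotInt_self, dotInt_self, hv, hw, dotInt_comm w.1, hvw]
    norm_num
  · rw [e, dotInt_comm, dotInt_add_left, dotInt_self, hv, dotInt_comm, hvw]
    decide


/-- the standard configuration. -/
def uS : ↥leechLattice := ⟨vec3 1 5 1, isLeech_sound (by decide +kernel)⟩
def wS : ↥leechLattice := ⟨vec3 (-5) (-1) (-1), isLeech_sound (by decide +kernel)⟩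
def aS : ↥leechLattice := ⟨vec3 4 4 0, isLeech_sound (by decide +kernel)⟩

theorem uS_norm : sqNorm uS.1 = 48 := by decide +kernel
theorem wS_norm : sqNorm wS.1 = 48 := by decide +kernel
theorem uwS_dot : dotInt uS.1 wS.1 = -32 := by decide +kernel
theorem aS_norm : sqNorm aS.1 = 32 := by decide +kernel
theorem uaS_dot : dotInt uS.1 aS.1 = 24 := by decide +kernel
theorem waS_dot : dotInt wS.1 aS.1 = -24 := by decide +kernel

theorem e0 : lE (pt 0) = aS - (uS + wS) := by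
  have : ∀ i, (lE (pt 0)).1 i = (aS - (uS + wS)).1 i := by decide +kernel
  exact Subtype.ext (funext this)

theorem e1 : lE (pt 1) = aS + (uS + wS) := by
  have : ∀ i, (lE (pt 1)).1 i = (aS + (uS + wS)).1 i := by decide +kernel
  exact Subtype.ext (funext this)

theorem nice_stab : IsSimpleGroup (MulAction.stabilizer
      ↥(MulAction.stabilizer ↥Co0 uS ⊓ MulAction.stabilizer ↥Co0 wS) aS) ∧
    Nat.card (MulAction.stabilizer
      ↥(MulAction.stabilizer ↥Co0 uS ⊓ MulAction.stabilizer ↥Co0 wS) aS) = 443520 := by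
  apply triple_m22 pt01 uS wS aS
  · intro σ hσ h0 h1
    exact ⟨Subtype.ext (permCh_vec3 σ h0 h1 _ _ _), Subtype.ext (permCh_vec3 σ h0 h1 _ _ _),
      Subtype.ext (permCh_vec3 σ h0 h1 _ _ _)⟩
  · intro g hu hw ha
    apply perm_of_fix (p := pt 0) (q := pt 1) _ _ uS _ hu
    · rw [e0, Co0_sub, Co0_add, hu, hw, ha]
    · rw [e1, Co0_add, Co0_add, hu, hw, ha]
    · intro i h0 h1
      show vec3 1 5 1 i = 1
      unfold vec3
      rw [if_neg h0, if_neg h1]

theorem finCo0 : Finite ↥Co0 :=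
  Nat.finite_of_card_ne_zero (by rw [Cfsg.Agent.Lib.Helper3.Lee.card_Co0]; norm_num)

theorem nice : IsHS ↥(MulAction.stabilizer ↥Co0 uS ⊓ MulAction.stabilizer ↥Co0 wS) := by
  haveI := finCo0
  obtain ⟨c100, tr⟩ := Cfsg.Agent.S1583.result uS wS uS_norm wS_norm uwS_dot
  have haS : aS ∈ {x : ↥leechLattice | sqNorm x.1 = 32 ∧ dotInt uS.1 x.1 = 24 ∧
      dotInt wS.1 x.1 = -24} := ⟨aS_norm, uaS_dot, waS_dot⟩
  obtain ⟨c22, c77, tr2⟩ := Cfsg.Agent.S1584.result uS wS aS uS_norm wS_norm uwS_dot haS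
  set Δ : Set ↥leechLattice := {x : ↥leechLattice | sqNorm x.1 = 32 ∧ dotInt uS.1 x.1 = 24 ∧
      dotInt wS.1 x.1 = -24} with hΔ
  let c : ↥leechLattice → Fin 2 := fun y => if dotInt aS.1 y.1 = 8 then 0 else 1
  have hc0 : ∀ y, c y = 0 ↔ dotInt aS.1 y.1 = 8 := by
    intro y
    show (if dotInt aS.1 y.1 = 8 then (0 : Fin 2) else 1) = 0 ↔ _
    split <;> simp_all
  have hc1 : ∀ y, c y = 1 ↔ dotInt aS.1 y.1 ≠ 8 := by
    intro y
    show (if dotInt aS.1 y.1 = 8 then (0 : Fin 2) else 1) = 1 ↔ _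
    split <;> simp_all
  have S : SubOrb ↥(MulAction.stabilizer ↥Co0 uS ⊓ MulAction.stabilizer ↥Co0 wS) Δ aS c ![22, 77] := by
    refine ⟨Set.finite_of_ncard_ne_zero (by rw [c100]; norm_num), haS, ?_, ?_, ?_, ?_⟩
    · rintro ⟨g, hg1, hg2⟩ x ⟨h1, h2, h3⟩
      refine ⟨by show sqNorm (g • x).1 = 32; rw [Co0_sqNorm]; exact h1, ?_, ?_⟩
      · have := Co0_dot g uS x
        rw [show g • uS = uS from hg1] at this
        exact this.trans h2
      · have := Co0_dot g wS x
        rw [show g • wS = wS from hg2] at this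
        exact this.trans h3
    · intro x hx
      obtain ⟨g, h1, h2, h3⟩ := tr aS haS x hx
      exact ⟨⟨g, h1, h2⟩, h3⟩
    · intro j
      fin_cases j
      · refine Eq.trans ?_ c22
        congr 1
        ext y
        constructor
        · rintro ⟨h1, _, h3⟩
          exact ⟨h1, (hc0 y).1 h3⟩
        · rintro ⟨h1, h3⟩
          refine ⟨h1, ?_, (hc0 y).2 h3⟩
          rintro rfl
          rw [dotInt_self, aS_norm] at h3
          norm_num at h3
      · refine Eq.trans ?_ c77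
        congr 1
        ext y
        constructor
        · rintro ⟨h1, h2, h3⟩
          exact ⟨h1, h2, (hc1 y).1 h3⟩
        · rintro ⟨h1, h2, h3⟩
          exact ⟨h1, h2, (hc1 y).2 h3⟩
    · intro x hx y hy hxa hya hxy
      obtain ⟨g, h1, h2, h3, h4⟩ := tr2 x hx y hy hxa hya (by rw [← hc0, ← hc0, hxy])
      exact ⟨⟨g, h1, h2⟩, h3, h4⟩
  refine ⟨S.simple (by decide) nice_stab.1 0 (by decide) ?_ 4 25 ?_ ?_ (by norm_num) ?_, ?_⟩
  · rw [c100]; decide +kernel
  · rw [c100]; norm_num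
  · rw [c100]; norm_num
  · decide +kernel
  · rw [S.card_eq, nice_stab.2, c100]

theorem transport (v w : ↥leechLattice) (g : ↥Co0) (h1 : g • v = uS) (h2 : g • w = wS) :
    IsHS ↥(MulAction.stabilizer ↥Co0 v ⊓ MulAction.stabilizer ↥Co0 w) := by
  have e := stab2Conj g v w
  rw [h1, h2] at e
  exact ⟨e.isSimpleGroup_congr.2 nice.1, (Nat.card_congr e.toEquiv).trans nice.2⟩


/-- Joint stabiliser of two vectors of sum of squares 48 with coordinate dot product −32 is simple of order 44352000. -/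
theorem result (v w : Cfsg.leechLattice) (hv : Cfsg.sqNorm (v : Cfsg.GolayPt → ℤ) = 48) (hw : Cfsg.sqNorm (w : Cfsg.GolayPt → ℤ) = 48) (hvw : Cfsg.dotInt (v : Cfsg.GolayPt → ℤ) (w : Cfsg.GolayPt → ℤ) = -32) : Cfsg.IsHS ↥(MulAction.stabilizer Cfsg.Co0 v ⊓ MulAction.stabilizer Cfsg.Co0 w) := by
  obtain ⟨z1, z2⟩ := zfacts v w hv hw hvw
  obtain ⟨z1', z2'⟩ := zfacts uS wS uS_norm wS_norm uwS_dot
  obtain ⟨h, hh⟩ := chH_base2 (sel3 v (v + w) v) hv z1 z2
  obtain ⟨k, hk⟩ := chH_base2 (sel3 uS (uS + wS) uS) uS_norm z1' z2'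
  have e0 : h • v = k • uS := Subtype.ext ((hh 0 (by norm_num)).trans (hk 0 (by norm_num)).symm)
  have e1 : h • (v + w) = k • (uS + wS) :=
    Subtype.ext ((hh 1 (by norm_num)).trans (hk 1 (by norm_num)).symm)
  have e2 : h • w = k • wS := by
    rw [Co0_add, Co0_add, e0] at e1
    exact add_left_cancel e1
  exact transport v w (k⁻¹ * h) (by rw [mul_smul, e0, inv_smul_smul]) (by rw [mul_smul, e2, inv_smul_smul])

end Cfsg.Agent.S0405
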