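import Cfsg.Statements.S0403
import Mathlib
import Cfsg.Agent.Lib.Helper11.LevelThms
import Cfsg.Agent.Lib.Helper11.SubOrbDot
import Cfsg.Agent.S0405
-- import your own Cfsg.Agent.* helpers here

set_option autoImplicit false
open Cfsg

namespace Cfsg.Agent.S0403

open Cfsg.Agent.Lib.Helper11 Cfsg.Agent.Lib.Helper3

/-- the points. -/
def dl (u : ↥leechLattice) : Set ↥leechLattice := {x | sqNorm x.1 = 32 ∧ dotInt u.1 x.1 = -16}

theorem zlevT {rk : ℕ → ℕ} {n0 : ℕ} {tts : ℕ → ℕ} {t : ℕ → ℤ} {c : ℕ}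
    (htt : chkTT chH 2 tts t = true) (ht0 : t 0 = -16)
    (hall : (slotCL znBIG 11178).all
      (fun n => bif condAll chH 2 tts n then stepOK hsTs rk n0 n else true) = true)
    (hcnt : (slotCL znBIG 11178).countP (condAll chH 2 tts) = c) (hc : c ≠ 0)
    (u x : ↥leechLattice) (hu : sqNorm u.1 = 48) (hx : sqNorm x.1 = 32)
    (hd : dotInt u.1 x.1 = -16) (s : ℤ) (hs : -(t 1) = s) (hs32 : s ≠ 32) :
    {y | y ∈ dl u ∧ y ≠ x ∧ dotInt x.1 y.1 = s}.ncard = c ∧
    ∀ y y', y ∈ dl u → y' ∈ dl u → dotInt x.1 y.1 = s → dotInt x.1 y'.1 = s →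
      ∃ g ∈ MulAction.stabilizer ↥Co0 u, g • x = x ∧ g • y = y' := by
  obtain ⟨y0, _, h2, h3⟩ := zlev htt ht0 hall hcnt hc u x hu hx hd
  have key : ∀ y : ↥leechLattice, (y ∈ dl u ∧ y ≠ x ∧ dotInt x.1 y.1 = s) ↔ y ∈ lev u x (t 1) := by
    intro y
    constructor
    · rintro ⟨⟨a, b⟩, _, d⟩
      exact ⟨a, b, d.trans hs.symm⟩
    · rintro ⟨a, b, d⟩
      refine ⟨⟨a, b⟩, ?_, d.trans hs⟩
      rintro rfl
      rw [dotInt_self, hx] at d
      exact hs32 (hs.symm.trans d.symm)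
  have ne : ∀ y : ↥leechLattice, dotInt x.1 y.1 = s → y ≠ x := by
    rintro y d rfl
    rw [dotInt_self, hx] at d
    exact hs32 d.symm
  constructor
  · have e : {y | y ∈ dl u ∧ y ≠ x ∧ dotInt x.1 y.1 = s} = lev u x (t 1) := Set.ext key
    rw [e]; exact h3
  · intro y y' hy hy' d d'
    have m1 : y ∈ MulAction.orbit ↥(MulAction.stabilizer ↥Co0 u ⊓ MulAction.stabilizer ↥Co0 x) y0 := by
      rw [h2]; exact (key y).1 ⟨hy, ne y d, d⟩
    have m2 : y' ∈ MulAction.orbit ↥(MulAction.stabilizer ↥Co0 u ⊓ MulAction.stabilizer ↥Co0 x) y0 := by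
      rw [h2]; exact (key y').1 ⟨hy', ne y' d', d'⟩
    obtain ⟨g1, e1⟩ := m1
    obtain ⟨g2, e2⟩ := m2
    refine ⟨(g2 * g1⁻¹).1, (g2 * g1⁻¹).2.1, (g2 * g1⁻¹).2.2, ?_⟩
    show (g2 * g1⁻¹) • y = y'
    rw [← e1, ← e2, mul_smul, inv_smul_smul]

theorem finCo0 : Finite ↥Co0 :=
  Nat.finite_of_card_ne_zero (by rw [Cfsg.Agent.Lib.Helper3.Lee.card_Co0]; norm_num)

theorem stab_eq (u a : ↥leechLattice) :
    MulAction.stabilizer ↥Co0 u ⊓ MulAction.stabilizer ↥Co0 a =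
      MulAction.stabilizer ↥Co0 u ⊓ MulAction.stabilizer ↥Co0 (-(u + a)) := by
  ext g
  constructor
  · rintro ⟨h1, h2⟩
    refine ⟨h1, ?_⟩
    show g • (-(u + a)) = -(u + a)
    rw [Co0_neg, Co0_add, show g • u = u from h1, show g • a = a from h2]
  · rintro ⟨h1, h2⟩
    refine ⟨h1, ?_⟩
    have h3 : g • (-(u + a)) = -(u + a) := h2
    rw [Co0_neg, Co0_add, show g • u = u from h1] at h3
    exact add_left_cancel (neg_injective h3)

theorem stab_hs (u a : ↥leechLattice) (hu : sqNorm u.1 = 48) (ha : sqNorm a.1 = 32)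
    (hd : dotInt u.1 a.1 = -16) :
    IsHS (MulAction.stabilizer ↥(MulAction.stabilizer ↥Co0 u) a) := by
  have e := stabEquiv (MulAction.stabilizer ↥Co0 u) a
  rw [stab_eq] at e
  have e2 : (-(u + a)).1 = -(u.1 + a.1) := rfl
  have H := Cfsg.Agent.S0405.result u (-(u + a)) hu
    (by
      rw [e2, sqNorm_neg, ← dotInt_self, dotInt_add_left, dotInt_comm u.1, dotInt_comm a.1,
        dotInt_add_left, dotInt_add_left, dotInt_self, dotInt_self, hu, ha, dotInt_comm a.1, hd]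
      norm_num)
    (by
      rw [e2, dotInt_neg_right, dotInt_comm, dotInt_add_left, dotInt_self, hu, dotInt_comm, hd]
      norm_num)
  exact ⟨e.isSimpleGroup_congr.2 H.1, (Nat.card_congr e.toEquiv).trans H.2⟩

/-- Stabiliser of a vector of sum of squares 48 is simple of order 495766656000. -/
theorem result (v : Cfsg.leechLattice) (hv : Cfsg.sqNorm (v : Cfsg.GolayPt → ℤ) = 48) : Cfsg.IsCo3 (MulAction.stabilizer Cfsg.Co0 v) := by
  haveI := finCo0
  have cN : (dl v).ncard = 11178 := zn_count v hv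
  obtain ⟨a, ha⟩ : (dl v).Nonempty := Set.nonempty_of_ncard_ne_zero (by rw [cN]; norm_num)
  have Lb := zlevT znb_htt rfl znb_hall znb_cnt (by norm_num) v a hv ha.1 ha.2 (-8) rfl (by norm_num)
  have Lc := zlevT znc_htt rfl znc_hall znc_cnt (by norm_num) v a hv ha.1 ha.2 0 rfl (by norm_num)
  have Ld := zlevT znd_htt rfl znd_hall znd_cnt (by norm_num) v a hv ha.1 ha.2 8 rfl (by norm_num)
  have Le := zlevT zne_htt rfl zne_hall zne_cnt (by norm_num) v a hv ha.1 ha.2 16 rfl (by norm_num)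
  have hfin : (dl v).Finite := Set.finite_of_ncard_ne_zero (by rw [cN]; norm_num)
  have hinj : Function.Injective (![-8, 0, 8, 16] : Fin 4 → ℤ) := by decide
  have hcard : ∀ j, {x | x ∈ dl v ∧ x ≠ a ∧
      dotInt a.1 x.1 = (![-8, 0, 8, 16] : Fin 4 → ℤ) j}.ncard =
        (![352, 4125, 5600, 1100] : Fin 4 → ℕ) j := by
    intro j
    fin_cases j
    · exact Lb.1
    · exact Lc.1
    · exact Ld.1
    · exact Le.1
  obtain ⟨c, S⟩ := subOrb_of_dots (MulAction.stabilizer ↥Co0 v)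
    (dl v) a ![-8, 0, 8, 16] hinj ![352, 4125, 5600, 1100] hfin ha
    (by
      rintro g hg1 x ⟨h1, h2⟩
      refine ⟨by show sqNorm (g • x).1 = 32; rw [Co0_sqNorm]; exact h1, ?_⟩
      have := Co0_dot g v x
      rw [show g • v = v from hg1] at this
      exact this.trans h2)
    (by
      intro x hx
      obtain ⟨g, h1, h3⟩ := zn_trans v hv a x ha.1 ha.2 hx.1 hx.2
      exact ⟨g, h1, h3⟩)
    (hall_of_sum _ _ _ hinj _ hfin ha hcard (by rw [cN]; decide))
    hcard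
    (by
      intro j x hx y hy _ _ h1 h2
      fin_cases j
      · exact Lb.2 x y hx hy h1 h2
      · exact Lc.2 x y hx hy h1 h2
      · exact Ld.2 x y hx hy h1 h2
      · exact Le.2 x y hx hy h1 h2)
  have H := stab_hs v a hv ha.1 ha.2
  refine ⟨S.simple (by decide) H.1 0 (by decide) ?_ 23 2 ?_ ?_ (by norm_num) ?_, ?_⟩
  · rw [cN]; decide +kernel
  · rw [cN]; norm_num
  · rw [cN]; norm_num
  · decide +kernel
  · rw [S.card_eq, H.2, cN]

end Cfsg.Agent.S0403
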