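import Mathlib
import Cfsg.Statements.S0413
import Cfsg.Agent.Lib.Helper3.StN23o
import Cfsg.Agent.Lib.Helper3.Simple

set_option autoImplicit false
open Cfsg

namespace Cfsg.Agent.S0413

open Cfsg.Agent.Lib.Helper3.Stq


/-- Aut of an S(4, 7, 23) is simple of order 10200960 and 4-transitive. -/
theorem result {α : Type*} [Fintype α] [DecidableEq α] (hα : Fintype.card α = 23) {B : Set (Finset α)} (hB : Cfsg.IsSteinerSystem 4 7 B) : Cfsg.IsM23 (Cfsg.setSystemAut B) ∧ MulAction.IsMultiplyPretransitive (Cfsg.setSystemAut B) α 4 := by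
  open Cfsg.Agent.Lib.Helper3 in
  have hpt : MulAction.IsMultiplyPretransitive (Cfsg.setSystemAut B) α 4 :=
    pretrans_of_PM N23.main hα hB
  refine ⟨?_, hpt⟩
  have hne : Nonempty (Fin 4 ↪ α) :=
    Function.Embedding.nonempty_of_card_le (by rw [Fintype.card_fin, hα]; norm_num)
  obtain ⟨x⟩ := hne
  obtain ⟨e, he, -⟩ := iso_of_PM N23.main hα hB x
  have hS : IsSteinerSystem 4 7 (setOf' 23 N23.B0) := he ▸ steiner_image e hB
  obtain ⟨φ, -⟩ := aut_equiv e he
  have hcard : Nat.card (Cfsg.setSystemAut B) = 23 * 443520 := by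
    rw [Nat.card_congr φ.toEquiv, N23.card hS]
    rfl
  refine ⟨?_, hcard⟩
  have h2 : MulAction.IsMultiplyPretransitive (Cfsg.setSystemAut B) α 2 :=
    MulAction.isMultiplyPretransitive_of_le (n := 4) (by norm_num)
      (by rw [Nat.card_eq_fintype_card, hα]; norm_num)
  have hfaith : ∀ g : Cfsg.setSystemAut B, (∀ a ∈ (Set.univ : Set α), g • a = a) → g = 1 := by
    intro g hg
    apply Subtype.ext
    ext a
    exact hg a trivial
  have hT : TwoTrans (Cfsg.setSystemAut B) (Set.univ : Set α) := by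
    refine ⟨fun _ _ _ => trivial, hfaith, ?_⟩
    intro a _ b _ c _ hb hc
    exact (MulAction.is_two_pretransitive_iff.1 h2) hb.symm hc.symm
  haveI : Fact (Nat.Prime 23) := ⟨by norm_num⟩
  have hnc : (Set.univ : Set α).ncard = 23 := by
    rw [Set.ncard_univ, Nat.card_eq_fintype_card, hα]
  apply hT.simple_of_prime Set.finite_univ 23 11 443520 (by norm_num) hcard (by norm_num)
    (by norm_num) (by rw [hnc]) (by
      rw [← Set.ncard_pos, hnc]; norm_num)
  · intro g s hs hg
    apply hfaith
    have : s = Set.univ := by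
      apply Set.eq_of_subset_of_ncard_le (Set.subset_univ s)
      rw [hnc, hs]
    rw [← this]; exact hg
  · intro c r n hc hr h1 h3
    rw [hnc] at hc
    have hc1 : c ≤ 1 := by omega
    have hr1 : r ≤ 22 := Nat.le_of_dvd (by norm_num) hr
    interval_cases c
    · omega
    · interval_cases r <;> omega

end Cfsg.Agent.S0413
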