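import Mathlib
import Cfsg.Statements.S0414
import Cfsg.Agent.Lib.Helper3.StN22p
import Cfsg.Agent.Lib.Helper3.Simple

set_option autoImplicit false
open Cfsg

namespace Cfsg.Agent.S0414

open Cfsg.Agent.Lib.Helper3.Stq


/-- Aut of an S(3, 6, 22) has order 887040, is 3-transitive, and contains a simple subgroup of index 2. -/
theorem result {α : Type*} [Fintype α] [DecidableEq α] (hα : Fintype.card α = 22) {B : Set (Finset α)} (hB : Cfsg.IsSteinerSystem 3 6 B) : Nat.card (Cfsg.setSystemAut B) = 887040 ∧ MulAction.IsMultiplyPretransitive (Cfsg.setSystemAut B) α 3 ∧ ∃ H : Subgroup (Cfsg.setSystemAut B), H.index = 2 ∧ Cfsg.IsM22 H := by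
  open Cfsg.Agent.Lib.Helper3 in
  classical
  have hpt : MulAction.IsMultiplyPretransitive (Cfsg.setSystemAut B) α 3 :=
    pretrans_of_PM N22.main hα hB
  have hne : Nonempty (Fin 3 ↪ α) :=
    Function.Embedding.nonempty_of_card_le (by rw [Fintype.card_fin, hα]; norm_num)
  obtain ⟨x0⟩ := hne
  obtain ⟨e, he, hex⟩ := iso_of_PM N22.main hα hB x0
  have hS : IsSteinerSystem 3 6 (setOf' 22 N22.B0) := he ▸ steiner_image e hB
  obtain ⟨φ, -⟩ := aut_equiv e he
  have hcard : Nat.card (Cfsg.setSystemAut B) = 887040 := by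
    rw [Nat.card_congr φ.toEquiv, N22.card hS]
    rfl
  refine ⟨hcard, hpt, ?_⟩
  have h2 : MulAction.IsMultiplyPretransitive (Cfsg.setSystemAut B) α 2 :=
    MulAction.isMultiplyPretransitive_of_le (n := 3) (by norm_num)
      (by rw [Nat.card_eq_fintype_card, hα]; norm_num)
  have h2' : ∀ a b c d : α, a ≠ b → c ≠ d → ∃ g : Cfsg.setSystemAut B, g • a = c ∧ g • b = d :=
    fun a b c d h h' => (MulAction.is_two_pretransitive_iff.1 h2) h h'
  let sg : Cfsg.setSystemAut B →* ℤˣ := Equiv.Perm.sign.comp (Cfsg.setSystemAut B).subtype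
  have hufix : ∀ i : Fin 3, e.symm.permCongr (permOf 22 N22.sOdd) (x0 i) = x0 i := by
    intro i
    rw [Equiv.permCongr_apply]
    simp only [Equiv.symm_symm]
    rw [N22.odd_mem.2 _ (by rw [hex]; exact i.2)]
    simp
  have hu : ∃ u : Cfsg.setSystemAut B, sg u = -1 ∧ u • x0 0 = x0 0 ∧ u • x0 1 = x0 1 := by
    refine ⟨⟨e.symm.permCongr (permOf 22 N22.sOdd), ?_⟩, ?_, hufix 0, hufix 1⟩
    · rw [← permCongr_mem e he]
      have : e.permCongr (e.symm.permCongr (permOf 22 N22.sOdd)) = permOf 22 N22.sOdd := by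
        ext i
        simp [Equiv.permCongr_apply]
      rw [this]
      exact N22.odd_mem.1
    · show Equiv.Perm.sign (e.symm.permCongr (permOf 22 N22.sOdd)) = -1
      rw [Equiv.Perm.sign_permCongr, N22.odd_sign]
  obtain ⟨u, hu1, hu2, hu3⟩ := hu
  have hodd : ∀ a c : α, a ≠ c → ∃ w : Cfsg.setSystemAut B, sg w = -1 ∧ w • a = a ∧ w • c = c := by
    intro a c hac
    obtain ⟨k, hk1, hk2⟩ := h2' (x0 0) (x0 1) a c (by
      intro h
      have := x0.injective h
      simp at this) hac
    refine ⟨k * u * k⁻¹, ?_, ?_, ?_⟩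
    · rw [map_mul, map_mul, map_inv, hu1, mul_comm (sg k), mul_assoc, mul_inv_cancel, mul_one]
    · rw [mul_smul, mul_smul, ← hk1, inv_smul_smul, hu2]
    · rw [mul_smul, mul_smul, ← hk2, inv_smul_smul, hu3]
  have hidx : sg.ker.index = 2 := by
    rw [Subgroup.index_eq_two_iff]
    refine ⟨u, fun b => ?_⟩
    rw [MonoidHom.mem_ker, MonoidHom.mem_ker, map_mul, hu1]
    rcases Int.units_eq_one_or (sg b) with h | h <;> rw [h] <;> decide
  have hcardH : Nat.card sg.ker = 11 * 40320 := by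
    have := Subgroup.card_mul_index sg.ker
    rw [hidx, hcard] at this
    omega
  refine ⟨sg.ker, hidx, ?_, hcardH⟩
  have hfaith : ∀ g : sg.ker, (∀ a ∈ (Set.univ : Set α), g • a = a) → g = 1 := by
    intro g hg
    apply Subtype.ext
    apply Subtype.ext
    ext a
    exact hg a trivial
  have hT : TwoTrans sg.ker (Set.univ : Set α) := by
    refine ⟨fun _ _ _ => trivial, hfaith, ?_⟩
    intro a _ b _ c _ hb hc
    obtain ⟨g, hg1, hg2⟩ := h2' a b a c hb.symm hc.symm
    rcases Int.units_eq_one_or (sg g) with h | h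
    · exact ⟨⟨g, h⟩, hg1, hg2⟩
    · obtain ⟨w, hw1, hw2, hw3⟩ := hodd a c hc.symm
      refine ⟨⟨w * g, ?_⟩, ?_, ?_⟩
      · rw [MonoidHom.mem_ker, map_mul, hw1, h]
        decide
      · show (w * g) • a = a
        rw [mul_smul, hg1, hw2]
      · show (w * g) • b = c
        rw [mul_smul, hg2, hw3]
  have hfix : ∀ g : sg.ker, ∀ s : Set α, s.ncard = 11 → (∀ b ∈ s, g • b = b) → g = 1 := by
    intro g s hs hg
    have hs' : s.toFinset.card = 11 := by rw [← Set.ncard_eq_toFinset_card', hs]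
    obtain ⟨t, ht, ht3⟩ := Finset.exists_subset_card_eq (s := s.toFinset) (n := 3) (by omega)
    let x : Fin 3 ↪ α :=
      (Finset.equivFinOfCardEq ht3).symm.toEmbedding.trans (Function.Embedding.subtype _)
    have hxs : ∀ i, x i ∈ s := fun i =>
      Set.mem_toFinset.mp (ht ((Finset.equivFinOfCardEq ht3).symm i).2)
    obtain ⟨e', he', hx'⟩ := iso_of_PM N22.main hα hB x
    have hσ : e'.permCongr g.1.1 ∈ FixM 22 3 N22.B0 := by
      refine ⟨(permCongr_mem e' he' g.1.1).mpr g.1.2, ?_⟩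
      intro i hi
      have hxi : e' (x ⟨i, hi⟩) = i := Fin.ext (hx' ⟨i, hi⟩)
      have hgx : g.1.1 (x ⟨i, hi⟩) = x ⟨i, hi⟩ := hg _ (hxs _)
      rw [Equiv.permCongr_apply, ← hxi, Equiv.symm_apply_apply, hgx]
    have h1 := fix_many (N22.fixM hS).1 11 N22.fixchk _ hσ (s.toFinset.image e')
      (by rw [Finset.card_image_of_injective _ e'.injective, hs']) (by
        intro i hi
        obtain ⟨a, ha, rfl⟩ := Finset.mem_image.mp hi
        rw [Equiv.permCongr_apply, Equiv.symm_apply_apply]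
        congr 1
        exact hg a (Set.mem_toFinset.mp ha))
    apply Subtype.ext
    apply Subtype.ext
    ext a
    have h5 := DFunLike.congr_fun h1 (e' a)
    rw [Equiv.permCongr_apply, Equiv.symm_apply_apply, Equiv.Perm.one_apply] at h5
    exact e'.injective h5
  haveI : Fact (Nat.Prime 11) := ⟨by norm_num⟩
  have hnc : (Set.univ : Set α).ncard = 22 := by
    rw [Set.ncard_univ, Nat.card_eq_fintype_card, hα]
  apply hT.simple_of_prime Set.finite_univ 11 5 40320 (by norm_num) hcardH (by norm_num)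
    (by norm_num) (by rw [hnc]; norm_num) (by
      rw [← Set.ncard_pos, hnc]; norm_num) hfix
  intro c r n hc hr h1 h3
  rw [hnc] at hc
  have hc1 : c ≤ 2 := by omega
  have hr1 : r ≤ 10 := Nat.le_of_dvd (by norm_num) hr
  interval_cases c
  · omega
  · interval_cases r <;> omega
  · interval_cases r <;> omega

end Cfsg.Agent.S0414
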