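import Mathlib
import Cfsg.Statements.S0418
import Cfsg.Agent.Lib.Helper3.Simple

set_option autoImplicit false
open Cfsg

namespace Cfsg.Agent.S0418

theorem card_sharp {α : Type*} [Fintype α] [DecidableEq α] (G : Subgroup (Equiv.Perm α)) (n : ℕ)
    (hn : n ≤ Fintype.card α) [hT : MulAction.IsMultiplyPretransitive G α n]
    (hsharp : ∀ x : Fin n ↪ α, MulAction.stabilizer G x = ⊥) :
    Nat.card G = (Fintype.card α).descFactorial n := by
  have hne : Nonempty (Fin n ↪ α) := Function.Embedding.nonempty_of_card_le (by simpa using hn)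
  obtain ⟨x⟩ := hne
  have h1 := MulAction.index_stabilizer G x
  rw [hsharp x, Subgroup.index_bot] at h1
  have h2 : MulAction.orbit G x = Set.univ := by
    ext y
    simp only [Set.mem_univ, iff_true]
    obtain ⟨g, hg⟩ := hT.exists_smul_eq x y
    exact ⟨g, hg⟩
  have h3 : (MulAction.orbit G x).ncard = (Fintype.card α).descFactorial n := by
    rw [h2, Set.ncard_univ, Nat.card_eq_fintype_card, Fintype.card_embedding_eq, Fintype.card_fin]
  exact h1.trans h3


/-- A sharply 4-transitive group of degree 11 is simple of order 7920. -/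
theorem result {α : Type*} [Fintype α] [DecidableEq α] (hα : Fintype.card α = 11) (G : Subgroup (Equiv.Perm α)) [MulAction.IsMultiplyPretransitive G α 4] (hsharp : ∀ x : Fin 4 ↪ α, MulAction.stabilizer G x = ⊥) : Cfsg.IsM11 G := by
  open Cfsg.Agent.Lib.Helper3 in
  have hcard : Nat.card G = 7920 := by
    rw [card_sharp G 4 (by rw [hα]; norm_num) hsharp, hα]; rfl
  refine ⟨?_, hcard⟩
  have h2 : MulAction.IsMultiplyPretransitive G α 2 :=
    MulAction.isMultiplyPretransitive_of_le (n := 4) (by norm_num)
      (by rw [Nat.card_eq_fintype_card, hα]; norm_num)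
  have hfaith : ∀ g : G, (∀ a ∈ (Set.univ : Set α), g • a = a) → g = 1 := by
    intro g hg
    apply Subtype.ext
    ext a
    exact hg a trivial
  have hT : TwoTrans G (Set.univ : Set α) := by
    refine ⟨fun _ _ _ => trivial, hfaith, ?_⟩
    intro a _ b _ c _ hb hc
    exact (MulAction.is_two_pretransitive_iff.1 h2) hb.symm hc.symm
  haveI : Fact (Nat.Prime 11) := ⟨by norm_num⟩
  have hnc : (Set.univ : Set α).ncard = 11 := by
    rw [Set.ncard_univ, Nat.card_eq_fintype_card, hα]
  apply hT.simple_of_prime Set.finite_univ 11 5 720 (by norm_num) hcard (by norm_num) (by norm_num)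
    (by rw [hnc]) (by
      rw [← Set.ncard_pos, hnc]; norm_num)
  · intro g s hs hg
    apply hfaith
    have : s = Set.univ := by
      apply Set.eq_of_subset_of_ncard_le (Set.subset_univ s)
      rw [hnc, hs]
    rw [← this]; exact hg
  · intro c r n hc hr h1 h3
    rw [hnc] at hc
    have hc1 : c ≤ 1 := by omega
    have hr1 : r ≤ 10 := Nat.le_of_dvd (by norm_num) hr
    interval_cases c
    · omega
    · interval_cases r <;> omega

end Cfsg.Agent.S0418
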