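import Mathlib
import Cfsg.Statements.S0419
import Cfsg.Agent.Lib.Helper3.Simple

set_option autoImplicit false
open Cfsg

namespace Cfsg.Agent.S0419

theorem card_sharp {α : Type*} [Fintype α] [DecidableEq α] (G : Subgroup (Equiv.Perm α)) (n : ℕ)
    (hn : n ≤ Fintype.card α) [hT : MulAction.IsMultiplyPretransitive G α n]
    (hsharp : ∀ x : Fin n ↪ α, MulAction.stabilizer G x = ⊥) :
    Nat.card G = (Fintype.card α).descFactorial n := by
  have hne : Nonempty (Fin n ↪ α) := Function.Embedding.nonempty_of_card_le (by simpa using hn)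
  obtain ⟨x⟩ := hne
  have h1 := MulAction.index_stabilizer G x
  rw [hsharp x, Subgroup.index_bot] at h1
  have h2 : MulAction.orbit G x = Set.univ := by
    ext y
    simp only [Set.mem_univ, iff_true]
    obtain ⟨g, hg⟩ := hT.exists_smul_eq x y
    exact ⟨g, hg⟩
  have h3 : (MulAction.orbit G x).ncard = (Fintype.card α).descFactorial n := by
    rw [h2, Set.ncard_univ, Nat.card_eq_fintype_card, Fintype.card_embedding_eq, Fintype.card_fin]
  exact h1.trans h3

theorem perm_eq_one {α : Type*} [Fintype α] [DecidableEq α] (g : Equiv.Perm α) (s : Set α)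
    (hs : Fintype.card α ≤ s.ncard + 1) (hg : ∀ b ∈ s, g b = b) : g = 1 := by
  classical
  rw [← Equiv.Perm.card_support_eq_zero]
  have h1 : g.support ⊆ s.toFinsetᶜ := by
    intro b hb
    rw [Finset.mem_compl, Set.mem_toFinset]
    intro hbs
    exact (Equiv.Perm.mem_support.1 hb) (hg b hbs)
  have h2 := Finset.card_le_card h1
  rw [Finset.card_compl, ← Set.ncard_eq_toFinset_card'] at h2
  have h3 := Equiv.Perm.card_support_ne_one g
  omega


/-- A sharply 5-transitive group of degree 12 is simple of order 95040. -/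
theorem result {α : Type*} [Fintype α] [DecidableEq α] (hα : Fintype.card α = 12) (G : Subgroup (Equiv.Perm α)) [MulAction.IsMultiplyPretransitive G α 5] (hsharp : ∀ x : Fin 5 ↪ α, MulAction.stabilizer G x = ⊥) : Cfsg.IsM12 G := by
  open Cfsg.Agent.Lib.Helper3 in
  have hcard : Nat.card G = 95040 := by
    rw [card_sharp G 5 (by rw [hα]; norm_num) hsharp, hα]; rfl
  refine ⟨?_, hcard⟩
  have hne : Nonempty α := by
    rw [← Fintype.card_pos_iff, hα]; norm_num
  obtain ⟨a⟩ := hne
  have h2 : MulAction.IsMultiplyPretransitive G α 2 :=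
    MulAction.isMultiplyPretransitive_of_le (n := 5) (by norm_num)
      (by rw [Nat.card_eq_fintype_card, hα]; norm_num)
  have h3 : MulAction.IsMultiplyPretransitive G α 3 :=
    MulAction.isMultiplyPretransitive_of_le (n := 5) (by norm_num)
      (by rw [Nat.card_eq_fintype_card, hα]; norm_num)
  have h1 : MulAction.IsPretransitive G α := MulAction.isPretransitive_of_is_two_pretransitive
  have hS2 : MulAction.IsMultiplyPretransitive (MulAction.stabilizer G a)
      (SubMulAction.ofStabilizer G a) 2 :=
    (SubMulAction.ofStabilizer.isMultiplyPretransitive (n := 2)).1 h3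
  have hfaith : ∀ g : G, (∀ a ∈ (Set.univ : Set α), g • a = a) → g = 1 := by
    intro g hg
    apply Subtype.ext
    ext a
    exact hg a trivial
  have hT : TwoTrans G (Set.univ : Set α) := by
    refine ⟨fun _ _ _ => trivial, hfaith, ?_⟩
    intro a _ b _ c _ hb hc
    exact (MulAction.is_two_pretransitive_iff.1 h2) hb.symm hc.symm
  have hnc : (Set.univ : Set α).ncard = 12 := by
    rw [Set.ncard_univ, Nat.card_eq_fintype_card, hα]
  apply hT.simple_of_stabilizer (a := a) trivial ?_ (by rw [hnc]; decide) (by rw [hnc]; norm_num)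
  have hcardS : Nat.card (MulAction.stabilizer G a) = 7920 := by
    have e1 := MulAction.index_stabilizer G a
    rw [MulAction.orbit_eq_univ, hnc] at e1
    have e2 := Subgroup.card_mul_index (MulAction.stabilizer G a)
    rw [e1, hcard] at e2
    omega
  have hfixS : ∀ g : MulAction.stabilizer G a, ∀ s : Set α, s.ncard = 11 →
      (∀ b ∈ s, g • b = b) → g = 1 := by
    intro g s hs hg
    apply Subtype.ext
    apply Subtype.ext
    exact perm_eq_one _ s (by rw [hα, hs]) hg
  have hnc' : ({a}ᶜ : Set α).ncard = 11 := by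
    have := Set.ncard_add_ncard_compl ({a} : Set α)
    rw [Set.ncard_singleton, Nat.card_eq_fintype_card, hα] at this
    omega
  have hTa : TwoTrans (MulAction.stabilizer G a) ({a}ᶜ : Set α) := by
    refine ⟨?_, ?_, ?_⟩
    · intro g b hb hc
      apply hb
      have e1 : g • b = g • a := by
        rw [Set.mem_singleton_iff.1 hc]; exact g.2.symm
      exact MulAction.injective g e1
    · intro g hg
      exact hfixS g _ hnc' hg
    · intro b hb c hc d hd hcb hdb
      have hS2' : ∀ (x y z w : SubMulAction.ofStabilizer G a), x ≠ y → z ≠ w →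
          ∃ g : MulAction.stabilizer G a, g • x = z ∧ g • y = w :=
        fun x y z w h h' => (MulAction.is_two_pretransitive_iff.1 hS2) h h'
      obtain ⟨g, e1, e2⟩ := hS2' ⟨b, hb⟩ ⟨c, hc⟩ ⟨b, hb⟩ ⟨d, hd⟩
        (fun h => hcb (congrArg Subtype.val h).symm) (fun h => hdb (congrArg Subtype.val h).symm)
      exact ⟨g, congrArg Subtype.val e1, congrArg Subtype.val e2⟩
  haveI : Fact (Nat.Prime 11) := ⟨by norm_num⟩
  apply hTa.simple_of_prime (Set.toFinite _) 11 5 720 (by norm_num) hcardS (by norm_num)
    (by norm_num) (by rw [hnc']) (by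
      rw [← Set.ncard_pos, hnc']; norm_num) hfixS
  intro c r n hc hr h1 h3
  rw [hnc'] at hc
  have hc1 : c ≤ 1 := by omega
  have hr1 : r ≤ 10 := Nat.le_of_dvd (by norm_num) hr
  interval_cases c
  · omega
  · interval_cases r <;> omega

end Cfsg.Agent.S0419
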