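import Mathlib
import Cfsg.Statements.S0427
import Cfsg.Agent.Lib.Helper3.StSrg
import Cfsg.Agent.Lib.Helper3.StD22

set_option autoImplicit false
open Cfsg

namespace Cfsg.Agent.S0427

open Cfsg.Agent.Lib.Helper3.Stq

set_option maxRecDepth 100000

def adjB (x y : ℕ) : Bool := !(Nat.beq x y) && Nat.beq (Nat.land x y) 0

theorem chkL : D22.B0.all (fun c => decide (c < 2 ^ 22)) = true := by decide +kernel

theorem chkN : nodupB D22.B0 = true := by decide +kernel

theorem chk1 : D22.B0.length = 77 := by decide +kernel

theorem chk2 : D22.B0.all (fun a => Nat.beq (D22.B0.filter (adjB a)).length 16) = true := by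
  decide +kernel

theorem chk3 : D22.B0.all (fun a => D22.B0.all (fun b => decide (a = b) ||
    Nat.beq (D22.B0.filter (fun c => adjB a c && adjB b c)).length (bif adjB a b then 0 else 4)))
    = true := by
  decide +kernel


/-- The block graph (adjacent = disjoint) of an S(3, 6, 22) is strongly regular with parameters (77, 16, 0, 4). -/
theorem result {α : Type*} [Fintype α] (hα : Fintype.card α = 22) {B : Set (Finset α)} (hB : Cfsg.IsSteinerSystem 3 6 B) [Fintype B] [DecidableRel (Cfsg.blockGraph B).Adj] : (Cfsg.blockGraph B).IsSRGWith 77 16 0 4 := by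
  classical
  obtain ⟨e, he⟩ := iso_of_P D22.main hα hB
  have hL : ∀ c ∈ D22.B0, c < 2 ^ 22 := by
    have := chkL
    rw [List.all_eq_true] at this
    intro c hc
    exact of_decide_eq_true (this c hc)
  apply srg_of_code (Cfsg.blockGraph B) (bcode e he) (bcode_inj e he) D22.B0 (nodupB_iff chkN)
    (bcode_surj e he hL) adjB ?_ 77 16 0 4 chk1 chk2 chk3
  intro b c
  rw [Cfsg.blockGraph, SimpleGraph.fromRel_adj, adjB, Bool.and_eq_true, Bool.not_eq_true',
    Nat.beq_eq, ← disjoint_iff_land e he hL, disjoint_comm (a := (c : Finset α)), or_self,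
    ← Bool.not_eq_true, Nat.beq_eq, (bcode_inj e he).eq_iff]

end Cfsg.Agent.S0427
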