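import Mathlib
import Cfsg.Statements.S0428
import Cfsg.Agent.Lib.Helper3.StHS
import Cfsg.Agent.Lib.Helper3.StD22

set_option autoImplicit false
open Cfsg

namespace Cfsg.Agent.S0428

open Cfsg.Agent.Lib.Helper3.Stq

set_option maxRecDepth 100000

def VL : List (ℕ × ℕ) := [(2, 0), (1, 1), (1, 2), (1, 4), (1, 8), (1, 16), (1, 32), (1, 64), (1, 128), (1, 256), (1, 512), (1, 1024), (1, 2048), (1, 4096), (1, 8192), (1, 16384), (1, 32768), (1, 65536), (1, 131072), (1, 262144), (1, 524288), (1, 1048576), (1, 2097152), (0, 2732032), (0, 1470464), (0, 1412096), (0, 2771968), (0, 1737472), (0, 2441984), (0, 203392), (0, 59008), (0, 3156352), (0, 791936), (0, 797248), (0, 3151424), (0, 55616), (0, 206144), (0, 2523328), (0, 1654976), (0, 3342384), (0, 835632), (0, 13104), (0, 3312), (0, 1579048), (0, 2368552), (0, 98728), (0, 148072), (0, 174104), (0, 87064), (0, 2622104), (0, 1311064), (0, 92196), (0, 168996), (0, 1311396), (0, 2621796), (0, 2365460), (0, 1582100), (0, 147860), (0, 98900), (0, 983052), (0, 3194892), (0, 3852), (0, 12492), (0, 2132514),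 (0, 1066274), (0, 663714), (0, 331874), (0, 394770), (0, 592146), (0, 1085586), (0, 2121810), (0, 1122826), (0, 2232586), (0, 280714), (0, 558154), (0, 545286), (0, 303366), (0, 2163846), (0, 1181766), (0, 591393), (0, 395553), (0, 2117793), (0, 1089633), (0, 1067537), (0, 2131217), (0, 336017), (0, 659537), (0, 299529), (0, 549129), (0, 1180809), (0, 2164809), (0, 2236933), (0, 1118469), (0, 559237), (0, 279621), (0, 3932163), (0, 245763), (0, 15363), (0, 963), (0, 63)]

theorem VL_eq : vlist 22 D22.B0 = VL := by decide +kernel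

theorem chkL : D22.B0.all (fun c => decide (c < 2 ^ 22)) = true := by decide +kernel

theorem chkN : VL.Nodup := by decide +kernel

theorem chk1 : VL.length = 100 := by decide +kernel

theorem chk2 : VL.all (fun a => Nat.beq (VL.filter (adjP a)).length 22) = true := by
  decide +kernel

theorem chk3 : VL.all (fun a => VL.all (fun b => decide (a = b) ||
    Nat.beq (VL.filter (fun c => adjP a c && adjP b c)).length (bif adjP a b then 0 else 6)))
    = true := by
  decide +kernel


/-- The point-block graph of an S(3, 6, 22) is strongly regular with parameters (100, 22, 0, 6). -/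
theorem result {α : Type*} [Fintype α] (hα : Fintype.card α = 22) {B : Set (Finset α)} (hB : Cfsg.IsSteinerSystem 3 6 B) [Fintype B] [DecidableRel (Cfsg.pointBlockGraph B).Adj] : (Cfsg.pointBlockGraph B).IsSRGWith 100 22 0 6 := by
  classical
  obtain ⟨e, he⟩ := iso_of_P D22.main hα hB
  have hL : ∀ c ∈ D22.B0, c < 2 ^ 22 := by
    have := chkL
    rw [List.all_eq_true] at this
    intro c hc
    exact of_decide_eq_true (this c hc)
  exact srg_of_code (Cfsg.pointBlockGraph B) (vcode e he) (vcode_inj e he) VL chkN
    (VL_eq ▸ vcode_surj e he hL) adjP (adj_vcode e he hL) 100 22 0 6 chk1 chk2 chk3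

end Cfsg.Agent.S0428
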