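import Mathlib
import Cfsg.Statements.S0430
import Cfsg.Agent.Lib.Helper3.Srg100
import Cfsg.Agent.Lib.Helper3.StD22
import Cfsg.Agent.Lib.Helper3.StAut

set_option autoImplicit false
open Cfsg

namespace Cfsg.Agent.S0430

open Cfsg.Agent.Lib.Helper3 Cfsg.Agent.Lib.Helper3.Stq

def imgEquiv' {α β : Type*} [DecidableEq α] [DecidableEq β] (e : α ≃ β) : Finset α ≃ Finset β where
  toFun b := b.image e
  invFun b := b.image e.symm
  left_inv b := by simp [Finset.image_image]
  right_inv b := by simp [Finset.image_image]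

/-- isomorphic set systems have isomorphic point-block graphs. -/
theorem pbIso {α β : Type*} [DecidableEq α] [DecidableEq β] {B : Set (Finset α)}
    {B' : Set (Finset β)} (e : α ≃ β) (he : (fun b => b.image e) '' B = B') :
    Nonempty (pointBlockGraph B ≃g pointBlockGraph B') := by
  have hmem : ∀ b : Finset α, b ∈ B ↔ imgEquiv' e b ∈ B' := by
    intro b
    rw [mem_image_iff e he]
    show b ∈ B ↔ (b.image e).image e.symm ∈ B
    rw [Finset.image_image]
    simp
  let bE : B ≃ B' := (imgEquiv' e).subtypeEquiv hmem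
  let vE : Option (α ⊕ B) ≃ Option (β ⊕ B') := Equiv.optionCongr (Equiv.sumCongr e bE)
  have hrel : ∀ x y, pointBlockRel B' (vE x) (vE y) ↔ pointBlockRel B x y := by
    intro x y
    rcases x with _ | a | b <;> rcases y with _ | a' | b' <;>
      simp [vE, bE, pointBlockRel, imgEquiv', Finset.disjoint_image e.injective]
  refine ⟨⟨vE, ?_⟩⟩
  intro x y
  unfold pointBlockGraph
  rw [SimpleGraph.fromRel_adj, SimpleGraph.fromRel_adj, hrel, hrel, vE.injective.ne_iff]

/-- a strongly regular graph with these parameters is the standard point-block graph. -/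
theorem std {V : Type*} [Fintype V] {G : SimpleGraph V} [DecidableRel G.Adj]
    (hG : G.IsSRGWith 100 22 0 6) :
    Nonempty (G ≃g pointBlockGraph (setOf' 22 D22.B0)) := by
  classical
  have hne : Nonempty V := by
    rw [← Fintype.card_pos_iff, hG.card]
    norm_num
  obtain ⟨o⟩ := hne
  obtain ⟨e, he⟩ := iso_of_P D22.main (Srg100.card_Pt hG o) (Srg100.steiner hG o)
  obtain ⟨φ⟩ := pbIso e he
  exact ⟨(Srg100.isoPB hG o).trans φ⟩


/-- Uniqueness of the strongly regular graph with parameters (100, 22, 0, 6). -/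
theorem result {V W : Type*} [Fintype V] [Fintype W] {G : SimpleGraph V} {H : SimpleGraph W} [DecidableRel G.Adj] [DecidableRel H.Adj] (hG : G.IsSRGWith 100 22 0 6) (hH : H.IsSRGWith 100 22 0 6) : Nonempty (G ≃g H) := by
  obtain ⟨φ⟩ := std hG
  obtain ⟨ψ⟩ := std hH
  exact ⟨φ.trans ψ.symm⟩

end Cfsg.Agent.S0430
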