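import Mathlib
import Cfsg.Statements.S1586
import Cfsg.Agent.Lib.Helper3.StHS3
import Cfsg.Agent.S0428
import Cfsg.Agent.S0414

set_option autoImplicit false
open Cfsg

namespace Cfsg.Agent.S1586

open Cfsg.Agent.Lib.Helper3.Stq


/-- The Higman–Sims graph built from an S(3, 6, 22) has exactly 88704000 automorphisms. -/
theorem result {α : Type*} [Fintype α] [DecidableEq α] (hα : Fintype.card α = 22) {B : Set (Finset α)} (hB : Cfsg.IsSteinerSystem 3 6 B) : Nat.card (Cfsg.pointBlockGraph B ≃g Cfsg.pointBlockGraph B) = 88704000 := by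
  classical
  obtain ⟨e, he⟩ := iso_of_P D22.main hα hB
  have hL : ∀ c ∈ D22.B0, c < 2 ^ 22 := by
    have := HS.chkL
    rw [List.all_eq_true] at this
    intro c hc
    exact of_decide_eq_true (this c hc)
  have hsurj : ∀ m, m ∈ HS.VL ↔ ∃ x, vcode e he x = m := HS.VL_eq ▸ vcode_surj e he hL
  have htr : ∀ x : Option (α ⊕ B), ∃ φ : Cfsg.pointBlockGraph B ≃g Cfsg.pointBlockGraph B,
      φ none = x := by
    intro x
    have hm : vcode e he x ∈ HS.VL := (hsurj _).mpr ⟨x, rfl⟩
    have h0 := (List.all_eq_true.mp HS.heads) _ hm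
    obtain ⟨T, hT, hhead⟩ := List.any_eq_true.mp h0
    have hok := HS.okAll T hT
    simp only [HS.tabOK, Bool.and_eq_true, decide_eq_true_eq, List.all_eq_true] at hok
    obtain ⟨⟨⟨h1, h2⟩, h3⟩, h4⟩ := hok
    obtain ⟨φ, hφ⟩ := aut_of_table (Cfsg.pointBlockGraph B) (vcode e he) (vcode_inj e he) HS.VL
      hsurj adjP (adj_vcode e he hL) T h1 (fun p hp => memP_mem (h2 p hp)) h3 (by
        rw [List.all_eq_true]
        intro p hp
        rw [List.all_eq_true]
        exact h4 p hp)
    refine ⟨φ, ?_⟩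
    apply vcode_inj e he
    have h5 := hφ none
    have h6 : ((2, 0), vcode e he x) ∈ T := by
      cases T with
      | nil => simp [HS.headIs] at hhead
      | cons p T' =>
        simp only [HS.headIs, Bool.and_eq_true, Nat.beq_eq] at hhead
        obtain ⟨⟨⟨a1, a2⟩, a3⟩, a4⟩ := hhead
        have : p = ((2, 0), vcode e he x) := Prod.ext (Prod.ext a1 a2) (Prod.ext a3 a4)
        rw [this]
        exact List.mem_cons_self
    have hnd : (T.map Prod.fst).Nodup := h1 ▸ HS.chkN
    exact congrArg Prod.snd (List.inj_on_of_nodup_map hnd h5 h6 rfl)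
  have hpt : MulAction.IsPretransitive (Cfsg.pointBlockGraph B ≃g Cfsg.pointBlockGraph B)
      (Option (α ⊕ B)) := by
    refine ⟨fun x y => ?_⟩
    obtain ⟨φ, hφ⟩ := htr x
    obtain ⟨ψ, hψ⟩ := htr y
    refine ⟨ψ * φ⁻¹, ?_⟩
    rw [mul_smul, ← hφ]
    show ψ (φ⁻¹ (φ none)) = y
    have : φ⁻¹ (φ none) = none := φ.symm_apply_apply none
    rw [this, hψ]
  have h1 := MulAction.index_stabilizer_of_transitive
    (Cfsg.pointBlockGraph B ≃g Cfsg.pointBlockGraph B) (none : Option (α ⊕ B))
  have h2 := Subgroup.card_mul_index (MulAction.stabilizer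
    (Cfsg.pointBlockGraph B ≃g Cfsg.pointBlockGraph B) (none : Option (α ⊕ B)))
  have hV : Nat.card (Option (α ⊕ B)) = 100 := by
    haveI : Fintype B := Fintype.ofFinite _
    rw [Nat.card_eq_fintype_card]
    exact (Cfsg.Agent.S0428.result hα hB).card
  rw [h1, card_stab_none, (Cfsg.Agent.S0414.result hα hB).1, hV] at h2
  rw [← h2]

end Cfsg.Agent.S1586
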