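import Mathlib
import Cfsg.Statements.S0431
import Cfsg.Agent.Lib.Helper3.StHS4
import Cfsg.Agent.Lib.Helper3.StHS5
import Cfsg.Agent.Lib.Helper11.SubOrb
import Cfsg.Agent.S0414
import Cfsg.Agent.S0428
import Cfsg.Agent.S1586

set_option autoImplicit false
open Cfsg

namespace Cfsg.Agent.S0431

open Cfsg.Agent.Lib.Helper3.Stq Cfsg.Agent.Lib.Helper11


/-- Aut of the point-block graph of an S(3, 6, 22) contains a simple subgroup of order 44352000. -/
theorem result {α : Type*} [Fintype α] (hα : Fintype.card α = 22) {B : Set (Finset α)} (hB : Cfsg.IsSteinerSystem 3 6 B) : ∃ H : Subgroup (Cfsg.pointBlockGraph B ≃g Cfsg.pointBlockGraph B), Cfsg.IsHS H := by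
  classical
  haveI : Fintype B := Fintype.ofFinite _
  let χ : (Cfsg.pointBlockGraph B ≃g Cfsg.pointBlockGraph B) →* ℤˣ :=
    Equiv.Perm.sign.comp (MulAction.toPermHom (Cfsg.pointBlockGraph B ≃g Cfsg.pointBlockGraph B)
      (Option (α ⊕ B)))
  obtain ⟨hcardD, hpt, M, hMidx, hMs, hMcard⟩ := Cfsg.Agent.S0414.result hα hB
  have hcardA := Cfsg.Agent.S1586.result hα hB
  have htr := HS.trans_none hα hB
  have hne : Nonempty (Fin 3 ↪ α) :=
    Function.Embedding.nonempty_of_card_le (by rw [Fintype.card_fin, hα]; norm_num)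
  obtain ⟨x0⟩ := hne
  obtain ⟨e, he, hex⟩ := iso_of_PM N22.main hα hB x0
  -- the odd element
  have humem : e.symm.permCongr (permOf 22 N22.sOdd) ∈ Cfsg.setSystemAut B := by
    rw [← permCongr_mem e he]
    have : e.permCongr (e.symm.permCongr (permOf 22 N22.sOdd)) = permOf 22 N22.sOdd := by
      ext i
      simp [Equiv.permCongr_apply]
    rw [this]
    exact N22.odd_mem.1
  let u : Cfsg.setSystemAut B := ⟨e.symm.permCongr (permOf 22 N22.sOdd), humem⟩
  have hufix : ∀ i : Fin 3, u.1 (x0 i) = x0 i := by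
    intro i
    show e.symm.permCongr (permOf 22 N22.sOdd) (x0 i) = x0 i
    rw [Equiv.permCongr_apply]
    simp only [Equiv.symm_symm]
    rw [N22.odd_mem.2 _ (by rw [hex]; exact i.2)]
    simp
  have hχu : χ (Phi u) = -1 := by
    show Equiv.Perm.sign (MulAction.toPermHom (Cfsg.pointBlockGraph B ≃g Cfsg.pointBlockGraph B)
      (Option (α ⊕ B)) (Phi u)) = -1
    rw [sign_Phi, sign_block_odd e he u rfl, mul_one]
    show Equiv.Perm.sign (e.symm.permCongr (permOf 22 N22.sOdd)) = -1
    rw [Equiv.Perm.sign_permCongr, N22.odd_sign]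
  -- the base block
  obtain ⟨b0, hb0, -⟩ := hB.2 (Finset.univ.map x0) (by rw [Finset.card_map]; rfl)
  have hx0b : ∀ i, x0 i ∈ ((⟨b0, hb0.1⟩ : B) : Finset α) := fun i =>
    hb0.2 (Finset.mem_map_of_mem _ (Finset.mem_univ i))
  have hub0 : blockEquiv u ⟨b0, hb0.1⟩ = ⟨b0, hb0.1⟩ :=
    block_of_triple hB u x0 x0 hufix _ _ hx0b hx0b
  -- index and order
  have hidx : χ.ker.index = 2 := by
    rw [Subgroup.index_eq_two_iff]
    refine ⟨Phi u, fun b => ?_⟩
    rw [MonoidHom.mem_ker, MonoidHom.mem_ker, map_mul, hχu]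
    rcases Int.units_eq_one_or (χ b) with h | h <;> rw [h] <;> decide
  have hcardH : Nat.card χ.ker = 44352000 := by
    have := Subgroup.card_mul_index χ.ker
    rw [hidx, hcardA] at this
    omega
  -- transitivity
  have T1 : ∀ x : Option (α ⊕ B), ∃ g : Cfsg.pointBlockGraph B ≃g Cfsg.pointBlockGraph B,
      χ g = 1 ∧ g none = x := by
    intro x
    obtain ⟨φ, hφ⟩ := htr x
    obtain ⟨g, hg1, hg2⟩ := ker_trans χ (Phi u) hχu (none : Option (α ⊕ B)) rfl 1 φ
    refine ⟨g, hg1, ?_⟩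
    rw [one_smul] at hg2
    exact hg2.trans hφ
  have h1t : MulAction.IsPretransitive (Cfsg.setSystemAut B) α := by
    rw [← MulAction.is_one_pretransitive_iff]
    exact MulAction.isMultiplyPretransitive_of_le (n := 3) (by norm_num)
      (by rw [Nat.card_eq_fintype_card, hα]; norm_num)
  have T2 : ∀ a c : α, ∃ g : Cfsg.pointBlockGraph B ≃g Cfsg.pointBlockGraph B,
      χ g = 1 ∧ g none = none ∧ g (some (Sum.inl a)) = some (Sum.inl c) := by
    intro a c
    obtain ⟨s, hs⟩ := MulAction.exists_smul_eq (Cfsg.setSystemAut B) (x0 0) a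
    obtain ⟨t, ht⟩ := MulAction.exists_smul_eq (Cfsg.setSystemAut B) (x0 0) c
    obtain ⟨g, hg1, hg2⟩ := ker_trans χ (Phi u) hχu
      ((none, some (Sum.inl (x0 0))) : Option (α ⊕ B) × Option (α ⊕ B))
      (Prod.ext rfl (by
        show Phi u (some (Sum.inl (x0 0))) = _
        rw [Phi_inl, hufix])) (Phi s) (Phi t)
    refine ⟨g, hg1, congrArg Prod.fst hg2, ?_⟩
    have h3 := congrArg Prod.snd hg2
    have h4 : g (Phi s (some (Sum.inl (x0 0)))) = Phi t (some (Sum.inl (x0 0))) := h3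
    rw [Phi_inl, Phi_inl] at h4
    rw [← hs, ← ht]
    exact h4
  have hbt : ∀ b : B, ∃ s : Cfsg.setSystemAut B, blockEquiv s ⟨b0, hb0.1⟩ = b := by
    intro b
    obtain ⟨y, hy⟩ := exists_triple hB b
    obtain ⟨s, hs⟩ := MulAction.exists_smul_eq (Cfsg.setSystemAut B) x0 y
    exact ⟨s, block_of_triple hB s x0 y (fun i => DFunLike.congr_fun hs i) _ _ hx0b hy⟩
  have T3 : ∀ b c : B, ∃ g : Cfsg.pointBlockGraph B ≃g Cfsg.pointBlockGraph B,
      χ g = 1 ∧ g none = none ∧ g (some (Sum.inr b)) = some (Sum.inr c) := by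
    intro b c
    obtain ⟨s, hs⟩ := hbt b
    obtain ⟨t, ht⟩ := hbt c
    obtain ⟨g, hg1, hg2⟩ := ker_trans χ (Phi u) hχu
      ((none, some (Sum.inr ⟨b0, hb0.1⟩)) : Option (α ⊕ B) × Option (α ⊕ B))
      (Prod.ext rfl (by
        show Phi u (some (Sum.inr ⟨b0, hb0.1⟩)) = _
        rw [Phi_inr, hub0])) (Phi s) (Phi t)
    refine ⟨g, hg1, congrArg Prod.fst hg2, ?_⟩
    have h3 := congrArg Prod.snd hg2
    have h4 : g (Phi s (some (Sum.inr ⟨b0, hb0.1⟩))) = Phi t (some (Sum.inr ⟨b0, hb0.1⟩)) := h3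
    rw [Phi_inr, Phi_inr, hs, ht] at h4
    exact h4
  -- the stabiliser is the simple group
  haveI := hMs
  have hMK : ∀ m : M, χ (Phi m.1) = 1 := fun m =>
    char_trivial (by rw [hMcard]; norm_num) ((χ.comp PhiHom).comp M.subtype) m
  have huM : u ∉ M := by
    intro h
    have := hMK ⟨u, h⟩
    rw [hχu] at this
    exact absurd this (by decide)
  have hKM : ∀ σ : Cfsg.setSystemAut B, χ (Phi σ) = 1 → σ ∈ M := by
    intro σ hσ
    by_contra hn
    have h1 : σ * u ∈ M := (Subgroup.mul_mem_iff_of_index_two hMidx).mpr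
      ⟨fun h => absurd h hn, fun h => absurd h huM⟩
    have h2 := hMK ⟨_, h1⟩
    rw [Phi_mul, map_mul, hσ, hχu] at h2
    exact absurd h2 (by decide)
  let f : M →* MulAction.stabilizer χ.ker (none : Option (α ⊕ B)) :=
    { toFun := fun m => ⟨⟨Phi m.1, hMK m⟩, rfl⟩
      map_one' := Subtype.ext (Subtype.ext Phi_one)
      map_mul' := fun m m' => Subtype.ext (Subtype.ext (Phi_mul m.1 m'.1)) }
  have hfb : Function.Bijective f := by
    constructor
    · intro m m' h
      have h1 : Phi m.1 = Phi m'.1 := congrArg (fun z => z.1.1) h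
      exact Subtype.ext (Phi_injective h1)
    · rintro ⟨⟨φ, hφ1⟩, hφ2⟩
      obtain ⟨σ, hσ⟩ := exists_Phi φ hφ2
      refine ⟨⟨σ, hKM σ (by rw [hσ]; exact hφ1)⟩, Subtype.ext (Subtype.ext hσ)⟩
  have hs : IsSimpleGroup (MulAction.stabilizer χ.ker (none : Option (α ⊕ B))) :=
    (MulEquiv.ofBijective f hfb).isSimpleGroup_congr.1 hMs
  -- counting
  have hV : Fintype.card (Option (α ⊕ B)) = 100 := (Cfsg.Agent.S0428.result hα hB).card
  have hBc : Fintype.card B = 77 := by
    rw [Fintype.card_option, Fintype.card_sum, hα] at hV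
    omega
  let c : Option (α ⊕ B) → Fin 2 := fun x => match x with
    | some (Sum.inr _) => 1
    | _ => 0
  have S : SubOrb χ.ker (Set.univ : Set (Option (α ⊕ B))) none c ![22, 77] := by
    refine ⟨Set.finite_univ, trivial, fun _ _ _ => trivial, ?_, ?_, ?_⟩
    · intro x _
      obtain ⟨g, hg1, hg2⟩ := T1 x
      exact ⟨⟨g, hg1⟩, hg2⟩
    · intro j
      fin_cases j
      · have : {x : Option (α ⊕ B) | x ∈ Set.univ ∧ x ≠ none ∧ c x = 0} =
            (fun a : α => (some (Sum.inl a) : Option (α ⊕ B))) '' Set.univ := by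
          ext x
          rcases x with _ | a | b <;> simp [c]
        show {x : Option (α ⊕ B) | x ∈ Set.univ ∧ x ≠ none ∧ c x = 0}.ncard = 22
        rw [this, Set.ncard_image_of_injective _ (by
          intro a a' h
          simpa using h), Set.ncard_univ, Nat.card_eq_fintype_card, hα]
      · have : {x : Option (α ⊕ B) | x ∈ Set.univ ∧ x ≠ none ∧ c x = 1} =
            (fun b : B => (some (Sum.inr b) : Option (α ⊕ B))) '' Set.univ := by
          ext x
          rcases x with _ | a | b <;> simp [c]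
        show {x : Option (α ⊕ B) | x ∈ Set.univ ∧ x ≠ none ∧ c x = 1}.ncard = 77
        rw [this, Set.ncard_image_of_injective _ (by
          intro a a' h
          simpa using h), Set.ncard_univ, Nat.card_eq_fintype_card, hBc]
    · intro x _ y _ hx hy hxy
      rcases x with _ | a | b
      · exact absurd rfl hx
      · rcases y with _ | a' | b'
        · exact absurd rfl hy
        · obtain ⟨g, hg1, hg2, hg3⟩ := T2 a a'
          exact ⟨⟨g, hg1⟩, hg2, hg3⟩
        · exact absurd (show (0 : Fin 2) = 1 from hxy) (by decide)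
      · rcases y with _ | a' | b'
        · exact absurd rfl hy
        · exact absurd (show (1 : Fin 2) = 0 from hxy) (by decide)
        · obtain ⟨g, hg1, hg2, hg3⟩ := T3 b b'
          exact ⟨⟨g, hg1⟩, hg2, hg3⟩
  have c100 : (Set.univ : Set (Option (α ⊕ B))).ncard = 100 := by
    rw [Set.ncard_univ, Nat.card_eq_fintype_card, hV]
  haveI : Finite χ.ker := Nat.finite_of_card_ne_zero (by rw [hcardH]; norm_num)
  refine ⟨χ.ker, S.simple (by decide) hs 0 (by decide) ?_ 4 25 ?_ ?_ (by norm_num) ?_, hcardH⟩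
  · rw [c100]; decide +kernel
  · rw [c100]; norm_num
  · rw [c100]; norm_num
  · decide +kernel

end Cfsg.Agent.S0431
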