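import Cfsg.Statements.S0439
import Mathlib

set_option autoImplicit false
open Cfsg

namespace Cfsg.Agent.S0439

open Equiv Equiv.Perm

theorem swap_prod_aux {α : Type*} [DecidableEq α] [Fintype α] {a b d : α} (hab : a ≠ b) (had : a ≠ d) :
    (swap a b * swap a d) ^ 2 = 1 ∨ (swap a b * swap a d) ^ 3 = 1 := by
  by_cases hbd : b = d
  · subst hbd
    left
    simp
  · right
    have h := isThreeCycle_swap_mul_swap_same hab had hbd
    rw [← h.orderOf]
    exact pow_orderOf_eq_one _


/-- In the symmetric group of degree n ≥ 2, the set of transpositions is a conjugacy class of 3-transpositions which generates the group. -/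
theorem result (n : ℕ) (hn : 2 ≤ n) : Cfsg.IsThreeTranspositionClass {σ : Equiv.Perm (Fin n) | σ.IsSwap} := by
  obtain ⟨m, rfl⟩ : ∃ m, n = m + 2 := ⟨n - 2, by omega⟩
  refine ⟨⟨?_, ?_⟩, ⟨swap 0 1, ⟨0, 1, by simp, rfl⟩, ?_⟩, Equiv.Perm.closure_isSwap⟩
  · intro d hd
    exact IsSwap.orderOf hd
  · rintro _ ⟨a, b, hab, rfl⟩ _ ⟨c, d, hcd, rfl⟩
    by_cases h1 : a = c
    · subst h1; exact swap_prod_aux hab hcd
    by_cases h2 : a = d
    · subst h2; rw [swap_comm c a]; exact swap_prod_aux hab hcd.symm
    by_cases h3 : b = c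
    · subst h3; rw [swap_comm a b]; exact swap_prod_aux hab.symm hcd
    by_cases h4 : b = d
    · subst h4; rw [swap_comm a b, swap_comm c b]; exact swap_prod_aux hab.symm hcd.symm
    left
    have hdis : Disjoint (swap a b) (swap c d) := by
      apply disjoint_swap_swap
      simp [hab, hcd, h1, h2, h3, h4]
    rw [hdis.commute.mul_pow]
    simp [pow_two]
  · ext σ
    constructor
    · rintro ⟨a, b, hab, rfl⟩
      change IsConj _ _
      exact isConj_swap (by simp) hab
    · intro h
      change IsConj _ _ at h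
      obtain ⟨g, hg⟩ := isConj_iff.mp h
      refine ⟨g 0, g 1, by simp, ?_⟩
      rw [← hg, Equiv.mul_swap_eq_swap_mul]
      simp


end Cfsg.Agent.S0439
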