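import Cfsg.Statements.S0440
import Cfsg.Agent.Lib.Helper12.SpPerfect

set_option autoImplicit false
open Cfsg

namespace Cfsg.Agent.S0440

open Matrix Cfsg Cfsg.Agent.Lib.Helper6 Cfsg.Agent.Lib.Helper12

theorem zmod2_cases (a : ZMod 2) : a = 0 ∨ a = 1 := by
  fin_cases a
  · left; rfl
  · right; rfl

theorem spT_ne_one {n : ℕ} (w : Fin n ⊕ Fin n → ZMod 2) (hw : w ≠ 0) : spT n w (1 : ZMod 2) ≠ 1 := by
  intro h
  obtain ⟨y, hy⟩ := exists_sympForm_eq_one n w hw
  have h2 := congrArg (fun B : symplecticGroup (Fin n) (ZMod 2) =>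
    (B : Matrix (Fin n ⊕ Fin n) (Fin n ⊕ Fin n) (ZMod 2)) *ᵥ y) h
  simp only [spT_mulVec, one_mul] at h2
  rw [sympForm_swap y w, hy] at h2
  apply hw
  have h3 : (-1 : ZMod 2) • w = 0 := by simpa using h2
  simpa using h3

theorem spT_sq {n : ℕ} (w : Fin n ⊕ Fin n → ZMod 2) : spT n w (1 : ZMod 2) * spT n w 1 = 1 := by
  rw [← spT_add]
  have : (1 : ZMod 2) + 1 = 0 := by decide
  rw [this, spT_zero]

theorem spT_inv {n : ℕ} (w : Fin n ⊕ Fin n → ZMod 2) : (spT n w (1 : ZMod 2))⁻¹ = spT n w 1 :=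
  inv_eq_of_mul_eq_one_left (spT_sq w)

/-- rank one elements are transvections -/
theorem rank_one_iff {n : ℕ} (g : symplecticGroup (Fin n) (ZMod 2)) :
    ((g : Matrix (Fin n ⊕ Fin n) (Fin n ⊕ Fin n) (ZMod 2)) - 1).rank = 1 ↔
      ∃ w : Fin n ⊕ Fin n → ZMod 2, w ≠ 0 ∧ g = spT n w 1 := by
  constructor
  · intro h
    rw [Matrix.rank, finrank_eq_one_iff'] at h
    obtain ⟨⟨w, y0, hy0⟩, hw0, hw⟩ := h
    have hw0' : w ≠ 0 := fun e => hw0 (Subtype.ext e)
    have hc : ∀ x, ∃ c : ZMod 2,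
        (g : Matrix (Fin n ⊕ Fin n) (Fin n ⊕ Fin n) (ZMod 2)) *ᵥ x = x + c • w := by
      intro x
      obtain ⟨c, hc⟩ := hw ⟨_, x, rfl⟩
      refine ⟨c, ?_⟩
      have h1 : c • w = ((g : Matrix (Fin n ⊕ Fin n) (Fin n ⊕ Fin n) (ZMod 2)) - 1) *ᵥ x :=
        congrArg Subtype.val hc
      rw [h1, sub_mulVec, one_mulVec]; abel
    choose c hc using hc
    have hy0' : (g : Matrix (Fin n ⊕ Fin n) (Fin n ⊕ Fin n) (ZMod 2)) *ᵥ y0 = y0 + w := by
      have h1 : ((g : Matrix (Fin n ⊕ Fin n) (Fin n ⊕ Fin n) (ZMod 2)) - 1) *ᵥ y0 = w := hy0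
      rw [sub_mulVec, one_mulVec] at h1
      rw [← h1]; abel
    have key : ∀ x, sympForm n (ZMod 2) x w = c x * sympForm n (ZMod 2) y0 w := by
      intro x
      have h1 := sympForm_mulVec n g x y0
      rw [hc x, hy0'] at h1
      simp only [sympForm_add_left, sympForm_add_right, sympForm_smul_left, sympForm_self] at h1
      rw [sympForm_swap w y0] at h1
      linear_combination h1
    obtain ⟨x1, hx1⟩ := exists_sympForm_eq_one n w hw0'
    have hy1 : sympForm n (ZMod 2) y0 w = 1 := by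
      rcases zmod2_cases (sympForm n (ZMod 2) y0 w) with h0 | h1
      · exfalso
        have := key x1
        rw [h0, mul_zero, sympForm_swap, hx1] at this
        revert this; decide
      · exact h1
    refine ⟨w, hw0', ?_⟩
    apply sp_ext
    intro x
    rw [hc x, spT_mulVec, one_mul, key x, hy1, mul_one]
  · rintro ⟨w, hw, rfl⟩
    apply le_antisymm
    · have : ((spT n w (1 : ZMod 2) : symplecticGroup (Fin n) (ZMod 2)) :
          Matrix (Fin n ⊕ Fin n) (Fin n ⊕ Fin n) (ZMod 2)) - 1 =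
          Matrix.vecMulVec w (Matrix.J (Fin n) (ZMod 2) *ᵥ w) := by
        show sympTransvection n w 1 - 1 = _
        unfold sympTransvection
        simp
      rw [this]
      exact Matrix.rank_vecMulVec_le _ _
    · rw [Nat.one_le_iff_ne_zero]
      intro h0
      rw [Matrix.rank, Submodule.finrank_eq_zero, LinearMap.range_eq_bot] at h0
      apply spT_ne_one w hw
      apply sp_ext
      intro x
      have h1 := congrArg (fun f => f x) h0
      simp only [Matrix.mulVecLin_apply, LinearMap.zero_apply, sub_mulVec, one_mulVec] at h1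
      rw [sub_eq_zero.mp h1]
      simp


/-- In the symplectic group in dimension 2n ≥ 2 over the field with two elements, the elements g for which g - 1 has rank one (the symplectic transvections) form a conjugacy class of 3-transpositions generating the group. -/
theorem result (n : ℕ) (hn : 1 ≤ n) : Cfsg.IsThreeTranspositionClass {g : Matrix.symplecticGroup (Fin n) (ZMod 2) | ((g : Matrix (Fin n ⊕ Fin n) (Fin n ⊕ Fin n) (ZMod 2)) - 1).rank = 1} := by
  have hD : {g : Matrix.symplecticGroup (Fin n) (ZMod 2) |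
      ((g : Matrix (Fin n ⊕ Fin n) (Fin n ⊕ Fin n) (ZMod 2)) - 1).rank = 1} =
      {g | ∃ w : Fin n ⊕ Fin n → ZMod 2, w ≠ 0 ∧ g = spT n w 1} := by
    ext g
    exact rank_one_iff g
  rw [hD]
  refine ⟨⟨?_, ?_⟩, ?_, ?_⟩
  · rintro _ ⟨w, hw, rfl⟩
    exact orderOf_eq_prime (by rw [sq]; exact spT_sq w) (spT_ne_one w hw)
  · rintro _ ⟨u, hu, rfl⟩ _ ⟨v, hv, rfl⟩
    have hconj : ∀ a b : Fin n ⊕ Fin n → ZMod 2, spT n a (1 : ZMod 2) * spT n b 1 * spT n a 1 =
        spT n (b + sympForm n (ZMod 2) b a • a) 1 := by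
      intro a b
      have := conj_spT (spT n a (1 : ZMod 2)) b 1
      rw [spT_inv, spT_mulVec, one_mul] at this
      exact this
    rcases zmod2_cases (sympForm n (ZMod 2) u v) with h0 | h1
    · left
      have h0' : sympForm n (ZMod 2) v u = 0 := by rw [sympForm_swap, h0, neg_zero]
      have h := hconj u v
      rw [h0', zero_smul, add_zero] at h
      rw [sq]
      calc spT n u (1 : ZMod 2) * spT n v 1 * (spT n u 1 * spT n v 1)
          = (spT n u 1 * spT n v 1 * spT n u 1) * spT n v 1 := by group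
        _ = 1 := by rw [h, spT_sq]
    · right
      have h1' : sympForm n (ZMod 2) v u = 1 := by
        rw [sympForm_swap, h1]; decide
      have ha := hconj u v
      have hb := hconj v u
      rw [h1', one_smul] at ha
      rw [h1, one_smul, add_comm] at hb
      calc (spT n u (1 : ZMod 2) * spT n v 1) ^ 3
          = (spT n u 1 * spT n v 1 * spT n u 1) * (spT n v 1 * spT n u 1 * spT n v 1) := by
            rw [pow_three]; group
        _ = 1 := by rw [ha, hb, spT_sq]
  · refine ⟨spT n (Pi.single (Sum.inl ⟨0, hn⟩) 1) 1, ⟨_, single_ne_zero' _, rfl⟩, ?_⟩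
    ext g
    change _ ↔ IsConj _ g
    rw [isConj_iff]
    constructor
    · rintro ⟨w, hw, rfl⟩
      obtain ⟨v', hv'⟩ := exists_sympForm_eq_one n
        (Pi.single (Sum.inl ⟨0, hn⟩) 1 : Fin n ⊕ Fin n → ZMod 2) (single_ne_zero' _)
      obtain ⟨w', hw'⟩ := exists_sympForm_eq_one n w hw
      obtain ⟨A, -, hA⟩ := sympTv_trans_vec n ⊤ _ v' w w' trivial trivial trivial
        trivial (by rw [hv']; exact one_ne_zero) (by rw [hw']; exact one_ne_zero)
      exact ⟨A, by rw [conj_spT, hA]⟩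
    · rintro ⟨A, rfl⟩
      refine ⟨_, ?_, conj_spT A _ 1⟩
      intro h0
      have h1 := congrArg (fun x => ((A⁻¹ : symplecticGroup (Fin n) (ZMod 2)) :
        Matrix (Fin n ⊕ Fin n) (Fin n ⊕ Fin n) (ZMod 2)) *ᵥ x) h0
      simp only [← sp_mul_mulVec, inv_mul_cancel, mulVec_zero] at h1
      have h2 : ((1 : symplecticGroup (Fin n) (ZMod 2)) :
        Matrix (Fin n ⊕ Fin n) (Fin n ⊕ Fin n) (ZMod 2)) = 1 := rfl
      rw [h2, one_mulVec] at h1
      exact single_ne_zero' (F := ZMod 2) (⟨0, hn⟩ : Fin n) h1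
  · rw [eq_top_iff, ← Cfsg.Agent.S0765.result n, Subgroup.closure_le]
    rintro A ⟨w, c, hA⟩
    have hA' : A = spT n w c := Subtype.ext hA
    rw [hA', SetLike.mem_coe]
    by_cases hw : w = 0
    · rw [hw, spT_zero_vec]; exact one_mem _
    · rcases zmod2_cases c with rfl | rfl
      · rw [spT_zero]; exact one_mem _
      · exact Subgroup.subset_closure ⟨w, hw, rfl⟩

end Cfsg.Agent.S0440
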