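import Cfsg.Statements.S0442
import Mathlib

set_option autoImplicit false
open Cfsg

namespace Cfsg.Agent.S0442

theorem inv_conj {G : Type*} [Group G] {a c : G} (a2 : a * a = 1) (h : a * c * a = c⁻¹) (m : ℕ) :
    a * c ^ m * a = (c ^ m)⁻¹ := by
  induction m with
  | zero => simpa using a2
  | succ n ih =>
    calc a * c ^ (n + 1) * a = (a * c ^ n * a) * (a * c * a) := by
          rw [pow_succ]
          have : a * c ^ n * a * (a * c * a) = a * c ^ n * (a * a) * c * a := by simp only [mul_assoc]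
          rw [this, a2]; simp only [mul_assoc, mul_one]
      _ = (c ^ n)⁻¹ * c⁻¹ := by rw [ih, h]
      _ = (c ^ (n + 1))⁻¹ := by rw [pow_succ', mul_inv_rev]

theorem comm_half {G : Type*} [Group G] {a c : G} (a2 : a * a = 1) (h : a * c * a = c⁻¹) (m : ℕ)
    (hc : c ^ (2 * m) = 1) : Commute (c ^ m) a := by
  have h1 := inv_conj a2 h m
  have h2 : (c ^ m)⁻¹ = c ^ m := by
    apply inv_eq_of_mul_eq_one_left
    rw [← pow_add, ← two_mul, hc]
  rw [h2] at h1
  show c ^ m * a = a * c ^ m
  calc c ^ m * a = (a * c ^ m * a) * a := by rw [h1]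
    _ = a * c ^ m * (a * a) := by simp only [mul_assoc]
    _ = a * c ^ m := by rw [a2, mul_one]

/-- A standard trick for producing elements of an involution centraliser: for an involution a and an element g, let b be the conjugate g⁻¹ * a * g. If a * b has odd order 2m + 1 then g * (a * b) ^ m commutes with a; if a * b has even order 2m then (a * b) ^ m and (a * (g * a * g⁻¹)) ^ m commute with a. -/
theorem result {G : Type*} [Group G] (a g : G) (ha : orderOf a = 2) : (∀ m : ℕ, orderOf (a * (g⁻¹ * a * g)) = 2 * m + 1 → Commute (g * (a * (g⁻¹ * a * g)) ^ m) a) ∧ (∀ m : ℕ, orderOf (a * (g⁻¹ * a * g)) = 2 * m → Commute ((a * (g⁻¹ * a * g)) ^ m) a ∧ Commute ((a * (g * a * g⁻¹)) ^ m) a) := by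
  have a2 : a * a = 1 := by
    have := pow_orderOf_eq_one a
    rwa [ha, pow_two] at this
  have ha' : a⁻¹ = a := inv_eq_of_mul_eq_one_left a2
  have hc : a * (a * (g⁻¹ * a * g)) * a = (a * (g⁻¹ * a * g))⁻¹ := by
    simp only [mul_inv_rev, inv_inv, ha']
    calc a * (a * (g⁻¹ * a * g)) * a = (a * a) * (g⁻¹ * a * g) * a := by simp only [mul_assoc]
      _ = g⁻¹ * (a * g) * a := by rw [a2, one_mul]; simp only [mul_assoc]
  have hd : a * (a * (g * a * g⁻¹)) * a = (a * (g * a * g⁻¹))⁻¹ := by
    simp only [mul_inv_rev, inv_inv, ha']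
    calc a * (a * (g * a * g⁻¹)) * a = (a * a) * (g * a * g⁻¹) * a := by simp only [mul_assoc]
      _ = g * (a * g⁻¹) * a := by rw [a2, one_mul]; simp only [mul_assoc]
  constructor
  · intro m hm
    set c := a * (g⁻¹ * a * g) with hcdef
    have hpow : c ^ (2 * m + 1) = 1 := by rw [← hm]; exact pow_orderOf_eq_one c
    have h1 := inv_conj a2 hc m
    show g * c ^ m * a = a * (g * c ^ m)
    have h2 : c ^ m * a = a * (c ^ m)⁻¹ := by
      calc c ^ m * a = (a * a) * c ^ m * a := by rw [a2, one_mul]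
        _ = a * (a * c ^ m * a) := by simp only [mul_assoc]
        _ = a * (c ^ m)⁻¹ := by rw [h1]
    have h3 : (c ^ m)⁻¹ = c * c ^ m := by
      apply inv_eq_of_mul_eq_one_left
      rw [mul_assoc, ← pow_add, ← pow_succ', ← two_mul]
      exact hpow
    have h4 : g * a * c = a * g := by
      rw [hcdef]
      calc g * a * (a * (g⁻¹ * a * g)) = g * (a * a) * g⁻¹ * a * g := by simp only [mul_assoc]
        _ = a * g := by rw [a2]; simp
    calc g * c ^ m * a = g * (c ^ m * a) := by rw [mul_assoc]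
      _ = g * (a * (c * c ^ m)) := by rw [h2, h3]
      _ = (g * a * c) * c ^ m := by simp only [mul_assoc]
      _ = a * (g * c ^ m) := by rw [h4, mul_assoc]
  · intro m hm
    have hpow : (a * (g⁻¹ * a * g)) ^ (2 * m) = 1 := by rw [← hm]; exact pow_orderOf_eq_one _
    refine ⟨comm_half a2 hc m hpow, comm_half a2 hd m ?_⟩
    have h5 : a * (g * a * g⁻¹) = g * (a * (g⁻¹ * a * g))⁻¹ * g⁻¹ := by
      simp only [mul_inv_rev, inv_inv, ha']
      simp only [mul_assoc, mul_inv_cancel_left]
    rw [h5, conj_pow, inv_pow, hpow]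
    simp

end Cfsg.Agent.S0442
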