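import Cfsg.Statements.S0443
import Mathlib

set_option autoImplicit false
open Cfsg

namespace Cfsg.Agent.S0443

/-- Two definitions of a 2-central involution agree: an element t of order 2 of a finite group lies in the centre of some Sylow 2-subgroup if and only if its centraliser contains some Sylow 2-subgroup. -/
theorem result {G : Type*} [Group G] [Finite G] (t : G) (ht : orderOf t = 2) : Cfsg.IsTwoCentralInvolution t ↔ ∃ P : Sylow 2 G, (P : Subgroup G) ≤ Subgroup.centralizer ({t} : Set G) := by
  constructor
  · rintro ⟨-, P, -, hP⟩
    refine ⟨P, fun x hx => ?_⟩
    rw [Subgroup.mem_centralizer_singleton_iff]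
    exact hP x hx
  · rintro ⟨P, hP⟩
    refine ⟨ht, P, ?_, fun x hx => ?_⟩
    · have hz : IsPGroup 2 (Subgroup.zpowers t) := by
        apply IsPGroup.of_card (n := 1)
        rw [Nat.card_zpowers, ht, pow_one]
      have hn : Subgroup.zpowers t ≤ Subgroup.normalizer ((P : Subgroup G) : Set G) := by
        rw [Subgroup.zpowers_le]
        rw [Subgroup.mem_normalizer_iff]
        intro h
        constructor
        · intro hh
          have := hP hh
          rw [Subgroup.mem_centralizer_singleton_iff] at this
          have e : t * h * t⁻¹ = h := by rw [← this]; group
          rwa [e]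
        · intro hh
          have := hP hh
          rw [Subgroup.mem_centralizer_singleton_iff] at this
          have e : t * h * t⁻¹ = h := by
            have e2 : t * h * t⁻¹ * t = t * (t * h * t⁻¹) := this
            have e3 : t * h = t * (t * h * t⁻¹) := by simpa using e2
            exact (mul_left_cancel e3).symm
          rwa [e] at hh
      have hsup : IsPGroup 2 (Subgroup.zpowers t ⊔ (P : Subgroup G) : Subgroup G) :=
        IsPGroup.to_sup_of_normal_right' hz P.2 hn
      have := P.3 hsup le_sup_right
      have h2 : Subgroup.zpowers t ≤ (P : Subgroup G) := by
        rw [← this]; exact le_sup_left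
      exact h2 (Subgroup.mem_zpowers t)
    · have := hP hx
      rw [Subgroup.mem_centralizer_singleton_iff] at this
      exact this

end Cfsg.Agent.S0443
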