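import Cfsg.Statements.S0444
import Mathlib

set_option autoImplicit false
open Cfsg

namespace Cfsg.Agent.S0444

open Equiv
set_option linter.unusedSimpArgs false

def phiFun {G : Type*} [Group G] (d e : G) (σ : Perm (Fin 3)) : G :=
  if σ = 1 then 1 else if σ = swap 0 1 then d else if σ = swap 1 2 then e
  else if σ = swap 0 1 * swap 1 2 then d * e else if σ = swap 1 2 * swap 0 1 then e * d
  else d * e * d

theorem all_six : ∀ σ : Perm (Fin 3), σ = 1 ∨ σ = swap 0 1 ∨ σ = swap 1 2 ∨ σ = swap 0 1 * swap 1 2 ∨
    σ = swap 1 2 * swap 0 1 ∨ σ = swap 0 1 * swap 1 2 * swap 0 1 := by decide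

section
variable {G : Type*} [Group G] (d e : G)

theorem f1 : phiFun d e 1 = 1 := by unfold phiFun; rw [if_pos rfl]
theorem fs : phiFun d e (swap 0 1) = d := by
  unfold phiFun; rw [if_neg (by decide), if_pos rfl]
theorem ft : phiFun d e (swap 1 2) = e := by
  unfold phiFun; rw [if_neg (by decide), if_neg (by decide), if_pos rfl]
theorem fst : phiFun d e (swap 0 1 * swap 1 2) = d * e := by
  unfold phiFun; rw [if_neg (by decide), if_neg (by decide), if_neg (by decide), if_pos rfl]
theorem fts : phiFun d e (swap 1 2 * swap 0 1) = e * d := by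
  unfold phiFun
  rw [if_neg (by decide), if_neg (by decide), if_neg (by decide), if_neg (by decide), if_pos rfl]
theorem fsts : phiFun d e (swap 0 1 * swap 1 2 * swap 0 1) = d * e * d := by
  unfold phiFun
  rw [if_neg (by decide), if_neg (by decide), if_neg (by decide), if_neg (by decide),
    if_neg (by decide)]

theorem phi_mul (hd : d * d = 1) (he : e * e = 1) (hb : e * (d * e) = d * (e * d))
    (σ τ : Perm (Fin 3)) : phiFun d e (σ * τ) = phiFun d e σ * phiFun d e τ := by
  have hd' : ∀ x, d * (d * x) = x := fun x => by rw [← mul_assoc, hd, one_mul]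
  have he' : ∀ x, e * (e * x) = x := fun x => by rw [← mul_assoc, he, one_mul]
  have hb' : ∀ x, e * (d * (e * x)) = d * (e * (d * x)) := fun x => by
    rw [← mul_assoc d, ← mul_assoc e, hb]; simp only [mul_assoc]
  rcases all_six σ with rfl | rfl | rfl | rfl | rfl | rfl <;>
    rcases all_six τ with rfl | rfl | rfl | rfl | rfl | rfl
  · rw [show (((1) * (1) : Perm (Fin 3))) = 1 from by decide]
    simp only [f1, fs, ft, fst, fts, fsts]
    try simp only [mul_assoc, hd, hd', he, he', hb, hb', mul_one, one_mul]
  · rw [show (((1) * (swap 0 1) : Perm (Fin 3))) = swap 0 1 from by decide]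
    simp only [f1, fs, ft, fst, fts, fsts]
    try simp only [mul_assoc, hd, hd', he, he', hb, hb', mul_one, one_mul]
  · rw [show (((1) * (swap 1 2) : Perm (Fin 3))) = swap 1 2 from by decide]
    simp only [f1, fs, ft, fst, fts, fsts]
    try simp only [mul_assoc, hd, hd', he, he', hb, hb', mul_one, one_mul]
  · rw [show (((1) * (swap 0 1 * swap 1 2) : Perm (Fin 3))) = swap 0 1 * swap 1 2 from by decide]
    simp only [f1, fs, ft, fst, fts, fsts]
    try simp only [mul_assoc, hd, hd', he, he', hb, hb', mul_one, one_mul]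
  · rw [show (((1) * (swap 1 2 * swap 0 1) : Perm (Fin 3))) = swap 1 2 * swap 0 1 from by decide]
    simp only [f1, fs, ft, fst, fts, fsts]
    try simp only [mul_assoc, hd, hd', he, he', hb, hb', mul_one, one_mul]
  · rw [show (((1) * (swap 0 1 * swap 1 2 * swap 0 1) : Perm (Fin 3))) = swap 0 1 * swap 1 2 * swap 0 1 from by decide]
    simp only [f1, fs, ft, fst, fts, fsts]
    try simp only [mul_assoc, hd, hd', he, he', hb, hb', mul_one, one_mul]
  · rw [show (((swap 0 1) * (1) : Perm (Fin 3))) = swap 0 1 from by decide]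
    simp only [f1, fs, ft, fst, fts, fsts]
    try simp only [mul_assoc, hd, hd', he, he', hb, hb', mul_one, one_mul]
  · rw [show (((swap 0 1) * (swap 0 1) : Perm (Fin 3))) = 1 from by decide]
    simp only [f1, fs, ft, fst, fts, fsts]
    try simp only [mul_assoc, hd, hd', he, he', hb, hb', mul_one, one_mul]
  · rw [show (((swap 0 1) * (swap 1 2) : Perm (Fin 3))) = swap 0 1 * swap 1 2 from by decide]
    simp only [f1, fs, ft, fst, fts, fsts]
    try simp only [mul_assoc, hd, hd', he, he', hb, hb', mul_one, one_mul]
  · rw [show (((swap 0 1) * (swap 0 1 * swap 1 2) : Perm (Fin 3))) = swap 1 2 from by decide]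
    simp only [f1, fs, ft, fst, fts, fsts]
    try simp only [mul_assoc, hd, hd', he, he', hb, hb', mul_one, one_mul]
  · rw [show (((swap 0 1) * (swap 1 2 * swap 0 1) : Perm (Fin 3))) = swap 0 1 * swap 1 2 * swap 0 1 from by decide]
    simp only [f1, fs, ft, fst, fts, fsts]
    try simp only [mul_assoc, hd, hd', he, he', hb, hb', mul_one, one_mul]
  · rw [show (((swap 0 1) * (swap 0 1 * swap 1 2 * swap 0 1) : Perm (Fin 3))) = swap 1 2 * swap 0 1 from by decide]
    simp only [f1, fs, ft, fst, fts, fsts]
    try simp only [mul_assoc, hd, hd', he, he', hb, hb', mul_one, one_mul]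
  · rw [show (((swap 1 2) * (1) : Perm (Fin 3))) = swap 1 2 from by decide]
    simp only [f1, fs, ft, fst, fts, fsts]
    try simp only [mul_assoc, hd, hd', he, he', hb, hb', mul_one, one_mul]
  · rw [show (((swap 1 2) * (swap 0 1) : Perm (Fin 3))) = swap 1 2 * swap 0 1 from by decide]
    simp only [f1, fs, ft, fst, fts, fsts]
    try simp only [mul_assoc, hd, hd', he, he', hb, hb', mul_one, one_mul]
  · rw [show (((swap 1 2) * (swap 1 2) : Perm (Fin 3))) = 1 from by decide]
    simp only [f1, fs, ft, fst, fts, fsts]
    try simp only [mul_assoc, hd, hd', he, he', hb, hb', mul_one, one_mul]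
  · rw [show (((swap 1 2) * (swap 0 1 * swap 1 2) : Perm (Fin 3))) = swap 0 1 * swap 1 2 * swap 0 1 from by decide]
    simp only [f1, fs, ft, fst, fts, fsts]
    try simp only [mul_assoc, hd, hd', he, he', hb, hb', mul_one, one_mul]
  · rw [show (((swap 1 2) * (swap 1 2 * swap 0 1) : Perm (Fin 3))) = swap 0 1 from by decide]
    simp only [f1, fs, ft, fst, fts, fsts]
    try simp only [mul_assoc, hd, hd', he, he', hb, hb', mul_one, one_mul]
  · rw [show (((swap 1 2) * (swap 0 1 * swap 1 2 * swap 0 1) : Perm (Fin 3))) = swap 0 1 * swap 1 2 from by decide]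
    simp only [f1, fs, ft, fst, fts, fsts]
    try simp only [mul_assoc, hd, hd', he, he', hb, hb', mul_one, one_mul]
  · rw [show (((swap 0 1 * swap 1 2) * (1) : Perm (Fin 3))) = swap 0 1 * swap 1 2 from by decide]
    simp only [f1, fs, ft, fst, fts, fsts]
    try simp only [mul_assoc, hd, hd', he, he', hb, hb', mul_one, one_mul]
  · rw [show (((swap 0 1 * swap 1 2) * (swap 0 1) : Perm (Fin 3))) = swap 0 1 * swap 1 2 * swap 0 1 from by decide]
    simp only [f1, fs, ft, fst, fts, fsts]
    try simp only [mul_assoc, hd, hd', he, he', hb, hb', mul_one, one_mul]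
  · rw [show (((swap 0 1 * swap 1 2) * (swap 1 2) : Perm (Fin 3))) = swap 0 1 from by decide]
    simp only [f1, fs, ft, fst, fts, fsts]
    try simp only [mul_assoc, hd, hd', he, he', hb, hb', mul_one, one_mul]
  · rw [show (((swap 0 1 * swap 1 2) * (swap 0 1 * swap 1 2) : Perm (Fin 3))) = swap 1 2 * swap 0 1 from by decide]
    simp only [f1, fs, ft, fst, fts, fsts]
    try simp only [mul_assoc, hd, hd', he, he', hb, hb', mul_one, one_mul]
  · rw [show (((swap 0 1 * swap 1 2) * (swap 1 2 * swap 0 1) : Perm (Fin 3))) = 1 from by decide]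
    simp only [f1, fs, ft, fst, fts, fsts]
    try simp only [mul_assoc, hd, hd', he, he', hb, hb', mul_one, one_mul]
  · rw [show (((swap 0 1 * swap 1 2) * (swap 0 1 * swap 1 2 * swap 0 1) : Perm (Fin 3))) = swap 1 2 from by decide]
    simp only [f1, fs, ft, fst, fts, fsts]
    try simp only [mul_assoc, hd, hd', he, he', hb, hb', mul_one, one_mul]
  · rw [show (((swap 1 2 * swap 0 1) * (1) : Perm (Fin 3))) = swap 1 2 * swap 0 1 from by decide]
    simp only [f1, fs, ft, fst, fts, fsts]
    try simp only [mul_assoc, hd, hd', he, he', hb, hb', mul_one, one_mul]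
  · rw [show (((swap 1 2 * swap 0 1) * (swap 0 1) : Perm (Fin 3))) = swap 1 2 from by decide]
    simp only [f1, fs, ft, fst, fts, fsts]
    try simp only [mul_assoc, hd, hd', he, he', hb, hb', mul_one, one_mul]
  · rw [show (((swap 1 2 * swap 0 1) * (swap 1 2) : Perm (Fin 3))) = swap 0 1 * swap 1 2 * swap 0 1 from by decide]
    simp only [f1, fs, ft, fst, fts, fsts]
    try simp only [mul_assoc, hd, hd', he, he', hb, hb', mul_one, one_mul]
  · rw [show (((swap 1 2 * swap 0 1) * (swap 0 1 * swap 1 2) : Perm (Fin 3))) = 1 from by decide]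
    simp only [f1, fs, ft, fst, fts, fsts]
    try simp only [mul_assoc, hd, hd', he, he', hb, hb', mul_one, one_mul]
  · rw [show (((swap 1 2 * swap 0 1) * (swap 1 2 * swap 0 1) : Perm (Fin 3))) = swap 0 1 * swap 1 2 from by decide]
    simp only [f1, fs, ft, fst, fts, fsts]
    try simp only [mul_assoc, hd, hd', he, he', hb, hb', mul_one, one_mul]
  · rw [show (((swap 1 2 * swap 0 1) * (swap 0 1 * swap 1 2 * swap 0 1) : Perm (Fin 3))) = swap 0 1 from by decide]
    simp only [f1, fs, ft, fst, fts, fsts]
    try simp only [mul_assoc, hd, hd', he, he', hb, hb', mul_one, one_mul]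
  · rw [show (((swap 0 1 * swap 1 2 * swap 0 1) * (1) : Perm (Fin 3))) = swap 0 1 * swap 1 2 * swap 0 1 from by decide]
    simp only [f1, fs, ft, fst, fts, fsts]
    try simp only [mul_assoc, hd, hd', he, he', hb, hb', mul_one, one_mul]
  · rw [show (((swap 0 1 * swap 1 2 * swap 0 1) * (swap 0 1) : Perm (Fin 3))) = swap 0 1 * swap 1 2 from by decide]
    simp only [f1, fs, ft, fst, fts, fsts]
    try simp only [mul_assoc, hd, hd', he, he', hb, hb', mul_one, one_mul]
  · rw [show (((swap 0 1 * swap 1 2 * swap 0 1) * (swap 1 2) : Perm (Fin 3))) = swap 1 2 * swap 0 1 from by decide]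
    simp only [f1, fs, ft, fst, fts, fsts]
    try simp only [mul_assoc, hd, hd', he, he', hb, hb', mul_one, one_mul]
  · rw [show (((swap 0 1 * swap 1 2 * swap 0 1) * (swap 0 1 * swap 1 2) : Perm (Fin 3))) = swap 0 1 from by decide]
    simp only [f1, fs, ft, fst, fts, fsts]
    try simp only [mul_assoc, hd, hd', he, he', hb, hb', mul_one, one_mul]
  · rw [show (((swap 0 1 * swap 1 2 * swap 0 1) * (swap 1 2 * swap 0 1) : Perm (Fin 3))) = swap 1 2 from by decide]
    simp only [f1, fs, ft, fst, fts, fsts]
    try simp only [mul_assoc, hd, hd', he, he', hb, hb', mul_one, one_mul]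
  · rw [show (((swap 0 1 * swap 1 2 * swap 0 1) * (swap 0 1 * swap 1 2 * swap 0 1) : Perm (Fin 3))) = 1 from by decide]
    simp only [f1, fs, ft, fst, fts, fsts]
    try simp only [mul_assoc, hd, hd', he, he', hb, hb', mul_one, one_mul]

end


/-- Two members of a set of 3-transpositions which do not commute generate a subgroup isomorphic to the symmetric group on three letters. -/
theorem result {G : Type*} [Group G] {E : Set G} (hE : Cfsg.IsThreeTranspositionSet E) {d e : G} (hd : d ∈ E) (he : e ∈ E) (h : ¬ Commute d e) : Nonempty (Subgroup.closure ({d, e} : Set G) ≃* Equiv.Perm (Fin 3)) := by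
  obtain ⟨hord, hprod⟩ := hE
  have sq : ∀ x ∈ E, x * x = 1 := by
    intro x hx
    rw [← pow_two, ← hord x hx]; exact pow_orderOf_eq_one x
  have hd2 := sq d hd
  have he2 := sq e he
  have h3 : (d * e) ^ 3 = 1 := by
    rcases hprod d hd e he with h2 | h3
    · exfalso
      apply h
      rw [pow_two] at h2
      show d * e = e * d
      calc d * e = d * e * ((d * e) * (e * d)) := by
              have : (d * e) * (e * d) = 1 := by
                calc d * e * (e * d) = d * (e * e) * d := by group
                  _ = 1 := by rw [he2, mul_one, hd2]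
              rw [this, mul_one]
        _ = (d * e * (d * e)) * (e * d) := by group
        _ = e * d := by rw [h2, one_mul]
    · exact h3
  have hb : e * (d * e) = d * (e * d) := by
    have h4 : d * e * (d * e) * (d * e) = 1 := by rw [← h3, pow_succ, pow_two]
    calc e * (d * e) = (d * d) * (e * (d * e)) * ((d * e) * (e * d)) := by
            have : (d * e) * (e * d) = 1 := by
              calc d * e * (e * d) = d * (e * e) * d := by group
                _ = 1 := by rw [he2, mul_one, hd2]
            rw [this, hd2, one_mul, mul_one]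
      _ = d * (d * e * (d * e) * (d * e)) * (e * d) := by group
      _ = d * (e * d) := by rw [h4, mul_one]
  let φ : Perm (Fin 3) →* G :=
    { toFun := phiFun d e
      map_one' := f1 d e
      map_mul' := phi_mul d e hd2 he2 hb }
  have hd1 : d ≠ 1 := by
    intro h1; apply h; rw [h1]; exact Commute.one_left e
  have he1 : e ≠ 1 := by
    intro h1; apply h; rw [h1]; exact Commute.one_right d
  have hde : d ≠ e := by
    intro h1; apply h; rw [h1]
  have hinj : Function.Injective φ := by
    rw [injective_iff_map_eq_one]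
    intro σ hσ
    change phiFun d e σ = 1 at hσ
    rcases all_six σ with rfl | rfl | rfl | rfl | rfl | rfl
    · rfl
    · rw [fs] at hσ; exact absurd hσ hd1
    · rw [ft] at hσ; exact absurd hσ he1
    · rw [fst] at hσ
      exfalso; apply hde
      calc d = d * (e * e) := by rw [he2, mul_one]
        _ = (d * e) * e := by group
        _ = e := by rw [hσ, one_mul]
    · rw [fts] at hσ
      exfalso; apply hde
      calc d = (e * e) * d := by rw [he2, one_mul]
        _ = e * (e * d) := by group
        _ = e := by rw [hσ, mul_one]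
    · rw [fsts] at hσ
      exfalso; apply he1
      calc e = (d * d) * e * (d * d) := by rw [hd2, one_mul, mul_one]
        _ = d * (d * e * d) * d := by group
        _ = 1 := by rw [hσ, mul_one, hd2]
  have hrange : φ.range = Subgroup.closure ({d, e} : Set G) := by
    apply le_antisymm
    · rintro _ ⟨σ, rfl⟩
      have hdm : d ∈ Subgroup.closure ({d, e} : Set G) := Subgroup.subset_closure (by simp)
      have hem : e ∈ Subgroup.closure ({d, e} : Set G) := Subgroup.subset_closure (by simp)
      change phiFun d e σ ∈ _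
      rcases all_six σ with rfl | rfl | rfl | rfl | rfl | rfl
      · rw [f1]; exact Subgroup.one_mem _
      · rw [fs]; exact hdm
      · rw [ft]; exact hem
      · rw [fst]; exact Subgroup.mul_mem _ hdm hem
      · rw [fts]; exact Subgroup.mul_mem _ hem hdm
      · rw [fsts]; exact Subgroup.mul_mem _ (Subgroup.mul_mem _ hdm hem) hdm
    · rw [Subgroup.closure_le]
      intro x hx
      rcases hx with hx | hx
      · rw [hx]; exact ⟨swap 0 1, fs d e⟩
      · rw [Set.mem_singleton_iff.mp hx]; exact ⟨swap 1 2, ft d e⟩
  exact ⟨((MonoidHom.ofInjective hinj).trans (MulEquiv.subgroupCongr hrange)).symm⟩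


end Cfsg.Agent.S0444
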