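import Cfsg.Statements.S0462
import Cfsg.Agent.Lib.Helper19.Sp4.Stab

set_option autoImplicit false
open Cfsg

namespace Cfsg.Agent.S0462

/-- The Held group exists as a transitive permutation group of degree 2058: simple of order 4030387200, with point stabiliser containing, with index 2, a copy of the 4-dimensional symplectic group over the field with four elements. -/
theorem result : ∃ H : Subgroup (Equiv.Perm (Fin 2058)), Cfsg.IsHe H ∧ MulAction.IsPretransitive H (Fin 2058) ∧ ∃ (F : Type) (_ : Field F) (_ : Fintype F), Fintype.card F = 4 ∧ ∃ N : Subgroup (MulAction.stabilizer H (0 : Fin 2058)), N.index = 2 ∧ Nonempty (N ≃* Matrix.symplecticGroup (Fin 2) F) := by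
  obtain ⟨H, h1, h2, N, hi, he⟩ := Cfsg.Agent.Lib.Helper19.Sp4.real2058
  exact ⟨H, h1, h2, Cfsg.Agent.Lib.Helper19.Sp4.K4, inferInstance, inferInstance,
    Cfsg.Agent.Lib.Helper19.Sp4.K4.card, N, hi, he⟩

end Cfsg.Agent.S0462
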