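import Cfsg.Statements.S0481
-- import your own Cfsg.Agent.* helpers here
import Mathlib

set_option autoImplicit false
open Cfsg

namespace Cfsg.Agent.S0481

/-- Large extraspecial subgroups: let z be an involution of a finite group G whose centraliser C contains a normal 2-subgroup Q with centre of order 2 and all squares central, such that every element of G centralising Q lies in Q. Then C contains a Sylow 2-subgroup of G, and any involution of G whose centraliser contains a Sylow 2-subgroup of G is conjugate to z. -/
theorem result {G : Type*} [Group G] [Finite G] (z : G) (hz : orderOf z = 2) (Q : Subgroup G) (hQC : Q ≤ Subgroup.centralizer ({z} : Set G)) (hQn : ∀ g ∈ Subgroup.centralizer ({z} : Set G), ∀ q ∈ Q, g * q * g⁻¹ ∈ Q) (hQ2 : IsPGroup 2 Q) (hZ : Nat.card (Subgroup.center Q) = 2) (hsq : ∀ x : Q, x ^ 2 ∈ Subgroup.center Q) (hlarge : Subgroup.centralizer (Q : Set G) ≤ Q) : (∃ P : Sylow 2 G, (P : Subgroup G) ≤ Subgroup.centralizer ({z} : Set G)) ∧ ∀ u : G, orderOf u = 2 → (∃ P : Sylow 2 G, (P : Subgroup G) ≤ Subgroup.centralizer ({u} : Set G)) → IsConj z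 u := by
  classical
  have hz1 : z ≠ 1 := by
    rintro rfl
    simp at hz
  -- key uniqueness lemma
  have key : ∀ w : G, (∀ q ∈ Q, q * w = w * q) → w ≠ 1 → w = z := by
    have mem : ∀ w : G, (∀ q ∈ Q, q * w = w * q) → w ∈ Q := by
      intro w hw
      apply hlarge
      rw [Subgroup.mem_centralizer_iff]
      intro q hq
      exact hw q hq
    have cen : ∀ (w : G) (hw : ∀ q ∈ Q, q * w = w * q),
        (⟨w, mem w hw⟩ : Q) ∈ Subgroup.center Q := by
      intro w hw
      rw [Subgroup.mem_center_iff]
      intro q
      apply Subtype.ext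
      exact hw q q.2
    have hzc : ∀ q ∈ Q, q * z = z * q := by
      intro q hq
      have := hQC hq
      rw [Subgroup.mem_centralizer_singleton_iff] at this
      exact this
    intro w hw hw1
    obtain ⟨y, -, hy⟩ := (Nat.card_eq_two_iff' (1 : Subgroup.center Q)).mp hZ
    have h1 := hy ⟨⟨w, mem w hw⟩, cen w hw⟩ (by
      intro h
      apply hw1
      have := congrArg (fun t : Subgroup.center Q => ((t : Q) : G)) h
      simpa using this)
    have h2 := hy ⟨⟨z, mem z hzc⟩, cen z hzc⟩ (by
      intro h
      apply hz1
      have := congrArg (fun t : Subgroup.center Q => ((t : Q) : G)) h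
      simpa using this)
    have := congrArg (fun t : Subgroup.center Q => ((t : Q) : G)) (h1.trans h2.symm)
    simpa using this
  have hzQ : z ∈ Q := by
    apply hlarge
    rw [Subgroup.mem_centralizer_iff]
    intro q hq
    have := hQC hq
    rw [Subgroup.mem_centralizer_singleton_iff] at this
    exact this
  obtain ⟨P, hQP⟩ := hQ2.exists_le_sylow
  -- every central element of P that is nontrivial equals z
  have hcP : ∀ w : G, w ∈ P → (∀ x ∈ P, x * w = w * x) → w ≠ 1 → w = z := by
    intro w _ hw hw1
    exact key w (fun q hq => hw q (hQP hq)) hw1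
  have hPz : ∀ x ∈ P, x * z = z * x := by
    have : Nontrivial (P : Subgroup G) := ⟨⟨⟨z, hQP hzQ⟩, 1, by
      intro h
      exact hz1 (congrArg Subtype.val h)⟩⟩
    have := P.2.center_nontrivial
    obtain ⟨c, hc⟩ := exists_ne (1 : Subgroup.center (P : Subgroup G))
    have hcc := c.2
    rw [Subgroup.mem_center_iff] at hcc
    have hcz : ((c : (P : Subgroup G)) : G) = z := by
      apply hcP _ (c : (P : Subgroup G)).2
      · intro x hx
        exact congrArg Subtype.val (hcc ⟨x, hx⟩)
      · intro h
        apply hc
        apply Subtype.ext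
        apply Subtype.ext
        simpa using h
    intro x hx
    rw [← hcz]
    exact congrArg Subtype.val (hcc ⟨x, hx⟩)
  refine ⟨⟨P, ?_⟩, ?_⟩
  · intro x hx
    rw [Subgroup.mem_centralizer_singleton_iff]
    exact hPz x hx
  · rintro u hu ⟨P', hP'⟩
    have hu1 : u ≠ 1 := by
      rintro rfl
      simp at hu
    have hP'u : ∀ x ∈ P', x * u = u * x := by
      intro x hx
      have := hP' hx
      rw [Subgroup.mem_centralizer_singleton_iff] at this
      exact this
    have huP' : u ∈ P' := by
      have hpu : IsPGroup 2 (Subgroup.zpowers u) := by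
        rw [IsPGroup.iff_card]
        exact ⟨1, by rw [Nat.card_zpowers, hu]; rfl⟩
      have h := hpu.inf_normalizer_sylow P'
      have : u ∈ Subgroup.zpowers u ⊓ Subgroup.normalizer (P' : Set G) := by
        refine Subgroup.mem_inf.mpr ⟨Subgroup.mem_zpowers u, ?_⟩
        change u ∈ Subgroup.normalizer ((P' : Subgroup G) : Set G)
        rw [Subgroup.mem_normalizer_iff]
        intro x
        constructor
        · intro hx
          rw [← hP'u x hx]
          simpa using hx
        · intro hx
          have h2 := hP'u _ hx
          have : x = u * x * u⁻¹ := by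
            have h3 : u * x = u * (u * x * u⁻¹) := by
              rw [← h2]; group
            exact mul_left_cancel h3
          rw [this]; exact hx
      rw [h] at this
      exact this.2
    obtain ⟨g, hg⟩ := MulAction.exists_smul_eq G P' P
    -- g • P' = P
    have hmem : ∀ x, x ∈ P' → g * x * g⁻¹ ∈ P := by
      intro x hx
      rw [← hg]
      change _ ∈ ((g • P' : Sylow 2 G) : Subgroup G)
      rw [Sylow.coe_subgroup_smul, Subgroup.mem_pointwise_smul_iff_inv_smul_mem]
      have hx' : x ∈ (P' : Subgroup G) := hx
      simpa [MulAut.smul_def, mul_assoc] using hx'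
    have hmem' : ∀ x, x ∈ P → g⁻¹ * x * g ∈ P' := by
      intro x hx
      rw [← hg] at hx
      change _ ∈ ((g • P' : Sylow 2 G) : Subgroup G) at hx
      rw [Sylow.coe_subgroup_smul, Subgroup.mem_pointwise_smul_iff_inv_smul_mem] at hx
      change _ ∈ (P' : Subgroup G)
      simpa [MulAut.smul_def, mul_assoc] using hx
    have : g * u * g⁻¹ = z := by
      apply hcP _ (hmem u huP')
      · intro x hx
        have := hP'u _ (hmem' x hx)
        calc x * (g * u * g⁻¹) = g * ((g⁻¹ * x * g) * u) * g⁻¹ := by group
          _ = g * (u * (g⁻¹ * x * g)) * g⁻¹ := by rw [this]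
          _ = _ := by group
      · intro h
        apply hu1
        have : u = g⁻¹ * (g * u * g⁻¹) * g := by group
        rw [this, h]; group
    rw [isConj_comm, isConj_iff]
    exact ⟨g, this⟩

end Cfsg.Agent.S0481
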