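import Cfsg.Statements.S0502
import Mathlib
import Cfsg.Agent.Lib.Helper12.KleinConj

set_option autoImplicit false
open Cfsg

namespace Cfsg.Agent.S0502

section aux

open Cfsg.Agent.Lib.Helper12

variable {P : Type*} [Group P] [Finite P]

theorem fix_bound (D : Subgroup P) (hc : ∀ a ∈ D, ∀ b ∈ D, a * b = b * a)
    (h2 : ∀ e ∈ D, e * e = 1) (y : P) (hy : y * y = 1) (hn : ∀ e ∈ D, y * e * y⁻¹ ∈ D) :
    Nat.card D ≤ Nat.card (D ⊓ Subgroup.centralizer {y} : Subgroup P) ^ 2 := by
  have hyi : y⁻¹ = y := inv_eq_of_mul_eq_one_left hy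
  let φ : D →* D :=
    { toFun := fun e => ⟨e * (y * e * y⁻¹), D.mul_mem e.2 (hn e e.2)⟩
      map_one' := by
        apply Subtype.ext
        simp
      map_mul' := by
        intro a b
        apply Subtype.ext
        simp only [Subgroup.coe_mul]
        have h1 := hc b b.2 (y * a * y⁻¹) (hn a a.2)
        calc (a : P) * b * (y * (a * b) * y⁻¹) = a * (b * (y * a * y⁻¹)) * (y * b * y⁻¹) := by group
          _ = a * ((y * a * y⁻¹) * b) * (y * b * y⁻¹) := by rw [h1]
          _ = a * (y * a * y⁻¹) * (b * (y * b * y⁻¹)) := by group }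
  have h1 := Subgroup.card_mul_index φ.ker
  rw [Subgroup.index_ker] at h1
  have hk : Nat.card φ.ker ≤ Nat.card (D ⊓ Subgroup.centralizer {y} : Subgroup P) := by
    apply Nat.card_le_card_of_injective (fun e : φ.ker =>
      (⟨((e : D) : P), ⟨(e : D).2, by
        apply Subgroup.mem_centralizer_singleton_iff.2
        have h3 : ((e : D) : P) * (y * (e : D) * y⁻¹) = 1 := congrArg Subtype.val e.2
        have h4 := h2 _ (e : D).2
        have h5 : y * ((e : D) : P) * y⁻¹ = (e : D) := mul_left_cancel (h3.trans h4.symm)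
        calc ((e : D) : P) * y = (y * (e : D) * y⁻¹) * y := by rw [h5]
          _ = y * (e : D) := by group⟩⟩ : (D ⊓ Subgroup.centralizer {y} : Subgroup P)))
    intro a b hab
    apply Subtype.ext
    apply Subtype.ext
    exact congrArg (fun x : (D ⊓ Subgroup.centralizer {y} : Subgroup P) => (x : P)) hab
  have hr : Nat.card φ.range ≤ Nat.card (D ⊓ Subgroup.centralizer {y} : Subgroup P) := by
    apply Nat.card_le_card_of_injective (fun r : φ.range =>
      (⟨((r : D) : P), ⟨(r : D).2, by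
        apply Subgroup.mem_centralizer_singleton_iff.2
        obtain ⟨e, he⟩ := r.2
        have h3 : ((r : D) : P) = e * (y * e * y⁻¹) := (congrArg Subtype.val he).symm
        have h4 := hc e e.2 (y * e * y⁻¹) (hn e e.2)
        rw [h3]
        calc (e : P) * (y * e * y⁻¹) * y = (y * e * y⁻¹) * e * y := by rw [h4]
          _ = y * e * (y⁻¹ * e * y) := by group
          _ = y * e * (y * e * y⁻¹) := by rw [hyi]
          _ = y * (e * (y * e * y⁻¹)) := by group⟩⟩ :
        (D ⊓ Subgroup.centralizer {y} : Subgroup P)))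
    intro a b hab
    apply Subtype.ext
    apply Subtype.ext
    exact congrArg (fun x : (D ⊓ Subgroup.centralizer {y} : Subgroup P) => (x : P)) hab
  rw [← h1, pow_two]
  exact Nat.mul_le_mul hk hr

theorem pick1 (C : Subgroup P) (h : 2 ≤ Nat.card C) : ∃ z ∈ C, z ≠ 1 := by
  have h4 : (C : Set P).ncard = Nat.card C := rfl
  obtain ⟨s, hs, hs1⟩ := Set.exists_mem_notMem_of_ncard_lt_ncard (s := ({1} : Set P))
    (t := (C : Set P)) (by rw [h4, Set.ncard_singleton]; omega)
  exact ⟨s, hs, by simpa using hs1⟩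

theorem pick2 (C : Subgroup P) (h : 3 ≤ Nat.card C) :
    ∃ s t, s ∈ C ∧ t ∈ C ∧ s ≠ 1 ∧ t ≠ 1 ∧ s ≠ t := by
  have h4 : (C : Set P).ncard = Nat.card C := rfl
  obtain ⟨s, hs, hs1⟩ := pick1 C (by omega)
  obtain ⟨t, ht, ht1⟩ := Set.exists_mem_notMem_of_ncard_lt_ncard (s := ({1, s} : Set P))
    (t := (C : Set P)) (by
      rw [h4]
      exact lt_of_le_of_lt (Set.ncard_insert_le _ _) (by rw [Set.ncard_singleton]; omega))
  simp only [Set.mem_insert_iff, Set.mem_singleton_iff, not_or] at ht1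
  exact ⟨s, t, hs, ht, hs1, ht1.1, fun h => ht1.2 h.symm⟩

theorem lemA (E : Subgroup P) [E.Normal] (hc : ∀ a ∈ E, ∀ b ∈ E, a * b = b * a)
    (h2 : ∀ e ∈ E, e * e = 1) (hE8 : 8 ≤ Nat.card E) (U : Subgroup P) (hU : IsKleinFour U)
    (z : P) (hzU : z ∈ U) (hzE : z ∈ E) (hz1 : z ≠ 1) :
    ∃ W : Subgroup P, IsKleinFour W ∧ W ≤ E ∧ ∀ a ∈ U, ∀ b ∈ W, a * b = b * a := by
  obtain ⟨y, hyU, hy1, hyz⟩ : ∃ y ∈ U, y ≠ 1 ∧ z ≠ y := by
    obtain ⟨s, t, hs, ht, hs1, ht1, hst⟩ := klein_exists U hU
    by_cases h : z = s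
    · exact ⟨t, ht, ht1, h ▸ hst⟩
    · exact ⟨s, hs, hs1, h⟩
  have hyy := klein_sq U hU y hyU
  have hb := fix_bound E hc h2 y hyy (fun e he => ‹E.Normal›.conj_mem e he y)
  have h3 : 3 ≤ Nat.card (E ⊓ Subgroup.centralizer {y} : Subgroup P) := by
    by_contra h
    push Not at h
    have : Nat.card (E ⊓ Subgroup.centralizer {y} : Subgroup P) ^ 2 ≤ 2 ^ 2 :=
      Nat.pow_le_pow_left (by omega) 2
    omega
  obtain ⟨a, b, ha, hb', ha1, hb1, hab⟩ := pick2 _ h3
  have haa := h2 a ha.1
  have hbb := h2 b hb'.1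
  have hcab := hc a ha.1 b hb'.1
  have hle : K4 a b haa hbb hcab ≤ (E ⊓ Subgroup.centralizer {y} : Subgroup P) := by
    intro x hx
    rcases (mem_K4 a b haa hbb hcab x).mp hx with rfl | rfl | rfl | rfl
    · exact Subgroup.one_mem _
    · exact ha
    · exact hb'
    · exact Subgroup.mul_mem _ ha hb'
  refine ⟨K4 a b haa hbb hcab, isKleinFour_K4 a b haa hbb hcab ha1 hb1 hab,
    fun x hx => (hle hx).1, ?_⟩
  intro x hx w hw
  have hwE := (hle hw).1
  have hwy : w * y = y * w := Subgroup.mem_centralizer_singleton_iff.1 (hle hw).2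
  have hwz : w * z = z * w := hc w hwE z hzE
  rcases klein_mem U hU z y hzU hyU hz1 hy1 hyz x hx with rfl | rfl | rfl | rfl
  · simp
  · exact hwz.symm
  · exact hwy.symm
  · rw [mul_assoc, ← hwy, ← mul_assoc, ← hwz, mul_assoc]

end aux

/-- If a finite 2-group has a normal elementary abelian subgroup of order at least 8, then any two of its Klein
four-subgroups are joined by a chain of Klein four-subgroups with consecutive members commuting elementwise. -/
theorem result {P : Type*} [Group P] [Finite P] (hP : IsPGroup 2 P)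
    (E : Subgroup P) [E.Normal] (hE : IsMulCommutative E) (hE2 : ∀ e ∈ E, e ^ 2 = 1) (hE8 : 8 ≤ Nat.card E) :
    Cfsg.IsFourConnected P := by
  classical
  have hc : ∀ a ∈ E, ∀ b ∈ E, a * b = b * a := by
    intro a ha b hb
    exact congrArg Subtype.val (hE.is_comm.comm (⟨a, ha⟩ : E) ⟨b, hb⟩)
  have h2 : ∀ e ∈ E, e * e = 1 := fun e he => by rw [← pow_two]; exact hE2 e he
  have hC : ∀ U : Subgroup P, IsKleinFour U → ∃ W : Subgroup P, IsKleinFour W ∧ W ≤ E ∧
      Relation.ReflTransGen (fun A B : Subgroup P => IsKleinFour A ∧ IsKleinFour B ∧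
        ∀ a ∈ A, ∀ b ∈ B, a * b = b * a) U W := by
    intro U hU
    by_cases h : ∃ z ∈ U, z ∈ E ∧ z ≠ 1
    · obtain ⟨z, hzU, hzE, hz1⟩ := h
      obtain ⟨W, hW, hWE, hcom⟩ := lemA E hc h2 hE8 U hU z hzU hzE hz1
      exact ⟨W, hW, hWE, Relation.ReflTransGen.single ⟨hU, hW, hcom⟩⟩
    · push Not at h
      obtain ⟨u, v, hu, hv, hu1, hv1, huv⟩ := Cfsg.Agent.Lib.Helper12.klein_exists U hU
      have huu := Cfsg.Agent.Lib.Helper12.klein_sq U hU u hu
      have hvv := Cfsg.Agent.Lib.Helper12.klein_sq U hU v hv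
      have hcuv : u * v = v * u := Cfsg.Agent.Lib.Helper12.comm_of_sq u v huu hvv
        (Cfsg.Agent.Lib.Helper12.klein_sq U hU _ (U.mul_mem hu hv))
      have hb := fix_bound E hc h2 u huu (fun e he => ‹E.Normal›.conj_mem e he u)
      have h3 : 3 ≤ Nat.card (E ⊓ Subgroup.centralizer {u} : Subgroup P) := by
        by_contra h'
        push Not at h'
        have : Nat.card (E ⊓ Subgroup.centralizer {u} : Subgroup P) ^ 2 ≤ 2 ^ 2 :=
          Nat.pow_le_pow_left (by omega) 2
        omega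
      have hb2 := fix_bound (E ⊓ Subgroup.centralizer {u} : Subgroup P)
        (fun a ha b hb => hc a ha.1 b hb.1) (fun e he => h2 e he.1) v hvv (by
          intro e he
          refine ⟨‹E.Normal›.conj_mem e he.1 v, ?_⟩
          apply Subgroup.mem_centralizer_singleton_iff.2
          have heu : e * u = u * e := Subgroup.mem_centralizer_singleton_iff.1 he.2
          have hvu' : v⁻¹ * u = u * v⁻¹ := by
            have : v⁻¹ * (u * v) * v⁻¹ = v⁻¹ * (v * u) * v⁻¹ := by rw [hcuv]
            simpa [mul_assoc] using this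
          calc v * e * v⁻¹ * u = v * e * (v⁻¹ * u) := by group
            _ = v * e * (u * v⁻¹) := by rw [hvu']
            _ = v * (e * u) * v⁻¹ := by group
            _ = v * (u * e) * v⁻¹ := by rw [heu]
            _ = (v * u) * e * v⁻¹ := by group
            _ = (u * v) * e * v⁻¹ := by rw [hcuv]
            _ = u * (v * e * v⁻¹) := by group)
      have h4 : 2 ≤ Nat.card ((E ⊓ Subgroup.centralizer {u}) ⊓ Subgroup.centralizer {v} :
          Subgroup P) := by
        by_contra h'
        push Not at h'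
        have : Nat.card ((E ⊓ Subgroup.centralizer {u}) ⊓ Subgroup.centralizer {v} :
          Subgroup P) ^ 2 ≤ 1 ^ 2 := Nat.pow_le_pow_left (by omega) 2
        omega
      obtain ⟨z, hz, hz1⟩ := pick1 _ h4
      have hzE : z ∈ E := hz.1.1
      have hzu : z * u = u * z := Subgroup.mem_centralizer_singleton_iff.1 hz.1.2
      have hzv : z * v = v * z := Subgroup.mem_centralizer_singleton_iff.1 hz.2
      have hzz := h2 z hzE
      have huz : u ≠ z := by
        intro h'
        exact hz1 (h z (h' ▸ hu) hzE)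
      have hU1 := Cfsg.Agent.Lib.Helper12.isKleinFour_K4 u z huu hzz hzu.symm hu1 hz1 huz
      obtain ⟨W, hW, hWE, hcom⟩ := lemA E hc h2 hE8 _ hU1 z
        ((Cfsg.Agent.Lib.Helper12.mem_K4 u z huu hzz hzu.symm z).2 (Or.inr (Or.inr (Or.inl rfl))))
        hzE hz1
      refine ⟨W, hW, hWE, Relation.ReflTransGen.head ⟨hU, hU1, ?_⟩
        (Relation.ReflTransGen.single ⟨hU1, hW, hcom⟩)⟩
      intro x hx w hw
      have hxu : x * u = u * x := by
        rcases Cfsg.Agent.Lib.Helper12.klein_mem U hU u v hu hv hu1 hv1 huv x hx with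
          rfl | rfl | rfl | rfl
        · simp
        · rfl
        · exact hcuv.symm
        · rw [mul_assoc, ← hcuv, ← mul_assoc]
      have hxz : x * z = z * x := by
        rcases Cfsg.Agent.Lib.Helper12.klein_mem U hU u v hu hv hu1 hv1 huv x hx with
          rfl | rfl | rfl | rfl
        · simp
        · exact hzu.symm
        · exact hzv.symm
        · rw [mul_assoc, ← hzv, ← mul_assoc, ← hzu, mul_assoc]
      rcases (Cfsg.Agent.Lib.Helper12.mem_K4 u z huu hzz hzu.symm w).mp hw with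
        rfl | rfl | rfl | rfl
      · simp
      · exact hxu
      · exact hxz
      · rw [← mul_assoc, hxu, mul_assoc, hxz, mul_assoc]
  intro U V hU hV
  obtain ⟨W1, hW1, hW1E, hr1⟩ := hC U hU
  obtain ⟨W2, hW2, hW2E, hr2⟩ := hC V hV
  have hrev : ∀ X Y : Subgroup P, Relation.ReflTransGen (fun A B : Subgroup P => IsKleinFour A ∧
      IsKleinFour B ∧ ∀ a ∈ A, ∀ b ∈ B, a * b = b * a) X Y →
      Relation.ReflTransGen (fun A B : Subgroup P => IsKleinFour A ∧
      IsKleinFour B ∧ ∀ a ∈ A, ∀ b ∈ B, a * b = b * a) Y X := by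
    intro X Y h
    induction h with
    | refl => exact Relation.ReflTransGen.refl
    | tail _ hbc ih =>
      exact Relation.ReflTransGen.head ⟨hbc.2.1, hbc.1, fun a ha b hb => (hbc.2.2 b hb a ha).symm⟩ ih
  exact (hr1.tail ⟨hW1, hW2, fun a ha b hb => hc a (hW1E ha) b (hW2E hb)⟩).trans
    (hrev _ _ hr2)

end Cfsg.Agent.S0502
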