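import Cfsg.Statements.S0505
import Cfsg.Agent.Lib.Helper10.CharP3

set_option autoImplicit false
open Cfsg
open Cfsg.Agent.Lib.Helper10

namespace Cfsg.Agent.S0505

theorem isCharacteristicTwoType_of {G : Type*} [Group G] [Finite G] (h2 : Even (Nat.card G))
    (h : ∀ t : G, orderOf t = 2 → CharPT 2 ↥(Subgroup.centralizer ({t} : Set G))) :
    Cfsg.IsCharacteristicTwoType G := by
  refine ⟨h2, ?_⟩
  intro T hT hT1
  obtain ⟨t, htT, _, hto⟩ := exists_central_orderOf_eq hT hT1
  exact charPT_iff_centralizer_le.mp (charPT_normalizer_of_mem hT htT (h t hto))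

/-- Let G be a finite group of even order in which the centralizer of every involution is solvable and has trivial
core (no nontrivial normal subgroup of odd order). Then G is of characteristic 2 type. -/
theorem result {G : Type*} [Group G] [Finite G]
    (h2 : Even (Nat.card G))
    (hs : ∀ t : G, orderOf t = 2 → Group.IsSolvable (Subgroup.centralizer ({t} : Set G)))
    (hc : ∀ t : G, orderOf t = 2 → Cfsg.oddCore (Subgroup.centralizer ({t} : Set G)) = ⊥) :
    Cfsg.IsCharacteristicTwoType G := by
  apply isCharacteristicTwoType_of h2
  intro t ht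
  refine ⟨?_, hc t ht⟩
  apply eq_bot_of_perfect_of_isSolvable (layer_perfect _)
  have := hs t ht
  infer_instance

end Cfsg.Agent.S0505
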