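import Cfsg.Statements.S0520
-- import your own Cfsg.Agent.* helpers here

set_option autoImplicit false
open Cfsg

namespace Cfsg.Agent.S0520

open Pointwise

def K4 {G : Type*} [Group G] (U : Subgroup G) : Prop := Nat.card U = 4 ∧ ∀ u ∈ U, u * u = 1

theorem k4_iff {G : Type*} [Group G] (U : Subgroup G) : IsKleinFour U ↔ K4 U := by
  constructor
  · intro h
    refine ⟨h.card_four, fun u hu => ?_⟩
    have := IsKleinFour.mul_self (⟨u, hu⟩ : U)
    exact congrArg Subtype.val this
  · rintro ⟨h4, h2⟩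
    refine ⟨h4, ?_⟩
    have hd : Monoid.exponent U ∣ 2 := Monoid.exponent_dvd_of_forall_pow_eq_one (fun g => by
      apply Subtype.ext
      simp [pow_two, h2 g g.2])
    rcases (Nat.dvd_prime Nat.prime_two).mp hd with h | h
    · exfalso
      have h1 : Subsingleton U := Monoid.exp_eq_one_iff.mp h
      have h3 : Nat.card U ≤ 1 := Finite.card_le_one_iff_subsingleton.mpr h1
      omega
    · exact h

theorem comm_of_sq {G : Type*} [Group G] {U : Subgroup G} (h : ∀ u ∈ U, u * u = 1)
    {a b : G} (ha : a ∈ U) (hb : b ∈ U) : a * b = b * a := by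
  have h1 := h (a * b) (U.mul_mem ha hb)
  have h2 := h a ha
  have h3 := h b hb
  have e1 : a⁻¹ = a := inv_eq_of_mul_eq_one_left h2
  have e2 : b⁻¹ = b := inv_eq_of_mul_eq_one_left h3
  have e3 : (a * b)⁻¹ = a * b := inv_eq_of_mul_eq_one_left h1
  rw [← e3, mul_inv_rev, e1, e2]

theorem k4_isPGroup {G : Type*} [Group G] {U : Subgroup G} (h : K4 U) : IsPGroup 2 U :=
  IsPGroup.of_card (n := 2) (by rw [h.1]; norm_num)

theorem rank_iff {G : Type*} [Group G] [Finite G] (Q : Subgroup G) :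
    ¬ PRankLE 2 1 Q ↔ ∃ U : Subgroup G, U ≤ Q ∧ K4 U := by
  have : Fact (Nat.Prime 2) := ⟨Nat.prime_two⟩
  constructor
  · intro h
    unfold PRankLE at h
    push Not at h
    obtain ⟨A, -, hA2, hAc⟩ := h
    have hp : IsPGroup 2 A := fun g => ⟨1, by
      apply Subtype.ext
      have := hA2 g g.2
      simpa using this⟩
    obtain ⟨n, hn⟩ := IsPGroup.iff_card.mp hp
    have hn2 : 2 ≤ n := by
      rw [hn] at hAc
      by_contra hlt
      have : n ≤ 1 := by omega
      have := Nat.pow_le_pow_right (n := 2) (by norm_num) this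
      omega
    obtain ⟨K, hK⟩ := Sylow.exists_subgroup_card_pow_prime (G := A) 2 (n := 2)
      (by rw [hn]; exact pow_dvd_pow 2 hn2)
    refine ⟨(K.map A.subtype).map Q.subtype, ?_, ?_, ?_⟩
    · rintro _ ⟨x, -, rfl⟩
      exact x.2
    · rw [Subgroup.card_map_of_injective Q.subtype_injective,
        Subgroup.card_map_of_injective A.subtype_injective, hK]
      norm_num
    · rintro _ ⟨_, ⟨x, -, rfl⟩, rfl⟩
      have := hA2 x x.2
      have h2 := congrArg Subtype.val this
      simpa [pow_two] using h2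
  · rintro ⟨U, hUQ, h4, h2⟩ h
    have hc : IsMulCommutative (U.subgroupOf Q) := ⟨⟨fun a b => by
      apply Subtype.ext
      apply Subtype.ext
      exact comm_of_sq h2 (Subgroup.mem_subgroupOf.mp a.2) (Subgroup.mem_subgroupOf.mp b.2)⟩⟩
    have := h (U.subgroupOf Q) hc (fun a ha => by
      apply Subtype.ext
      simpa [pow_two] using h2 a (Subgroup.mem_subgroupOf.mp ha))
    rw [Nat.card_congr (Subgroup.subgroupOfEquivOfLe hUQ).toEquiv, h4] at this
    omega

def Adj {G : Type*} [Group G] (A B : Subgroup G) : Prop :=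
  IsKleinFour A ∧ IsKleinFour B ∧ ∀ a ∈ A, ∀ b ∈ B, a * b = b * a

abbrev Conn {G : Type*} [Group G] : Subgroup G → Subgroup G → Prop := Relation.ReflTransGen Adj

theorem k4_smul {G : Type*} [Group G] (g : G) {U : Subgroup G} (h : K4 U) :
    K4 (MulAut.conj g • U) := by
  refine ⟨(Nat.card_congr (Subgroup.equivSMul (MulAut.conj g) U).toEquiv).symm.trans h.1, ?_⟩
  intro u hu
  obtain ⟨v, hv, rfl⟩ := (Subgroup.mem_smul_pointwise_iff_exists _ _ _).mp hu
  rw [← smul_mul', h.2 v hv, smul_one]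

theorem adj_smul {G : Type*} [Group G] (g : G) {A B : Subgroup G} (h : Adj A B) :
    Adj (MulAut.conj g • A) (MulAut.conj g • B) := by
  refine ⟨(k4_iff _).2 (k4_smul g ((k4_iff _).1 h.1)),
    (k4_iff _).2 (k4_smul g ((k4_iff _).1 h.2.1)), ?_⟩
  intro a ha b hb
  obtain ⟨a', ha', rfl⟩ := (Subgroup.mem_smul_pointwise_iff_exists _ _ _).mp ha
  obtain ⟨b', hb', rfl⟩ := (Subgroup.mem_smul_pointwise_iff_exists _ _ _).mp hb
  rw [← smul_mul', ← smul_mul', h.2.2 a' ha' b' hb']

theorem conn_smul {G : Type*} [Group G] (g : G) {A B : Subgroup G} (h : Conn A B) :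
    Conn (MulAut.conj g • A) (MulAut.conj g • B) :=
  by
  induction h with
  | refl => exact Relation.ReflTransGen.refl
  | tail _ hbc ih => exact ih.tail (adj_smul g hbc)

theorem conn_symm {G : Type*} [Group G] {A B : Subgroup G} (h : Conn A B) : Conn B A :=
  by
  induction h with
  | refl => exact Relation.ReflTransGen.refl
  | tail _ h ih => exact ih.head ⟨h.2.1, h.1, fun a ha b hb => (h.2.2 b hb a ha).symm⟩

theorem conn_of_le {G : Type*} [Group G] (S : Subgroup G) (hS : IsFourConnected S)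
    {U V : Subgroup G} (hU : K4 U) (hV : K4 V) (hUS : U ≤ S) (hVS : V ≤ S) : Conn U V := by
  have tr : ∀ W : Subgroup G, K4 W → W ≤ S → IsKleinFour (W.subgroupOf S) := by
    intro W hW hWS
    rw [k4_iff]
    refine ⟨(Nat.card_congr (Subgroup.subgroupOfEquivOfLe hWS).toEquiv).trans hW.1, ?_⟩
    intro u hu
    apply Subtype.ext
    exact hW.2 u (Subgroup.mem_subgroupOf.mp hu)
  have tr2 : ∀ W : Subgroup S, IsKleinFour W → IsKleinFour (W.map S.subtype) := by
    intro W hW
    rw [k4_iff] at hW ⊢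
    refine ⟨(Subgroup.card_map_of_injective S.subtype_injective).trans hW.1, ?_⟩
    rintro _ ⟨x, hx, rfl⟩
    exact congrArg Subtype.val (hW.2 x hx)
  have h := hS (U.subgroupOf S) (V.subgroupOf S) (tr U hU hUS) (tr V hV hVS)
  have gen : ∀ A B : Subgroup S, Relation.ReflTransGen
      (fun A B : Subgroup S => IsKleinFour A ∧ IsKleinFour B ∧ ∀ a ∈ A, ∀ b ∈ B, a * b = b * a) A B →
      Conn (A.map S.subtype) (B.map S.subtype) := by
    intro A B h
    induction h with
    | refl => exact Relation.ReflTransGen.refl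
    | tail _ h ih =>
      refine ih.tail ⟨tr2 _ h.1, tr2 _ h.2.1, ?_⟩
      rintro _ ⟨a, ha, rfl⟩ _ ⟨b, hb, rfl⟩
      exact congrArg Subtype.val (h.2.2 a ha b hb)
  have h2 := gen _ _ h
  rwa [Subgroup.map_subgroupOf_eq_of_le hUS, Subgroup.map_subgroupOf_eq_of_le hVS] at h2

def core {G : Type*} [Group G] (S : Subgroup G) : Subgroup G :=
  ⨆ Q : {Q : Subgroup G // Q ≤ S ∧ ¬ Cfsg.PRankLE 2 1 Q},
    Subgroup.normalizer ((Q : Subgroup G) : Set G)

def Good {G : Type*} [Group G] (S T : Subgroup G) : Prop :=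
  ∃ k ∈ core S, T ≤ MulAut.conj k • S

theorem norm_le_core0 {G : Type*} [Group G] [Finite G] {S Q U : Subgroup G} (hQ : Q ≤ S)
    (hUQ : U ≤ Q) (hU : K4 U) : Subgroup.normalizer (Q : Set G) ≤ core S :=
  le_iSup (fun Q : {Q : Subgroup G // Q ≤ S ∧ ¬ Cfsg.PRankLE 2 1 Q} =>
    Subgroup.normalizer ((Q : Subgroup G) : Set G)) ⟨Q, hQ, (rank_iff Q).2 ⟨U, hUQ, hU⟩⟩

theorem norm_le_core {G : Type*} [Group G] [Finite G] {S D U : Subgroup G} (hD : Good S D)
    (hUD : U ≤ D) (hU : K4 U) : Subgroup.normalizer (D : Set G) ≤ core S := by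
  obtain ⟨k, hk, hle⟩ := hD
  have h1 : MulAut.conj k⁻¹ • D ≤ S := by
    rw [Subgroup.pointwise_smul_subset_iff, map_inv, inv_inv]
    exact hle
  have h2 : MulAut.conj k⁻¹ • U ≤ MulAut.conj k⁻¹ • D :=
    Subgroup.pointwise_smul_le_pointwise_smul_iff.2 hUD
  have h3 := norm_le_core0 h1 h2 (k4_smul k⁻¹ hU)
  intro x hx
  have hy : k⁻¹ * x * k ∈ Subgroup.normalizer ((MulAut.conj k⁻¹ • D : Subgroup G) : Set G) := by
    rw [Subgroup.mem_normalizer_iff] at hx ⊢
    intro h
    rw [Subgroup.mem_pointwise_smul_iff_inv_smul_mem, Subgroup.mem_pointwise_smul_iff_inv_smul_mem,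
      map_inv, inv_inv, MulAut.smul_def, MulAut.smul_def, MulAut.conj_apply, MulAut.conj_apply,
      hx (k * h * k⁻¹)]
    have e : x * (k * h * k⁻¹) * x⁻¹ = k * (k⁻¹ * x * k * h * (k⁻¹ * x * k)⁻¹) * k⁻¹ := by group
    rw [e]
  have h4 := h3 hy
  have e : x = k * (k⁻¹ * x * k) * k⁻¹ := by group
  rw [e]
  exact (core S).mul_mem ((core S).mul_mem hk h4) ((core S).inv_mem hk)

theorem good_of_pgroup {G : Type*} [Group G] [Finite G] (S : Sylow 2 G)
    (hSK : (S : Subgroup G) ≤ core (S : Subgroup G)) {E : Subgroup G}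
    (hEK : E ≤ core (S : Subgroup G)) (hE : IsPGroup 2 E) : Good (S : Subgroup G) E := by
  have : Fact (Nat.Prime 2) := ⟨Nat.prime_two⟩
  have hE' : IsPGroup 2 (E.subgroupOf (core (S : Subgroup G))) := hE.comap_subtype
  obtain ⟨P, hP⟩ := hE'.exists_le_sylow
  obtain ⟨k, hk⟩ := MulAction.exists_smul_eq (core (S : Subgroup G)) (S.subtype hSK) P
  refine ⟨k, k.2, fun e he => ?_⟩
  have h1 : (⟨e, hEK he⟩ : core (S : Subgroup G)) ∈ (P : Subgroup (core (S : Subgroup G))) :=
    hP (Subgroup.mem_subgroupOf.mpr he)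
  rw [← hk, Sylow.smul_subtype, Sylow.coe_subtype, Subgroup.mem_subgroupOf] at h1
  exact h1

theorem chain {G : Type*} [Group G] [Finite G] (S : Sylow 2 G)
    (hSK : (S : Subgroup G) ≤ core (S : Subgroup G)) (S2 : Sylow 2 G) :
    ∀ m : ℕ, ∀ S1 : Sylow 2 G, (∃ k ∈ core (S : Subgroup G), S1 = k • S) →
      (∃ U : Subgroup G, U ≤ (S1 : Subgroup G) ⊓ S2 ∧ K4 U) →
      Nat.card S2 - Nat.card ((S1 : Subgroup G) ⊓ S2 : Subgroup G) = m →
      ∃ k ∈ core (S : Subgroup G), S2 = k • S := by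
  have : Fact (Nat.Prime 2) := ⟨Nat.prime_two⟩
  intro m
  induction m using Nat.strong_induction_on with
  | _ m ih =>
  intro S1 hS1 hU hm
  by_cases hle : (S2 : Subgroup G) ≤ S1
  · have : (S1 : Subgroup G) = S2 := S2.3 S1.2 hle
    have h12 : S1 = S2 := Sylow.ext this
    rw [← h12]
    exact hS1
  · obtain ⟨U, hUD, hU4⟩ := hU
    obtain ⟨k, hk, rfl⟩ := hS1
    set D : Subgroup G := ((k • S : Sylow 2 G) : Subgroup G) ⊓ S2 with hD
    have hDS2 : D ≤ S2 := inf_le_right
    have hDgood : Good (S : Subgroup G) D := ⟨k, hk, inf_le_left⟩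
    have hND := norm_le_core hDgood hUD hU4
    have hnil : Group.IsNilpotent (S2 : Subgroup G) := S2.2.isNilpotent
    have hnc := Group.normalizerCondition_of_isNilpotent (G := (S2 : Subgroup G))
    have hlt : D.subgroupOf S2 < ⊤ := by
      rw [lt_top_iff_ne_top]
      intro h
      rw [Subgroup.subgroupOf_eq_top] at h
      exact hle (h.trans inf_le_left)
    obtain ⟨x, hxN, hxD⟩ := SetLike.exists_of_lt (hnc _ hlt)
    have hxD' : (x : G) ∉ D := fun h => hxD (Subgroup.mem_subgroupOf.mpr h)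
    have hxN' : (x : G) ∈ Subgroup.normalizer (D : Set G) := by
      rw [Subgroup.mem_normalizer_iff] at hxN ⊢
      intro h
      constructor
      · intro hh
        exact Subgroup.mem_subgroupOf.mp ((hxN ⟨h, hDS2 hh⟩).mp (Subgroup.mem_subgroupOf.mpr hh))
      · intro hh
        have h1 : h ∈ (S2 : Subgroup G) := by
          have h2 := hDS2 hh
          have e : h = (x : G)⁻¹ * ((x : G) * h * (x : G)⁻¹) * (x : G) := by group
          rw [e]
          exact Subgroup.mul_mem _ (Subgroup.mul_mem _ (Subgroup.inv_mem _ x.2) h2) x.2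
        exact Subgroup.mem_subgroupOf.mp ((hxN ⟨h, h1⟩).mpr (Subgroup.mem_subgroupOf.mpr hh))
    set E : Subgroup G := Subgroup.normalizer (D : Set G) ⊓ S2 with hE
    have hEp : IsPGroup 2 E := S2.2.to_le inf_le_right
    obtain ⟨k3, hk3, hE3⟩ := good_of_pgroup S hSK (inf_le_left.trans hND) hEp
    have hDE : D ≤ E := le_inf Subgroup.le_normalizer hDS2
    have hxE : (x : G) ∈ E := ⟨hxN', x.2⟩
    have hE32 : E ≤ ((k3 • S : Sylow 2 G) : Subgroup G) ⊓ S2 := le_inf hE3 inf_le_right
    have hcard : Nat.card D < Nat.card (((k3 • S : Sylow 2 G) : Subgroup G) ⊓ S2 : Subgroup G) := by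
      by_contra hc
      have := Subgroup.eq_of_le_of_card_ge (hDE.trans hE32) (not_lt.mp hc)
      exact hxD' (this ▸ hE32 hxE)
    have hcard2 : Nat.card (((k3 • S : Sylow 2 G) : Subgroup G) ⊓ S2 : Subgroup G) ≤ Nat.card S2 :=
      Subgroup.card_le_of_le inf_le_right
    exact ih _ (by omega) (k3 • S) ⟨k3, hk3, rfl⟩ ⟨U, hUD.trans (hDE.trans hE32), hU4⟩ rfl

theorem good_of_conn {G : Type*} [Group G] [Finite G] (S : Sylow 2 G)
    (hSK : (S : Subgroup G) ≤ core (S : Subgroup G)) {U V : Subgroup G} (h : Conn U V)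
    (hU : Good (S : Subgroup G) U) : Good (S : Subgroup G) V := by
  induction h with
  | refl => exact hU
  | @tail b c _ hbc ih =>
    have hb4 : K4 b := (k4_iff _).1 hbc.1
    have hc4 : K4 c := (k4_iff _).1 hbc.2.1
    have hN := norm_le_core ih le_rfl hb4
    have hcN : c ≤ Subgroup.normalizer (b : Set G) := by
      refine le_trans ?_ (Subgroup.centralizer_le_normalizer (b : Set G))
      intro x hx
      rw [Subgroup.mem_centralizer_iff]
      intro y hy
      exact hbc.2.2 y hy x hx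
    exact good_of_pgroup S hSK (hcN.trans hN) (k4_isPGroup hc4)

theorem mem_core_of_good {G : Type*} [Group G] [Finite G] (S : Sylow 2 G)
    (hNK : Subgroup.normalizer ((S : Subgroup G) : Set G) ≤ core (S : Subgroup G))
    {U : Subgroup G} (hU4 : K4 U) (hUS : U ≤ S) (g : G)
    (hg : Good (S : Subgroup G) (MulAut.conj g • U)) : g ∈ core (S : Subgroup G) := by
  have hSK : (S : Subgroup G) ≤ core (S : Subgroup G) := Subgroup.le_normalizer.trans hNK
  obtain ⟨k, hk, hle⟩ := hg
  obtain ⟨k', hk', he⟩ := chain S hSK (g • S) _ (k • S) ⟨k, hk, rfl⟩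
    ⟨MulAut.conj g • U, le_inf hle (Subgroup.pointwise_smul_le_pointwise_smul_iff.2 hUS),
      k4_smul g hU4⟩ rfl
  have h1 : (k'⁻¹ * g) • S = S := by
    rw [mul_smul, he, inv_smul_smul]
  have h2 := hNK (Sylow.smul_eq_iff_mem_normalizer.mp h1)
  have e : g = k' * (k'⁻¹ * g) := by group
  rw [e]
  exact Subgroup.mul_mem _ hk' h2

theorem exists_k4 {H : Type*} [Group H] [Finite H] (h : ¬ PRankLE 2 1 H) :
    ∃ U : Subgroup H, K4 U := by
  have : Fact (Nat.Prime 2) := ⟨Nat.prime_two⟩
  unfold PRankLE at h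
  push Not at h
  obtain ⟨A, -, hA2, hAc⟩ := h
  have hp : IsPGroup 2 A := fun g => ⟨1, by
    apply Subtype.ext
    have := hA2 g g.2
    simpa using this⟩
  obtain ⟨n, hn⟩ := IsPGroup.iff_card.mp hp
  have hn2 : 2 ≤ n := by
    rw [hn] at hAc
    by_contra hlt
    have : n ≤ 1 := by omega
    have := Nat.pow_le_pow_right (n := 2) (by norm_num) this
    omega
  obtain ⟨K, hK⟩ := Sylow.exists_subgroup_card_pow_prime (G := A) 2 (n := 2)
    (by rw [hn]; exact pow_dvd_pow 2 hn2)
  refine ⟨K.map A.subtype, ?_, ?_⟩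
  · rw [Subgroup.card_map_of_injective A.subtype_injective, hK]
    norm_num
  · rintro _ ⟨x, -, rfl⟩
    have := hA2 x x.2
    simpa [pow_two] using this

theorem exists_conj_le {G : Type*} [Group G] [Finite G] (S : Sylow 2 G) {U : Subgroup G}
    (hU : K4 U) : ∃ g : G, MulAut.conj g • U ≤ S := by
  have : Fact (Nat.Prime 2) := ⟨Nat.prime_two⟩
  obtain ⟨P, hP⟩ := (k4_isPGroup hU).exists_le_sylow
  obtain ⟨g, hg⟩ := MulAction.exists_smul_eq G P S
  refine ⟨g, ?_⟩
  rw [← hg]
  exact Subgroup.pointwise_smul_le_pointwise_smul_iff.2 hP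


/-- Let G be a finite group of 2-rank at least 2 and S a Sylow 2-subgroup whose commuting graph of Klein four-subgroups is
connected. Then the commuting graph of Klein four-subgroups of G is disconnected if and only if the 2-generated core — the
subgroup generated by the normalizers N_G(Q) of the subgroups Q of S that contain a Klein four-group — is a proper
subgroup of G. -/
theorem result {G : Type*} [Group G] [Finite G] (h2 : ¬ Cfsg.PRankLE 2 1 G)
    (S : Sylow 2 G) (hS : Cfsg.IsFourConnected (S : Subgroup G)) :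
    ¬ Cfsg.IsFourConnected G ↔
      (⨆ Q : {Q : Subgroup G // Q ≤ (S : Subgroup G) ∧ ¬ Cfsg.PRankLE 2 1 Q},
          Subgroup.normalizer ((Q : Subgroup G) : Set G)) ≠ ⊤ := by
  have : Fact (Nat.Prime 2) := ⟨Nat.prime_two⟩
  change ¬ Cfsg.IsFourConnected G ↔ core (S : Subgroup G) ≠ ⊤
  obtain ⟨U', hU'⟩ := exists_k4 h2
  obtain ⟨g0, hg0⟩ := exists_conj_le S hU'
  obtain ⟨U0, hU0def⟩ : ∃ U0 : Subgroup G, U0 = MulAut.conj g0 • U' := ⟨_, rfl⟩
  rw [← hU0def] at hg0
  have hU0 : K4 U0 := hU0def ▸ k4_smul g0 hU'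
  have hNK : Subgroup.normalizer ((S : Subgroup G) : Set G) ≤ core (S : Subgroup G) :=
    norm_le_core0 le_rfl hg0 hU0
  have hSK : (S : Subgroup G) ≤ core (S : Subgroup G) := Subgroup.le_normalizer.trans hNK
  rw [ne_eq, not_iff_not]
  constructor
  · intro hconn
    rw [eq_top_iff]
    intro g _
    apply mem_core_of_good S hNK hU0 hg0 g
    have hc : Conn U0 (MulAut.conj g • U0) :=
      hconn _ _ ((k4_iff _).2 hU0) ((k4_iff _).2 (k4_smul g hU0))
    exact good_of_conn S hSK hc ⟨1, Subgroup.one_mem _, by simpa using hg0⟩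
  · intro htop
    let H : Subgroup G :=
      { carrier := {g | Conn (MulAut.conj g • U0) U0}
        mul_mem' := by
          intro a b ha hb
          change Conn (MulAut.conj (a * b) • U0) U0
          rw [map_mul, mul_smul]
          exact (conn_smul a hb).trans ha
        one_mem' := by
          change Conn (MulAut.conj 1 • U0) U0
          rw [map_one, one_smul]
        inv_mem' := by
          intro a ha
          change Conn (MulAut.conj a⁻¹ • U0) U0
          have h1 := conn_smul a⁻¹ ha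
          rw [map_inv, inv_smul_smul] at h1
          rw [map_inv]
          exact conn_symm h1 }
    have hKH : core (S : Subgroup G) ≤ H := by
      refine iSup_le ?_
      rintro ⟨Q, hQS, hQr⟩
      obtain ⟨W, hWQ, hW4⟩ := (rank_iff Q).1 hQr
      intro g hg
      change Conn (MulAut.conj g • U0) U0
      have hgW : MulAut.conj g • W ≤ Q := by
        intro y hy
        obtain ⟨w, hw, rfl⟩ := (Subgroup.mem_smul_pointwise_iff_exists _ _ _).mp hy
        rw [MulAut.smul_def, MulAut.conj_apply]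
        exact (Subgroup.mem_normalizer_iff.mp hg w).mp (hWQ hw)
      exact (conn_smul g (conn_of_le S hS hU0 hW4 hg0 (hWQ.trans hQS))).trans
        (conn_of_le S hS (k4_smul g hW4) hU0 (hgW.trans hQS) hg0)
    have hall : ∀ U : Subgroup G, K4 U → Conn U U0 := by
      intro U hU
      obtain ⟨g, hg⟩ := exists_conj_le S hU
      have h1 := conn_smul g⁻¹ (conn_of_le S hS (k4_smul g hU) hU0 hg hg0)
      rw [map_inv, inv_smul_smul, ← map_inv] at h1
      have h3 : g⁻¹ ∈ H := hKH (htop ▸ Subgroup.mem_top _)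
      exact h1.trans h3
    intro U V hU hV
    exact (hall U ((k4_iff _).1 hU)).trans (conn_symm (hall V ((k4_iff _).1 hV)))

end Cfsg.Agent.S0520
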