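import Cfsg.Statements.S0525
import Mathlib
import Cfsg.Agent.Lib.Helper4.Supersolvable

set_option autoImplicit false
open Cfsg

namespace Cfsg.Agent.S0525

/-- A direct product of two finite supersolvable groups is supersolvable. -/
theorem result {G H : Type*} [Group G] [Group H] [Finite G] [Finite H] (hG : Cfsg.IsSupersolvable G) (hH : Cfsg.IsSupersolvable H) : Cfsg.IsSupersolvable (G × H) := by
  rw [Lib.Helper4.isSupersolvable_iff] at hG hH ⊢
  have hmap : ∀ N : Subgroup G, N.map (MonoidHom.inl G H) = N.prod ⊥ := by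
    intro N
    ext ⟨a, b⟩
    simp only [Subgroup.mem_map, MonoidHom.inl_apply, Prod.mk.injEq, Subgroup.mem_prod, Subgroup.mem_bot]
    constructor
    · rintro ⟨x, hx, rfl, rfl⟩; exact ⟨hx, rfl⟩
    · rintro ⟨hx, rfl⟩; exact ⟨a, hx, rfl, rfl⟩
  have h1 : Lib.Helper4.CycChain ((⊥ : Subgroup G).map (MonoidHom.inl G H)) ((⊤ : Subgroup G).map (MonoidHom.inl G H)) := by
    apply Lib.Helper4.CycChain.map' _ _ hG
    intro N hN
    rw [hmap]
    exact Subgroup.prod_normal N ⊥
  have h2 := Lib.Helper4.CycChain.comap (MonoidHom.snd G H) hH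
  rw [Subgroup.map_bot, hmap] at h1
  rw [← Subgroup.top_prod, Subgroup.comap_top] at h2
  exact h1.trans h2

end Cfsg.Agent.S0525
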