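import Cfsg.Statements.S0526
import Mathlib
import Cfsg.Agent.Lib.Helper4.Supersolvable2

set_option autoImplicit false
open Cfsg

namespace Cfsg.Agent.S0526

/-- In a finite supersolvable group the commutator subgroup is nilpotent. -/
theorem result {G : Type*} [Group G] [Finite G] (hG : Cfsg.IsSupersolvable G) : Group.IsNilpotent (commutator G) := by
  rw [Lib.Helper4.isSupersolvable_iff] at hG
  have key : ∀ A C : Subgroup G, Lib.Helper4.CycChain A C →
      (∃ k, A.subgroupOf (commutator G) ≤ Subgroup.upperCentralSeries (commutator G) k) →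
      ∃ k, C.subgroupOf (commutator G) ≤ Subgroup.upperCentralSeries (commutator G) k := by
    intro A C h
    induction h with
    | refl _ _ => exact id
    | step A B C g hA hB hBC ih =>
      rintro ⟨k, hk⟩
      apply ih
      refine ⟨k + 1, ?_⟩
      intro x hx
      rw [Subgroup.mem_upperCentralSeries_succ_iff]
      intro y
      apply hk
      rw [Subgroup.mem_subgroupOf]
      have := hA
      exact Lib.Helper4.comm_mem_of_step A B hBC.normal_left g hB x hx y y.2
  obtain ⟨k, hk⟩ := key _ _ hG ⟨0, by simp⟩
  refine ⟨k, ?_⟩
  simpa using hk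

end Cfsg.Agent.S0526
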