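import Cfsg.Statements.S0527
import Mathlib
import Cfsg.Agent.Lib.Helper4.Supersolvable2

set_option autoImplicit false
open Cfsg

namespace Cfsg.Agent.S0527

universe u

theorem aux : ∀ (n : ℕ) (G : Type u) [Group G] [Finite G], Nat.card G = n →
    Cfsg.IsSupersolvable G → ∀ M : Subgroup G, IsCoatom M → M.index.Prime := by
  intro n
  induction n using Nat.strong_induction_on with
  | _ n ih =>
    intro G _ _ hn hG M hM
    have htop : (⊤ : Subgroup G) ≠ ⊥ := by
      intro h
      apply hM.1
      rw [h]
      exact le_antisymm (h ▸ le_top) bot_le
    obtain ⟨Z, -, hZn, hZp⟩ := Lib.Helper4.exists_normal_prime hG ⊤ htop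
    by_cases hZM : Z ≤ M
    · -- pass to the quotient
      have hcard : Nat.card (G ⧸ Z) < n := by
        have h1 := Subgroup.card_eq_card_quotient_mul_card_subgroup Z
        rw [hn] at h1
        have h2 := hZp.two_le
        have h3 : 0 < Nat.card (G ⧸ Z) := Nat.card_pos
        rw [h1]
        nlinarith
      have hsurj := QuotientGroup.mk'_surjective Z
      have hcomap : (M.map (QuotientGroup.mk' Z)).comap (QuotientGroup.mk' Z) = M := by
        rw [Subgroup.comap_map_eq, QuotientGroup.ker_mk', sup_eq_left.mpr hZM]
      have hco : IsCoatom (M.map (QuotientGroup.mk' Z)) := by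
        constructor
        · intro h
          apply hM.1
          rw [← hcomap, h, Subgroup.comap_top]
        · intro K hK
          have h1 : M < K.comap (QuotientGroup.mk' Z) := by
            rw [← hcomap]
            refine lt_of_le_of_ne (Subgroup.comap_mono hK.le) ?_
            intro h
            have := congrArg (Subgroup.map (QuotientGroup.mk' Z)) h
            rw [Subgroup.map_comap_eq_self_of_surjective hsurj,
              Subgroup.map_comap_eq_self_of_surjective hsurj] at this
            exact hK.ne this
          have h2 := hM.2 _ h1
          have := congrArg (Subgroup.map (QuotientGroup.mk' Z)) h2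
          rwa [Subgroup.map_comap_eq_self_of_surjective hsurj,
            Subgroup.map_top_of_surjective _ hsurj] at this
      have := ih _ hcard (G ⧸ Z) rfl (Lib.Helper4.ss_quotient hG Z) _ hco
      rwa [Subgroup.index_map, QuotientGroup.ker_mk', sup_eq_left.mpr hZM,
        MonoidHom.range_eq_top.mpr hsurj, Subgroup.index_top, mul_one] at this
    · have hsup : Z ⊔ M = ⊤ := by
        apply hM.2
        exact lt_of_le_of_ne le_sup_right (fun h => hZM (h ▸ le_sup_left))
      have hinf : Disjoint Z M := by
        rw [disjoint_iff]
        have h1 : Nat.card (Z ⊓ M : Subgroup G) ∣ Nat.card Z := Subgroup.card_dvd_of_le inf_le_left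
        rcases (Nat.dvd_prime hZp).mp h1 with h2 | h2
        · exact Subgroup.card_eq_one.mp h2
        · exfalso
          apply hZM
          have : Z ⊓ M = Z := Subgroup.eq_of_le_of_card_ge inf_le_left h2.ge
          exact this ▸ inf_le_right
      have hc : Subgroup.IsComplement' Z M := by
        apply Subgroup.isComplement'_of_disjoint_and_mul_eq_univ hinf
        rw [← Subgroup.normal_mul, hsup]; rfl
      rw [hc.index_eq_card]
      exact hZp

/-- In a finite supersolvable group the index of any maximal subgroup is a prime number. -/
theorem result {G : Type*} [Group G] [Finite G] (hG : Cfsg.IsSupersolvable G) (M : Subgroup G) (hM : IsCoatom M) : M.index.Prime := by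
  exact aux _ G rfl hG M hM

end Cfsg.Agent.S0527
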