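import Cfsg.Statements.S0528
import Mathlib
import Cfsg.Agent.Lib.Helper4.Supersolvable

set_option autoImplicit false
open Cfsg

namespace Cfsg.Agent.S0528

/-- An extension of a cyclic normal subgroup by a supersolvable group is supersolvable: if N is a cyclic normal subgroup of a finite group G and G modulo N is supersolvable, then G is supersolvable. -/
theorem result {G : Type*} [Group G] [Finite G] (N : Subgroup G) [N.Normal] [IsCyclic N] (h : Cfsg.IsSupersolvable (G ⧸ N)) : Cfsg.IsSupersolvable G := by
  rw [Lib.Helper4.isSupersolvable_iff] at h ⊢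
  have h2 := Lib.Helper4.CycChain.comap (QuotientGroup.mk' N) h
  rw [Subgroup.comap_top, MonoidHom.comap_bot, QuotientGroup.ker_mk'] at h2
  obtain ⟨g, hg⟩ := (Subgroup.isCyclic_iff_exists_zpowers_eq_top N).mp inferInstance
  exact Lib.Helper4.CycChain.step ⊥ N ⊤ g inferInstance (by rw [bot_sup_eq, hg]) h2

end Cfsg.Agent.S0528
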