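import Cfsg.Statements.S0531
import Mathlib
import Cfsg.Agent.Lib.Helper4.Supersolvable2

set_option autoImplicit false
open Cfsg

namespace Cfsg.Agent.S0531

universe u

theorem aux : ∀ (n : ℕ) (G : Type u) [Group G] [Finite G], Nat.card G = n →
    Cfsg.IsSupersolvable G → Cfsg.HasSubgroupOfEveryOrder G := by
  intro n
  induction n using Nat.strong_induction_on with
  | _ n ih =>
    intro G _ _ hn hG d hd
    by_cases htop : (⊤ : Subgroup G) = ⊥
    · have h1 : Nat.card G = 1 := by
        rw [← Subgroup.card_top (G := G), htop]; simp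
      rw [h1] at hd
      exact ⟨⊥, by simp [Nat.dvd_one.mp hd]⟩
    obtain ⟨Z, -, hZn, hZp⟩ := Lib.Helper4.exists_normal_prime hG ⊤ htop
    set p := Nat.card Z with hp
    have h1 : Nat.card G = Nat.card (G ⧸ Z) * p := Subgroup.card_eq_card_quotient_mul_card_subgroup Z
    have hcard : Nat.card (G ⧸ Z) < n := by
      rw [hn] at h1
      have h2 := hZp.two_le
      have h3 : 0 < Nat.card (G ⧸ Z) := Nat.card_pos
      rw [h1]
      nlinarith
    have hQ := ih _ hcard (G ⧸ Z) rfl (Lib.Helper4.ss_quotient hG Z)
    have hsurj := QuotientGroup.mk'_surjective Z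
    have hcomap : ∀ K : Subgroup (G ⧸ Z), Nat.card (K.comap (QuotientGroup.mk' Z)) = Nat.card K * p := by
      intro K
      have e1 := Subgroup.card_mul_index (K.comap (QuotientGroup.mk' Z))
      rw [Subgroup.index_comap_of_surjective K hsurj] at e1
      have e2 := Subgroup.card_mul_index K
      have e3 : 0 < K.index := Nat.pos_of_ne_zero (Subgroup.index_ne_zero_of_finite)
      have : Nat.card (K.comap (QuotientGroup.mk' Z)) * K.index = (Nat.card K * p) * K.index := by
        rw [e1, h1, ← e2]; ring
      exact Nat.eq_of_mul_eq_mul_right e3 this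
    by_cases hpd : p ∣ d
    · obtain ⟨d', rfl⟩ := hpd
      have hd' : d' ∣ Nat.card (G ⧸ Z) := by
        rw [h1, mul_comm p d'] at hd
        exact Nat.dvd_of_mul_dvd_mul_right hZp.pos hd
      obtain ⟨K, hK⟩ := hQ d' hd'
      exact ⟨K.comap (QuotientGroup.mk' Z), by rw [hcomap, hK, mul_comm]⟩
    · have hcop : Nat.Coprime d p := ((Nat.Prime.coprime_iff_not_dvd hZp).mpr hpd).symm
      have hd' : d ∣ Nat.card (G ⧸ Z) := by
        rw [h1] at hd
        exact hcop.dvd_of_dvd_mul_right hd
      obtain ⟨K, hK⟩ := hQ d hd'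
      set H := K.comap (QuotientGroup.mk' Z) with hH
      have hZH : Z ≤ H := by
        rw [hH]
        conv_lhs => rw [← QuotientGroup.ker_mk' Z]
        exact Subgroup.ker_le_comap _ K
      have hcZ : Nat.card (Z.subgroupOf H) = p := by
        rw [hp]
        exact Nat.card_congr (Subgroup.subgroupOfEquivOfLe hZH).toEquiv
      have hidx : (Z.subgroupOf H).index = d := by
        have e1 := Subgroup.card_mul_index (Z.subgroupOf H)
        rw [hcZ, hcomap, hK, mul_comm] at e1
        exact Nat.eq_of_mul_eq_mul_right hZp.pos e1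
      obtain ⟨L, hL⟩ := Subgroup.exists_right_complement'_of_coprime (N := Z.subgroupOf H)
        (by rw [hcZ, hidx]; exact hcop.symm)
      refine ⟨L.map H.subtype, ?_⟩
      rw [Subgroup.card_map_of_injective H.subtype_injective, ← hL.symm.index_eq_card, hidx]

/-- A finite supersolvable group has a subgroup of each order dividing its order. -/
theorem result {G : Type*} [Group G] [Finite G] (hG : Cfsg.IsSupersolvable G) : Cfsg.HasSubgroupOfEveryOrder G := by
  exact aux _ G rfl hG

end Cfsg.Agent.S0531
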