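import Cfsg.Statements.S0532
import Mathlib

set_option autoImplicit false
open Cfsg

namespace Cfsg.Agent.S0532

universe u

theorem clt_of_equiv {G H : Type u} [Group G] [Group H] (e : G ≃* H)
    (h : Cfsg.HasSubgroupOfEveryOrder G) : Cfsg.HasSubgroupOfEveryOrder H := by
  intro d hd
  rw [← Nat.card_congr e.toEquiv] at hd
  obtain ⟨K, hK⟩ := h d hd
  exact ⟨K.map e.toMonoidHom, by rw [Subgroup.card_map_of_injective e.injective, hK]⟩

theorem aux : ∀ (n : ℕ) (G : Type u) [Group G] [Finite G], Nat.card G = n →
    (∀ H : Subgroup G, Cfsg.HasSubgroupOfEveryOrder H) → ∀ (p : ℕ) [Fact p.Prime],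
    p ∣ Nat.card G → (∀ q : ℕ, q.Prime → q ∣ Nat.card G → q ≤ p) →
    ∀ P : Sylow p G, (P : Subgroup G).Normal := by
  intro n
  induction n using Nat.strong_induction_on with
  | _ n ih =>
    intro G _ _ hn h p hp hdvd hmax P
    have hp' : p.Prime := hp.out
    have hn1 : Nat.card G ≠ 1 := by
      intro h1; rw [h1] at hdvd; exact hp'.one_lt.ne' (Nat.dvd_one.mp hdvd)
    set r := (Nat.card G).minFac with hr
    have hrp : r.Prime := Nat.minFac_prime hn1
    have hrd : r ∣ Nat.card G := Nat.minFac_dvd _
    by_cases hrp' : r = p
    · -- G is a p-group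
      have hpg : IsPGroup p G := by
        have : Nat.card G = p ^ (Nat.card G).primeFactorsList.length := by
          apply Nat.eq_prime_pow_of_unique_prime_dvd Nat.card_pos.ne'
          intro q hq hqd
          apply le_antisymm (hmax q hq hqd)
          rw [← hrp']
          exact Nat.minFac_le_of_dvd hq.two_le hqd
        exact IsPGroup.of_card this
      have htop : IsPGroup p (⊤ : Subgroup G) := hpg.to_subgroup _
      have := P.3 htop le_top
      rw [← this]
      infer_instance
    · -- a normal subgroup of index r
      have hG := clt_of_equiv Subgroup.topEquiv (h ⊤)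
      obtain ⟨M, hM⟩ := hG (Nat.card G / r) (Nat.div_dvd_of_dvd hrd)
      have hidx : M.index = r := by
        have e1 := Subgroup.card_mul_index M
        rw [hM] at e1
        have e2 : Nat.card G / r * r = Nat.card G := Nat.div_mul_cancel hrd
        have e3 : 0 < Nat.card G / r := Nat.div_pos (Nat.le_of_dvd Nat.card_pos hrd) hrp.pos
        exact Nat.eq_of_mul_eq_mul_left e3 (e1.trans e2.symm)
      have hMn : M.Normal := Subgroup.normal_of_index_eq_minFac_card hidx
      have hcardM : Nat.card M * r = Nat.card G := by rw [← hidx]; exact Subgroup.card_mul_index M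
      have hlt : Nat.card M < n := by
        rw [← hn, ← hcardM]
        have := hrp.two_le
        have h3 : 0 < Nat.card M := Nat.card_pos
        nlinarith
      have hpM : p ∣ Nat.card M := by
        rw [← hcardM] at hdvd
        rcases (Nat.Prime.dvd_mul hp').mp hdvd with h1 | h1
        · exact h1
        · exact absurd ((Nat.prime_dvd_prime_iff_eq hp' hrp).mp h1).symm hrp'
      have hMh : ∀ H : Subgroup M, Cfsg.HasSubgroupOfEveryOrder H := by
        intro H
        exact clt_of_equiv (H.equivMapOfInjective M.subtype M.subtype_injective).symm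
          (h (H.map M.subtype))
      obtain ⟨Q⟩ : Nonempty (Sylow p M) := inferInstance
      have hQn : (Q : Subgroup M).Normal := ih _ hlt M rfl hMh p hpM
        (fun q hq hqd => hmax q hq (hqd.trans (Dvd.intro _ hcardM))) Q
      have hQc : (Q : Subgroup M).Characteristic := Q.characteristic_of_normal hQn
      have hQ'n : ((Q : Subgroup M).map M.subtype).Normal :=
        ConjAct.normal_of_characteristic_of_normal
      have hQ'p : IsPGroup p ((Q : Subgroup M).map M.subtype) := Q.2.map _
      have hQ'i : ¬ p ∣ ((Q : Subgroup M).map M.subtype).index := by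
        rw [Subgroup.index_map_subtype, hidx]
        intro hd
        rcases (Nat.Prime.dvd_mul hp').mp hd with h1 | h1
        · exact Q.not_dvd_index h1
        · exact absurd ((Nat.prime_dvd_prime_iff_eq hp' hrp).mp h1).symm hrp'
      set Q' : Sylow p G := hQ'p.toSylow hQ'i with hQ'
      have hQ'' : (Q' : Subgroup G).Normal := hQ'n
      obtain ⟨g, hg⟩ := MulAction.exists_smul_eq G Q' P
      rw [Sylow.smul_eq_of_normal] at hg
      rw [← hg]
      exact hQ''

/-- If each subgroup of a finite group satisfies the converse of Lagrange's theorem, then a Sylow subgroup for the largest prime dividing the group order is normal. -/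
theorem result {G : Type*} [Group G] [Finite G] (h : ∀ H : Subgroup G, Cfsg.HasSubgroupOfEveryOrder H) (p : ℕ) [Fact p.Prime] (hdvd : p ∣ Nat.card G) (hmax : ∀ q : ℕ, q.Prime → q ∣ Nat.card G → q ≤ p) (P : Sylow p G) : (P : Subgroup G).Normal := by
  exact aux _ G rfl h p hdvd hmax P

end Cfsg.Agent.S0532
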