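import Cfsg.Statements.S0529
import Mathlib
import Cfsg.Agent.Lib.Helper4.Supersolvable3
import Cfsg.Agent.S0531
import Cfsg.Agent.S0532

set_option autoImplicit false
open Cfsg

namespace Cfsg.Agent.S0529

universe u

/-- chains of normal subgroups from `A` to `⊤` with prime steps, non-increasing, bounded by `b`. -/
inductive PChain {G : Type u} [Group G] : ℕ → Subgroup G → Prop
  | top (b : ℕ) : PChain b ⊤
  | step (b : ℕ) (A B : Subgroup G) : A.Normal → A ≤ B → (A.relIndex B).Prime → A.relIndex B ≤ b →
      PChain (A.relIndex B) B → PChain b A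

theorem PChain.comap {G H : Type u} [Group G] [Group H] (f : G →* H) (hf : Function.Surjective f)
    {b : ℕ} {A : Subgroup H} (h : PChain b A) : PChain b (A.comap f) := by
  induction h with
  | top b => rw [Subgroup.comap_top]; exact PChain.top b
  | step b A B hA hAB hp hb _ ih =>
    have e : (A.comap f).relIndex (B.comap f) = A.relIndex B := by
      rw [Subgroup.relIndex_comap, Subgroup.map_comap_eq_self_of_surjective hf]
    refine PChain.step b _ (B.comap f) (hA.comap f) (Subgroup.comap_mono hAB) ?_ ?_ ?_
    · rw [e]; exact hp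
    · rw [e]; exact hb
    · rw [e]; exact ih

theorem PChain.toFin {G : Type u} [Group G] {b : ℕ} {A : Subgroup G} (h : PChain b A) :
    ∃ (n : ℕ) (H : Fin (n + 1) → Subgroup G), H 0 = A ∧ H (Fin.last n) = ⊤ ∧ (∀ i, (H i).Normal) ∧
      (∀ i : Fin n, H i.castSucc ≤ H i.succ ∧ ((H i.castSucc).relIndex (H i.succ)).Prime) ∧
      (∀ i j : Fin n, i ≤ j → (H j.castSucc).relIndex (H j.succ) ≤ (H i.castSucc).relIndex (H i.succ)) ∧
      (∀ i : Fin n, (H i.castSucc).relIndex (H i.succ) ≤ b) := by
  induction h with
  | top b => exact ⟨0, fun _ => ⊤, rfl, rfl, fun _ => inferInstance, fun i => i.elim0,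
      fun i => i.elim0, fun i => i.elim0⟩
  | step b A B hA hAB hp hb _ ih =>
    obtain ⟨n, H, h0, hn, hnorm, hstep, hmono, hbd⟩ := ih
    have e0 : ((Fin.cons A H : Fin (n + 2) → Subgroup G) (Fin.castSucc 0)) = A := by
      rw [Fin.castSucc_zero, Fin.cons_zero]
    have e1 : ((Fin.cons A H : Fin (n + 2) → Subgroup G) (Fin.succ 0)) = B := by
      rw [Fin.cons_succ, h0]
    have es : ∀ j : Fin n, ((Fin.cons A H : Fin (n + 2) → Subgroup G) (Fin.castSucc j.succ)) = H j.castSucc := by
      intro j
      rw [← Fin.succ_castSucc, Fin.cons_succ]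
    have es' : ∀ j : Fin n, ((Fin.cons A H : Fin (n + 2) → Subgroup G) (Fin.succ j.succ)) = H j.succ := by
      intro j
      rw [Fin.cons_succ]
    refine ⟨n + 1, Fin.cons A H, rfl, ?_, ?_, ?_, ?_, ?_⟩
    · rw [← Fin.succ_last, Fin.cons_succ]; exact hn
    · intro i
      induction i using Fin.cases with
      | zero => exact hA
      | succ j => rw [Fin.cons_succ]; exact hnorm j
    · intro i
      induction i using Fin.cases with
      | zero => rw [e0, e1]; exact ⟨hAB, hp⟩
      | succ j => rw [es, es']; exact hstep j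
    · intro i j hij
      induction i using Fin.cases with
      | zero =>
        induction j using Fin.cases with
        | zero => exact le_rfl
        | succ j => rw [e0, e1, es, es']; exact hbd j
      | succ i =>
        induction j using Fin.cases with
        | zero => exact absurd hij (by simp [Fin.le_def])
        | succ j =>
          rw [es, es', es, es']
          exact hmono i j (Fin.succ_le_succ_iff.mp hij)
    · intro i
      induction i using Fin.cases with
      | zero => rw [e0, e1]; exact hb
      | succ j => rw [es, es']; exact (hbd j).trans hb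

theorem aux : ∀ (n : ℕ) (G : Type u) [Group G] [Finite G], Nat.card G = n →
    Cfsg.IsSupersolvable G → ∀ b : ℕ, (∀ q : ℕ, q.Prime → q ∣ Nat.card G → q ≤ b) →
    PChain b (⊥ : Subgroup G) := by
  intro n
  induction n using Nat.strong_induction_on with
  | _ n ih =>
    intro G _ _ hn hG b hb
    by_cases h1 : Nat.card G = 1
    · have : (⊥ : Subgroup G) = ⊤ := by
        have := (Nat.card_eq_one_iff_unique.mp h1).1
        exact Subsingleton.elim _ _
      rw [this]; exact PChain.top b
    -- the largest prime divisor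
    have hne : (Nat.card G).primeFactors.Nonempty := by
      rw [Nat.nonempty_primeFactors]
      have : 0 < Nat.card G := Nat.card_pos
      omega
    set p := (Nat.card G).primeFactors.max' hne with hp
    have hpmem : p ∈ (Nat.card G).primeFactors := Finset.max'_mem _ _
    have hpp : p.Prime := Nat.prime_of_mem_primeFactors hpmem
    have hpd : p ∣ Nat.card G := Nat.dvd_of_mem_primeFactors hpmem
    have hmax : ∀ q : ℕ, q.Prime → q ∣ Nat.card G → q ≤ p := by
      intro q hq hqd
      exact Finset.le_max' _ _ (Nat.mem_primeFactors.mpr ⟨hq, hqd, Nat.card_pos.ne'⟩)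
    have : Fact p.Prime := ⟨hpp⟩
    obtain ⟨P⟩ : Nonempty (Sylow p G) := inferInstance
    have hPn : (P : Subgroup G).Normal :=
      S0532.result (fun H => S0531.result (Lib.Helper4.ss_subgroup hG H)) p hpd hmax P
    have hPne : (P : Subgroup G) ≠ ⊥ := P.ne_bot_of_dvd_card hpd
    obtain ⟨Z, hZP, hZn, hZp⟩ := Lib.Helper4.exists_normal_prime hG (P : Subgroup G) hPne
    have hZcard : Nat.card Z = p := by
      have h2 : Nat.card Z ∣ Nat.card (P : Subgroup G) := Subgroup.card_dvd_of_le hZP
      obtain ⟨k, hk⟩ := (IsPGroup.iff_card.mp P.2)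
      rw [hk] at h2
      exact (Nat.prime_dvd_prime_iff_eq hZp hpp).mp (hZp.dvd_of_dvd_pow h2)
    have hlt : Nat.card (G ⧸ Z) < n := by
      rw [← hn]; exact Lib.Helper4.card_quotient_lt Z hZp.two_le
    have hQ := ih _ hlt (G ⧸ Z) rfl (Lib.Helper4.ss_quotient hG Z) p (by
      intro q hq hqd
      apply hmax q hq
      rw [Subgroup.card_eq_card_quotient_mul_card_subgroup Z]
      exact Dvd.dvd.mul_right hqd _)
    have hQ' := hQ.comap (QuotientGroup.mk' Z) (QuotientGroup.mk'_surjective Z)
    rw [MonoidHom.comap_bot, QuotientGroup.ker_mk'] at hQ'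
    have e : (⊥ : Subgroup G).relIndex Z = p := by rw [Subgroup.relIndex_bot_left, hZcard]
    refine PChain.step b ⊥ Z inferInstance bot_le ?_ ?_ ?_
    · rw [e]; exact hpp
    · rw [e]; exact hb p hpp hpd
    · rw [e]; exact hQ'

/-- A finite supersolvable group has a chain of normal subgroups, from the trivial subgroup to the whole group, in which every step has prime index and the primes occurring are non-increasing as one goes up the chain. -/
theorem result {G : Type*} [Group G] [Finite G] (hG : Cfsg.IsSupersolvable G) : ∃ (n : ℕ) (H : Fin (n + 1) → Subgroup G), H 0 = ⊥ ∧ H (Fin.last n) = ⊤ ∧ (∀ i, (H i).Normal) ∧ (∀ i : Fin n, H i.castSucc ≤ H i.succ ∧ ((H i.castSucc).relIndex (H i.succ)).Prime) ∧ ∀ i j : Fin n, i ≤ j → (H j.castSucc).relIndex (H j.succ) ≤ (H i.castSucc).relIndex (H i.succ) := by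
  obtain ⟨n, H, h0, hn, hnorm, hstep, hmono, -⟩ :=
    (aux _ G rfl hG (Nat.card G) (fun q _ hqd => Nat.le_of_dvd Nat.card_pos hqd)).toFin
  exact ⟨n, H, h0, hn, hnorm, hstep, hmono⟩

end Cfsg.Agent.S0529
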