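import Cfsg.Statements.S0530
import Mathlib
import Cfsg.Agent.Lib.Helper4.Supersolvable3

set_option autoImplicit false
open Cfsg

namespace Cfsg.Agent.S0530

universe u

open Subgroup in
theorem normal_zpowers {G : Type u} [Group G] (P : Subgroup G) (hidx : P.index = 2) (t : G)
    (ht : t ∉ P) (v : G) (hv : ∀ u ∈ P, u * v = v * u) (htv : t * v * t⁻¹ ∈ zpowers v) :
    (zpowers v).Normal := by
  have key : ∀ g : G, g * v * g⁻¹ ∈ zpowers v := by
    intro g
    by_cases hg : g ∈ P
    · have : g * v * g⁻¹ = v := by rw [hv g hg]; group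
      rw [this]; exact mem_zpowers v
    · have hu : t⁻¹ * g ∈ P := by
        rw [mul_mem_iff_of_index_two hidx, inv_mem_iff]
        exact ⟨fun h => absurd h ht, fun h => absurd h hg⟩
      have : g * v * g⁻¹ = t * ((t⁻¹ * g) * v * (t⁻¹ * g)⁻¹) * t⁻¹ := by group
      rw [this, hv _ hu, mul_inv_cancel_right]
      exact htv
  constructor
  intro x hx g
  obtain ⟨k, rfl⟩ := mem_zpowers_iff.mp hx
  rw [← conj_zpow]
  exact zpow_mem (key g) k

theorem aux (p : ℕ) (hp : p.Prime) (hp2 : p ≠ 2) : ∀ (n : ℕ) (G : Type u) [Group G] [Finite G],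
    Nat.card G = 2 * p ^ n → Cfsg.IsSupersolvable G := by
  intro n
  induction n with
  | zero =>
    intro G _ _ hG
    have : Fact (Nat.Prime 2) := ⟨Nat.prime_two⟩
    have := isCyclic_of_prime_card (α := G) (p := 2) (by simpa using hG)
    exact Lib.Helper4.ss_of_cyclic
  | succ n ih =>
    intro G _ _ hG
    have : Fact p.Prime := ⟨hp⟩
    obtain ⟨P⟩ : Nonempty (Sylow p G) := inferInstance
    have hcardP : Nat.card P = p ^ (n + 1) := by
      rw [P.card_eq_multiplicity, hG, Nat.factorization_mul (by norm_num) (pow_ne_zero _ hp.ne_zero),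
        hp.factorization_pow]
      have : (Nat.factorization 2) p = 0 := by
        apply Nat.factorization_eq_zero_of_not_dvd
        intro h
        exact hp2 ((Nat.prime_dvd_prime_iff_eq hp Nat.prime_two).mp h)
      simp [this]
    have hidx : (P : Subgroup G).index = 2 := by
      have e1 := Subgroup.card_mul_index (P : Subgroup G)
      rw [hG] at e1
      have e2 : Nat.card (P : Subgroup G) = p ^ (n + 1) := hcardP
      rw [e2, mul_comm] at e1
      exact Nat.eq_of_mul_eq_mul_right (pow_pos hp.pos _) e1
    have hPn : (P : Subgroup G).Normal := Subgroup.normal_of_index_eq_two hidx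
    have hnt : Nontrivial (P : Subgroup G) := by
      apply Finite.one_lt_card_iff_nontrivial.mp
      have e2 : Nat.card (P : Subgroup G) = p ^ (n + 1) := hcardP
      rw [e2]
      exact Nat.one_lt_pow (by omega) hp.one_lt
    have := P.2.center_nontrivial
    have hc : IsPGroup p (Subgroup.center (P : Subgroup G)) := P.2.to_subgroup _
    have h2 : p ∣ Nat.card (Subgroup.center (P : Subgroup G)) := by
      rcases hc.card_eq_or_dvd with h1 | h1
      · exact absurd (Finite.one_lt_card (α := Subgroup.center (P : Subgroup G))) (by omega)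
      · exact h1
    obtain ⟨x, hxP, hxo, hxc⟩ : ∃ x : G, x ∈ (P : Subgroup G) ∧ orderOf x = p ∧
        ∀ u ∈ (P : Subgroup G), u * x = x * u := by
      obtain ⟨z, hz⟩ := exists_prime_orderOf_dvd_card' p h2
      refine ⟨((z : (P : Subgroup G)) : G), (z : (P : Subgroup G)).2, ?_, ?_⟩
      · rw [Subgroup.orderOf_coe, Subgroup.orderOf_coe]; exact hz
      · intro u hu
        have := Subgroup.mem_center_iff.mp z.2 ⟨u, hu⟩
        exact congrArg Subtype.val this
    obtain ⟨t, ht⟩ : ∃ t : G, t ∉ (P : Subgroup G) := by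
      by_contra hcon
      push Not at hcon
      have : (P : Subgroup G) = ⊤ := (Subgroup.eq_top_iff' _).mpr hcon
      rw [this, Subgroup.index_top] at hidx
      omega
    obtain ⟨y, hy⟩ : ∃ y : G, y = t * x * t⁻¹ := ⟨_, rfl⟩
    have hyP : y ∈ (P : Subgroup G) := hy ▸ hPn.conj_mem x hxP t
    have hyc : ∀ u ∈ (P : Subgroup G), u * y = y * u := by
      intro u hu
      have h1 : t⁻¹ * u * t ∈ (P : Subgroup G) := by
        have := hPn.conj_mem u hu t⁻¹
        simpa using this
      have h3 := hxc _ h1
      calc u * y = t * ((t⁻¹ * u * t) * x) * t⁻¹ := by rw [hy]; group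
        _ = t * (x * (t⁻¹ * u * t)) * t⁻¹ := by rw [h3]
        _ = y * u := by rw [hy]; group
    have htt : t * t ∈ (P : Subgroup G) := by
      rw [Subgroup.mul_mem_iff_of_index_two hidx]
    have hty : t * y * t⁻¹ = x := by
      have h3 := hxc _ htt
      calc t * y * t⁻¹ = ((t * t) * x) * (t * t)⁻¹ := by rw [hy]; group
        _ = x := by rw [h3]; group
    have hxy : x * y = y * x := hyc x hxP
    obtain ⟨v, hvo, hvn⟩ : ∃ v : G, orderOf v = p ∧ (Subgroup.zpowers v).Normal := by
      by_cases hw : x * y = 1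
      · refine ⟨x, hxo, normal_zpowers (P : Subgroup G) hidx t ht x hxc ?_⟩
        have : t * x * t⁻¹ = x⁻¹ := by
          rw [← hy]; exact (inv_eq_of_mul_eq_one_right hw).symm
        rw [this]
        exact inv_mem (Subgroup.mem_zpowers x)
      · refine ⟨x * y, ?_, normal_zpowers (P : Subgroup G) hidx t ht (x * y) ?_ ?_⟩
        · apply orderOf_eq_prime _ hw
          have hcomm : Commute x y := hxy
          rw [hcomm.mul_pow]
          have h1 : x ^ p = 1 := by rw [← hxo]; exact pow_orderOf_eq_one x
          have h3 : y ^ p = 1 := by rw [hy, conj_pow, h1]; group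
          rw [h1, h3, one_mul]
        · intro u hu
          rw [← mul_assoc, hxc u hu, mul_assoc, hyc u hu, mul_assoc]
        · have : t * (x * y) * t⁻¹ = (t * x * t⁻¹) * (t * y * t⁻¹) := by group
          rw [this, hty, ← hy, ← hxy]
          exact Subgroup.mem_zpowers _
    have hcv : Nat.card (Subgroup.zpowers v) = p := by rw [Nat.card_zpowers, hvo]
    have hq : Nat.card (G ⧸ Subgroup.zpowers v) = 2 * p ^ n := by
      have h1 := Subgroup.card_eq_card_quotient_mul_card_subgroup (Subgroup.zpowers v)
      rw [hG, hcv, pow_succ, ← mul_assoc] at h1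
      exact (Nat.eq_of_mul_eq_mul_right hp.pos h1).symm
    exact Lib.Helper4.ss_of_quotient_cyclic (Subgroup.zpowers v) (ih _ hq)

/-- A finite group whose order is twice a prime power is supersolvable. -/
theorem result {G : Type*} [Group G] [Finite G] (p n : ℕ) (hp : p.Prime) (hG : Nat.card G = 2 * p ^ n) : Cfsg.IsSupersolvable G := by
  by_cases hp2 : p = 2
  · subst hp2
    have : Fact (Nat.Prime 2) := ⟨Nat.prime_two⟩
    apply Lib.Helper4.ss_of_pgroup _ G 2 rfl
    apply IsPGroup.of_card (n := n + 1)
    rw [hG, pow_succ, mul_comm]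
  · exact aux p hp hp2 n G hG

end Cfsg.Agent.S0530
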