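import Cfsg.Statements.S0533
import Mathlib
import Cfsg.Agent.Lib.Helper4.Supersolvable3
import Cfsg.Agent.S0532

set_option autoImplicit false
open Cfsg

namespace Cfsg.Agent.S0533

universe u

theorem card_comap_mk {G : Type u} [Group G] [Finite G] (Z : Subgroup G) [Z.Normal]
    (K : Subgroup (G ⧸ Z)) :
    Nat.card (K.comap (QuotientGroup.mk' Z)) = Nat.card K * Nat.card Z := by
  have hsurj := QuotientGroup.mk'_surjective Z
  have h1 : Nat.card G = Nat.card (G ⧸ Z) * Nat.card Z :=
    Subgroup.card_eq_card_quotient_mul_card_subgroup Z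
  have e1 := Subgroup.card_mul_index (K.comap (QuotientGroup.mk' Z))
  rw [Subgroup.index_comap_of_surjective K hsurj] at e1
  have e2 := Subgroup.card_mul_index K
  have e3 : 0 < K.index := Nat.pos_of_ne_zero (Subgroup.index_ne_zero_of_finite)
  have : Nat.card (K.comap (QuotientGroup.mk' Z)) * K.index = (Nat.card K * Nat.card Z) * K.index := by
    rw [e1, h1, ← e2]; ring
  exact Nat.eq_of_mul_eq_mul_right e3 this

/-- subgroups of a subgroup, transported. -/
theorem exists_le_card {G : Type u} [Group G] (h : ∀ H : Subgroup G, Cfsg.HasSubgroupOfEveryOrder H)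
    (H : Subgroup G) (d : ℕ) (hd : d ∣ Nat.card H) : ∃ L : Subgroup G, L ≤ H ∧ Nat.card L = d := by
  obtain ⟨L0, hL0⟩ := h H d hd
  refine ⟨L0.map H.subtype, ?_, ?_⟩
  · exact Subgroup.map_subtype_le L0
  · rw [Subgroup.card_map_of_injective H.subtype_injective, hL0]

theorem clt_quotient {G : Type u} [Group G] [Finite G]
    (h : ∀ H : Subgroup G, Cfsg.HasSubgroupOfEveryOrder H) (N : Subgroup G) [N.Normal]
    (hN : (Nat.card N).Prime) : ∀ H' : Subgroup (G ⧸ N), Cfsg.HasSubgroupOfEveryOrder H' := by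
  intro H' d hd
  have hsurj := QuotientGroup.mk'_surjective N
  set H := H'.comap (QuotientGroup.mk' N) with hH
  have hcH : Nat.card H = Nat.card H' * Nat.card N := card_comap_mk N H'
  -- it suffices to find T ≤ H whose image has order d
  suffices hT : ∃ T : Subgroup G, T ≤ H ∧ Nat.card (T.map (QuotientGroup.mk' N)) = d by
    obtain ⟨T, hTH, hTd⟩ := hT
    have hle : T.map (QuotientGroup.mk' N) ≤ H' := by
      rw [Subgroup.map_le_iff_le_comap]; exact hTH
    refine ⟨(T.map (QuotientGroup.mk' N)).subgroupOf H', ?_⟩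
    rw [← hTd]
    exact Nat.card_congr (Subgroup.subgroupOfEquivOfLe hle).toEquiv
  obtain ⟨L, hLH, hLd⟩ := exists_le_card h H (d * Nat.card N) (by rw [hcH]; exact Nat.mul_dvd_mul_right hd _)
  by_cases hNL : N ≤ L
  · refine ⟨L, hLH, ?_⟩
    have e1 := card_comap_mk N (L.map (QuotientGroup.mk' N))
    rw [Subgroup.comap_map_eq, QuotientGroup.ker_mk', sup_eq_left.mpr hNL, hLd] at e1
    exact (Nat.eq_of_mul_eq_mul_right hN.pos e1).symm
  · have hdisj : L ⊓ N = ⊥ := by
      have h1 : Nat.card (L ⊓ N : Subgroup G) ∣ Nat.card N := Subgroup.card_dvd_of_le inf_le_right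
      rcases (Nat.dvd_prime hN).mp h1 with h2 | h2
      · exact Subgroup.card_eq_one.mp h2
      · exfalso
        apply hNL
        have : L ⊓ N = N := Subgroup.eq_of_le_of_card_ge inf_le_right h2.ge
        exact this ▸ inf_le_left
    obtain ⟨T, hTL, hTd⟩ := exists_le_card h L d (by rw [hLd]; exact Dvd.intro _ rfl)
    refine ⟨T, hTL.trans hLH, ?_⟩
    rw [← hTd]
    symm
    apply Nat.card_congr
    refine Equiv.ofBijective ((QuotientGroup.mk' N).subgroupMap T) ⟨?_, (QuotientGroup.mk' N).subgroupMap_surjective T⟩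
    rw [injective_iff_map_eq_one]
    intro a ha
    have h1 : (QuotientGroup.mk' N) (a : G) = 1 := congrArg Subtype.val ha
    have h2 : (a : G) ∈ N := (QuotientGroup.eq_one_iff _).mp h1
    have h3 : (a : G) ∈ L ⊓ N := ⟨hTL a.2, h2⟩
    rw [hdisj, Subgroup.mem_bot] at h3
    exact Subtype.ext h3

theorem exists_normal_prime_card : ∀ (n : ℕ),
    (∀ m < n, ∀ (G : Type u) [Group G] [Finite G], Nat.card G = m →
      (∀ H : Subgroup G, Cfsg.HasSubgroupOfEveryOrder H) → Cfsg.IsSupersolvable G) →
    ∀ (G : Type u) [Group G] [Finite G], Nat.card G = n → Nat.card G ≠ 1 →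
    (∀ H : Subgroup G, Cfsg.HasSubgroupOfEveryOrder H) →
    ∃ N : Subgroup G, N.Normal ∧ (Nat.card N).Prime := by
  intro n ih G _ _ hn h1 h
  have hne : (Nat.card G).primeFactors.Nonempty := by
    rw [Nat.nonempty_primeFactors]
    have : 0 < Nat.card G := Nat.card_pos
    omega
  obtain ⟨q, hq⟩ : ∃ q, q = (Nat.card G).primeFactors.max' hne := ⟨_, rfl⟩
  have hqmem : q ∈ (Nat.card G).primeFactors := hq ▸ Finset.max'_mem _ _
  have hqp : q.Prime := Nat.prime_of_mem_primeFactors hqmem
  have hqd : q ∣ Nat.card G := Nat.dvd_of_mem_primeFactors hqmem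
  have hmax : ∀ r : ℕ, r.Prime → r ∣ Nat.card G → r ≤ q := by
    intro r hr hrd
    rw [hq]
    exact Finset.le_max' _ _ (Nat.mem_primeFactors.mpr ⟨hr, hrd, Nat.card_pos.ne'⟩)
  have : Fact q.Prime := ⟨hqp⟩
  obtain ⟨P⟩ : Nonempty (Sylow q G) := inferInstance
  have hPn : (P : Subgroup G).Normal := S0532.result h q hqd hmax P
  have hPne : (P : Subgroup G) ≠ ⊥ := P.ne_bot_of_dvd_card hqd
  obtain ⟨K, hK⟩ := Subgroup.exists_right_complement'_of_coprime (N := (P : Subgroup G)) P.card_coprime_index
  have hPK : (P : Subgroup G) ⊔ K = ⊤ := hK.sup_eq_top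
  have hKcard : Nat.card K = (P : Subgroup G).index := hK.symm.index_eq_card.symm
  -- the centre of P
  obtain ⟨C, hCdef⟩ : ∃ C : Subgroup G, C = (Subgroup.center (P : Subgroup G)).map (P : Subgroup G).subtype := ⟨_, rfl⟩
  have hCn : C.Normal := hCdef ▸ ConjAct.normal_of_characteristic_of_normal
  have hCP : C ≤ (P : Subgroup G) := hCdef ▸ Subgroup.map_subtype_le _
  have hCc : ∀ a ∈ (P : Subgroup G), ∀ c ∈ C, a * c = c * a := by
    intro a ha c hc
    rw [hCdef] at hc
    obtain ⟨z, hz, rfl⟩ := hc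
    have := Subgroup.mem_center_iff.mp hz ⟨a, ha⟩
    exact congrArg Subtype.val this
  have hCne : C ≠ ⊥ := by
    have hnt : Nontrivial (P : Subgroup G) := (Subgroup.nontrivial_iff_ne_bot _).mpr hPne
    have := P.2.center_nontrivial
    have h2 : Subgroup.center (P : Subgroup G) ≠ ⊥ := (Subgroup.nontrivial_iff_ne_bot _).mp this
    rw [hCdef]
    intro h3
    exact h2 ((Subgroup.map_eq_bot_iff_of_injective _ (P : Subgroup G).subtype_injective).mp h3)
  by_cases hX : C ⊔ K = ⊤
  · -- P is abelian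
    have hPC : ∀ x ∈ (P : Subgroup G), x ∈ C := by
      intro x hx
      have hx' : x ∈ ((C ⊔ K : Subgroup G) : Set G) := by rw [hX]; trivial
      rw [Subgroup.normal_mul] at hx'
      obtain ⟨c, hc, k, hk, rfl⟩ := hx'
      have hkP : k ∈ (P : Subgroup G) := by
        have : k = c⁻¹ * (c * k) := by group
        rw [this]
        exact mul_mem (inv_mem (hCP hc)) hx
      have : k ∈ (P : Subgroup G) ⊓ K := ⟨hkP, hk⟩
      rw [hK.disjoint.eq_bot, Subgroup.mem_bot] at this
      subst this
      simpa using hc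
    have hqP : q ∣ Nat.card (P : Subgroup G) := P.dvd_card_of_dvd_card hqd
    obtain ⟨L, -, hL⟩ := exists_le_card h ⊤ (q * Nat.card K) (by
      rw [Subgroup.card_top, ← Subgroup.card_mul_index (P : Subgroup G), hKcard]
      exact Nat.mul_dvd_mul_right hqP _)
    have hs : (P : Subgroup G).relIndex L ∣ Nat.card K := by
      rw [hKcard]; exact Subgroup.relIndex_dvd_index_of_normal _ _
    have hmul : Nat.card (L ⊓ (P : Subgroup G) : Subgroup G) * (P : Subgroup G).relIndex L = q * Nat.card K := by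
      rw [← hL, ← Subgroup.card_mul_index ((P : Subgroup G).subgroupOf L)]
      congr 1
      rw [inf_comm]
      exact Nat.card_congr (Subgroup.subgroupOfEquivOfLe (inf_le_right : (P : Subgroup G) ⊓ L ≤ L)).toEquiv.symm |>.trans
        (by rw [Subgroup.inf_subgroupOf_right])
    have hcop : Nat.Coprime (Nat.card (L ⊓ (P : Subgroup G) : Subgroup G)) (Nat.card K) := by
      rw [hKcard]
      exact Nat.Coprime.coprime_dvd_left (Subgroup.card_dvd_of_le inf_le_right) P.card_coprime_index
    have hKs : Nat.card K ∣ (P : Subgroup G).relIndex L := by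
      have : Nat.card K ∣ Nat.card (L ⊓ (P : Subgroup G) : Subgroup G) * (P : Subgroup G).relIndex L := by
        rw [hmul]; exact Dvd.intro_left _ rfl
      exact hcop.symm.dvd_of_dvd_mul_left this
    have hseq : (P : Subgroup G).relIndex L = Nat.card K := Nat.dvd_antisymm hs hKs
    have hNcard : Nat.card (L ⊓ (P : Subgroup G) : Subgroup G) = q := by
      rw [hseq] at hmul
      exact Nat.eq_of_mul_eq_mul_right Nat.card_pos hmul
    have hPL : (P : Subgroup G) ⊔ L = ⊤ := by
      have e1 : (P : Subgroup G).relIndex ((P : Subgroup G) ⊔ L) * ((P : Subgroup G) ⊔ L).index = (P : Subgroup G).index :=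
        Subgroup.relIndex_mul_index le_sup_left
      rw [sup_comm, Subgroup.relIndex_sup_right, hseq, hKcard] at e1
      have e2 : (L ⊔ (P : Subgroup G)).index = 1 := by
        have hpos : 0 < (P : Subgroup G).index := Nat.pos_of_ne_zero Subgroup.index_ne_zero_of_finite
        exact Nat.eq_of_mul_eq_mul_left hpos (by rw [e1, mul_one])
      rw [sup_comm]
      exact Subgroup.index_eq_one.mp e2
    refine ⟨L ⊓ (P : Subgroup G), ?_, by rw [hNcard]; exact hqp⟩
    apply Lib.Helper4.normal_of_decomp _ (P : Subgroup G) L hPL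
    · intro a ha n hn
      exact hCc a ha n (hPC n hn.2)
    · intro b hb n hn
      exact ⟨L.mul_mem (L.mul_mem hb hn.1) (L.inv_mem hb), hPn.conj_mem n hn.2 b⟩
  · -- X = C K is a proper subgroup, hence supersolvable
    obtain ⟨X, hXdef⟩ : ∃ X : Subgroup G, X = C ⊔ K := ⟨_, rfl⟩
    have hXlt : Nat.card X < n := by
      rw [← hn]
      apply lt_of_le_of_ne (Subgroup.card_le_card_group X)
      intro h3
      exact hX (hXdef ▸ Subgroup.eq_top_of_card_eq X h3)
    have hXh : ∀ H : Subgroup X, Cfsg.HasSubgroupOfEveryOrder H := by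
      intro H
      exact S0532.clt_of_equiv (H.equivMapOfInjective X.subtype X.subtype_injective).symm
        (h (H.map X.subtype))
    have hXs := ih _ hXlt X rfl hXh
    have hCX : C ≤ X := hXdef ▸ le_sup_left
    have hKX : K ≤ X := hXdef ▸ le_sup_right
    have hCXne : C.subgroupOf X ≠ ⊥ := by
      intro h3
      rw [Subgroup.subgroupOf_eq_bot, disjoint_iff, inf_eq_left.mpr hCX] at h3
      exact hCne h3
    obtain ⟨Z, hZC, hZn, hZp⟩ := Lib.Helper4.exists_normal_prime hXs (C.subgroupOf X) hCXne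
    refine ⟨Z.map X.subtype, ?_, ?_⟩
    · apply Lib.Helper4.normal_of_decomp _ (P : Subgroup G) K hPK
      · rintro a ha _ ⟨z, hz, rfl⟩
        exact hCc a ha _ (hZC hz)
      · rintro b hb _ ⟨z, hz, rfl⟩
        exact ⟨⟨b, hKX hb⟩ * z * ⟨b, hKX hb⟩⁻¹, hZn.conj_mem z hz _, rfl⟩
    · rw [Subgroup.card_map_of_injective X.subtype_injective]; exact hZp

theorem aux : ∀ (n : ℕ) (G : Type u) [Group G] [Finite G], Nat.card G = n →
    (∀ H : Subgroup G, Cfsg.HasSubgroupOfEveryOrder H) → Cfsg.IsSupersolvable G := by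
  intro n
  induction n using Nat.strong_induction_on with
  | _ n ih =>
    intro G _ _ hn h
    by_cases h1 : Nat.card G = 1
    · have := (Nat.card_eq_one_iff_unique.mp h1).1
      exact Lib.Helper4.ss_of_subsingleton
    obtain ⟨N, hNn, hNp⟩ := exists_normal_prime_card n ih G hn h1 h
    have : Fact (Nat.card N).Prime := ⟨hNp⟩
    have hcyc : IsCyclic N := isCyclic_of_prime_card rfl
    have hlt : Nat.card (G ⧸ N) < n := by
      rw [← hn]; exact Lib.Helper4.card_quotient_lt N hNp.two_le
    exact Lib.Helper4.ss_of_quotient_cyclic N (ih _ hlt (G ⧸ N) rfl (clt_quotient h N hNp))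

/-- If every subgroup of a finite group has subgroups of all orders dividing its order, then the group is supersolvable. -/
theorem result {G : Type*} [Group G] [Finite G] (h : ∀ H : Subgroup G, Cfsg.HasSubgroupOfEveryOrder H) : Cfsg.IsSupersolvable G := by
  exact aux _ G rfl h

end Cfsg.Agent.S0533
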