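import Cfsg.Statements.S0534
import Mathlib
import Cfsg.Agent.S0003

set_option autoImplicit false
open Cfsg

namespace Cfsg.Agent.S0534

universe u

theorem comm_clt : ∀ (n : ℕ) (A : Type u) [CommGroup A] [Finite A], Nat.card A = n →
    ∀ d, d ∣ n → ∃ H : Subgroup A, Nat.card H = d := by
  intro n
  induction n using Nat.strong_induction_on with
  | _ n ih =>
    intro A _ _ hn d hd
    by_cases h1 : d = 1
    · exact ⟨⊥, by rw [h1]; exact Subgroup.card_bot⟩
    obtain ⟨p, hp, hpd⟩ : ∃ p : ℕ, p.Prime ∧ p ∣ d := ⟨_, Nat.minFac_prime h1, Nat.minFac_dvd d⟩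
    have : Fact p.Prime := ⟨hp⟩
    obtain ⟨d', hd'⟩ := hpd
    obtain ⟨x, hx⟩ := exists_prime_orderOf_dvd_card' (G := A) p
      (hn ▸ (Dvd.intro _ hd'.symm).trans hd)
    have hN : Nat.card (Subgroup.zpowers x) = p := by rw [Nat.card_zpowers, hx]
    have hq := Subgroup.card_eq_card_quotient_mul_card_subgroup (Subgroup.zpowers x)
    rw [hN, hn] at hq
    have hpos : 0 < Nat.card (A ⧸ Subgroup.zpowers x) := Nat.card_pos
    have hlt : Nat.card (A ⧸ Subgroup.zpowers x) < n := by
      rw [hq]; nlinarith [hp.two_le]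
    have hdvd : d' ∣ Nat.card (A ⧸ Subgroup.zpowers x) := by
      rw [hq, hd', mul_comm] at hd
      exact Nat.dvd_of_mul_dvd_mul_right hp.pos hd
    obtain ⟨Hb, hHb⟩ := ih _ hlt (A ⧸ Subgroup.zpowers x) rfl d' hdvd
    refine ⟨Hb.comap (QuotientGroup.mk' _), ?_⟩
    have e1 := Subgroup.card_mul_index (Hb.comap (QuotientGroup.mk' (Subgroup.zpowers x)))
    rw [Subgroup.index_comap_of_surjective Hb (QuotientGroup.mk'_surjective _), hn, hq,
      ← Subgroup.card_mul_index Hb, hHb] at e1
    have hi : 0 < Hb.index := Nat.pos_of_ne_zero Subgroup.index_ne_zero_of_finite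
    apply Nat.eq_of_mul_eq_mul_right hi
    rw [e1, hd']; ring

theorem split (n a d : ℕ) (hn : n ≠ 0) (ha : a ≠ 0)
    (hexp : ∀ p, p.Prime → p ∣ n → a.factorization p + 1 = n.factorization p) (hd : d ∣ n * a) :
    ∃ m m' b, n = m * m' ∧ m.Coprime m' ∧ b ∣ a ∧ d = m * b := by
  classical
  have hd0 : d ≠ 0 := ne_zero_of_dvd_ne_zero (mul_ne_zero hn ha) hd
  obtain ⟨f, hf⟩ : ∃ f : ℕ →₀ ℕ,
    f = n.factorization.filter (fun p => n.factorization p ≤ d.factorization p) := ⟨_, rfl⟩
  obtain ⟨f', hf'⟩ : ∃ f' : ℕ →₀ ℕ,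
    f' = n.factorization.filter (fun p => ¬ n.factorization p ≤ d.factorization p) := ⟨_, rfl⟩
  obtain ⟨e, he⟩ : ∃ e : ℕ →₀ ℕ, e = d.factorization - f := ⟨_, rfl⟩
  have hfp : ∀ p ∈ f.support, p.Prime := by
    intro p hp
    rw [hf, Finsupp.support_filter, Finset.mem_filter, Nat.support_factorization] at hp
    exact Nat.prime_of_mem_primeFactors hp.1
  have hfp' : ∀ p ∈ f'.support, p.Prime := by
    intro p hp
    rw [hf', Finsupp.support_filter, Finset.mem_filter, Nat.support_factorization] at hp
    exact Nat.prime_of_mem_primeFactors hp.1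
  have hep : ∀ p ∈ e.support, p.Prime := by
    intro p hp
    rw [Finsupp.mem_support_iff, he, Finsupp.tsub_apply] at hp
    have : d.factorization p ≠ 0 := by omega
    have h2 : p ∈ d.factorization.support := Finsupp.mem_support_iff.mpr this
    rw [Nat.support_factorization] at h2
    exact Nat.prime_of_mem_primeFactors h2
  have F1 := Nat.prod_pow_factorization_eq_self hfp
  have F2 := Nat.prod_pow_factorization_eq_self hfp'
  have F3 := Nat.prod_pow_factorization_eq_self hep
  have Z1 : f.prod (· ^ ·) ≠ 0 := by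
    rw [Finsupp.prod, Finset.prod_ne_zero_iff]; intro p hp; exact pow_ne_zero _ (hfp p hp).ne_zero
  have Z2 : f'.prod (· ^ ·) ≠ 0 := by
    rw [Finsupp.prod, Finset.prod_ne_zero_iff]; intro p hp; exact pow_ne_zero _ (hfp' p hp).ne_zero
  have Z3 : e.prod (· ^ ·) ≠ 0 := by
    rw [Finsupp.prod, Finset.prod_ne_zero_iff]; intro p hp; exact pow_ne_zero _ (hep p hp).ne_zero
  have hle : ∀ p, d.factorization p ≤ n.factorization p + a.factorization p := by
    intro p
    have := (Nat.factorization_le_iff_dvd hd0 (mul_ne_zero hn ha)).mpr hd p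
    rwa [Nat.factorization_mul hn ha] at this
  refine ⟨f.prod (· ^ ·), f'.prod (· ^ ·), e.prod (· ^ ·), ?_, ?_, ?_, ?_⟩
  · apply Nat.eq_of_factorization_eq hn (mul_ne_zero Z1 Z2)
    intro p
    rw [Nat.factorization_mul Z1 Z2, F1, F2, hf, hf', Finsupp.filter_add_filter_not]
  · rw [← Nat.disjoint_primeFactors Z1 Z2, ← Nat.support_factorization, ← Nat.support_factorization,
      F1, F2, hf, hf', Finsupp.support_filter, Finsupp.support_filter]
    exact Finset.disjoint_filter_filter_not _ _ _
  · rw [← Nat.factorization_le_iff_dvd Z3 ha, F3]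
    intro p
    rw [he, Finsupp.tsub_apply, hf]
    by_cases h : n.factorization p ≤ d.factorization p
    · rw [Finsupp.filter_apply_pos (fun p => n.factorization p ≤ d.factorization p) _ h]
      have := hle p
      omega
    · rw [Finsupp.filter_apply_neg (fun p => n.factorization p ≤ d.factorization p) _ h]
      have h0 : n.factorization p ≠ 0 := by omega
      have h2 : p ∈ n.factorization.support := Finsupp.mem_support_iff.mpr h0
      rw [Nat.support_factorization] at h2
      have := hexp p (Nat.prime_of_mem_primeFactors h2) (Nat.dvd_of_mem_primeFactors h2)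
      omega
  · apply Nat.eq_of_factorization_eq hd0 (mul_ne_zero Z1 Z3)
    intro p
    rw [Nat.factorization_mul Z1 Z3, F1, F3, he, Finsupp.add_apply, Finsupp.tsub_apply, hf]
    by_cases h : n.factorization p ≤ d.factorization p
    · rw [Finsupp.filter_apply_pos (fun p => n.factorization p ≤ d.factorization p) _ h]
      omega
    · rw [Finsupp.filter_apply_neg (fun p => n.factorization p ≤ d.factorization p) _ h]
      omega

/-- Let G be a finite solvable group and A a finite abelian group such that every prime dividing the order of A divides the order of G and, for each prime p dividing the order of G, the exponent of p in the order of A is one less than its exponent in the order of G. Then G × A has a subgroup of every order dividing its order. -/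
theorem result {G A : Type*} [Group G] [CommGroup A] [Finite G] [Finite A] [Group.IsSolvable G] (hA : ∀ p : ℕ, p.Prime → p ∣ Nat.card A → p ∣ Nat.card G) (hexp : ∀ p : ℕ, p.Prime → p ∣ Nat.card G → (Nat.card A).factorization p + 1 = (Nat.card G).factorization p) : Cfsg.HasSubgroupOfEveryOrder (G × A) := by
  intro d hd
  rw [Nat.card_prod] at hd
  obtain ⟨m, m', b, h1, h2, h3, h4⟩ := split (Nat.card G) (Nat.card A) d Nat.card_pos.ne' Nat.card_pos.ne'
    hexp hd
  obtain ⟨H, hH⟩ := Cfsg.Agent.S0003.result m m' h1 h2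
  obtain ⟨B, hB⟩ := comm_clt _ A rfl b h3
  refine ⟨H.prod B, ?_⟩
  rw [Nat.card_congr (Subgroup.prodEquiv H B).toEquiv, Nat.card_prod, hH, hB, h4]

end Cfsg.Agent.S0534
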