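import Cfsg.Statements.S0535
import Mathlib
import Cfsg.Agent.S0006
import Cfsg.Agent.S0003

set_option autoImplicit false
open Cfsg

namespace Cfsg.Agent.S0535

theorem pow_eq_of {p b c n : ℕ} (hp : p.Prime) (hc : ¬ p ∣ c) (hn : c * p ^ b = n) :
    p ^ b = p ^ n.factorization p := by
  have hc0 : c ≠ 0 := by
    rintro rfl
    simp at hc
  rw [← hn, Nat.factorization_mul hc0 (pow_ne_zero _ hp.ne_zero), Finsupp.add_apply,
    Nat.factorization_eq_zero_of_not_dvd hc, Nat.factorization_pow, Finsupp.smul_apply,
    hp.factorization_self]
  simp

/-- Suppose that for every nontrivial subgroup H of a finite group and every prime p dividing the order of H there is a proper subgroup of H whose index in H is a power of p. Then the group is solvable. -/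
theorem result {G : Type*} [Group G] [Finite G] (h : ∀ H : Subgroup G, H ≠ ⊥ → ∀ p : ℕ, p.Prime → p ∣ Nat.card H → ∃ K : Subgroup H, K ≠ ⊤ ∧ ∃ k : ℕ, K.index = p ^ k) : Group.IsSolvable G := by
  have main : ∀ (n : ℕ) (H : Subgroup G), Nat.card H = n → Group.IsSolvable H := by
    intro n
    induction n using Nat.strong_induction_on with
    | _ n ih =>
      intro H hn
      apply Cfsg.Agent.S0006.result
      intro p hp
      by_cases hpH : p ∣ Nat.card H
      · have hHb : H ≠ ⊥ := by
          rintro rfl
          rw [Subgroup.card_bot] at hpH
          exact hp.one_lt.ne' (Nat.dvd_one.mp hpH)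
        obtain ⟨K, hKt, k, hk⟩ := h H hHb p hp hpH
        have hcK : Nat.card (K.map H.subtype) = Nat.card K :=
          Subgroup.card_map_of_injective H.subtype_injective
        have e1 := Subgroup.card_mul_index K
        have hlt : Nat.card (K.map H.subtype) < n := by
          rw [hcK, ← hn, ← e1]
          have h1 : K.index ≠ 1 := fun h' => hKt (Subgroup.index_eq_one.mp h')
          have h2 : K.index ≠ 0 := Subgroup.index_ne_zero_of_finite
          have h3 : 0 < Nat.card K := Nat.card_pos
          have h4 : 2 ≤ K.index := by omega
          nlinarith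
        have s1 : Group.IsSolvable (K.map H.subtype) := ih _ hlt _ rfl
        have s2 : Group.IsSolvable K :=
          Group.isSolvable_of_isSolvable_injective
            (f := (Subgroup.equivMapOfInjective K H.subtype H.subtype_injective).toMonoidHom)
            (Subgroup.equivMapOfInjective K H.subtype H.subtype_injective).injective
        have e2 := Nat.ordProj_mul_ordCompl_eq_self (Nat.card K) p
        have c1 := Nat.coprime_ordCompl hp (Nat.card_pos (α := K)).ne'
        obtain ⟨L, hL⟩ := Cfsg.Agent.S0003.result (G := K) (Nat.card K / p ^ (Nat.card K).factorization p)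
          (p ^ (Nat.card K).factorization p) (by rw [mul_comm]; exact e2.symm)
          (Nat.Coprime.pow_right _ c1.symm)
        refine ⟨L.map K.subtype, ?_⟩
        have hcL : Nat.card (L.map K.subtype) = Nat.card K / p ^ (Nat.card K).factorization p := by
          rw [Subgroup.card_map_of_injective K.subtype_injective, hL]
        have e3 := Subgroup.card_mul_index (L.map K.subtype)
        have hm0 : 0 < Nat.card K / p ^ (Nat.card K).factorization p := by
          rw [← hcL]; exact Nat.card_pos
        have e4 : (L.map K.subtype).index = p ^ ((Nat.card K).factorization p + k) := by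
          apply Nat.eq_of_mul_eq_mul_left hm0
          rw [← hcL, e3, ← e1, hk, hcL, pow_add, ← mul_assoc]
          congr 1
          rw [mul_comm]; exact e2.symm
        rw [e4]
        apply pow_eq_of hp (c := Nat.card K / p ^ (Nat.card K).factorization p)
          ((Nat.Prime.coprime_iff_not_dvd hp).mp c1) _
        rw [← e4, ← hcL, e3]
      · refine ⟨⊤, ?_⟩
        rw [Subgroup.index_top, Nat.factorization_eq_zero_of_not_dvd hpH, pow_zero]
  have := main _ ⊤ rfl
  exact Group.isSolvable_of_isSolvable_injective (f := (Subgroup.topEquiv (G := G)).symm.toMonoidHom)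
    (Subgroup.topEquiv (G := G)).symm.injective

end Cfsg.Agent.S0535
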