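import Cfsg.Statements.S0537
import Mathlib
import Cfsg.Agent.S0536
import Cfsg.Agent.S0055
import Cfsg.Agent.Lib.Helper23.Fitting

set_option autoImplicit false
open Cfsg

namespace Cfsg.Agent.S0537

universe u

open Subgroup

theorem comm_sub {G : Type u} [Group G] {H : Subgroup G} (h : IsMulCommutative H) {a b : G} (ha : a ∈ H)
    (hb : b ∈ H) : a * b = b * a :=
  congrArg Subtype.val ((isMulCommutative_iff.mp h) ⟨a, ha⟩ ⟨b, hb⟩)

theorem comm_of_sup {G : Type u} [Group G] (A B : Subgroup G) (hAB : A ⊔ B = ⊤)
    (hA : ∀ a ∈ A, ∀ a' ∈ A, a * a' = a' * a) (hB : ∀ b ∈ B, ∀ b' ∈ B, b * b' = b' * b)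
    (hc : ∀ a ∈ A, ∀ b ∈ B, a * b = b * a) : IsMulCommutative G := by
  have h1 : A ⊔ B ≤ center G := by
    apply sup_le
    · intro a ha
      rw [mem_center_iff]
      intro g
      have hg : g ∈ centralizer ({a} : Set G) := by
        have : A ⊔ B ≤ centralizer ({a} : Set G) := by
          apply sup_le
          · intro a' ha'
            rw [mem_centralizer_singleton_iff]
            exact hA a' ha' a ha
          · intro b hb
            rw [mem_centralizer_singleton_iff]
            exact (hc a ha b hb).symm
        exact this (hAB ▸ mem_top g)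
      rw [mem_centralizer_singleton_iff] at hg
      exact hg
    · intro b hb
      rw [mem_center_iff]
      intro g
      have hg : g ∈ centralizer ({b} : Set G) := by
        have : A ⊔ B ≤ centralizer ({b} : Set G) := by
          apply sup_le
          · intro a ha
            rw [mem_centralizer_singleton_iff]
            exact hc a ha b hb
          · intro b' hb'
            rw [mem_centralizer_singleton_iff]
            exact hB b' hb' b hb
        exact this (hAB ▸ mem_top g)
      rw [mem_centralizer_singleton_iff] at hg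
      exact hg
  rw [hAB, top_le_iff] at h1
  rw [isMulCommutative_iff]
  intro a b
  have : b ∈ center G := h1 ▸ mem_top b
  exact (mem_center_iff.mp this) a

/-- the elements of order dividing `q` in an abelian subgroup. -/
def omega {G : Type u} [Group G] (Q : Subgroup G) (hQ : IsMulCommutative Q) (q : ℕ) : Subgroup G where
  carrier := {y | y ∈ Q ∧ y ^ q = 1}
  one_mem' := ⟨one_mem _, one_pow _⟩
  mul_mem' := by
    rintro a b ⟨ha, ha'⟩ ⟨hb, hb'⟩
    refine ⟨mul_mem ha hb, ?_⟩
    have : Commute a b := comm_sub hQ ha hb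
    rw [this.mul_pow, ha', hb', one_mul]
  inv_mem' := by
    rintro a ⟨ha, ha'⟩
    exact ⟨inv_mem ha, by rw [inv_pow, ha', inv_one]⟩

/-- A finite non-abelian group in which every proper subgroup is abelian is either of prime-power order, or is generated by a cyclic Sylow p-subgroup and a normal Sylow q-subgroup that is elementary abelian, for distinct primes p and q. -/
theorem result {G : Type*} [Group G] [Finite G] (hna : ¬ IsMulCommutative G) (h : ∀ H : Subgroup G, H ≠ ⊤ → IsMulCommutative H) : (∃ p : ℕ, p.Prime ∧ IsPGroup p G) ∨ ∃ p q : ℕ, p.Prime ∧ q.Prime ∧ p ≠ q ∧ ∃ (P : Sylow p G) (Q : Sylow q G), IsCyclic P ∧ (Q : Subgroup G).Normal ∧ Cfsg.IsElementaryAbelian q (Q : Subgroup G) ∧ (P : Subgroup G) ⊔ Q = ⊤ := by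
  by_cases hnil : Group.IsNilpotent G
  · left
    by_contra hcon
    push Not at hcon
    apply hna
    have hS : ∀ (p : ℕ) [Fact p.Prime] (P : Sylow p G), IsMulCommutative (P : Subgroup G) := by
      intro p _ P
      apply h
      intro htop
      apply hcon p Fact.out
      have h2 : IsPGroup p (⊤ : Subgroup G) := htop ▸ P.2
      exact h2.of_equiv Subgroup.topEquiv
    have hcen : center G = ⊤ := by
      apply Cfsg.Agent.Lib.Helper23.eq_top_of_forall_sylow_le
      intro p _
      obtain ⟨P⟩ : Nonempty (Sylow p G) := inferInstance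
      refine ⟨P, ?_⟩
      intro x hx
      rw [mem_center_iff]
      intro g
      have hg : centralizer ({x} : Set G) = ⊤ := by
        apply Cfsg.Agent.Lib.Helper23.eq_top_of_forall_sylow_le
        intro r _
        by_cases hrp : r = p
        · subst hrp
          refine ⟨P, ?_⟩
          intro y hy
          rw [mem_centralizer_singleton_iff]
          exact comm_sub (hS r P) hy hx
        · obtain ⟨R⟩ : Nonempty (Sylow r G) := inferInstance
          refine ⟨R, ?_⟩
          intro y hy
          rw [mem_centralizer_singleton_iff]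
          exact Subgroup.commute_of_normal_of_disjoint (R : Subgroup G) (P : Subgroup G) inferInstance
            inferInstance (IsPGroup.disjoint_of_ne r p hrp _ _ R.2 P.2) y x hy hx
      have : g ∈ centralizer ({x} : Set G) := hg ▸ mem_top g
      rw [mem_centralizer_singleton_iff] at this
      exact this
    rw [isMulCommutative_iff]
    intro a b
    have : b ∈ center G := hcen ▸ mem_top b
    exact (mem_center_iff.mp this) a
  · right
    have hmin : Cfsg.IsMinimalNonNilpotent G := by
      refine ⟨hnil, fun H hH => ?_⟩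
      have := h H hH
      exact ⟨1, Subgroup.upperCentralSeries_one_eq_top_iff.mpr this⟩
    obtain ⟨p, q, hp, hq, hpq, P, Q, hPc, hQn, hPQ⟩ := Cfsg.Agent.S0536.result hmin
    have hpF : Fact p.Prime := ⟨hp⟩
    have hqF : Fact q.Prime := ⟨hq⟩
    have hQt : (Q : Subgroup G) ≠ ⊤ := by
      intro htop
      apply hnil
      have h2 : IsPGroup q (⊤ : Subgroup G) := htop ▸ Q.2
      exact (h2.of_equiv Subgroup.topEquiv).isNilpotent
    have hPt : (P : Subgroup G) ≠ ⊤ := by
      intro htop
      apply hnil
      have h2 : IsPGroup p (⊤ : Subgroup G) := htop ▸ P.2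
      exact (h2.of_equiv Subgroup.topEquiv).isNilpotent
    have hQc := h _ hQt
    have hPcomm := h _ hPt
    have hdis : (P : Subgroup G) ⊓ Q = ⊥ := (IsPGroup.disjoint_of_ne p q hpq _ _ P.2 Q.2).eq_bot
    refine ⟨p, q, hp, hq, hpq, P, Q, hPc, hQn, ⟨hQc, ?_⟩, hPQ⟩
    by_contra hcon
    push Not at hcon
    obtain ⟨y0, hy0, hy0'⟩ := hcon
    apply hna
    have hOn : (omega (Q : Subgroup G) hQc q).Normal := by
      constructor
      rintro y ⟨hy, hy'⟩ g
      exact ⟨hQn.conj_mem y hy g, by rw [conj_pow, hy', mul_one, mul_inv_cancel]⟩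
    have hOt : omega (Q : Subgroup G) hQc q ⊔ P ≠ ⊤ := by
      intro htop
      have h1 : y0 ∈ omega (Q : Subgroup G) hQc q ⊔ (P : Subgroup G) := htop ▸ mem_top y0
      rw [mem_sup_of_normal_left] at h1
      obtain ⟨a, ha, b, hb, e⟩ := h1
      have hb' : b ∈ (P : Subgroup G) ⊓ Q := by
        refine ⟨hb, ?_⟩
        have : b = a⁻¹ * y0 := by rw [← e]; group
        rw [this]
        exact (Q : Subgroup G).mul_mem ((Q : Subgroup G).inv_mem ha.1) hy0
      rw [hdis, mem_bot] at hb'
      rw [hb', mul_one] at e
      exact hy0' (e ▸ ha.2)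
    have hOc := h _ hOt
    have hcop : (Nat.card (P : Subgroup G)).Coprime (Nat.card (Q : Subgroup G)) := by
      obtain ⟨a, ha⟩ := IsPGroup.iff_card.mp P.2
      obtain ⟨b, hb⟩ := IsPGroup.iff_card.mp Q.2
      rw [ha, hb]
      exact Nat.coprime_pow_primes _ _ hp hq hpq
    have hPN : (P : Subgroup G) ≤ normalizer ((Q : Subgroup G) : Set G) := by
      rw [normalizer_eq_top_iff.mpr hQn]; exact le_top
    obtain ⟨d1, d2⟩ := Cfsg.Agent.S0055.result (P : Subgroup G) (Q : Subgroup G) hPN hcop
    have hW : ⁅(Q : Subgroup G), (P : Subgroup G)⁆ = ⊥ := by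
      by_contra hWne
      have hWQ : ⁅(Q : Subgroup G), (P : Subgroup G)⁆ ≤ Q := Subgroup.commutator_le_left _ _
      have hWp : IsPGroup q (⁅(Q : Subgroup G), (P : Subgroup G)⁆ : Subgroup G) := Q.2.to_le hWQ
      have hqW : q ∣ Nat.card (⁅(Q : Subgroup G), (P : Subgroup G)⁆ : Subgroup G) := by
        rcases hWp.card_eq_or_dvd with h1 | h1
        · exact absurd (Subgroup.card_eq_one.mp h1) hWne
        · exact h1
      obtain ⟨w, hw⟩ := exists_prime_orderOf_dvd_card' q hqW
      have hw1 : (w : G) ^ q = 1 := by
        have := pow_orderOf_eq_one w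
        rw [hw] at this
        exact congrArg Subtype.val this
      have hwO : (w : G) ∈ omega (Q : Subgroup G) hQc q := ⟨hWQ w.2, hw1⟩
      have hwC : (w : G) ∈ (Q : Subgroup G) ⊓ centralizer ((P : Subgroup G) : Set G) := by
        refine ⟨hWQ w.2, ?_⟩
        change (w : G) ∈ centralizer ((P : Subgroup G) : Set G)
        rw [mem_centralizer_iff]
        intro x hx
        exact comm_sub hOc (mem_sup_right hx) (mem_sup_left hwO)
      have : (w : G) ∈ ((Q : Subgroup G) ⊓ centralizer ((P : Subgroup G) : Set G)) ⊓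
          ⁅(Q : Subgroup G), (P : Subgroup G)⁆ := ⟨hwC, w.2⟩
      rw [d1, mem_bot] at this
      have hw2 : w = 1 := Subtype.ext this
      rw [hw2, orderOf_one] at hw
      exact hq.one_lt.ne hw
    rw [Subgroup.commutator_eq_bot_iff_le_centralizer] at hW
    apply comm_of_sup (P : Subgroup G) (Q : Subgroup G) hPQ
    · intro a ha a' ha'
      exact comm_sub hPcomm ha ha'
    · intro a ha a' ha'
      exact comm_sub hQc ha ha'
    · intro a ha b hb
      exact (mem_centralizer_iff.mp (hW hb)) a ha

end Cfsg.Agent.S0537
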