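import Cfsg.Statements.S0539
import Mathlib
import Cfsg.Agent.Lib.Helper4.Subnormal

set_option autoImplicit false
open Pointwise
open Cfsg

namespace Cfsg.Agent.S0539

/-- Let S be a family of subnormal subgroups of a finite group that is closed under conjugation, and S₀ a proper subfamily. Then some member of S not in S₀ normalizes the join of S₀. -/
theorem result {G : Type*} [Group G] [Finite G] (S S₀ : Set (Subgroup G)) (hS : ∀ U ∈ S, U.IsSubnormal) (hconj : ∀ U ∈ S, ∀ g : G, MulAut.conj g • U ∈ S) (h₀ : S₀ ⊂ S) : ∃ X ∈ S, X ∉ S₀ ∧ X ≤ Subgroup.normalizer ((sSup S₀ : Subgroup G) : Set G) := by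
  have hT : (sSup S₀ : Subgroup G).IsSubnormal :=
    Lib.Helper4.isSubnormal_sSup S₀ (fun U hU => hS U (h₀.subset hU))
  by_cases hn : (sSup S₀ : Subgroup G).Normal
  · obtain ⟨X, hXS, hXn⟩ := Set.exists_of_ssubset h₀
    refine ⟨X, hXS, hXn, ?_⟩
    rw [Subgroup.normalizer_eq_top]
    exact le_top
  · obtain ⟨g, hg, hg'⟩ := Lib.Helper4.exists_conj_le_normalizer hT hn
    have hex : ∃ U ∈ S₀, ¬ (MulAut.conj g • U ≤ sSup S₀) := by
      by_contra hcon
      push Not at hcon
      apply hg
      apply Lib.Helper4.mem_normalizer_of_conj_mem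
      have hle : sSup S₀ ≤ (sSup S₀ : Subgroup G).comap (MulAut.conj g).toMonoidHom := by
        apply sSup_le
        intro U hU x hx
        exact hcon U hU (Subgroup.smul_mem_pointwise_smul x (MulAut.conj g) U hx)
      intro x hx
      exact hle hx
    obtain ⟨U, hU, hUT⟩ := hex
    refine ⟨MulAut.conj g • U, hconj U (h₀.subset hU) g, fun h => hUT (le_sSup h), ?_⟩
    rintro _ ⟨x, hx, rfl⟩
    exact hg' x (le_sSup hU hx)

end Cfsg.Agent.S0539
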