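import Cfsg.Statements.S0541
import Mathlib
import Cfsg.Agent.Lib.Helper4.Subnormal2

set_option autoImplicit false
open Pointwise
open Cfsg

namespace Cfsg.Agent.S0541

open scoped Pointwise

/-- the subgroup generated by the conjugates of `Z` contained in `W`. -/
def gen {G : Type*} [Group G] (Z W : Subgroup G) : Subgroup G :=
  ⨆ g ∈ {g : G | MulAut.conj g • Z ≤ W}, MulAut.conj g • Z

theorem gen_le {G : Type*} [Group G] (Z W : Subgroup G) : gen Z W ≤ W :=
  iSup₂_le (fun _ hg => hg)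

theorem le_gen {G : Type*} [Group G] (Z W : Subgroup G) (g : G) (h : MulAut.conj g • Z ≤ W) :
    MulAut.conj g • Z ≤ gen Z W :=
  le_iSup₂ (f := fun g (_ : g ∈ {g : G | MulAut.conj g • Z ≤ W}) => MulAut.conj g • Z) g h

theorem gen_mono {G : Type*} [Group G] (Z : Subgroup G) {W W' : Subgroup G} (h : W ≤ W') :
    gen Z W ≤ gen Z W' :=
  iSup₂_le (fun g hg => le_gen Z W' g (le_trans hg h))

theorem gen_eq_sSup {G : Type*} [Group G] (Z W : Subgroup G) :
    gen Z W = sSup {B : Subgroup G | (∃ g : G, B = MulAut.conj g • Z) ∧ B ≤ W} := by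
  apply le_antisymm
  · exact iSup₂_le (fun g hg => le_sSup ⟨⟨g, rfl⟩, hg⟩)
  · apply sSup_le
    rintro _ ⟨⟨g, rfl⟩, hg⟩
    exact le_gen Z W g hg

/-- the join of the `Y`-conjugates of `g Z g⁻¹`. -/
def yjoin {G : Type*} [Group G] (Z Y : Subgroup G) (g : G) : Subgroup G :=
  ⨆ y ∈ Y, MulAut.conj (y * g) • Z

theorem le_yjoin {G : Type*} [Group G] (Z Y : Subgroup G) (g y : G) (hy : y ∈ Y) :
    MulAut.conj (y * g) • Z ≤ yjoin Z Y g :=
  le_iSup₂ (f := fun y (_ : y ∈ Y) => MulAut.conj (y * g) • Z) y hy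

theorem yjoin_normalized {G : Type*} [Group G] (Z Y : Subgroup G) (g : G) :
    Y ≤ Subgroup.normalizer ((yjoin Z Y g : Subgroup G) : Set G) := by
  apply Lib.Helper4.le_normalizer_of_conj_mem
  intro c hc
  have hle : yjoin Z Y g ≤ (yjoin Z Y g).comap (MulAut.conj c).toMonoidHom := by
    apply iSup₂_le
    intro y hy x hx
    apply le_yjoin Z Y g (c * y) (Y.mul_mem hc hy)
    have := Subgroup.smul_mem_pointwise_smul x (MulAut.conj c) _ hx
    rwa [← mul_smul, ← map_mul, ← mul_assoc] at this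
  intro x hx
  exact hle hx

/-- Let Z and Y be subgroups of a finite group G and p a prime. Suppose that for every g in G the subgroup generated by the conjugates of g Z g⁻¹ under Y is a p-group. Then there is a Sylow p-subgroup P of G such that Y normalizes the subgroup generated by all conjugates of Z contained in P. -/
theorem result {G : Type*} [Group G] [Finite G] (p : ℕ) [Fact p.Prime] (Z Y : Subgroup G) (h : ∀ g : G, IsPGroup p ↥(⨆ y ∈ Y, MulAut.conj (y * g) • Z)) : ∃ P : Sylow p G, Y ≤ Subgroup.normalizer ((⨆ g ∈ {g : G | MulAut.conj g • Z ≤ (P : Subgroup G)}, MulAut.conj g • Z : Subgroup G) : Set G) := by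
  classical
  -- the family of admissible subgroups
  let F : Set (Subgroup G) := {W | IsPGroup p W ∧ Y ≤ Subgroup.normalizer (W : Set G) ∧ gen Z W = W}
  have hF0 : yjoin Z Y 1 ∈ F := by
    refine ⟨h 1, yjoin_normalized Z Y 1, le_antisymm (gen_le _ _) ?_⟩
    apply iSup₂_le
    intro y hy
    exact le_gen Z _ _ (le_yjoin Z Y 1 y hy)
  obtain ⟨W, ⟨hWp, hWY, hWgen⟩, hWmax⟩ := Set.exists_max_image F (fun W => Nat.card W) (Set.toFinite F) ⟨_, hF0⟩
  obtain ⟨P, hWP⟩ := hWp.exists_le_sylow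
  refine ⟨P, ?_⟩
  suffices hs : gen Z (P : Subgroup G) = W by
    have : (⨆ g ∈ {g : G | MulAut.conj g • Z ≤ (P : Subgroup G)}, MulAut.conj g • Z : Subgroup G) = W := hs
    rw [this]; exact hWY
  by_contra hne
  -- the two families of conjugates
  let S : Set (Subgroup G) := {B | (∃ g : G, B = MulAut.conj g • Z) ∧ B ≤ (P : Subgroup G)}
  let S₀ : Set (Subgroup G) := {B | (∃ g : G, B = MulAut.conj g • Z) ∧ B ≤ W}
  have hS₀ : sSup S₀ = W := by rw [← gen_eq_sSup, hWgen]
  have hss : S₀ ⊂ S := by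
    refine ⟨fun B hB => ⟨hB.1, hB.2.trans hWP⟩, fun hsub => hne ?_⟩
    apply le_antisymm
    · rw [gen_eq_sSup]
      exact sSup_le (fun B hB => (hsub hB).2)
    · rw [← hWgen]; exact gen_mono Z hWP
  obtain ⟨X, hXS, hXn, hXN⟩ := Lib.Helper4.rel_family (P : Subgroup G) S S₀
    (fun B hB => ⟨hB.2, Lib.Helper4.isSubnormal_of_isPGroup p P.2 _⟩)
    (by
      rintro B ⟨⟨g, rfl⟩, hB⟩ v hv
      exact ⟨⟨v * g, by rw [map_mul, mul_smul]⟩, Subgroup.conj_smul_le_of_le hB ⟨v, hv⟩⟩) hss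
  rw [hS₀] at hXN
  obtain ⟨⟨g, rfl⟩, hXP⟩ := hXS
  have hXW : ¬ MulAut.conj g • Z ≤ W := fun hle => hXn ⟨⟨g, rfl⟩, hle⟩
  -- the bigger subgroup
  have hJN : yjoin Z Y g ≤ Subgroup.normalizer (W : Set G) := by
    apply iSup₂_le
    intro y hy
    rw [map_mul, mul_smul]
    rintro _ ⟨x, hx, rfl⟩
    exact mul_mem (mul_mem (hWY hy) (hXN hx)) (inv_mem (hWY hy))
  have hW'p : IsPGroup p (W ⊔ yjoin Z Y g : Subgroup G) := hWp.to_sup_of_normal_left' (h g) hJN
  have hW'Y : Y ≤ Subgroup.normalizer ((W ⊔ yjoin Z Y g : Subgroup G) : Set G) := by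
    apply Lib.Helper4.le_normalizer_of_conj_mem
    intro c hc
    have hle : W ⊔ yjoin Z Y g ≤ (W ⊔ yjoin Z Y g).comap (MulAut.conj c).toMonoidHom := by
      apply sup_le
      · intro x hx
        exact Subgroup.mem_sup_left ((Subgroup.mem_normalizer_iff.mp (hWY hc) x).mp hx)
      · intro x hx
        exact Subgroup.mem_sup_right ((Subgroup.mem_normalizer_iff.mp (yjoin_normalized Z Y g hc) x).mp hx)
    intro x hx
    exact hle hx
  have hW'gen : gen Z (W ⊔ yjoin Z Y g) = W ⊔ yjoin Z Y g := by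
    apply le_antisymm (gen_le _ _)
    apply sup_le
    · conv_lhs => rw [← hWgen]
      exact gen_mono Z le_sup_left
    · apply iSup₂_le
      intro y hy
      exact le_gen Z _ _ ((le_yjoin Z Y g y hy).trans le_sup_right)
  have h1 := hWmax _ ⟨hW'p, hW'Y, hW'gen⟩
  have h2 : W = W ⊔ yjoin Z Y g := Subgroup.eq_of_le_of_card_ge le_sup_left h1
  apply hXW
  rw [h2]
  have h3 := le_yjoin Z Y g 1 Y.one_mem
  rw [one_mul] at h3
  exact h3.trans le_sup_right

end Cfsg.Agent.S0541
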