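import Cfsg.Statements.S0544
import Mathlib
import Cfsg.Agent.Lib.Helper4.Basic

set_option autoImplicit false
open Cfsg

namespace Cfsg.Agent.S0544

theorem not_dvd_card {G : Type*} [Group G] [Finite G] (K : Nat.Primes → Subgroup G)
    (hK : Cfsg.IsComplementSystem K) (p : Nat.Primes) : ¬ (p : ℕ) ∣ Nat.card (K p) := by
  intro hd
  have h1 := Subgroup.card_mul_index (K p)
  rw [hK p] at h1
  apply Nat.pow_succ_factorization_not_dvd (Nat.card_pos (α := G)).ne' p.2
  rw [pow_succ, mul_comm]
  conv_rhs => rw [← h1]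
  exact Nat.mul_dvd_mul_right hd _

/-- In a finite solvable group the intersection of the normalizers of the members of a Hall complement system is a nilpotent subgroup. -/
theorem result {G : Type*} [Group G] [Finite G] [Group.IsSolvable G] (K : Nat.Primes → Subgroup G) (hK : Cfsg.IsComplementSystem K) : Group.IsNilpotent (Cfsg.systemNormalizer K) := by
  obtain ⟨D, hD⟩ : ∃ D : Subgroup G, D = Cfsg.systemNormalizer K := ⟨_, rfl⟩
  rw [← hD]
  have hDle : ∀ p : Nat.Primes, D ≤ Subgroup.normalizer (K p : Set G) := by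
    intro p; rw [hD]; exact iInf_le _ p
  have hnorm : ∀ p : Nat.Primes, ((K p).subgroupOf D).Normal :=
    fun p => Subgroup.normal_subgroupOf_of_le_normalizer (hDle p)
  have hpg : ∀ p : Nat.Primes, IsPGroup (p : ℕ) (D ⧸ (K p).subgroupOf D) := by
    intro p
    apply IsPGroup.of_card_dvd_pow (n := (Nat.card G).factorization p)
    rw [← Subgroup.index_eq_card, ← hK p]
    exact Lib.Helper4.relIndex_dvd_index_of_le_normalizer (K p) D (hDle p)
  have hnil : ∀ p : Nat.Primes, Group.IsNilpotent (D ⧸ (K p).subgroupOf D) := by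
    intro p
    have : Fact (p : ℕ).Prime := ⟨p.2⟩
    exact (hpg p).isNilpotent
  let toP : (Nat.card G).primeFactors → Nat.Primes := fun q => ⟨q.1, Nat.prime_of_mem_primeFactors q.2⟩
  let f : D →* ((q : (Nat.card G).primeFactors) → D ⧸ (K (toP q)).subgroupOf D) :=
    MonoidHom.pi (fun q => QuotientGroup.mk' ((K (toP q)).subgroupOf D))
  have hinj : Function.Injective f := by
    rw [injective_iff_map_eq_one]
    intro x hx
    by_contra hx1
    have ho : orderOf x ≠ 1 := by simpa [orderOf_eq_one_iff] using hx1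
    obtain ⟨q, hq, hqd⟩ := Nat.exists_prime_and_dvd ho
    have hqG : q ∣ Nat.card G := hqd.trans ((orderOf_dvd_natCard x).trans (Subgroup.card_subgroup_dvd_card D))
    have hmem : q ∈ (Nat.card G).primeFactors := Nat.mem_primeFactors.mpr ⟨hq, hqG, Nat.card_pos.ne'⟩
    have h1 : f x ⟨q, hmem⟩ = 1 := by rw [hx]; rfl
    have h2 : x ∈ (K (toP ⟨q, hmem⟩)).subgroupOf D := (QuotientGroup.eq_one_iff x).mp h1
    have h3 : (x : G) ∈ K (toP ⟨q, hmem⟩) := Subgroup.mem_subgroupOf.mp h2
    have h4 : orderOf (x : G) ∣ Nat.card (K (toP ⟨q, hmem⟩)) := by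
      have := orderOf_dvd_natCard (⟨(x : G), h3⟩ : K (toP ⟨q, hmem⟩))
      rwa [← Subgroup.orderOf_coe] at this
    rw [Subgroup.orderOf_coe] at h4
    exact not_dvd_card K hK (toP ⟨q, hmem⟩) (hqd.trans h4)
  have hnilpi : Group.IsNilpotent ((q : (Nat.card G).primeFactors) → D ⧸ (K (toP q)).subgroupOf D) := by
    have : ∀ q : (Nat.card G).primeFactors, Group.IsNilpotent (D ⧸ (K (toP q)).subgroupOf D) :=
      fun q => hnil (toP q)
    exact Group.isNilpotent_pi
  have hr : Group.IsNilpotent f.range := inferInstance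
  exact (Group.isNilpotent_congr (MonoidHom.ofInjective hinj)).mpr hr

end Cfsg.Agent.S0544
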