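import Cfsg.Statements.S0546
import Mathlib
import Cfsg.Agent.S0545

set_option autoImplicit false
open Cfsg

namespace Cfsg.Agent.S0546

/-- The normal closure of a system normalizer of a finite solvable group is the whole group. -/
theorem result {G : Type*} [Group G] [Finite G] [Group.IsSolvable G] (K : Nat.Primes → Subgroup G) (hK : Cfsg.IsComplementSystem K) : Subgroup.normalClosure ((Cfsg.systemNormalizer K : Subgroup G) : Set G) = ⊤ := by
  by_contra hne
  obtain ⟨M, hM⟩ : ∃ M : Subgroup G, M = Subgroup.normalClosure ((Cfsg.systemNormalizer K : Subgroup G) : Set G) :=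
    ⟨_, rfl⟩
  rw [← hM] at hne
  have hMn : M.Normal := by rw [hM]; infer_instance
  have hDM : Cfsg.systemNormalizer K ≤ M := by rw [hM]; exact Subgroup.le_normalClosure
  obtain ⟨R, hR⟩ : ∃ R : Subgroup G, R = M ⊔ commutator G := ⟨_, rfl⟩
  have hRn : R.Normal := by rw [hR]; infer_instance
  have hcomm : commutator G ≤ R := by rw [hR]; exact le_sup_right
  have hnorm : ∀ H : Subgroup (G ⧸ R), Subgroup.normalizer (H : Set (G ⧸ R)) = ⊤ := by
    intro H
    rw [Subgroup.normalizer_eq_top_iff]
    constructor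
    intro n hn g
    obtain ⟨g', rfl⟩ := QuotientGroup.mk'_surjective R g
    obtain ⟨n', rfl⟩ := QuotientGroup.mk'_surjective R n
    have h1 : g' * n' * g'⁻¹ * n'⁻¹ ∈ R := by
      apply hcomm
      rw [_root_.commutator_def]
      exact Subgroup.commutator_mem_commutator (Subgroup.mem_top g') (Subgroup.mem_top n')
    have h2 : QuotientGroup.mk' R (g' * n' * g'⁻¹ * n'⁻¹) = 1 := (QuotientGroup.eq_one_iff _).mpr h1
    rw [map_mul, map_inv, mul_inv_eq_one, map_mul, map_mul, map_inv] at h2
    rw [h2]; exact hn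
  have h := (Cfsg.Agent.S0545.result K hK R).2
  have hl : Cfsg.systemNormalizer (fun p => (K p).map (QuotientGroup.mk' R)) = ⊤ := by
    rw [Cfsg.systemNormalizer]
    simp only [hnorm, iInf_top]
  have hr : (Cfsg.systemNormalizer K).map (QuotientGroup.mk' R) = ⊥ := by
    rw [Subgroup.map_eq_bot_iff, QuotientGroup.ker_mk', hR]
    exact hDM.trans le_sup_left
  rw [hl, hr] at h
  have hRtop : R = ⊤ := by
    rw [← QuotientGroup.ker_mk' R, ← MonoidHom.comap_bot, ← h, Subgroup.comap_top]
  have hnt : Nontrivial (G ⧸ M) := by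
    rw [← not_subsingleton_iff_nontrivial]
    intro hs
    apply hne
    rw [← Subgroup.index_eq_one, Subgroup.index_eq_card]
    exact Nat.card_of_subsingleton (1 : G ⧸ M)
  have hlt := Group.IsSolvable.commutator_lt_top_of_nontrivial (G ⧸ M)
  apply hlt.ne
  have hsurj := QuotientGroup.mk'_surjective M
  have h3 : (commutator G).map (QuotientGroup.mk' M) = commutator (G ⧸ M) := by
    rw [_root_.commutator_def, _root_.commutator_def, Subgroup.map_commutator,
      Subgroup.map_top_of_surjective _ hsurj]
  rw [← h3, ← Subgroup.map_top_of_surjective _ hsurj, ← hRtop, hR, Subgroup.map_sup]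
  have h4 : M.map (QuotientGroup.mk' M) = ⊥ := by
    rw [Subgroup.map_eq_bot_iff, QuotientGroup.ker_mk']
  rw [h4, bot_sup_eq]

end Cfsg.Agent.S0546
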