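import Cfsg.Statements.S0547
import Mathlib
import Cfsg.Agent.Lib.Helper4.MinNormal

set_option autoImplicit false
open Cfsg

namespace Cfsg.Agent.S0547

theorem trans_of_normal {G : Type*} [Group G] {Ω : Type*} [MulAction G Ω] [FaithfulSMul G Ω]
    (hprim : MulAction.IsPreprimitive G Ω) (M : Subgroup G) [M.Normal] (hM : M ≠ ⊥) :
    MulAction.IsPretransitive M Ω := by
  apply MulAction.IsQuasiPreprimitive.isPretransitive_of_normal (G := G)
  intro h
  apply hM
  rw [Subgroup.eq_bot_iff_forall]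
  intro m hm
  apply FaithfulSMul.eq_of_smul_eq_smul (α := Ω)
  intro ω
  have : ω ∈ MulAction.fixedPoints M Ω := h ▸ Set.mem_univ ω
  rw [one_smul]
  exact this ⟨m, hm⟩

theorem eq_one_of_fix {G : Type*} [Group G] {Ω : Type*} [MulAction G Ω] [FaithfulSMul G Ω]
    (M : Subgroup G) (htr : MulAction.IsPretransitive M Ω) (ω : Ω) (h : G) (hfix : h • ω = ω)
    (hcomm : ∀ m ∈ M, h * m = m * h) : h = 1 := by
  apply FaithfulSMul.eq_of_smul_eq_smul (α := Ω)
  intro ω'
  obtain ⟨m, rfl⟩ := MulAction.exists_smul_eq M ω ω'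
  rw [one_smul]
  show h • ((m : G) • ω) = (m : G) • ω
  rw [← mul_smul, hcomm m m.2, mul_smul, hfix]

/-- Let a finite solvable group G act faithfully and primitively on a set, and let M be a minimal normal subgroup of G. Then M is transitive with trivial point stabilizers, and the number of points equals the order of M, which is a prime power p ^ d with d ≥ 1. -/
theorem result {G : Type*} [Group G] [Finite G] [Group.IsSolvable G] {Ω : Type*} [Nonempty Ω] [MulAction G Ω] [FaithfulSMul G Ω] (hprim : MulAction.IsPreprimitive G Ω) (M : Subgroup G) [M.Normal] (hM : M ≠ ⊥) (hmin : ∀ K : Subgroup G, K.Normal → K ≤ M → K = ⊥ ∨ K = M) : MulAction.IsPretransitive M Ω ∧ (∀ ω : Ω, MulAction.stabilizer M ω = ⊥) ∧ ∃ p d : ℕ, p.Prime ∧ 0 < d ∧ Nat.card Ω = p ^ d ∧ Nat.card M = p ^ d := by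
  have hMin : Lib.Helper4.IsMinNormal M := ⟨inferInstance, hM, hmin⟩
  have htr := trans_of_normal hprim M hM
  have hcomm := Lib.Helper4.minNormal_comm hMin
  have hstab : ∀ ω : Ω, MulAction.stabilizer M ω = ⊥ := by
    intro ω
    rw [Subgroup.eq_bot_iff_forall]
    intro m hm
    have h1 : (m : G) • ω = ω := hm
    exact Subtype.ext (eq_one_of_fix M htr ω m h1 (fun m' hm' => hcomm m m.2 m' hm'))
  refine ⟨htr, hstab, ?_⟩
  obtain ⟨p, hp, hpg⟩ := Lib.Helper4.minNormal_isPGroup hMin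
  have : Fact p.Prime := ⟨hp⟩
  have hnt : Nontrivial M := (Subgroup.nontrivial_iff_ne_bot M).mpr hM
  obtain ⟨d, hd, hcard⟩ := hpg.nontrivial_iff_card.mp hnt
  refine ⟨p, d, hp, hd, ?_, hcard⟩
  rw [← hcard]
  obtain ⟨ω⟩ : Nonempty Ω := inferInstance
  symm
  apply Nat.card_congr
  refine Equiv.ofBijective (fun m : M => m • ω) ⟨?_, fun ω' => MulAction.exists_smul_eq M ω ω'⟩
  intro a b hab
  have h1 : (b⁻¹ * a) • ω = ω := by
    rw [mul_smul]
    show b⁻¹ • (a • ω) = ω
    have hab' : a • ω = b • ω := hab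
    rw [hab', inv_smul_smul]
  have h2 : b⁻¹ * a ∈ MulAction.stabilizer M ω := h1
  rw [hstab ω, Subgroup.mem_bot] at h2
  exact (inv_mul_eq_one.mp h2).symm

end Cfsg.Agent.S0547
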