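import Cfsg.Statements.S0548
import Mathlib
import Cfsg.Agent.Lib.Helper4.MinNormal
import Cfsg.Agent.Lib.Helper4.Supersolvable3
import Cfsg.Agent.S0547

set_option autoImplicit false
open Cfsg

namespace Cfsg.Agent.S0548

open scoped Pointwise in
theorem compl {G : Type*} [Group G] {Ω : Type*} [MulAction G Ω] (M : Subgroup G)
    (htr : MulAction.IsPretransitive M Ω) (ω : Ω) (hdisj : Disjoint M (MulAction.stabilizer G ω)) :
    Subgroup.IsComplement' M (MulAction.stabilizer G ω) := by
  have hmul : (M : Set G) * (MulAction.stabilizer G ω : Set G) = Set.univ := by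
    rw [Set.eq_univ_iff_forall]
    intro g
    obtain ⟨m, hm⟩ := MulAction.exists_smul_eq M ω (g • ω)
    refine ⟨m, m.2, (m : G)⁻¹ * g, ?_, by group⟩
    show ((m : G)⁻¹ * g) • ω = ω
    rw [mul_smul, ← hm]
    exact inv_smul_smul (m : G) ω
  exact Subgroup.isComplement'_of_disjoint_and_mul_eq_univ hdisj hmul

/-- Let a finite solvable group G act faithfully and primitively on a set, let M be a minimal normal subgroup and H the stabilizer of a point. Then H is a complement to M, no non-identity element of H centralizes M, and the only subgroups of M normalized by H are the trivial subgroup and M. -/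
theorem result {G : Type*} [Group G] [Finite G] [Group.IsSolvable G] {Ω : Type*} [MulAction G Ω] [FaithfulSMul G Ω] (hprim : MulAction.IsPreprimitive G Ω) (M : Subgroup G) [M.Normal] (hM : M ≠ ⊥) (hmin : ∀ K : Subgroup G, K.Normal → K ≤ M → K = ⊥ ∨ K = M) (ω : Ω) : Subgroup.IsComplement' M (MulAction.stabilizer G ω) ∧ MulAction.stabilizer G ω ⊓ Subgroup.centralizer (M : Set G) = ⊥ ∧ ∀ K : Subgroup G, K ≤ M → MulAction.stabilizer G ω ≤ Subgroup.normalizer (K : Set G) → K = ⊥ ∨ K = M := by
  have hMin : Lib.Helper4.IsMinNormal M := ⟨inferInstance, hM, hmin⟩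
  have htr := S0547.trans_of_normal hprim M hM
  have hcomm := Lib.Helper4.minNormal_comm hMin
  have hdisj : Disjoint M (MulAction.stabilizer G ω) := by
    rw [disjoint_iff, Subgroup.eq_bot_iff_forall]
    rintro m ⟨hm, hfix⟩
    exact S0547.eq_one_of_fix M htr ω m hfix (fun m' hm' => hcomm m hm m' hm')
  have hc := compl M htr ω hdisj
  refine ⟨hc, ?_, ?_⟩
  · rw [Subgroup.eq_bot_iff_forall]
    rintro h ⟨hfix, hcent⟩
    exact S0547.eq_one_of_fix M htr ω h hfix (fun m hm => (Subgroup.mem_centralizer_iff.mp hcent m hm).symm)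
  · intro K hKM hK
    apply hmin K _ hKM
    apply Lib.Helper4.normal_of_decomp K M _ hc.sup_eq_top
    · intro a ha n hn
      exact hcomm a ha n (hKM hn)
    · intro b hb n hn
      exact (Subgroup.mem_normalizer_iff.mp (hK hb) n).mp hn

end Cfsg.Agent.S0548
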