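import Cfsg.Statements.S0549
import Mathlib
import Cfsg.Agent.Lib.Helper4.Supersolvable3

set_option autoImplicit false
open Cfsg

namespace Cfsg.Agent.S0549

theorem sup_eq_top_of_normal {G : Type*} [Group G] (U : Subgroup G) (hU : IsCoatom U)
    (hcore : U.normalCore = ⊥) (N : Subgroup G) [N.Normal] (hN : N ≠ ⊥) : N ⊔ U = ⊤ := by
  apply hU.2
  refine lt_of_le_of_ne le_sup_right (fun h => hN ?_)
  have h1 : N ≤ U := h ▸ le_sup_left
  have h2 : N ≤ U.normalCore := Subgroup.normal_le_normalCore.mpr h1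
  rw [hcore] at h2
  exact le_bot_iff.mp h2

theorem part1 {G : Type*} [Group G] (U : Subgroup G) (hU : IsCoatom U)
    (hcore : U.normalCore = ⊥) (N : Subgroup G) [N.Normal] (hN : N ≠ ⊥) :
    Subgroup.centralizer (N : Set G) ⊓ U = ⊥ := by
  have hNU := sup_eq_top_of_normal U hU hcore N hN
  have hn : (Subgroup.centralizer (N : Set G) ⊓ U).Normal := by
    apply Lib.Helper4.normal_of_decomp _ N U hNU
    · intro a ha n hn
      exact (Subgroup.mem_centralizer_iff.mp hn.1 a ha)
    · intro b hb n hn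
      exact ⟨(inferInstance : (Subgroup.centralizer (N : Set G)).Normal).conj_mem n hn.1 b,
        U.mul_mem (U.mul_mem hb hn.2) (U.inv_mem hb)⟩
  have h2 : Subgroup.centralizer (N : Set G) ⊓ U ≤ U.normalCore :=
    Subgroup.normal_le_normalCore.mpr inf_le_right
  rw [hcore] at h2
  exact le_bot_iff.mp h2

theorem part2 {G : Type*} [Group G] (U : Subgroup G) (hU : IsCoatom U)
    (hcore : U.normalCore = ⊥) (N : Subgroup G) [N.Normal] (hN : N ≠ ⊥)
    (K : Subgroup G) (hK : K.Normal) (hKC : K ≤ Subgroup.centralizer (N : Set G)) :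
    K = ⊥ ∨ K = Subgroup.centralizer (N : Set G) := by
  by_cases hKb : K = ⊥
  · exact Or.inl hKb
  right
  have hKU := sup_eq_top_of_normal U hU hcore K hKb
  apply le_antisymm hKC
  intro c hc
  have hc' : c ∈ ((K ⊔ U : Subgroup G) : Set G) := by rw [hKU]; trivial
  rw [Subgroup.normal_mul] at hc'
  obtain ⟨k, hk, u, hu, rfl⟩ := hc'
  have hu' : u ∈ Subgroup.centralizer (N : Set G) := by
    have : u = k⁻¹ * (k * u) := by group
    rw [this]
    exact mul_mem (inv_mem (hKC hk)) hc
  have : u ∈ Subgroup.centralizer (N : Set G) ⊓ U := ⟨hu', hu⟩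
  rw [part1 U hU hcore N hN, Subgroup.mem_bot] at this
  subst this
  simpa using hk

/-- Let U be a maximal subgroup of a finite group G whose normal core is trivial, and N a nontrivial normal subgroup with centralizer C. Then C ∩ U = 1, and either C = 1 or C is a minimal normal subgroup of G. -/
theorem result {G : Type*} [Group G] [Finite G] (U : Subgroup G) (hU : IsCoatom U) (hcore : U.normalCore = ⊥) (N : Subgroup G) [N.Normal] (hN : N ≠ ⊥) : Subgroup.centralizer (N : Set G) ⊓ U = ⊥ ∧ (Subgroup.centralizer (N : Set G) = ⊥ ∨ (Subgroup.centralizer (N : Set G) ≠ ⊥ ∧ ∀ K : Subgroup G, K.Normal → K ≤ Subgroup.centralizer (N : Set G) → K = ⊥ ∨ K = Subgroup.centralizer (N : Set G))) := by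
  refine ⟨part1 U hU hcore N hN, ?_⟩
  by_cases hC : Subgroup.centralizer (N : Set G) = ⊥
  · exact Or.inl hC
  · exact Or.inr ⟨hC, fun K hK hKC => part2 U hU hcore N hN K hK hKC⟩

end Cfsg.Agent.S0549
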