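import Cfsg.Statements.S0550
import Mathlib
import Cfsg.Agent.S0549

set_option autoImplicit false
open Cfsg

namespace Cfsg.Agent.S0550

theorem iso_of_same_image {G Q : Type*} [Group G] [Group Q] (π : G →* Q) (D B : Subgroup G)
    (hD : D ⊓ π.ker = ⊥) (hB : B ⊓ π.ker = ⊥) (h : D.map π = B.map π) : Nonempty (D ≃* B) := by
  have inj : ∀ E : Subgroup G, E ⊓ π.ker = ⊥ → Function.Injective (π.subgroupMap E) := by
    intro E hE
    rw [injective_iff_map_eq_one]
    intro a ha
    have h1 : π (a : G) = 1 := congrArg Subtype.val ha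
    have h3 : (a : G) ∈ E ⊓ π.ker := ⟨a.2, h1⟩
    rw [hE, Subgroup.mem_bot] at h3
    exact Subtype.ext h3
  let eD : D ≃* D.map π := MulEquiv.ofBijective (π.subgroupMap D) ⟨inj D hD, π.subgroupMap_surjective D⟩
  let eB : B ≃* B.map π := MulEquiv.ofBijective (π.subgroupMap B) ⟨inj B hB, π.subgroupMap_surjective B⟩
  exact ⟨eD.trans ((MulEquiv.subgroupCongr h).trans eB.symm)⟩

theorem half {G : Type*} [Group G] (U : Subgroup G) (hU : IsCoatom U) (hcore : U.normalCore = ⊥)
    (A B : Subgroup G) [A.Normal] [B.Normal] (hA : A ≠ ⊥) (hB : B ≠ ⊥)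
    (hAmin : ∀ K : Subgroup G, K.Normal → K ≤ A → K = ⊥ ∨ K = A)
    (hBmin : ∀ K : Subgroup G, K.Normal → K ≤ B → K = ⊥ ∨ K = B) (hAB : A ≠ B) :
    Subgroup.centralizer (A : Set G) = B ∧ Subgroup.IsComplement' B U ∧
      Nonempty (↥((A ⊔ B) ⊓ U) ≃* B) := by
  have hdisj : Disjoint A B := by
    rw [disjoint_iff]
    rcases hAmin (A ⊓ B) inferInstance inf_le_left with h | h
    · exact h
    · exfalso
      have hle : A ≤ B := h ▸ inf_le_right
      rcases hBmin A inferInstance hle with h' | h'
      · exact hA h'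
      · exact hAB h'
  have hBC : B ≤ Subgroup.centralizer (A : Set G) := by
    intro b hb
    rw [Subgroup.mem_centralizer_iff]
    intro a ha
    exact Subgroup.commute_of_normal_of_disjoint A B inferInstance inferInstance hdisj a b ha hb
  have hC : Subgroup.centralizer (A : Set G) = B := by
    rcases S0549.part2 U hU hcore A hA B inferInstance hBC with h | h
    · exact absurd h hB
    · exact h.symm
  have hBU : B ⊓ U = ⊥ := by rw [← hC]; exact S0549.part1 U hU hcore A hA
  have hBUtop := S0549.sup_eq_top_of_normal U hU hcore B hB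
  have hAUtop := S0549.sup_eq_top_of_normal U hU hcore A hA
  have hcompl : Subgroup.IsComplement' B U := by
    apply Subgroup.isComplement'_of_disjoint_and_mul_eq_univ (disjoint_iff.mpr hBU)
    rw [← Subgroup.normal_mul, hBUtop]; rfl
  refine ⟨hC, hcompl, ?_⟩
  -- both D and B embed in G ⧸ A with the same image
  have hAC : A ≤ Subgroup.centralizer (B : Set G) := by
    intro a ha
    rw [Subgroup.mem_centralizer_iff]
    intro b hb
    exact (Subgroup.commute_of_normal_of_disjoint A B inferInstance inferInstance hdisj a b ha hb).symm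
  have hAU : A ⊓ U = ⊥ := by
    have h1 := S0549.part1 U hU hcore B hB
    exact le_bot_iff.mp (h1 ▸ inf_le_inf_right U hAC)
  apply iso_of_same_image (QuotientGroup.mk' A)
  · rw [QuotientGroup.ker_mk']
    apply le_bot_iff.mp
    rw [← hAU]
    exact le_inf inf_le_right (inf_le_left.trans inf_le_right)
  · rw [QuotientGroup.ker_mk', inf_comm]; exact hdisj.eq_bot
  · have hmapA : A.map (QuotientGroup.mk' A) = ⊥ := by
      rw [Subgroup.map_eq_bot_iff, QuotientGroup.ker_mk']
    have hsup : ((A ⊔ B) ⊓ U) ⊔ A = B ⊔ A := by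
      apply le_antisymm
      · exact sup_le (inf_le_left.trans (by rw [sup_comm])) le_sup_right
      · apply sup_le _ le_sup_right
        intro b hb
        have hb' : b ∈ ((A ⊔ U : Subgroup G) : Set G) := by rw [hAUtop]; trivial
        rw [Subgroup.normal_mul] at hb'
        obtain ⟨a, ha, u, hu, rfl⟩ := hb'
        have hu' : u ∈ A ⊔ B := by
          have : u = a⁻¹ * (a * u) := by group
          rw [this]
          exact mul_mem (Subgroup.mem_sup_left (inv_mem ha)) (Subgroup.mem_sup_right hb)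
        exact mul_mem (Subgroup.mem_sup_right ha) (Subgroup.mem_sup_left ⟨hu', hu⟩)
    have := congrArg (Subgroup.map (QuotientGroup.mk' A)) hsup
    rwa [Subgroup.map_sup, Subgroup.map_sup, hmapA, sup_bot_eq, sup_bot_eq] at this

/-- Let U be a maximal subgroup with trivial normal core in a finite group G, and A ≠ B two minimal normal subgroups. Then A is the centralizer of B and B that of A, U complements each of them, A and B are non-abelian, and A, B and (A ⊔ B) ∩ U are pairwise isomorphic. -/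
theorem result {G : Type*} [Group G] [Finite G] (U : Subgroup G) (hU : IsCoatom U) (hcore : U.normalCore = ⊥) (A B : Subgroup G) [A.Normal] [B.Normal] (hA : A ≠ ⊥) (hB : B ≠ ⊥) (hAmin : ∀ K : Subgroup G, K.Normal → K ≤ A → K = ⊥ ∨ K = A) (hBmin : ∀ K : Subgroup G, K.Normal → K ≤ B → K = ⊥ ∨ K = B) (hAB : A ≠ B) : Subgroup.centralizer (B : Set G) = A ∧ Subgroup.centralizer (A : Set G) = B ∧ Subgroup.IsComplement' A U ∧ Subgroup.IsComplement' B U ∧ ¬ IsMulCommutative A ∧ Nonempty (A ≃* B) ∧ Nonempty (A ≃* ↥((A ⊔ B) ⊓ U)) := by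
  obtain ⟨h1, h2, ⟨e1⟩⟩ := half U hU hcore A B hA hB hAmin hBmin hAB
  obtain ⟨h3, h4, ⟨e2⟩⟩ := half U hU hcore B A hB hA hBmin hAmin hAB.symm
  have e2' : ↥((A ⊔ B) ⊓ U) ≃* A := (MulEquiv.subgroupCongr (by rw [sup_comm])).trans e2
  refine ⟨h3, h1, h4, h2, ?_, ⟨e2'.symm.trans e1⟩, ⟨e2'.symm⟩⟩
  intro hcomm
  have hle : A ≤ Subgroup.centralizer (A : Set G) := by
    intro a ha
    rw [Subgroup.mem_centralizer_iff]
    intro b hb
    have := (isMulCommutative_iff.mp hcomm) ⟨b, hb⟩ ⟨a, ha⟩
    exact congrArg Subtype.val this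
  rw [h1] at hle
  rcases hBmin A inferInstance hle with h' | h'
  · exact hA h'
  · exact hAB h'

end Cfsg.Agent.S0550
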