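import Cfsg.Statements.S0551
import Mathlib
import Cfsg.Agent.Lib.Helper4.NilpNorm
import Cfsg.Agent.Lib.Helper4.MinNormal
import Cfsg.Agent.Lib.Helper4.CompSys

set_option autoImplicit false
open Pointwise
open Cfsg

namespace Cfsg.Agent.S0551

universe u

open Subgroup Cfsg.Agent.Lib.Helper4

theorem nilp_inf {G : Type u} [Group G] (U : Subgroup G) (hU : IsCoatom U) (hc : U.normalCore = ⊥)
    (M : Subgroup G) [hM : M.Normal] [Group.IsNilpotent M] : M ⊓ U = ⊥ := by
  have key : (M ⊓ U).Normal → M ⊓ U = ⊥ := by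
    intro hn
    have : M ⊓ U ≤ U.normalCore := Subgroup.normal_le_normalCore.mpr inf_le_right
    rwa [hc, le_bot_iff] at this
  apply key
  rcases (inf_le_left : M ⊓ U ≤ M).lt_or_eq with hlt | heq
  · obtain ⟨x, hxM, hxN, hxD⟩ := Cfsg.Agent.Lib.Helper4.exists_normalizer_of_nilpotent M (M ⊓ U) hlt
    have hxU : x ∉ U := fun h => hxD ⟨hxM, h⟩
    have hUN : U ≤ normalizer ((M ⊓ U : Subgroup G) : Set G) := by
      intro u hu
      rw [← conj_smul_eq_self_iff_mem_normalizer, Subgroup.smul_inf, Subgroup.Normal.conj_smul_eq_self,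
        Subgroup.conj_smul_eq_self_of_mem hu]
    have hlt2 : U < normalizer ((M ⊓ U : Subgroup G) : Set G) :=
      lt_of_le_of_ne hUN (by intro h; exact hxU (h ▸ hxN))
    exact normalizer_eq_top_iff.mp (hU.2 _ hlt2)
  · rw [heq]; exact hM

/-- In a finite solvable group all core-free maximal subgroups are conjugate. -/
theorem result {G : Type*} [Group G] [Finite G] [Group.IsSolvable G] (U V : Subgroup G) (hU : IsCoatom U) (hV : IsCoatom V) (hUc : U.normalCore = ⊥) (hVc : V.normalCore = ⊥) : ∃ g : G, MulAut.conj g • U = V := by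
  rcases subsingleton_or_nontrivial G with hs | hnt
  · exact absurd (Subsingleton.elim U ⊤) hU.1
  obtain ⟨p, N, hp, hNn, hNb, hNp⟩ := exists_normal_pgroup (G := G)
  have hpF : Fact p.Prime := ⟨hp⟩
  have hNnil : Group.IsNilpotent N := hNp.isNilpotent
  have hNU : N ⊓ U = ⊥ := nilp_inf U hU hUc N
  have hNV : N ⊓ V = ⊥ := nilp_inf V hV hVc N
  have hsup : ∀ W : Subgroup G, IsCoatom W → N ⊓ W = ⊥ → W ⊔ N = ⊤ := by
    intro W hW hNW
    apply hW.2
    refine lt_of_le_of_ne le_sup_left ?_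
    intro h
    apply hNb
    have : N ≤ W := h ▸ le_sup_right
    rw [← hNW, inf_eq_left.mpr this]
  have hsupU := hsup U hU hNU
  have hsupV := hsup V hV hNV
  by_cases hNt : N = ⊤
  · rw [hNt, top_inf_eq] at hNU hNV
    refine ⟨1, ?_⟩
    rw [hNU, hNV, map_one, one_smul]
  have hntq : Nontrivial (G ⧸ N) := by
    rw [← not_subsingleton_iff_nontrivial]
    intro hs
    apply hNt
    rw [← Subgroup.index_eq_one, Subgroup.index_eq_card]
    exact Nat.card_of_subsingleton (1 : G ⧸ N)
  obtain ⟨q, Mb, hq, hMbn, hMbb, hMbq⟩ := exists_normal_pgroup (G := G ⧸ N)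
  have hqF : Fact q.Prime := ⟨hq⟩
  have hsurj := QuotientGroup.mk'_surjective N
  obtain ⟨M, hMdef⟩ : ∃ M, M = Mb.comap (QuotientGroup.mk' N) := ⟨_, rfl⟩
  have hMn : M.Normal := by rw [hMdef]; exact hMbn.comap _
  have hNM : N ≤ M := by
    rw [hMdef]
    conv_lhs => rw [← QuotientGroup.ker_mk' N]
    exact ker_le_comap _ _
  have hMN : ¬ M ≤ N := by
    intro hle
    apply hMbb
    rw [← Subgroup.map_comap_eq_self_of_surjective hsurj Mb, ← hMdef, Subgroup.map_eq_bot_iff,
      QuotientGroup.ker_mk']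
    exact hle
  have ded : ∀ W : Subgroup G, W ⊔ N = ⊤ → M ⊓ W ≠ ⊥ := by
    intro W hW hbot
    apply hMN
    intro m hm
    have h1 : m ∈ W ⊔ N := hW ▸ mem_top m
    rw [mem_sup_of_normal_right] at h1
    obtain ⟨w, hw, n, hn, e⟩ := h1
    have hw' : w ∈ M ⊓ W := by
      refine ⟨?_, hw⟩
      have : w = m * n⁻¹ := by rw [← e]; group
      rw [this]
      exact M.mul_mem hm (M.inv_mem (hNM hn))
    rw [hbot, mem_bot] at hw'
    rw [← e, hw', one_mul]
    exact hn
  have hqp : q ≠ p := by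
    rintro rfl
    have hMp : IsPGroup q M := by
      rw [hMdef]
      exact hMbq.comap_of_ker_isPGroup _ (by rw [QuotientGroup.ker_mk']; exact hNp)
    have := hMp.isNilpotent
    exact ded U hsupU (nilp_inf U hU hUc M)
  have facts : ∀ W : Subgroup G, IsCoatom W → W.normalCore = ⊥ → N ⊓ W = ⊥ → W ⊔ N = ⊤ →
      (∃ S : Sylow q M, (S : Subgroup M) = (M ⊓ W).subgroupOf M) ∧
        normalizer ((M ⊓ W : Subgroup G) : Set G) = W := by
    intro W hW hWc hNW hWN
    constructor
    · have hpg : IsPGroup q (M ⊓ W : Subgroup G) := by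
        intro x
        have hx : QuotientGroup.mk' N (x : G) ∈ Mb := by
          have h0 : M ≤ Mb.comap (QuotientGroup.mk' N) := hMdef.le
          exact h0 x.2.1
        obtain ⟨k, hk⟩ := hMbq ⟨_, hx⟩
        refine ⟨k, ?_⟩
        have h1 : (QuotientGroup.mk' N (x : G)) ^ q ^ k = 1 := congrArg Subtype.val hk
        rw [← map_pow] at h1
        have h2 : (x : G) ^ q ^ k ∈ N := (QuotientGroup.eq_one_iff _).mp h1
        have h3 : (x : G) ^ q ^ k ∈ N ⊓ W := ⟨h2, pow_mem x.2.2 _⟩
        rw [hNW, mem_bot] at h3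
        exact Subtype.ext h3
      have hpg' : IsPGroup q ((M ⊓ W).subgroupOf M) := hpg.comap_subtype
      have hidx : ¬ q ∣ ((M ⊓ W).subgroupOf M).index := by
        intro hd
        have h1 : ((M ⊓ W).subgroupOf M).index = W.relIndex M := by
          rw [Subgroup.inf_subgroupOf_left]; rfl
        rw [h1] at hd
        have h2 : W.relIndex M ∣ W.index := relIndex_dvd_index_of_normal_right W M
        have h3 : W.index ∣ Nat.card N := by
          rw [← Subgroup.relIndex_top_right, ← hWN, ← relIndex_eq_relIndex_sup]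
          exact Subgroup.relIndex_dvd_card W N
        obtain ⟨a, ha⟩ := IsPGroup.iff_card.mp hNp
        rw [ha] at h3
        have h4 := hq.dvd_of_dvd_pow (hd.trans (h2.trans h3))
        exact hqp ((Nat.prime_dvd_prime_iff_eq hq hp).mp h4)
      exact ⟨hpg'.toSylow hidx, rfl⟩
    · have hWN' : W ≤ normalizer ((M ⊓ W : Subgroup G) : Set G) := by
        intro u hu
        rw [← conj_smul_eq_self_iff_mem_normalizer, Subgroup.smul_inf, Subgroup.Normal.conj_smul_eq_self,
          Subgroup.conj_smul_eq_self_of_mem hu]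
      by_contra hne
      have hlt : W < normalizer ((M ⊓ W : Subgroup G) : Set G) := lt_of_le_of_ne hWN' (Ne.symm hne)
      have hn : (M ⊓ W).Normal := normalizer_eq_top_iff.mp (hW.2 _ hlt)
      have : M ⊓ W ≤ W.normalCore := Subgroup.normal_le_normalCore.mpr inf_le_right
      rw [hWc, le_bot_iff] at this
      exact ded W hWN this
  obtain ⟨⟨S1, hS1⟩, hn1⟩ := facts U hU hUc hNU hsupU
  obtain ⟨⟨S2, hS2⟩, hn2⟩ := facts V hV hVc hNV hsupV
  obtain ⟨m, hm⟩ := MulAction.exists_smul_eq M S1 S2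
  have e1 : MulAut.conj m • (S1 : Subgroup M) = S2 := by rw [← hm]; rfl
  rw [hS1, hS2, Subgroup.conj_smul_subgroupOf inf_le_left, Subgroup.subgroupOf_inj,
    inf_eq_left.mpr inf_le_left, inf_eq_left.mpr (conj_smul_le_of_le inf_le_left m)] at e1
  refine ⟨m, ?_⟩
  rw [← hn1, ← hn2, ← e1]
  exact Subgroup.map_equiv_normalizer_eq _ (MulAut.conj (m : G))

end Cfsg.Agent.S0551
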