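import Cfsg.Statements.S0552
import Mathlib
import Cfsg.Agent.S0044
import Cfsg.Agent.Lib.Helper23.Fitting

set_option autoImplicit false
open Cfsg

namespace Cfsg.Agent.S0552

/-- Let σ be an automorphism of a finite solvable group G fixing every element of the Fitting subgroup. If σ is not the identity then the order of σ and the order of G have a common prime factor. -/
theorem result {G : Type*} [Group G] [Finite G] [Group.IsSolvable G] (σ : G ≃* G) (hσ : ∀ x ∈ Cfsg.fittingSubgroup G, σ x = x) (hne : σ ≠ MulEquiv.refl G) : ¬ (orderOf σ).Coprime (Nat.card G) := by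
  intro hcop
  apply hne
  ext g
  have hF : (Cfsg.fittingSubgroup G).Normal := Cfsg.Agent.Lib.Helper23.fittingSubgroup_normal' G
  have hz : g⁻¹ * σ g ∈ Cfsg.fittingSubgroup G := by
    apply Cfsg.Agent.S0044.result
    rw [Subgroup.mem_centralizer_iff]
    intro f hf
    have h1 : σ (g * f * g⁻¹) = g * f * g⁻¹ := hσ _ (hF.conj_mem f hf g)
    rw [map_mul, map_mul, hσ f hf, map_inv] at h1
    have h2 : σ g * f = g * f * g⁻¹ * σ g := by
      rw [← h1]; group
    calc f * (g⁻¹ * σ g) = g⁻¹ * (g * f * g⁻¹ * σ g) := by group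
      _ = g⁻¹ * (σ g * f) := by rw [h2]
      _ = g⁻¹ * σ g * f := by group
  have hk : ∀ k : ℕ, (σ ^ k) g = g * (g⁻¹ * σ g) ^ k := by
    intro k
    induction k with
    | zero => simp
    | succ k ih =>
      rw [pow_succ', MulAut.mul_apply, ih, map_mul, map_pow, hσ _ hz, pow_succ', ← mul_assoc, ← mul_assoc,
        mul_inv_cancel, one_mul]
  have h1 := hk (orderOf σ)
  rw [pow_orderOf_eq_one] at h1
  have h2 : (g⁻¹ * σ g) ^ (orderOf σ) = 1 := by
    have : g * (g⁻¹ * σ g) ^ (orderOf σ) = g * 1 := by rw [← h1]; simp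
    exact mul_left_cancel this
  have h3 : (g⁻¹ * σ g) ^ (Nat.card G) = 1 := pow_card_eq_one'
  have h4 : (g⁻¹ * σ g) ^ (Nat.gcd (orderOf σ) (Nat.card G)) = 1 := pow_gcd_eq_one.mpr ⟨h2, h3⟩
  rw [hcop, pow_one] at h4
  have : σ g = g := by
    have := congrArg (fun t => g * t) h4
    simpa using this
  simpa using this

end Cfsg.Agent.S0552
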