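import Cfsg.Statements.S0553
import Mathlib
import Cfsg.Agent.Lib.Helper4.MinNormal

set_option autoImplicit false
open Cfsg

namespace Cfsg.Agent.S0553

universe u

theorem all_sylow_normal {G : Type u} [Group G] [Finite G] (p : ℕ) [Fact p.Prime] (Q : Sylow p G)
    (hQ : (Q : Subgroup G).Normal) (P : Sylow p G) : (P : Subgroup G).Normal := by
  obtain ⟨g, hg⟩ := MulAction.exists_smul_eq G Q P
  rw [Sylow.smul_eq_of_normal] at hg
  rw [← hg]
  exact hQ

theorem aux : ∀ (n : ℕ) (G : Type u) [Group G] [Finite G] [Group.IsSolvable G] [Nontrivial G],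
    Nat.card G = n → (∀ M : Subgroup G, IsCoatom M → (Nat.card M).Coprime M.index) →
    ∃ p : ℕ, p.Prime ∧ p ∣ Nat.card G ∧ ∀ P : Sylow p G, (P : Subgroup G).Normal := by
  intro n
  induction n using Nat.strong_induction_on with
  | _ n ih =>
    intro G _ _ _ _ hn h
    obtain ⟨p, N, hp, hNn, hNb, hNp⟩ := Lib.Helper4.exists_normal_pgroup (G := G)
    have : Fact p.Prime := ⟨hp⟩
    have hpN : p ∣ Nat.card N := by
      rcases hNp.card_eq_or_dvd with h1 | h1
      · exact absurd (Subgroup.card_eq_one.mp h1) hNb
      · exact h1
    have hpG : p ∣ Nat.card G := hpN.trans (Subgroup.card_subgroup_dvd_card N)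
    obtain ⟨a, ha⟩ := IsPGroup.iff_card.mp hNp
    by_cases hcase : ∃ M : Subgroup G, IsCoatom M ∧ ¬ N ≤ M
    · obtain ⟨M, hM, hNM⟩ := hcase
      have hsup : M ⊔ N = ⊤ := by
        apply hM.2
        exact lt_of_le_of_ne le_sup_left (fun h' => hNM (h' ▸ le_sup_right))
      have hidx : M.index ∣ p ^ a := by
        rw [← ha, ← Subgroup.relIndex_top_right, ← hsup, ← Lib.Helper4.relIndex_eq_relIndex_sup]
        exact Subgroup.relIndex_dvd_card M N
      have hidx1 : M.index ≠ 1 := fun h' => hM.1 (Subgroup.index_eq_one.mp h')
      have hpidx : p ∣ M.index := by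
        obtain ⟨k, hk, hk'⟩ := (Nat.dvd_prime_pow hp).mp hidx
        rw [hk'] at hidx1 ⊢
        rcases k with _ | k
        · simp at hidx1
        · exact Dvd.intro_left _ (pow_succ p k).symm
      have hpM : ¬ p ∣ Nat.card M := by
        intro hd
        have := Nat.Coprime.eq_one_of_dvd ((h M hM).coprime_dvd_left hd |>.coprime_dvd_right hpidx) (dvd_refl p)
        exact hp.one_lt.ne' this
      have hNidx : ¬ p ∣ N.index := by
        intro hd
        apply hpM
        rw [← Subgroup.relIndex_top_right, ← hsup, Subgroup.relIndex_sup_right] at hd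
        exact hd.trans (Subgroup.relIndex_dvd_card N M)
      exact ⟨p, hp, hpG, all_sylow_normal p (hNp.toSylow hNidx) hNn⟩
    · push Not at hcase
      by_cases hNtop : N = ⊤
      · refine ⟨p, hp, hpG, fun P => ?_⟩
        have := P.3 (hNtop ▸ hNp : IsPGroup p (⊤ : Subgroup G)) le_top
        rw [← this]; infer_instance
      have hsurj := QuotientGroup.mk'_surjective N
      have hnt : Nontrivial (G ⧸ N) := by
        rw [← not_subsingleton_iff_nontrivial]
        intro hs
        apply hNtop
        rw [← Subgroup.index_eq_one, Subgroup.index_eq_card]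
        exact Nat.card_of_subsingleton (1 : G ⧸ N)
      have hlt : Nat.card (G ⧸ N) < n := by
        rw [← hn]
        have h1 := Subgroup.card_eq_card_quotient_mul_card_subgroup N
        have h3 : 0 < Nat.card (G ⧸ N) := Nat.card_pos
        have h4 : 2 ≤ Nat.card N := (hp.two_le).trans (Nat.le_of_dvd Nat.card_pos hpN)
        rw [h1]
        nlinarith
      have hQ : ∀ M : Subgroup (G ⧸ N), IsCoatom M → (Nat.card M).Coprime M.index := by
        intro M hM
        have hco : IsCoatom (M.comap (QuotientGroup.mk' N)) := by
          constructor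
          · intro h'
            apply hM.1
            have := congrArg (Subgroup.map (QuotientGroup.mk' N)) h'
            rwa [Subgroup.map_comap_eq_self_of_surjective hsurj, Subgroup.map_top_of_surjective _ hsurj] at this
          · intro K hK
            have hNK : N ≤ K := by
              refine le_trans ?_ hK.le
              conv_lhs => rw [← QuotientGroup.ker_mk' N]
              exact Subgroup.ker_le_comap _ M
            have h1 : M < K.map (QuotientGroup.mk' N) := by
              refine lt_of_le_of_ne ?_ ?_
              · have := Subgroup.map_mono (f := QuotientGroup.mk' N) hK.le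
                rwa [Subgroup.map_comap_eq_self_of_surjective hsurj] at this
              · intro h'
                apply hK.ne
                rw [h', Subgroup.comap_map_eq, QuotientGroup.ker_mk', sup_eq_left.mpr hNK]
            have h2 := hM.2 _ h1
            have := congrArg (Subgroup.comap (QuotientGroup.mk' N)) h2
            rwa [Subgroup.comap_map_eq, QuotientGroup.ker_mk', sup_eq_left.mpr hNK, Subgroup.comap_top] at this
        have h1 := h _ hco
        rw [Subgroup.index_comap_of_surjective M hsurj] at h1
        refine Nat.Coprime.coprime_dvd_left ?_ h1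
        have : M = (M.comap (QuotientGroup.mk' N)).map (QuotientGroup.mk' N) :=
          (Subgroup.map_comap_eq_self_of_surjective hsurj M).symm
        conv_lhs => rw [this]
        exact Subgroup.card_map_dvd _ _
      obtain ⟨q, hq, hqd, hqn⟩ := ih _ hlt (G ⧸ N) rfl hQ
      have : Fact q.Prime := ⟨hq⟩
      have hqG : q ∣ Nat.card G := by
        rw [Subgroup.card_eq_card_quotient_mul_card_subgroup N]
        exact Dvd.dvd.mul_right hqd _
      refine ⟨q, hq, hqG, fun P => ?_⟩
      have hPbar : ((P : Subgroup G).map (QuotientGroup.mk' N)).Normal := hqn (P.mapSurjective hsurj)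
      have hL : ((P : Subgroup G) ⊔ N).Normal := by
        have := hPbar.comap (QuotientGroup.mk' N)
        rwa [Subgroup.comap_map_eq, QuotientGroup.ker_mk'] at this
      have hfr := Sylow.normalizer_sup_eq_top' P (le_sup_left : (P : Subgroup G) ≤ (P : Subgroup G) ⊔ N)
      have hfr' : Subgroup.normalizer ((P : Subgroup G) : Set G) ⊔ N = ⊤ := by
        rw [← top_le_iff, ← hfr]
        exact sup_le le_sup_left (sup_le (Subgroup.le_normalizer.trans le_sup_left) le_sup_right)
      rcases eq_top_or_exists_le_coatom (Subgroup.normalizer ((P : Subgroup G) : Set G)) with h1 | ⟨M, hM, hle⟩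
      · exact Subgroup.normalizer_eq_top_iff.mp h1
      · exfalso
        apply hM.1
        rw [← top_le_iff, ← hfr']
        exact sup_le hle (hcase M hM)

/-- Let G be a nontrivial finite solvable group in which every maximal subgroup has order coprime to its index. Then for some prime p dividing the order of G the Sylow p-subgroups of G are normal. -/
theorem result {G : Type*} [Group G] [Finite G] [Group.IsSolvable G] [Nontrivial G] (h : ∀ M : Subgroup G, IsCoatom M → (Nat.card M).Coprime M.index) : ∃ p : ℕ, p.Prime ∧ p ∣ Nat.card G ∧ ∀ P : Sylow p G, (P : Subgroup G).Normal := by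
  exact aux _ G rfl h

end Cfsg.Agent.S0553
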