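import Cfsg.Statements.S0554
import Mathlib
import Cfsg.Agent.Lib.Helper4.MinNormal
import Cfsg.Agent.Lib.Helper4.Supersolvable3

set_option autoImplicit false
open Cfsg

namespace Cfsg.Agent.S0554

universe u

theorem absorb {G : Type u} [Group G] (N : Subgroup G) [hN : N.Normal] : ∀ (t : ℕ) (s : Fin t → G) (j : Fin t)
    (n : G), n ∈ N →
    ∃ n' ∈ N, (List.ofFn s).prod * n = (List.ofFn (Function.update s j (s j * n'))).prod := by
  intro t
  induction t with
  | zero => intro s j; exact j.elim0
  | succ t ih =>
    intro s j n hn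
    induction j using Fin.cases with
    | zero =>
      refine ⟨(List.ofFn (fun i => s i.succ)).prod * n * ((List.ofFn (fun i => s i.succ)).prod)⁻¹,
        hN.conj_mem _ hn _, ?_⟩
      rw [List.ofFn_succ, List.ofFn_succ, List.prod_cons, List.prod_cons]
      simp only [Function.update_self]
      have : (fun i : Fin t => Function.update s 0 (s 0 * ((List.ofFn (fun i => s i.succ)).prod * n *
          ((List.ofFn (fun i => s i.succ)).prod)⁻¹)) i.succ) = fun i => s i.succ := by
        funext i; rw [Function.update_of_ne (Fin.succ_ne_zero i)]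
      rw [this]; group
    | succ j' =>
      obtain ⟨n', hn', e⟩ := ih (fun i => s i.succ) j' n hn
      refine ⟨n', hn', ?_⟩
      rw [List.ofFn_succ, List.ofFn_succ, List.prod_cons, List.prod_cons, mul_assoc, e]
      rw [Function.update_of_ne (Fin.succ_ne_zero j').symm]
      congr 3
      funext i
      by_cases h : i = j'
      · subst h; simp
      · rw [Function.update_of_ne h, Function.update_of_ne (fun h' => h (Fin.succ_injective _ h'))]

theorem aux : ∀ (n : ℕ) (G : Type u) [Group G] [Finite G] [Group.IsSolvable G], Nat.card G = n →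
    ∀ (t : ℕ) (p : Fin t → ℕ) (_ : ∀ i, (p i).Prime)
    (_ : ∀ q : ℕ, q.Prime → q ∣ Nat.card G → ∃ i, p i = q) (S : (i : Fin t) → Sylow (p i) G),
    ∀ g : G, ∃ s : (i : Fin t) → G, (∀ i, s i ∈ (S i : Subgroup G)) ∧ g = (List.ofFn s).prod := by
  intro n
  induction n using Nat.strong_induction_on with
  | _ n ih =>
    intro G _ _ _ hn t p hp hall S g
    rcases subsingleton_or_nontrivial G with hs | hnt
    · exact ⟨fun _ => 1, fun i => one_mem _, Subsingleton.elim _ _⟩
    obtain ⟨q, N, hq, hNn, hNb, hNp⟩ := Lib.Helper4.exists_normal_pgroup (G := G)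
    have hqF : Fact q.Prime := ⟨hq⟩
    have hqN : q ∣ Nat.card N := by
      rcases hNp.card_eq_or_dvd with h1 | h1
      · exact absurd (Subgroup.card_eq_one.mp h1) hNb
      · exact h1
    have hqG : q ∣ Nat.card G := hqN.trans (Subgroup.card_subgroup_dvd_card N)
    obtain ⟨j, hj⟩ := hall q hq hqG
    subst hj
    have hF : ∀ i, Fact (p i).Prime := fun i => ⟨hp i⟩
    have hNS : N ≤ (S j : Subgroup G) := hNp.le_sylow_of_normal (S j)
    have hsurj := QuotientGroup.mk'_surjective N
    have hlt : Nat.card (G ⧸ N) < n := by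
      rw [← hn]
      exact Lib.Helper4.card_quotient_lt N ((hp j).two_le.trans (Nat.le_of_dvd Nat.card_pos hqN))
    have hall' : ∀ q : ℕ, q.Prime → q ∣ Nat.card (G ⧸ N) → ∃ i, p i = q := by
      intro q hq hd
      apply hall q hq
      rw [Subgroup.card_eq_card_quotient_mul_card_subgroup N]
      exact Dvd.dvd.mul_right hd _
    obtain ⟨sb, hsb, e⟩ := ih _ hlt (G ⧸ N) rfl t p hp hall' (fun i => (S i).mapSurjective hsurj)
      (QuotientGroup.mk' N g)
    have hlift : ∀ i, ∃ x ∈ (S i : Subgroup G), QuotientGroup.mk' N x = sb i := by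
      intro i
      exact Subgroup.mem_map.mp (hsb i)
    choose s hs hs' using hlift
    have e2 : QuotientGroup.mk' N g = QuotientGroup.mk' N (List.ofFn s).prod := by
      rw [e, map_list_prod, List.map_ofFn]
      congr 2
      funext i
      exact (hs' i).symm
    have hmem : ((List.ofFn s).prod)⁻¹ * g ∈ N := by
      rw [← QuotientGroup.eq_one_iff, ← QuotientGroup.mk'_apply, map_mul, map_inv, e2, inv_mul_cancel]
    obtain ⟨n', hn', e3⟩ := absorb N t s j _ hmem
    refine ⟨Function.update s j (s j * n'), ?_, ?_⟩
    · intro i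
      by_cases h : i = j
      · subst h
        rw [Function.update_self]
        exact mul_mem (hs i) (hNS hn')
      · rw [Function.update_of_ne h]
        exact hs i
    · rw [← e3]; group

/-- Let G be a finite solvable group and let S assign to each of t distinct primes, including every prime divisor of the order of G, a Sylow subgroup of G. Then every element of G is a product s_0 s_1 ⋯ s_(t-1) with s_i in S i, the factors taken in the given order. -/
theorem result {G : Type*} [Group G] [Finite G] [Group.IsSolvable G] (t : ℕ) (p : Fin t → ℕ) (hp : ∀ i, (p i).Prime) (hinj : Function.Injective p) (hall : ∀ q : ℕ, q.Prime → q ∣ Nat.card G → ∃ i, p i = q) (S : (i : Fin t) → Sylow (p i) G) : ∀ g : G, ∃ s : (i : Fin t) → G, (∀ i, s i ∈ (S i : Subgroup G)) ∧ g = (List.ofFn s).prod := by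
  exact aux _ G rfl t p hp hall S

end Cfsg.Agent.S0554
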