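import Cfsg.Statements.S0555
import Mathlib
import Cfsg.Agent.Lib.Helper4.MinNormal
import Cfsg.Agent.Lib.Helper4.Supersolvable2

set_option autoImplicit false
open Cfsg

namespace Cfsg.Agent.S0555

/-- Let i ≥ 1. If in the derived series of a group the quotient of the i-th term by the (i+1)-st and the quotient of the (i+1)-st by the (i+2)-nd are both cyclic, then the (i+1)-st and (i+2)-nd terms coincide. -/
theorem result {G : Type*} [Group G] (i : ℕ) (hi : 1 ≤ i) (h₁ : IsCyclic (↥(derivedSeries G i) ⧸ (derivedSeries G (i + 1)).subgroupOf (derivedSeries G i))) (h₂ : IsCyclic (↥(derivedSeries G (i + 1)) ⧸ (derivedSeries G (i + 2)).subgroupOf (derivedSeries G (i + 1)))) : derivedSeries G (i + 1) = derivedSeries G (i + 2) := by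
  have hanti := derivedSeries_antitone G
  have hYX : derivedSeries G (i + 1) ≤ derivedSeries G i := hanti (Nat.le_succ i)
  have hZY : derivedSeries G (i + 2) ≤ derivedSeries G (i + 1) := hanti (Nat.le_succ (i + 1))
  have hXG : derivedSeries G i ≤ commutator G := by
    rw [← derivedSeries_one]; exact hanti hi
  obtain ⟨x₀, hx₀, hX⟩ := Lib.Helper4.exists_sup_zpowers_of_cyclic_quotient _ _ hYX h₁
  obtain ⟨y₀, hy₀, hY⟩ := Lib.Helper4.exists_sup_zpowers_of_cyclic_quotient _ _ hZY h₂
  have hZn : (derivedSeries G (i + 2)).Normal := derivedSeries_normal G _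
  have hYn : (derivedSeries G (i + 1)).Normal := derivedSeries_normal G _
  -- Y is central in X modulo Z
  have hcent : ∀ y ∈ derivedSeries G (i + 1), ∀ c ∈ derivedSeries G i,
      Commute (QuotientGroup.mk' (derivedSeries G (i + 2)) y) (QuotientGroup.mk' (derivedSeries G (i + 2)) c) := by
    intro y hy c hc
    have h := Lib.Helper4.comm_mem_of_step _ _ hYn y₀ hY y hy c (hXG hc)
    have h' : QuotientGroup.mk' (derivedSeries G (i + 2)) (y * c * y⁻¹ * c⁻¹) = 1 :=
      (QuotientGroup.eq_one_iff _).mpr h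
    rw [map_mul, map_mul, map_mul, map_inv, map_inv] at h'
    show _ * _ = _ * _
    have := mul_inv_eq_one.mp h'
    exact mul_inv_eq_iff_eq_mul.mp this
  apply le_antisymm _ hZY
  have hsucc : derivedSeries G (i + 1) = ⁅derivedSeries G i, derivedSeries G i⁆ := derivedSeries_succ G i
  rw [hsucc, Subgroup.commutator_le]
  intro a ha b hb
  have decomp : ∀ a ∈ derivedSeries G i, ∃ y ∈ derivedSeries G (i + 1), ∃ k : ℤ, a = y * x₀ ^ k := by
    intro a ha
    have ha' : a ∈ ((derivedSeries G (i + 1) ⊔ Subgroup.zpowers x₀ : Subgroup G) : Set G) := hX ▸ ha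
    rw [Subgroup.normal_mul] at ha'
    obtain ⟨y, hy, z, hz, rfl⟩ := ha'
    obtain ⟨k, rfl⟩ := Subgroup.mem_zpowers_iff.mp hz
    exact ⟨y, hy, k, rfl⟩
  obtain ⟨y, hy, k, rfl⟩ := decomp a ha
  obtain ⟨y', hy', l, rfl⟩ := decomp b hb
  rw [← QuotientGroup.eq_one_iff, ← QuotientGroup.mk'_apply, commutatorElement_def]
  have hxk : ∀ k : ℤ, x₀ ^ k ∈ derivedSeries G i := fun k => Subgroup.zpow_mem _ hx₀ k
  have c1 := hcent y hy y' (hYX hy')
  have c2 := hcent y hy (x₀ ^ l) (hxk l)
  have c3 := (hcent y' hy' (x₀ ^ k) (hxk k)).symm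
  have c4 : Commute (QuotientGroup.mk' (derivedSeries G (i + 2)) (x₀ ^ k)) (QuotientGroup.mk' (derivedSeries G (i + 2)) (x₀ ^ l)) := by
    rw [map_zpow, map_zpow]
    exact (Commute.refl _).zpow_zpow k l
  have c5 : Commute (QuotientGroup.mk' (derivedSeries G (i + 2)) (y * x₀ ^ k)) (QuotientGroup.mk' (derivedSeries G (i + 2)) (y' * x₀ ^ l)) := by
    rw [map_mul, map_mul]
    exact (c1.mul_right c2).mul_left (c3.mul_right c4)
  rw [map_mul, map_mul, map_mul, map_inv, map_inv, c5.eq]
  group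

end Cfsg.Agent.S0555
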