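import Cfsg.Statements.S0557
import Mathlib
import Cfsg.Agent.Lib.Helper4.Basic

set_option autoImplicit false
open Cfsg

namespace Cfsg.Agent.S0557

universe u

open Subgroup Cfsg.Agent.Lib.Helper4

theorem focal_mono {G : Type u} [Group G] {K K' : Subgroup G} (h : K ≤ K') :
    K.focalSubgroup ≤ K'.focalSubgroup := by
  rw [Subgroup.focalSubgroup_def, Subgroup.focalSubgroup_def]
  apply Subgroup.closure_mono
  rintro g ⟨hg, x, hx, u, e⟩
  exact ⟨h hg, x, h hx, u, e⟩

theorem focal_map_le {G : Type u} [Group G] (L H : Subgroup G) :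
    ((H.subgroupOf L).focalSubgroup).map L.subtype ≤ H.focalSubgroup := by
  rw [Subgroup.map_le_iff_le_comap, Subgroup.focalSubgroup_def, Subgroup.closure_le]
  rintro g ⟨hg, x, hx, u, e⟩
  apply Subgroup.subset_closure
  refine ⟨hg, x, hx, u, ?_⟩
  rw [e]
  rfl

theorem transfer_facts {X : Type u} [Group X] [Finite X] (Y : Subgroup X)
    (hY : (Nat.card Y).Coprime Y.index) :
    ∃ K : Subgroup X, K.Normal ∧ K ⊓ Y = Y.focalSubgroup ∧ Y ⊔ K = ⊤ := by
  have hcop : (Nat.card (Y ⧸ Y.focalSubgroupOf)).Coprime Y.index :=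
    Nat.Coprime.coprime_dvd_left (Subgroup.card_quotient_dvd_card _) hY
  refine ⟨(transferFocal Y).ker, inferInstance, ?_, ?_⟩
  · ext g
    constructor
    · rintro ⟨h1, h2⟩
      have h3 : transferFocal Y g = 1 := h1
      have h4 := transferFocal_eq_pow Y ⟨g, h2⟩
      rw [h3] at h4
      have h5 : ((⟨g, h2⟩ : Y) : Y ⧸ Y.focalSubgroupOf) = 1 := by
        apply (powCoprime hcop).injective
        change ((⟨g, h2⟩ : Y) : Y ⧸ Y.focalSubgroupOf) ^ Y.index = (1 : Y ⧸ Y.focalSubgroupOf) ^ Y.index
        rw [← h4, one_pow]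
      have h6 : (⟨g, h2⟩ : Y) ∈ Y.focalSubgroupOf := (QuotientGroup.eq_one_iff _).mp h5
      exact Subgroup.mem_subgroupOf.mp h6
    · intro hg
      have h2 : g ∈ Y := focalSubgroup_le Y hg
      refine ⟨?_, h2⟩
      have h4 := transferFocal_eq_pow Y ⟨g, h2⟩
      have h5 : ((⟨g, h2⟩ : Y) : Y ⧸ Y.focalSubgroupOf) = 1 :=
        (QuotientGroup.eq_one_iff _).mpr (Subgroup.mem_subgroupOf.mpr hg)
      rw [h5, one_pow] at h4
      exact h4
  · rw [eq_top_iff]
    intro g _
    obtain ⟨q, hq⟩ := (powCoprime hcop).surjective (transferFocal Y g)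
    obtain ⟨y, rfl⟩ := QuotientGroup.mk'_surjective _ q
    have hq' : (QuotientGroup.mk' Y.focalSubgroupOf y) ^ Y.index = transferFocal Y g := hq
    have h4 := transferFocal_eq_pow Y y
    have h5 : transferFocal Y (y : X) = transferFocal Y g := by rw [h4]; exact hq'
    have h6 : (y : X)⁻¹ * g ∈ (transferFocal Y).ker := by
      rw [MonoidHom.mem_ker, map_mul, map_inv, h5, inv_mul_cancel]
    have h7 : g = (y : X) * ((y : X)⁻¹ * g) := by group
    rw [h7]
    exact mul_mem (mem_sup_left y.2) (mem_sup_right h6)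

theorem lemmaZ {G : Type u} [Group G] (N K X : Subgroup G)
    (hKN : K ≤ normalizer (N : Set G)) (hXK : X ≤ K) (hcop : (Nat.card X).Coprime (N.relIndex K)) :
    X ≤ N := by
  rw [← relIndex_eq_one]
  have : (N.subgroupOf K).Normal := normal_subgroupOf_of_le_normalizer hKN
  have d1 : N.relIndex X ∣ N.relIndex K := by
    have := relIndex_dvd_index_of_normal (N.subgroupOf K) (X.subgroupOf K)
    rwa [relIndex_subgroupOf hXK] at this
  have d2 : N.relIndex X ∣ Nat.card X := relIndex_dvd_card N X
  exact Nat.eq_one_of_dvd_coprimes hcop d2 d1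

open scoped Pointwise in
theorem claim {G : Type u} [Group G] [Finite G] : ∀ (n : ℕ) (L H : Subgroup G), H ≤ L →
    (Nat.card H).Coprime (H.relIndex L) →
    (fun K : Subgroup G => Subgroup.focalSubgroup K)^[n] H = ⊥ →
    ∃ N : Subgroup G, N ≤ L ∧ L ≤ normalizer (N : Set G) ∧ Nat.card N = H.relIndex L := by
  intro n
  induction n with
  | zero =>
    intro L H hHL hcop h0
    have : H = ⊥ := h0
    subst this
    exact ⟨L, le_rfl, le_normalizer, by rw [relIndex_bot_left]⟩
  | succ n ih =>
    intro L H hHL hcop hfoc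
    rw [Function.iterate_succ_apply] at hfoc
    have hc' : (Nat.card (H.subgroupOf L)).Coprime (H.subgroupOf L).index := by
      rw [card_subgroupOf_eq_card_inf, inf_eq_left.mpr hHL]; exact hcop
    obtain ⟨K', hK'n, hK'inf, hK'sup⟩ := transfer_facts (H.subgroupOf L) hc'
    obtain ⟨K, hK⟩ : ∃ K, K = K'.map L.subtype := ⟨_, rfl⟩
    have hKL : K ≤ L := by rw [hK]; exact map_subtype_le K'
    have hKsub : K.subgroupOf L = K' := by
      rw [hK]; exact comap_map_eq_self_of_injective L.subtype_injective K'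
    have e1 : (K ⊓ H).subgroupOf L = (H.subgroupOf L).focalSubgroup := by
      rw [← hK'inf, ← hKsub]; exact Subgroup.comap_inf _ _ _
    have hH1 : K ⊓ H ≤ H.focalSubgroup := by
      rw [← map_subgroupOf_eq_of_le (inf_le_left.trans hKL : K ⊓ H ≤ L), e1]
      exact focal_map_le L H
    have hrel : H.relIndex K = H.relIndex L := by
      have := relIndex_eq_relIndex_sup (H.subgroupOf L) K'
      rw [hK'sup, relIndex_top_right, ← hKsub, relIndex_subgroupOf hKL] at this
      exact this
    have hfoc1 : (fun K : Subgroup G => Subgroup.focalSubgroup K)^[n] (K ⊓ H) = ⊥ := by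
      rw [← le_bot_iff, ← hfoc]
      exact (Monotone.iterate (fun _ _ h => focal_mono h) n) hH1
    have hcop1 : (Nat.card (K ⊓ H : Subgroup G)).Coprime ((K ⊓ H).relIndex K) := by
      rw [inf_relIndex_left, hrel]
      exact Nat.Coprime.coprime_dvd_left (card_dvd_of_le inf_le_right) hcop
    obtain ⟨N, hNK, hKN, hNc⟩ := ih K (K ⊓ H) inf_le_left hcop1 hfoc1
    rw [inf_relIndex_left, hrel] at hNc
    refine ⟨N, hNK.trans hKL, ?_, hNc⟩
    intro g hg
    apply mem_normalizer_of_conj_mem
    have hX : MulAut.conj g • N ≤ N := by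
      apply lemmaZ N K (MulAut.conj g • N) hKN
      · rintro _ ⟨x, hx, rfl⟩
        have := hK'n.conj_mem ⟨x, hKL (hNK hx)⟩
          (by rw [← hKsub]; exact mem_subgroupOf.mpr (hNK hx)) ⟨g, hg⟩
        rw [← hKsub] at this
        exact mem_subgroupOf.mp this
      · have c1 : Nat.card (MulAut.conj g • N : Subgroup G) = Nat.card N :=
          (Nat.card_congr (Subgroup.equivSMul (MulAut.conj g) N).toEquiv).symm
        have c2 := card_inf_mul_relIndex N K
        rw [inf_eq_left.mpr hNK] at c2
        have c3 := card_inf_mul_relIndex H K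
        rw [hrel, ← c2, hNc, mul_comm] at c3
        have c4 : Nat.card (H ⊓ K : Subgroup G) = N.relIndex K := by
          apply Nat.eq_of_mul_eq_mul_left _ c3
          rw [← hNc]; exact Nat.card_pos
        rw [c1, hNc, ← c4]
        exact (Nat.Coprime.coprime_dvd_left (card_dvd_of_le inf_le_left) hcop).symm
    intro x hx
    exact hX ⟨x, hx, rfl⟩

/-- Let H be a subgroup of a finite group G with order coprime to its index. If iterating the focal-subgroup construction starting from H reaches the trivial subgroup after finitely many steps, then H has a normal complement in G. -/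
theorem result {G : Type*} [Group G] [Finite G] (H : Subgroup G) (hHall : (Nat.card H).Coprime H.index) (n : ℕ) (hfoc : (fun K : Subgroup G => Subgroup.focalSubgroup K)^[n] H = ⊥) : ∃ N : Subgroup G, N.Normal ∧ Subgroup.IsComplement' N H := by
  obtain ⟨N, -, hN, hc⟩ := claim n ⊤ H le_top (by rw [relIndex_top_right]; exact hHall) hfoc
  rw [relIndex_top_right] at hc
  refine ⟨N, normalizer_eq_top_iff.mp (top_le_iff.mp hN), ?_⟩
  apply isComplement'_of_coprime
  · rw [hc, mul_comm]; exact card_mul_index H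
  · rw [hc]; exact hHall.symm

end Cfsg.Agent.S0557
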