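import Cfsg.Statements.S0558
import Mathlib
import Cfsg.Agent.S0557
import Cfsg.Agent.Lib.Helper4.NilpNorm
import Cfsg.Agent.Lib.Helper4.CompSys

set_option autoImplicit false
open Cfsg

namespace Cfsg.Agent.S0558

universe u

open Subgroup Cfsg.Agent.Lib.Helper4
open scoped commutatorElement

theorem sylow_of_normalizer {G : Type u} [Group G] [Finite G] (H : Subgroup G) (p : ℕ) [Fact p.Prime]
    (P : Sylow p H)
    (hN : normalizer (((P : Subgroup H).map H.subtype : Subgroup G) : Set G) = H) :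
    ∃ S : Sylow p G, (S : Subgroup G) = (P : Subgroup H).map H.subtype := by
  obtain ⟨S, hS⟩ := (P.2.map H.subtype).exists_le_sylow
  refine ⟨S, ?_⟩
  by_contra hne
  have hlt : (P : Subgroup H).map H.subtype < S := lt_of_le_of_ne hS (Ne.symm hne)
  have : Group.IsNilpotent (S : Subgroup G) := S.2.isNilpotent
  obtain ⟨x, hxS, hxN, hxP⟩ := Cfsg.Agent.Lib.Helper4.exists_normalizer_of_nilpotent (S : Subgroup G) _ hlt
  rw [hN] at hxN
  have hmax := P.3 (Q := (S : Subgroup G).subgroupOf H) S.2.comap_subtype (by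
     intro y hy
     exact mem_subgroupOf.mpr (hS (mem_map_of_mem _ hy)))
  apply hxP
  have : (⟨x, hxN⟩ : H) ∈ (P : Subgroup H) := by
    rw [← hmax]; exact mem_subgroupOf.mpr hxS
  exact ⟨⟨x, hxN⟩, this, rfl⟩

theorem key {G : Type u} [Group G] [Finite G] (H : Subgroup G)
    (hnot : ∀ p : ℕ, p.Prime → ∀ P : Sylow p G, (P : Subgroup G) ≠ H)
    (hnorm : ∀ p : ℕ, p.Prime → p ∣ Nat.card H → ∀ P : Sylow p H,
      Subgroup.normalizer (((P : Subgroup H).map H.subtype : Subgroup G) : Set G) = H)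
    (hnormalH : ∀ (p : ℕ) [Fact p.Prime] (P : Sylow p H), (P : Subgroup H).Normal)
    (n : ℕ) (hn : H.lowerCentralSeries n = ⊥) (p : ℕ) (hp : p.Prime) (hpH : p ∣ Nat.card H) :
    ∃ N : Subgroup G, N.Normal ∧ N.index ∣ Nat.card H ∧ ¬ p ∣ Nat.card N ∧ (∃ k, N.index = p ^ k) ∧
      ¬ p ∣ H.index := by
  have hpF : Fact p.Prime := ⟨hp⟩
  obtain ⟨P⟩ : Nonempty (Sylow p H) := inferInstance
  obtain ⟨S, hS⟩ := sylow_of_normalizer H p P (hnorm p hp hpH P)
  have hq : ∃ q : ℕ, q.Prime ∧ q ≠ p ∧ q ∣ Nat.card H := by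
    by_contra hcon
    push Not at hcon
    have hpow : Nat.card H = p ^ _ := Nat.eq_prime_pow_of_unique_prime_dvd Nat.card_pos.ne'
      (fun {d} hd hdd => by_contra fun hne => hcon d hd hne hdd)
    have hPtop : (P : Subgroup H) = ⊤ := by
      have hpg : IsPGroup p (⊤ : Subgroup H) := (IsPGroup.of_card hpow).to_subgroup _
      exact (P.3 hpg le_top).symm
    apply hnot p hp S
    rw [hS, hPtop, ← MonoidHom.range_eq_map, H.range_subtype]
  obtain ⟨q, hq, hqp, hqH⟩ := hq
  have hqF : Fact q.Prime := ⟨hq⟩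
  obtain ⟨Q⟩ : Nonempty (Sylow q H) := inferInstance
  obtain ⟨SQ, hSQ⟩ := sylow_of_normalizer H q Q (hnorm q hq hqH Q)
  obtain ⟨PG, hPG⟩ : ∃ PG : Subgroup G, PG = (P : Subgroup H).map H.subtype := ⟨_, rfl⟩
  rw [← hPG] at hS
  have hPGH : PG ≤ H := by rw [hPG]; exact map_subtype_le _
  have hcent : PG ≤ centralizer ((SQ : Subgroup G) : Set G) := by
    rw [hPG]
    rintro _ ⟨x, hx, rfl⟩
    rw [mem_centralizer_iff]
    intro y hy
    rw [SetLike.mem_coe, hSQ] at hy
    obtain ⟨y', hy', rfl⟩ := hy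
    have := commute_of_normal_of_disjoint (Q : Subgroup H) (P : Subgroup H) (hnormalH q Q) (hnormalH p P)
      (IsPGroup.disjoint_of_ne q p hqp _ _ Q.2 P.2) y' x hy' hx
    exact congrArg Subtype.val this
  have hNQ : normalizer ((SQ : Subgroup G) : Set G) = H := by rw [hSQ]; exact hnorm q hq hqH Q
  have fusion : ∀ x ∈ PG, ∀ u : G, u * x * u⁻¹ ∈ PG → ∃ h ∈ H, u * x * u⁻¹ = h * x * h⁻¹ := by
    intro x hx u hu
    obtain ⟨m, hm, e⟩ := SQ.conj_eq_normalizer_conj_of_mem_centralizer x u⁻¹ (hcent hx)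
      (by simpa using hcent hu)
    have hm' : m ∈ H := hNQ ▸ hm
    refine ⟨m⁻¹, inv_mem hm', ?_⟩
    simpa using e
  have iter : ∀ i : ℕ, (fun K : Subgroup G => Subgroup.focalSubgroup K)^[i] PG
      ≤ H.lowerCentralSeries i ⊓ PG := by
    intro i
    induction i with
    | zero => exact le_inf hPGH le_rfl
    | succ i ih =>
      rw [Function.iterate_succ_apply']
      obtain ⟨K, hK⟩ : ∃ K, K = (fun K : Subgroup G => Subgroup.focalSubgroup K)^[i] PG := ⟨_, rfl⟩
      rw [← hK] at ih ⊢
      change K.focalSubgroup ≤ _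
      rw [focalSubgroup_def, closure_le]
      rintro z ⟨hz, x, hx, u, e⟩
      have hxP : x ∈ PG := (ih hx).2
      have hzP : z ∈ PG := (ih hz).2
      refine ⟨?_, hzP⟩
      rw [commutatorElement_def] at e
      have h1 : u * x * u⁻¹ ∈ PG := by
        have : u * x * u⁻¹ = z⁻¹ * x := by rw [e]; group
        rw [this]
        exact mul_mem (inv_mem hzP) hxP
      obtain ⟨h, hh, e2⟩ := fusion x hxP u h1
      have h2 : z = ⁅x, h⁆ := by
        rw [commutatorElement_def]
        calc z = x * (u * x * u⁻¹)⁻¹ := by rw [e]; group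
          _ = x * (h * x * h⁻¹)⁻¹ := by rw [e2]
          _ = _ := by group
      rw [SetLike.mem_coe, Subgroup.lowerCentralSeries_succ, h2]
      exact commutator_mem_commutator (ih hx).1 hh
  have hfoc : (fun K : Subgroup G => Subgroup.focalSubgroup K)^[n] PG = ⊥ := by
    rw [← le_bot_iff, ← hn]; exact (iter n).trans inf_le_left
  have hHall : (Nat.card PG).Coprime PG.index := by rw [← hS]; exact S.card_coprime_index
  obtain ⟨N, hNn, hNc⟩ := Cfsg.Agent.S0557.result PG hHall n hfoc
  have i1 : PG.index = Nat.card N := hNc.index_eq_card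
  have i2 : N.index = Nat.card PG := hNc.symm.index_eq_card
  refine ⟨N, hNn, ?_, ?_, ?_, ?_⟩
  · rw [i2]; exact card_dvd_of_le hPGH
  · rw [← i1, ← hS]; exact S.not_dvd_index
  · rw [i2, ← hS]; exact IsPGroup.iff_card.mp S.2
  · intro hd
    apply S.not_dvd_index
    rw [hS]
    exact hd.trans (index_dvd_of_le hPGH)

/-- Let H be a subgroup of a finite group G that is not a Sylow subgroup of G for any prime, and suppose that for every prime p dividing the order of H and every Sylow p-subgroup P of H the normalizer of P in G is exactly H. Then some normal subgroup of G is a complement to H. -/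
theorem result {G : Type*} [Group G] [Finite G] (H : Subgroup G) (hnot : ∀ p : ℕ, p.Prime → ∀ P : Sylow p G, (P : Subgroup G) ≠ H) (hnorm : ∀ p : ℕ, p.Prime → p ∣ Nat.card H → ∀ P : Sylow p H, Subgroup.normalizer (((P : Subgroup H).map H.subtype : Subgroup G) : Set G) = H) : ∃ N : Subgroup G, N.Normal ∧ Subgroup.IsComplement' N H := by
  classical
  have hnormalH : ∀ (p : ℕ) [Fact p.Prime] (P : Sylow p H), (P : Subgroup H).Normal := by
    intro p _ P
    by_cases hp : p ∣ Nat.card H
    · have h1 := hnorm p Fact.out hp P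
      have h2 : (((P : Subgroup H).map H.subtype).subgroupOf H).Normal :=
        (normal_subgroupOf_iff_le_normalizer (map_subtype_le _)).mpr h1.ge
      rwa [subgroupOf, comap_map_eq_self_of_injective H.subtype_injective] at h2
    · have : (P : Subgroup H) = ⊥ := by
        rw [← card_eq_one, P.card_eq_multiplicity, Nat.factorization_eq_zero_of_not_dvd hp, pow_zero]
      rw [this]; infer_instance
  have hHnil : Group.IsNilpotent H :=
    ((Group.isNilpotent_of_finite_tfae (G := H)).out 0 3).mpr (fun p hp P => @hnormalH p hp P)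
  obtain ⟨n, hn⟩ := (Subgroup.isNilpotent_iff_lowerCentralSeries H).mp hHnil
  have hkey : ∀ p : ℕ, p ∈ (Nat.card H).primeFactors → ∃ N : Subgroup G, N.Normal ∧
      N.index ∣ Nat.card H ∧ ¬ p ∣ Nat.card N ∧ (∃ k, N.index = p ^ k) ∧ ¬ p ∣ H.index := by
    intro p hp
    exact key H hnot hnorm hnormalH n hn p (Nat.prime_of_mem_primeFactors hp)
      (Nat.dvd_of_mem_primeFactors hp)
  choose! Nf h1 h2 h3 h4 h5 using hkey
  have hHall : (Nat.card H).Coprime H.index := by
    apply Nat.coprime_of_dvd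
    intro k hk hkH
    exact h5 k (Nat.mem_primeFactors.mpr ⟨hk, hkH, Nat.card_pos.ne'⟩)
  have hidx : (⨅ p ∈ (Nat.card H).primeFactors, Nf p).index
      = ∏ p ∈ (Nat.card H).primeFactors, (Nf p).index := by
    apply index_iInf_of_coprime
    intro p hp q hq hpq
    obtain ⟨k, hk⟩ := h4 p hp
    obtain ⟨l, hl⟩ := h4 q hq
    rw [hk, hl]
    exact Nat.coprime_pow_primes _ _ (Nat.prime_of_mem_primeFactors hp) (Nat.prime_of_mem_primeFactors hq) hpq
  refine ⟨⨅ p ∈ (Nat.card H).primeFactors, Nf p, ?_, ?_⟩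
  · apply normal_iInf_normal
    intro p
    apply normal_iInf_normal
    intro hp
    exact h1 p hp
  · apply isComplement'_of_disjoint_and_mul_eq_univ
    · apply disjoint_of_coprime_natCard
      apply Nat.Coprime.symm
      apply Nat.coprime_of_dvd
      intro k hk hkH hkN
      have hmem : k ∈ (Nat.card H).primeFactors := Nat.mem_primeFactors.mpr ⟨hk, hkH, Nat.card_pos.ne'⟩
      apply h3 k hmem
      exact hkN.trans (card_dvd_of_le (iInf₂_le k hmem))
    · apply mul_eq_univ_of_coprime_index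
      rw [hidx]
      apply Nat.Coprime.prod_left
      intro p hp
      exact Nat.Coprime.coprime_dvd_left (h2 p hp) hHall

end Cfsg.Agent.S0558
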