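import Cfsg.Statements.S0556
import Mathlib
import Cfsg.Agent.S0023
import Cfsg.Agent.S0558
import Cfsg.Agent.Lib.Helper4.Basic
import Cfsg.Agent.Lib.Helper4.CompSys

set_option autoImplicit false
open Cfsg

namespace Cfsg.Agent.S0556

open Cfsg.Agent.Lib.Helper4
open scoped commutatorElement

universe u

theorem comm_of_mem {G : Type u} [Group G] (A : Subgroup G) [hA : IsMulCommutative A] {a b : G}
    (ha : a ∈ A) (hb : b ∈ A) : a * b = b * a :=
  congrArg Subtype.val ((isMulCommutative_iff.mp hA) ⟨a, ha⟩ ⟨b, hb⟩)

open scoped Pointwise in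
/-- The Frobenius-like case. -/
theorem lemmaF {G : Type u} [Group G] [Finite G] (A : Subgroup G) (hA : IsCoatom A)
    [hAc : IsMulCommutative A] (hTI : ∀ x : G, x ∉ A → A ⊓ MulAut.conj x • A = ⊥) :
    derivedSeries G 2 = ⊥ := by
  have hAcen : A ≤ Subgroup.centralizer (A : Set G) := by
    intro a ha
    rw [Subgroup.mem_centralizer_iff]
    intro b hb
    exact comm_of_mem A hb ha
  -- normalizers of Sylow subgroups
  have hnorm : ∀ p : ℕ, p.Prime → p ∣ Nat.card A → ∀ P : Sylow p A,
      Subgroup.normalizer (((P : Subgroup A).map A.subtype : Subgroup G) : Set G) = A := by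
    intro p hp hpA P
    haveI : Fact p.Prime := ⟨hp⟩
    have hPA : (P : Subgroup A).map A.subtype ≤ A := Subgroup.map_subtype_le _
    have hPb : (P : Subgroup A).map A.subtype ≠ ⊥ := by
      intro h
      rw [Subgroup.map_eq_bot_iff_of_injective _ A.subtype_injective] at h
      exact P.ne_bot_of_dvd_card hpA h
    apply le_antisymm
    · intro x hx
      by_contra hxA
      apply hPb
      rw [← le_bot_iff, ← hTI x hxA]
      apply le_inf hPA
      rw [← conj_smul_eq_self_iff_mem_normalizer.mpr hx]
      exact Subgroup.pointwise_smul_le_pointwise_smul_iff.mpr hPA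
    · apply le_normalizer_of_conj_mem
      intro c hc x hx
      have : c * x * c⁻¹ = x := by
        rw [comm_of_mem A hc (hPA hx)]
        group
      rw [this]
      exact hx
  -- a normal complement
  obtain ⟨K, hKn, hKA⟩ : ∃ N : Subgroup G, N.Normal ∧ Subgroup.IsComplement' N A := by
    by_cases hAb : A = ⊥
    · exact ⟨⊤, inferInstance, hAb ▸ Subgroup.isComplement'_top_bot⟩
    by_cases hnot : ∀ p : ℕ, p.Prime → ∀ P : Sylow p G, (P : Subgroup G) ≠ A
    · exact Cfsg.Agent.S0558.result A hnot hnorm
    · push Not at hnot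
      obtain ⟨p, hp, P, hP⟩ := hnot
      haveI : Fact p.Prime := ⟨hp⟩
      have hN : Subgroup.normalizer ((P : Subgroup G) : Set G) ≤
          Subgroup.centralizer ((P : Subgroup G) : Set G) := by
        rw [hP]
        have hNA : Subgroup.normalizer (A : Set G) ≤ A := by
          intro x hx
          by_contra hxA
          have h1 := hTI x hxA
          rw [conj_smul_eq_self_iff_mem_normalizer.mpr hx, inf_idem] at h1
          exact hAb h1
        exact hNA.trans hAcen
      have h := MonoidHom.ker_transferSylow_isComplement' P hN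
      have hn : (MonoidHom.transferSylow P hN).ker.Normal := inferInstance
      generalize (MonoidHom.transferSylow P hN).ker = N at h hn
      rw [hP] at h
      exact ⟨N, hn, h⟩
  haveI := hKn
  have hKAbot : K ⊓ A = ⊥ := hKA.disjoint.eq_bot
  have hcop : (Nat.card A).Coprime (Nat.card K) := by
    apply Nat.coprime_of_dvd
    intro p hp hpA hpK
    haveI : Fact p.Prime := ⟨hp⟩
    obtain ⟨P⟩ : Nonempty (Sylow p A) := inferInstance
    obtain ⟨S, hS⟩ := Cfsg.Agent.S0558.sylow_of_normalizer A p P (hnorm p hp hpA P)
    apply S.not_dvd_index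
    have hSA : (S : Subgroup G) ≤ A := by rw [hS]; exact Subgroup.map_subtype_le _
    have h1 : A.index ∣ (S : Subgroup G).index := Subgroup.index_dvd_of_le hSA
    rw [hKA.index_eq_card] at h1
    exact hpK.trans h1
  -- A-invariant nontrivial subgroups of K are everything
  have hinv : ∀ X : Subgroup G, X ≤ K → X ≠ ⊥ → A ≤ Subgroup.normalizer (X : Set G) → K ≤ X := by
    intro X hXK hXb hAX
    have hlt : A < A ⊔ X := by
      apply lt_of_le_of_ne le_sup_left
      intro h
      have h1 : X ≤ A := le_sup_right.trans (le_of_eq h.symm)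
      have h2 : X ≤ K ⊓ A := le_inf hXK h1
      rw [hKAbot, le_bot_iff] at h2
      exact hXb h2
    have htop := hA.2 _ hlt
    intro k hk
    have hk' : k ∈ ((A ⊔ X : Subgroup G) : Set G) := by rw [htop]; trivial
    rw [Subgroup.coe_mul_of_left_le_normalizer_right A X hAX] at hk'
    obtain ⟨a, ha, x, hx, rfl⟩ := hk'
    have ha' : a ∈ K ⊓ A := by
      refine ⟨?_, ha⟩
      have : a = (a * x) * x⁻¹ := by group
      rw [this]
      exact K.mul_mem hk (K.inv_mem (hXK hx))
    rw [hKAbot, Subgroup.mem_bot] at ha'
    simpa [ha'] using hx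
  have hAK : A ≤ Subgroup.normalizer (K : Set G) := by
    rw [Subgroup.normalizer_eq_top_iff.mpr hKn]; exact le_top
  have hKcomm : ∀ x ∈ K, ∀ y ∈ K, x * y = y * x := by
    by_cases hKb : K = ⊥
    · intro x hx y hy
      rw [hKb, Subgroup.mem_bot] at hx hy
      rw [hx, hy]
    have hc1 : Nat.card K ≠ 1 := fun h => hKb (Subgroup.card_eq_one.mp h)
    obtain ⟨q, hq, hqK⟩ := Nat.exists_prime_and_dvd hc1
    haveI : Fact q.Prime := ⟨hq⟩
    obtain ⟨Q, hQ⟩ := Cfsg.Agent.S0023.result A K hAK hcop (Or.inl (Group.isSolvable_of_comm (isMulCommutative_iff.mp hAc))) q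
    have hQb : (Q : Subgroup K).map K.subtype ≠ ⊥ := by
      intro h
      rw [Subgroup.map_eq_bot_iff_of_injective _ K.subtype_injective] at h
      exact Q.ne_bot_of_dvd_card hqK h
    have hKQ := hinv _ (Subgroup.map_subtype_le _) hQb hQ
    have hKq : IsPGroup q K := by
      have : (Q : Subgroup K) = ⊤ := by
        rw [eq_top_iff]
        intro k _
        obtain ⟨k', hk', e⟩ := hKQ k.2
        have : k' = k := Subtype.ext e
        exact this ▸ hk'
      have h2 := Q.2
      rw [this] at h2
      exact h2.of_equiv Subgroup.topEquiv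
    haveI : Nontrivial K := (Subgroup.nontrivial_iff_ne_bot K).mpr hKb
    have hZnt := hKq.center_nontrivial
    have hZn : ((Subgroup.center K).map K.subtype).Normal :=
      ConjAct.normal_of_characteristic_of_normal
    have hZb : (Subgroup.center K).map K.subtype ≠ ⊥ := by
      intro h
      rw [Subgroup.map_eq_bot_iff_of_injective _ K.subtype_injective] at h
      exact (Subgroup.nontrivial_iff_ne_bot _).mp hZnt h
    have hKZ := hinv _ (Subgroup.map_subtype_le _) hZb
      (by rw [Subgroup.normalizer_eq_top_iff.mpr hZn]; exact le_top)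
    intro x hx y hy
    obtain ⟨x', hx', e⟩ := hKZ hx
    have h3 := Subgroup.mem_center_iff.mp hx' ⟨y, hy⟩
    have h4 := congrArg Subtype.val h3
    rw [← e]
    exact h4.symm
  have hD1 : derivedSeries G 1 ≤ K := by
    rw [derivedSeries_succ, derivedSeries_zero, Subgroup.commutator_le]
    intro g _ h _
    have hdec : ∀ g : G, ∃ a ∈ A, QuotientGroup.mk' K g = QuotientGroup.mk' K a := by
      intro g
      have hg : g ∈ K ⊔ A := by rw [hKA.sup_eq_top]; trivial
      rw [Subgroup.mem_sup_of_normal_left] at hg
      obtain ⟨k, hk, a, ha, rfl⟩ := hg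
      refine ⟨a, ha, ?_⟩
      rw [map_mul, QuotientGroup.mk'_apply K k, (QuotientGroup.eq_one_iff k).mpr hk, one_mul]
    obtain ⟨a, ha, ea⟩ := hdec g
    obtain ⟨b, hb, eb⟩ := hdec h
    rw [← QuotientGroup.eq_one_iff, ← QuotientGroup.mk'_apply, map_commutatorElement, ea, eb,
      ← map_commutatorElement, commutatorElement_def, comm_of_mem A ha hb]
    simp
  rw [derivedSeries_succ, ← le_bot_iff]
  refine (Subgroup.commutator_mono hD1 hD1).trans ?_
  rw [le_bot_iff, Subgroup.commutator_eq_bot_iff_le_centralizer]
  intro x hx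
  rw [Subgroup.mem_centralizer_iff]
  intro y hy
  exact hKcomm y hy x hx

open scoped Pointwise in
theorem nonnormal_case {G : Type u} [Group G] [Finite G] (A : Subgroup G) (hA : IsCoatom A)
    [hAc : IsMulCommutative A] (hAn : ¬ A.Normal) : derivedSeries G 3 = ⊥ := by
  have hNA : Subgroup.normalizer (A : Set G) = A := by
    rcases (Subgroup.le_normalizer : A ≤ Subgroup.normalizer (A : Set G)).lt_or_eq with h | h
    · exact absurd (Subgroup.normalizer_eq_top_iff.mp (hA.2 _ h)) hAn
    · exact h.symm
  have hZA : Subgroup.center G ≤ A := by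
    rw [← hNA]
    intro z hz
    rw [Subgroup.mem_normalizer_iff]
    intro h
    rw [← Subgroup.mem_center_iff.mp hz h, mul_inv_cancel_right]
  have hsurj := QuotientGroup.mk'_surjective (Subgroup.center G)
  have hcomap : (A.map (QuotientGroup.mk' (Subgroup.center G))).comap
      (QuotientGroup.mk' (Subgroup.center G)) = A := by
    rw [Subgroup.comap_map_eq, QuotientGroup.ker_mk', sup_eq_left.mpr hZA]
  have hcoatom : IsCoatom (A.map (QuotientGroup.mk' (Subgroup.center G))) := by
    constructor
    · intro h
      apply hA.1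
      rw [← hcomap, h, Subgroup.comap_top]
    · intro B hB
      have h1 : A < B.comap (QuotientGroup.mk' (Subgroup.center G)) := by
        rw [← hcomap]
        apply lt_of_le_of_ne (Subgroup.comap_mono hB.le)
        intro h
        exact hB.ne (Subgroup.comap_injective hsurj h)
      have h2 := hA.2 _ h1
      rw [← Subgroup.map_comap_eq_self_of_surjective hsurj B, h2,
        Subgroup.map_top_of_surjective _ hsurj]
  haveI : IsMulCommutative (A.map (QuotientGroup.mk' (Subgroup.center G))) := by
    rw [isMulCommutative_iff]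
    rintro ⟨_, a, ha, rfl⟩ ⟨_, b, hb, rfl⟩
    apply Subtype.ext
    change QuotientGroup.mk' _ a * QuotientGroup.mk' _ b = QuotientGroup.mk' _ b * QuotientGroup.mk' _ a
    rw [← map_mul, ← map_mul, comm_of_mem A ha hb]
  have hint : ∀ x : G, x ∉ A → ∀ w ∈ A, x⁻¹ * w * x ∈ A → w ∈ Subgroup.center G := by
    intro x hx w hw hw'
    have hlt : A < A ⊔ MulAut.conj x • A := by
      apply lt_of_le_of_ne le_sup_left
      intro h
      have h1 : MulAut.conj x • A ≤ A := le_sup_right.trans (le_of_eq h.symm)
      apply hx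
      rw [← hNA]
      apply mem_normalizer_of_conj_mem
      intro a ha
      exact h1 ⟨a, ha, rfl⟩
    have htop := hA.2 _ hlt
    have hle : A ⊔ MulAut.conj x • A ≤ Subgroup.centralizer ({w} : Set G) := by
      apply sup_le
      · intro a ha
        rw [Subgroup.mem_centralizer_singleton_iff]
        exact comm_of_mem A ha hw
      · rintro _ ⟨a, ha, rfl⟩
        rw [Subgroup.mem_centralizer_singleton_iff]
        have h1 := comm_of_mem A ha hw'
        change x * a * x⁻¹ * w = w * (x * a * x⁻¹)
        calc x * a * x⁻¹ * w = x * (a * (x⁻¹ * w * x)) * x⁻¹ := by group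
          _ = x * ((x⁻¹ * w * x) * a) * x⁻¹ := by rw [h1]
          _ = _ := by group
    rw [htop, top_le_iff] at hle
    rw [Subgroup.mem_center_iff]
    intro g
    have hg : g ∈ Subgroup.centralizer ({w} : Set G) := hle ▸ Subgroup.mem_top g
    exact Subgroup.mem_centralizer_singleton_iff.mp hg
  have hTI : ∀ xb : G ⧸ Subgroup.center G, xb ∉ A.map (QuotientGroup.mk' (Subgroup.center G)) →
      A.map (QuotientGroup.mk' (Subgroup.center G)) ⊓
        MulAut.conj xb • A.map (QuotientGroup.mk' (Subgroup.center G)) = ⊥ := by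
    intro xb hxb
    obtain ⟨x, rfl⟩ := hsurj xb
    have hx : x ∉ A := fun h => hxb (Subgroup.mem_map_of_mem _ h)
    rw [eq_bot_iff]
    rintro y ⟨⟨a, ha, rfl⟩, ⟨_, ⟨b, hb, rfl⟩, e⟩⟩
    have e' : QuotientGroup.mk' (Subgroup.center G) (x * b * x⁻¹) =
        QuotientGroup.mk' (Subgroup.center G) a := by
      rw [← e]
      simp
    have h1 : a⁻¹ * (x * b * x⁻¹) ∈ Subgroup.center G := by
      rw [← QuotientGroup.eq_one_iff, ← QuotientGroup.mk'_apply, map_mul, map_inv, e',
        inv_mul_cancel]
    have h2 : x * b * x⁻¹ ∈ A := by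
      have : x * b * x⁻¹ = a * (a⁻¹ * (x * b * x⁻¹)) := by group
      rw [this]
      exact A.mul_mem ha (hZA h1)
    have h3 : x * b * x⁻¹ ∈ Subgroup.center G := by
      apply hint x hx _ h2
      have : x⁻¹ * (x * b * x⁻¹) * x = b := by group
      rw [this]
      exact hb
    rw [Subgroup.mem_bot, ← e', QuotientGroup.mk'_apply, QuotientGroup.eq_one_iff]
    exact h3
  have h2 := lemmaF _ hcoatom hTI
  have h3 : derivedSeries G 2 ≤ Subgroup.center G := by
    have := map_derivedSeries_eq hsurj 2
    rw [h2, Subgroup.map_eq_bot_iff, QuotientGroup.ker_mk'] at this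
    exact this
  rw [derivedSeries_succ, Subgroup.commutator_eq_bot_iff_le_centralizer]
  intro x hx
  rw [Subgroup.mem_centralizer_iff]
  intro y _
  exact Subgroup.mem_center_iff.mp (h3 hx) y

/-- If a finite group has a maximal subgroup that is abelian, then the third term of its derived series is trivial (so the group is solvable of derived length at most three). -/
theorem result {G : Type*} [Group G] [Finite G] (A : Subgroup G) (hA : IsCoatom A) [IsMulCommutative A] : derivedSeries G 3 = ⊥ := by
  by_cases hAn : A.Normal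
  · have hD1 : derivedSeries G 1 ≤ A := by
      obtain ⟨x, hx⟩ : ∃ x, x ∉ A := by
        by_contra h
        push Not at h
        exact hA.1 (eq_top_iff.mpr (fun y _ => h y))
      have htop : A ⊔ Subgroup.zpowers x = ⊤ := by
        apply hA.2
        apply lt_of_le_of_ne le_sup_left
        intro h
        have h1 : x ∈ A ⊔ Subgroup.zpowers x := Subgroup.mem_sup_right (Subgroup.mem_zpowers x)
        rw [← h] at h1
        exact hx h1
      rw [derivedSeries_succ, derivedSeries_zero, Subgroup.commutator_le]
      intro g _ h _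
      have hdec : ∀ g : G, ∃ k : ℤ, QuotientGroup.mk' A g = (QuotientGroup.mk' A x) ^ k := by
        intro g
        have hg : g ∈ A ⊔ Subgroup.zpowers x := htop ▸ Subgroup.mem_top g
        rw [Subgroup.mem_sup_of_normal_left] at hg
        obtain ⟨a, ha, y, hy, rfl⟩ := hg
        obtain ⟨k, rfl⟩ := Subgroup.mem_zpowers_iff.mp hy
        exact ⟨k, by rw [map_mul, QuotientGroup.mk'_apply A a, (QuotientGroup.eq_one_iff a).mpr ha,
          one_mul, map_zpow]⟩
      obtain ⟨k, ek⟩ := hdec g
      obtain ⟨l, el⟩ := hdec h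
      rw [← QuotientGroup.eq_one_iff, ← QuotientGroup.mk'_apply, map_commutatorElement, ek, el,
        commutatorElement_def]
      group
    have hD2 : derivedSeries G 2 = ⊥ := by
      rw [derivedSeries_succ, ← le_bot_iff]
      refine (Subgroup.commutator_mono hD1 hD1).trans ?_
      rw [le_bot_iff, Subgroup.commutator_eq_bot_iff_le_centralizer]
      intro x hx
      rw [Subgroup.mem_centralizer_iff]
      intro y hy
      exact comm_of_mem A hy hx
    rw [derivedSeries_succ, hD2]
    simp
  · exact nonnormal_case A hA hAn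

end Cfsg.Agent.S0556
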