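import Cfsg.Statements.S0560
import Mathlib
import Cfsg.Agent.Lib.Helper4.Factor

set_option autoImplicit false
open Pointwise
open Cfsg

namespace Cfsg.Agent.S0560

theorem relIndex_aux {G : Type*} [Group G] [Finite G] (p : ℕ) [Fact p.Prime] (H : Subgroup G) (P0 : Sylow p H)
    (S : Subgroup G) (hS : (P0 : Subgroup H).map H.subtype ≤ S) (h : G) (hh : h ∈ H) :
    ¬ p ∣ (MulAut.conj h • S).relIndex H := by
  have h1 : (MulAut.conj h • S).relIndex H = S.relIndex H := by
    conv_lhs => rw [← Subgroup.conj_smul_eq_self_of_mem hh]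
    exact Subgroup.relIndex_pointwise_smul _ _ _
  rw [h1]
  have h2 : S.relIndex H ∣ ((P0 : Subgroup H).map H.subtype).relIndex H :=
    Subgroup.relIndex_dvd_of_le_left H hS
  have h3 : ((P0 : Subgroup H).map H.subtype).relIndex H = (P0 : Subgroup H).index := by
    rw [Subgroup.relIndex, Subgroup.subgroupOf, Subgroup.comap_map_eq_self_of_injective H.subtype_injective]
  rw [h3] at h2
  exact fun hd => P0.not_dvd_index (hd.trans h2)

/-- Let the finite group G be the product HK of two subgroups and p a prime. Then there are Sylow p-subgroups P of H and Q of K and a Sylow p-subgroup R of G whose underlying set is the product set of P and Q. -/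
theorem result {G : Type*} [Group G] [Finite G] (H K : Subgroup G) (hHK : ∀ g : G, ∃ h ∈ H, ∃ k ∈ K, g = h * k) (p : ℕ) [Fact p.Prime] : ∃ (P : Sylow p H) (Q : Sylow p K) (R : Sylow p G), ((R : Subgroup G) : Set G) = (((P : Subgroup H).map H.subtype : Subgroup G) : Set G) * (((Q : Subgroup K).map K.subtype : Subgroup G) : Set G) := by
  have hHK' := (Lib.Helper4.mul_eq_univ_iff H K).mpr hHK
  have hp : p.Prime := Fact.out
  obtain ⟨P0⟩ : Nonempty (Sylow p H) := inferInstance
  obtain ⟨Q0⟩ : Nonempty (Sylow p K) := inferInstance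
  obtain ⟨S1, hS1⟩ := (P0.2.map H.subtype).exists_le_sylow
  obtain ⟨S2, hS2⟩ := (Q0.2.map K.subtype).exists_le_sylow
  obtain ⟨c, hc⟩ := MulAction.exists_smul_eq G S1 S2
  obtain ⟨h0, hh0, k0, hk0, e⟩ := hHK c⁻¹
  have e' : k0 * c = h0⁻¹ := by
    have : c = (h0 * k0)⁻¹ := by rw [← e, inv_inv]
    rw [this]; group
  have hR1 : ((h0⁻¹ • S1 : Sylow p G) : Subgroup G) = MulAut.conj h0⁻¹ • (S1 : Subgroup G) := rfl
  have hR2 : ((h0⁻¹ • S1 : Sylow p G) : Subgroup G) = MulAut.conj k0 • (S2 : Subgroup G) := by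
    rw [← e', mul_smul, hc]; rfl
  obtain ⟨R, hR⟩ : ∃ R : Sylow p G, R = h0⁻¹ • S1 := ⟨_, rfl⟩
  rw [← hR] at hR1 hR2
  have n1 : ¬ p ∣ (R : Subgroup G).relIndex H := by
    rw [hR1]; exact relIndex_aux p H P0 _ hS1 _ (H.inv_mem hh0)
  have n2 : ¬ p ∣ (R : Subgroup G).relIndex K := by
    rw [hR2]; exact relIndex_aux p K Q0 _ hS2 _ hk0
  obtain ⟨n, hn⟩ := IsPGroup.iff_card.mp R.2
  have c1 : (Nat.card (R : Subgroup G)).Coprime ((R : Subgroup G).relIndex H) := by
    rw [hn]; exact Nat.Coprime.pow_left n ((Nat.Prime.coprime_iff_not_dvd hp).mpr n1)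
  have c2 : (Nat.card (R : Subgroup G)).Coprime ((R : Subgroup G).relIndex K) := by
    rw [hn]; exact Nat.Coprime.pow_left n ((Nat.Prime.coprime_iff_not_dvd hp).mpr n2)
  have key := Lib.Helper4.eq_mul_of_coprime_relIndex H K (R : Subgroup G) hHK' c1 c2
  have p1 : IsPGroup p ((R : Subgroup G).subgroupOf H) := R.2.comap_subtype
  have p2 : IsPGroup p ((R : Subgroup G).subgroupOf K) := R.2.comap_subtype
  refine ⟨p1.toSylow n1, p2.toSylow n2, R, ?_⟩
  rw [key]
  congr 1
  · rw [← Subgroup.subgroupOf_map_subtype]; rfl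
  · rw [← Subgroup.subgroupOf_map_subtype]; rfl

end Cfsg.Agent.S0560
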