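import Cfsg.Statements.S0566
import Mathlib
import Cfsg.Agent.Lib.Helper4.Basic

set_option autoImplicit false
open Pointwise
open Cfsg

namespace Cfsg.Agent.S0566

universe u

open Subgroup

def Perm' {G : Type u} [Group G] (H K : Subgroup G) : Prop :=
  (∀ k ∈ K, ∀ h ∈ H, ∃ h' ∈ H, ∃ k' ∈ K, k * h = h' * k') ∧
  (∀ h ∈ H, ∀ k ∈ K, ∃ k' ∈ K, ∃ h' ∈ H, h * k = k' * h')

theorem le_of_prod {G : Type u} [Group G] {S H K : Subgroup G}
    (h : (S : Set G) = (H : Set G) * (K : Set G)) : H ≤ S ∧ K ≤ S := by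
  constructor
  · intro x hx
    have : x ∈ (H : Set G) * (K : Set G) := ⟨x, hx, 1, one_mem _, mul_one x⟩
    rw [← h] at this; exact this
  · intro x hx
    have : x ∈ (H : Set G) * (K : Set G) := ⟨1, one_mem _, x, hx, one_mul x⟩
    rw [← h] at this; exact this

theorem perm_of_prod {G : Type u} [Group G] {S H K : Subgroup G}
    (h : (S : Set G) = (H : Set G) * (K : Set G)) : Perm' H K := by
  obtain ⟨hH, hK⟩ := le_of_prod h
  constructor
  · intro k hk x hx
    have : k * x ∈ (S : Set G) := S.mul_mem (hK hk) (hH hx)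
    rw [h] at this
    obtain ⟨a, ha, b, hb, e⟩ := this
    exact ⟨a, ha, b, hb, e.symm⟩
  · intro x hx k hk
    have : (x * k)⁻¹ ∈ (S : Set G) := S.inv_mem (S.mul_mem (hH hx) (hK hk))
    rw [h] at this
    obtain ⟨a, ha, b, hb, e⟩ := this
    refine ⟨b⁻¹, K.inv_mem hb, a⁻¹, H.inv_mem ha, ?_⟩
    have e' : a * b = (x * k)⁻¹ := e
    rw [← mul_inv_rev, e', inv_inv]

theorem prod_of_perm {G : Type u} [Group G] {H K : Subgroup G} (h : Perm' H K) :
    ∃ S : Subgroup G, (S : Set G) = (H : Set G) * (K : Set G) := by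
  refine ⟨{ carrier := (H : Set G) * (K : Set G),
            one_mem' := ⟨1, one_mem _, 1, one_mem _, one_mul 1⟩,
            mul_mem' := ?_, inv_mem' := ?_ }, rfl⟩
  · rintro _ _ ⟨a, ha, b, hb, rfl⟩ ⟨c, hc, d, hd, rfl⟩
    obtain ⟨c', hc', b', hb', e⟩ := h.1 b hb c hc
    refine ⟨a * c', H.mul_mem ha hc', b' * d, K.mul_mem hb' hd, ?_⟩
    change a * c' * (b' * d) = a * b * (c * d)
    calc a * c' * (b' * d) = a * (c' * b') * d := by group
      _ = a * (b * c) * d := by rw [e]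
      _ = a * b * (c * d) := by group
  · rintro _ ⟨a, ha, b, hb, rfl⟩
    obtain ⟨a', ha', b', hb', e⟩ := h.1 b⁻¹ (K.inv_mem hb) a⁻¹ (H.inv_mem ha)
    refine ⟨a', ha', b', hb', ?_⟩
    change a' * b' = (a * b)⁻¹
    rw [← e, mul_inv_rev]

theorem perm_sup {G : Type u} [Group G] {H H' K : Subgroup G} (h : Perm' H K) (h' : Perm' H' K) :
    Perm' (H ⊔ H') K := by
  let T : Subgroup G :=
    { carrier := {g | (∀ c ∈ K, ∃ x ∈ H ⊔ H', ∃ c' ∈ K, c * g = x * c') ∧
        (∀ c ∈ K, ∃ c' ∈ K, ∃ x ∈ H ⊔ H', g * c = c' * x)}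
      one_mem' := ⟨fun c hc => ⟨1, one_mem _, c, hc, by simp⟩, fun c hc => ⟨c, hc, 1, one_mem _, by simp⟩⟩
      mul_mem' := by
        rintro g1 g2 ⟨a1, b1⟩ ⟨a2, b2⟩
        constructor
        · intro c hc
          obtain ⟨x1, hx1, c1, hc1, e1⟩ := a1 c hc
          obtain ⟨x2, hx2, c2, hc2, e2⟩ := a2 c1 hc1
          refine ⟨x1 * x2, mul_mem hx1 hx2, c2, hc2, ?_⟩
          rw [← mul_assoc, e1, mul_assoc, e2, mul_assoc]
        · intro c hc
          obtain ⟨c1, hc1, x1, hx1, e1⟩ := b2 c hc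
          obtain ⟨c2, hc2, x2, hx2, e2⟩ := b1 c1 hc1
          refine ⟨c2, hc2, x2 * x1, mul_mem hx2 hx1, ?_⟩
          rw [mul_assoc, e1, ← mul_assoc, e2, mul_assoc]
      inv_mem' := by
        rintro g ⟨a, b⟩
        constructor
        · intro c hc
          obtain ⟨c1, hc1, x1, hx1, e1⟩ := b c⁻¹ (inv_mem hc)
          refine ⟨x1⁻¹, inv_mem hx1, c1⁻¹, inv_mem hc1, ?_⟩
          rw [← mul_inv_rev, ← e1, mul_inv_rev, inv_inv]
        · intro c hc
          obtain ⟨x1, hx1, c1, hc1, e1⟩ := a c⁻¹ (inv_mem hc)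
          refine ⟨c1⁻¹, inv_mem hc1, x1⁻¹, inv_mem hx1, ?_⟩
          rw [← mul_inv_rev, ← e1, mul_inv_rev, inv_inv] }
  have hT : H ⊔ H' ≤ T := by
    apply sup_le
    · intro x hx
      constructor
      · intro c hc
        obtain ⟨x', hx', c', hc', e⟩ := h.1 c hc x hx
        exact ⟨x', mem_sup_left hx', c', hc', e⟩
      · intro c hc
        obtain ⟨c', hc', x', hx', e⟩ := h.2 x hx c hc
        exact ⟨c', hc', x', mem_sup_left hx', e⟩
    · intro x hx
      constructor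
      · intro c hc
        obtain ⟨x', hx', c', hc', e⟩ := h'.1 c hc x hx
        exact ⟨x', mem_sup_right hx', c', hc', e⟩
      · intro c hc
        obtain ⟨c', hc', x', hx', e⟩ := h'.2 x hx c hc
        exact ⟨c', hc', x', mem_sup_right hx', e⟩
  constructor
  · intro k hk x hx
    exact (hT hx).1 k hk
  · intro x hx k hk
    exact (hT hx).2 k hk

theorem perm_conj {G : Type u} [Group G] {H K : Subgroup G} (h : Perm' H K) (g : G) :
    Perm' (MulAut.conj g • H) (MulAut.conj g • K) := by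
  constructor
  · rintro _ ⟨k, hk, rfl⟩ _ ⟨x, hx, rfl⟩
    obtain ⟨x', hx', k', hk', e⟩ := h.1 k hk x hx
    refine ⟨g * x' * g⁻¹, ⟨x', hx', rfl⟩, g * k' * g⁻¹, ⟨k', hk', rfl⟩, ?_⟩
    change g * k * g⁻¹ * (g * x * g⁻¹) = _
    calc g * k * g⁻¹ * (g * x * g⁻¹) = g * (k * x) * g⁻¹ := by group
      _ = g * (x' * k') * g⁻¹ := by rw [e]
      _ = _ := by group
  · rintro _ ⟨x, hx, rfl⟩ _ ⟨k, hk, rfl⟩
    obtain ⟨k', hk', x', hx', e⟩ := h.2 x hx k hk
    refine ⟨g * k' * g⁻¹, ⟨k', hk', rfl⟩, g * x' * g⁻¹, ⟨x', hx', rfl⟩, ?_⟩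
    change g * x * g⁻¹ * (g * k * g⁻¹) = _
    calc g * x * g⁻¹ * (g * k * g⁻¹) = g * (x * k) * g⁻¹ := by group
      _ = g * (k' * x') * g⁻¹ := by rw [e]
      _ = _ := by group

theorem aux {G : Type u} [Group G] [Finite G] (B : Subgroup G) : ∀ (k : ℕ) (A : Subgroup G),
    Nat.card G - Nat.card A = k →
    (∀ x : G, ∃ S : Subgroup G, S ≠ ⊤ ∧
      (S : Set G) = (A : Set G) * ((MulAut.conj x • B : Subgroup G) : Set G)) →
    ∃ N : Subgroup G, N.Normal ∧ N ≠ ⊤ ∧ (A ≤ N ∨ B ≤ N) := by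
  intro k
  induction k using Nat.strong_induction_on with
  | _ k ih =>
    intro A hk h
    by_cases hB : normalClosure (B : Set G) = ⊤
    swap
    · exact ⟨normalClosure B, inferInstance, hB, Or.inr le_normalClosure⟩
    by_cases hAn : A.Normal
    · obtain ⟨S, hS, e⟩ := h 1
      refine ⟨A, hAn, ?_, Or.inl le_rfl⟩
      rintro rfl
      exact hS (top_le_iff.mp (le_of_prod e).1)
    have hex : ∃ x : G, ∃ b ∈ MulAut.conj x • B, b ∉ normalizer (A : Set G) := by
      by_contra hcon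
      push Not at hcon
      apply hAn
      rw [← normalizer_eq_top_iff, ← top_le_iff, ← hB, normalClosure, closure_le]
      intro z hz
      rw [Group.mem_conjugatesOfSet_iff] at hz
      obtain ⟨b, hb, hconj⟩ := hz
      obtain ⟨c, hc⟩ := isConj_iff.mp hconj
      exact hcon c z ⟨b, hb, hc⟩
    obtain ⟨x, b, hb, hbN⟩ := hex
    obtain ⟨A1, hA1⟩ : ∃ A1, A1 = A ⊔ MulAut.conj b • A := ⟨_, rfl⟩
    have hlt : A < A1 := by
      refine lt_of_le_of_ne (hA1 ▸ le_sup_left) ?_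
      intro heq
      apply hbN
      apply Cfsg.Agent.Lib.Helper4.mem_normalizer_of_conj_mem
      intro a ha
      have : b * a * b⁻¹ ∈ A1 := hA1 ▸ mem_sup_right ⟨a, ha, rfl⟩
      rwa [← heq] at this
    have hperm : ∀ y : G, Perm' A1 (MulAut.conj y • B) := by
      intro y
      rw [hA1]
      apply perm_sup
      · obtain ⟨S, -, e⟩ := h y
        exact perm_of_prod e
      · obtain ⟨S, -, e⟩ := h (b⁻¹ * y)
        have := perm_conj (perm_of_prod e) b
        rwa [← mul_smul, ← map_mul, mul_inv_cancel_left] at this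
    obtain ⟨Sx, hSx, ex⟩ := h x
    obtain ⟨hASx, hBSx⟩ := le_of_prod ex
    have hA1S : A1 ≤ Sx := by
      rw [hA1]
      apply sup_le hASx
      rintro _ ⟨a, ha, rfl⟩
      exact Sx.mul_mem (Sx.mul_mem (hBSx hb) (hASx ha)) (Sx.inv_mem (hBSx hb))
    have h1 : ∀ y : G, ∃ S : Subgroup G, S ≠ ⊤ ∧
        (S : Set G) = (A1 : Set G) * ((MulAut.conj y • B : Subgroup G) : Set G) := by
      intro y
      obtain ⟨S, e⟩ := prod_of_perm (hperm y)
      refine ⟨S, ?_, e⟩
      rintro rfl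
      apply hSx
      have hall : ∀ g : G, ∃ a ∈ A1, ∃ c ∈ MulAut.conj y • B, a * c = g := by
        intro g
        have : g ∈ ((⊤ : Subgroup G) : Set G) := mem_top g
        rw [e] at this
        exact this
      have hC : MulAut.conj y • B ≤ Sx := by
        obtain ⟨s, hs, c, hc, e2⟩ := hall (y * x⁻¹)⁻¹
        intro w hw
        have hz : c⁻¹ * w * c ∈ MulAut.conj y • B := mul_mem (mul_mem (inv_mem hc) hw) hc
        obtain ⟨b0, hb0, e3⟩ := hz
        have e3' : y * b0 * y⁻¹ = c⁻¹ * w * c := e3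
        have e4 : c * y = s⁻¹ * x := by
          have : c = s⁻¹ * (y * x⁻¹)⁻¹ := by rw [← e2]; group
          rw [this]; group
        have e5 : w = s⁻¹ * (x * b0 * x⁻¹) * s := by
          calc w = c * (c⁻¹ * w * c) * c⁻¹ := by group
            _ = c * (y * b0 * y⁻¹) * c⁻¹ := by rw [e3']
            _ = (c * y) * b0 * (c * y)⁻¹ := by group
            _ = (s⁻¹ * x) * b0 * (s⁻¹ * x)⁻¹ := by rw [e4]
            _ = s⁻¹ * (x * b0 * x⁻¹) * s := by group
        rw [e5]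
        exact Sx.mul_mem (Sx.mul_mem (Sx.inv_mem (hA1S hs)) (hBSx ⟨b0, hb0, rfl⟩)) (hA1S hs)
      rw [eq_top_iff]
      intro g _
      obtain ⟨a, ha, c, hc, rfl⟩ := hall g
      exact Sx.mul_mem (hA1S ha) (hC hc)
    have hcard : Nat.card A < Nat.card A1 :=
      Set.ncard_lt_ncard (SetLike.coe_ssubset_coe.mpr hlt) (Set.toFinite _)
    have hcard2 : Nat.card A1 ≤ Nat.card G := Subgroup.card_le_card_group _
    obtain ⟨N, hNn, hNt, hN⟩ := ih (Nat.card G - Nat.card A1) (by omega) A1 rfl h1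
    refine ⟨N, hNn, hNt, ?_⟩
    rcases hN with h | h
    · exact Or.inl (hlt.le.trans h)
    · exact Or.inr h

/-- Let A and B be nontrivial subgroups of a finite group G such that for every x the product set of A and xBx⁻¹ is a proper subgroup of G. Then there is a proper normal subgroup of G containing A or containing B. -/
theorem result {G : Type*} [Group G] [Finite G] (A B : Subgroup G) (hA : A ≠ ⊥) (hB : B ≠ ⊥) (h : ∀ x : G, ∃ S : Subgroup G, S ≠ ⊤ ∧ (S : Set G) = (A : Set G) * ((MulAut.conj x • B : Subgroup G) : Set G)) : ∃ N : Subgroup G, N.Normal ∧ N ≠ ⊤ ∧ (A ≤ N ∨ B ≤ N) := by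
  exact aux B _ A rfl h

end Cfsg.Agent.S0566
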