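import Cfsg.Statements.S0561
import Mathlib
import Cfsg.Agent.S0566
import Cfsg.Agent.S0004
import Cfsg.Agent.S0005
import Cfsg.Agent.Lib.Helper4.Factor

set_option autoImplicit false
open Pointwise
open Cfsg

namespace Cfsg.Agent.S0561

universe u

open Subgroup Cfsg.Agent.Lib.Helper4

theorem common {G : Type u} [Group G] (H K : Subgroup G) (hHK : ∀ g : G, ∃ h ∈ H, ∃ k ∈ K, g = h * k)
    (T1 T2 : Subgroup G) (c : G) (hc : MulAut.conj c • T1 = T2) :
    ∃ h ∈ H, ∃ k ∈ K, MulAut.conj h • T1 = MulAut.conj k • T2 := by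
  obtain ⟨h0, hh0, k0, hk0, e⟩ := hHK c⁻¹
  refine ⟨h0⁻¹, inv_mem hh0, k0, hk0, ?_⟩
  rw [← hc, ← mul_smul, ← map_mul]
  congr 2
  have : c = (h0 * k0)⁻¹ := by rw [← e, inv_inv]
  rw [this]; group

theorem hall_lcm {n a a' b b' : ℕ} (hn : n ≠ 0) (ha : n = a * a') (hb : n = b * b') (ca : a.Coprime a')
    (cb : b.Coprime b') : ∃ m', n = Nat.lcm a b * m' ∧ (Nat.lcm a b).Coprime m' ∧ a.Coprime m' ∧
      b.Coprime m' := by
  have h1 : Nat.lcm a b ∣ n := Nat.lcm_dvd (Dvd.intro _ ha.symm) (Dvd.intro _ hb.symm)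
  obtain ⟨m', hm'⟩ := h1
  have ha0 : 0 < a := Nat.pos_of_ne_zero (by rintro rfl; simp at ha; exact hn ha)
  have hb0 : 0 < b := Nat.pos_of_ne_zero (by rintro rfl; simp at hb; exact hn hb)
  have c1 : a.Coprime m' := by
    obtain ⟨s, hs⟩ := Nat.dvd_lcm_left a b
    have : a' = s * m' := by
      apply Nat.eq_of_mul_eq_mul_left ha0
      rw [← ha, hm', hs, mul_assoc]
    exact Nat.Coprime.coprime_dvd_right (Dvd.intro_left _ this.symm) ca
  have c2 : b.Coprime m' := by
    obtain ⟨s, hs⟩ := Nat.dvd_lcm_right a b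
    have : b' = s * m' := by
      apply Nat.eq_of_mul_eq_mul_left hb0
      rw [← hb, hm', hs, mul_assoc]
    exact Nat.Coprime.coprime_dvd_right (Dvd.intro_left _ this.symm) cb
  refine ⟨m', hm', ?_, c1, c2⟩
  exact Nat.Coprime.coprime_dvd_left (Nat.lcm_dvd_mul a b) (Nat.Coprime.mul_left c1 c2)

theorem main_AB {G : Type u} [Group G] [Finite G] [Group.IsSolvable G] (H K A B : Subgroup G)
    (hHK : ∀ g : G, ∃ h ∈ H, ∃ k ∈ K, g = h * k) (hA : A ≤ H) (hAn : (A.subgroupOf H).Normal)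
    (hB : B ≤ K) (hBn : (B.subgroupOf K).Normal) (hAh : (Nat.card A).Coprime A.index)
    (hBh : (Nat.card B).Coprime B.index) :
    ∃ S : Subgroup G, (S : Set G) = (A : Set G) * (B : Set G) := by
  obtain ⟨m', hm, cm, ca, cb⟩ := hall_lcm (Nat.card_pos (α := G)).ne' (card_mul_index A).symm
    (card_mul_index B).symm hAh hBh
  obtain ⟨R1, hR1c, hAR1⟩ := Cfsg.Agent.S0005.result _ m' hm cm A ca
  obtain ⟨R2, hR2c, hBR2⟩ := Cfsg.Agent.S0005.result _ m' hm cm B cb
  obtain ⟨c, hc⟩ := Cfsg.Agent.S0004.result _ m' hm cm R1 R2 hR1c hR2c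
  obtain ⟨h, hh, k, hk, e⟩ := common H K hHK R1 R2 c hc
  have hAR : A ≤ MulAut.conj h • R1 := by
    rw [← conj_smul_eq_of_normal_subgroupOf hA hAn hh]
    exact pointwise_smul_le_pointwise_smul_iff.mpr hAR1
  have hBR : B ≤ MulAut.conj h • R1 := by
    rw [e, ← conj_smul_eq_of_normal_subgroupOf hB hBn hk]
    exact pointwise_smul_le_pointwise_smul_iff.mpr hBR2
  have hRc : Nat.card (MulAut.conj h • R1 : Subgroup G) = Nat.lcm (Nat.card A) (Nat.card B) := by
    rw [← hR1c]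
    exact (Nat.card_congr (Subgroup.equivSMul (MulAut.conj h) R1).toEquiv).symm
  refine ⟨MulAut.conj h • R1, eq_mul_of_card_le hAR hBR ?_⟩
  rw [hRc]
  have e3 := card_mul_set A B
  have d1 : Nat.card (A ⊓ B : Subgroup G) ∣ Nat.gcd (Nat.card A) (Nat.card B) :=
    Nat.dvd_gcd (card_dvd_of_le inf_le_left) (card_dvd_of_le inf_le_right)
  have hg : 0 < Nat.gcd (Nat.card A) (Nat.card B) := Nat.gcd_pos_of_pos_left _ Nat.card_pos
  have d2 := Nat.le_of_dvd hg d1
  apply Nat.le_of_mul_le_mul_right _ hg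
  calc Nat.lcm (Nat.card A) (Nat.card B) * Nat.gcd (Nat.card A) (Nat.card B)
      = Nat.card A * Nat.card B := by rw [mul_comm]; exact Nat.gcd_mul_lcm _ _
    _ = Nat.card ((A : Set G) * (B : Set G) : Set G) * Nat.card (A ⊓ B : Subgroup G) := e3.symm
    _ ≤ Nat.card ((A : Set G) * (B : Set G) : Set G) * Nat.gcd (Nat.card A) (Nat.card B) :=
        Nat.mul_le_mul_left _ d2

/-- Let the finite solvable group G be the product HK of subgroups, and let A be normal in H and B normal in K, where A and B are Hall subgroups of G (order coprime to index). Then for all x, y the product set of xAx⁻¹ and yBy⁻¹ is a subgroup of G. -/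
theorem result {G : Type*} [Group G] [Finite G] [Group.IsSolvable G] (H K A B : Subgroup G) (hHK : ∀ g : G, ∃ h ∈ H, ∃ k ∈ K, g = h * k) (hA : A ≤ H) (hAn : (A.subgroupOf H).Normal) (hB : B ≤ K) (hBn : (B.subgroupOf K).Normal) (hAh : (Nat.card A).Coprime A.index) (hBh : (Nat.card B).Coprime B.index) (x y : G) : ∃ S : Subgroup G, (S : Set G) = ((MulAut.conj x • A : Subgroup G) : Set G) * ((MulAut.conj y • B : Subgroup G) : Set G) := by
  obtain ⟨S, hS⟩ := main_AB H K A B hHK hA hAn hB hBn hAh hBh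
  obtain ⟨h, hh, k, hk, e⟩ := exists_common_coset H K hHK x y
  have hp := Cfsg.Agent.S0566.perm_conj (Cfsg.Agent.S0566.perm_of_prod hS) (x * h)
  have e1 : MulAut.conj (x * h) • A = MulAut.conj x • A := by
    rw [map_mul, mul_smul, conj_smul_eq_of_normal_subgroupOf hA hAn hh]
  have e2 : MulAut.conj (x * h) • B = MulAut.conj y • B := by
    rw [e, map_mul, mul_smul, conj_smul_eq_of_normal_subgroupOf hB hBn hk]
  rw [e1, e2] at hp
  exact Cfsg.Agent.S0566.prod_of_perm hp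

end Cfsg.Agent.S0561
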