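import Cfsg.Statements.S0567
import Mathlib
import Cfsg.Agent.Lib.Helper4.Basic

set_option autoImplicit false
open Cfsg

namespace Cfsg.Agent.S0567

open scoped commutatorElement

theorem iter_mono {G : Type*} [Group G] {H K : Subgroup G} (hHK : H ≤ K) (m : ℕ) :
    (fun X : Subgroup G => ⁅X, H⁆)^[m] ⊤ ≤ (fun X : Subgroup G => ⁅X, K⁆)^[m] ⊤ := by
  induction m with
  | zero => exact le_rfl
  | succ m ih =>
    rw [Function.iterate_succ_apply', Function.iterate_succ_apply']
    exact Subgroup.commutator_mono ih hHK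

theorem forward {G : Type*} [Group G] (H : Subgroup G) (h : H.IsSubnormal) :
    ∃ m : ℕ, (fun K : Subgroup G => ⁅K, H⁆)^[m] ⊤ ≤ H := by
  induction h with
  | top => exact ⟨0, le_rfl⟩
  | step H K hHK _ hN ih =>
    obtain ⟨m, hm⟩ := ih
    refine ⟨m + 1, ?_⟩
    rw [Function.iterate_succ_apply']
    have h1 : (fun X : Subgroup G => ⁅X, H⁆)^[m] ⊤ ≤ K := (iter_mono hHK m).trans hm
    refine (Subgroup.commutator_mono h1 le_rfl).trans ?_
    rw [Subgroup.commutator_le]
    intro k hk x hx
    rw [commutatorElement_def]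
    have h2 : k * x * k⁻¹ ∈ H := by
      have := hN.conj_mem ⟨x, hHK hx⟩ (Subgroup.mem_subgroupOf.mpr hx) ⟨k, hk⟩
      exact Subgroup.mem_subgroupOf.mp this
    exact H.mul_mem h2 (H.inv_mem hx)

theorem le_normalizer_sup_comm {G : Type*} [Group G] (H K : Subgroup G) :
    H ⊔ K ≤ Subgroup.normalizer ((H ⊔ ⁅K, H⁆ : Subgroup G) : Set G) := by
  apply sup_le
  · exact le_sup_left.trans Subgroup.le_normalizer
  · apply Lib.Helper4.le_normalizer_of_conj_mem
    intro k hk
    have hle : H ⊔ ⁅K, H⁆ ≤ (H ⊔ ⁅K, H⁆).comap (MulAut.conj k).toMonoidHom := by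
      apply sup_le
      · intro x hx
        rw [Subgroup.mem_comap]
        show k * x * k⁻¹ ∈ H ⊔ ⁅K, H⁆
        have h1 : k * x * k⁻¹ = ⁅k, x⁆ * x := by rw [commutatorElement_def]; group
        rw [h1]
        exact mul_mem (Subgroup.mem_sup_right (Subgroup.commutator_mem_commutator hk hx))
          (Subgroup.mem_sup_left hx)
      · rw [Subgroup.commutator_le]
        intro k' hk' x hx
        rw [Subgroup.mem_comap]
        show k * ⁅k', x⁆ * k⁻¹ ∈ H ⊔ ⁅K, H⁆
        have h1 : k * ⁅k', x⁆ * k⁻¹ = ⁅k * k', x⁆ * ⁅k, x⁆⁻¹ := by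
          simp only [commutatorElement_def]; group
        rw [h1]
        apply Subgroup.mem_sup_right
        exact mul_mem (Subgroup.commutator_mem_commutator (K.mul_mem hk hk') hx)
          (inv_mem (Subgroup.commutator_mem_commutator hk hx))
    intro x hx
    exact hle hx

theorem backward {G : Type*} [Group G] (H : Subgroup G) (m : ℕ) :
    (H ⊔ (fun K : Subgroup G => ⁅K, H⁆)^[m] ⊤).IsSubnormal := by
  induction m with
  | zero => simp
  | succ m ih =>
    rw [Function.iterate_succ_apply']
    refine Subgroup.IsSubnormal.step _ _ ?_ ih ?_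
    · apply sup_le le_sup_left
      exact (Subgroup.commutator_le_sup _ _).trans (by rw [sup_comm])
    · exact Subgroup.normal_subgroupOf_of_le_normalizer (le_normalizer_sup_comm H _)

/-- A subgroup H of a group G is subnormal exactly when, for some m, the subgroup obtained from G by taking the commutator with H m times in succession is contained in H. -/
theorem result {G : Type*} [Group G] (H : Subgroup G) : H.IsSubnormal ↔ ∃ m : ℕ, (fun K : Subgroup G => ⁅K, H⁆)^[m] ⊤ ≤ H := by
  constructor
  · exact forward H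
  · rintro ⟨m, hm⟩
    have := backward H m
    rwa [sup_eq_left.mpr hm] at this

end Cfsg.Agent.S0567
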