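import Cfsg.Statements.S0568
import Mathlib
import Cfsg.Agent.S0545
import Cfsg.Agent.Lib.Helper4.MinNormal
import Cfsg.Agent.Lib.Helper4.Factor
import Cfsg.Agent.Lib.Helper4.CompSys

set_option autoImplicit false
open Cfsg

namespace Cfsg.Agent.S0568

open Cfsg.Agent.Lib.Helper4
open scoped commutatorElement

theorem comm_ne {G : Type*} [Group G] (S N : Subgroup G) (hS : Group.IsNilpotent S) (hNS : N ≤ S)
    (h : ⁅N, S⁆ = N) : N = ⊥ := by
  obtain ⟨n, hn⟩ := (Subgroup.isNilpotent_iff_lowerCentralSeries S).mp hS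
  have key : ∀ k, N ≤ S.lowerCentralSeries k := by
    intro k
    induction k with
    | zero => simpa using hNS
    | succ k ih =>
      rw [Subgroup.lowerCentralSeries_succ]
      calc N = ⁅N, S⁆ := h.symm
        _ ≤ _ := Subgroup.commutator_mono ih le_rfl
  exact le_bot_iff.mp (hn ▸ key n)

/-- A minimal normal subgroup meeting a system normalizer nontrivially is central. -/
theorem lemmaE {G : Type*} [Group G] [Finite G] [Group.IsSolvable G] (K : Nat.Primes → Subgroup G)
    (hK : Cfsg.IsComplementSystem K) (N : Subgroup G) (hN : IsMinNormal N) (x : G) (hxN : x ∈ N)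
    (hxD : x ∈ Cfsg.systemNormalizer K) (hx1 : x ≠ 1) : ⁅N, (⊤ : Subgroup G)⁆ = ⊥ := by
  have hcomm := minNormal_comm hN
  obtain ⟨p, hp, hNp⟩ := minNormal_isPGroup hN
  obtain ⟨hNn, hNb, hmin⟩ := hN
  haveI := hNn
  haveI : Fact p.Prime := ⟨hp⟩
  obtain ⟨S⟩ : Nonempty (Sylow p G) := inferInstance
  have hNS : N ≤ (S : Subgroup G) := hNp.le_sylow_of_normal S
  obtain ⟨M, hM⟩ : ∃ M, M = K ⟨p, hp⟩ := ⟨_, rfl⟩
  -- x centralizes M
  have hNM : N ⊓ M = ⊥ := by
    have hc : (Nat.card N).Coprime (Nat.card M) := by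
      obtain ⟨k, hk⟩ := (IsPGroup.iff_card).mp hNp
      rw [hk]
      apply Nat.Coprime.pow_left
      rw [Nat.Prime.coprime_iff_not_dvd hp, hM]
      exact compSys_not_dvd_card K hK ⟨p, hp⟩
    exact (Subgroup.disjoint_of_coprime_natCard hc).eq_bot
  have hxM : ∀ m ∈ M, m * x * m⁻¹ = x := by
    intro m hm
    have hxn : x ∈ Subgroup.normalizer (M : Set G) := by
      rw [hM]
      exact (Subgroup.mem_iInf.mp hxD) ⟨p, hp⟩
    have h1 : m * x * m⁻¹ * x⁻¹ ∈ N := N.mul_mem (hNn.conj_mem x hxN m) (N.inv_mem hxN)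
    have h2 : m * x * m⁻¹ * x⁻¹ ∈ M := by
      have : x * m⁻¹ * x⁻¹ ∈ M := (Subgroup.mem_normalizer_iff.mp hxn _).mp (M.inv_mem hm)
      have h3 := M.mul_mem hm this
      convert h3 using 1
      group
    have h3 : m * x * m⁻¹ * x⁻¹ ∈ N ⊓ M := ⟨h1, h2⟩
    rw [hNM, Subgroup.mem_bot] at h3
    exact mul_inv_eq_one.mp h3
  -- factorization
  have hfac : ∀ g : G, ∃ s ∈ (S : Subgroup G), ∃ m ∈ M, g = s * m := by
    rw [← mul_eq_univ_iff]
    apply mul_eq_univ_of_coprime_index
    rw [hM, hK ⟨p, hp⟩]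
    apply Nat.Coprime.pow_right
    exact ((Nat.Prime.coprime_iff_not_dvd hp).mpr S.not_dvd_index).symm
  obtain ⟨T, hT⟩ : ∃ T, T = ⁅N, (S : Subgroup G)⁆ := ⟨_, rfl⟩
  have hTN : T ≤ N := by
    rw [hT]
    exact Subgroup.commutator_le_left N _
  have hTne : T ≠ N := by
    intro h
    exact hNb (comm_ne (S : Subgroup G) N S.isPGroup'.isNilpotent hNS (hT ▸ h))
  let Y : Subgroup G :=
    { carrier := {y | y ∈ N ∧ ∀ g : G, g * y * g⁻¹ * y⁻¹ ∈ T}
      mul_mem' := by
        rintro a b ⟨ha, ha'⟩ ⟨hb, hb'⟩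
        refine ⟨N.mul_mem ha hb, fun g => ?_⟩
        have h1 := T.mul_mem (ha' g) (hb' g)
        have h2 : g * (a * b) * g⁻¹ * (a * b)⁻¹ = (g * a * g⁻¹ * a⁻¹) * (g * b * g⁻¹ * b⁻¹) := by
          have e1 : a⁻¹ * (g * b * g⁻¹ * b⁻¹) = (g * b * g⁻¹ * b⁻¹) * a⁻¹ :=
            hcomm _ (N.inv_mem ha) _ (N.mul_mem (hNn.conj_mem b hb g) (N.inv_mem hb))
          calc g * (a * b) * g⁻¹ * (a * b)⁻¹ = g * a * g⁻¹ * ((g * b * g⁻¹ * b⁻¹) * a⁻¹) := by group
            _ = g * a * g⁻¹ * (a⁻¹ * (g * b * g⁻¹ * b⁻¹)) := by rw [e1]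
            _ = _ := by group
        rw [h2]; exact h1
      one_mem' := ⟨N.one_mem, fun g => by simp [T.one_mem]⟩
      inv_mem' := by
        rintro a ⟨ha, ha'⟩
        refine ⟨N.inv_mem ha, fun g => ?_⟩
        have h1 := T.inv_mem (ha' g)
        have e1 : a * (g * a⁻¹ * g⁻¹) = (g * a⁻¹ * g⁻¹) * a :=
          hcomm _ ha _ (hNn.conj_mem _ (N.inv_mem ha) g)
        have h2 : g * a⁻¹ * g⁻¹ * a⁻¹⁻¹ = (g * a * g⁻¹ * a⁻¹)⁻¹ := by
          calc g * a⁻¹ * g⁻¹ * a⁻¹⁻¹ = (g * a⁻¹ * g⁻¹) * a := by group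
            _ = a * (g * a⁻¹ * g⁻¹) := e1.symm
            _ = _ := by group
        rw [h2]; exact h1 }
  have hYn : Y.Normal := by
    constructor
    rintro y ⟨hy, hy'⟩ h
    refine ⟨hNn.conj_mem y hy h, fun g => ?_⟩
    have h1 := T.mul_mem (hy' (g * h)) (T.inv_mem (hy' h))
    convert h1 using 1
    group
  have hxY : x ∈ Y := by
    refine ⟨hxN, fun g => ?_⟩
    obtain ⟨s, hs, m, hm, rfl⟩ := hfac g
    have e : s * m * x * (s * m)⁻¹ * x⁻¹ = s * x * s⁻¹ * x⁻¹ := by
      calc s * m * x * (s * m)⁻¹ * x⁻¹ = s * (m * x * m⁻¹) * s⁻¹ * x⁻¹ := by group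
        _ = _ := by rw [hxM m hm]
    rw [e, hT]
    have h1 : ⁅x, s⁆ ∈ ⁅N, (S : Subgroup G)⁆ := Subgroup.commutator_mem_commutator hxN hs
    have h2 := Subgroup.inv_mem _ h1
    convert h2 using 1
    rw [commutatorElement_def]
    group
  have hYN : Y = N := by
    rcases hmin Y hYn (fun y hy => hy.1) with h | h
    · exfalso
      rw [h, Subgroup.mem_bot] at hxY
      exact hx1 hxY
    · exact h
  have hle : ⁅N, (⊤ : Subgroup G)⁆ ≤ T := by
    rw [Subgroup.commutator_le]
    intro y hy g _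
    have hyY : y ∈ Y := hYN ▸ hy
    have h1 := T.inv_mem (hyY.2 g)
    convert h1 using 1
    rw [commutatorElement_def]
    group
  rcases hmin ⁅N, (⊤ : Subgroup G)⁆ inferInstance (Subgroup.commutator_le_left N _) with h | h
  · exact h
  · exfalso
    exact hTne (le_antisymm hTN (h ▸ hle))

/-- Let D be the system normalizer of a Hall complement system of a finite solvable group G, and let A < B be normal subgroups with no normal subgroup of G strictly between them (a chief factor). If G centralizes B modulo A then B ≤ A ⊔ D (D covers the factor); otherwise B ∩ D ≤ A (D avoids it). -/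
theorem result {G : Type*} [Group G] [Finite G] [Group.IsSolvable G] (K : Nat.Primes → Subgroup G) (hK : Cfsg.IsComplementSystem K) (A B : Subgroup G) [A.Normal] [B.Normal] (hAB : A < B) (hchief : ∀ N : Subgroup G, N.Normal → A ≤ N → N ≤ B → N = A ∨ N = B) : (⁅B, (⊤ : Subgroup G)⁆ ≤ A → B ≤ A ⊔ Cfsg.systemNormalizer K) ∧ (¬ ⁅B, (⊤ : Subgroup G)⁆ ≤ A → B ⊓ Cfsg.systemNormalizer K ≤ A) := by
  obtain ⟨hK', hD'⟩ := Cfsg.Agent.S0545.result K hK A
  constructor
  · intro hc b hb
    have hbD : QuotientGroup.mk' A b ∈ Cfsg.systemNormalizer (fun p => (K p).map (QuotientGroup.mk' A)) := by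
      have hcen : ∀ y : G ⧸ A, y * QuotientGroup.mk' A b = QuotientGroup.mk' A b * y := by
        intro y
        obtain ⟨g, rfl⟩ := QuotientGroup.mk'_surjective A y
        have h1 : ⁅b, g⁆ ∈ A := hc (Subgroup.commutator_mem_commutator hb (Subgroup.mem_top g))
        have h2 : QuotientGroup.mk' A ⁅b, g⁆ = 1 := by
          rw [QuotientGroup.mk'_apply, QuotientGroup.eq_one_iff]; exact h1
        rw [commutatorElement_def, map_mul, map_mul, map_mul, map_inv, map_inv] at h2
        have h3 := mul_inv_eq_one.mp h2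
        have h4 := mul_inv_eq_iff_eq_mul.mp h3
        exact h4.symm
      unfold Cfsg.systemNormalizer
      rw [Subgroup.mem_iInf]
      intro p
      rw [Subgroup.mem_normalizer_iff]
      intro h
      rw [← hcen h, mul_inv_cancel_right]
    rw [hD'] at hbD
    obtain ⟨d, hd, hdb⟩ := hbD
    have h1 : d⁻¹ * b ∈ A := by
      rw [← QuotientGroup.eq_one_iff, ← QuotientGroup.mk'_apply, map_mul, map_inv, hdb, inv_mul_cancel]
    have h2 : b = d * (d⁻¹ * b) := by group
    rw [h2]
    exact Subgroup.mul_mem _ (Subgroup.mem_sup_right hd) (Subgroup.mem_sup_left h1)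
  · intro hc y hy
    by_contra hyA
    apply hc
    have hmin : Cfsg.Agent.Lib.Helper4.IsMinNormal (B.map (QuotientGroup.mk' A)) := by
      refine ⟨Subgroup.Normal.map inferInstance _ (QuotientGroup.mk'_surjective A), ?_, ?_⟩
      · intro h
        have h1 : B ≤ A := by
          intro b hb
          have : QuotientGroup.mk' A b ∈ B.map (QuotientGroup.mk' A) := Subgroup.mem_map_of_mem _ hb
          rw [h, Subgroup.mem_bot, QuotientGroup.mk'_apply, QuotientGroup.eq_one_iff] at this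
          exact this
        exact absurd hAB (not_lt_of_ge h1)
      · intro L hL hLB
        have h1 : A ≤ L.comap (QuotientGroup.mk' A) := by
          intro a ha
          rw [Subgroup.mem_comap, QuotientGroup.mk'_apply, (QuotientGroup.eq_one_iff a).mpr ha]
          exact L.one_mem
        have h2 : L.comap (QuotientGroup.mk' A) ≤ B := by
          intro g hg
          obtain ⟨b, hb, hbg⟩ := hLB (Subgroup.mem_comap.mp hg)
          have h3 : b⁻¹ * g ∈ A := by
            rw [← QuotientGroup.eq_one_iff, ← QuotientGroup.mk'_apply, map_mul, map_inv, hbg, inv_mul_cancel]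
          have h4 : g = b * (b⁻¹ * g) := by group
          rw [h4]
          exact B.mul_mem hb (hAB.le h3)
        rcases hchief _ (hL.comap _) h1 h2 with h | h
        · left
          rw [← Subgroup.map_comap_eq_self_of_surjective (QuotientGroup.mk'_surjective A) L, h]
          rw [Subgroup.map_eq_bot_iff, QuotientGroup.ker_mk']
        · right
          rw [← Subgroup.map_comap_eq_self_of_surjective (QuotientGroup.mk'_surjective A) L, h]
    have hE := lemmaE _ hK' _ hmin (QuotientGroup.mk' A y) (Subgroup.mem_map_of_mem _ hy.1)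
      (by rw [hD']; exact Subgroup.mem_map_of_mem _ hy.2)
      (by rw [QuotientGroup.mk'_apply, Ne, QuotientGroup.eq_one_iff]; exact hyA)
    rw [Subgroup.commutator_le]
    intro b hb g _
    have h1 : ⁅QuotientGroup.mk' A b, QuotientGroup.mk' A g⁆ ∈ ⁅B.map (QuotientGroup.mk' A), (⊤ : Subgroup (G ⧸ A))⁆ :=
      Subgroup.commutator_mem_commutator (Subgroup.mem_map_of_mem _ hb) (Subgroup.mem_top _)
    rw [hE, Subgroup.mem_bot, ← map_commutatorElement, QuotientGroup.mk'_apply, QuotientGroup.eq_one_iff] at h1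
    exact h1

end Cfsg.Agent.S0568
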