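import Cfsg.Statements.S0572
import Cfsg.Agent.Lib.Helper5.Comm

set_option autoImplicit false
open Cfsg

namespace Cfsg.Agent.S0572

open scoped commutatorElement in
theorem key {G : Type*} [Group G] (A B : Subgroup G) [IsMulCommutative A] [IsMulCommutative B]
    (hAB : ∀ g : G, ∃ a ∈ A, ∃ b ∈ B, g = a * b) (a a1 : G) (ha : a ∈ A) (ha1 : a1 ∈ A)
    (b b1 : G) (hb : b ∈ B) (hb1 : b1 ∈ B) :
    (b1 * a1) * ⁅a, b⁆ * (b1 * a1)⁻¹ = (a1 * b1) * ⁅a, b⁆ * (a1 * b1)⁻¹ := by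
  obtain ⟨a2', ha2', b2', hb2', h1'⟩ := hAB (a1 * b * a1⁻¹)⁻¹
  obtain ⟨a3, ha3, b3, hb3, h2⟩ := hAB (b1 * a * b1⁻¹)
  have h1 : a1 * b * a1⁻¹ = b2'⁻¹ * a2'⁻¹ := by
    rw [← mul_inv_rev, ← h1', inv_inv]
  set b2 := b2'⁻¹ with hb2def
  set a2 := a2'⁻¹ with ha2def
  have hb2 : b2 ∈ B := inv_mem hb2'
  have ha2 : a2 ∈ A := inv_mem ha2'
  have cA : ∀ x ∈ A, ∀ y ∈ A, x * y = y * x := fun x hx y hy => setLike_mul_comm hx hy
  have cB : ∀ x ∈ B, ∀ y ∈ B, x * y = y * x := fun x hx y hy => setLike_mul_comm hx hy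
  have e1 : ∀ x ∈ A, ⁅x, b2 * a2⁆ = ⁅x, b2⁆ := by
    intro x hx
    rw [Cfsg.Agent.Lib.Helper5.commutatorElement_mul_right,
      commutatorElement_eq_one_iff_mul_comm.mpr (cA x hx a2 ha2)]
    group
  have e2 : ∀ y ∈ B, ⁅a3 * b3, y⁆ = ⁅a3, y⁆ := by
    intro y hy
    rw [Cfsg.Agent.Lib.Helper5.commutatorElement_mul_left,
      commutatorElement_eq_one_iff_mul_comm.mpr (cB b3 hb3 y hy)]
    group
  have cA' : ∀ x ∈ A, a1 * x * a1⁻¹ = x := by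
    intro x hx
    rw [cA a1 ha1 x hx]; group
  have cB' : ∀ y ∈ B, b1 * y * b1⁻¹ = y := by
    intro y hy
    rw [cB b1 hb1 y hy]; group
  have X : (b1 * a1) * ⁅a, b⁆ * (b1 * a1)⁻¹ = ⁅a3, b2⁆ := by
    calc (b1 * a1) * ⁅a, b⁆ * (b1 * a1)⁻¹ = b1 * (a1 * ⁅a, b⁆ * a1⁻¹) * b1⁻¹ := by group
      _ = b1 * ⁅a, b2 * a2⁆ * b1⁻¹ := by
          rw [Cfsg.Agent.Lib.Helper5.conj_commutatorElement, cA' a ha, h1]
      _ = b1 * ⁅a, b2⁆ * b1⁻¹ := by rw [e1 a ha]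
      _ = ⁅a3 * b3, b2⁆ := by
          rw [Cfsg.Agent.Lib.Helper5.conj_commutatorElement, cB' b2 hb2, h2]
      _ = ⁅a3, b2⁆ := e2 b2 hb2
  have Y : (a1 * b1) * ⁅a, b⁆ * (a1 * b1)⁻¹ = ⁅a3, b2⁆ := by
    calc (a1 * b1) * ⁅a, b⁆ * (a1 * b1)⁻¹ = a1 * (b1 * ⁅a, b⁆ * b1⁻¹) * a1⁻¹ := by group
      _ = a1 * ⁅a3 * b3, b⁆ * a1⁻¹ := by
          rw [Cfsg.Agent.Lib.Helper5.conj_commutatorElement, cB' b hb, h2]
      _ = a1 * ⁅a3, b⁆ * a1⁻¹ := by rw [e2 b hb]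
      _ = ⁅a3, b2 * a2⁆ := by
          rw [Cfsg.Agent.Lib.Helper5.conj_commutatorElement, cA' a3 ha3, h1]
      _ = ⁅a3, b2⁆ := e1 a3 ha3
  rw [X, Y]

/-- Itô's Theorem: if a group G is the product AB of two abelian subgroups, then the commutator subgroup of G is abelian, i.e. the second term of the derived series is trivial. -/
theorem result {G : Type*} [Group G] (A B : Subgroup G) [IsMulCommutative A] [IsMulCommutative B] (hAB : ∀ g : G, ∃ a ∈ A, ∃ b ∈ B, g = a * b) : derivedSeries G 2 = ⊥ := by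
  have hcomm : IsMulCommutative ↥(⁅A, B⁆) := by
    rw [Subgroup.commutator_def]
    apply Subgroup.isMulCommutative_closure
    rintro _ ⟨a, ha, b, hb, rfl⟩ _ ⟨a1, ha1, b1, hb1, rfl⟩
    have h := key A B hAB a a1⁻¹ ha (inv_mem ha1) b b1⁻¹ hb (inv_mem hb1)
    -- c commutes with (a1⁻¹ b1⁻¹)⁻¹ (b1⁻¹ a1⁻¹) = b1 a1 b1⁻¹ a1⁻¹
    have h2 : (a * b * a⁻¹ * b⁻¹) * (b1 * a1 * b1⁻¹ * a1⁻¹) =
        (b1 * a1 * b1⁻¹ * a1⁻¹) * (a * b * a⁻¹ * b⁻¹) := by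
      have h' : (b1⁻¹ * a1⁻¹) * (a * b * a⁻¹ * b⁻¹) * (b1⁻¹ * a1⁻¹)⁻¹ =
        (a1⁻¹ * b1⁻¹) * (a * b * a⁻¹ * b⁻¹) * (a1⁻¹ * b1⁻¹)⁻¹ := h
      calc (a * b * a⁻¹ * b⁻¹) * (b1 * a1 * b1⁻¹ * a1⁻¹)
          = (a1⁻¹ * b1⁻¹)⁻¹ * ((a1⁻¹ * b1⁻¹) * (a * b * a⁻¹ * b⁻¹) * (a1⁻¹ * b1⁻¹)⁻¹) * (b1⁻¹ * a1⁻¹) := by
            group
        _ = (a1⁻¹ * b1⁻¹)⁻¹ * ((b1⁻¹ * a1⁻¹) * (a * b * a⁻¹ * b⁻¹) * (b1⁻¹ * a1⁻¹)⁻¹) * (b1⁻¹ * a1⁻¹) := by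
            rw [h']
        _ = _ := by group
    have h3 : Commute (a * b * a⁻¹ * b⁻¹) (b1 * a1 * b1⁻¹ * a1⁻¹) := h2
    have h4 : (b1 * a1 * b1⁻¹ * a1⁻¹)⁻¹ = a1 * b1 * a1⁻¹ * b1⁻¹ := by group
    have h5 := h3.inv_right
    rw [h4] at h5
    exact h5
  have htop : (⊤ : Subgroup G) = Subgroup.closure ((A : Set G) ∪ B) := by
    rw [eq_comm, eq_top_iff]
    intro g _
    obtain ⟨a, ha, b, hb, rfl⟩ := hAB g
    exact mul_mem (Subgroup.subset_closure (Or.inl ha)) (Subgroup.subset_closure (Or.inr hb))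
  have hle : ⁅(⊤ : Subgroup G), (⊤ : Subgroup G)⁆ ≤ ⁅A, B⁆ := by
    rw [htop]
    apply Cfsg.Agent.Lib.Helper5.commutator_closure_le
    · rw [Subgroup.closure_le]
      rintro x (hx | hx)
      · exact Cfsg.Agent.Lib.Helper5.left_le_normalizer_commutator A B hx
      · exact Cfsg.Agent.Lib.Helper5.right_le_normalizer_commutator A B hx
    · rintro s (hs | hs) t (ht | ht)
      · rw [commutatorElement_eq_one_iff_mul_comm.mpr (setLike_mul_comm hs ht)]; exact one_mem _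
      · exact Subgroup.commutator_mem_commutator hs ht
      · rw [← commutatorElement_inv]
        exact inv_mem (Subgroup.commutator_mem_commutator ht hs)
      · rw [commutatorElement_eq_one_iff_mul_comm.mpr (setLike_mul_comm hs ht)]; exact one_mem _
  have h2 : derivedSeries G 2 = ⁅⁅(⊤ : Subgroup G), (⊤ : Subgroup G)⁆, ⁅(⊤ : Subgroup G), (⊤ : Subgroup G)⁆⁆ := rfl
  rw [h2, eq_bot_iff]
  refine (Subgroup.commutator_mono hle hle).trans ?_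
  rw [le_bot_iff, Subgroup.commutator_eq_bot_iff_le_centralizer]
  exact Subgroup.le_centralizer _

end Cfsg.Agent.S0572
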