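import Cfsg.Statements.S0573
import Mathlib
import Cfsg.Agent.S0572

set_option autoImplicit false
open Cfsg

namespace Cfsg.Agent.S0573

open scoped commutatorElement

lemma count_lt {M : Type*} [Group M] [Finite M] [Nontrivial M]
    (SA SB : Subgroup (MulAut M))
    (α : MulAut M) (hα : α ∈ SA) (hfix : ∀ m, α m = m → m = 1)
    (h1 : ∀ β ∈ SB, ∃ α' ∈ SA, ∀ m, α' m = m * (β m)⁻¹ * β (α m)) :
    Nat.card SB < Nat.card SA := by
  classical
  have hinj : Function.Injective (fun m : M => m⁻¹ * α m) := by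
    intro m m' h
    simp only at h
    have h3 : α (m * m'⁻¹) = m * m'⁻¹ := by
      rw [map_mul, map_inv]
      have h2 : α m = m * (m'⁻¹ * α m') := by rw [← h]; group
      rw [h2]; group
    have := hfix _ h3
    exact mul_inv_eq_one.mp this
  have hsurj : Function.Surjective (fun m : M => m⁻¹ * α m) := Finite.surjective_of_injective hinj
  let Φ : MulAut M → (M → M) := fun β m => m * (β m)⁻¹ * β (α m)
  let c : MulAut M → (M → M) := fun β m => β m
  have hΦ : ∀ β m, Φ β m = m * β (m⁻¹ * α m) := by intro β m; simp [Φ, mul_assoc]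
  have hΦinj : Function.Injective Φ := by
    intro β β' h
    ext n
    obtain ⟨m, rfl⟩ := hsurj n
    have := congrFun h m
    rw [hΦ, hΦ] at this
    exact mul_left_cancel this
  have hcinj : Function.Injective c := by
    intro β β' h; ext m; exact congrFun h m
  have hsub : Φ '' (SB : Set (MulAut M)) ⊆ c '' ((SA : Set (MulAut M)) \ {1}) := by
    rintro _ ⟨β, hβ, rfl⟩
    obtain ⟨α', hα', h⟩ := h1 β hβ
    refine ⟨α', ⟨hα', ?_⟩, ?_⟩
    · intro h1'
      have h1'' : α' = 1 := h1'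
      obtain ⟨n, hn⟩ := exists_ne (1 : M)
      apply hn
      obtain ⟨m, rfl⟩ := hsurj n
      have h2 := h m
      rw [h1''] at h2
      have h3 : Φ β m = m * β (m⁻¹ * α m) := hΦ β m
      have h4 : m = m * β (m⁻¹ * α m) := by
        rw [← h3]; exact h2
      have h5 : β (m⁻¹ * α m) = 1 := by
        have := h4.symm
        rwa [mul_eq_left] at this
      exact (map_eq_one_iff β β.injective).mp h5
    · funext m; exact h m
  calc Nat.card SB = (SB : Set (MulAut M)).ncard := rfl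
    _ = (Φ '' (SB : Set (MulAut M))).ncard := (Set.ncard_image_of_injective _ hΦinj).symm
    _ ≤ (c '' ((SA : Set (MulAut M)) \ {1})).ncard := Set.ncard_le_ncard hsub (Set.toFinite _)
    _ = ((SA : Set (MulAut M)) \ {1}).ncard := Set.ncard_image_of_injective _ hcinj
    _ < (SA : Set (MulAut M)).ncard := Set.ncard_sdiff_singleton_lt_of_mem SA.one_mem (Set.toFinite _)
    _ = Nat.card SA := rfl

lemma ito_identity {G : Type*} [Group G] (A B : Subgroup G)
    (hA : ∀ x ∈ A, ∀ y ∈ A, x * y = y * x) (hB : ∀ x ∈ B, ∀ y ∈ B, x * y = y * x)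
    (hAB : ∀ g : G, ∃ a ∈ A, ∃ b ∈ B, g = a * b)
    (x y x' y' : G) (hx : x ∈ A) (hy : y ∈ B) (hx' : x' ∈ A) (hy' : y' ∈ B) (h : y * x = x' * y')
    (m : G) : x' * m * x'⁻¹ = m * (y * m * y⁻¹)⁻¹ * (y * (x * m * x⁻¹) * y⁻¹) := by
  obtain ⟨a, ha, b, hb, rfl⟩ := hAB m
  have cA : ∀ u ∈ A, u * a * u⁻¹ = a := by
    intro u hu; rw [hA u hu a ha]; group
  have cB : ∀ u ∈ B, u * b * u⁻¹ = b := by
    intro u hu; rw [hB u hu b hb]; group
  have e1 : x' * (a * b) * x'⁻¹ = a * (x' * b * x'⁻¹) := by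
    calc x' * (a * b) * x'⁻¹ = (x' * a * x'⁻¹) * (x' * b * x'⁻¹) := by group
      _ = _ := by rw [cA x' hx']
  have e2 : y * (a * b) * y⁻¹ = (y * a * y⁻¹) * b := by
    calc y * (a * b) * y⁻¹ = (y * a * y⁻¹) * (y * b * y⁻¹) := by group
      _ = _ := by rw [cB y hy]
  have e3 : y * (x * (a * b) * x⁻¹) * y⁻¹ = (y * a * y⁻¹) * (x' * b * x'⁻¹) := by
    calc y * (x * (a * b) * x⁻¹) * y⁻¹
        = (y * (x * a * x⁻¹) * y⁻¹) * ((y * x) * b * (y * x)⁻¹) := by group
      _ = (y * a * y⁻¹) * ((x' * y') * b * (x' * y')⁻¹) := by rw [cA x hx, h]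
      _ = (y * a * y⁻¹) * (x' * (y' * b * y'⁻¹) * x'⁻¹) := by group
      _ = _ := by rw [cB y' hy']
  rw [e1, e2, e3]; group

lemma main_lt {G : Type*} [Group G] [Finite G] (A B M : Subgroup G) [hMn : M.Normal]
    (hA : ∀ x ∈ A, ∀ y ∈ A, x * y = y * x) (hB : ∀ x ∈ B, ∀ y ∈ B, x * y = y * x)
    (hAB : ∀ g : G, ∃ a ∈ A, ∃ b ∈ B, g = a * b)
    (hfix : ∀ g : G, (∀ m ∈ M, g * m * g⁻¹ = m) ∨ (∀ m ∈ M, g * m * g⁻¹ = m → m = 1))
    (hM1 : M ≠ ⊥)
    (x : G) (hx : x ∈ A) (hxM : ¬ ∀ m ∈ M, x * m * x⁻¹ = m) :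
    Nat.card (B.map (MulAut.conjNormal (H := M))) < Nat.card (A.map (MulAut.conjNormal (H := M))) := by
  haveI : Nontrivial M := (Subgroup.nontrivial_iff_ne_bot M).mpr hM1
  refine count_lt _ _ (MulAut.conjNormal x) (Subgroup.mem_map_of_mem _ hx) ?_ ?_
  · intro m hm
    rcases hfix x with h | h
    · exact absurd h hxM
    · have := h m m.2 (by
        have := congrArg Subtype.val hm
        rwa [MulAut.conjNormal_apply] at this)
      exact Subtype.ext this
  · rintro _ ⟨y, hy, rfl⟩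
    obtain ⟨x', hx', y', hy', h⟩ := hAB (y * x)
    refine ⟨MulAut.conjNormal x', Subgroup.mem_map_of_mem _ hx', ?_⟩
    intro m
    apply Subtype.ext
    have := ito_identity A B hA hB hAB x y x' y' hx hy hx' hy' h m
    simpa [MulAut.conjNormal_apply] using this

/-- If a nontrivial finite group G is the product AB of abelian subgroups A and B, then some nontrivial normal subgroup of G is contained in A or in B. -/
theorem result {G : Type*} [Group G] [Finite G] [Nontrivial G] (A B : Subgroup G) [IsMulCommutative A] [IsMulCommutative B] (hAB : ∀ g : G, ∃ a ∈ A, ∃ b ∈ B, g = a * b) : ∃ N : Subgroup G, N.Normal ∧ N ≠ ⊥ ∧ (N ≤ A ∨ N ≤ B) := by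
  classical
  by_contra hcon
  have hno : ∀ N : Subgroup G, N.Normal → (N ≤ A ∨ N ≤ B) → N = ⊥ := by
    intro N hN h
    by_contra hN1
    exact hcon ⟨N, hN, hN1, h⟩
  have hA : ∀ x ∈ A, ∀ y ∈ A, x * y = y * x := fun x hx y hy => setLike_mul_comm hx hy
  have hB : ∀ x ∈ B, ∀ y ∈ B, x * y = y * x := fun x hx y hy => setLike_mul_comm hx hy
  have hBA : ∀ g : G, ∃ b ∈ B, ∃ a ∈ A, g = b * a := by
    intro g
    obtain ⟨a, ha, b, hb, h⟩ := hAB g⁻¹
    refine ⟨b⁻¹, inv_mem hb, a⁻¹, inv_mem ha, ?_⟩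
    rw [← mul_inv_rev, ← h, inv_inv]
  -- central elements in A or B are trivial
  have hZA : ∀ z ∈ A, (∀ g, g * z = z * g) → z = 1 := by
    intro z hz hc
    have hn : (Subgroup.center G ⊓ A).Normal := by
      refine ⟨fun n hn g => ?_⟩
      have : g * n * g⁻¹ = n := by
        rw [(Subgroup.mem_center_iff.mp hn.1) g]; group
      rwa [this]
    have := hno _ hn (Or.inl inf_le_right)
    have hz' : z ∈ Subgroup.center G ⊓ A := ⟨Subgroup.mem_center_iff.mpr hc, hz⟩
    rw [this] at hz'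
    exact Subgroup.mem_bot.mp hz'
  have hZB : ∀ z ∈ B, (∀ g, g * z = z * g) → z = 1 := by
    intro z hz hc
    have hn : (Subgroup.center G ⊓ B).Normal := by
      refine ⟨fun n hn g => ?_⟩
      have : g * n * g⁻¹ = n := by
        rw [(Subgroup.mem_center_iff.mp hn.1) g]; group
      rwa [this]
    have := hno _ hn (Or.inr inf_le_right)
    have hz' : z ∈ Subgroup.center G ⊓ B := ⟨Subgroup.mem_center_iff.mpr hc, hz⟩
    rw [this] at hz'
    exact Subgroup.mem_bot.mp hz'
  -- an element commuting with A and B is central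
  have hcen : ∀ z : G, (∀ a ∈ A, a * z = z * a) → (∀ b ∈ B, b * z = z * b) → ∀ g, g * z = z * g := by
    intro z h1 h2 g
    obtain ⟨a, ha, b, hb, rfl⟩ := hAB g
    rw [mul_assoc, h2 b hb, ← mul_assoc, h1 a ha, mul_assoc]
  have hG'1 : commutator G ≠ ⊥ := by
    intro h
    have hc : ∀ x y : G, x * y = y * x := by
      intro x y
      have : ⁅x, y⁆ ∈ commutator G :=
        Subgroup.commutator_mem_commutator (Subgroup.mem_top x) (Subgroup.mem_top y)
      rw [h, Subgroup.mem_bot] at this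
      exact commutatorElement_eq_one_iff_mul_comm.mp this
    obtain ⟨g, hg⟩ := exists_ne (1 : G)
    obtain ⟨a, ha, b, hb, rfl⟩ := hAB g
    apply hg
    rw [hZA a ha (fun g => hc g a), hZB b hb (fun g => hc g b), one_mul]
  have hG'c : ∀ x ∈ commutator G, ∀ y ∈ commutator G, x * y = y * x := by
    have h2 : ⁅derivedSeries G 1, derivedSeries G 1⁆ = ⊥ := Cfsg.Agent.S0572.result A B hAB
    rw [derivedSeries_one] at h2
    intro x hx y hy
    have : ⁅x, y⁆ ∈ ⁅commutator G, commutator G⁆ := Subgroup.commutator_mem_commutator hx hy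
    rw [h2, Subgroup.mem_bot] at this
    exact commutatorElement_eq_one_iff_mul_comm.mp this
  obtain ⟨M, ⟨hMn, hM1, hMle⟩, hmin⟩ :=
    (Set.toFinite {N : Subgroup G | N.Normal ∧ N ≠ ⊥ ∧ N ≤ commutator G}).exists_minimal
      ⟨commutator G, inferInstance, hG'1, le_rfl⟩
  have hcomm : ∀ g h : G, ∀ m ∈ M, g * (h * m * h⁻¹) * g⁻¹ = h * (g * m * g⁻¹) * h⁻¹ := by
    intro g h m hm
    have h1 : ⁅g, h⁆ ∈ commutator G :=
      Subgroup.commutator_mem_commutator (Subgroup.mem_top g) (Subgroup.mem_top h)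
    have h2 : h * (g * m * g⁻¹) * h⁻¹ ∈ commutator G :=
      hMle (hMn.conj_mem _ (hMn.conj_mem _ hm g) h)
    have h3 := hG'c _ h1 _ h2
    calc g * (h * m * h⁻¹) * g⁻¹ = ⁅g, h⁆ * (h * (g * m * g⁻¹) * h⁻¹) * ⁅g, h⁆⁻¹ := by
          rw [commutatorElement_def]; group
      _ = _ := by rw [h3]; group
  have hfix : ∀ g : G, (∀ m ∈ M, g * m * g⁻¹ = m) ∨ (∀ m ∈ M, g * m * g⁻¹ = m → m = 1) := by
    intro g
    let C : Subgroup G :=
      { carrier := {m | m ∈ M ∧ g * m * g⁻¹ = m}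
        mul_mem' := by
          rintro a b ⟨ha, ha'⟩ ⟨hb, hb'⟩
          refine ⟨mul_mem ha hb, ?_⟩
          calc g * (a * b) * g⁻¹ = (g * a * g⁻¹) * (g * b * g⁻¹) := by group
            _ = a * b := by rw [ha', hb']
        one_mem' := ⟨one_mem _, by group⟩
        inv_mem' := by
          rintro a ⟨ha, ha'⟩
          refine ⟨inv_mem ha, ?_⟩
          calc g * a⁻¹ * g⁻¹ = (g * a * g⁻¹)⁻¹ := by group
            _ = a⁻¹ := by rw [ha'] }
    have hCn : C.Normal :=
      ⟨fun n hn h => ⟨hMn.conj_mem _ hn.1 h, by rw [hcomm g h n hn.1, hn.2]⟩⟩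
    have hCM : C ≤ M := fun n hn => hn.1
    by_cases hC : C = ⊥
    · right
      intro m hm h
      have : m ∈ C := ⟨hm, h⟩
      rw [hC] at this
      exact Subgroup.mem_bot.mp this
    · left
      intro m hm
      exact (hmin ⟨hCn, hC, hCM.trans hMle⟩ hCM hm).2
  by_cases hAM : ∀ x ∈ A, ∀ m ∈ M, x * m * x⁻¹ = m
  · apply hM1
    apply hno M hMn (Or.inl _)
    intro m hm
    obtain ⟨a, ha, b, hb, rfl⟩ := hAB m
    have hb1 : b = 1 := by
      apply hZB b hb
      apply hcen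
      · intro x hx
        have h1 := hAM x hx _ hm
        have h2 := hA x hx a ha
        have h3 : x * (a * b) = a * b * x := mul_inv_eq_iff_eq_mul.mp h1
        rw [← mul_assoc, h2, mul_assoc, mul_assoc] at h3
        exact mul_left_cancel h3
      · intro y hy; exact hB y hy b hb
    rw [hb1, mul_one]; exact ha
  by_cases hBM : ∀ x ∈ B, ∀ m ∈ M, x * m * x⁻¹ = m
  · apply hM1
    apply hno M hMn (Or.inr _)
    intro m hm
    obtain ⟨a, ha, b, hb, rfl⟩ := hAB m
    have ha1 : a = 1 := by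
      apply hZA a ha
      apply hcen
      · intro y hy; exact hA y hy a ha
      · intro x hx
        have h1 := hBM x hx _ hm
        have h2 := hB x hx b hb
        have h3 : x * (a * b) = a * b * x := mul_inv_eq_iff_eq_mul.mp h1
        rw [mul_assoc a b x, ← h2, ← mul_assoc, ← mul_assoc] at h3
        exact mul_right_cancel h3
    rw [ha1, one_mul]; exact hb
  push Not at hAM hBM
  obtain ⟨x, hx, m, hm, hxm⟩ := hAM
  obtain ⟨y, hy, n, hn, hyn⟩ := hBM
  have l1 := main_lt A B M hA hB hAB hfix hM1 x hx (fun h => hxm (h m hm))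
  have l2 := main_lt B A M hB hA hBA hfix hM1 y hy (fun h => hyn (h n hn))
  exact lt_asymm l1 l2

end Cfsg.Agent.S0573
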