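import Cfsg.Statements.S0571
import Mathlib
import Cfsg.Agent.S0573
import Cfsg.Agent.Lib.Helper4.Supersolvable3

set_option autoImplicit false
open Cfsg

namespace Cfsg.Agent.S0571

open Cfsg.Agent.Lib.Helper4

universe u

theorem aux : ∀ (n : ℕ) (G : Type u) [Group G] [Finite G] (A B : Subgroup G) [IsCyclic A] [IsCyclic B]
    (_ : ∀ g : G, ∃ a ∈ A, ∃ b ∈ B, g = a * b), Nat.card G = n → Cfsg.IsSupersolvable G := by
  intro n
  induction n using Nat.strong_induction_on with
  | _ n ih =>
    intro G _ _ A B _ _ hAB hn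
    rcases subsingleton_or_nontrivial G with hs | hs
    · exact ss_of_subsingleton
    haveI : IsMulCommutative A := ⟨⟨fun a b => IsCyclic.commGroup.mul_comm a b⟩⟩
    haveI : IsMulCommutative B := ⟨⟨fun a b => IsCyclic.commGroup.mul_comm a b⟩⟩
    obtain ⟨N, hNn, hN1, hN⟩ := Cfsg.Agent.S0573.result A B hAB
    haveI : IsCyclic N := by
      rcases hN with h | h
      · exact Subgroup.isCyclic_of_le h
      · exact Subgroup.isCyclic_of_le h
    haveI : Nontrivial N := (Subgroup.nontrivial_iff_ne_bot N).mpr hN1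
    have h2 : 2 ≤ Nat.card N := Finite.one_lt_card
    have hlt := card_quotient_lt N h2
    apply ss_of_quotient_cyclic N
    haveI : IsCyclic (A.map (QuotientGroup.mk' N)) :=
      isCyclic_of_surjective ((QuotientGroup.mk' N).subgroupMap A)
        ((QuotientGroup.mk' N).subgroupMap_surjective A)
    haveI : IsCyclic (B.map (QuotientGroup.mk' N)) :=
      isCyclic_of_surjective ((QuotientGroup.mk' N).subgroupMap B)
        ((QuotientGroup.mk' N).subgroupMap_surjective B)
    refine ih _ (hn ▸ hlt) (G ⧸ N) (A.map (QuotientGroup.mk' N)) (B.map (QuotientGroup.mk' N)) ?_ rfl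
    intro g
    obtain ⟨g, rfl⟩ := QuotientGroup.mk'_surjective N g
    obtain ⟨a, ha, b, hb, rfl⟩ := hAB g
    exact ⟨_, Subgroup.mem_map_of_mem _ ha, _, Subgroup.mem_map_of_mem _ hb, map_mul _ _ _⟩

/-- If a finite group G is the product AB of two cyclic subgroups (every element is a product ab), then G is supersolvable. -/
theorem result {G : Type*} [Group G] [Finite G] (A B : Subgroup G) [IsCyclic A] [IsCyclic B] (hAB : ∀ g : G, ∃ a ∈ A, ∃ b ∈ B, g = a * b) : Cfsg.IsSupersolvable G := by
  exact aux _ G A B hAB rfl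

end Cfsg.Agent.S0571
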