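import Cfsg.Statements.S0576
import Cfsg.Agent.Lib.Helper5.Frattini
import Mathlib.GroupTheory.GroupAction.ConjAct

set_option autoImplicit false
open Cfsg

namespace Cfsg.Agent.S0576

/-- Let H be a normal subgroup of a finite group G with H contained in the Frattini subgroup of G. Then the group of inner automorphisms of H is contained in the Frattini subgroup of the automorphism group of H. -/
theorem result {G : Type*} [Group G] [Finite G] (H : Subgroup G) [H.Normal] (hH : H ≤ frattini G) : (MulAut.conj : ↥H →* MulAut ↥H).range ≤ frattini (MulAut ↥H) := by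
  classical
  haveI : Finite (MulAut ↥H) :=
    Finite.of_injective (fun f : MulAut ↥H => (f : ↥H → ↥H)) (fun f g h => DFunLike.coe_injective h)
  haveI hN : ((MulAut.conj : ↥H →* MulAut ↥H).range).Normal := by
    constructor
    rintro _ ⟨h, rfl⟩ f
    refine ⟨f h, ?_⟩
    ext x
    simp [MulAut.conj_apply]
  let φ : G →* MulAut ↥H := MulAut.conjNormal
  apply Cfsg.Agent.Lib.Helper5.le_frattini_of_le_map_frattini _ φ.range
  rintro _ ⟨h, rfl⟩
  have h1 : (h : G) ∈ (frattini φ.range).comap φ.rangeRestrict :=
    frattini_le_comap_frattini_of_surjective φ.rangeRestrict_surjective (hH h.2)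
  refine ⟨φ.rangeRestrict h, h1, ?_⟩
  show φ (h : G) = MulAut.conj h
  exact MulAut.conjNormal_val

end Cfsg.Agent.S0576
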