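import Cfsg.Statements.S0577
import Mathlib
import Cfsg.Agent.S0536
import Cfsg.Agent.Lib.Helper4.Basic
import Cfsg.Agent.Lib.Helper23.Fitting

set_option autoImplicit false
open Cfsg

namespace Cfsg.Agent.S0577

open Cfsg.Agent.Lib.Helper4 Cfsg.Agent.Lib.Helper23
open scoped commutatorElement

universe u

theorem nilp_of_sup_top {G : Type u} [Group G] [Finite G] (A B : Subgroup G) (hAn : A.Normal)
    (hBn : B.Normal) (hA : Group.IsNilpotent A) (hB : Group.IsNilpotent B) (h : A ⊔ B = ⊤) :
    Group.IsNilpotent G := by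
  have h1 : Cfsg.fittingSubgroup G = ⊤ := by
    rw [← top_le_iff, ← h]
    exact sup_le (le_fittingSubgroup hAn hA) (le_fittingSubgroup hBn hB)
  have h2 := fittingSubgroup_isNilpotent G
  rw [h1] at h2
  exact (Group.isNilpotent_congr Subgroup.topEquiv).mp h2

theorem comm_of_sup' {G : Type u} [Group G] (A B : Subgroup G)
    (hA : ∀ a ∈ A, ∀ a' ∈ A, a * a' = a' * a) (hB : ∀ b ∈ B, ∀ b' ∈ B, b * b' = b' * b)
    (hc : ∀ a ∈ A, ∀ b ∈ B, a * b = b * a) : ∀ x ∈ A ⊔ B, ∀ y ∈ A ⊔ B, x * y = y * x := by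
  have h1 : A ⊔ B ≤ Subgroup.centralizer ((A ⊔ B : Subgroup G) : Set G) := by
    apply sup_le
    · rw [Subgroup.le_centralizer_iff]
      apply sup_le
      · intro a ha
        rw [Subgroup.mem_centralizer_iff]
        intro a' ha'
        exact hA a' ha' a ha
      · intro b hb
        rw [Subgroup.mem_centralizer_iff]
        intro a ha
        exact hc a ha b hb
    · rw [Subgroup.le_centralizer_iff]
      apply sup_le
      · intro a ha
        rw [Subgroup.mem_centralizer_iff]
        intro b hb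
        exact (hc a ha b hb).symm
      · intro b hb
        rw [Subgroup.mem_centralizer_iff]
        intro b' hb'
        exact hB b' hb' b hb
  intro x hx y hy
  exact (Subgroup.mem_centralizer_iff.mp (h1 hx) y hy).symm

theorem core {G : Type u} [Group G] [Finite G] (hG : Cfsg.IsMinimalNonNilpotent G) (p q : ℕ)
    [Fact p.Prime] [Fact q.Prime] (hpq : p ≠ q) (P : Sylow p G) (Q : Sylow q G) (hPc : IsCyclic P)
    (hQ : (Q : Subgroup G).Normal) (hPQ : (P : Subgroup G) ⊔ Q = ⊤)
    (D : Subgroup G) [D.Normal]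
    (hD : D = (commutator ↥(Q : Subgroup G)).map (Q : Subgroup G).subtype) :
    ¬ IsMulCommutative (G ⧸ D) ∧ ∀ K : Subgroup (G ⧸ D), K ≠ ⊤ → IsMulCommutative K := by
  obtain ⟨hnn, hprop⟩ := hG
  have hDQ : D ≤ Q := by rw [hD]; exact Subgroup.map_subtype_le _
  have hdis : (P : Subgroup G) ⊓ Q = ⊥ := (IsPGroup.disjoint_of_ne p q hpq _ _ P.2 Q.2).eq_bot
  constructor
  · intro hab
    have hcomm : ∀ g x : G, g * x * g⁻¹ * x⁻¹ ∈ D := by
      intro g x
      rw [← QuotientGroup.eq_one_iff, ← QuotientGroup.mk'_apply, map_mul, map_mul, map_mul, map_inv,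
        map_inv]
      have := (isMulCommutative_iff.mp hab) (QuotientGroup.mk' D g) (QuotientGroup.mk' D x)
      rw [this]
      group
    have hPDn : ((P : Subgroup G) ⊔ D).Normal := by
      constructor
      intro x hx g
      have h1 : g * x * g⁻¹ = (g * x * g⁻¹ * x⁻¹) * x := by group
      rw [h1]
      exact Subgroup.mul_mem _ (Subgroup.mem_sup_right (hcomm g x)) hx
    by_cases htop : (P : Subgroup G) ⊔ D = ⊤
    · -- then Q = D
      have hQD : (Q : Subgroup G) ≤ D := by
        intro y hy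
        have hy' : y ∈ (P : Subgroup G) ⊔ D := htop ▸ Subgroup.mem_top y
        rw [Subgroup.mem_sup_of_normal_right] at hy'
        obtain ⟨a, ha, b, hb, e⟩ := hy'
        have ha' : a ∈ (P : Subgroup G) ⊓ Q := by
          refine ⟨ha, ?_⟩
          have : a = y * b⁻¹ := by rw [← e]; group
          rw [this]
          exact (Q : Subgroup G).mul_mem hy ((Q : Subgroup G).inv_mem (hDQ hb))
        rw [hdis, Subgroup.mem_bot] at ha'
        rw [← e, ha', one_mul]
        exact hb
      have hct : commutator (Q : Subgroup G) = ⊤ := by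
        rw [eq_top_iff]
        intro y _
        have := hQD y.2
        rw [hD] at this
        obtain ⟨z, hz, hzy⟩ := this
        have : z = y := Subtype.ext hzy
        exact this ▸ hz
      by_cases hnt : Nontrivial (Q : Subgroup G)
      · haveI : Group.IsSolvable (Q : Subgroup G) := by
          haveI := Q.2.isNilpotent
          infer_instance
        exact (Group.IsSolvable.commutator_lt_top_of_nontrivial (Q : Subgroup G)).ne hct
      · rw [not_nontrivial_iff_subsingleton] at hnt
        have hQb : (Q : Subgroup G) = ⊥ := Subgroup.eq_bot_of_subsingleton _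
        rw [hQb, sup_bot_eq] at hPQ
        apply hnn
        have := P.2.isNilpotent
        rw [hPQ] at this
        exact (Group.isNilpotent_congr Subgroup.topEquiv).mp this
    · apply hnn
      apply nilp_of_sup_top _ _ hPDn hQ (hprop _ htop) Q.2.isNilpotent
      rw [← top_le_iff, ← hPQ]
      exact sup_le (le_sup_left.trans le_sup_left) le_sup_right
  · intro Kb hKb
    obtain ⟨K, hK⟩ : ∃ K, K = Kb.comap (QuotientGroup.mk' D) := ⟨_, rfl⟩
    have hKmap : K.map (QuotientGroup.mk' D) = Kb := by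
      rw [hK]
      exact Subgroup.map_comap_eq_self_of_surjective (QuotientGroup.mk'_surjective D) Kb
    have hKt : K ≠ ⊤ := by
      intro h
      apply hKb
      rw [← hKmap, h]
      exact Subgroup.map_top_of_surjective _ (QuotientGroup.mk'_surjective D)
    haveI hKnil := hprop K hKt
    obtain ⟨R⟩ : Nonempty (Sylow p K) := inferInstance
    obtain ⟨R', hR'⟩ : ∃ R', R' = (R : Subgroup K).map K.subtype := ⟨_, rfl⟩
    have hR'K : R' ≤ K := by rw [hR']; exact Subgroup.map_subtype_le _
    have hR'p : IsPGroup p R' := by rw [hR']; exact R.2.map _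
    have h1 : K = R' ⊔ (K ⊓ Q) := by
      apply le_antisymm _ (sup_le hR'K inf_le_left)
      rw [← Subgroup.relIndex_eq_one]
      have d1 : (R' ⊔ (K ⊓ Q)).relIndex K ∣ R'.relIndex K :=
        Subgroup.relIndex_dvd_of_le_left K le_sup_left
      have d2 : (R' ⊔ (K ⊓ Q)).relIndex K ∣ (K ⊓ Q).relIndex K :=
        Subgroup.relIndex_dvd_of_le_left K le_sup_right
      have e1 : R'.relIndex K = (R : Subgroup K).index := by
        rw [Subgroup.relIndex, hR']
        congr 1
        exact Subgroup.comap_map_eq_self_of_injective K.subtype_injective _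
      have e2 : (K ⊓ Q).relIndex K ∣ Nat.card P := by
        rw [Subgroup.inf_relIndex_left]
        refine (Subgroup.relIndex_dvd_index_of_normal (Q : Subgroup G) K).trans ?_
        have : (Q : Subgroup G).index = (Q : Subgroup G).relIndex P := by
          rw [← Subgroup.relIndex_sup_right (P : Subgroup G) (Q : Subgroup G), hPQ, Subgroup.relIndex_top_right]
        rw [this]
        exact Subgroup.relIndex_dvd_card _ _
      obtain ⟨k, hk⟩ := IsPGroup.iff_card.mp P.2
      rw [hk] at e2
      rw [e1] at d1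
      have hcop : ((R : Subgroup K).index).Coprime (p ^ k) := by
        apply Nat.Coprime.pow_right
        exact ((Nat.Prime.coprime_iff_not_dvd Fact.out).mpr R.not_dvd_index).symm
      exact Nat.eq_one_of_dvd_coprimes hcop d1 (d2.trans e2)
    have h2 : ∀ a ∈ R', ∀ a' ∈ R', a * a' = a' * a := by
      obtain ⟨S, hS⟩ := hR'p.exists_le_sylow
      obtain ⟨g, hg⟩ := MulAction.exists_smul_eq G P S
      have hSc : IsCyclic (S : Subgroup G) := by
        rw [← hg]
        exact (MulEquiv.isCyclic (Subgroup.equivSMul (MulAut.conj g) (P : Subgroup G))).mp hPc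
      intro a ha a' ha'
      exact congrArg Subtype.val (mul_comm' (⟨a, hS ha⟩ : (S : Subgroup G)) ⟨a', hS ha'⟩)
    have h3 : ∀ a ∈ R', ∀ b ∈ K ⊓ (Q : Subgroup G), a * b = b * a := by
      intro a ha b hb
      have hRn : (R : Subgroup K).Normal := inferInstance
      have hQ' : IsPGroup q ((Q : Subgroup G).subgroupOf K) := Q.2.comap_subtype
      have hQn' : ((Q : Subgroup G).subgroupOf K).Normal := inferInstance
      have hdis' := IsPGroup.disjoint_of_ne p q hpq _ _ R.2 hQ'
      rw [hR'] at ha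
      obtain ⟨a0, ha0, rfl⟩ := ha
      have := Subgroup.commute_of_normal_of_disjoint _ _ hRn hQn' hdis' a0 ⟨b, hb.1⟩ ha0
        (Subgroup.mem_subgroupOf.mpr hb.2)
      exact congrArg Subtype.val this
    have h4 : ∀ b ∈ (Q : Subgroup G), ∀ b' ∈ (Q : Subgroup G),
        QuotientGroup.mk' D b * QuotientGroup.mk' D b' = QuotientGroup.mk' D b' * QuotientGroup.mk' D b := by
      intro b hb b' hb'
      have h5 : b * b' * b⁻¹ * b'⁻¹ ∈ D := by
        rw [hD]
        refine ⟨⁅(⟨b, hb⟩ : (Q : Subgroup G)), ⟨b', hb'⟩⁆, ?_, rfl⟩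
        exact Subgroup.commutator_mem_commutator (Subgroup.mem_top _) (Subgroup.mem_top _)
      rw [← QuotientGroup.eq_one_iff, ← QuotientGroup.mk'_apply, map_mul, map_mul, map_mul, map_inv,
        map_inv] at h5
      have h6 := mul_inv_eq_one.mp h5
      exact mul_inv_eq_iff_eq_mul.mp h6
    have hfin := comm_of_sup' (R'.map (QuotientGroup.mk' D)) ((K ⊓ Q).map (QuotientGroup.mk' D))
      (by
        rintro _ ⟨a, ha, rfl⟩ _ ⟨a', ha', rfl⟩
        rw [← map_mul, ← map_mul, h2 a ha a' ha'])
      (by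
        rintro _ ⟨a, ha, rfl⟩ _ ⟨a', ha', rfl⟩
        exact h4 a ha.2 a' ha'.2)
      (by
        rintro _ ⟨a, ha, rfl⟩ _ ⟨a', ha', rfl⟩
        rw [← map_mul, ← map_mul, h3 a ha a' ha'])
    rw [← Subgroup.map_sup, ← h1, hKmap] at hfin
    rw [isMulCommutative_iff]
    intro x y
    exact Subtype.ext (hfin x x.2 y y.2)

/-- Let G be a finite minimal non-nilpotent group and Q a normal Sylow q-subgroup of G, and let D be the commutator subgroup of Q regarded in G (a normal subgroup). Then G modulo D is non-abelian and all its proper subgroups are abelian. -/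
theorem result {G : Type*} [Group G] [Finite G] (hG : Cfsg.IsMinimalNonNilpotent G) (q : ℕ) [Fact q.Prime] (hq : q ∣ Nat.card G) (Q : Sylow q G) (hQ : (Q : Subgroup G).Normal) (D : Subgroup G) [D.Normal] (hD : D = (commutator ↥(Q : Subgroup G)).map (Q : Subgroup G).subtype) : ¬ IsMulCommutative (G ⧸ D) ∧ ∀ K : Subgroup (G ⧸ D), K ≠ ⊤ → IsMulCommutative K := by
  obtain ⟨p0, q0, hp0, hq0, hne, P0, Q0, hPc, hQ0n, hPQ⟩ := Cfsg.Agent.S0536.result hG
  haveI : Fact p0.Prime := ⟨hp0⟩
  haveI : Fact q0.Prime := ⟨hq0⟩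
  have hqq : q = p0 ∨ q = q0 := by
    haveI := hQ0n
    have h1 := Cfsg.Agent.Lib.Helper4.card_sup_mul_card_inf (P0 : Subgroup G) (Q0 : Subgroup G)
    rw [hPQ, Subgroup.card_top] at h1
    have h2 : q ∣ Nat.card (P0 : Subgroup G) * Nat.card (Q0 : Subgroup G) := by
      rw [← h1]
      exact hq.mul_right _
    obtain ⟨a, ha⟩ := IsPGroup.iff_card.mp P0.2
    obtain ⟨b, hb⟩ := IsPGroup.iff_card.mp Q0.2
    rw [ha, hb] at h2
    have hqp : q.Prime := Fact.out
    rcases (Nat.Prime.dvd_mul hqp).mp h2 with h | h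
    · left
      exact (Nat.prime_dvd_prime_iff_eq hqp hp0).mp (hqp.dvd_of_dvd_pow h)
    · right
      exact (Nat.prime_dvd_prime_iff_eq hqp hq0).mp (hqp.dvd_of_dvd_pow h)
  rcases hqq with h | h
  · subst h
    exfalso
    apply hG.1
    exact nilp_of_sup_top _ _ (Cfsg.Agent.S0536.all_sylow_normal q Q hQ P0) hQ0n P0.2.isNilpotent
      Q0.2.isNilpotent hPQ
  · subst h
    have hQQ : Q0 = Q := by
      obtain ⟨g, hg⟩ := MulAction.exists_smul_eq G Q Q0
      haveI := hQ
      rw [Sylow.smul_eq_of_normal] at hg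
      exact hg.symm
    subst hQQ
    exact core hG p0 q hne P0 Q0 hPc hQ hPQ D hD

end Cfsg.Agent.S0577
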