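import Cfsg.Statements.S0578
import Cfsg.Agent.Lib.Helper5.Basic

set_option autoImplicit false
open Cfsg

namespace Cfsg.Agent.S0578

/-- If in a finite group the normalizer of each abelian subgroup coincides with its centralizer, then the group is abelian. -/
theorem result {G : Type*} [Group G] [Finite G] (h : ∀ A : Subgroup G, IsMulCommutative A → Subgroup.normalizer (A : Set G) = Subgroup.centralizer (A : Set G)) : IsMulCommutative G := by
  classical
  have hSyl : ∀ (p : ℕ) [Fact p.Prime] (P : Sylow p G), IsMulCommutative (P : Subgroup G) := by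
    intro p _ P
    have hne : ({A : Subgroup G | A ≤ P ∧ IsMulCommutative A}).Nonempty :=
      ⟨⊥, bot_le, inferInstance⟩
    obtain ⟨A, ⟨hAP, hAab⟩, hmax⟩ :=
      (Set.toFinite {A : Subgroup G | A ≤ P ∧ IsMulCommutative A}).exists_maximal hne
    suffices hAeq : A = P by rw [← hAeq]; exact hAab
    by_contra hne'
    obtain ⟨x, hxP, hxN, hxA⟩ := Cfsg.Agent.Lib.Helper5.exists_mem_normalizer_not_mem
      (P.2.isNilpotent) (lt_of_le_of_ne hAP hne')
    rw [h A hAab] at hxN
    have hab2 := Cfsg.Agent.Lib.Helper5.comm_sup_zpowers hAab hxN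
    have hle2 : A ⊔ Subgroup.zpowers x ≤ P := sup_le hAP (by rw [Subgroup.zpowers_le]; exact hxP)
    have := hmax ⟨hle2, hab2⟩ le_sup_left
    exact hxA (this (Subgroup.mem_sup_right (Subgroup.mem_zpowers _)))
  refine ⟨⟨fun a b => ?_⟩⟩
  rw [← commutatorElement_eq_one_iff_mul_comm]
  by_contra hc
  obtain ⟨p, hp, hpd⟩ := Nat.exists_prime_and_dvd (n := orderOf (a * b * a⁻¹ * b⁻¹))
    (by rw [Ne, orderOf_eq_one_iff]; exact hc)
  haveI := Fact.mk hp
  let P : Sylow p G := default
  have hPab := hSyl p P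
  have hP : Subgroup.normalizer ((P : Subgroup G) : Set G) ≤ Subgroup.centralizer ((P : Subgroup G) : Set G) :=
    (h P hPab).le
  have hck : a * b * a⁻¹ * b⁻¹ ∈ (MonoidHom.transferSylow P hP).ker := by
    rw [MonoidHom.mem_ker]
    simp only [map_mul, map_inv]
    rw [mul_comm' ((MonoidHom.transferSylow P hP) a) ((MonoidHom.transferSylow P hP) b)]
    group
  apply MonoidHom.not_dvd_card_ker_transferSylow P hP
  exact hpd.trans (Subgroup.orderOf_dvd_natCard _ hck)

end Cfsg.Agent.S0578
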