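import Cfsg.Statements.S0579
import Mathlib
import Cfsg.Agent.Lib.Helper4.Supersolvable3
import Cfsg.Agent.S0046
import Cfsg.Agent.S0050
import Cfsg.Agent.S0526

set_option autoImplicit false
open Cfsg

namespace Cfsg.Agent.S0579

open Cfsg.Agent.Lib.Helper4
open scoped commutatorElement
open Polynomial

universe u

lemma exists_eigen {p : ℕ} [Fact p.Prime] {V : Type*} [AddCommGroup V] [Module (ZMod p) V] [Finite V]
    [Nontrivial V] (f : Module.End (ZMod p) V) (hf : f ^ p = f) :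
    ∃ (μ : ZMod p) (v : V), v ≠ 0 ∧ f v = μ • v := by
  have : Module.Finite (ZMod p) V := Module.Finite.of_finite
  have hs : ((X : (ZMod p)[X]) ^ p - X).Splits := by
    have := FiniteField.splits_X_pow_card_sub_X p (K := ZMod p)
    simpa [ZMod.card] using this
  have hne : ((X : (ZMod p)[X]) ^ p - X) ≠ 0 :=
    FiniteField.X_pow_card_sub_X_ne_zero (ZMod p) (Fact.out : p.Prime).one_lt
  have hd : minpoly (ZMod p) f ∣ X ^ p - X := minpoly.dvd _ _ (by simp [hf])
  have hs' := hs.of_dvd hne hd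
  obtain ⟨μ, hμ⟩ := hs'.exists_eval_eq_zero (minpoly.degree_pos (Algebra.IsIntegral.isIntegral f)).ne'
  obtain ⟨v, hv⟩ := (Module.End.hasEigenvalue_of_isRoot hμ).exists_hasEigenvector
  exact ⟨μ, v, hv.2, hv.apply_eq_smul⟩

lemma exists_eigen_group {p : ℕ} [Fact p.Prime] {N : Type*} [CommGroup N] [Finite N] [Nontrivial N]
    (hN : ∀ x : N, x ^ p = 1) (σ : MulAut N) (hσ : σ ^ (p - 1) = 1) :
    ∃ (k : ℕ) (v : N), v ≠ 1 ∧ σ v = v ^ k := by
  let _ : Module (ZMod p) (Additive N) := AddCommGroup.zmodModule (n := p) (fun x => hN x.toMul)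
  let Φ : MulAut N → Module.End (ZMod p) (Additive N) := fun τ =>
    (MonoidHom.toAdditive τ.toMonoidHom).toZModLinearMap p
  have hΦmul : ∀ τ τ', Φ (τ * τ') = Φ τ * Φ τ' := by
    intro τ τ'; ext x; rfl
  have hΦone : Φ 1 = 1 := by ext x; rfl
  have hΦpow : ∀ (τ : MulAut N) (k : ℕ), Φ (τ ^ k) = Φ τ ^ k := by
    intro τ k
    induction k with
    | zero => simp [hΦone]
    | succ k ih => rw [pow_succ, pow_succ, hΦmul, ih]
  have hp1 : p - 1 + 1 = p := Nat.sub_add_cancel (Fact.out : p.Prime).one_le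
  have hf : Φ σ ^ p = Φ σ := by
    have h1 : σ ^ p = σ := by
      calc σ ^ p = σ ^ (p - 1 + 1) := by rw [hp1]
        _ = σ := by rw [pow_succ, hσ, one_mul]
    rw [← hΦpow, h1]
  obtain ⟨μ, v, hv, h⟩ := exists_eigen (Φ σ) hf
  refine ⟨μ.val, v.toMul, fun h1 => hv h1, ?_⟩
  have h2 : μ • v = μ.val • v := by
    conv_lhs => rw [← ZMod.natCast_zmod_val μ]
    exact Nat.cast_smul_eq_nsmul (ZMod p) μ.val v
  rw [h2] at h
  exact h

/-- generated by commutators and `(p-1)`-th powers -/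
def Rp (p : ℕ) (X : Type*) [Group X] : Subgroup X :=
  Subgroup.closure ({g | ∃ a b : X, g = ⁅a, b⁆} ∪ {g | ∃ a : X, g = a ^ (p - 1)})

lemma comm_mem_Rp (p : ℕ) {X : Type*} [Group X] (a b : X) : ⁅a, b⁆ ∈ Rp p X :=
  Subgroup.subset_closure (Or.inl ⟨a, b, rfl⟩)

lemma pow_mem_Rp (p : ℕ) {X : Type*} [Group X] (a : X) : a ^ (p - 1) ∈ Rp p X :=
  Subgroup.subset_closure (Or.inr ⟨a, rfl⟩)

lemma Rp_le_ker (p : ℕ) {X A : Type*} [Group X] [Group A] (f : X →* A)
    (hcomm : ∀ a b : A, a * b = b * a) (hexp : ∀ a : A, a ^ (p - 1) = 1) : Rp p X ≤ f.ker := by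
  rw [Rp, Subgroup.closure_le]
  rintro g (⟨a, b, rfl⟩ | ⟨a, rfl⟩)
  · show f ⁅a, b⁆ = 1
    rw [map_commutatorElement]
    exact commutatorElement_eq_one_iff_mul_comm.mpr (hcomm _ _)
  · show f (a ^ (p - 1)) = 1
    rw [map_pow, hexp]

lemma map_mem_Rp (p : ℕ) {X Y : Type*} [Group X] [Group Y] (f : X →* Y) {y : X} (hy : y ∈ Rp p X) :
    f y ∈ Rp p Y := by
  have : Rp p X ≤ (Rp p Y).comap f := by
    rw [Rp, Subgroup.closure_le]
    rintro g (⟨a, b, rfl⟩ | ⟨a, rfl⟩)
    · show f ⁅a, b⁆ ∈ Rp p Y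
      rw [map_commutatorElement]
      exact comm_mem_Rp p _ _
    · show f (a ^ (p - 1)) ∈ Rp p Y
      rw [map_pow]
      exact pow_mem_Rp p _
  exact this hy

lemma conj_mem_Rp (p : ℕ) {X : Type*} [Group X] {y : X} (hy : y ∈ Rp p X) (g : X) :
    g * y * g⁻¹ ∈ Rp p X := by
  have := map_mem_Rp p (MulAut.conj g).toMonoidHom hy
  simpa using this

lemma Rp_centralizes_prime {p : ℕ} [Fact p.Prime] {X : Type*} [Group X] [Finite X] (Z : Subgroup X)
    [Z.Normal] (hZ : Nat.card Z = p) {y : X} (hy : y ∈ Rp p X) (z : X) (hz : z ∈ Z) :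
    y * z * y⁻¹ = z := by
  have hcyc : IsCyclic Z := isCyclic_of_prime_card hZ
  have h1 := Rp_le_ker p (MulAut.conjNormal (H := Z)) (by
    intro a b
    apply (IsCyclic.mulAutMulEquiv Z).injective
    rw [map_mul, map_mul, mul_comm]) (by
    intro a
    have h2 : Nat.card (MulAut Z) = p - 1 := by
      rw [IsCyclic.card_mulAut, hZ, Nat.totient_prime Fact.out]
    rw [← h2]
    exact pow_card_eq_one') hy
  have h3 : MulAut.conjNormal y = (1 : MulAut Z) := h1
  have h4 := congrArg (fun φ : MulAut Z => ((φ ⟨z, hz⟩ : Z) : X)) h3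
  simpa [MulAut.conjNormal_apply] using h4

theorem lemmaB {p : ℕ} [Fact p.Prime] : ∀ (n : ℕ) (X : Type u) [Group X] [Finite X], Nat.card X = n →
    Cfsg.IsSupersolvable X → ∀ Q : Subgroup X, Q.Normal → IsPGroup p Q →
    ∀ y ∈ Rp p X, (orderOf y).Coprime p → ∀ x ∈ Q, y * x * y⁻¹ = x := by
  intro n
  induction n using Nat.strong_induction_on with
  | _ n ih =>
    intro X _ _ hn hX Q hQn hQp y hy hyp x hx
    by_cases hQ1 : Q = ⊥
    · rw [hQ1, Subgroup.mem_bot] at hx
      rw [hx]; group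
    obtain ⟨Z, hZQ, hZn, hZp⟩ := exists_normal_prime hX Q hQ1
    have hZcard : Nat.card Z = p := by
      obtain ⟨k, hk⟩ := (IsPGroup.iff_card.mp (hQp.to_le hZQ))
      rw [hk] at hZp ⊢
      have hk1 : k = 1 := by
        rcases k with _ | _ | k
        · exact absurd hZp (by simp [Nat.not_prime_one])
        · rfl
        · exact absurd hZp (Nat.Prime.not_prime_pow (by omega))
      rw [hk1, pow_one]
    have hlt := card_quotient_lt Z (by rw [hZcard]; exact (Fact.out : p.Prime).two_le)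
    have h1 := ih _ (hn ▸ hlt) (X ⧸ Z) rfl (ss_quotient hX Z) (Q.map (QuotientGroup.mk' Z))
      (hQn.map _ (QuotientGroup.mk'_surjective Z)) (hQp.map _) (QuotientGroup.mk' Z y)
      (map_mem_Rp p _ hy) (Nat.Coprime.coprime_dvd_left (orderOf_map_dvd _ y) hyp)
      (QuotientGroup.mk' Z x) (Subgroup.mem_map_of_mem _ hx)
    have h2 : (QuotientGroup.mk x : X ⧸ Z) = QuotientGroup.mk (y * x * y⁻¹) := by
      have : QuotientGroup.mk' Z (y * x * y⁻¹) = QuotientGroup.mk' Z x := by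
        rw [map_mul, map_mul, map_inv]; exact h1
      exact this.symm
    have hzZ : x⁻¹ * (y * x * y⁻¹) ∈ Z := QuotientGroup.eq.mp h2
    obtain ⟨z, hz⟩ : ∃ z, z = x⁻¹ * (y * x * y⁻¹) := ⟨_, rfl⟩
    rw [← hz] at hzZ
    have hyx : y * x * y⁻¹ = x * z := by rw [hz]; group
    have hyz : y * z * y⁻¹ = z := Rp_centralizes_prime Z hZcard hy z hzZ
    have hpow : ∀ k : ℕ, y ^ k * x * (y ^ k)⁻¹ = x * z ^ k := by
      intro k
      induction k with
      | zero => simp
      | succ k ihk =>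
        calc y ^ (k + 1) * x * (y ^ (k + 1))⁻¹ = y * (y ^ k * x * (y ^ k)⁻¹) * y⁻¹ := by
              rw [pow_succ']; group
          _ = y * (x * z ^ k) * y⁻¹ := by rw [ihk]
          _ = (y * x * y⁻¹) * (y * z * y⁻¹) ^ k := by rw [conj_pow]; group
          _ = x * z ^ (k + 1) := by rw [hyx, hyz, pow_succ', mul_assoc]
    have h3 := hpow (orderOf y)
    rw [pow_orderOf_eq_one] at h3
    have h4 : z ^ orderOf y = 1 := by simpa using h3.symm
    have h5 : orderOf z ∣ orderOf y := orderOf_dvd_of_pow_eq_one h4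
    have h6 : orderOf z ∣ p := hZcard ▸ Subgroup.orderOf_dvd_natCard Z hzZ
    have h7 : orderOf z = 1 := Nat.eq_one_of_dvd_coprimes hyp h5 h6
    rw [hyx, orderOf_eq_one_iff.mp h7, mul_one]

lemma solvable_of_ss {X : Type*} [Group X] [Finite X] (h : Cfsg.IsSupersolvable X) :
    Group.IsSolvable X := by
  have h1 : Group.IsNilpotent (commutator X) := Cfsg.Agent.S0526.result h
  have h2 : Group.IsSolvable (commutator X) := inferInstance
  have h3 : Group.IsSolvable (X ⧸ commutator X) :=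
    (inferInstance : Group.IsSolvable (Abelianization X))
  exact (Group.isSolvable_iff_subgroup_quotient (commutator X)).mpr ⟨h2, h3⟩

lemma sylow_normal {G : Type*} [Group G] [Finite G]
    (h : ∀ M : Subgroup G, IsCoatom M → M.index.Prime)
    {p : ℕ} [Fact p.Prime] (hmax : ∀ q : ℕ, q.Prime → q ∣ Nat.card G → q ≤ p) (P : Sylow p G) :
    (P : Subgroup G).Normal := by
  by_contra hn
  have hne : Subgroup.normalizer ((P : Subgroup G) : Set G) ≠ ⊤ :=
    fun e => hn (Subgroup.normalizer_eq_top_iff.mp e)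
  obtain ⟨M, hM, hle⟩ := (eq_top_or_exists_le_coatom _).resolve_left hne
  have hq := h M hM
  have hPM : (P : Subgroup G) ≤ M := Subgroup.le_normalizer.trans hle
  have h1 : Nat.card (Sylow p G) ≡ 1 [MOD p] := card_sylow_modEq_one p G
  rw [Sylow.card_eq_index_normalizer P] at h1
  have h2 : Nat.card (Sylow p M) ≡ 1 [MOD p] := card_sylow_modEq_one p M
  rw [Sylow.card_eq_index_normalizer (P.subtype hPM)] at h2
  have h3 : Subgroup.normalizer (((P.subtype hPM : Sylow p M) : Subgroup M) : Set M)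
      = (Subgroup.normalizer ((P : Subgroup G) : Set G)).subgroupOf M := by
    rw [Subgroup.subgroupOf_normalizer_eq hPM]; rfl
  have h1 : (Subgroup.normalizer ((P : Subgroup G) : Set G)).index ≡ 1 [MOD p] := h1
  have h2 : (Subgroup.normalizer ((P : Subgroup G) : Set G)).relIndex M ≡ 1 [MOD p] := by
    rw [Subgroup.relIndex, ← h3]; exact h2
  have h4 : (Subgroup.normalizer ((P : Subgroup G) : Set G)).relIndex M * M.index
      = (Subgroup.normalizer ((P : Subgroup G) : Set G)).index := Subgroup.relIndex_mul_index hle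
  have h5 : M.index ≡ 1 [MOD p] := by
    have h6 := h2.mul_right M.index
    rw [one_mul] at h6
    have h7 : (Subgroup.normalizer ((P : Subgroup G) : Set G)).relIndex M * M.index ≡ 1 [MOD p] := by
      rw [h4]; exact h1
    exact h6.symm.trans h7
  have h8 : M.index ≤ p := hmax _ hq (Subgroup.index_dvd_card M)
  have hp2 : 2 ≤ p := (Fact.out : p.Prime).two_le
  have h9 : M.index % p = 1 := by
    have : M.index % p = 1 % p := h5
    rwa [Nat.mod_eq_of_lt (by omega : 1 < p)] at this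
  rcases h8.lt_or_eq with h | h
  · rw [Nat.mod_eq_of_lt h] at h9
    rw [h9] at hq
    exact Nat.not_prime_one hq
  · rw [h, Nat.mod_self] at h9
    omega

lemma cyclic_case1 {G : Type*} [Group G] [Finite G] (N M : Subgroup G) [hNn : N.Normal]
    (hNc : ∀ a ∈ N, ∀ b ∈ N, a * b = b * a)
    (hmin : ∀ K : Subgroup G, K.Normal → K ≤ N → K ≠ ⊥ → K = N)
    (hM : IsCoatom M) (hMp : M.index.Prime) (hNM : ¬ N ≤ M) : IsCyclic N := by
  have hsup : M ⊔ N = ⊤ :=
    hM.2 _ (lt_of_le_of_ne le_sup_left (fun e => hNM (e ▸ le_sup_right)))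
  have hKn : (M ⊓ N).Normal := by
    refine ⟨fun x hx g => ?_⟩
    have hg : g ∈ M ⊔ N := hsup ▸ Subgroup.mem_top g
    obtain ⟨m, hm, n, hn, rfl⟩ := Subgroup.mem_sup_of_normal_right.mp hg
    have h1 : n * x * n⁻¹ = x := by rw [hNc n hn x hx.2]; group
    have h2 : m * n * x * (m * n)⁻¹ = m * x * m⁻¹ := by
      calc m * n * x * (m * n)⁻¹ = m * (n * x * n⁻¹) * m⁻¹ := by group
        _ = _ := by rw [h1]
    rw [h2]
    exact ⟨M.mul_mem (M.mul_mem hm hx.1) (M.inv_mem hm), hNn.conj_mem x hx.2 m⟩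
  have hK : M ⊓ N = ⊥ := by
    by_contra hne
    have := hmin _ hKn inf_le_right hne
    exact hNM (this ▸ inf_le_left)
  have hc : Subgroup.IsComplement' N M := by
    apply Subgroup.isComplement'_of_disjoint_and_mul_eq_univ
    · rw [disjoint_iff, inf_comm]; exact hK
    · rw [← Subgroup.normal_mul, sup_comm, hsup]; rfl
  have h3 : M.index = Nat.card N := hc.index_eq_card
  have : Fact (Nat.card N).Prime := ⟨h3 ▸ hMp⟩
  exact isCyclic_of_prime_card rfl

lemma cyclic_case2 {G : Type u} [Group G] [Finite G] {p : ℕ} [Fact p.Prime] (P : Sylow p G)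
    (hPn : (P : Subgroup G).Normal) (N : Subgroup G) [hNn : N.Normal] (hN1 : N ≠ ⊥)
    (hNP : N ≤ (P : Subgroup G))
    (hNZ : ∀ x ∈ (P : Subgroup G), ∀ n ∈ N, x * n * x⁻¹ = n)
    (hNexp : ∀ n ∈ N, n ^ p = 1)
    (hmin : ∀ K : Subgroup G, K.Normal → K ≤ N → K ≠ ⊥ → K = N)
    (hGN : Cfsg.IsSupersolvable (G ⧸ N))
    (hfr : ∀ M : Subgroup G, IsCoatom M → N ≤ M) : IsCyclic N := by
  classical
  have hNc : ∀ a ∈ N, ∀ b ∈ N, a * b = b * a := by
    intro a ha b hb
    exact mul_inv_eq_iff_eq_mul.mp (hNZ a (hNP ha) b hb)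
  have hnongen : ∀ X : Subgroup G, N ⊔ X = ⊤ → X = ⊤ := by
    intro X hX
    by_contra hne
    obtain ⟨M, hM, hle⟩ := (eq_top_or_exists_le_coatom X).resolve_left hne
    exact hM.1 (top_le_iff.mp (hX ▸ sup_le (hfr M hM) hle))
  obtain ⟨H, hH⟩ := Subgroup.exists_right_complement'_of_coprime (N := (P : Subgroup G))
    P.card_coprime_index
  have hPH : (P : Subgroup G) ⊔ H = ⊤ := hH.sup_eq_top
  have hPHd : (P : Subgroup G) ⊓ H = ⊥ := hH.disjoint.eq_bot
  have hHcard : (P : Subgroup G).index = Nat.card H := hH.symm.index_eq_card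
  have hHp : (Nat.card H).Coprime p := by
    rw [← hHcard]
    exact (Nat.Coprime.symm ((Nat.Prime.coprime_iff_not_dvd Fact.out).mpr P.not_dvd_index))
  have hdec : ∀ g : G, ∃ x ∈ (P : Subgroup G), ∃ h ∈ H, g = x * h := by
    intro g
    have hg : g ∈ (P : Subgroup G) ⊔ H := hPH ▸ Subgroup.mem_top g
    obtain ⟨x, hx, h, hh, rfl⟩ := Subgroup.mem_sup_of_normal_left.mp hg
    exact ⟨x, hx, h, hh, rfl⟩
  obtain ⟨H₀, hH₀⟩ : ∃ H₀ : Subgroup G, H₀ = H ⊓ Rp p G := ⟨_, rfl⟩
  have hH₀H : ∀ y ∈ H₀, y ∈ H := fun y hy => (hH₀ ▸ hy : y ∈ H ⊓ Rp p G).1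
  have hH₀R : ∀ y ∈ H₀, y ∈ Rp p G := fun y hy => (hH₀ ▸ hy : y ∈ H ⊓ Rp p G).2
  have hH₀mk : ∀ y, y ∈ H → y ∈ Rp p G → y ∈ H₀ := fun y h1 h2 => hH₀ ▸ ⟨h1, h2⟩
  have hH₀ord : ∀ y ∈ H₀, (orderOf y).Coprime p := fun y hy =>
    Nat.Coprime.coprime_dvd_left (Subgroup.orderOf_dvd_natCard H (hH₀H y hy)) hHp
  have hi : ∀ y ∈ H₀, ∀ x ∈ (P : Subgroup G), y * x * y⁻¹ * x⁻¹ ∈ N := by
    intro y hy x hx
    have h1 := lemmaB (p := p) _ (G ⧸ N) rfl hGN ((P : Subgroup G).map (QuotientGroup.mk' N))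
      (hPn.map _ (QuotientGroup.mk'_surjective N)) (P.2.map _) (QuotientGroup.mk' N y)
      (map_mem_Rp p _ (hH₀R y hy))
      (Nat.Coprime.coprime_dvd_left (orderOf_map_dvd _ y) (hH₀ord y hy))
      (QuotientGroup.mk' N x) (Subgroup.mem_map_of_mem _ hx)
    rw [← QuotientGroup.eq_one_iff]
    have : QuotientGroup.mk' N (y * x * y⁻¹ * x⁻¹) = 1 := by
      rw [map_mul, map_mul, map_mul, map_inv, map_inv, h1, mul_inv_cancel]
    exact this
  obtain ⟨L, hL⟩ : ∃ L : Subgroup G, L = N ⊔ H₀ := ⟨_, rfl⟩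
  have hNL : N ≤ L := hL ▸ le_sup_left
  have hH₀L : H₀ ≤ L := hL ▸ le_sup_right
  have hconjP : ∀ x ∈ (P : Subgroup G), ∀ l ∈ L, x * l * x⁻¹ ∈ L := by
    intro x hx
    have h0 : L ≤ L.comap (MulAut.conj x).toMonoidHom := by
      conv_lhs => rw [hL]
      apply sup_le
      · intro n hn
        show x * n * x⁻¹ ∈ L
        exact hNL (hNn.conj_mem n hn x)
      · intro y hy
        show x * y * x⁻¹ ∈ L
        have h1 : x * y * x⁻¹ = (y * x * y⁻¹ * x⁻¹)⁻¹ * y := by group
        rw [h1]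
        exact L.mul_mem (hNL (N.inv_mem (hi y hy x hx))) (hH₀L hy)
    intro l hl
    exact h0 hl
  have hconjH : ∀ x ∈ H, ∀ l ∈ L, x * l * x⁻¹ ∈ L := by
    intro x hx
    have h0 : L ≤ L.comap (MulAut.conj x).toMonoidHom := by
      conv_lhs => rw [hL]
      apply sup_le
      · intro n hn
        show x * n * x⁻¹ ∈ L
        exact hNL (hNn.conj_mem n hn x)
      · intro y hy
        show x * y * x⁻¹ ∈ L
        exact hH₀L (hH₀mk _ (H.mul_mem (H.mul_mem hx (hH₀H y hy)) (H.inv_mem hx))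
          (conj_mem_Rp p (hH₀R y hy) x))
    intro l hl
    exact h0 hl
  have hLn : L.Normal := by
    refine ⟨fun l hl g => ?_⟩
    obtain ⟨x, hx, h, hh, rfl⟩ := hdec g
    have := hconjP x hx _ (hconjH h hh l hl)
    have e : x * h * l * (x * h)⁻¹ = x * (h * l * h⁻¹) * x⁻¹ := by group
    rw [e]; exact this
  have hNH₀ : N ⊓ H₀ = ⊥ := by
    rw [eq_bot_iff, ← hPHd]
    exact fun y hy => ⟨hNP hy.1, hH₀H y hy.2⟩
  have hsolG : Group.IsSolvable G := by
    have h1 : Group.IsSolvable (G ⧸ N) := solvable_of_ss hGN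
    have h2 : Group.IsSolvable N :=
      Group.isSolvable_of_comm (fun a b => Subtype.ext (hNc a a.2 b b.2))
    exact (Group.isSolvable_iff_subgroup_quotient N).mpr ⟨h2, h1⟩
  have hrel : H₀.relIndex L = Nat.card N := by
    have h1 : N.relIndex L = Nat.card H₀ := by
      rw [hL, Subgroup.relIndex_sup_left, ← Subgroup.inf_relIndex_right, hNH₀,
        Subgroup.relIndex_bot_left]
    have h2 := Subgroup.relIndex_mul_relIndex ⊥ N L bot_le hNL
    have h3 := Subgroup.relIndex_mul_relIndex ⊥ H₀ L bot_le hH₀L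
    rw [Subgroup.relIndex_bot_left, Subgroup.relIndex_bot_left] at h2 h3
    rw [h1] at h2
    have h4 : Nat.card H₀ * H₀.relIndex L = Nat.card H₀ * Nat.card N := by
      rw [h3, ← h2, mul_comm]
    exact Nat.eq_of_mul_eq_mul_left Nat.card_pos h4
  have hcop : (Nat.card H₀).Coprime (H₀.relIndex L) := by
    rw [hrel]
    obtain ⟨k, hk⟩ := IsPGroup.iff_card.mp (P.2.to_le hNP)
    rw [hk]
    apply Nat.Coprime.pow_right
    exact Nat.Coprime.coprime_dvd_left (Subgroup.card_dvd_of_le (fun y hy => hH₀H y hy)) hHp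
  have hfrat := Cfsg.Agent.S0050.result L inferInstance H₀ hH₀L hcop
  have hH₀n : H₀.Normal := by
    rw [← Subgroup.normalizer_eq_top_iff]
    apply hnongen
    rw [eq_top_iff, ← hfrat, hL]
    exact sup_le (sup_le le_sup_left (Subgroup.le_normalizer.trans le_sup_right)) le_sup_right
  have hv : ∀ y ∈ H₀, ∀ n ∈ N, y * n * y⁻¹ = n := by
    intro y hy n hn
    have h1 : y * n * y⁻¹ * n⁻¹ ∈ N ⊓ H₀ := by
      constructor
      · exact N.mul_mem (hNn.conj_mem n hn y) (N.inv_mem hn)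
      · have : y * n * y⁻¹ * n⁻¹ = y * (n * y⁻¹ * n⁻¹) := by group
        rw [this]
        exact H₀.mul_mem hy (hH₀n.conj_mem _ (H₀.inv_mem hy) n)
    rw [hNH₀, Subgroup.mem_bot] at h1
    exact mul_inv_eq_one.mp h1
  have hcommN : ∀ h ∈ H, ∀ h' ∈ H, ∀ n ∈ N,
      h * (h' * n * h'⁻¹) * h⁻¹ = h' * (h * n * h⁻¹) * h'⁻¹ := by
    intro h hh h' hh' n hn
    have h1 : ⁅h, h'⁆ ∈ H₀ := hH₀mk _ (by
      rw [commutatorElement_def]
      exact H.mul_mem (H.mul_mem (H.mul_mem hh hh') (H.inv_mem hh)) (H.inv_mem hh'))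
      (comm_mem_Rp p h h')
    have h2 := hv _ h1 (h' * (h * n * h⁻¹) * h'⁻¹) (hNn.conj_mem _ (hNn.conj_mem n hn h) h')
    calc h * (h' * n * h'⁻¹) * h⁻¹ = ⁅h, h'⁆ * (h' * (h * n * h⁻¹) * h'⁻¹) * ⁅h, h'⁆⁻¹ := by
          rw [commutatorElement_def]; group
      _ = _ := h2
  have hNnt : Nontrivial N := (Subgroup.nontrivial_iff_ne_bot N).mpr hN1
  have hscalar : ∀ h ∈ H, ∃ k : ℕ, ∀ n ∈ N, h * n * h⁻¹ = n ^ k := by
    intro h hh
    have hσ : (MulAut.conjNormal h : MulAut N) ^ (p - 1) = 1 := by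
      rw [← map_pow]
      ext n
      rw [MulAut.conjNormal_apply]
      exact hv _ (hH₀mk _ (H.pow_mem hh _) (pow_mem_Rp p h)) n n.2
    let _ : CommGroup N :=
      { (inferInstance : Group N) with mul_comm := fun a b => Subtype.ext (hNc a a.2 b b.2) }
    obtain ⟨k, v, hv1, hvk⟩ := exists_eigen_group (p := p) (N := N)
      (fun x => Subtype.ext (hNexp x x.2)) (MulAut.conjNormal h) hσ
    refine ⟨k, ?_⟩
    let E : Subgroup G :=
      { carrier := {n | n ∈ N ∧ h * n * h⁻¹ = n ^ k}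
        mul_mem' := by
          rintro a b ⟨ha, ha'⟩ ⟨hb, hb'⟩
          refine ⟨N.mul_mem ha hb, ?_⟩
          calc h * (a * b) * h⁻¹ = (h * a * h⁻¹) * (h * b * h⁻¹) := by group
            _ = a ^ k * b ^ k := by rw [ha', hb']
            _ = (a * b) ^ k := ((show Commute a b from hNc a ha b hb).mul_pow k).symm
        one_mem' := ⟨N.one_mem, by simp⟩
        inv_mem' := by
          rintro a ⟨ha, ha'⟩
          refine ⟨N.inv_mem ha, ?_⟩
          calc h * a⁻¹ * h⁻¹ = (h * a * h⁻¹)⁻¹ := by group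
            _ = (a⁻¹) ^ k := by rw [ha', inv_pow] }
    have hEn : E.Normal := by
      refine ⟨fun n hn g => ?_⟩
      obtain ⟨x, hx, h', hh', rfl⟩ := hdec g
      have hn' : h' * n * h'⁻¹ ∈ N := hNn.conj_mem n hn.1 h'
      have e : x * h' * n * (x * h')⁻¹ = h' * n * h'⁻¹ := by
        calc x * h' * n * (x * h')⁻¹ = x * (h' * n * h'⁻¹) * x⁻¹ := by group
          _ = _ := hNZ x hx _ hn'
      rw [e]
      refine ⟨hn', ?_⟩
      rw [hcommN h hh h' hh' n hn.1, hn.2, conj_pow]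
    have hvE : (v : G) ∈ E := by
      refine ⟨v.2, ?_⟩
      have := congrArg Subtype.val hvk
      rw [MulAut.conjNormal_apply] at this
      exact this
    have hE1 : E ≠ ⊥ := by
      intro e
      rw [e, Subgroup.mem_bot] at hvE
      exact hv1 (Subtype.ext hvE)
    have hE := hmin E hEn (fun n hn => hn.1) hE1
    intro n hn
    exact (hE ▸ hn : n ∈ E).2
  obtain ⟨v, hvN, hv1⟩ : ∃ v ∈ N, v ≠ 1 := by
    obtain ⟨v, hv⟩ := exists_ne (1 : N)
    exact ⟨v, v.2, fun e => hv (Subtype.ext e)⟩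
  have hZn : (Subgroup.zpowers v).Normal := by
    refine ⟨fun w hw g => ?_⟩
    obtain ⟨x, hx, h, hh, rfl⟩ := hdec g
    obtain ⟨k, hk⟩ := hscalar h hh
    have hwN : w ∈ N := (Subgroup.zpowers_le.mpr hvN) hw
    have h1 : x * h * w * (x * h)⁻¹ = w ^ k := by
      calc x * h * w * (x * h)⁻¹ = x * (h * w * h⁻¹) * x⁻¹ := by group
        _ = h * w * h⁻¹ := hNZ x hx _ (hNn.conj_mem w hwN h)
        _ = w ^ k := hk w hwN
    rw [h1]; exact Subgroup.pow_mem _ hw k
  have hfin := hmin _ hZn (Subgroup.zpowers_le.mpr hvN) (Subgroup.zpowers_ne_bot.mpr hv1)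
  exact hfin ▸ (inferInstance : IsCyclic (Subgroup.zpowers v))

theorem aux : ∀ (n : ℕ) (G : Type u) [Group G] [Finite G], Nat.card G = n →
    (∀ M : Subgroup G, IsCoatom M → M.index.Prime) → Cfsg.IsSupersolvable G := by
  intro n
  induction n using Nat.strong_induction_on with
  | _ n ih =>
    intro G _ _ hn h
    rcases subsingleton_or_nontrivial G with hs | hs
    · exact ss_of_subsingleton
    have hquot : ∀ (N : Subgroup G) [N.Normal], N ≠ ⊥ → Cfsg.IsSupersolvable (G ⧸ N) := by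
      intro N _ hN1
      have : Nontrivial N := (Subgroup.nontrivial_iff_ne_bot N).mpr hN1
      have hlt := card_quotient_lt N Finite.one_lt_card
      apply ih _ (hn ▸ hlt) (G ⧸ N) rfl
      intro K hK
      have := h _ (Cfsg.Agent.S0046.isCoatom_comap (QuotientGroup.mk' N)
        (QuotientGroup.mk'_surjective N) hK)
      rwa [Subgroup.index_comap_of_surjective _ (QuotientGroup.mk'_surjective N)] at this
    have hcard1 : 1 < Nat.card G := Finite.one_lt_card
    obtain ⟨p, hpmem, hpmax⟩ := Finset.exists_max_image (Nat.card G).primeFactors id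
      (Nat.nonempty_primeFactors.mpr hcard1)
    have hp : p.Prime := Nat.prime_of_mem_primeFactors hpmem
    have hpd : p ∣ Nat.card G := Nat.dvd_of_mem_primeFactors hpmem
    have : Fact p.Prime := ⟨hp⟩
    have hmax : ∀ q : ℕ, q.Prime → q ∣ Nat.card G → q ≤ p := fun q hq hqd =>
      hpmax q (Nat.mem_primeFactors.mpr ⟨hq, hqd, Nat.card_pos.ne'⟩)
    obtain ⟨P⟩ : Nonempty (Sylow p G) := inferInstance
    have hPn := sylow_normal h hmax P
    have hP1 : (P : Subgroup G) ≠ ⊥ := P.ne_bot_of_dvd_card hpd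
    have : Nontrivial (P : Subgroup G) := (Subgroup.nontrivial_iff_ne_bot _).mpr hP1
    have hcen := IsPGroup.center_nontrivial P.2
    obtain ⟨z, hz⟩ := exists_ne (1 : Subgroup.center (P : Subgroup G))
    obtain ⟨ZP, hZP⟩ : ∃ ZP : Subgroup G,
      ZP = (P : Subgroup G) ⊓ Subgroup.centralizer ((P : Subgroup G) : Set G) := ⟨_, rfl⟩
    have hZPn : ZP.Normal := by
      rw [hZP]
      refine ⟨fun x hx g => ⟨hPn.conj_mem x hx.1 g, ?_⟩⟩
      show g * x * g⁻¹ ∈ Subgroup.centralizer ((P : Subgroup G) : Set G)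
      rw [Subgroup.mem_centralizer_iff]
      intro y hy
      have h1 := (Subgroup.mem_centralizer_iff.mp hx.2) (g⁻¹ * y * g) (by
        have := hPn.conj_mem y hy g⁻¹
        rwa [inv_inv] at this)
      calc y * (g * x * g⁻¹) = g * ((g⁻¹ * y * g) * x) * g⁻¹ := by group
        _ = g * (x * (g⁻¹ * y * g)) * g⁻¹ := by rw [h1]
        _ = g * x * g⁻¹ * y := by group
    have hZP1 : ZP ≠ ⊥ := by
      intro e
      have hzmem : ((z : (P : Subgroup G)) : G) ∈ ZP := by
        rw [hZP]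
        refine ⟨(z : (P : Subgroup G)).2, ?_⟩
        show ((z : (P : Subgroup G)) : G) ∈ Subgroup.centralizer ((P : Subgroup G) : Set G)
        rw [Subgroup.mem_centralizer_iff]
        intro y hy
        have := (Subgroup.mem_center_iff.mp z.2) ⟨y, hy⟩
        exact congrArg Subtype.val this
      rw [e, Subgroup.mem_bot] at hzmem
      exact hz (Subtype.ext (Subtype.ext hzmem))
    obtain ⟨N, ⟨hNn, hN1, hNle⟩, hminN⟩ :=
      (Set.toFinite {N : Subgroup G | N.Normal ∧ N ≠ ⊥ ∧ N ≤ ZP}).exists_minimal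
        ⟨ZP, hZPn, hZP1, le_rfl⟩
    have hmin : ∀ K : Subgroup G, K.Normal → K ≤ N → K ≠ ⊥ → K = N := fun K hK hKN hK1 =>
      le_antisymm hKN (hminN ⟨hK, hK1, hKN.trans hNle⟩ hKN)
    have hNP : N ≤ (P : Subgroup G) := fun n hn => (hZP ▸ hNle hn :
      n ∈ (P : Subgroup G) ⊓ Subgroup.centralizer ((P : Subgroup G) : Set G)).1
    have hNZ : ∀ x ∈ (P : Subgroup G), ∀ n ∈ N, x * n * x⁻¹ = n := by
      intro x hx n hn
      have h1 := (hZP ▸ hNle hn :
        n ∈ (P : Subgroup G) ⊓ Subgroup.centralizer ((P : Subgroup G) : Set G)).2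
      have := (Subgroup.mem_centralizer_iff.mp h1) x hx
      rw [this]; group
    have hNc : ∀ a ∈ N, ∀ b ∈ N, a * b = b * a := by
      intro a ha b hb
      exact mul_inv_eq_iff_eq_mul.mp (hNZ a (hNP ha) b hb)
    have hNexp : ∀ n ∈ N, n ^ p = 1 := by
      let K : Subgroup G :=
        { carrier := {n | n ∈ N ∧ n ^ p = 1}
          mul_mem' := by
            rintro a b ⟨ha, ha'⟩ ⟨hb, hb'⟩
            refine ⟨N.mul_mem ha hb, ?_⟩
            rw [(show Commute a b from hNc a ha b hb).mul_pow, ha', hb', one_mul]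
          one_mem' := ⟨N.one_mem, one_pow _⟩
          inv_mem' := by
            rintro a ⟨ha, ha'⟩
            exact ⟨N.inv_mem ha, by rw [inv_pow, ha', inv_one]⟩ }
      have hKn : K.Normal := by
        refine ⟨fun n hn g => ⟨hNn.conj_mem n hn.1 g, ?_⟩⟩
        rw [conj_pow, hn.2]; group
      have hK1 : K ≠ ⊥ := by
        have hd : p ∣ Nat.card N := by
          rcases (P.2.to_le hNP).card_eq_or_dvd with h1 | h1
          · exact absurd (Subgroup.card_eq_one.mp h1) hN1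
          · exact h1
        obtain ⟨x, hx⟩ := exists_prime_orderOf_dvd_card' p hd
        intro e
        have hxK : (x : G) ∈ K := by
          refine ⟨x.2, ?_⟩
          have := pow_orderOf_eq_one x
          rw [hx] at this
          exact congrArg Subtype.val this
        rw [e, Subgroup.mem_bot] at hxK
        have : x = 1 := Subtype.ext hxK
        rw [this, orderOf_one] at hx
        exact hp.one_lt.ne hx
      have hK := hmin K hKn (fun n hn => hn.1) hK1
      intro n hn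
      exact (hK ▸ hn : n ∈ K).2
    have hGN := hquot N hN1
    have hcyc : IsCyclic N := by
      by_cases hfr : ∀ M : Subgroup G, IsCoatom M → N ≤ M
      · exact cyclic_case2 P hPn N hN1 hNP hNZ hNexp hmin hGN hfr
      · push Not at hfr
        obtain ⟨M, hM, hNM⟩ := hfr
        exact cyclic_case1 N M hNc hmin hM (h M hM) hNM
    exact ss_of_quotient_cyclic N hGN

/-- Huppert's supersolvability criterion: if every maximal subgroup of a finite group has prime index, then the group is supersolvable. -/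
theorem result {G : Type*} [Group G] [Finite G] (h : ∀ M : Subgroup G, IsCoatom M → M.index.Prime) : Cfsg.IsSupersolvable G := by
  exact aux _ G rfl h

end Cfsg.Agent.S0579
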