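import Cfsg.Statements.S0580
import Mathlib.GroupTheory.Sylow
import Mathlib.GroupTheory.Nilpotent

set_option autoImplicit false
open Cfsg

namespace Cfsg.Agent.S0580

theorem index_modEq_one {G : Type*} [Group G] [Finite G] {p : ℕ} [Fact p.Prime] (P : Sylow p G)
    (M : Subgroup G) (hM : Subgroup.normalizer ((P : Subgroup G) : Set G) ≤ M) :
    M.index ≡ 1 [MOD p] := by
  have hPM : (P : Subgroup G) ≤ M := Subgroup.le_normalizer.trans hM
  have h1 : (Subgroup.normalizer ((P : Subgroup G) : Set G)).index ≡ 1 [MOD p] := by
    have h0 : Nat.card (Sylow p G) = (Subgroup.normalizer ((P : Subgroup G) : Set G)).index :=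
      P.card_eq_index_normalizer
    rw [← h0]; exact card_sylow_modEq_one p G
  have h2 : (Subgroup.normalizer ((P : Subgroup G) : Set G)).relIndex M ≡ 1 [MOD p] := by
    have h3 : Nat.card (Sylow p M) =
        (Subgroup.normalizer (((P : Subgroup G).subgroupOf M : Subgroup M) : Set M)).index :=
      Sylow.card_eq_index_normalizer (P.subtype hPM)
    rw [← Subgroup.subgroupOf_normalizer_eq hPM] at h3
    rw [Subgroup.relIndex, ← h3]
    exact card_sylow_modEq_one p M
  have h4 := Subgroup.relIndex_mul_index hM
  have h5 : (Subgroup.normalizer ((P : Subgroup G) : Set G)).relIndex M * M.index ≡ 1 * M.index [MOD p] :=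
    h2.mul_right _
  rw [h4, one_mul] at h5
  exact h5.symm.trans h1

theorem sylow_normal_of_largest {G : Type*} [Group G] [Finite G]
    (h : ∀ M : Subgroup G, IsCoatom M → M.index.Prime) {p : ℕ} [Fact p.Prime]
    (hp : ∀ q : ℕ, q.Prime → q ∣ Nat.card G → q ≤ p) (P : Sylow p G) :
    (P : Subgroup G).Normal := by
  rw [← Subgroup.normalizer_eq_top_iff]
  rcases eq_top_or_exists_le_coatom (Subgroup.normalizer ((P : Subgroup G) : Set G)) with h1 | ⟨M, hM, hle⟩
  · exact h1
  · exfalso
    have hq := h M hM
    have hqp : M.index ≤ p := hp _ hq (Subgroup.index_dvd_card M)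
    have hmod := index_modEq_one P M hle
    have h2 : 2 ≤ M.index := hq.two_le
    have h3 : p ∣ M.index - 1 := (Nat.modEq_iff_dvd' (by omega)).mp hmod.symm
    have h4 := Nat.le_of_dvd (by omega) h3
    omega

theorem aux (n : ℕ) : ∀ (G : Type*) [Group G] [Finite G], Nat.card G = n →
    (∀ M : Subgroup G, IsCoatom M → M.index.Prime) → Group.IsSolvable G := by
  induction n using Nat.strong_induction_on with
  | _ n ih =>
    intro G _ _ hn h
    by_cases h1 : Nat.card G = 1
    · haveI : Subsingleton G := (Nat.card_eq_one_iff_unique.mp h1).1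
      infer_instance
    · have hne : (Nat.card G).primeFactors.Nonempty := by
        rw [Nat.nonempty_primeFactors]
        have := Nat.card_pos (α := G)
        omega
      obtain ⟨p, hpm, hpmax⟩ := Finset.exists_max_image _ id hne
      have hpp : p.Prime := Nat.prime_of_mem_primeFactors hpm
      haveI := Fact.mk hpp
      have hpd : p ∣ Nat.card G := Nat.dvd_of_mem_primeFactors hpm
      let P : Sylow p G := default
      have hPn : (P : Subgroup G).Normal := by
        apply sylow_normal_of_largest h _ P
        intro q hq hqd
        exact hpmax q (Nat.mem_primeFactors.mpr ⟨hq, hqd, Nat.card_pos.ne'⟩)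
      have hP1 : (P : Subgroup G) ≠ ⊥ := P.ne_bot_of_dvd_card hpd
      have hlt : Nat.card (G ⧸ (P : Subgroup G)) < n := by
        rw [← hn, ← Subgroup.index_eq_card, ← Subgroup.index_mul_card (P : Subgroup G)]
        have h2 : 1 < Nat.card (P : Subgroup G) := by
          rw [Subgroup.one_lt_card_iff_ne_bot]; exact hP1
        have h3 : 0 < (P : Subgroup G).index := Nat.pos_of_ne_zero Subgroup.index_ne_zero_of_finite
        nlinarith
      have hQ : Group.IsSolvable (G ⧸ (P : Subgroup G)) := by
        apply ih _ hlt _ rfl
        intro M hM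
        have hs : Function.Surjective (QuotientGroup.mk' (P : Subgroup G)) := QuotientGroup.mk'_surjective _
        have := h _ (Subgroup.isCoatom_comap_of_surjective hs hM)
        rwa [Subgroup.index_comap_of_surjective _ hs] at this
      haveI : Group.IsNilpotent (P : Subgroup G) := P.2.isNilpotent
      haveI : Group.IsSolvable (P : Subgroup G) := inferInstance
      apply Group.isSolvable_of_ker_le_range (P : Subgroup G).subtype (QuotientGroup.mk' (P : Subgroup G))
      rw [QuotientGroup.ker_mk', Subgroup.range_subtype]

/-- If every maximal subgroup of a finite group has prime index, then the group is solvable. -/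
theorem result {G : Type*} [Group G] [Finite G] (h : ∀ M : Subgroup G, IsCoatom M → M.index.Prime) : Group.IsSolvable G := by
  exact aux _ G rfl h

end Cfsg.Agent.S0580
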