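import Cfsg.Statements.S0582
import Mathlib
import Cfsg.Agent.S0531
import Cfsg.Agent.S0532
import Cfsg.Agent.Lib.Helper4.Supersolvable3
import Cfsg.Agent.Lib.Helper4.Basic

set_option autoImplicit false
open Pointwise
open Cfsg

namespace Cfsg.Agent.S0582

open Cfsg.Agent.Lib.Helper4

universe u

theorem ss_of_surj {G : Type u} {H : Type u} [Group G] [Group H] (f : G →* H)
    (hf : Function.Surjective f) (hG : Cfsg.IsSupersolvable G) : Cfsg.IsSupersolvable H := by
  rw [isSupersolvable_iff] at hG ⊢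
  have := CycChain.map f hf hG
  simpa [Subgroup.map_bot, Subgroup.map_top_of_surjective f hf] using this

theorem ss_sylow_normal {X : Type u} [Group X] [Finite X] (hX : Cfsg.IsSupersolvable X) (p : ℕ)
    [Fact p.Prime] (hdvd : p ∣ Nat.card X) (hmax : ∀ q : ℕ, q.Prime → q ∣ Nat.card X → q ≤ p)
    (P : Sylow p X) : (P : Subgroup X).Normal :=
  Cfsg.Agent.S0532.result (fun H => Cfsg.Agent.S0531.result (ss_subgroup hX H)) p hdvd hmax P

theorem card_conj {G : Type u} [Group G] (H : Subgroup G) (g : G) :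
    Nat.card (MulAut.conj g • H : Subgroup G) = Nat.card H :=
  Nat.card_congr (Subgroup.equivSMul (MulAut.conj g) H).toEquiv.symm

theorem card_map_mk {X : Type u} [Group X] [Finite X] (P A : Subgroup X) [P.Normal] (hPA : P ≤ A) :
    Nat.card (A.map (QuotientGroup.mk' P)) * Nat.card P = Nat.card A ∧
      (A.map (QuotientGroup.mk' P)).index = A.index := by
  have hidx : (A.map (QuotientGroup.mk' P)).index = A.index := by
    rw [Subgroup.index_map, QuotientGroup.ker_mk', sup_eq_left.mpr hPA,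
      MonoidHom.range_eq_top.mpr (QuotientGroup.mk'_surjective P), Subgroup.index_top, mul_one]
  refine ⟨?_, hidx⟩
  have h1 := Subgroup.card_mul_index (A.map (QuotientGroup.mk' P))
  have h2 := Subgroup.card_mul_index A
  have h3 := Subgroup.card_eq_card_quotient_mul_card_subgroup P
  rw [hidx] at h1
  have hpos : 0 < A.index := Nat.pos_of_ne_zero (Subgroup.index_ne_zero_of_finite)
  apply Nat.eq_of_mul_eq_mul_right hpos
  calc Nat.card (A.map (QuotientGroup.mk' P)) * Nat.card P * A.index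
      = (Nat.card (A.map (QuotientGroup.mk' P)) * A.index) * Nat.card P := by ring
    _ = Nat.card X := by rw [h1, ← h3]
    _ = _ := h2.symm

/-- The Sylow subgroup of a Hall subgroup, as a Sylow subgroup of the whole group. -/
theorem exists_sylow_of_hall {G : Type u} [Group G] [Finite G] (H : Subgroup G)
    (hHall : (Nat.card H).Coprime H.index) (p : ℕ) [Fact p.Prime] (hp : p ∣ Nat.card H)
    (P : Sylow p H) : ∃ S : Sylow p G, (S : Subgroup G) = (P : Subgroup H).map H.subtype := by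
  refine ⟨Sylow.ofCard ((P : Subgroup H).map H.subtype) ?_, rfl⟩
  rw [Subgroup.card_map_of_injective H.subtype_injective, P.card_eq_multiplicity]
  congr 1
  have hnd : ¬ p ∣ H.index := by
    intro h
    have := Nat.eq_one_of_dvd_coprimes hHall hp h
    exact (Fact.out : p.Prime).one_lt.ne' this
  rw [← Subgroup.card_mul_index H, Nat.factorization_mul (Nat.card_pos.ne')
    Subgroup.index_ne_zero_of_finite]
  simp [Nat.factorization_eq_zero_of_not_dvd hnd]

theorem main : ∀ (n : ℕ) (G : Type u) [Group G] [Finite G] (H K : Subgroup G),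
    Nat.card H = n → Cfsg.IsSupersolvable H → Cfsg.IsSupersolvable K → Nat.card H = Nat.card K →
    (Nat.card H).Coprime H.index → ∃ x : G, MulAut.conj x • H = K := by
  intro n
  induction n using Nat.strong_induction_on with
  | _ n ih =>
  intro G _ _ H K hn hH hK hcard hHall
  by_cases h1 : n ≤ 1
  · have hn1 : Nat.card H = 1 := le_antisymm (hn ▸ h1) Nat.card_pos
    have hHb : H = ⊥ := Subgroup.card_eq_one.mp hn1
    have hKb : K = ⊥ := Subgroup.card_eq_one.mp (hcard ▸ hn1)
    exact ⟨1, by rw [hHb, hKb]; simp⟩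
  push Not at h1
  obtain ⟨p, hp⟩ : ∃ p, p = n.primeFactors.max' (Nat.nonempty_primeFactors.mpr h1) := ⟨_, rfl⟩
  have hpmem : p ∈ n.primeFactors := hp ▸ Finset.max'_mem _ _
  have hpp : p.Prime := Nat.prime_of_mem_primeFactors hpmem
  have hpd : p ∣ n := Nat.dvd_of_mem_primeFactors hpmem
  have hmax : ∀ q : ℕ, q.Prime → q ∣ n → q ≤ p := by
    intro q hq hqd
    rw [hp]
    exact Finset.le_max' _ _ (Nat.mem_primeFactors.mpr ⟨hq, hqd, by omega⟩)
  haveI : Fact p.Prime := ⟨hpp⟩
  obtain ⟨P0⟩ : Nonempty (Sylow p H) := inferInstance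
  obtain ⟨P1⟩ : Nonempty (Sylow p K) := inferInstance
  have hP0n : (P0 : Subgroup H).Normal := ss_sylow_normal hH p (hn ▸ hpd) (hn ▸ hmax) P0
  have hP1n : (P1 : Subgroup K).Normal :=
    ss_sylow_normal hK p (hcard ▸ hn ▸ hpd) (hcard ▸ hn ▸ hmax) P1
  have hKidx : K.index = H.index := by
    have e1 := Subgroup.card_mul_index H
    have e2 := Subgroup.card_mul_index K
    rw [← hcard, ← e1] at e2
    exact Nat.eq_of_mul_eq_mul_left Nat.card_pos e2
  obtain ⟨S0, hS0⟩ := exists_sylow_of_hall H hHall p (hn ▸ hpd) P0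
  obtain ⟨S1, hS1⟩ := exists_sylow_of_hall K (by rw [← hcard, hKidx]; exact hHall) p
    (hcard ▸ hn ▸ hpd) P1
  obtain ⟨g, hg⟩ := MulAction.exists_smul_eq G S0 S1
  have hg' : MulAut.conj g • (S0 : Subgroup G) = (S1 : Subgroup G) := by
    rw [← hg]; rfl
  obtain ⟨P, hP⟩ : ∃ P : Subgroup G, P = (S1 : Subgroup G) := ⟨_, rfl⟩
  obtain ⟨H1, hH1⟩ : ∃ H1 : Subgroup G, H1 = MulAut.conj g • H := ⟨_, rfl⟩
  suffices hs : ∃ x : G, MulAut.conj x • H1 = K by
    obtain ⟨x, hx⟩ := hs
    refine ⟨x * g, ?_⟩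
    rw [map_mul, mul_smul, ← hH1, hx]
  have hH1ss : Cfsg.IsSupersolvable H1 := by
    rw [hH1]
    exact ss_of_mulEquiv (Subgroup.equivSMul (MulAut.conj g) H) hH
  have hH1card : Nat.card H1 = n := by rw [hH1, card_conj, hn]
  have hKcard : Nat.card K = n := by rw [← hcard, hn]
  have hPK : P ≤ K := by
    rw [hP, hS1]
    exact Subgroup.map_subtype_le _
  have hS0H : (S0 : Subgroup G) ≤ H := by
    rw [hS0]
    exact Subgroup.map_subtype_le _
  have hPH1 : P ≤ H1 := by
    rw [hP, ← hg', hH1]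
    exact Subgroup.pointwise_smul_le_pointwise_smul_iff.mpr hS0H
  have hKN : K ≤ Subgroup.normalizer (P : Set G) := by
    apply le_normalizer_of_conj_mem
    intro k hk y hy
    rw [hP, hS1] at hy ⊢
    obtain ⟨y', hy', rfl⟩ := hy
    exact ⟨⟨k, hk⟩ * y' * ⟨k, hk⟩⁻¹, hP1n.conj_mem y' hy' ⟨k, hk⟩, rfl⟩
  have hHN0 : H ≤ Subgroup.normalizer ((S0 : Subgroup G) : Set G) := by
    apply le_normalizer_of_conj_mem
    intro k hk y hy
    rw [hS0] at hy ⊢
    obtain ⟨y', hy', rfl⟩ := hy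
    exact ⟨⟨k, hk⟩ * y' * ⟨k, hk⟩⁻¹, hP0n.conj_mem y' hy' ⟨k, hk⟩, rfl⟩
  have hH1N : H1 ≤ Subgroup.normalizer (P : Set G) := by
    apply le_normalizer_of_conj_mem
    intro k hk y hy
    rw [hH1] at hk
    rw [hP, ← hg'] at hy ⊢
    obtain ⟨k', hk', rfl⟩ := hk
    obtain ⟨y', hy', rfl⟩ := hy
    have h3 : k' * y' * k'⁻¹ ∈ (S0 : Subgroup G) :=
      (Subgroup.mem_normalizer_iff.mp (hHN0 hk') y').mp hy'
    refine ⟨k' * y' * k'⁻¹, h3, ?_⟩
    simp only [MulDistribMulAction.toMonoidEnd_apply, MulDistribMulAction.toMonoidHom_apply,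
      MulAut.smul_def, MulAut.conj_apply]
    group
  obtain ⟨N, hN⟩ : ∃ N : Subgroup G, N = Subgroup.normalizer (P : Set G) := ⟨_, rfl⟩
  rw [← hN] at hKN hH1N
  haveI hPXn : (P.subgroupOf N).Normal := by rw [hN]; exact Subgroup.normal_in_normalizer
  obtain ⟨HX, hHX⟩ : ∃ HX : Subgroup N, HX = H1.subgroupOf N := ⟨_, rfl⟩
  obtain ⟨KX, hKX⟩ : ∃ KX : Subgroup N, KX = K.subgroupOf N := ⟨_, rfl⟩
  have hPHX : P.subgroupOf N ≤ HX := by
    intro y hy
    rw [hHX]
    exact Subgroup.mem_subgroupOf.mpr (hPH1 (Subgroup.mem_subgroupOf.mp hy))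
  have hPKX : P.subgroupOf N ≤ KX := by
    intro y hy
    rw [hKX]
    exact Subgroup.mem_subgroupOf.mpr (hPK (Subgroup.mem_subgroupOf.mp hy))
  have hHXcard : Nat.card HX = n := by
    rw [hHX, Nat.card_congr (Subgroup.subgroupOfEquivOfLe hH1N).toEquiv, hH1card]
  have hKXcard : Nat.card KX = n := by
    rw [hKX, Nat.card_congr (Subgroup.subgroupOfEquivOfLe hKN).toEquiv, hKcard]
  have hPXcard : 2 ≤ Nat.card (P.subgroupOf N) := by
    have hne : P.subgroupOf N ≠ ⊥ := by
      intro h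
      have hPN : P ≤ N := hPK.trans hKN
      rw [Subgroup.subgroupOf_eq_bot, disjoint_iff, inf_eq_left.mpr hPN] at h
      have hdG : p ∣ Nat.card G := (hKcard ▸ hpd : p ∣ Nat.card K).trans (Subgroup.card_subgroup_dvd_card K)
      exact S1.ne_bot_of_dvd_card hdG (hP ▸ h)
    have h1 : Nat.card (P.subgroupOf N) ≠ 1 := fun h => hne (Subgroup.card_eq_one.mp h)
    have h0 : 0 < Nat.card (P.subgroupOf N) := Nat.card_pos
    omega
  obtain ⟨hc1, hi1⟩ := card_map_mk (P.subgroupOf N) HX hPHX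
  obtain ⟨hc2, hi2⟩ := card_map_mk (P.subgroupOf N) KX hPKX
  have hlt : Nat.card (HX.map (QuotientGroup.mk' (P.subgroupOf N))) < n := by
    rw [hHXcard] at hc1
    by_contra hge
    push Not at hge
    have : n * 2 ≤ Nat.card (HX.map (QuotientGroup.mk' (P.subgroupOf N))) * Nat.card (P.subgroupOf N) :=
      Nat.mul_le_mul hge hPXcard
    omega
  have hssH : Cfsg.IsSupersolvable (HX.map (QuotientGroup.mk' (P.subgroupOf N))) := by
    apply ss_of_surj ((QuotientGroup.mk' (P.subgroupOf N)).subgroupMap HX)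
      ((QuotientGroup.mk' (P.subgroupOf N)).subgroupMap_surjective HX)
    rw [hHX]
    exact ss_of_mulEquiv (Subgroup.subgroupOfEquivOfLe hH1N).symm hH1ss
  have hssK : Cfsg.IsSupersolvable (KX.map (QuotientGroup.mk' (P.subgroupOf N))) := by
    apply ss_of_surj ((QuotientGroup.mk' (P.subgroupOf N)).subgroupMap KX)
      ((QuotientGroup.mk' (P.subgroupOf N)).subgroupMap_surjective KX)
    rw [hKX]
    exact ss_of_mulEquiv (Subgroup.subgroupOfEquivOfLe hKN).symm hK
  have hcc : Nat.card (HX.map (QuotientGroup.mk' (P.subgroupOf N))) =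
      Nat.card (KX.map (QuotientGroup.mk' (P.subgroupOf N))) := by
    apply Nat.eq_of_mul_eq_mul_right (show 0 < Nat.card (P.subgroupOf N) by omega)
    rw [hc1, hc2, hHXcard, hKXcard]
  have hcop : (Nat.card (HX.map (QuotientGroup.mk' (P.subgroupOf N)))).Coprime
      (HX.map (QuotientGroup.mk' (P.subgroupOf N))).index := by
    have hH1idx : H1.index = H.index := by
      have e1 := Subgroup.card_mul_index H
      have e2 := Subgroup.card_mul_index H1
      rw [hH1card, ← hn, ← e1] at e2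
      exact Nat.eq_of_mul_eq_mul_left Nat.card_pos e2
    have d1 : Nat.card (HX.map (QuotientGroup.mk' (P.subgroupOf N))) ∣ Nat.card H := by
      rw [hn, ← hHXcard, ← hc1]
      exact Dvd.intro _ rfl
    have d2 : (HX.map (QuotientGroup.mk' (P.subgroupOf N))).index ∣ H.index := by
      rw [hi1, hHX, ← hH1idx, ← Subgroup.relIndex_mul_index hH1N]
      exact Dvd.intro _ rfl
    exact Nat.Coprime.coprime_dvd_left d1 (Nat.Coprime.coprime_dvd_right d2 hHall)
  obtain ⟨xb, hxb⟩ := ih _ hlt (N ⧸ P.subgroupOf N) _ _ rfl hssH hssK hcc hcop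
  obtain ⟨x, rfl⟩ := QuotientGroup.mk'_surjective _ xb
  refine ⟨(x : G), ?_⟩
  apply Subgroup.eq_of_le_of_card_ge
  · rintro _ ⟨h, hh, rfl⟩
    have h1 : QuotientGroup.mk' (P.subgroupOf N) (x * ⟨h, hH1N hh⟩ * x⁻¹) ∈
        KX.map (QuotientGroup.mk' (P.subgroupOf N)) := by
      rw [← hxb]
      refine ⟨QuotientGroup.mk' (P.subgroupOf N) ⟨h, hH1N hh⟩, Subgroup.mem_map_of_mem _ ?_, ?_⟩
      · rw [hHX]; exact Subgroup.mem_subgroupOf.mpr hh
      · simp
    obtain ⟨k, hk, hke⟩ := h1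
    have h2 : k⁻¹ * (x * ⟨h, hH1N hh⟩ * x⁻¹) ∈ P.subgroupOf N := by
      rw [← QuotientGroup.eq_one_iff, ← QuotientGroup.mk'_apply, map_mul, map_inv, hke, inv_mul_cancel]
    have h3 : (k : G)⁻¹ * ((x : G) * h * (x : G)⁻¹) ∈ K := hPK (by simpa using Subgroup.mem_subgroupOf.mp h2)
    have h4 : (k : G) ∈ K := by rw [hKX] at hk; exact Subgroup.mem_subgroupOf.mp hk
    have h5 := K.mul_mem h4 h3
    simpa using h5
  · rw [card_conj, hH1card, hKcard]

/-- Let H and K be supersolvable subgroups of a finite group G of the same order, that order being coprime to their index. Then H and K are conjugate in G. -/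
theorem result {G : Type*} [Group G] [Finite G] (H K : Subgroup G) (hH : Cfsg.IsSupersolvable H) (hK : Cfsg.IsSupersolvable K) (hcard : Nat.card H = Nat.card K) (hHall : (Nat.card H).Coprime H.index) : ∃ x : G, MulAut.conj x • H = K := by
  exact main _ G H K rfl hH hK hcard hHall

end Cfsg.Agent.S0582
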