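import Cfsg.Statements.S0586
import Cfsg.Agent.Lib.Helper5.Frattini
import Cfsg.Agent.Lib.Helper5.Basic
import Cfsg.Agent.S0585
import Mathlib.GroupTheory.GroupAction.ConjAct

set_option autoImplicit false
open Cfsg

namespace Cfsg.Agent.S0586

/-- If the Frattini subgroup of a finite group G is trivial, then the Fitting subgroup of G equals the join of all abelian minimal normal subgroups of G. -/
theorem result {G : Type*} [Group G] [Finite G] (hΦ : frattini G = ⊥) : Cfsg.fittingSubgroup G = sSup {N : Subgroup G | N.Normal ∧ N ≠ ⊥ ∧ IsMulCommutative N ∧ ∀ K : Subgroup G, K.Normal → K ≤ N → K = ⊥ ∨ K = N} := by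
  classical
  apply le_antisymm
  · unfold Cfsg.fittingSubgroup
    apply sSup_le
    rintro N ⟨hNn, hNnil⟩
    have hcomm : commutator N ≤ frattini N := by
      unfold frattini Order.radical
      rw [le_iInf₂_iff]
      intro M hM
      have htf := (Group.isNilpotent_of_finite_tfae (G := N)).out 0 2
      have hMn : M.Normal := htf.mp hNnil M hM
      obtain ⟨x, hx⟩ : ∃ x, x ∉ M := by
        by_contra hcon
        push Not at hcon
        exact hM.1 (eq_top_iff.mpr fun x _ => hcon x)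
      have htop : M ⊔ Subgroup.zpowers x = ⊤ :=
        hM.2 _ (lt_of_le_of_ne le_sup_left
          (fun e => hx (e ▸ Subgroup.mem_sup_right (Subgroup.mem_zpowers x))))
      exact Subgroup.Normal.commutator_le_of_self_sup_commutative_eq_top htop inferInstance
    have hfr : (frattini N).map N.subtype ≤ frattini G :=
      Cfsg.Agent.Lib.Helper5.le_frattini_of_le_map_frattini _ N le_rfl
    have hNab : IsMulCommutative N := by
      refine ⟨⟨fun a b => ?_⟩⟩
      have h1 : a * b * a⁻¹ * b⁻¹ ∈ commutator N := Subgroup.commutator_mem_commutator (Subgroup.mem_top a) (Subgroup.mem_top b)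
      have h2 : (N.subtype (a * b * a⁻¹ * b⁻¹)) ∈ frattini G := hfr ⟨_, hcomm h1, rfl⟩
      rw [hΦ, Subgroup.mem_bot] at h2
      have h3 : a * b * a⁻¹ * b⁻¹ = 1 := Subtype.ext h2
      exact commutatorElement_eq_one_iff_mul_comm.mp h3
    set T : Subgroup G := sSup {M : Subgroup G | M.Normal ∧ M ≠ ⊥ ∧ M ≤ N ∧
      ∀ K : Subgroup G, K.Normal → K ≤ M → K = ⊥ ∨ K = M} with hT
    have hTN : T ≤ N := sSup_le fun M hM => hM.2.2.1
    have hTn : T.Normal := Subgroup.sSup_normal _ fun M hM => hM.1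
    have hTab : IsMulCommutative T := Cfsg.Agent.Lib.Helper5.comm_of_le hTN hNab
    obtain ⟨H, hH⟩ := Cfsg.Agent.S0585.result hΦ T
    have hsup : T ⊔ H = ⊤ := hH.sup_eq_top
    have hinf : T ⊓ H = ⊥ := disjoint_iff.mp hH.disjoint
    have hDn : (N ⊓ H).Normal := by
      constructor
      intro x hx g
      have hg : g ∈ T ⊔ H := hsup ▸ Subgroup.mem_top g
      obtain ⟨a, ha, h, hh, rfl⟩ := Subgroup.mem_sup_of_normal_left.mp hg
      have h1 : h * x * h⁻¹ ∈ N ⊓ H :=
        ⟨hNn.conj_mem x hx.1 h, H.mul_mem (H.mul_mem hh hx.2) (H.inv_mem hh)⟩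
      have h2 : a * h * x * (a * h)⁻¹ = h * x * h⁻¹ := by
        have := setLike_mul_comm (hTN ha) h1.1
        calc a * h * x * (a * h)⁻¹ = (a * (h * x * h⁻¹)) * a⁻¹ := by group
          _ = ((h * x * h⁻¹) * a) * a⁻¹ := by rw [this]
          _ = h * x * h⁻¹ := by group
      rw [h2]; exact h1
    have hD : N ⊓ H = ⊥ := by
      by_contra hne
      obtain ⟨M, hMn, hM1, hMD, hMmin⟩ :=
        Cfsg.Agent.Lib.Helper5.exists_minimal_normal_le (N ⊓ H) hDn hne
      have hMT : M ≤ T := le_sSup ⟨hMn, hM1, hMD.trans inf_le_left, hMmin⟩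
      have : M ≤ T ⊓ H := le_inf hMT (hMD.trans inf_le_right)
      rw [hinf] at this
      exact hM1 (le_bot_iff.mp this)
    have hNT : N ≤ T := by
      intro n hn
      have hg : n ∈ T ⊔ H := hsup ▸ Subgroup.mem_top n
      obtain ⟨a, ha, h, hh, rfl⟩ := Subgroup.mem_sup_of_normal_left.mp hg
      have h1 : h ∈ N ⊓ H := by
        refine ⟨?_, hh⟩
        have : h = a⁻¹ * (a * h) := by group
        rw [this]
        exact N.mul_mem (N.inv_mem (hTN ha)) hn
      rw [hD, Subgroup.mem_bot] at h1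
      rw [h1, mul_one]; exact ha
    refine hNT.trans (sSup_le_sSup ?_)
    rintro M ⟨hMn, hM1, hMN, hMmin⟩
    exact ⟨hMn, hM1, Cfsg.Agent.Lib.Helper5.comm_of_le hMN hNab, hMmin⟩
  · apply sSup_le_sSup
    rintro M ⟨hMn, _, hMab, _⟩
    exact ⟨hMn, Cfsg.Agent.Lib.Helper5.isNilpotent_of_comm hMab⟩

end Cfsg.Agent.S0586
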