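import Cfsg.Statements.S0587
import Mathlib
import Cfsg.Agent.S0549
import Cfsg.Agent.S0551
import Cfsg.Agent.S0568
import Cfsg.Agent.Lib.Helper4.Basic
import Cfsg.Agent.Lib.Helper4.Supersolvable3
import Cfsg.Agent.Lib.Helper23.Fitting

set_option autoImplicit false
open Cfsg

namespace Cfsg.Agent.S0587

open Cfsg.Agent.Lib.Helper4 Cfsg.Agent.Lib.Helper23

universe u

theorem main {G : Type u} [Group G] [Finite G] (p : ℕ) [Fact p.Prime] (L : Subgroup G)
    (hLdef : L = Cfsg.pCore p G) (hL : L ≠ ⊥)
    (M : Subgroup G) (hM : IsCoatom M) (hcore : M.normalCore = ⊥) :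
    Cfsg.IsElementaryAbelian p L ∧ Subgroup.IsComplement' L M ∧
    (∀ K : Subgroup G, K.Normal → K ≤ L → K = ⊥ ∨ K = L) ∧
    Subgroup.centralizer (L : Set G) = L ∧
    ∀ (q : ℕ) [Fact q.Prime], Cfsg.pCore q ↥M ≠ ⊥ → Nat.card L % q = 1 % q ∧ q ≠ p := by
  haveI hLn : L.Normal := hLdef ▸ pCore_normal' p G
  have hLp : IsPGroup p L := hLdef ▸ isPGroup_pCore p G
  haveI hLnil : Group.IsNilpotent L := hLp.isNilpotent
  have hLM : L ⊓ M = ⊥ := Cfsg.Agent.S0551.nilp_inf M hM hcore L
  have hsup : ∀ K : Subgroup G, K.Normal → K ≠ ⊥ → K ⊔ M = ⊤ := by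
    intro K hK hKb
    by_contra hne
    have h1 : M ≤ K ⊔ M := le_sup_right
    have h2 : K ⊔ M = M := by
      rcases h1.lt_or_eq with h | h
      · exact absurd (hM.2 _ h) hne
      · exact h.symm
    have h3 : K ≤ M := h2 ▸ le_sup_left
    have h4 : K ≤ M.normalCore := Subgroup.normal_le_normalCore.mpr h3
    rw [hcore, le_bot_iff] at h4
    exact hKb h4
  have hLMt : L ⊔ M = ⊤ := hsup L hLn hL
  have hmin : ∀ K : Subgroup G, K.Normal → K ≤ L → K = ⊥ ∨ K = L := by
    intro K hK hKL
    by_cases hKb : K = ⊥
    · exact Or.inl hKb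
    right
    apply le_antisymm hKL
    intro y hy
    have hy' : y ∈ K ⊔ M := hsup K hK hKb ▸ Subgroup.mem_top y
    rw [Subgroup.mem_sup_of_normal_left] at hy'
    obtain ⟨k, hk, m, hm, e⟩ := hy'
    have hm' : m ∈ L ⊓ M := by
      refine ⟨?_, hm⟩
      have : m = k⁻¹ * y := by rw [← e]; group
      rw [this]
      exact L.mul_mem (L.inv_mem (hKL hk)) hy
    rw [hLM, Subgroup.mem_bot] at hm'
    rw [← e, hm', mul_one]
    exact hk
  have hcommL : ⁅L, L⁆ = ⊥ := by
    rcases hmin ⁅L, L⁆ inferInstance (Subgroup.commutator_le_left L L) with h | h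
    · exact h
    · exact absurd (Cfsg.Agent.S0568.comm_ne L L hLnil le_rfl h) hL
  have hLC : L ≤ Subgroup.centralizer (L : Set G) :=
    Subgroup.commutator_eq_bot_iff_le_centralizer.mp hcommL
  have hcomm : ∀ x ∈ L, ∀ y ∈ L, x * y = y * x := by
    intro x hx y hy
    exact (Subgroup.mem_centralizer_iff.mp (hLC hx) y hy).symm
  have hCL : Subgroup.centralizer (L : Set G) = L := by
    obtain ⟨-, h2⟩ := Cfsg.Agent.S0549.result M hM hcore L hL
    rcases h2 with h | ⟨-, h⟩
    · exfalso
      rw [h, le_bot_iff] at hLC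
      exact hL hLC
    · rcases h L hLn hLC with h' | h'
      · exact absurd h' hL
      · exact h'.symm
  have hexp : ∀ x ∈ L, x ^ p = 1 := by
    let N : Subgroup G :=
      { carrier := {x | x ∈ L ∧ x ^ p = 1}
        mul_mem' := by
          rintro a b ⟨ha, ha'⟩ ⟨hb, hb'⟩
          refine ⟨L.mul_mem ha hb, ?_⟩
          have : Commute a b := hcomm a ha b hb
          rw [this.mul_pow, ha', hb', one_mul]
        one_mem' := ⟨L.one_mem, one_pow p⟩
        inv_mem' := by
          rintro a ⟨ha, ha'⟩
          exact ⟨L.inv_mem ha, by rw [inv_pow, ha', inv_one]⟩ }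
    have hNn : N.Normal := by
      constructor
      rintro x ⟨hx, hx'⟩ g
      exact ⟨hLn.conj_mem x hx g, by rw [conj_pow, hx']; group⟩
    have hNb : N ≠ ⊥ := by
      have hpd : p ∣ Nat.card L := by
        obtain ⟨k, hk⟩ := IsPGroup.iff_card.mp hLp
        rw [hk]
        apply dvd_pow_self
        rintro rfl
        rw [pow_zero] at hk
        exact hL (Subgroup.card_eq_one.mp hk)
      obtain ⟨z, hz⟩ := exists_prime_orderOf_dvd_card' p hpd
      intro h
      have hzN : (z : G) ∈ N := by
        refine ⟨z.2, ?_⟩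
        have := pow_orderOf_eq_one z
        rw [hz] at this
        exact_mod_cast congrArg Subtype.val this
      rw [h, Subgroup.mem_bot] at hzN
      have : z = 1 := Subtype.ext hzN
      rw [this, orderOf_one] at hz
      exact (Fact.out : p.Prime).one_lt.ne hz
    rcases hmin N hNn (fun x hx => hx.1) with h | h
    · exact absurd h hNb
    · intro x hx
      have : x ∈ N := h ▸ hx
      exact this.2
  refine ⟨⟨?_, hexp⟩, ?_, hmin, hCL, ?_⟩
  · rw [isMulCommutative_iff]
    intro x y
    exact Subtype.ext (hcomm x x.2 y y.2)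
  · apply Subgroup.isComplement'_of_disjoint_and_mul_eq_univ (disjoint_iff.mpr hLM)
    rw [← Subgroup.normal_mul, hLMt]
    rfl
  · intro q _ hR
    obtain ⟨R, hRdef⟩ : ∃ R, R = (Cfsg.pCore q ↥M).map M.subtype := ⟨_, rfl⟩
    have hRM : R ≤ M := by rw [hRdef]; exact Subgroup.map_subtype_le _
    have hRb : R ≠ ⊥ := by
      rw [hRdef]
      intro h
      rw [Subgroup.map_eq_bot_iff_of_injective _ M.subtype_injective] at h
      exact hR h
    have hRq : IsPGroup q R := by rw [hRdef]; exact (isPGroup_pCore q M).map _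
    have hRnorm : ∀ m ∈ M, ∀ r ∈ R, m * r * m⁻¹ ∈ R := by
      intro m hm r hr
      rw [hRdef] at hr ⊢
      obtain ⟨r', hr', rfl⟩ := hr
      exact ⟨⟨m, hm⟩ * r' * ⟨m, hm⟩⁻¹, (pCore_normal' q M).conj_mem r' hr' ⟨m, hm⟩, rfl⟩
    have hRL : ¬ R ≤ L := by
      intro h
      have : R ≤ L ⊓ M := le_inf h hRM
      rw [hLM, le_bot_iff] at this
      exact hRb this
    constructor
    · -- fixed points
      obtain ⟨F, hF⟩ : ∃ F, F = L ⊓ Subgroup.centralizer (R : Set G) := ⟨_, rfl⟩
      have hFn : F.Normal := by
        apply normal_of_decomp F L M hLMt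
        · intro a ha n hn
          rw [hF] at hn
          exact hcomm a ha n hn.1
        · intro b hb n hn
          rw [hF] at hn ⊢
          refine Subgroup.mem_inf.mpr ⟨hLn.conj_mem n hn.1 b, ?_⟩
          rw [Subgroup.mem_centralizer_iff]
          intro r hr
          have h1 := hRnorm b⁻¹ (M.inv_mem hb) r hr
          have h2 := Subgroup.mem_centralizer_iff.mp hn.2 _ h1
          rw [inv_inv] at h2
          calc r * (b * n * b⁻¹) = b * ((b⁻¹ * r * b) * n) * b⁻¹ := by group
            _ = b * (n * (b⁻¹ * r * b)) * b⁻¹ := by rw [h2]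
            _ = _ := by group
      have hFb : F = ⊥ := by
        rcases hmin F hFn (hF ▸ inf_le_left) with h | h
        · exact h
        · exfalso
          apply hRL
          have h1 : L ≤ Subgroup.centralizer (R : Set G) := by
            rw [← h, hF]; exact inf_le_right
          rw [Subgroup.le_centralizer_iff] at h1
          rwa [hCL] at h1
      letI : MulAction (Cfsg.pCore q ↥M) L := MulAction.compHom L
        ((MulAut.conjNormal (H := L)).comp (M.subtype.comp (Cfsg.pCore q ↥M).subtype))
      have hmod := (isPGroup_pCore q M).card_modEq_card_fixedPoints L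
      have hone : Nat.card (MulAction.fixedPoints (Cfsg.pCore q ↥M) L) = 1 := by
        rw [Nat.card_eq_one_iff_unique]
        refine ⟨⟨?_⟩, ⟨⟨1, ?_⟩⟩⟩
        · have key : ∀ l : MulAction.fixedPoints (Cfsg.pCore q ↥M) L, (l : L) = 1 := by
            rintro ⟨l, hl⟩
            have hlF : (l : G) ∈ F := by
              rw [hF]
              refine Subgroup.mem_inf.mpr ⟨l.2, ?_⟩
              rw [Subgroup.mem_centralizer_iff]
              intro r hr
              rw [hRdef] at hr
              obtain ⟨r', hr', rfl⟩ := hr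
              have h1 : (⟨r', hr'⟩ : Cfsg.pCore q ↥M) • l = l := hl ⟨r', hr'⟩
              have h2 : ((r' : G) * (l : G) * (r' : G)⁻¹) = l := by
                have := congrArg Subtype.val h1
                exact this
              calc M.subtype r' * (l : G) = ((r' : G) * (l : G) * (r' : G)⁻¹) * r' := by
                    simp
                _ = _ := by rw [h2]; rfl
            rw [hFb, Subgroup.mem_bot] at hlF
            exact Subtype.ext hlF
          intro a b
          exact Subtype.ext ((key a).trans (key b).symm)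
        · intro r
          apply Subtype.ext
          change ((r : M) : G) * ((1 : L) : G) * ((r : M) : G)⁻¹ = ((1 : L) : G)
          simp
      rw [hone] at hmod
      exact hmod
    · rintro rfl
      apply hRL
      have hXp : IsPGroup q (R ⊔ L : Subgroup G) := hRq.to_sup_of_normal_right hLp
      have hXn : (R ⊔ L : Subgroup G).Normal := by
        rw [← Subgroup.normalizer_eq_top_iff, ← top_le_iff, ← hLMt]
        apply sup_le (le_sup_right.trans Subgroup.le_normalizer)
        apply le_normalizer_of_conj_mem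
        intro c hc x hx
        rw [Subgroup.mem_sup_of_normal_right] at hx
        obtain ⟨r, hr, l, hl, rfl⟩ := hx
        have : c * (r * l) * c⁻¹ = (c * r * c⁻¹) * (c * l * c⁻¹) := by group
        rw [this]
        exact Subgroup.mul_mem _ (Subgroup.mem_sup_left (hRnorm c hc r hr))
          (Subgroup.mem_sup_right (hLn.conj_mem l hl c))
      have := le_pCore hXn hXp
      rw [← hLdef] at this
      exact le_sup_left.trans this

/-- Let G be a finite group whose largest normal p-subgroup L is nontrivial, and M a maximal subgroup of G with trivial normal core. Then L is elementary abelian, M is a complement to L, L is a minimal normal subgroup of G, the centralizer of L is L, and for every prime q such that the largest normal q-subgroup of M is nontrivial, the order of L is congruent to 1 modulo q and q ≠ p. -/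
theorem result {G : Type*} [Group G] [Finite G] (p : ℕ) [Fact p.Prime] (hL : Cfsg.pCore p G ≠ ⊥) (M : Subgroup G) (hM : IsCoatom M) (hcore : M.normalCore = ⊥) : Cfsg.IsElementaryAbelian p (Cfsg.pCore p G) ∧ Subgroup.IsComplement' (Cfsg.pCore p G) M ∧ (∀ K : Subgroup G, K.Normal → K ≤ Cfsg.pCore p G → K = ⊥ ∨ K = Cfsg.pCore p G) ∧ Subgroup.centralizer ((Cfsg.pCore p G : Subgroup G) : Set G) = Cfsg.pCore p G ∧ ∀ (q : ℕ) [Fact q.Prime], Cfsg.pCore q ↥M ≠ ⊥ → Nat.card (Cfsg.pCore p G) % q = 1 % q ∧ q ≠ p := by
  exact main p _ rfl hL M hM hcore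

end Cfsg.Agent.S0587
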