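import Cfsg.Statements.S0589
import Mathlib
import Cfsg.Agent.S0034
import Cfsg.Agent.S0035
import Cfsg.Agent.Lib.Helper15.Frob2

set_option autoImplicit false
open Pointwise
open Cfsg

namespace Cfsg.Agent.S0589

/-- Let H be a Frobenius complement in a finite group G and L a subgroup of G whose order divides the order of H. Then L is contained in some conjugate of H. -/
theorem result {G : Type*} [Group G] [Finite G] (H : Subgroup G) (hH : Cfsg.IsFrobeniusComplement H) (L : Subgroup G) (hL : Nat.card L ∣ Nat.card H) : ∃ x : G, L ≤ MulAut.conj x • H := by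
  classical
  obtain ⟨N, hN, -, -⟩ := Cfsg.Agent.S0035.result H hH
  obtain ⟨hc, hmod⟩ := Cfsg.Agent.S0034.result H hH
  have hcN : Nat.card N = H.index := by
    rw [← hc]
    exact Nat.card_congr (Equiv.setCongr hN)
  have hcop : Nat.Coprime (Nat.card H) H.index := by
    have h1 : Nat.gcd (Nat.card H) H.index = Nat.gcd (Nat.card H) 1 := by
      rw [Nat.gcd_rec (Nat.card H) H.index, Nat.gcd_rec (Nat.card H) 1, hmod]
    rw [Nat.Coprime, h1, Nat.gcd_one_right]
  have key : ∀ u ∈ L, u ≠ 1 → ∃ g, g⁻¹ * u * g ∈ H := by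
    intro u hu hu1
    by_contra hcon
    push Not at hcon
    have huN : u ∈ N := by
      rw [← SetLike.mem_coe, hN]
      exact Cfsg.Agent.Lib.Helper15.mem_frobeniusKernel_iff.mpr (Or.inr hcon)
    have h1 : orderOf u ∣ Nat.card N := by
      have := orderOf_dvd_natCard (⟨u, huN⟩ : N)
      rwa [Subgroup.orderOf_mk] at this
    have h2 : orderOf u ∣ Nat.card H := by
      have := orderOf_dvd_natCard (⟨u, hu⟩ : L)
      rw [Subgroup.orderOf_mk] at this
      exact this.trans hL
    rw [hcN] at h1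
    have h3 := Nat.dvd_gcd h2 h1
    rw [hcop] at h3
    exact hu1 (orderOf_eq_one_iff.mp (Nat.dvd_one.mp h3))
  obtain ⟨g, hg⟩ := Cfsg.Agent.Lib.Helper15.exists_conj_le_of_forall hH L key
  refine ⟨g⁻¹, ?_⟩
  intro l hl
  rw [Cfsg.Agent.Lib.Helper15.mem_conj_smul_iff, inv_inv]
  apply hg
  rw [Cfsg.Agent.Lib.Helper15.mem_conj_smul_iff]
  have : g⁻¹ * (g * l * g⁻¹) * g = l := by group
  rw [this]; exact hl

end Cfsg.Agent.S0589
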