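import Cfsg.Statements.S0590

set_option autoImplicit false
open Cfsg

namespace Cfsg.Agent.S0590

/-- Quadratic action on an elementary abelian p-group forces the acting group modulo the kernel of the action to be elementary abelian. -/
theorem result {G : Type*} [Group G] [Finite G] {p : ℕ} [Fact p.Prime] (V H : Subgroup G) (hV : Cfsg.IsElementaryAbelian p V) (hHV : H ≤ Subgroup.normalizer (V : Set G)) (hq : ⁅⁅V, H⁆, H⁆ = ⊥) : ⁅H, H⁆ ≤ Subgroup.centralizer (V : Set G) ∧ ∀ a ∈ H, a ^ p ∈ Subgroup.centralizer (V : Set G) := by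
  haveI := hV.1
  have hcent : ⁅V, H⁆ ≤ Subgroup.centralizer (H : Set G) :=
    Subgroup.commutator_eq_bot_iff_le_centralizer.mp hq
  have hconj : ∀ a ∈ H, ∀ v ∈ V, a * v * a⁻¹ ∈ V := fun a ha v hv =>
    (Subgroup.mem_normalizer_iff.mp (hHV ha) v).mp hv
  have hd : ∀ a ∈ H, ∀ v ∈ V, a * v * a⁻¹ * v⁻¹ ∈ ⁅V, H⁆ := by
    intro a ha v hv
    have h2 := inv_mem (Subgroup.commutator_mem_commutator hv ha)
    rwa [commutatorElement_inv] at h2
  have hdV : ∀ a ∈ H, ∀ v ∈ V, a * v * a⁻¹ * v⁻¹ ∈ V := fun a ha v hv =>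
    mul_mem (hconj a ha v hv) (inv_mem hv)
  have hdc : ∀ a ∈ H, ∀ v ∈ V, ∀ b ∈ H, b * (a * v * a⁻¹ * v⁻¹) = (a * v * a⁻¹ * v⁻¹) * b :=
    fun a ha v hv b hb => hcent (hd a ha v hv) b hb
  -- conjugation by a product
  have hmul : ∀ a ∈ H, ∀ b ∈ H, ∀ v ∈ V,
      (a * b) * v * (a * b)⁻¹ = (b * v * b⁻¹ * v⁻¹) * (a * v * a⁻¹ * v⁻¹) * v := by
    intro a ha b hb v hv
    calc (a * b) * v * (a * b)⁻¹ = (a * (b * v * b⁻¹ * v⁻¹)) * v * a⁻¹ := by group
      _ = ((b * v * b⁻¹ * v⁻¹) * a) * v * a⁻¹ := by rw [hdc b hb v hv a ha]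
      _ = _ := by group
  constructor
  · rw [Subgroup.commutator_le]
    intro a ha b hb
    rw [Subgroup.mem_centralizer_iff]
    intro v hv
    have hw : (b * a)⁻¹ * v * (b * a) ∈ V :=
      (Subgroup.mem_normalizer_iff''.mp (hHV (mul_mem hb ha)) v).mp hv
    have h1 := hmul a ha b hb _ hw
    have h2 := hmul b hb a ha _ hw
    have h3 : (a * b) * ((b * a)⁻¹ * v * (b * a)) * (a * b)⁻¹ =
        (b * a) * ((b * a)⁻¹ * v * (b * a)) * (b * a)⁻¹ := by
      rw [h1, h2, setLike_mul_comm (hdV b hb _ hw) (hdV a ha _ hw)]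
    have h4 : (b * a) * ((b * a)⁻¹ * v * (b * a)) * (b * a)⁻¹ = v := by group
    rw [h4] at h3
    rw [commutatorElement_def]
    calc v * (a * b * a⁻¹ * b⁻¹)
        = ((a * b) * ((b * a)⁻¹ * v * (b * a)) * (a * b)⁻¹) * (a * b * a⁻¹ * b⁻¹) := by rw [h3]
      _ = a * b * a⁻¹ * b⁻¹ * v := by group
  · intro a ha
    have hpow : ∀ n : ℕ, ∀ v ∈ V, a ^ n * v * (a ^ n)⁻¹ = (a * v * a⁻¹ * v⁻¹) ^ n * v := by
      intro n
      induction n with
      | zero => intro v _; simp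
      | succ n ih =>
        intro v hv
        have h1 : a * (a * v * a⁻¹ * v⁻¹) ^ n = (a * v * a⁻¹ * v⁻¹) ^ n * a := by
          have : Commute a (a * v * a⁻¹ * v⁻¹) := hdc a ha v hv a ha
          exact (this.pow_right n)
        calc a ^ (n + 1) * v * (a ^ (n + 1))⁻¹ = a * (a ^ n * v * (a ^ n)⁻¹) * a⁻¹ := by
              rw [pow_succ']; group
          _ = a * ((a * v * a⁻¹ * v⁻¹) ^ n * v) * a⁻¹ := by rw [ih v hv]
          _ = (a * (a * v * a⁻¹ * v⁻¹) ^ n) * v * a⁻¹ := by group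
          _ = ((a * v * a⁻¹ * v⁻¹) ^ n * a) * v * a⁻¹ := by rw [h1]
          _ = (a * v * a⁻¹ * v⁻¹) ^ n * (a * v * a⁻¹ * v⁻¹) * v := by group
          _ = (a * v * a⁻¹ * v⁻¹) ^ (n + 1) * v := by rw [pow_succ]
    rw [Subgroup.mem_centralizer_iff]
    intro v hv
    have h1 := hpow p v hv
    rw [hV.2 _ (hdV a ha v hv), one_mul] at h1
    calc v * a ^ p = (a ^ p * v * (a ^ p)⁻¹) * a ^ p := by rw [h1]
      _ = a ^ p * v := by group

end Cfsg.Agent.S0590
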