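import Cfsg.Statements.S0591

set_option autoImplicit false
open Cfsg

namespace Cfsg.Agent.S0591

/-- For a quadratically acting element a on an elementary abelian p-group V, the fixed points C_V(a) have order at least the square root of the order of V. -/
theorem result {G : Type*} [Group G] [Finite G] {p : ℕ} [Fact p.Prime] (V : Subgroup G) (hV : Cfsg.IsElementaryAbelian p V) (a : G) (ha : a ∈ Subgroup.normalizer (V : Set G)) (hq : ⁅⁅V, Subgroup.zpowers a⁆, Subgroup.zpowers a⁆ = ⊥) : Nat.card V ≤ Nat.card ↥(V ⊓ Subgroup.centralizer (Subgroup.zpowers a : Set G)) ^ 2 := by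
  haveI := hV.1
  set C := V ⊓ Subgroup.centralizer (Subgroup.zpowers a : Set G) with hC
  have hcent : ⁅V, Subgroup.zpowers a⁆ ≤ Subgroup.centralizer (Subgroup.zpowers a : Set G) :=
    Subgroup.commutator_eq_bot_iff_le_centralizer.mp hq
  have hconj : ∀ v ∈ V, a * v * a⁻¹ ∈ V := fun v hv =>
    (Subgroup.mem_normalizer_iff.mp ha v).mp hv
  have hd : ∀ v ∈ V, a * v * a⁻¹ * v⁻¹ ∈ ⁅V, Subgroup.zpowers a⁆ := by
    intro v hv
    have h2 := inv_mem (Subgroup.commutator_mem_commutator hv (Subgroup.mem_zpowers a))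
    rwa [commutatorElement_inv] at h2
  have hdV : ∀ v ∈ V, a * v * a⁻¹ * v⁻¹ ∈ V := fun v hv =>
    mul_mem (hconj v hv) (inv_mem hv)
  let φ : V →* V := MonoidHom.mk' (fun v => ⟨a * v * a⁻¹ * (v : G)⁻¹, hdV v v.2⟩) (by
    intro v w
    apply Subtype.ext
    show a * (v * w : G) * a⁻¹ * (v * w : G)⁻¹ = (a * v * a⁻¹ * (v : G)⁻¹) * (a * w * a⁻¹ * (w : G)⁻¹)
    have h1 : (v : G)⁻¹ * (a * w * a⁻¹) = (a * w * a⁻¹) * (v : G)⁻¹ :=
      setLike_mul_comm (inv_mem v.2) (hconj w w.2)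
    have h2 : (v : G)⁻¹ * (w : G)⁻¹ = (w : G)⁻¹ * (v : G)⁻¹ :=
      setLike_mul_comm (inv_mem v.2) (inv_mem w.2)
    calc a * (v * w : G) * a⁻¹ * (v * w : G)⁻¹
        = a * v * a⁻¹ * ((a * w * a⁻¹) * (v : G)⁻¹) * (w : G)⁻¹ := by
          rw [mul_inv_rev, ← h2]; group
      _ = a * v * a⁻¹ * ((v : G)⁻¹ * (a * w * a⁻¹)) * (w : G)⁻¹ := by rw [h1]
      _ = _ := by group)
  have hker : φ.ker.map V.subtype ≤ C := by
    rintro _ ⟨v, hv, rfl⟩
    refine ⟨v.2, ?_⟩
    have h1 : a * v * a⁻¹ * (v : G)⁻¹ = 1 := congrArg Subtype.val (MonoidHom.mem_ker.mp hv)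
    have h2 : (Subgroup.zpowers a) ≤ Subgroup.centralizer ({(v : G)} : Set G) := by
      rw [Subgroup.zpowers_le, Subgroup.mem_centralizer_singleton_iff]
      calc a * (v : G) = (a * v * a⁻¹ * (v : G)⁻¹) * (v * a) := by group
        _ = v * a := by rw [h1, one_mul]
    intro y hy
    have := h2 hy
    rw [Subgroup.mem_centralizer_singleton_iff] at this
    exact this
  have hrange : φ.range.map V.subtype ≤ C := by
    rintro _ ⟨_, ⟨v, rfl⟩, rfl⟩
    exact ⟨hdV v v.2, hcent (hd v v.2)⟩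
  have h1 : Nat.card φ.ker ≤ Nat.card C := by
    rw [← Subgroup.card_map_of_injective V.subtype_injective]
    exact Subgroup.card_le_of_le hker
  have h2 : Nat.card φ.range ≤ Nat.card C := by
    rw [← Subgroup.card_map_of_injective V.subtype_injective]
    exact Subgroup.card_le_of_le hrange
  have h3 : Nat.card φ.ker * Nat.card φ.range = Nat.card V := by
    rw [← Subgroup.index_ker, Subgroup.card_mul_index]
  rw [← h3, sq]
  exact Nat.mul_le_mul h1 h2

end Cfsg.Agent.S0591
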