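import Cfsg.Statements.S0597
import Cfsg.Agent.Lib.Helper4.BO1
import Cfsg.Agent.Lib.Helper4.Subnormal
import Cfsg.Agent.Lib.Helper17.Core

set_option autoImplicit false
open Cfsg

namespace Cfsg.Agent.S0597

open scoped commutatorElement

/-- the elements normalizing `V` and `W` and acting trivially on `V / W`. -/
def stab {G : Type*} [Group G] (V W : Subgroup G) : Subgroup G where
  carrier := {g | g ∈ Subgroup.normalizer (V : Set G) ∧ g ∈ Subgroup.normalizer (W : Set G) ∧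
    ∀ v ∈ V, ⁅v, g⁆ ∈ W}
  one_mem' := ⟨one_mem _, one_mem _, fun v _ => by simp⟩
  mul_mem' := by
    rintro g h ⟨g1, g2, g3⟩ ⟨h1, h2, h3⟩
    refine ⟨mul_mem g1 h1, mul_mem g2 h2, fun v hv => ?_⟩
    rw [Cfsg.Agent.Lib.Helper5.commutatorElement_mul_right]
    exact W.mul_mem (g3 v hv) ((Subgroup.mem_normalizer_iff.mp g2 _).mp (h3 v hv))
  inv_mem' := by
    rintro g ⟨g1, g2, g3⟩
    refine ⟨inv_mem g1, inv_mem g2, fun v hv => ?_⟩
    rw [Cfsg.Agent.Lib.Helper5.commutatorElement_inv_right]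
    exact (Subgroup.mem_normalizer_iff.mp (inv_mem g2) _).mp (W.inv_mem (g3 v hv))

theorem conj_mem_stab {G : Type*} [Group G] {V W : Subgroup G} {g n : G} (hg : g ∈ stab V W)
    (n1 : n ∈ Subgroup.normalizer (V : Set G)) (n2 : n ∈ Subgroup.normalizer (W : Set G)) :
    n * g * n⁻¹ ∈ stab V W := by
  obtain ⟨g1, g2, g3⟩ := hg
  refine ⟨mul_mem (mul_mem n1 g1) (inv_mem n1), mul_mem (mul_mem n2 g2) (inv_mem n2), fun v hv => ?_⟩
  have h1 : ⁅v, n * g * n⁻¹⁆ = n * ⁅n⁻¹ * v * n⁻¹⁻¹, g⁆ * n⁻¹ := by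
    simp only [commutatorElement_def]; group
  rw [h1]
  exact (Subgroup.mem_normalizer_iff.mp n2 _).mp
    (g3 _ ((Subgroup.mem_normalizer_iff.mp (inv_mem n1) _).mp hv))

/-- If two subnormal subgroups of a faithful group on an elementary abelian p-group satisfy [V, E₁, E₂] = 1, then their commutator lies in the largest normal p-subgroup. -/
theorem result {G : Type*} [Group G] [Finite G] {p : ℕ} [Fact p.Prime] (V H : Subgroup G) (hV : Cfsg.IsElementaryAbelian p V) (hHV : H ≤ Subgroup.normalizer (V : Set G)) (hf : H ⊓ Subgroup.centralizer (V : Set G) = ⊥) (E₁ E₂ : Subgroup G) (h₁ : E₁ ≤ H) (h₂ : E₂ ≤ H) (hs₁ : (E₁.subgroupOf H).IsSubnormal) (hs₂ : (E₂.subgroupOf H).IsSubnormal) (hc : ⁅⁅V, E₁⁆, E₂⁆ = ⊥) : ⁅E₁, E₂⁆ ≤ (Cfsg.pCore p H).map H.subtype := by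
  classical
  have hE₁V := h₁.trans hHV
  have hE₂V := h₂.trans hHV
  obtain ⟨W, hW⟩ : ∃ W, W = ⁅V, E₁⁆ := ⟨_, rfl⟩
  rw [← hW] at hc
  have hWV : W ≤ V := hW ▸ Cfsg.Agent.Lib.Helper5.commutator_le_of_le_normalizer hE₁V le_rfl
  have hE₁W : E₁ ≤ Subgroup.normalizer (W : Set G) :=
    hW ▸ Cfsg.Agent.Lib.Helper5.right_le_normalizer_commutator V E₁
  have hE₂C : E₂ ≤ Subgroup.centralizer (W : Set G) :=
    Subgroup.le_centralizer_iff.mp (Subgroup.commutator_eq_bot_iff_le_centralizer.mp hc)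
  have hE₂W : E₂ ≤ Subgroup.normalizer (W : Set G) :=
    Cfsg.Agent.Lib.Helper5.le_normalizer_of_le_centralizer hE₂C
  have hE₁S : E₁ ≤ stab V W := fun e he =>
    ⟨hE₁V he, hE₁W he, fun v hv => hW ▸ Subgroup.commutator_mem_commutator hv he⟩
  have hXS : ⁅E₁, E₂⁆ ≤ stab V W := by
    rw [Subgroup.commutator_le]
    intro a ha b hb
    have : ⁅a, b⁆ = a * (b * a⁻¹ * b⁻¹) := by rw [commutatorElement_def]; group
    rw [this]
    exact mul_mem (hE₁S ha) (conj_mem_stab (inv_mem (hE₁S ha)) (hE₂V hb) (hE₂W hb))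
  have hXC : ⁅E₁, E₂⁆ ≤ Subgroup.centralizer (W : Set G) := by
    rw [Subgroup.commutator_le]
    intro a ha b hb
    rw [Subgroup.mem_centralizer_iff]
    intro w hw
    have h1 : w * b⁻¹ = b⁻¹ * w := (hE₂C (inv_mem hb) w hw)
    have hw' : a⁻¹ * w * a⁻¹⁻¹ ∈ W := (Subgroup.mem_normalizer_iff.mp (hE₁W (inv_mem ha)) _).mp hw
    have h2 : (a⁻¹ * w * a⁻¹⁻¹) * b = b * (a⁻¹ * w * a⁻¹⁻¹) := hE₂C hb _ hw'
    rw [commutatorElement_def]
    calc w * (a * b * a⁻¹ * b⁻¹) = a * ((a⁻¹ * w * a⁻¹⁻¹) * b) * a⁻¹ * b⁻¹ := by group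
      _ = a * (b * (a⁻¹ * w * a⁻¹⁻¹)) * a⁻¹ * b⁻¹ := by rw [h2]
      _ = a * b * a⁻¹ * (w * b⁻¹) := by group
      _ = a * b * a⁻¹ * b⁻¹ * w := by rw [h1]; group
  have hXH : ⁅E₁, E₂⁆ ≤ H := Cfsg.Agent.Lib.Helper4.BO.commutator_le_of_le h₁ h₂
  have hpow : ∀ x ∈ ⁅E₁, E₂⁆, x ^ p = 1 := by
    intro x hx
    have hmem : x ^ p ∈ H ⊓ Subgroup.centralizer (V : Set G) := by
      refine ⟨H.pow_mem (hXH hx) p, ?_⟩
      show x ^ p ∈ Subgroup.centralizer (V : Set G)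
      rw [Subgroup.mem_centralizer_iff]
      intro v hv
      have hw : ⁅v, x⁆ ∈ W := (hXS hx).2.2 v hv
      have hcw : ⁅v, x⁆ * x = x * ⁅v, x⁆ := hXC hx _ hw
      have key : ∀ k : ℕ, v * x ^ k = ⁅v, x⁆ ^ k * (x ^ k * v) := by
        intro k
        induction k with
        | zero => simp
        | succ k ih =>
          have hck : ⁅v, x⁆ * x ^ k = x ^ k * ⁅v, x⁆ := (Commute.pow_right hcw k)
          have e1 : v * x = ⁅v, x⁆ * (x * v) := by rw [commutatorElement_def]; group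
          calc v * x ^ (k + 1) = (v * x ^ k) * x := by rw [pow_succ]; group
            _ = ⁅v, x⁆ ^ k * x ^ k * (v * x) := by rw [ih]; group
            _ = ⁅v, x⁆ ^ k * (x ^ k * ⁅v, x⁆) * (x * v) := by rw [e1]; group
            _ = ⁅v, x⁆ ^ k * (⁅v, x⁆ * x ^ k) * (x * v) := by rw [hck]
            _ = ⁅v, x⁆ ^ (k + 1) * (x ^ (k + 1) * v) := by rw [pow_succ, pow_succ]; group
      rw [key p, hV.2 _ (hWV hw), one_mul]
    rw [hf] at hmem
    exact Subgroup.mem_bot.mp hmem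
  -- pass to `H`
  have hsn : (E₁.subgroupOf H ⊔ E₂.subgroupOf H).IsSubnormal :=
    Cfsg.Agent.Lib.Helper4.isSubnormal_sup hs₁ hs₂
  have hle : ⁅E₁.subgroupOf H, E₂.subgroupOf H⁆ ≤ E₁.subgroupOf H ⊔ E₂.subgroupOf H :=
    Cfsg.Agent.Lib.Helper4.BO.commutator_le_of_le le_sup_left le_sup_right
  have hsn2 : (⁅E₁.subgroupOf H, E₂.subgroupOf H⁆).IsSubnormal := by
    refine Subgroup.IsSubnormal.step _ _ hle hsn ?_
    rw [Subgroup.normal_subgroupOf_iff_le_normalizer hle]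
    exact sup_le (Cfsg.Agent.Lib.Helper5.left_le_normalizer_commutator _ _)
      (Cfsg.Agent.Lib.Helper5.right_le_normalizer_commutator _ _)
  have hmap : (⁅E₁.subgroupOf H, E₂.subgroupOf H⁆).map H.subtype = ⁅E₁, E₂⁆ := by
    rw [Subgroup.map_commutator, Subgroup.subgroupOf_map_subtype, Subgroup.subgroupOf_map_subtype,
      inf_eq_left.mpr h₁, inf_eq_left.mpr h₂]
  have hpg : IsPGroup p ↥(⁅E₁.subgroupOf H, E₂.subgroupOf H⁆) := by
    intro x
    refine ⟨1, ?_⟩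
    rw [pow_one]
    apply Subtype.ext
    apply Subtype.ext
    have : ((x : ↥H) : G) ∈ ⁅E₁, E₂⁆ := hmap ▸ ⟨x.1, x.2, rfl⟩
    simpa using hpow _ this
  rw [← hmap]
  exact Subgroup.map_mono (Cfsg.Agent.Lib.Helper17.subnormal_pgroup_le_pCore hsn2 hpg)

end Cfsg.Agent.S0597
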