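import Cfsg.Statements.S0603
import Cfsg.Agent.Lib.Helper5.Thompson

set_option autoImplicit false
open Cfsg

namespace Cfsg.Agent.S0603

/-- The Thompson subgroup of any subgroup containing J(G) is J(G) itself. -/
theorem result {G : Type*} [Group G] [Finite G] {p : ℕ} [Fact p.Prime] (U : Subgroup G) (hU : Cfsg.thompsonSubgroup p G ≤ U) : Cfsg.thompsonSubgroupOf p U = Cfsg.thompsonSubgroup p G := by
  obtain ⟨A₀, hA₀⟩ := Cfsg.Agent.Lib.Helper5.maxElemAb_nonempty (G := G) (p := p)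
  rw [Cfsg.Agent.Lib.Helper5.thompsonOf_eq hA₀ ((Cfsg.Agent.Lib.Helper5.le_thompson hA₀).trans hU)]
  unfold Cfsg.thompsonSubgroup
  congr 1
  ext A
  constructor
  · exact fun h => h.1
  · exact fun h => ⟨h, (Cfsg.Agent.Lib.Helper5.le_thompson h).trans hU⟩

end Cfsg.Agent.S0603
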