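import Cfsg.Statements.S0604
import Cfsg.Agent.Lib.Helper5.Thompson

set_option autoImplicit false
open Cfsg

namespace Cfsg.Agent.S0604

/-- The Thompson subgroup of G is the join of the Thompson subgroups of its Sylow p-subgroups. -/
theorem result {G : Type*} [Group G] [Finite G] {p : ℕ} [Fact p.Prime] : Cfsg.thompsonSubgroup p G = ⨆ S : Sylow p G, Cfsg.thompsonSubgroupOf p (S : Subgroup G) := by
  obtain ⟨A₀, hA₀⟩ := Cfsg.Agent.Lib.Helper5.maxElemAb_nonempty (G := G) (p := p)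
  obtain ⟨S₀, hS₀⟩ := (Cfsg.Agent.Lib.Helper5.elemAb_isPGroup hA₀.1).exists_le_sylow
  have key : ∀ S : Sylow p G, ∃ A ∈ Cfsg.maxElementaryAbelianSubgroups p G, A ≤ (S : Subgroup G) := by
    intro S
    obtain ⟨g, hg⟩ := MulAction.exists_smul_eq G S₀ S
    refine ⟨A₀.map (MulAut.conj g).toMonoidHom,
      Cfsg.Agent.Lib.Helper5.maxElemAb_map_equiv (MulAut.conj g) hA₀, ?_⟩
    rw [← hg]
    exact Subgroup.map_mono hS₀
  apply le_antisymm
  · unfold Cfsg.thompsonSubgroup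
    apply sSup_le
    intro A hA
    obtain ⟨S, hS⟩ := (Cfsg.Agent.Lib.Helper5.elemAb_isPGroup hA.1).exists_le_sylow
    refine le_trans ?_ (le_iSup _ S)
    rw [Cfsg.Agent.Lib.Helper5.thompsonOf_eq hA hS]
    exact le_sSup ⟨hA, hS⟩
  · apply iSup_le
    intro S
    obtain ⟨A, hA, hAS⟩ := key S
    rw [Cfsg.Agent.Lib.Helper5.thompsonOf_eq hA hAS]
    exact sSup_le_sSup fun B hB => hB.1

end Cfsg.Agent.S0604
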