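import Cfsg.Statements.S0605
import Cfsg.Agent.Lib.Helper5.Thompson

set_option autoImplicit false
open Cfsg

namespace Cfsg.Agent.S0605

/-- Elements of order p in the centralizer of the Thompson subgroup belong to the Thompson subgroup (so to its centre). -/
theorem result {G : Type*} [Group G] [Finite G] {p : ℕ} [Fact p.Prime] (x : G) (hx : x ∈ Subgroup.centralizer (Cfsg.thompsonSubgroup p G : Set G)) (ho : orderOf x = p) : x ∈ Cfsg.thompsonSubgroup p G := by
  obtain ⟨A, hA⟩ := Cfsg.Agent.Lib.Helper5.maxElemAb_nonempty (G := G) (p := p)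
  have h1 : x ^ p = 1 := by rw [← ho]; exact pow_orderOf_eq_one x
  have h2 : x ∈ Subgroup.centralizer (A : Set G) :=
    Subgroup.centralizer_le (show (A : Set G) ⊆ (Cfsg.thompsonSubgroup p G : Subgroup G) from
      Cfsg.Agent.Lib.Helper5.le_thompson hA) hx
  exact Cfsg.Agent.Lib.Helper5.le_thompson hA (Cfsg.Agent.Lib.Helper5.mem_of_maxElemAb hA h1 h2)

end Cfsg.Agent.S0605
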