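import Cfsg.Statements.S0613
import Cfsg.Agent.Lib.Helper4.BO5

set_option autoImplicit false
open Cfsg

namespace Cfsg.Agent.S0613

/-- A minimal nontrivially-acting best offender and a conjugate of it under a non-centralizing element of the p'-core generate SL(2, p) acting naturally on a plane, and p is 2 or 3. -/
theorem result {G : Type*} [Group G] [Finite G] {p : ℕ} [Fact p.Prime] (V H : Subgroup G) (hV : Cfsg.IsElementaryAbelian p V) (hHV : H ≤ Subgroup.normalizer (V : Set G)) (hf : H ⊓ Subgroup.centralizer (V : Set G) = ⊥) (hS1 : Subgroup.centralizer (Cfsg.pPrimeCore p ↥H : Set ↥H) ≤ Cfsg.pPrimeCore p ↥H) (hS3 : H = ⨆ A : {A : Subgroup G // A ≤ H ∧ Cfsg.IsBestOffenderOn p V A}, (A : Subgroup G)) (hH1 : H ≠ ⊥) (A : Subgroup G) (hAH : A ≤ H) (hA : Cfsg.IsBestOffenderOn p V A) (hAV : ⁅V, A⁆ ≠ ⊥) (hmin : ∀ B : Subgroup G, B ≤ A → Cfsg.IsBestOffenderOn p V B → ⁅V, B⁆ ≠ ⊥ → B =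 A) (x : G) (hx : x ∈ ((Cfsg.pPrimeCore p ↥H).map H.subtype)) (hxA : x ∉ Subgroup.centralizer (A : Set G)) : (p = 2 ∨ p = 3) ∧ Nat.card ↥(⁅V, A ⊔ A.map (MulAut.conj x).toMonoidHom⁆) = p ^ 2 ∧ (A ⊔ A.map (MulAut.conj x).toMonoidHom) ⊓ Subgroup.centralizer ((⁅V, A ⊔ A.map (MulAut.conj x).toMonoidHom⁆ : Subgroup G) : Set G) = ⊥ ∧ Nonempty (↥(A ⊔ A.map (MulAut.conj x).toMonoidHom) ≃* Matrix.SpecialLinearGroup (Fin 2) (ZMod p)) := by
  have S := Cfsg.Agent.Lib.Helper4.BO.setup_of hV hHV hf hS1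
  have hc := Cfsg.Agent.Lib.Helper4.BO.card_of_minimal S hAH hA hAV hmin
  obtain ⟨a, ha, rfl⟩ := Cfsg.Agent.Lib.Helper4.BO.exists_zpowers_eq hc
  have hmap : (Subgroup.zpowers a).map (MulAut.conj x).toMonoidHom = Subgroup.zpowers (x * a * x⁻¹) := by
    rw [MonoidHom.map_zpowers]; rfl
  have hab : x * a * x⁻¹ ≠ a := by
    intro h
    apply hxA
    rw [Subgroup.mem_centralizer_iff]
    intro y hy
    obtain ⟨n, rfl⟩ := Subgroup.mem_zpowers_iff.mp hy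
    exact (Commute.zpow_left (show Commute a x from (mul_inv_eq_iff_eq_mul.mp h).symm) n)
  have D : Cfsg.Agent.Lib.Helper4.BO.PairData p V H _ a (x * a * x⁻¹) x :=
    ⟨S, hAH ha, hA, hc, hx, rfl, hab⟩
  rw [hmap, ← Cfsg.Agent.Lib.Helper4.BO.closure_pair_eq]
  obtain ⟨hp, w1, w2, _, _, C, e, _⟩ := D.main
  exact ⟨hp, C.card, D.faithful, ⟨e⟩⟩

end Cfsg.Agent.S0613
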