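import Cfsg.Statements.S0614
import Cfsg.Agent.Lib.Helper4.BO7

set_option autoImplicit false
open Cfsg

namespace Cfsg.Agent.S0614

/-- The commutator of the p'-core with a minimal nontrivially-acting best offender is a 3-group (when p = 2) or a non-abelian 2-group (when p = 3). -/
theorem result {G : Type*} [Group G] [Finite G] {p : ℕ} [Fact p.Prime] (V H : Subgroup G) (hV : Cfsg.IsElementaryAbelian p V) (hHV : H ≤ Subgroup.normalizer (V : Set G)) (hf : H ⊓ Subgroup.centralizer (V : Set G) = ⊥) (hS1 : Subgroup.centralizer (Cfsg.pPrimeCore p ↥H : Set ↥H) ≤ Cfsg.pPrimeCore p ↥H) (hS3 : H = ⨆ A : {A : Subgroup G // A ≤ H ∧ Cfsg.IsBestOffenderOn p V A}, (A : Subgroup G)) (hH1 : H ≠ ⊥) (A : Subgroup G) (hAH : A ≤ H) (hA : Cfsg.IsBestOffenderOn p V A) (hAV : ⁅V, A⁆ ≠ ⊥) (hmin : ∀ B : Subgroup G, B ≤ A → Cfsg.IsBestOffenderOn p V B → ⁅V, B⁆ ≠ ⊥ → B = A) : (p = 2 ∧ IsPGroup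 3 ↥(⁅((Cfsg.pPrimeCore p ↥H).map H.subtype), A⁆)) ∨ (p = 3 ∧ IsPGroup 2 ↥(⁅((Cfsg.pPrimeCore p ↥H).map H.subtype), A⁆) ∧ ¬ IsMulCommutative ↥(⁅((Cfsg.pPrimeCore p ↥H).map H.subtype), A⁆)) := by
  have S := Cfsg.Agent.Lib.Helper4.BO.setup_of hV hHV hf hS1
  have hc := Cfsg.Agent.Lib.Helper4.BO.card_of_minimal S hAH hA hAV hmin
  obtain ⟨a, ha, rfl⟩ := Cfsg.Agent.Lib.Helper4.BO.exists_zpowers_eq hc
  obtain ⟨x, D⟩ := Cfsg.Agent.Lib.Helper4.BO.exists_pair S (hAH ha) hA hc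
  have hcR := D.card_R
  rcases D.main.1 with h2 | h3
  · left
    refine ⟨h2, ?_⟩
    exact IsPGroup.of_card (n := 1) (by rw [hcR, h2]; norm_num)
  · right
    refine ⟨h3, ?_, D.R_not_comm h3⟩
    exact IsPGroup.of_card (n := 3) (by rw [hcR, h3]; norm_num)

end Cfsg.Agent.S0614
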