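import Cfsg.Statements.S0615
import Mathlib
import Cfsg.Agent.Lib.Helper4.Subnormal
import Cfsg.Agent.Lib.Helper17.Core
import Cfsg.Agent.S0597

set_option autoImplicit false
open Cfsg

namespace Cfsg.Agent.S0615

open Cfsg.Agent.Lib.Helper17 Cfsg.Agent.Lib.Helper5
open scoped commutatorElement

variable {G : Type*} [Group G]

def RelSub (A E : Subgroup G) : Prop := A ≤ E ∧ (A.subgroupOf E).IsSubnormal

theorem RelSub.restrict {A E E' : Subgroup G} (h : RelSub A E) (h1 : A ≤ E') (h2 : E' ≤ E) :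
    RelSub A E' := by
  refine ⟨h1, ?_⟩
  have := h.2.comap (Subgroup.inclusion h2)
  have e : (A.subgroupOf E).comap (Subgroup.inclusion h2) = A.subgroupOf E' := by
    ext x; simp [Subgroup.mem_subgroupOf]
  rwa [e] at this

theorem RelSub.trans {A E E' : Subgroup G} (h : RelSub A E') (h' : RelSub E' E) : RelSub A E := by
  refine ⟨h.1.trans h'.1, ?_⟩
  have h1 := h.2.comap (Subgroup.subgroupOfEquivOfLe h'.1).toMonoidHom
  have h2 := Subgroup.IsSubnormal.trans' h1 h'.2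
  have e : ((A.subgroupOf E').comap (Subgroup.subgroupOfEquivOfLe h'.1).toMonoidHom).map
      (E'.subgroupOf E).subtype = A.subgroupOf E := by
    ext x
    constructor
    · rintro ⟨y, hy, rfl⟩
      exact hy
    · intro hx
      exact ⟨⟨x, h.1 hx⟩, hx, rfl⟩
  rwa [e] at h2

theorem RelSub.sup [Finite G] {A B E : Subgroup G} (h : RelSub A E) (h' : RelSub B E) :
    RelSub (A ⊔ B) E := by
  refine ⟨sup_le h.1 h'.1, ?_⟩
  rw [Subgroup.subgroupOf_sup h.1 h'.1]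
  exact Cfsg.Agent.Lib.Helper4.isSubnormal_sup h.2 h'.2

theorem RelSub.conj {A E : Subgroup G} (h : RelSub A E) {g : G} (hg : g ∈ E) :
    RelSub (A.map (MulAut.conj g).toMonoidHom) E := by
  refine ⟨map_conj_le_of_le_of_mem h.1 hg, ?_⟩
  have h1 := h.2.map (f := (MulAut.conj (⟨g, hg⟩ : E)).toMonoidHom) (MulAut.conj (⟨g, hg⟩ : E)).surjective
  have e : (A.subgroupOf E).map (MulAut.conj (⟨g, hg⟩ : E)).toMonoidHom =
      (A.map (MulAut.conj g).toMonoidHom).subgroupOf E := by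
    ext x
    rw [mem_map_conj, Subgroup.mem_subgroupOf, Subgroup.mem_subgroupOf, mem_map_conj]
    rfl
  rwa [e] at h1

theorem RelSub.of_normal {A E : Subgroup G} (h1 : A ≤ E) (h2 : E ≤ Subgroup.normalizer (A : Set G)) :
    RelSub A E :=
  ⟨h1, ((Subgroup.normal_subgroupOf_iff_le_normalizer h1).mpr h2).isSubnormal⟩

theorem RelSub.sup_conj_ne {A E : Subgroup G} (h : RelSub A E) (hne : A ≠ E) {g : G} (hg : g ∈ E) :
    A ⊔ A.map (MulAut.conj g).toMonoidHom ≠ E := by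
  intro e
  have hne' : A.subgroupOf E ≠ ⊤ := by
    intro h1
    exact hne (le_antisymm h.1 (Subgroup.subgroupOf_eq_top.mp h1))
  obtain ⟨K, hK, hAK, hKt⟩ := h.2.exists_normal_and_le_and_lt_top_of_ne hne'
  apply hKt.ne
  rw [eq_top_iff]
  intro x _
  have hx : (x : G) ∈ A ⊔ A.map (MulAut.conj g).toMonoidHom := e ▸ x.2
  have hle : A ⊔ A.map (MulAut.conj g).toMonoidHom ≤ K.map E.subtype := by
    apply sup_le
    · intro a ha
      exact ⟨⟨a, h.1 ha⟩, hAK ha, rfl⟩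
    · rintro _ ⟨a, ha, rfl⟩
      refine ⟨⟨g, hg⟩ * ⟨a, h.1 ha⟩ * ⟨g, hg⟩⁻¹, hK.conj_mem _ (hAK ha) _, ?_⟩
      simp [MulAut.conj_apply]
  obtain ⟨y, hy, hyx⟩ := hle hx
  have : y = x := Subtype.ext hyx
  exact this ▸ hy


structure Hyp (p : ℕ) (V E E₁ E₂ : Subgroup G) : Prop where
  hEV : E ≤ Subgroup.normalizer (V : Set G)
  hf : E ⊓ Subgroup.centralizer (V : Set G) = ⊥
  hgen : E = E₁ ⊔ E₂
  hs₁ : RelSub E₁ E
  hs₂ : RelSub E₂ E
  hOp : ∀ D : Subgroup G, RelSub D E → IsPGroup p D → D = ⊥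
  hirr₁ : ∀ U : Subgroup G, U ≤ ⁅V, E₁⁆ → E₁ ≤ Subgroup.normalizer (U : Set G) → U = ⊥ ∨ U = ⁅V, E₁⁆
  hirr₂ : ∀ U : Subgroup G, U ≤ ⁅V, E₂⁆ → E₂ ≤ Subgroup.normalizer (U : Set G) → U = ⊥ ∨ U = ⁅V, E₂⁆
  h12 : ¬ ⁅V, E₁⁆ ≤ ⁅V, E₂⁆
  h21 : ¬ ⁅V, E₂⁆ ≤ ⁅V, E₁⁆
  hc₁ : 2 < Nat.card E₁
  hc₂ : 2 < Nat.card E₂

theorem Hyp.symm {p : ℕ} {V E E₁ E₂ : Subgroup G} (h : Hyp p V E E₁ E₂) : Hyp p V E E₂ E₁ :=
  ⟨h.hEV, h.hf, by rw [h.hgen, sup_comm], h.hs₂, h.hs₁, h.hOp, h.hirr₂, h.hirr₁, h.h21, h.h12,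
    h.hc₂, h.hc₁⟩

theorem pow_p_mem_centralizer {p : ℕ} {V : Subgroup G} (hV : Cfsg.IsElementaryAbelian p V) {x : G}
    (h1 : ∀ v ∈ V, ⁅v, x⁆ ∈ V) (h2 : ∀ v ∈ V, ⁅v, x⁆ * x = x * ⁅v, x⁆) :
    x ^ p ∈ Subgroup.centralizer (V : Set G) := by
  rw [Subgroup.mem_centralizer_iff]
  intro v hv
  have hcw := h2 v hv
  have key : ∀ k : ℕ, v * x ^ k = ⁅v, x⁆ ^ k * (x ^ k * v) := by
    intro k
    induction k with
    | zero => simp
    | succ k ih =>
      have hck : ⁅v, x⁆ * x ^ k = x ^ k * ⁅v, x⁆ := (Commute.pow_right hcw k)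
      have e1 : v * x = ⁅v, x⁆ * (x * v) := by rw [commutatorElement_def]; group
      calc v * x ^ (k + 1) = (v * x ^ k) * x := by rw [pow_succ]; group
        _ = ⁅v, x⁆ ^ k * x ^ k * (v * x) := by rw [ih]; group
        _ = ⁅v, x⁆ ^ k * (x ^ k * ⁅v, x⁆) * (x * v) := by rw [e1]; group
        _ = ⁅v, x⁆ ^ k * (⁅v, x⁆ * x ^ k) * (x * v) := by rw [hck]
        _ = ⁅v, x⁆ ^ (k + 1) * (x ^ (k + 1) * v) := by rw [pow_succ, pow_succ]; group
  rw [key p, hV.2 _ (h1 v hv), one_mul]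

theorem faithful_on_W {p : ℕ} {V E A : Subgroup G} (hV : Cfsg.IsElementaryAbelian p V)
    (hEV : E ≤ Subgroup.normalizer (V : Set G)) (hf : E ⊓ Subgroup.centralizer (V : Set G) = ⊥)
    (hA : RelSub A E) (hOp : ∀ D : Subgroup G, RelSub D E → IsPGroup p D → D = ⊥) :
    A ⊓ Subgroup.centralizer ((⁅V, A⁆ : Subgroup G) : Set G) = ⊥ := by
  have hAW : A ≤ Subgroup.normalizer ((⁅V, A⁆ : Subgroup G) : Set G) :=
    right_le_normalizer_commutator V A
  have hWV : ⁅V, A⁆ ≤ V := commutator_le_of_le_normalizer (hA.1.trans hEV) le_rfl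
  apply hOp
  · refine RelSub.trans (RelSub.of_normal inf_le_left ?_) hA
    apply le_normalizer_inf Subgroup.le_normalizer
    intro a ha
    rw [mem_normalizer_iff_map_conj, ← centralizer_map_conj, map_conj_eq_of_mem_normalizer (hAW ha)]
  · rintro ⟨x, hx⟩
    refine ⟨1, ?_⟩
    rw [pow_one]
    apply Subtype.ext
    have hmem : x ^ p ∈ E ⊓ Subgroup.centralizer (V : Set G) := by
      refine ⟨E.pow_mem (hA.1 hx.1) p, ?_⟩
      apply pow_p_mem_centralizer hV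
      · intro v hv
        exact hWV (Subgroup.commutator_mem_commutator hv hx.1)
      · intro v hv
        exact Subgroup.mem_centralizer_iff.mp hx.2 _ (Subgroup.commutator_mem_commutator hv hx.1)
    rw [hf] at hmem
    exact Subgroup.mem_bot.mp hmem

theorem lemT [Finite G] {p : ℕ} [Fact p.Prime] {V E E₁ E₂ : Subgroup G}
    (hV : Cfsg.IsElementaryAbelian p V) (h : Hyp p V E E₁ E₂)
    (hn : E₂ ≤ Subgroup.normalizer ((⁅V, E₁⁆ : Subgroup G) : Set G)) :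
    ⁅V, E₁⁆ ⊓ ⁅V, E₂⁆ = ⊥ ∧ ⁅⁅V, E₁⁆, E₂⁆ = ⊥ ∧ ⁅E₁, E₂⁆ = ⊥ := by
  have hWV : ⁅V, E₁⁆ ≤ V := commutator_le_of_le_normalizer (h.hs₁.1.trans h.hEV) le_rfl
  have h1 : ⁅V, E₁⁆ ⊓ ⁅V, E₂⁆ = ⊥ := by
    rcases h.hirr₂ _ inf_le_right (le_normalizer_inf hn (right_le_normalizer_commutator V E₂)) with
      h0 | h0
    · exact h0
    · exact absurd (h0 ▸ inf_le_left) h.h21
  have h2 : ⁅⁅V, E₁⁆, E₂⁆ = ⊥ := by
    rw [eq_bot_iff, ← h1]
    exact le_inf (commutator_le_of_le_normalizer hn le_rfl) (Subgroup.commutator_mono hWV le_rfl)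
  refine ⟨h1, h2, ?_⟩
  have h3 := Cfsg.Agent.S0597.result V E hV h.hEV h.hf E₁ E₂ h.hs₁.1 h.hs₂.1 h.hs₁.2 h.hs₂.2 h2
  have h4 : (Cfsg.pCore p E).map E.subtype = ⊥ := by
    apply h.hOp
    · refine ⟨Subgroup.map_subtype_le _, ?_⟩
      rw [Subgroup.subgroupOf, Subgroup.comap_map_eq_self_of_injective E.subtype_injective]
      exact (inferInstance : (Cfsg.pCore p E).Normal).isSubnormal
    · exact (Cfsg.Agent.Lib.Helper17.pCore_isPGroup).map _
  rw [h4] at h3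
  exact le_bot_iff.mp h3

theorem comm_conj {V : Subgroup G} {g : G} (hg : g ∈ Subgroup.normalizer (V : Set G))
    (A : Subgroup G) : ⁅V, A.map (MulAut.conj g).toMonoidHom⁆ = (⁅V, A⁆).map (MulAut.conj g).toMonoidHom := by
  rw [Subgroup.map_commutator, map_conj_eq_of_mem_normalizer hg]

theorem map_conj_inv_map_conj (H : Subgroup G) (g : G) :
    (H.map (MulAut.conj g).toMonoidHom).map (MulAut.conj g⁻¹).toMonoidHom = H := by
  rw [map_conj_map_conj, inv_mul_cancel, map_conj_one]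

theorem map_conj_map_conj_inv (H : Subgroup G) (g : G) :
    (H.map (MulAut.conj g⁻¹).toMonoidHom).map (MulAut.conj g).toMonoidHom = H := by
  rw [map_conj_map_conj, mul_inv_cancel, map_conj_one]

theorem map_conj_injective (g : G) {H K : Subgroup G}
    (h : H.map (MulAut.conj g).toMonoidHom = K.map (MulAut.conj g).toMonoidHom) : H = K :=
  Subgroup.map_injective (MulAut.conj g).injective h

theorem pair [Finite G] {p : ℕ} [Fact p.Prime] {V : Subgroup G}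
    (hV : Cfsg.IsElementaryAbelian p V) (n : ℕ)
    (IH : ∀ m < n, ∀ E E₁ E₂ : Subgroup G, Nat.card E = m → Hyp p V E E₁ E₂ →
      E₂ ≤ Subgroup.normalizer ((⁅V, E₁⁆ : Subgroup G) : Set G))
    {E A B : Subgroup G} (hn : Nat.card E = n) (h : Hyp p V E A B) {g : G} (hg : g ∈ E)
    (hne : (⁅V, A⁆).map (MulAut.conj g).toMonoidHom ≠ ⁅V, A⁆) :
    ⁅V, A⁆ ⊓ (⁅V, A⁆).map (MulAut.conj g).toMonoidHom = ⊥ ∧
      ⁅⁅V, A⁆, A.map (MulAut.conj g).toMonoidHom⁆ = ⊥ := by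
  have hgV : g ∈ Subgroup.normalizer (V : Set G) := h.hEV hg
  have hAE : A ≠ E := by
    intro e
    apply h.h21
    rw [e]
    exact Subgroup.commutator_mono le_rfl h.hs₂.1
  have hE'le : A ⊔ A.map (MulAut.conj g).toMonoidHom ≤ E := sup_le h.hs₁.1 (h.hs₁.conj hg).1
  have hE'ne := h.hs₁.sup_conj_ne hAE hg
  have hlt : Nat.card ↥(A ⊔ A.map (MulAut.conj g).toMonoidHom) < n := by
    rw [← hn]
    rcases (Subgroup.card_le_of_le hE'le).lt_or_eq with h0 | h0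
    · exact h0
    · exact absurd (Subgroup.eq_of_le_of_card_ge hE'le h0.ge) hE'ne
  have hE'sub : RelSub (A ⊔ A.map (MulAut.conj g).toMonoidHom) E := h.hs₁.sup (h.hs₁.conj hg)
  have hcard : Nat.card ↥((⁅V, A⁆).map (MulAut.conj g).toMonoidHom) = Nat.card ↥(⁅V, A⁆) :=
    card_map_conj _ g
  have hyp : Hyp p V (A ⊔ A.map (MulAut.conj g).toMonoidHom) A (A.map (MulAut.conj g).toMonoidHom) := by
    refine ⟨hE'le.trans h.hEV, ?_, rfl, h.hs₁.restrict le_sup_left hE'le,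
      (h.hs₁.conj hg).restrict le_sup_right hE'le, ?_, h.hirr₁, ?_, ?_, ?_, h.hc₁, ?_⟩
    · rw [eq_bot_iff, ← h.hf]
      exact inf_le_inf hE'le le_rfl
    · intro D hD hDp
      exact h.hOp D (hD.trans hE'sub) hDp
    · intro U hU hUn
      rw [comm_conj hgV] at hU ⊢
      have h1 : U.map (MulAut.conj g⁻¹).toMonoidHom ≤ ⁅V, A⁆ := le_map_conj_iff.mp hU
      have h2 : A ≤ Subgroup.normalizer ((U.map (MulAut.conj g⁻¹).toMonoidHom : Subgroup G) : Set G) := by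
        rw [normalizer_map_conj, le_map_conj_iff, inv_inv]
        exact hUn
      rcases h.hirr₁ _ h1 h2 with h3 | h3
      · left
        rw [← map_conj_map_conj_inv U g, h3, Subgroup.map_bot]
      · right
        rw [← map_conj_map_conj_inv U g, h3]
    · rw [comm_conj hgV]
      intro hle
      exact hne (Subgroup.eq_of_le_of_card_ge hle hcard.le).symm
    · rw [comm_conj hgV]
      intro hle
      exact hne (Subgroup.eq_of_le_of_card_ge hle hcard.ge)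
    · rw [card_map_conj]; exact h.hc₁
  have h5 := IH _ hlt _ _ _ rfl hyp
  obtain ⟨h6, h7, -⟩ := lemT hV hyp h5
  rw [comm_conj hgV] at h6
  exact ⟨h6, h7⟩

theorem d_inj {p : ℕ} {V W : Subgroup G} (hV : Cfsg.IsElementaryAbelian p V) (hWV : W ≤ V) {x : G}
    (hxV : x ∈ Subgroup.normalizer (V : Set G))
    (hint : W ⊓ W.map (MulAut.conj x).toMonoidHom = ⊥) {w w' : G} (hw : w ∈ W) (hw' : w' ∈ W)
    (h : x * w * x⁻¹ * w⁻¹ = x * w' * x⁻¹ * w'⁻¹) : w = w' := by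
  have hc : ∀ a ∈ V, ∀ b ∈ V, a * b = b * a := fun a ha b hb =>
    Cfsg.Agent.Lib.Helper4.BO.comm_of_elemAb hV ha hb
  have ha' : x * w' * x⁻¹ ∈ V := (Subgroup.mem_normalizer_iff.mp hxV _).mp (hWV hw')
  have e1 : x * (w * w'⁻¹) * x⁻¹ = (x * w * x⁻¹) * (x * w' * x⁻¹)⁻¹ := by group
  have e2 : x * w * x⁻¹ = x * w' * x⁻¹ * w'⁻¹ * w := by rw [← h]; group
  have e3 : x * (w * w'⁻¹) * x⁻¹ = w * w'⁻¹ := by
    rw [e1, e2]
    calc x * w' * x⁻¹ * w'⁻¹ * w * (x * w' * x⁻¹)⁻¹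
        = (x * w' * x⁻¹) * (w'⁻¹ * w) * (x * w' * x⁻¹)⁻¹ := by group
      _ = (w'⁻¹ * w) * (x * w' * x⁻¹) * (x * w' * x⁻¹)⁻¹ := by
          rw [hc _ ha' _ (V.mul_mem (V.inv_mem (hWV hw')) (hWV hw))]
      _ = w'⁻¹ * w := by group
      _ = w * w'⁻¹ := hc _ (V.inv_mem (hWV hw')) _ (hWV hw)
  have ht : w * w'⁻¹ ∈ W := W.mul_mem hw (W.inv_mem hw')
  have h1 : w * w'⁻¹ ∈ W ⊓ W.map (MulAut.conj x).toMonoidHom := by
    refine ⟨ht, ?_⟩
    have := conj_mem_map_conj (g := x) ht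
    rwa [e3] at this
  rw [hint, Subgroup.mem_bot] at h1
  exact mul_inv_eq_one.mp h1

theorem core [Finite G] {p : ℕ} [Fact p.Prime] {V : Subgroup G}
    (hV : Cfsg.IsElementaryAbelian p V) : ∀ (n : ℕ) (E E₁ E₂ : Subgroup G), Nat.card E = n →
    Hyp p V E E₁ E₂ → E₂ ≤ Subgroup.normalizer ((⁅V, E₁⁆ : Subgroup G) : Set G) := by
  intro n
  induction n using Nat.strong_induction_on with
  | _ n IH =>
    intro E E₁ E₂ hn h
    by_contra hcon
    obtain ⟨x, hx, hxW⟩ := SetLike.not_le_iff_exists.mp hcon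
    rw [mem_normalizer_iff_map_conj] at hxW
    have hc : ∀ a ∈ V, ∀ b ∈ V, a * b = b * a := fun a ha b hb =>
      Cfsg.Agent.Lib.Helper4.BO.comm_of_elemAb hV ha hb
    have hE₁E := h.hs₁.1
    have hE₂E := h.hs₂.1
    have hpair₁ := fun (g : G) (hg : g ∈ E) => pair hV n IH hn h (g := g) hg
    have hpair₂ := fun (g : G) (hg : g ∈ E) => pair hV n IH hn h.symm (g := g) hg
    have hF₁ := faithful_on_W hV h.hEV h.hf h.hs₁ h.hOp
    have hF₂ := faithful_on_W hV h.hEV h.hf h.hs₂ h.hOp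
    have hW₁V : ⁅V, E₁⁆ ≤ V := commutator_le_of_le_normalizer (hE₁E.trans h.hEV) le_rfl
    have hW₂V : ⁅V, E₂⁆ ≤ V := commutator_le_of_le_normalizer (hE₂E.trans h.hEV) le_rfl
    have hcomm₁ : ∀ e ∈ E₁, ∀ v ∈ V, e * v * e⁻¹ * v⁻¹ ∈ ⁅V, E₁⁆ := by
      intro e he v hv
      rw [Subgroup.commutator_comm]
      exact Subgroup.commutator_mem_commutator he hv
    have hcomm₂ : ∀ e ∈ E₂, ∀ v ∈ V, e * v * e⁻¹ * v⁻¹ ∈ ⁅V, E₂⁆ := by
      intro e he v hv
      rw [Subgroup.commutator_comm]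
      exact Subgroup.commutator_mem_commutator he hv
    have hS1 : ∃ e ∈ E₁, (⁅V, E₂⁆).map (MulAut.conj e).toMonoidHom ≠ ⁅V, E₂⁆ := by
      by_contra hno
      push Not at hno
      have hn1 : E₁ ≤ Subgroup.normalizer ((⁅V, E₂⁆ : Subgroup G) : Set G) := fun e he =>
        mem_normalizer_iff_map_conj.mpr (hno e he)
      obtain ⟨-, -, h3⟩ := lemT hV h.symm hn1
      have h4 : E₂ ≤ Subgroup.centralizer (E₁ : Set G) :=
        Subgroup.commutator_eq_bot_iff_le_centralizer.mp h3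
      have h5 : E₁.map (MulAut.conj x).toMonoidHom = E₁ :=
        map_conj_eq_of_mem_normalizer (Subgroup.centralizer_le_normalizer _ (h4 hx))
      apply hxW
      rw [← comm_conj (h.hEV (hE₂E hx)), h5]
    obtain ⟨e, he, heW⟩ := hS1
    generalize hW₁ : ⁅V, E₁⁆ = W₁ at *
    generalize hW₂ : ⁅V, E₂⁆ = W₂ at *
    have hP1 := (hpair₁ x (hE₂E hx) hxW).1
    have hP2 := (hpair₂ e (hE₁E he) heW).1
    have hxV := h.hEV (hE₂E hx)
    have heV := h.hEV (hE₁E he)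
    let d : W₁ → W₂ := fun w => ⟨x * w * x⁻¹ * (w : G)⁻¹, hcomm₂ x hx w (hW₁V w.2)⟩
    have hdinj : Function.Injective d := by
      intro w w' hww
      exact Subtype.ext (d_inj hV hW₁V hxV hP1 w.2 w'.2 (congrArg Subtype.val hww))
    let d' : W₂ → W₁ := fun w => ⟨e * w * e⁻¹ * (w : G)⁻¹, hcomm₁ e he w (hW₂V w.2)⟩
    have hd'inj : Function.Injective d' := by
      intro w w' hww
      exact Subtype.ext (d_inj hV hW₂V heV hP2 w.2 w'.2 (congrArg Subtype.val hww))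
    have hdbij : Function.Bijective d :=
      hdinj.bijective_of_nat_card_le (Nat.card_le_card_of_injective d' hd'inj)
    have hsurj : ∀ u ∈ W₂, ∃ w ∈ W₁, u = x * w * x⁻¹ * w⁻¹ := by
      intro u hu
      obtain ⟨w, hw⟩ := hdbij.2 ⟨u, hu⟩
      exact ⟨w, w.2, (congrArg Subtype.val hw).symm⟩
    have hW12 : ∀ u, u ∈ W₁ → u ∈ W₂ → u = 1 := by
      intro u hu1 hu2
      obtain ⟨w, hw, rfl⟩ := hsurj u hu2
      have h1 : x * w * x⁻¹ ∈ W₁ := by
        have := W₁.mul_mem hu1 hw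
        simpa using this
      have h2 : x * w * x⁻¹ ∈ W₁ ⊓ W₁.map (MulAut.conj x).toMonoidHom := ⟨h1, conj_mem_map_conj hw⟩
      rw [hP1, Subgroup.mem_bot] at h2
      have h3 : w = 1 := by simpa using h2
      rw [h3]; group
    have hWx2 : ∀ u, u ∈ W₁.map (MulAut.conj x).toMonoidHom → u ∈ W₂ → u = 1 := by
      intro u hu1 hu2
      obtain ⟨w, hw, rfl⟩ := hsurj u hu2
      have h1 : w⁻¹ ∈ W₁.map (MulAut.conj x).toMonoidHom := by
        have := (W₁.map (MulAut.conj x).toMonoidHom).mul_mem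
          ((W₁.map (MulAut.conj x).toMonoidHom).inv_mem (conj_mem_map_conj (g := x) hw)) hu1
        have e : (x * w * x⁻¹)⁻¹ * (x * w * x⁻¹ * w⁻¹) = w⁻¹ := by group
        rwa [e] at this
      have h2 : w⁻¹ ∈ W₁ ⊓ W₁.map (MulAut.conj x).toMonoidHom := ⟨W₁.inv_mem hw, h1⟩
      rw [hP1, Subgroup.mem_bot] at h2
      have h3 : w = 1 := by simpa using h2
      rw [h3]; group
    have hE₁ne : E₁ ≠ ⊥ := by
      intro e0
      have := h.hc₁
      rw [e0, Subgroup.card_bot] at this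
      omega
    have hS5 : ∀ y ∈ E₂, W₁.map (MulAut.conj y).toMonoidHom = W₁ ∨
        W₁.map (MulAut.conj y).toMonoidHom = W₁.map (MulAut.conj x).toMonoidHom := by
      intro y hy
      by_contra hno
      push Not at hno
      obtain ⟨h1, h2⟩ := hno
      have hle : W₁.map (MulAut.conj y).toMonoidHom ≤ W₁ ⊔ W₁.map (MulAut.conj x).toMonoidHom := by
        rintro _ ⟨w, hw, rfl⟩
        show (MulAut.conj y) w ∈ _
        rw [MulAut.conj_apply]
        obtain ⟨w', hw', e0⟩ := hsurj _ (hcomm₂ y hy w (hW₁V hw))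
        have e1 : y * w * y⁻¹ = (x * w' * x⁻¹) * (w'⁻¹ * w) := by
          calc y * w * y⁻¹ = (y * w * y⁻¹ * w⁻¹) * w := by group
            _ = _ := by rw [e0]; group
        rw [e1, sup_comm]
        exact Subgroup.mul_mem_sup (conj_mem_map_conj hw') (W₁.mul_mem (W₁.inv_mem hw') hw)
      have Q1 := (hpair₁ y (hE₂E hy) h1).2
      have hne : W₁.map (MulAut.conj (x⁻¹ * y)).toMonoidHom ≠ W₁ := by
        intro e0
        apply h2
        have := congrArg (Subgroup.map (MulAut.conj x).toMonoidHom) e0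
        rwa [map_conj_map_conj, mul_inv_cancel_left] at this
      have Q2 := (hpair₁ (x⁻¹ * y) (E.mul_mem (E.inv_mem (hE₂E hx)) (hE₂E hy)) hne).2
      have Q3 := congrArg (Subgroup.map (MulAut.conj x).toMonoidHom) Q2
      rw [Subgroup.map_commutator, map_conj_map_conj, mul_inv_cancel_left, Subgroup.map_bot] at Q3
      have c1 := Subgroup.commutator_eq_bot_iff_le_centralizer.mp Q1
      have c2 := Subgroup.commutator_eq_bot_iff_le_centralizer.mp Q3
      have c3 := hle.trans (sup_le c1 c2)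
      have c4 := Subgroup.commutator_eq_bot_iff_le_centralizer.mpr c3
      rw [← Subgroup.map_commutator,
        Subgroup.map_eq_bot_iff_of_injective _ (MulAut.conj y).injective] at c4
      have c5 := Subgroup.le_centralizer_iff.mp (Subgroup.commutator_eq_bot_iff_le_centralizer.mp c4)
      apply hE₁ne
      rw [eq_bot_iff, ← hF₁]
      exact le_inf le_rfl c5
    have hWxV : W₁.map (MulAut.conj x).toMonoidHom ≤ V := by
      rw [← map_conj_eq_of_mem_normalizer hxV]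
      exact Subgroup.map_mono hW₁V
    have hS6 : ∀ y ∈ E₂, W₁.map (MulAut.conj y).toMonoidHom = W₁ → y = 1 := by
      intro y hy hyW
      have hy1 : ∀ w ∈ W₁, y * w * y⁻¹ = w := by
        intro w hw
        have m1 : y * w * y⁻¹ ∈ W₁ := by
          have := conj_mem_map_conj (g := y) hw
          rwa [hyW] at this
        exact mul_inv_eq_one.mp (hW12 _ (W₁.mul_mem m1 (W₁.inv_mem hw)) (hcomm₂ y hy w (hW₁V hw)))
      have hyx : (W₁.map (MulAut.conj x).toMonoidHom).map (MulAut.conj y).toMonoidHom =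
          W₁.map (MulAut.conj x).toMonoidHom := by
        rw [map_conj_map_conj]
        rcases hS5 (y * x) (E₂.mul_mem hy hx) with h0 | h0
        · exfalso
          apply hxW
          apply map_conj_injective y
          rw [map_conj_map_conj, h0, hyW]
        · exact h0
      have hy2 : ∀ w ∈ W₁.map (MulAut.conj x).toMonoidHom, y * w * y⁻¹ = w := by
        intro w hw
        have m1 : y * w * y⁻¹ ∈ W₁.map (MulAut.conj x).toMonoidHom := by
          have := conj_mem_map_conj (g := y) hw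
          rwa [hyx] at this
        exact mul_inv_eq_one.mp (hWx2 _ (Subgroup.mul_mem _ m1 (Subgroup.inv_mem _ hw))
          (hcomm₂ y hy w (hWxV hw)))
      have hyC : y ∈ E₂ ⊓ Subgroup.centralizer (W₂ : Set G) := by
        refine ⟨hy, ?_⟩
        show y ∈ Subgroup.centralizer (W₂ : Set G)
        rw [Subgroup.mem_centralizer_iff]
        intro u hu
        obtain ⟨w, hw, rfl⟩ := hsurj u hu
        have a1 := hy2 _ (conj_mem_map_conj (g := x) hw)
        have a2 := hy1 _ (W₁.inv_mem hw)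
        have a3 : y * (x * w * x⁻¹ * w⁻¹) * y⁻¹ = x * w * x⁻¹ * w⁻¹ := by
          calc y * (x * w * x⁻¹ * w⁻¹) * y⁻¹ = (y * (x * w * x⁻¹) * y⁻¹) * (y * w⁻¹ * y⁻¹) := by group
            _ = _ := by rw [a1, a2]
        exact (mul_inv_eq_iff_eq_mul.mp a3).symm
      rw [hF₂, Subgroup.mem_bot] at hyC
      exact hyC
    have hsub : (E₂ : Set G) ⊆ {1, x} := by
      intro y hy
      rcases hS5 y hy with h0 | h0
      · left; exact hS6 y hy h0
      · right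
        have h1 : W₁.map (MulAut.conj (x⁻¹ * y)).toMonoidHom = W₁ := by
          rw [← map_conj_map_conj, h0, map_conj_inv_map_conj]
        have := hS6 _ (E₂.mul_mem (E₂.inv_mem hx) hy) h1
        exact (inv_mul_eq_one.mp this).symm
    have hcard : Nat.card E₂ ≤ 2 := by
      calc Nat.card E₂ = (E₂ : Set G).ncard := rfl
        _ ≤ ({1, x} : Set G).ncard := Set.ncard_le_ncard hsub (Set.toFinite _)
        _ ≤ ({x} : Set G).ncard + 1 := Set.ncard_insert_le _ _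
        _ = 2 := by rw [Set.ncard_singleton]
    have := h.hc₂
    omega

/-- Two subnormal subgroups acting irreducibly on their incomparable commutator modules, in a faithful group with trivial largest normal p-subgroup, generate their direct product, and the commutator module splits accordingly. -/
theorem result {G : Type*} [Group G] [Finite G] {p : ℕ} [Fact p.Prime] (V E E₁ E₂ : Subgroup G) (hV : Cfsg.IsElementaryAbelian p V) (hEV : E ≤ Subgroup.normalizer (V : Set G)) (hf : E ⊓ Subgroup.centralizer (V : Set G) = ⊥) (hgen : E = E₁ ⊔ E₂) (hs₁ : (E₁.subgroupOf E).IsSubnormal) (hs₂ : (E₂.subgroupOf E).IsSubnormal) (hOp : Cfsg.pCore p ↥E = ⊥) (hirr₁ : (∀ U : Subgroup G, U ≤ ⁅V, E₁⁆ → E₁ ≤ Subgroup.normalizer (U : Set G) → U = ⊥ ∨ U = ⁅V, E₁⁆)) (hirr₂ : (∀ U : Subgroup G, U ≤ ⁅V, E₂⁆ → E₂ ≤ Subgroup.normalizer (U : Set G) → U = ⊥ ∨ U = ⁅V, E₂⁆)) (h12 : ¬ ⁅V, E₁⁆ ≤ ⁅V, E₂⁆) (h21 : ¬ ⁅V, E₂⁆ ≤ ⁅V, E₁⁆) (hc₁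 : 2 < Nat.card E₁) (hc₂ : 2 < Nat.card E₂) : ⁅E₁, E₂⁆ = ⊥ ∧ E₁ ⊓ E₂ = ⊥ ∧ ⁅V, E₁⁆ ⊓ ⁅V, E₂⁆ = ⊥ ∧ ⁅V, E⁆ = ⁅V, E₁⁆ ⊔ ⁅V, E₂⁆ := by
  classical
  have hE₁E : E₁ ≤ E := hgen ▸ le_sup_left
  have hE₂E : E₂ ≤ E := hgen ▸ le_sup_right
  have hOp' : ∀ D : Subgroup G, RelSub D E → IsPGroup p D → D = ⊥ := by
    intro D hD hDp
    have h1 : IsPGroup p (D.subgroupOf E) := hDp.of_equiv (Subgroup.subgroupOfEquivOfLe hD.1).symm
    have h2 := subnormal_pgroup_le_pCore hD.2 h1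
    rw [hOp] at h2
    have h3 : D.subgroupOf E = ⊥ := le_bot_iff.mp h2
    rw [Subgroup.subgroupOf_eq_bot] at h3
    exact h3.eq_bot_of_le hD.1
  have h : Hyp p V E E₁ E₂ :=
    ⟨hEV, hf, hgen, ⟨hE₁E, hs₁⟩, ⟨hE₂E, hs₂⟩, hOp', hirr₁, hirr₂, h12, h21, hc₁, hc₂⟩
  have hn1 := core hV _ E E₁ E₂ rfl h
  have hn2 := core hV _ E E₂ E₁ rfl h.symm
  obtain ⟨t1, t2, t3⟩ := lemT hV h hn1
  refine ⟨t3, ?_, t1, ?_⟩
  · rw [eq_bot_iff, ← hf]
    intro y hy
    refine ⟨hE₁E hy.1, ?_⟩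
    show y ∈ Subgroup.centralizer (V : Set G)
    rw [Subgroup.mem_centralizer_iff]
    intro v hv
    have h1 : ⁅v, y⁆ ∈ ⁅V, E₁⁆ ⊓ ⁅V, E₂⁆ :=
      ⟨Subgroup.commutator_mem_commutator hv hy.1, Subgroup.commutator_mem_commutator hv hy.2⟩
    rw [t1, Subgroup.mem_bot] at h1
    exact commutatorElement_eq_one_iff_mul_comm.mp h1
  · apply le_antisymm
    · have hst : E₁ ⊔ E₂ ≤ Cfsg.Agent.S0597.stab V (⁅V, E₁⁆ ⊔ ⁅V, E₂⁆) := by
        apply sup_le
        · intro e he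
          exact ⟨hEV (hE₁E he), le_normalizer_sup (right_le_normalizer_commutator V E₁) hn2 he,
            fun v hv => (le_sup_left : _ ≤ ⁅V, E₁⁆ ⊔ ⁅V, E₂⁆)
              (Subgroup.commutator_mem_commutator hv he)⟩
        · intro e he
          exact ⟨hEV (hE₂E he), le_normalizer_sup hn1 (right_le_normalizer_commutator V E₂) he,
            fun v hv => (le_sup_right : _ ≤ ⁅V, E₁⁆ ⊔ ⁅V, E₂⁆)
              (Subgroup.commutator_mem_commutator hv he)⟩
      rw [Subgroup.commutator_le]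
      intro v hv e he
      exact (hst (hgen ▸ he)).2.2 v hv
    · exact sup_le (Subgroup.commutator_mono le_rfl hE₁E) (Subgroup.commutator_mono le_rfl hE₂E)

end Cfsg.Agent.S0615
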