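import Cfsg.Statements.S0618
import Mathlib
import Cfsg.Agent.Lib.Helper4.Transport3
import Cfsg.Agent.S0600
import Cfsg.Agent.S0601
import Cfsg.Agent.S0608
import Cfsg.Agent.S0617

set_option autoImplicit false
open Cfsg

namespace Cfsg.Agent.S0618

open Cfsg.Agent.Lib.Helper4.Transport Cfsg.Agent.Lib.Helper5 in
theorem main {G : Type*} [Group G] [Finite G] {p : ℕ} [Fact p.Prime] (hsep : Cfsg.IsPSolvable p G)
    (V : Subgroup G) [V.Normal] (hVe : Cfsg.IsElementaryAbelian p V)
    (hOq : Cfsg.pCore p (G ⧸ Subgroup.centralizer (V : Set G)) = ⊥)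
    (hJ : ¬ Cfsg.thompsonSubgroup p G ≤ Subgroup.centralizer (V : Set G)) :
    (p = 2 ∨ p = 3) ∧ ∃ E : Subgroup G, Subgroup.centralizer (V : Set G) ≤ E ∧
      E ≤ Cfsg.thompsonSubgroup p G ⊔ Subgroup.centralizer (V : Set G) ∧
      Cfsg.thompsonSubgroup p G ⊔ Subgroup.centralizer (V : Set G) ≤ Subgroup.normalizer (E : Set G) ∧
      ∃ hn : ((Subgroup.centralizer (V : Set G)).subgroupOf E).Normal,
        Nonempty ((↥E ⧸ (Subgroup.centralizer (V : Set G)).subgroupOf E) ≃*
          Matrix.SpecialLinearGroup (Fin 2) (ZMod p)) := by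
  obtain ⟨h1, h2, h3, h4⟩ := hyps V hsep hVe hOq
  have hH1 : (Cfsg.thompsonSubgroup p G).map (toHol V) ≠ ⊥ := by
    intro h
    apply hJ
    rw [← ker_toHol V]
    exact (Subgroup.map_eq_bot_iff _).mp h
  obtain ⟨hp, hE, -, hsup, -, -⟩ :=
    Cfsg.Agent.S0617.result (VH V) _ (VH_elem V hVe) h1 h2 h3 h4 hH1
  refine ⟨hp, ?_⟩
  obtain ⟨E', hE'H⟩ := exists_index hsup hH1
  obtain ⟨hEn, ⟨e⟩, -⟩ := hE E'
  obtain ⟨E₀, hE₀⟩ : ∃ E₀ : Subgroup (Hol V), E₀ = (E' : Subgroup (Hol V)) := ⟨_, rfl⟩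
  rw [← hE₀] at hEn hE'H e
  clear hE hsup h3 h4
  have hker := ker_toHol V
  have hCE : Subgroup.centralizer (V : Set G) ≤ E₀.comap (toHol V) := by
    rw [← hker]
    intro x hx
    show toHol V x ∈ E₀
    rw [MonoidHom.mem_ker.mp hx]; exact one_mem _
  refine ⟨E₀.comap (toHol V), hCE, ?_, ?_, inferInstance, ?_⟩
  · rw [← hker, ← Subgroup.comap_map_eq]
    exact Subgroup.comap_mono hE'H
  · intro x hx
    have hfx : toHol V x ∈ (Cfsg.thompsonSubgroup p G).map (toHol V) := by
      rw [← hker, ← Subgroup.comap_map_eq] at hx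
      exact hx
    have h5 := hEn hfx
    rw [Subgroup.mem_normalizer_iff] at h5 ⊢
    intro y
    have h6 := h5 (toHol V y)
    show toHol V y ∈ E₀ ↔ toHol V (x * y * x⁻¹) ∈ E₀
    rw [map_mul, map_mul, map_inv]
    exact h6
  · have hsurj : Function.Surjective ((toHol V).subgroupComap E₀) := by
      rintro ⟨y, hy⟩
      obtain ⟨j, -, hj⟩ := hE'H hy
      refine ⟨⟨j, ?_⟩, ?_⟩
      · show toHol V j ∈ E₀
        rw [hj]; exact hy
      · exact Subtype.ext hj
    have hk : ((toHol V).subgroupComap E₀).ker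
        = (Subgroup.centralizer (V : Set G)).subgroupOf (E₀.comap (toHol V)) := by
      ext x
      rw [MonoidHom.mem_ker, Subgroup.mem_subgroupOf, ← hker, MonoidHom.mem_ker]
      constructor
      · intro h
        exact congrArg Subtype.val h
      · intro h
        exact Subtype.ext h
    exact ⟨((QuotientGroup.quotientMulEquivOfEq hk.symm).trans
      (QuotientGroup.quotientKerEquivOfSurjective _ hsurj)).trans e⟩

/-- A p-separable group with trivial p'-core in which the Thompson factorization fails has p = 2 or 3, and J(G) induces on the normal closure of Ω₁(Z(S)) a group containing a normal SL(2, p). -/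
theorem result {G : Type*} [Group G] [Finite G] {p : ℕ} [Fact p.Prime] (hsep : Cfsg.IsPSolvable p G) (hO : Cfsg.pPrimeCore p G = ⊥) (hnf : ¬ Cfsg.IsThompsonFactorizable p G) : (p = 2 ∨ p = 3) ∧ ∃ E : Subgroup G, Subgroup.centralizer ((⨆ S : Sylow p G, Cfsg.omegaOne p ((S : Subgroup G) ⊓ Subgroup.centralizer ((S : Subgroup G) : Set G))) : Set G) ≤ E ∧ E ≤ Cfsg.thompsonSubgroup p G ⊔ Subgroup.centralizer ((⨆ S : Sylow p G, Cfsg.omegaOne p ((S : Subgroup G) ⊓ Subgroup.centralizer ((S : Subgroup G) : Set G))) : Set G) ∧ Cfsg.thompsonSubgroup p G ⊔ Subgroup.centralizer ((⨆ S : Sylow p G, Cfsg.omegaOne p ((S : Subgroup G) ⊓ Subgroup.centralizer ((S : Subgroup G) : Set G))) : Set G) ≤ Subgroup.normalizer (E : Set G) ∧ ∃ hn : ((Subgroup.centralizer ((⨆ S : Sylow p G, Cfsg.omegaOne p ((S : Subgroup G) ⊓ Subgroup.centralizer ((S : Subgroup G) : Set G))) : Set G)).subgroupOf E).Normal, Nonempty ((↥E ⧸ (Subgroup.centralizer ((⨆ S : Sylow p G, Cfsg.omegaOne p ((S : Subgroup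 G) ⊓ Subgroup.centralizer ((S : Subgroup G) : Set G))) : Set G)).subgroupOf E) ≃* Matrix.SpecialLinearGroup (Fin 2) (ZMod p)) := by
  classical
  obtain ⟨V, hVdef⟩ : ∃ V, V = ⨆ S : Sylow p G, Cfsg.omegaOne p ((S : Subgroup G) ⊓ Subgroup.centralizer ((S : Subgroup G) : Set G)) := ⟨_, rfl⟩
  have hc := Cfsg.Agent.Lib.Helper5.centralizer_pCore_le hsep hO
  obtain ⟨hVn, hVe, -⟩ := Cfsg.Agent.S0601.result hc
  have hJ := fun h => hnf ((Cfsg.Agent.S0608.result hO).mpr h)
  rw [← hVdef] at hVn hVe hJ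
  have hU : Subgroup.centralizer (⨆ S : Sylow p G, ((Cfsg.omegaOne p ((S : Subgroup G) ⊓ Subgroup.centralizer ((S : Subgroup G) : Set G)) : Subgroup G) : Set G)) = Subgroup.centralizer (V : Set G) := by
    apply le_antisymm
    · rw [Subgroup.le_centralizer_iff, hVdef]
      apply iSup_le
      intro S
      rw [Subgroup.le_centralizer_iff]
      apply Subgroup.centralizer_le
      exact le_iSup (fun S : Sylow p G => ((Cfsg.omegaOne p ((S : Subgroup G) ⊓ Subgroup.centralizer ((S : Subgroup G) : Set G)) : Subgroup G) : Set G)) S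
    · apply Subgroup.centralizer_le
      apply iSup_le
      intro S
      rw [hVdef]
      exact SetLike.coe_subset_coe.mpr (le_iSup (fun S : Sylow p G => Cfsg.omegaOne p ((S : Subgroup G) ⊓ Subgroup.centralizer ((S : Subgroup G) : Set G))) S)
  rw [hU]
  have hgen : V = ⨆ S : Sylow p G, V ⊓ Subgroup.centralizer ((S : Subgroup G) : Set G) := by
    apply le_antisymm
    · conv_lhs => rw [hVdef]
      apply iSup_mono
      intro S
      apply le_inf
      · rw [hVdef]
        exact le_iSup (fun S : Sylow p G => Cfsg.omegaOne p ((S : Subgroup G) ⊓ Subgroup.centralizer ((S : Subgroup G) : Set G))) S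
      · unfold Cfsg.omegaOne
        rw [Subgroup.closure_le]
        intro x hx
        exact hx.1.2
    · exact iSup_le fun S => inf_le_left
  exact main hsep V hVe (Cfsg.Agent.S0600.result V hVe hgen) hJ

end Cfsg.Agent.S0618
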