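import Cfsg.Statements.S0619
import Mathlib
import Cfsg.Agent.Lib.Helper4.Transport3
import Cfsg.Agent.Lib.Helper5.Thompson
import Cfsg.Agent.Lib.Helper5.Card
import Cfsg.Agent.S0606
import Cfsg.Agent.S0610

set_option autoImplicit false
open Cfsg

namespace Cfsg.Agent.S0619

open scoped commutatorElement in
open Cfsg.Agent.Lib.Helper4.Transport Cfsg.Agent.Lib.Helper5 in
theorem key {G : Type*} [Group G] [Finite G] {p : ℕ} [Fact p.Prime] (hsep : Cfsg.IsPSolvable p G)
    (V : Subgroup G) [hVn : V.Normal] (hV : Cfsg.IsElementaryAbelian p V)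
    (hO : Cfsg.pCore p (G ⧸ Subgroup.centralizer (V : Set G)) = ⊥)
    (A : Subgroup G) (hA : A ∈ Cfsg.maxElementaryAbelianSubgroups p G) :
    ⁅Cfsg.omegaOne p (Cfsg.centerThompsonOf p (Subgroup.centralizer (V : Set G))), A⁆ ≤ V := by
  have hstar : Nat.card (A.map (toHol V)) * Nat.card ↥(V ⊓ Subgroup.centralizer (A : Set G))
      = Nat.card V := by
    by_cases hA1 : A.map (toHol V) = ⊥
    · rw [hA1, Subgroup.card_bot, one_mul]
      have : A ≤ Subgroup.centralizer (V : Set G) := by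
        rw [← ker_toHol V]; exact (Subgroup.map_eq_bot_iff _).mp hA1
      rw [inf_eq_left.mpr (Subgroup.le_centralizer_iff.mp this)]
    · obtain ⟨h1, h2, h3, h4⟩ := hyps V hsep hV hO
      have hAH : A.map (toHol V) ≤ (Cfsg.thompsonSubgroup p G).map (toHol V) :=
        Subgroup.map_mono (le_thompson hA)
      have hH1 : (Cfsg.thompsonSubgroup p G).map (toHol V) ≠ ⊥ :=
        fun h => hA1 (le_bot_iff.mp (h ▸ hAH))
      have := Cfsg.Agent.S0610.result (VH V) _ (VH_elem V hV) h1 h2 h3 h4 hH1 _ hAH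
        (bestOffender_map V (Cfsg.Agent.S0606.result V hV A hA)) hA1
      rwa [card_VH_inf_centralizer, card_VH] at this
  have hcm := card_map_mul V A
  have hVC : V ≤ Subgroup.centralizer (V : Set G) := by
    haveI := hV.1
    exact Subgroup.le_centralizer V
  have hAC : A ≤ Subgroup.centralizer (A : Set G) := by
    haveI := hA.1.1
    exact Subgroup.le_centralizer A
  obtain ⟨B, hB⟩ : ∃ B, B = (A ⊓ Subgroup.centralizer (V : Set G)) ⊔ V := ⟨_, rfl⟩
  have hBe : Cfsg.IsElementaryAbelian p B := by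
    rw [hB]
    exact elemAb_sup (elemAb_of_le inf_le_left hA.1) hV (Subgroup.le_centralizer_iff.mp inf_le_right)
  have hinf : (A ⊓ Subgroup.centralizer (V : Set G)) ⊓ V = V ⊓ Subgroup.centralizer (A : Set G) := by
    apply le_antisymm
    · intro x hx
      exact ⟨hx.2, hAC hx.1.1⟩
    · intro x hx
      refine ⟨⟨?_, hVC hx.1⟩, hx.1⟩
      exact le_of_maxElemAb hA (elemAb_of_le inf_le_left hV) inf_le_right hx
  have hcard := card_sup_mul_card_inf (A ⊓ Subgroup.centralizer (V : Set G)) V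
    (by rw [Subgroup.normalizer_eq_top_iff.mpr hVn]; exact le_top)
  rw [hinf, ← hB] at hcard
  have hBA : Nat.card B = Nat.card A := by
    have hpos : 0 < Nat.card ↥(V ⊓ Subgroup.centralizer (A : Set G)) := Nat.card_pos
    apply Nat.eq_of_mul_eq_mul_right hpos
    rw [hcard, ← hstar, ← mul_assoc, hcm]
  have hBmax : B ∈ Cfsg.maxElementaryAbelianSubgroups p G :=
    ⟨hBe, fun D hD => (hA.2 D hD).trans hBA.ge⟩
  have hBC : B ≤ Subgroup.centralizer (V : Set G) := by
    rw [hB]; exact sup_le inf_le_right hVC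
  have hBJ : B ≤ Cfsg.thompsonSubgroupOf p (Subgroup.centralizer (V : Set G)) := by
    rw [thompsonOf_eq hBmax hBC]; exact le_sSup ⟨hBmax, hBC⟩
  have hZB : Cfsg.omegaOne p (Cfsg.centerThompsonOf p (Subgroup.centralizer (V : Set G))) ≤ B := by
    unfold Cfsg.omegaOne
    rw [Subgroup.closure_le]
    rintro x ⟨hx1, hx2⟩
    apply mem_of_maxElemAb hBmax hx2
    exact Subgroup.centralizer_le (SetLike.coe_subset_coe.mpr hBJ) hx1.2
  refine (Subgroup.commutator_mono hZB le_rfl).trans ?_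
  rw [Subgroup.commutator_le]
  intro b hb x hx
  rw [hB] at hb
  obtain ⟨a, ha, v, hv, rfl⟩ := Subgroup.mem_sup_of_normal_right.mp hb
  have hax : a * x = x * a := (Subgroup.mem_centralizer_iff.mp (hAC hx) a ha.1)
  have h' : a⁻¹ * x⁻¹ = x⁻¹ * a⁻¹ := by rw [← mul_inv_rev, ← mul_inv_rev, hax]
  have : ⁅a * v, x⁆ = a * (v * (x * v⁻¹ * x⁻¹)) * a⁻¹ := by
    rw [commutatorElement_def]
    calc a * v * x * (a * v)⁻¹ * x⁻¹ = a * v * x * v⁻¹ * (a⁻¹ * x⁻¹) := by group
      _ = a * v * x * v⁻¹ * (x⁻¹ * a⁻¹) := by rw [h']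
      _ = _ := by group
  rw [this]
  exact hVn.conj_mem _ (V.mul_mem hv (hVn.conj_mem _ (V.inv_mem hv) x)) a

/-- For a p-separable group and a normal elementary abelian p-subgroup V with no nontrivial normal p-subgroup modulo its centralizer C, the Thompson subgroup J(G) moves Ω₁(Z(J(C))) only inside V. -/
theorem result {G : Type*} [Group G] [Finite G] {p : ℕ} [Fact p.Prime] (hsep : Cfsg.IsPSolvable p G) (V : Subgroup G) [V.Normal] (hV : Cfsg.IsElementaryAbelian p V) (hO : Cfsg.pCore p (G ⧸ Subgroup.centralizer (V : Set G)) = ⊥) : ⁅Cfsg.omegaOne p (Cfsg.centerThompsonOf p (Subgroup.centralizer (V : Set G))), Cfsg.thompsonSubgroup p G⁆ ≤ V := by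
  rw [← QuotientGroup.ker_mk' V, ← Subgroup.map_eq_bot_iff, Subgroup.map_commutator,
    Subgroup.commutator_eq_bot_iff_le_centralizer, Subgroup.le_centralizer_iff,
    Subgroup.map_le_iff_le_comap]
  apply sSup_le
  intro A hA
  rw [← Subgroup.map_le_iff_le_comap, ← Subgroup.le_centralizer_iff,
    ← Subgroup.commutator_eq_bot_iff_le_centralizer, ← Subgroup.map_commutator,
    Subgroup.map_eq_bot_iff, QuotientGroup.ker_mk']
  exact key hsep V hV hO A hA

end Cfsg.Agent.S0619
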