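import Cfsg.Statements.S0620
import Mathlib
import Cfsg.Agent.Lib.Helper4.CoprimeBlk3

set_option autoImplicit false
open Cfsg

namespace Cfsg.Agent.S0620

/-- Under coprime action of an elementary abelian q-group X on a p-separable group K with trivial p'-core, K is generated by the normalizer of J(S), the centralizer of Ω₁(Z(S)) and the fixed points of X. -/
theorem result {G : Type*} [Group G] [Finite G] {p : ℕ} [Fact p.Prime] {q : ℕ} [Fact q.Prime] (K X : Subgroup G) (hXK : X ≤ Subgroup.normalizer (K : Set G)) (hX : Cfsg.IsElementaryAbelian q X) (hq : ¬ q ∣ Nat.card K) (hsep : Cfsg.IsPSolvable p ↥K) (hO : Cfsg.pPrimeCore p ↥K = ⊥) (S : Sylow p ↥K) : (Subgroup.normalizer (Cfsg.thompsonSubgroupOf p (S : Subgroup ↥K) : Set ↥K) ⊔ Subgroup.centralizer (Cfsg.omegaOne p ((S : Subgroup ↥K) ⊓ Subgroup.centralizer ((S : Subgroup ↥K) : Set ↥K)) : Set ↥K) ⊔ (Subgroup.centralizer (X : Set G)).subgroupOf K) = ⊤ := by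
  classical
  have hinv : ∀ x : X, ∀ k ∈ K, MulAut.conj x.1 k ∈ K := by
    intro x k hk
    exact (Subgroup.mem_normalizer_iff.mp (hXK x.2) k).mp hk
  let A : X →* MulAut ↥K := MonoidHom.mk'
    (fun x => Cfsg.Agent.S0640.resAut (MulAut.conj x.1) K (hinv x)) (by
      intro a b
      apply MulEquiv.ext
      intro k
      apply Subtype.ext
      show (a.1 * b.1) * k.1 * (a.1 * b.1)⁻¹ = a.1 * (b.1 * k.1 * b.1⁻¹) * a.1⁻¹
      group)
  have hXq : ∀ α ∈ A.range, α ^ q = 1 := by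
    rintro _ ⟨x, rfl⟩
    rw [← map_pow]
    have : x ^ q = 1 := Subtype.ext (hX.2 x.1 x.2)
    rw [this, map_one]
  apply Cfsg.Agent.Lib.Helper4.CoprimeBlk.thmT hsep hO q hq A.range hXq S
  intro g hg
  rw [Subgroup.mem_subgroupOf, Subgroup.mem_centralizer_iff]
  intro x hx
  have h1 := hg (A ⟨x, hx⟩) ⟨_, rfl⟩
  have h2 : x * g.1 * x⁻¹ = g.1 := congrArg Subtype.val h1
  calc x * g.1 = (x * g.1 * x⁻¹) * x := by group
    _ = g.1 * x := by rw [h2]

end Cfsg.Agent.S0620
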