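import Cfsg.Statements.S0621
import Mathlib
import Cfsg.Agent.Lib.Helper4.CoprimeBlk7

set_option autoImplicit false
open Cfsg

namespace Cfsg.Agent.S0621

/-- Let K be p-separable with O_p'(K) = 1, normalized by an elementary abelian q-group X for a prime q not dividing the order of K. If the Thompson factorization fails in K, then p is 2 or 3 and the fixed points of X contain a plane W of order p² and a subgroup inducing SL(2, p) on it. -/
theorem result {G : Type*} [Group G] [Finite G] {p : ℕ} [Fact p.Prime] {q : ℕ} [Fact q.Prime] (K X : Subgroup G) (hXK : X ≤ Subgroup.normalizer (K : Set G)) (hX : Cfsg.IsElementaryAbelian q X) (hq : ¬ q ∣ Nat.card K) (hsep : Cfsg.IsPSolvable p ↥K) (hO : Cfsg.pPrimeCore p ↥K = ⊥) (hnf : ¬ Cfsg.IsThompsonFactorizable p ↥K) : (p = 2 ∨ p = 3) ∧ ∃ W D : Subgroup G, W ≤ K ⊓ Subgroup.centralizer (X : Set G) ∧ D ≤ K ⊓ Subgroup.centralizer (X : Set G) ∧ Cfsg.IsElementaryAbelian p W ∧ Nat.card W = p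 ^ 2 ∧ D ≤ Subgroup.normalizer (W : Set G) ∧ ∃ hn : ((Subgroup.centralizer (W : Set G)).subgroupOf D).Normal, Nonempty ((↥D ⧸ (Subgroup.centralizer (W : Set G)).subgroupOf D) ≃* Matrix.SpecialLinearGroup (Fin 2) (ZMod p)) := by
  classical
  have hinv : ∀ x : X, ∀ k ∈ K, MulAut.conj x.1 k ∈ K := by
    intro x k hk
    exact (Subgroup.mem_normalizer_iff.mp (hXK x.2) k).mp hk
  let A : X →* MulAut ↥K := MonoidHom.mk'
    (fun x => Cfsg.Agent.S0640.resAut (MulAut.conj x.1) K (hinv x)) (by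
      intro a b
      apply MulEquiv.ext
      intro k
      apply Subtype.ext
      show (a.1 * b.1) * k.1 * (a.1 * b.1)⁻¹ = a.1 * (b.1 * k.1 * b.1⁻¹) * a.1⁻¹
      group)
  have hXq : ∀ α ∈ A.range, α ^ q = 1 := by
    rintro _ ⟨x, rfl⟩
    rw [← map_pow]
    have : x ^ q = 1 := Subtype.ext (hX.2 x.1 x.2)
    rw [this, map_one]
  obtain ⟨hp23, W, D, hW1, hD1, hWe, hWc, hDW, Ψ, hΨs, hΨk⟩ :=
    Cfsg.Agent.Lib.Helper4.CoprimeBlk.thmT2 hsep hO hnf q hq A.range hXq
  have hfix : ∀ g : ↥K, (∀ α ∈ A.range, α g = g) → g.1 ∈ K ⊓ Subgroup.centralizer (X : Set G) := by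
    intro g hg
    refine ⟨g.2, ?_⟩
    show g.1 ∈ Subgroup.centralizer (X : Set G)
    rw [Subgroup.mem_centralizer_iff]
    intro x hx
    have h1 := hg (A ⟨x, hx⟩) ⟨_, rfl⟩
    have h2 : x * g.1 * x⁻¹ = g.1 := congrArg Subtype.val h1
    calc x * g.1 = (x * g.1 * x⁻¹) * x := by group
      _ = g.1 * x := by rw [h2]
  refine ⟨hp23, W.map K.subtype, D.map K.subtype, ?_, ?_, ?_, ?_, ?_, ?_⟩
  · rintro _ ⟨w, hw, rfl⟩
    exact hfix w (hW1 w hw)
  · rintro _ ⟨d, hd, rfl⟩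
    exact hfix d (hD1 d hd)
  · exact Cfsg.Agent.Lib.Helper5.elemAb_map _ hWe
  · rw [Subgroup.card_map_of_injective K.subtype_injective, hWc]
  · apply Cfsg.Agent.Lib.Helper17.le_normalizer_of_conj_mem
    rintro _ ⟨d, hd, rfl⟩ _ ⟨w, hw, rfl⟩
    exact ⟨d * w * d⁻¹, (Subgroup.mem_normalizer_iff.mp (hDW hd) w).mp hw, rfl⟩
  · let e := D.equivMapOfInjective K.subtype K.subtype_injective
    apply Cfsg.Agent.Lib.Helper4.CoprimeBlk.quot_of_hom _ (Ψ.comp e.symm.toMonoidHom)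
    · exact hΨs.comp e.symm.surjective
    · intro d
      obtain ⟨d0, rfl⟩ := e.surjective d
      show Ψ (e.symm (e d0)) = 1 ↔ _
      rw [MulEquiv.symm_apply_apply, hΨk, Subgroup.mem_subgroupOf, Subgroup.mem_centralizer_iff,
        Subgroup.mem_centralizer_iff]
      constructor
      · rintro h _ ⟨w, hw, rfl⟩
        exact congrArg Subtype.val (h w hw)
      · intro h w hw
        exact Subtype.ext (h w.1 ⟨w, hw, rfl⟩)

end Cfsg.Agent.S0621
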