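import Cfsg.Statements.S0629
import Cfsg.Agent.Lib.Helper5.PConstrained

set_option autoImplicit false
open Cfsg

namespace Cfsg.Agent.S0629

/-- A group in which the centralizer of a Sylow p-subgroup of O_{p',p}(G) is p-solvable is p-constrained. -/
theorem result {G : Type*} [Group G] [Finite G] {p : ℕ} [Fact p.Prime] (P : Sylow p ↥(Cfsg.pPrimePCore p G)) (hsol : Cfsg.IsPSolvable p ↥(Subgroup.centralizer (((P : Subgroup ↥(Cfsg.pPrimePCore p G)).map (Cfsg.pPrimePCore p G).subtype : Subgroup G) : Set G))) : Cfsg.IsPConstrained p G := by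
  rw [Cfsg.Agent.Lib.Helper5.isPConstrained_iff]
  set N := Cfsg.pPrimeCore p G with hN
  set X := (P : Subgroup ↥(Cfsg.pPrimePCore p G)).map (Cfsg.pPrimePCore p G).subtype with hX
  have hXmap : X.map (QuotientGroup.mk' N) = Cfsg.pCore p (G ⧸ N) :=
    Cfsg.Agent.Lib.Helper5.map_sylow_pPrimePCore P
  have hXp : IsPGroup p X := P.2.map _
  set Pb := Cfsg.pCore p (G ⧸ N) with hPb
  set Cb := Subgroup.centralizer (Pb : Set (G ⧸ N)) with hCb
  have hCbn : Cb.Normal := inferInstance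
  -- the surjection C_G(X) → Cb
  have hmaps : ∀ c : ↥(Subgroup.centralizer (X : Set G)), QuotientGroup.mk' N (c : G) ∈ Cb := by
    intro c
    rw [hCb, ← hXmap, Subgroup.mem_centralizer_iff]
    rintro _ ⟨x, hx, rfl⟩
    rw [← map_mul, ← map_mul, c.2 x hx]
  let f : ↥(Subgroup.centralizer (X : Set G)) →* ↥Cb :=
    ((QuotientGroup.mk' N).comp (Subgroup.centralizer (X : Set G)).subtype).codRestrict Cb hmaps
  have hf : Function.Surjective f := by
    rintro ⟨c, hc⟩
    obtain ⟨g, rfl⟩ := QuotientGroup.mk'_surjective N c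
    rw [hCb, ← hXmap] at hc
    obtain ⟨x, hx, hxg⟩ := Cfsg.Agent.Lib.Helper5.exists_mem_centralizer_of_quot
      Cfsg.Agent.Lib.Helper5.pPrimeCore_coprime hXp hc
    exact ⟨⟨x, hx⟩, Subtype.ext hxg⟩
  have hCsol : Cfsg.IsPSolvable p ↥Cb := Cfsg.Agent.Lib.Helper5.isPSolvable_of_surjective f hf hsol
  have hO' : Cfsg.pPrimeCore p ↥Cb = ⊥ := by
    haveI := Cfsg.Agent.Lib.Helper5.pPrimeCore_characteristic (G := ↥Cb) (p := p)
    have h1 : ((Cfsg.pPrimeCore p ↥Cb).map Cb.subtype).Normal := inferInstance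
    have h2 := Cfsg.Agent.Lib.Helper5.le_pPrimeCore (p := p) h1 (by
      rw [Subgroup.card_map_of_injective Cb.subtype_injective]
      exact Cfsg.Agent.Lib.Helper5.pPrimeCore_coprime)
    rw [Cfsg.Agent.Lib.Helper5.pPrimeCore_quot_pPrimeCore, le_bot_iff,
      Subgroup.map_eq_bot_iff_of_injective _ Cb.subtype_injective] at h2
    exact h2
  have hHH := Cfsg.Agent.Lib.Helper5.centralizer_pCore_le hCsol hO'
  have hOp : (Cfsg.pCore p ↥Cb).map Cb.subtype ≤ Pb := by
    haveI := Cfsg.Agent.Lib.Helper5.pCore_characteristic (G := ↥Cb) (p := p)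
    have h1 : ((Cfsg.pCore p ↥Cb).map Cb.subtype).Normal := inferInstance
    exact Cfsg.Agent.Lib.Helper5.le_pCore h1 (Cfsg.Agent.Lib.Helper5.pCore_isPGroup.map _)
  intro c hc
  have h1 : (⟨c, hc⟩ : Cb) ∈ Subgroup.centralizer (Cfsg.pCore p ↥Cb : Set ↥Cb) := by
    rw [Subgroup.mem_centralizer_iff]
    intro y hy
    apply Subtype.ext
    exact hc y (hOp ⟨y, hy, rfl⟩)
  exact hOp ⟨_, hHH h1, rfl⟩

end Cfsg.Agent.S0629
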