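import Cfsg.Statements.S0632
import Cfsg.Agent.Lib.Helper5.PStable

set_option autoImplicit false
open Cfsg

namespace Cfsg.Agent.S0632

/-- For a group with a nontrivial normal p-subgroup, p-stability passes to and from the quotient by the largest normal subgroup of order prime to p. -/
theorem result {G : Type*} [Group G] [Finite G] {p : ℕ} [Fact p.Prime] (hO : Cfsg.pCore p G ≠ ⊥) : Cfsg.IsPStable p G ↔ Cfsg.IsPStable p (G ⧸ Cfsg.pPrimeCore p G) := by
  have hN : (Nat.card (Cfsg.pPrimeCore p G)).Coprime p := Cfsg.Agent.Lib.Helper5.pPrimeCore_coprime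
  have hbot : Cfsg.pPrimeCore p (G ⧸ Cfsg.pPrimeCore p G) = ⊥ :=
    Cfsg.Agent.Lib.Helper5.pPrimeCore_quot_pPrimeCore
  have hs : Function.Surjective (QuotientGroup.mk' (Cfsg.pPrimeCore p G)) :=
    QuotientGroup.mk'_surjective _
  constructor
  · rintro ⟨hodd, _, h⟩
    refine ⟨hodd, ?_, ?_⟩
    · intro hb
      apply hO
      have h1 : (Cfsg.pCore p G).map (QuotientGroup.mk' (Cfsg.pPrimeCore p G)) ≤
          Cfsg.pCore p (G ⧸ Cfsg.pPrimeCore p G) :=
        Cfsg.Agent.Lib.Helper5.le_pCore (Subgroup.Normal.map inferInstance _ hs)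
          (Cfsg.Agent.Lib.Helper5.pCore_isPGroup.map _)
      rw [hb, le_bot_iff, Subgroup.map_eq_bot_iff, QuotientGroup.ker_mk'] at h1
      have h2 : Cfsg.pCore p G ≤ Cfsg.pCore p G ⊓ Cfsg.pPrimeCore p G := le_inf le_rfl h1
      rw [Cfsg.Agent.Lib.Helper5.pgroup_inf_coprime_eq_bot
        Cfsg.Agent.Lib.Helper5.pCore_isPGroup hN] at h2
      exact eq_bot_iff.mpr h2
    · intro Ab Pb hAb hPb hnorm hle hnormal hcomm
      rw [hbot, bot_sup_eq] at hnormal
      have hAN : Ab ≤ Subgroup.normalizer (Pb : Set _) := Subgroup.le_normalizer_of_normal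
      obtain ⟨S, hS, hSm⟩ := Cfsg.Agent.Lib.Helper5.exists_pgroup_lift (Cfsg.pPrimeCore p G)
        (Ab ⊔ Pb) (IsPGroup.to_sup_of_normal_right' hAb hPb hAN)
      have hA : (S ⊓ Ab.comap (QuotientGroup.mk' (Cfsg.pPrimeCore p G))).map
          (QuotientGroup.mk' (Cfsg.pPrimeCore p G)) = Ab := by
        apply le_antisymm
        · rintro _ ⟨x, hx, rfl⟩
          exact (Subgroup.mem_inf.mp hx).2
        · intro y hy
          have : y ∈ S.map (QuotientGroup.mk' (Cfsg.pPrimeCore p G)) := by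
            rw [hSm]; exact (le_sup_left : Ab ≤ Ab ⊔ Pb) hy
          obtain ⟨x, hx, rfl⟩ := this
          exact ⟨x, Subgroup.mem_inf.mpr ⟨hx, hy⟩, rfl⟩
      have hPm : (S ⊓ Pb.comap (QuotientGroup.mk' (Cfsg.pPrimeCore p G))).map
          (QuotientGroup.mk' (Cfsg.pPrimeCore p G)) = Pb := by
        apply le_antisymm
        · rintro _ ⟨x, hx, rfl⟩
          exact (Subgroup.mem_inf.mp hx).2
        · intro y hy
          have : y ∈ S.map (QuotientGroup.mk' (Cfsg.pPrimeCore p G)) := by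
            rw [hSm]; exact (le_sup_right : Pb ≤ Ab ⊔ Pb) hy
          obtain ⟨x, hx, rfl⟩ := this
          exact ⟨x, Subgroup.mem_inf.mpr ⟨hx, hy⟩, rfl⟩
      have hconj : ∀ a ∈ S ⊓ Ab.comap (QuotientGroup.mk' (Cfsg.pPrimeCore p G)),
          ∀ x ∈ S ⊓ Pb.comap (QuotientGroup.mk' (Cfsg.pPrimeCore p G)),
          a * x * a⁻¹ ∈ S ⊓ Pb.comap (QuotientGroup.mk' (Cfsg.pPrimeCore p G)) := by
        intro a ha x hx
        have ha' := Subgroup.mem_inf.mp ha
        have hx' := Subgroup.mem_inf.mp hx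
        refine Subgroup.mem_inf.mpr ⟨S.mul_mem (S.mul_mem ha'.1 hx'.1) (S.inv_mem ha'.1), ?_⟩
        rw [Subgroup.mem_comap]
        simp only [map_mul, map_inv]
        exact hnorm _ ha'.2 _ hx'.2
      have key := h (S ⊓ Ab.comap (QuotientGroup.mk' (Cfsg.pPrimeCore p G)))
        (S ⊓ Pb.comap (QuotientGroup.mk' (Cfsg.pPrimeCore p G)))
        (hS.to_le inf_le_left) (hS.to_le inf_le_left) hconj ?_ ?_ ?_
      · rw [Cfsg.Agent.Lib.Helper5.stab_iff (Cfsg.pPrimeCore p G) hN _ _ (hS.to_le inf_le_left)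
          (Cfsg.Agent.Lib.Helper5.le_normalizer_of_conj_mem _ _ hconj), hA, hPm] at key
        exact key
      · refine inf_le_right.trans ?_
        exact Subgroup.comap_mono (Cfsg.Agent.Lib.Helper5.le_pCore hnormal hPb)
      · have : Cfsg.pPrimeCore p G ⊔ (S ⊓ Pb.comap (QuotientGroup.mk' (Cfsg.pPrimeCore p G))) =
            Pb.comap (QuotientGroup.mk' (Cfsg.pPrimeCore p G)) := by
          conv_rhs => rw [← hPm]
          rw [Subgroup.comap_map_eq, QuotientGroup.ker_mk', sup_comm]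
        rw [this]
        exact hnormal.comap _
      · have h1 : ⁅⁅S ⊓ Pb.comap (QuotientGroup.mk' (Cfsg.pPrimeCore p G)),
            S ⊓ Ab.comap (QuotientGroup.mk' (Cfsg.pPrimeCore p G))⁆,
            S ⊓ Ab.comap (QuotientGroup.mk' (Cfsg.pPrimeCore p G))⁆ ≤ S := by
          have h0 : ⁅S ⊓ Pb.comap (QuotientGroup.mk' (Cfsg.pPrimeCore p G)),
            S ⊓ Ab.comap (QuotientGroup.mk' (Cfsg.pPrimeCore p G))⁆ ≤ S :=
            (Subgroup.commutator_mono inf_le_left inf_le_left).trans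
              (Subgroup.commutator_le_self S)
          exact (Subgroup.commutator_mono h0 inf_le_left).trans (Subgroup.commutator_le_self S)
        have h2 : ⁅⁅S ⊓ Pb.comap (QuotientGroup.mk' (Cfsg.pPrimeCore p G)),
            S ⊓ Ab.comap (QuotientGroup.mk' (Cfsg.pPrimeCore p G))⁆,
            S ⊓ Ab.comap (QuotientGroup.mk' (Cfsg.pPrimeCore p G))⁆ ≤ Cfsg.pPrimeCore p G := by
          conv_rhs => rw [← QuotientGroup.ker_mk' (Cfsg.pPrimeCore p G)]
          rw [← Subgroup.map_eq_bot_iff, Subgroup.map_commutator, Subgroup.map_commutator,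
            hA, hPm, hcomm]
        have h3 := le_inf h1 h2
        rw [Cfsg.Agent.Lib.Helper5.pgroup_inf_coprime_eq_bot hS hN] at h3
        exact eq_bot_iff.mpr h3
  · rintro ⟨hodd, _, h⟩
    refine ⟨hodd, hO, ?_⟩
    intro A P hA hP hnorm hle hnormal hcomm
    have hAP : A ≤ Subgroup.normalizer (P : Set G) :=
      Cfsg.Agent.Lib.Helper5.le_normalizer_of_conj_mem _ _ hnorm
    rw [Cfsg.Agent.Lib.Helper5.stab_iff (Cfsg.pPrimeCore p G) hN A P hP hAP]
    apply h (A.map (QuotientGroup.mk' (Cfsg.pPrimeCore p G)))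
      (P.map (QuotientGroup.mk' (Cfsg.pPrimeCore p G))) (hA.map _) (hP.map _)
    · rintro _ ⟨a, ha, rfl⟩ _ ⟨x, hx, rfl⟩
      exact ⟨a * x * a⁻¹, hnorm a ha x hx, by simp⟩
    · have h1 : P.map (QuotientGroup.mk' (Cfsg.pPrimeCore p G)) ≤
          Cfsg.pCore p (G ⧸ Cfsg.pPrimeCore p G) := by
        rw [Subgroup.map_le_iff_le_comap]; exact hle
      refine h1.trans ?_
      show _ ≤ Subgroup.comap _ _
      rw [← Subgroup.map_le_iff_le_comap]
      exact Cfsg.Agent.Lib.Helper5.le_pCore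
        (Subgroup.Normal.map inferInstance _ (QuotientGroup.mk'_surjective _))
        (Cfsg.Agent.Lib.Helper5.pCore_isPGroup.map _)
    · rw [hbot, bot_sup_eq]
      have : P.map (QuotientGroup.mk' (Cfsg.pPrimeCore p G)) =
          (Cfsg.pPrimeCore p G ⊔ P).map (QuotientGroup.mk' (Cfsg.pPrimeCore p G)) := by
        rw [Subgroup.map_sup, (Subgroup.map_eq_bot_iff _).mpr (QuotientGroup.ker_mk' _).ge,
          bot_sup_eq]
      rw [this]
      exact hnormal.map _ hs
    · rw [← Subgroup.map_commutator, ← Subgroup.map_commutator, hcomm, Subgroup.map_bot]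

end Cfsg.Agent.S0632
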