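import Cfsg.Statements.S0634
import Cfsg.Agent.Lib.Helper5.UpperSeries

set_option autoImplicit false
open Cfsg

namespace Cfsg.Agent.S0634

/-- In a p-soluble group each p-factor of the upper p-series contains its own centralizer in the corresponding quotient. -/
theorem result {G : Type*} [Group G] [Finite G] {p : ℕ} [Fact p.Prime] (hsol : Cfsg.IsPSolvable p G) (k : ℕ) : Subgroup.centralizer ((((Cfsg.upperPSeries p G (2 * k + 2)).1.map (QuotientGroup.mk' (Cfsg.upperPSeries p G (2 * k + 1)).1)) : Subgroup (G ⧸ (Cfsg.upperPSeries p G (2 * k + 1)).1)) : Set (G ⧸ (Cfsg.upperPSeries p G (2 * k + 1)).1)) ≤ (Cfsg.upperPSeries p G (2 * k + 2)).1.map (QuotientGroup.mk' (Cfsg.upperPSeries p G (2 * k + 1)).1) := by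
  have hs : Function.Surjective (QuotientGroup.mk' (Cfsg.upperPSeries p G (2 * k + 1)).1) :=
    QuotientGroup.mk'_surjective _
  have h1 : (Cfsg.upperPSeries p G (2 * k + 2)).1.map
      (QuotientGroup.mk' (Cfsg.upperPSeries p G (2 * k + 1)).1) =
      Cfsg.pCore p (G ⧸ (Cfsg.upperPSeries p G (2 * k + 1)).1) := by
    rw [show 2 * k + 2 = (2 * k + 1) + 1 from rfl,
      Cfsg.Agent.Lib.Helper5.upperPSeries_succ_odd (2 * k + 1) (by simp [Nat.even_add_one]),
      Subgroup.map_comap_eq_self_of_surjective hs]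
  rw [h1]
  apply Cfsg.Agent.Lib.Helper5.centralizer_pCore_le
  · exact Cfsg.Agent.Lib.Helper5.isPSolvable_of_surjective _ hs hsol
  · exact Cfsg.Agent.Lib.Helper5.pPrimeCore_quot_eq_bot_of_eq (Cfsg.upperPSeries p G (2 * k)).1 _
      (Cfsg.Agent.Lib.Helper5.upperPSeries_succ_even (2 * k) (by simp))

end Cfsg.Agent.S0634
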