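import Cfsg.Statements.S0635
import Cfsg.Agent.Lib.Helper5.UpperSeries2

set_option autoImplicit false
open Cfsg

namespace Cfsg.Agent.S0635

open Cfsg.Agent.Lib.Helper5 in
theorem aux.{u} {p : ℕ} [Fact p.Prime] : ∀ (c : ℕ) (G : Type u) [Group G] [Finite G],
    Cfsg.IsPSolvable p G → ∀ S : Sylow p G, Group.nilpotencyClass ↥(S : Subgroup G) ≤ c →
    Cfsg.PLengthLE p c G := by
  intro c
  induction c with
  | zero =>
    intro G _ _ hsol S hc
    haveI : Group.IsNilpotent ↥(S : Subgroup G) := S.2.isNilpotent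
    have h1 : Subsingleton ↥(S : Subgroup G) :=
      Group.nilpotencyClass_zero_iff_subsingleton.mp (Nat.le_zero.mp hc)
    have h2 : (S : Subgroup G) = ⊥ := Subgroup.eq_bot_of_subsingleton _
    have h3 : ¬ p ∣ Nat.card G := by
      have := S.not_dvd_index
      rwa [h2, Subgroup.index_bot] at this
    show (Cfsg.upperPSeries p G (2 * 0 + 1)).1 = ⊤
    rw [show 2 * 0 + 1 = 0 + 1 from rfl, upperPSeries_succ_even 0 (by simp)]
    have h4 : Cfsg.pPrimeCore p (G ⧸ (Cfsg.upperPSeries p G 0).1) = ⊤ := by
      rw [eq_top_iff]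
      apply le_pPrimeCore inferInstance
      rw [Subgroup.card_top]
      have : Nat.card (G ⧸ (Cfsg.upperPSeries p G 0).1) ∣ Nat.card G :=
        Subgroup.card_quotient_dvd_card _
      exact Nat.Coprime.of_dvd_left this ((Nat.Prime.coprime_iff_not_dvd Fact.out).mpr h3).symm
    rw [h4, Subgroup.comap_top]
  | succ c ih =>
    intro G _ _ hsol S hc
    haveI : Group.IsNilpotent ↥(S : Subgroup G) := S.2.isNilpotent
    have hs1 := QuotientGroup.mk'_surjective (Cfsg.upperPSeries p G 1).1
    have hs2 := QuotientGroup.mk'_surjective (Cfsg.upperPSeries p G 2).1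
    have hZ : ∀ z ∈ (S : Subgroup G), (∀ s ∈ (S : Subgroup G), s * z = z * s) →
        z ∈ (Cfsg.upperPSeries p G 2).1 := by
      intro z hz hcomm
      rw [show 2 = 1 + 1 from rfl, upperPSeries_succ_odd 1 (by simp), Subgroup.mem_comap]
      apply centralizer_pCore_le (isPSolvable_of_surjective _ hs1 hsol)
        (pPrimeCore_quot_eq_bot_of_eq (Cfsg.upperPSeries p G 0).1 _
          (upperPSeries_succ_even 0 (by simp)))
      intro y hy
      have hy2 : y ∈ ((S.mapSurjective hs1 : Sylow p _) : Subgroup _) := pCore_le_sylow _ hy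
      rw [Sylow.coe_mapSurjective] at hy2
      obtain ⟨s, hs, rfl⟩ := hy2
      rw [← map_mul, ← map_mul, hcomm s hs]
    have hcl : Group.nilpotencyClass
        ↥((S.mapSurjective hs2 : Sylow p _) : Subgroup (G ⧸ (Cfsg.upperPSeries p G 2).1)) ≤ c := by
      rw [Sylow.coe_mapSurjective]
      let f := (QuotientGroup.mk' (Cfsg.upperPSeries p G 2).1).subgroupMap (S : Subgroup G)
      have hf : Function.Surjective f := MonoidHom.subgroupMap_surjective _ _
      have hker : ∀ x ∈ Subgroup.center ↥(S : Subgroup G), f x = 1 := by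
        intro x hx
        apply Subtype.ext
        show QuotientGroup.mk' (Cfsg.upperPSeries p G 2).1 (x : G) = 1
        rw [← MonoidHom.mem_ker, QuotientGroup.ker_mk']
        apply hZ _ x.2
        intro s hs
        exact congrArg Subtype.val (Subgroup.mem_center_iff.mp hx ⟨s, hs⟩)
      have h1 := Group.nilpotencyClass_le_of_surjective
        (QuotientGroup.lift (Subgroup.center ↥(S : Subgroup G)) f hker)
        (QuotientGroup.lift_surjective_of_surjective _ _ hf _)
      rw [Group.nilpotencyClass_quotient_center] at h1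
      omega
    have h := ih (G ⧸ (Cfsg.upperPSeries p G 2).1) (isPSolvable_of_surjective _ hs2 hsol) _ hcl
    show (Cfsg.upperPSeries p G (2 * (c + 1) + 1)).1 = ⊤
    have h' : (Cfsg.upperPSeries p (G ⧸ (Cfsg.upperPSeries p G 2).1) (2 * c + 1)).1 = ⊤ := h
    rw [show 2 * (c + 1) + 1 = (2 * c + 1) + 2 by ring, upperPSeries_shift, h', Subgroup.comap_top]

/-- The p-length of a p-soluble group is at most the nilpotency class of its Sylow p-subgroups. -/
theorem result {G : Type*} [Group G] [Finite G] {p : ℕ} [Fact p.Prime] (hsol : Cfsg.IsPSolvable p G) (S : Sylow p G) : Cfsg.PLengthLE p (Group.nilpotencyClass ↥(S : Subgroup G)) G := by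
  exact aux _ G hsol S le_rfl

end Cfsg.Agent.S0635
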