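import Cfsg.Statements.S0636
import Cfsg.Agent.S0127
import Cfsg.Agent.Lib.Helper14.NormalChain

set_option autoImplicit false
open Cfsg

namespace Cfsg.Agent.S0636

/-- For odd p, every non-cyclic normal subgroup of a p-group contains a normal elementary abelian subgroup of the whole group of order p². -/
theorem result {R : Type*} [Group R] [Finite R] {p : ℕ} [Fact p.Prime] (hp : p ≠ 2) (hR : IsPGroup p R) (S : Subgroup R) [S.Normal] (hS : ¬ IsCyclic S) : ∃ A : Subgroup R, A ≤ S ∧ A.Normal ∧ Cfsg.IsElementaryAbelian p A ∧ Nat.card A = p ^ 2 := by
  have hpp : p.Prime := Fact.out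
  have main : ∀ (n : ℕ) (S : Subgroup R), S.Normal → ¬ IsCyclic S → Nat.card S = p ^ n →
      ∃ A : Subgroup R, A ≤ S ∧ A.Normal ∧ Cfsg.IsElementaryAbelian p A ∧ Nat.card A = p ^ 2 := by
    intro n
    induction n with
    | zero =>
      intro S _ hS hc
      exfalso
      apply hS
      rw [pow_zero] at hc
      haveI : Subsingleton S := (Nat.card_eq_one_iff_unique.1 hc).1
      exact isCyclic_of_subsingleton
    | succ n ih =>
      intro S hSn hS hc
      haveI := hSn
      obtain ⟨M, hMn, hMS, hMc⟩ := Cfsg.Agent.Lib.Helper14.exists_normal_le_card p hR S n (by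
        rw [hc]; exact Nat.pow_le_pow_right hpp.pos (Nat.le_succ n))
      by_cases hMcyc : IsCyclic M
      · -- apply S0127 to `S`
        have hidx : (M.subgroupOf S).index = p := by
          have h1 := Subgroup.card_mul_index (M.subgroupOf S)
          rw [Nat.card_congr (Subgroup.subgroupOfEquivOfLe hMS).toEquiv, hMc, hc, pow_succ] at h1
          exact Nat.eq_of_mul_eq_mul_left (pow_pos hpp.pos n) h1
        have hcyc' : IsCyclic (M.subgroupOf S) :=
          isCyclic_of_surjective (Subgroup.subgroupOfEquivOfLe hMS).symm
            (Subgroup.subgroupOfEquivOfLe hMS).symm.surjective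
        obtain ⟨hel, hcard⟩ := Cfsg.Agent.S0127.result hp (hR.to_subgroup S) hS
          (M.subgroupOf S) hcyc' hidx
        set Ω : Subgroup S := Subgroup.closure {x : S | x ^ p = 1} with hΩ
        refine ⟨Ω.map S.subtype, ?_, ?_, ?_, ?_⟩
        · rintro _ ⟨x, -, rfl⟩
          exact x.2
        · have hchar : ∀ g : R, ∀ x : S, x ∈ Ω →
              (⟨g * x * g⁻¹, hSn.conj_mem x x.2 g⟩ : S) ∈ Ω := by
            intro g x hx
            induction hx using Subgroup.closure_induction with
            | mem y hy =>
              apply Subgroup.subset_closure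
              show _ ^ p = 1
              apply Subtype.ext
              have hy' : (y : R) ^ p = 1 := by
                have := congrArg Subtype.val hy
                simpa using this
              show (g * y * g⁻¹) ^ p = 1
              rw [conj_pow, hy', mul_one, mul_inv_cancel]
            | one =>
              convert Ω.one_mem using 1
              apply Subtype.ext
              simp
            | mul y z _ _ hy hz =>
              convert Ω.mul_mem hy hz using 1
              apply Subtype.ext
              simp [mul_assoc]
            | inv y _ hy =>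
              convert Ω.inv_mem hy using 1
              apply Subtype.ext
              simp [mul_assoc]
          refine ⟨fun a ha g => ?_⟩
          obtain ⟨x, hx, rfl⟩ := ha
          exact ⟨_, hchar g x hx, rfl⟩
        · refine ⟨⟨⟨fun a b => ?_⟩⟩, ?_⟩
          · obtain ⟨a, x, hx, rfl⟩ := a
            obtain ⟨b, y, hy, rfl⟩ := b
            apply Subtype.ext
            have := hel.1.is_comm.comm ⟨x, hx⟩ ⟨y, hy⟩
            have h2 := congrArg (fun w : Ω => ((w : S) : R)) this
            exact h2
          · rintro _ ⟨x, hx, rfl⟩
            have := hel.2 x hx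
            have h2 := congrArg Subtype.val this
            simpa using h2
        · rw [Nat.card_congr (Subgroup.equivMapOfInjective Ω S.subtype
            S.subtype_injective).symm.toEquiv]
          exact hcard
      · obtain ⟨A, hAM, hAn, hAe, hAc⟩ := ih M hMn hMcyc hMc
        exact ⟨A, hAM.trans hMS, hAn, hAe, hAc⟩
  obtain ⟨n, hn⟩ := IsPGroup.iff_card.mp (hR.to_subgroup S)
  exact main n S inferInstance hS hn

end Cfsg.Agent.S0636
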