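import Cfsg.Statements.S0638
import Cfsg.Agent.Lib.Helper4.Metacyclic6

set_option autoImplicit false
open Cfsg

namespace Cfsg.Agent.S0638

open scoped commutatorElement
open Cfsg.Agent.Lib.Helper4.MC

/-- For odd p, in a non-cyclic metacyclic p-group the elements of order dividing p generate an elementary abelian subgroup of order p². -/
theorem result {R : Type*} [Group R] [Finite R] {p : ℕ} [Fact p.Prime] (hp : p ≠ 2) (hR : IsPGroup p R) (hm : Cfsg.IsMetacyclic R) (hnc : ¬ IsCyclic R) : Cfsg.IsElementaryAbelian p (Cfsg.omegaOne p (⊤ : Subgroup R)) ∧ Nat.card ↥(Cfsg.omegaOne p (⊤ : Subgroup R)) = p ^ 2 := by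
  have hpp : p.Prime := Fact.out
  obtain ⟨N, hN, hc, hq⟩ := hm
  obtain ⟨a, b, h⟩ := exists_setup hR N hc hq
  obtain ⟨k, hidx, hk⟩ := h.exists_k
  have hkb : ∀ M : ℕ, b ^ M ∈ N ↔ p ^ k ∣ M := by
    intro M
    have := hk 1 N.one_mem M
    rwa [one_mul] at this
  have hcyc : ∀ g : R, (∀ x, x ∈ Subgroup.zpowers g) → False := fun g hg => hnc ⟨g, hg⟩
  have hk0 : k ≠ 0 := by
    rintro rfl
    apply hcyc a
    intro x
    have h1 : N = ⊤ := Subgroup.index_eq_one.mp (by simpa using hidx)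
    rw [← h.hA, h1]; trivial
  have ha_not : a ∉ Subgroup.zpowers b := by
    intro ha
    apply hcyc b
    intro x
    obtain ⟨i, j, rfl⟩ := h.hb x
    exact Subgroup.mul_mem _ (Subgroup.pow_mem _ ha _)
      (Subgroup.pow_mem _ (Subgroup.mem_zpowers b) _)
  obtain ⟨m, hm⟩ := ordp hR a
  have hm0 : m ≠ 0 := by
    rintro rfl
    rw [pow_zero, orderOf_eq_one_iff] at hm
    apply ha_not
    rw [hm]; exact Subgroup.one_mem _
  have hzN : b ^ p ^ k ∈ N := (hkb _).mpr dvd_rfl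
  have hzN' := hzN
  rw [h.hA] at hzN'
  obtain ⟨t, ht⟩ := mem_zpowers_iff_nat.mp hzN'
  have hpt : p ∣ t := by
    by_contra hcon
    have h1 := mem_zpowers_pow_of_not_dvd hR a hcon
    rw [ht] at h1
    exact ha_not ((Subgroup.zpowers_le.mpr (Subgroup.pow_mem _ (Subgroup.mem_zpowers b) _)) h1)
  obtain ⟨t', rfl⟩ := hpt
  have hkk : p ^ k = p ^ (k - 1) * p := by rw [← pow_succ]; congr 1; omega
  have hmm : p ^ m = p ^ (m - 1) * p := by rw [← pow_succ]; congr 1; omega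
  obtain ⟨c₀, hc₀⟩ : ∃ c₀, c₀ = b ^ p ^ (k - 1) := ⟨_, rfl⟩
  have hc₀p : c₀ ^ p = b ^ p ^ k := by rw [hc₀, ← pow_mul, ← hkk]
  have hc₀N : ∀ l : ℕ, c₀ ^ l ∈ N ↔ p ∣ l := by
    intro l
    rw [hc₀, ← pow_mul, hkb, hkk]
    exact Nat.mul_dvd_mul_iff_left (pow_pos hpp.pos _)
  obtain ⟨ρ₀, hρ₀, hact₀⟩ := h.acts c₀
  obtain ⟨w, hw, hgs⟩ := gs_pow_eq hp hρ₀ 1
  rw [pow_one] at hgs
  obtain ⟨x, hx, hxw⟩ := exists_root hR N (N.inv_mem (N.pow_mem h.a_mem t')) hw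
  obtain ⟨c, hcdef⟩ : ∃ c, c = x * c₀ := ⟨_, rfl⟩
  have hcl : ∀ l : ℕ, c ^ l = x ^ gs ρ₀ l * c₀ ^ l := by
    intro l; rw [hcdef, mul_pow_acts hact₀ hx]
  have hcp : c ^ p = 1 := by
    rw [hcl, hgs, mul_comm, pow_mul, hxw, hc₀p, ← ht, inv_pow, ← pow_mul, mul_comm t',
      inv_mul_cancel]
  have hcN : ∀ l : ℕ, c ^ l ∈ N ↔ p ∣ l := by
    intro l
    rw [hcl, Subgroup.mul_mem_cancel_left N (N.pow_mem hx _), hc₀N]
  have hc1 : c ≠ 1 := by
    intro h1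
    have := (hcN 1).mp (by rw [h1, one_pow]; exact N.one_mem)
    exact hpp.one_lt.ne' (Nat.dvd_one.mp this)
  obtain ⟨a₁, ha₁⟩ : ∃ a₁, a₁ = a ^ p ^ (m - 1) := ⟨_, rfl⟩
  have ha₁p : a₁ ^ p = 1 := by rw [ha₁, ← pow_mul, ← hmm, ← hm, pow_orderOf_eq_one]
  have ha₁1 : a₁ ≠ 1 := by
    intro h1
    rw [ha₁, ← orderOf_dvd_iff_pow_eq_one, hm, Nat.pow_dvd_pow_iff_le_right hpp.one_lt] at h1
    omega
  have ha₁N : a₁ ∈ N := by rw [ha₁]; exact N.pow_mem h.a_mem _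
  have hcent : ∀ g : R, g * a₁ * g⁻¹ = a₁ := by
    intro g
    obtain ⟨ρ, hρ, hact⟩ := h.acts g
    rw [hact a₁ ha₁N, ← Nat.div_add_mod ρ p, hρ, pow_add, pow_mul, ha₁p, one_pow, one_mul, pow_one]
  have hcomm : ∀ g : R, Commute g a₁ := by
    intro g
    have := hcent g
    exact mul_inv_eq_iff_eq_mul.mp this
  have hNz : (Subgroup.zpowers a₁).Normal := by
    constructor
    intro y hy g
    obtain ⟨s, rfl⟩ := Subgroup.mem_zpowers_iff.mp hy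
    rw [((hcomm g).zpow_right s).eq, mul_inv_cancel_right]
    exact Subgroup.zpow_mem _ (Subgroup.mem_zpowers _) _
  have hinf : Subgroup.zpowers a₁ ⊓ Subgroup.zpowers c = ⊥ := by
    rw [eq_bot_iff]
    intro y hy
    obtain ⟨hy1, hy2⟩ := Subgroup.mem_inf.mp hy
    obtain ⟨l, rfl⟩ := mem_zpowers_iff_nat.mp hy2
    obtain ⟨l', rfl⟩ := (hcN l).mp ((Subgroup.zpowers_le.mpr ha₁N) hy1)
    rw [Subgroup.mem_bot, pow_mul, hcp, one_pow]
  have hcard : Nat.card (Subgroup.zpowers a₁ ⊔ Subgroup.zpowers c : Subgroup R) = p ^ 2 := by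
    rw [← relIndex_mul_card' (le_sup_left : Subgroup.zpowers a₁ ≤ Subgroup.zpowers a₁ ⊔ Subgroup.zpowers c),
      Subgroup.relIndex_sup_left, ← Subgroup.inf_relIndex_right, hinf, Subgroup.relIndex_bot_left,
      Nat.card_zpowers, Nat.card_zpowers, orderOf_eq_prime hcp hc1, orderOf_eq_prime ha₁p ha₁1, sq]
  have homega : Cfsg.omegaOne p (⊤ : Subgroup R) = Subgroup.zpowers a₁ ⊔ Subgroup.zpowers c := by
    unfold Cfsg.omegaOne
    apply le_antisymm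
    · rw [Subgroup.closure_le]
      rintro g ⟨_, hg⟩
      obtain ⟨i, j, rfl⟩ := h.hb g
      obtain ⟨ρj, hρj, hactj⟩ := h.acts (b ^ j)
      have h1 : (b ^ j) ^ p ∈ N := by
        have h2 : (a ^ i * b ^ j) ^ p ∈ N := by rw [hg]; exact N.one_mem
        rw [mul_pow_acts hactj (N.pow_mem h.a_mem _)] at h2
        exact (Subgroup.mul_mem_cancel_left N (N.pow_mem (N.pow_mem h.a_mem _) _)).mp h2
      rw [← pow_mul, hkb, hkk] at h1
      obtain ⟨l, rfl⟩ := Nat.dvd_of_mul_dvd_mul_right hpp.pos h1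
      have e1 : b ^ (p ^ (k - 1) * l) = (x ^ gs ρ₀ l)⁻¹ * c ^ l := by
        rw [hcl, pow_mul, ← hc₀]; group
      obtain ⟨y, hy⟩ : ∃ y, y = a ^ i * (x ^ gs ρ₀ l)⁻¹ := ⟨_, rfl⟩
      have hyN : y ∈ N := by
        rw [hy]; exact N.mul_mem (N.pow_mem h.a_mem _) (N.inv_mem (N.pow_mem hx _))
      have e2 : a ^ i * b ^ (p ^ (k - 1) * l) = y * c ^ l := by rw [e1, hy, mul_assoc]
      rw [e2] at hg ⊢
      obtain ⟨ρl, hρl, hactl⟩ := h.acts (c ^ l)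
      rw [mul_pow_acts hactl hyN, ← pow_mul, mul_comm l, pow_mul, hcp, one_pow, mul_one,
        pow_gs_eq_one_iff hpp hp hρl (ordp hR y)] at hg
      have hyN' := hyN
      rw [h.hA] at hyN'
      obtain ⟨s, hs⟩ := mem_zpowers_iff_nat.mp hyN'
      rw [← hs, ← pow_mul, ← orderOf_dvd_iff_pow_eq_one, hm, hmm] at hg
      obtain ⟨s', rfl⟩ := Nat.dvd_of_mul_dvd_mul_right hpp.pos hg
      refine Subgroup.mul_mem _ (Subgroup.mem_sup_left ?_)
        (Subgroup.mem_sup_right (Subgroup.pow_mem _ (Subgroup.mem_zpowers c) _))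
      rw [← hs, pow_mul, ← ha₁]
      exact Subgroup.pow_mem _ (Subgroup.mem_zpowers _) _
    · refine sup_le ?_ ?_
      · rw [Subgroup.zpowers_le]
        exact Subgroup.subset_closure ⟨Subgroup.mem_top _, ha₁p⟩
      · rw [Subgroup.zpowers_le]
        exact Subgroup.subset_closure ⟨Subgroup.mem_top _, hcp⟩
  rw [homega]
  refine ⟨⟨?_, ?_⟩, hcard⟩
  · refine ⟨⟨?_⟩⟩
    rintro ⟨g₁, hg₁⟩ ⟨g₂, hg₂⟩
    apply Subtype.ext
    obtain ⟨y₁, hy₁, z₁, hz₁, rfl⟩ := Subgroup.mem_sup_of_normal_left.mp hg₁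
    obtain ⟨y₂, hy₂, z₂, hz₂, rfl⟩ := Subgroup.mem_sup_of_normal_left.mp hg₂
    obtain ⟨s₁, rfl⟩ := Subgroup.mem_zpowers_iff.mp hy₁
    obtain ⟨s₂, rfl⟩ := Subgroup.mem_zpowers_iff.mp hy₂
    obtain ⟨l₁, rfl⟩ := Subgroup.mem_zpowers_iff.mp hz₁
    obtain ⟨l₂, rfl⟩ := Subgroup.mem_zpowers_iff.mp hz₂
    have cc := hcomm c
    exact (Commute.mul_left (Commute.mul_right ((Commute.refl a₁).zpow_zpow _ _)
      ((cc.symm).zpow_zpow _ _)) (Commute.mul_right (cc.zpow_zpow _ _)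
      ((Commute.refl c).zpow_zpow _ _))).eq
  · intro g hg
    obtain ⟨y, hy, z, hz, rfl⟩ := Subgroup.mem_sup_of_normal_left.mp hg
    obtain ⟨s, rfl⟩ := Subgroup.mem_zpowers_iff.mp hy
    obtain ⟨l, rfl⟩ := Subgroup.mem_zpowers_iff.mp hz
    have cc : Commute (a₁ ^ s) (c ^ l) := ((hcomm c).symm).zpow_zpow _ _
    rw [cc.mul_pow, ← zpow_natCast, ← zpow_natCast, ← zpow_mul, ← zpow_mul, mul_comm s, mul_comm l,
      zpow_mul, zpow_mul, zpow_natCast, zpow_natCast, ha₁p, hcp, one_zpow, one_zpow, one_mul]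

end Cfsg.Agent.S0638
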