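import Cfsg.Statements.S0641

set_option autoImplicit false
open Cfsg

namespace Cfsg.Agent.S0641

/-- Regularity of a p-group passes to quotient groups. -/
theorem result {G : Type*} [Group G] {p : ℕ} [Fact p.Prime] (hG : Cfsg.IsRegularPGroup p G) (N : Subgroup G) [N.Normal] : Cfsg.IsRegularPGroup p (G ⧸ N) := by
  refine ⟨hG.1.to_quotient N, ?_⟩
  intro a' b' n
  obtain ⟨a, rfl⟩ := QuotientGroup.mk'_surjective N a'
  obtain ⟨b, rfl⟩ := QuotientGroup.mk'_surjective N b'
  obtain ⟨c, hc, habc⟩ := hG.2 a b n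
  refine ⟨QuotientGroup.mk' N c, ?_, ?_⟩
  · have h1 : (Cfsg.powerClosure p n ⁅Subgroup.closure ({a, b} : Set G), Subgroup.closure ({a, b} : Set G)⁆).map
        (QuotientGroup.mk' N) ≤ Cfsg.powerClosure p n
          ⁅Subgroup.closure ({QuotientGroup.mk' N a, QuotientGroup.mk' N b} : Set (G ⧸ N)),
            Subgroup.closure ({QuotientGroup.mk' N a, QuotientGroup.mk' N b} : Set (G ⧸ N))⁆ := by
      unfold Cfsg.powerClosure
      rw [MonoidHom.map_closure]
      apply Subgroup.closure_mono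
      rintro _ ⟨_, ⟨x, hx, rfl⟩, rfl⟩
      refine ⟨QuotientGroup.mk' N x, ?_, map_pow _ _ _⟩
      have h2 : QuotientGroup.mk' N x ∈ (⁅Subgroup.closure ({a, b} : Set G),
          Subgroup.closure ({a, b} : Set G)⁆).map (QuotientGroup.mk' N) := ⟨x, hx, rfl⟩
      rwa [Subgroup.map_commutator, MonoidHom.map_closure, Set.image_pair] at h2
    exact h1 ⟨c, hc, rfl⟩
  · rw [← map_mul, ← map_pow, habc]
    simp only [map_mul, map_pow]

end Cfsg.Agent.S0641
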