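import Cfsg.Statements.S0642
import Cfsg.Agent.Lib.Helper5.Comm

set_option autoImplicit false
open Cfsg

namespace Cfsg.Agent.S0642

theorem exists_lt_sq_mem {G : Type*} [Group G] [Finite G] (hG : IsPGroup 2 G) (P : Subgroup G)
    (hP : P ≠ ⊥) : ∃ M : Subgroup G, M < P ∧ ∀ x ∈ P, x ^ 2 ∈ M := by
  haveI : Fact (Nat.Prime 2) := ⟨Nat.prime_two⟩
  haveI : Nontrivial P := (Subgroup.nontrivial_iff_ne_bot P).mpr hP
  obtain ⟨k, hk, hcard⟩ := (hG.to_subgroup P).nontrivial_iff_card.mp inferInstance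
  obtain ⟨K, hK⟩ := Sylow.exists_subgroup_card_pow_prime (G := P) 2 (n := k - 1)
    (by rw [hcard]; exact pow_dvd_pow 2 (Nat.sub_le k 1))
  have hidx : K.index = 2 := by
    have h1 := K.card_mul_index
    rw [hK, hcard] at h1
    have h2 : (2 : ℕ) ^ k = 2 ^ (k - 1) * 2 := by
      rw [← pow_succ]; congr 1; omega
    rw [h2] at h1
    exact Nat.eq_of_mul_eq_mul_left (by positivity) h1
  refine ⟨K.map P.subtype, ?_, ?_⟩
  · refine lt_of_le_of_ne (Subgroup.map_subtype_le K) ?_
    intro e
    have h3 : Nat.card (K.map P.subtype) = Nat.card P := by rw [e]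
    rw [Subgroup.card_map_of_injective P.subtype_injective, hK, hcard] at h3
    have := Nat.pow_right_injective (le_refl 2) h3
    omega
  · intro x hx
    exact ⟨⟨x, hx⟩ ^ 2, Subgroup.sq_mem_of_index_two hidx _, rfl⟩

/-- Among finite 2-groups the regular ones are exactly the abelian ones. -/
theorem result {G : Type*} [Group G] [Finite G] (hG : IsPGroup 2 G) : Cfsg.IsRegularPGroup 2 G ↔ ∀ a b : G, a * b = b * a := by
  constructor
  · intro hreg a b
    set H := Subgroup.closure ({a, b} : Set G) with hH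
    obtain ⟨c, hc, habc⟩ := hreg.2 a b 1
    rw [← hH] at hc
    set Ω := Cfsg.powerClosure 2 1 ⁅H, H⁆ with hΩ
    have haH : a ∈ H := Subgroup.subset_closure (by simp)
    have hbH : b ∈ H := Subgroup.subset_closure (by simp)
    have hH'norm : H ≤ Subgroup.normalizer ((⁅H, H⁆ : Subgroup G) : Set G) :=
      Cfsg.Agent.Lib.Helper5.left_le_normalizer_commutator H H
    have hΩnorm : H ≤ Subgroup.normalizer (Ω : Set G) := by
      apply Cfsg.Agent.Lib.Helper5.le_normalizer_closure
      rintro x hx _ ⟨y, hy, rfl⟩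
      apply Subgroup.subset_closure
      refine ⟨x * y * x⁻¹, (Subgroup.mem_normalizer_iff.mp (hH'norm hx) y).mp hy, ?_⟩
      rw [conj_pow]
    have hΩle : Ω ≤ ⁅H, H⁆ := by
      rw [hΩ, Cfsg.powerClosure, Subgroup.closure_le]
      rintro _ ⟨y, hy, rfl⟩
      exact pow_mem hy _
    have hcomm : a * b * a⁻¹ * b⁻¹ ∈ Ω := by
      have hc' : c = b⁻¹ * b⁻¹ * a⁻¹ * a⁻¹ * (a * b * (a * b)) := by
        have : (a * b) * (a * b) = a * a * (b * b) * c := by simpa [pow_two] using habc
        rw [this]; group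
      have e : a * b * a⁻¹ * b⁻¹ = (a * b * b) * c⁻¹ * (a * b * b)⁻¹ := by
        rw [hc']; group
      rw [e]
      exact (Subgroup.mem_normalizer_iff.mp (hΩnorm (mul_mem (mul_mem haH hbH) hbH)) _).mp (inv_mem hc)
    have hle : ⁅H, H⁆ ≤ Ω := by
      apply Cfsg.Agent.Lib.Helper5.commutator_closure_le _ _ hΩnorm
      intro s hs t ht
      rcases hs with rfl | hs <;> rcases ht with rfl | ht
      · rw [commutatorElement_self]; exact one_mem _
      · rw [Set.mem_singleton_iff.mp ht]; exact hcomm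
      · rw [Set.mem_singleton_iff.mp hs, ← commutatorElement_inv]; exact inv_mem hcomm
      · rw [Set.mem_singleton_iff.mp hs, Set.mem_singleton_iff.mp ht, commutatorElement_self]
        exact one_mem _
    have hbot : ⁅H, H⁆ = ⊥ := by
      by_contra hne
      obtain ⟨M, hM, hsq⟩ := exists_lt_sq_mem hG _ hne
      have : Ω ≤ M := by
        rw [hΩ, Cfsg.powerClosure, Subgroup.closure_le]
        rintro _ ⟨y, hy, rfl⟩
        simpa using hsq y hy
      exact hM.not_ge (hle.trans this)
    have h1 : a * b * a⁻¹ * b⁻¹ ∈ ⁅H, H⁆ := Subgroup.commutator_mem_commutator haH hbH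
    rw [hbot, Subgroup.mem_bot] at h1
    exact commutatorElement_eq_one_iff_mul_comm.mp h1
  · intro hcomm
    refine ⟨hG, fun a b n => ⟨1, one_mem _, ?_⟩⟩
    rw [mul_one]
    exact (show Commute a b from hcomm a b).mul_pow _

end Cfsg.Agent.S0642
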