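import Cfsg.Statements.S0644
import Cfsg.Agent.Lib.Helper23.Regular
import Cfsg.Agent.Lib.Helper23.FrattiniP

set_option autoImplicit false
open Cfsg

namespace Cfsg.Agent.S0644

open Subgroup
open scoped commutatorElement
open Cfsg.Agent.Lib.Helper23

theorem exists_max_of_lt {G : Type*} [Group G] [Finite G] {p : ℕ} [Fact p.Prime]
    (H : Subgroup G) (hH : IsPGroup p H) (K : Subgroup G) (hK : K < H) :
    ∃ M : Subgroup G, K ≤ M ∧ M < H ∧ ⁅H, H⁆ ≤ M := by
  have hne : K.subgroupOf H ≠ ⊤ := by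
    intro h
    rw [subgroupOf_eq_top] at h
    exact absurd h (not_le_of_gt hK)
  obtain ⟨M0, hM0, hle⟩ := (eq_top_or_exists_le_coatom (K.subgroupOf H)).resolve_left hne
  refine ⟨M0.map H.subtype, ?_, ?_, ?_⟩
  · intro x hx
    exact ⟨⟨x, hK.le hx⟩, hle (mem_subgroupOf.mpr hx), rfl⟩
  · refine lt_of_le_of_ne (map_subtype_le M0) ?_
    intro heq
    apply hM0.1
    rw [eq_top_iff]
    intro y _
    have hy : (y : G) ∈ M0.map H.subtype := by rw [heq]; exact y.2
    obtain ⟨z, hz, hzy⟩ := hy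
    have : z = y := Subtype.ext hzy
    exact this ▸ hz
  · rw [commutator_le]
    intro a ha b hb
    have h1 := comm_mem_frattini hH ((⟨b, hb⟩ : H)⁻¹) ((⟨a, ha⟩ : H)⁻¹)
    rw [mem_frattini_iff] at h1
    have h2 := h1 M0 hM0
    refine ⟨_, h2, ?_⟩
    simp [commutatorElement_def, mul_assoc]

theorem closure_eq_of_mul {G : Type*} [Group G] (q : ℕ) (H : Subgroup G)
    (hmul : ∀ a ∈ H, ∀ b ∈ H, ∃ c ∈ H, a ^ q * b ^ q = c ^ q) :
    ∀ y ∈ closure {y : G | ∃ x ∈ H, y = x ^ q}, ∃ x ∈ H, y = x ^ q := by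
  intro y hy
  induction hy using closure_induction with
  | mem t ht => exact ht
  | one => exact ⟨1, H.one_mem, by simp⟩
  | mul a b _ _ iha ihb =>
    obtain ⟨x, hx, rfl⟩ := iha
    obtain ⟨z, hz, rfl⟩ := ihb
    obtain ⟨c, hc, h⟩ := hmul x hx z hz
    exact ⟨c, hc, h⟩
  | inv a _ iha =>
    obtain ⟨x, hx, rfl⟩ := iha
    exact ⟨x⁻¹, H.inv_mem hx, by rw [inv_pow]⟩

theorem mul_pow_exists {G : Type*} [Group G] [Finite G] {p : ℕ} [Fact p.Prime]
    (hG : Cfsg.IsRegularPGroup p G) (n : ℕ) (H : Subgroup G) :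
    ∀ a ∈ H, ∀ b ∈ H, ∃ c ∈ H, a ^ (p ^ n) * b ^ (p ^ n) = c ^ (p ^ n) := by
  induction H using WellFoundedLT.induction with
  | ind H IH =>
    intro a ha b hb
    have hKH : closure ({a, b} : Set G) ≤ H := by
      rw [closure_le]
      intro z hz
      simp only [Set.mem_insert_iff, Set.mem_singleton_iff] at hz
      rcases hz with rfl | rfl
      · exact ha
      · exact hb
    rcases eq_or_lt_of_le hKH with h | h
    · have hHp : IsPGroup p H := hG.1.to_subgroup H
      obtain ⟨c, hc, hab⟩ := hG.2 a b n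
      rw [h] at hc
      by_cases hcyc : zpowers (a * b) = H
      · have ha' : a ∈ zpowers (a * b) := hcyc ▸ ha
        have hb' : b ∈ zpowers (a * b) := hcyc ▸ hb
        obtain ⟨i, hi⟩ := mem_zpowers_iff.mp ha'
        obtain ⟨j, hj⟩ := mem_zpowers_iff.mp hb'
        have hcomm : Commute a b := by
          have := Commute.zpow_zpow_self (a * b) i j
          rwa [hi, hj] at this
        exact ⟨a * b, H.mul_mem ha hb, (hcomm.mul_pow _).symm⟩
      · have hlt : zpowers (a * b) < H :=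
          lt_of_le_of_ne (zpowers_le.mpr (H.mul_mem ha hb)) hcyc
        obtain ⟨M, hKM, hMH, hcM⟩ := exists_max_of_lt H hHp _ hlt
        have hDlt : ⁅H, H⁆ < H := lt_of_le_of_lt hcM hMH
        obtain ⟨d, hd, hcd⟩ := closure_eq_of_mul (p ^ n) ⁅H, H⁆ (IH _ hDlt) c⁻¹ (inv_mem hc)
        obtain ⟨e, he, hE⟩ := IH M hMH (a * b) (hKM (mem_zpowers _)) d (hcM hd)
        refine ⟨e, hMH.le he, ?_⟩
        rw [← hE, ← hcd, hab]
        exact (mul_inv_cancel_right _ _).symm
    · obtain ⟨c, hc, h'⟩ := IH _ h a (subset_closure (by simp)) b (subset_closure (by simp))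
      exact ⟨c, hKH hc, h'⟩

theorem powerClosure_mono {G : Type*} [Group G] (p n : ℕ) {A B : Subgroup G} (h : A ≤ B) :
    Cfsg.powerClosure p n A ≤ Cfsg.powerClosure p n B := by
  unfold Cfsg.powerClosure
  apply Subgroup.closure_mono
  rintro y ⟨x, hx, rfl⟩
  exact ⟨x, h hx, rfl⟩

theorem powerClosure_le {G : Type*} [Group G] (p n : ℕ) (A : Subgroup G) :
    Cfsg.powerClosure p n A ≤ A := by
  unfold Cfsg.powerClosure
  rw [closure_le]
  rintro y ⟨x, hx, rfl⟩
  exact A.pow_mem hx _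

theorem comm_le_self {G : Type*} [Group G] (H : Subgroup G) : ⁅H, H⁆ ≤ H := by
  rw [commutator_le]
  intro a ha b hb
  rw [commutatorElement_def]
  exact H.mul_mem (H.mul_mem (H.mul_mem ha hb) (H.inv_mem ha)) (H.inv_mem hb)

theorem conj_mem_comm {G : Type*} [Group G] (H : Subgroup G) (h : G) (hh : h ∈ H) (t : G)
    (ht : t ∈ ⁅H, H⁆) : h * t * h⁻¹ ∈ ⁅H, H⁆ := by
  have h1 : ⁅h, t⁆ ∈ ⁅H, H⁆ := commutator_mem_commutator hh (comm_le_self H ht)
  have h2 : h * t * h⁻¹ = ⁅h, t⁆ * t := by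
    simp only [commutatorElement_def]; group
  rw [h2]
  exact mul_mem h1 ht

theorem conj_mem_W {G : Type*} [Group G] (p n : ℕ) (H : Subgroup G) (h : G) (hh : h ∈ H) (x : G)
    (hx : x ∈ Cfsg.powerClosure p n ⁅H, H⁆) : h * x * h⁻¹ ∈ Cfsg.powerClosure p n ⁅H, H⁆ := by
  unfold Cfsg.powerClosure at hx ⊢
  induction hx using closure_induction with
  | mem t ht =>
    obtain ⟨s, hs, rfl⟩ := ht
    apply Subgroup.subset_closure
    exact ⟨h * s * h⁻¹, conj_mem_comm H h hh s hs, by rw [conj_pow]⟩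
  | one => simp
  | mul a b _ _ iha ihb =>
    have : h * (a * b) * h⁻¹ = (h * a * h⁻¹) * (h * b * h⁻¹) := by group
    rw [this]; exact mul_mem iha ihb
  | inv a _ iha =>
    have : h * a⁻¹ * h⁻¹ = (h * a * h⁻¹)⁻¹ := by group
    rw [this]; exact inv_mem iha

/-- In a regular p-group the p^n-th powers of the elements of any subgroup H form a subgroup, whose derived subgroup is contained in the subgroup generated by the p^n-th powers of elements of the derived subgroup of H. -/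
theorem result {G : Type*} [Group G] [Finite G] {p : ℕ} [Fact p.Prime] (hG : Cfsg.IsRegularPGroup p G) (H : Subgroup G) (n : ℕ) : {y : G | ∃ x ∈ H, y = x ^ (p ^ n)} = (Cfsg.powerClosure p n H : Set G) ∧ ⁅Cfsg.powerClosure p n H, Cfsg.powerClosure p n H⁆ ≤ Cfsg.powerClosure p n ⁅H, H⁆ := by
  constructor
  · apply Set.Subset.antisymm
    · intro y hy
      exact subset_closure hy
    · intro y hy
      exact closure_eq_of_mul (p ^ n) H (mul_pow_exists hG n H) y hy
  · have key : ∀ x ∈ H, ∀ y ∈ H, ⁅y, x ^ (p ^ n)⁆ ∈ Cfsg.powerClosure p n ⁅H, H⁆ := by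
      intro x hx y hy
      obtain ⟨c, hc, hab⟩ := hG.2 ⁅y, x⁆ x n
      have hyx : ⁅y, x⁆ ∈ ⁅H, H⁆ := commutator_mem_commutator hy hx
      have hcl : closure ({⁅y, x⁆, x} : Set G) ≤ H := by
        rw [closure_le]
        intro z hz
        simp only [Set.mem_insert_iff, Set.mem_singleton_iff] at hz
        rcases hz with rfl | rfl
        · exact comm_le_self H hyx
        · exact hx
      have hcW : c ∈ Cfsg.powerClosure p n ⁅H, H⁆ :=
        powerClosure_mono p n (commutator_mono hcl hcl) hc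
      have hw1 : ⁅y, x⁆ ^ (p ^ n) ∈ Cfsg.powerClosure p n ⁅H, H⁆ :=
        subset_closure ⟨_, hyx, rfl⟩
      have h1 : ⁅y, x⁆ * x = y * x * y⁻¹ := by
        simp only [commutatorElement_def]; group
      rw [h1, conj_pow] at hab
      have h2 : ⁅y, x ^ (p ^ n)⁆ = ⁅y, x⁆ ^ (p ^ n) * (x ^ (p ^ n) * c * (x ^ (p ^ n))⁻¹) := by
        rw [commutatorElement_def, hab]
        simp only [mul_assoc]
      rw [h2]
      exact mul_mem hw1 (conj_mem_W p n H _ (H.pow_mem hx _) c hcW)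
    have := commutator_closure_le {y : G | ∃ x ∈ H, y = x ^ (p ^ n)} (Cfsg.powerClosure p n ⁅H, H⁆)
      (fun h hh x hx => conj_mem_W p n H h (powerClosure_le p n H hh) x hx)
      (by
        rintro s ⟨x, hx, rfl⟩ t ⟨z, hz, rfl⟩
        exact key z hz _ (H.pow_mem hx _))
    exact this

end Cfsg.Agent.S0644
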