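import Cfsg.Statements.S0643
import Mathlib
import Cfsg.Agent.S0644
-- import your own Cfsg.Agent.* helpers here

set_option autoImplicit false
open Cfsg

namespace Cfsg.Agent.S0643

open Subgroup
open scoped commutatorElement
open Cfsg.Agent.Lib.Helper23
open Cfsg.Agent.S0644 (exists_max_of_lt closure_eq_of_mul powerClosure_mono powerClosure_le comm_le_self conj_mem_comm conj_mem_W)

/-- regularity at a fixed level `n`. -/
def RegAt (p n : ℕ) (G : Type*) [Group G] : Prop :=
  ∀ a b : G, ∃ c ∈ Cfsg.powerClosure p n ⁅closure ({a, b} : Set G), closure ({a, b} : Set G)⁆,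
      (a * b) ^ (p ^ n) = a ^ (p ^ n) * b ^ (p ^ n) * c

theorem mul_pow_exists' {G : Type*} [Group G] [Finite G] {p : ℕ} [Fact p.Prime]
    (hp : IsPGroup p G) (n : ℕ) (hG : RegAt p n G) (H : Subgroup G) :
    ∀ a ∈ H, ∀ b ∈ H, ∃ c ∈ H, a ^ (p ^ n) * b ^ (p ^ n) = c ^ (p ^ n) := by
  induction H using WellFoundedLT.induction with
  | ind H IH =>
    intro a ha b hb
    have hKH : closure ({a, b} : Set G) ≤ H := by
      rw [closure_le]
      intro z hz
      simp only [Set.mem_insert_iff, Set.mem_singleton_iff] at hz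
      rcases hz with rfl | rfl
      · exact ha
      · exact hb
    rcases eq_or_lt_of_le hKH with h | h
    · have hHp : IsPGroup p H := hp.to_subgroup H
      obtain ⟨c, hc, hab⟩ := hG a b
      rw [h] at hc
      by_cases hcyc : zpowers (a * b) = H
      · have ha' : a ∈ zpowers (a * b) := hcyc ▸ ha
        have hb' : b ∈ zpowers (a * b) := hcyc ▸ hb
        obtain ⟨i, hi⟩ := mem_zpowers_iff.mp ha'
        obtain ⟨j, hj⟩ := mem_zpowers_iff.mp hb'
        have hcomm : Commute a b := by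
          have := Commute.zpow_zpow_self (a * b) i j
          rwa [hi, hj] at this
        exact ⟨a * b, H.mul_mem ha hb, (hcomm.mul_pow _).symm⟩
      · have hlt : zpowers (a * b) < H :=
          lt_of_le_of_ne (zpowers_le.mpr (H.mul_mem ha hb)) hcyc
        obtain ⟨M, hKM, hMH, hcM⟩ := exists_max_of_lt H hHp _ hlt
        have hDlt : ⁅H, H⁆ < H := lt_of_le_of_lt hcM hMH
        obtain ⟨d, hd, hcd⟩ := closure_eq_of_mul (p ^ n) ⁅H, H⁆ (IH _ hDlt) c⁻¹ (inv_mem hc)
        obtain ⟨e, he, hE⟩ := IH M hMH (a * b) (hKM (mem_zpowers _)) d (hcM hd)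
        refine ⟨e, hMH.le he, ?_⟩
        rw [← hE, ← hcd, hab]
        exact (mul_inv_cancel_right _ _).symm
    · obtain ⟨c, hc, h'⟩ := IH _ h a (subset_closure (by simp)) b (subset_closure (by simp))
      exact ⟨c, hKH hc, h'⟩

theorem mem_powerClosure {G : Type*} [Group G] [Finite G] {p : ℕ} [Fact p.Prime]
    (hp : IsPGroup p G) (n : ℕ) (hG : RegAt p n G) (H : Subgroup G) (y : G)
    (hy : y ∈ Cfsg.powerClosure p n H) : ∃ x ∈ H, y = x ^ (p ^ n) :=
  closure_eq_of_mul (p ^ n) H (mul_pow_exists' hp n hG H) y hy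

theorem comm_powerClosure_le {G : Type*} [Group G] [Finite G] {p : ℕ} [Fact p.Prime]
    (n : ℕ) (hG : RegAt p n G) (H : Subgroup G) :
    ⁅Cfsg.powerClosure p n H, Cfsg.powerClosure p n H⁆ ≤ Cfsg.powerClosure p n ⁅H, H⁆ := by
  have key : ∀ x ∈ H, ∀ y ∈ H, ⁅y, x ^ (p ^ n)⁆ ∈ Cfsg.powerClosure p n ⁅H, H⁆ := by
    intro x hx y hy
    obtain ⟨c, hc, hab⟩ := hG ⁅y, x⁆ x
    have hyx : ⁅y, x⁆ ∈ ⁅H, H⁆ := commutator_mem_commutator hy hx
    have hcl : closure ({⁅y, x⁆, x} : Set G) ≤ H := by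
      rw [closure_le]
      intro z hz
      simp only [Set.mem_insert_iff, Set.mem_singleton_iff] at hz
      rcases hz with rfl | rfl
      · exact comm_le_self H hyx
      · exact hx
    have hcW : c ∈ Cfsg.powerClosure p n ⁅H, H⁆ :=
      powerClosure_mono p n (commutator_mono hcl hcl) hc
    have hw1 : ⁅y, x⁆ ^ (p ^ n) ∈ Cfsg.powerClosure p n ⁅H, H⁆ :=
      subset_closure ⟨_, hyx, rfl⟩
    have h1 : ⁅y, x⁆ * x = y * x * y⁻¹ := by
      simp only [commutatorElement_def]; group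
    rw [h1, conj_pow] at hab
    have h2 : ⁅y, x ^ (p ^ n)⁆ = ⁅y, x⁆ ^ (p ^ n) * (x ^ (p ^ n) * c * (x ^ (p ^ n))⁻¹) := by
      rw [commutatorElement_def, hab]
      simp only [mul_assoc]
    rw [h2]
    exact mul_mem hw1 (conj_mem_W p n H _ (H.pow_mem hx _) c hcW)
  have := commutator_closure_le {y : G | ∃ x ∈ H, y = x ^ (p ^ n)} (Cfsg.powerClosure p n ⁅H, H⁆)
    (fun h hh x hx => conj_mem_W p n H h (powerClosure_le p n H hh) x hx)
    (by
      rintro s ⟨x, hx, rfl⟩ t ⟨z, hz, rfl⟩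
      exact key z hz _ (H.pow_mem hx _))
  exact this

/-- `℧_n(℧_1(D)) ≤ ℧_{n+1}(D)` when `p`-th powers of `D` form a subgroup. -/
theorem powerClosure_powerClosure_le {G : Type*} [Group G] [Finite G] {p : ℕ} [Fact p.Prime]
    (hp : IsPGroup p G) (hG : RegAt p 1 G) (n : ℕ) (D : Subgroup G) :
    Cfsg.powerClosure p n (Cfsg.powerClosure p 1 D) ≤ Cfsg.powerClosure p (n + 1) D := by
  conv_lhs => unfold Cfsg.powerClosure
  rw [closure_le]
  rintro y ⟨x, hx, rfl⟩
  obtain ⟨t, ht, rfl⟩ := mem_powerClosure hp 1 hG D x hx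
  refine subset_closure ⟨t, ht, ?_⟩
  rw [← pow_mul, pow_one, pow_succ, mul_comm]

theorem regAt_all {G : Type*} [Group G] [Finite G] {p : ℕ} [Fact p.Prime]
    (hp : IsPGroup p G) (hG : RegAt p 1 G) (n : ℕ) : RegAt p n G := by
  induction n with
  | zero =>
    intro a b
    exact ⟨1, one_mem _, by simp⟩
  | succ n ih =>
    intro a b
    set H : Subgroup G := closure ({a, b} : Set G) with hH
    have haH : a ∈ H := subset_closure (by simp)
    have hbH : b ∈ H := subset_closure (by simp)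
    obtain ⟨c0, hc0, h1⟩ := hG a b
    obtain ⟨c, hc, rfl⟩ := mem_powerClosure hp 1 hG _ c0 hc0
    rw [pow_one] at h1
    -- the subgroup of p-th powers
    have hmemA : ∀ x ∈ H, x ^ p ∈ Cfsg.powerClosure p 1 H := fun x hx =>
      subset_closure ⟨x, hx, by rw [pow_one]⟩
    have hcH : c ∈ H := comm_le_self H hc
    have hsub : ∀ X ∈ Cfsg.powerClosure p 1 H, ∀ Y ∈ Cfsg.powerClosure p 1 H,
        Cfsg.powerClosure p n ⁅closure ({X, Y} : Set G), closure ({X, Y} : Set G)⁆
          ≤ Cfsg.powerClosure p (n + 1) ⁅H, H⁆ := by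
      intro X hX Y hY
      have hcl : closure ({X, Y} : Set G) ≤ Cfsg.powerClosure p 1 H := by
        rw [closure_le]
        intro z hz
        simp only [Set.mem_insert_iff, Set.mem_singleton_iff] at hz
        rcases hz with rfl | rfl
        · exact hX
        · exact hY
      exact (powerClosure_mono p n
        ((commutator_mono hcl hcl).trans (comm_powerClosure_le 1 hG H))).trans
        (powerClosure_powerClosure_le hp hG n _)
    obtain ⟨d, hd, h2⟩ := ih (a ^ p * b ^ p) (c ^ p)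
    obtain ⟨d', hd', h3⟩ := ih (a ^ p) (b ^ p)
    have hd1 := hsub _ (mul_mem (hmemA a haH) (hmemA b hbH)) _ (hmemA c hcH) hd
    have hd2 := hsub _ (hmemA a haH) _ (hmemA b hbH) hd'
    have hc3 : c ^ (p ^ (n + 1)) ∈ Cfsg.powerClosure p (n + 1) ⁅H, H⁆ :=
      subset_closure ⟨c, hc, rfl⟩
    refine ⟨d' * c ^ (p ^ (n + 1)) * d, mul_mem (mul_mem hd2 hc3) hd1, ?_⟩
    have e : ∀ x : G, x ^ (p ^ (n + 1)) = (x ^ p) ^ (p ^ n) := fun x => by
      rw [← pow_mul, pow_succ, mul_comm]
    rw [e (a * b), h1, h2, h3, e a, e b, e c]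
    simp only [mul_assoc]

/-- Kemhadze's criterion: a finite p-group is regular exactly when (ab)^p = a^p b^p c^p always holds for some c in the derived subgroup of the subgroup generated by a and b. -/
theorem result {G : Type*} [Group G] [Finite G] {p : ℕ} [Fact p.Prime] (hG : IsPGroup p G) : Cfsg.IsRegularPGroup p G ↔ ∀ a b : G, ∃ c ∈ ⁅Subgroup.closure ({a, b} : Set G), Subgroup.closure ({a, b} : Set G)⁆, (a * b) ^ p = a ^ p * b ^ p * c ^ p := by
  constructor
  · intro hR a b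
    obtain ⟨c0, hc0, h1⟩ := hR.2 a b 1
    have hR1 : RegAt p 1 G := fun a b => hR.2 a b 1
    obtain ⟨c, hc, rfl⟩ := mem_powerClosure hG 1 hR1 _ c0 hc0
    exact ⟨c, hc, by simpa using h1⟩
  · intro h
    have hR1 : RegAt p 1 G := by
      intro a b
      obtain ⟨c, hc, h1⟩ := h a b
      exact ⟨c ^ p, Subgroup.subset_closure ⟨c, hc, by rw [pow_one]⟩, by simpa using h1⟩
    exact ⟨hG, fun a b n => regAt_all hG hR1 n a b⟩

end Cfsg.Agent.S0643
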