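import Cfsg.Statements.S0645
import Cfsg.Agent.Lib.Helper4.Metacyclic6

set_option autoImplicit false
open Cfsg

namespace Cfsg.Agent.S0645

open scoped commutatorElement
open Cfsg.Agent.Lib.Helper4.MC

theorem gs_modEq {p ρ : ℕ} (hρ : ρ % p = 1) (hp1 : 1 < p) (j : ℕ) : gs ρ j ≡ j [MOD p] := by
  induction j with
  | zero => rw [gs_zero]
  | succ j ih =>
    rw [gs_succ]
    have h1 : ρ ≡ 1 [MOD p] := by
      unfold Nat.ModEq; rw [hρ, Nat.mod_eq_of_lt hp1]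
    have := (h1.mul ih).add_right 1
    simpa using this

/-- Classification of p-groups with a cyclic maximal subgroup, odd p: a non-abelian one of order p^n has generators a of order p^(n-1) and b of order p, b outside the cyclic subgroup generated by a, with b a b⁻¹ = a^(1 + p^(n-2)). -/
theorem result {G : Type*} [Group G] [Finite G] {p : ℕ} [Fact p.Prime] (hp : p ≠ 2) (n : ℕ) (hn : 3 ≤ n) (hG : Nat.card G = p ^ n) (C : Subgroup G) (hC : IsCyclic C) (hCi : C.index = p) (hna : ∃ x y : G, x * y ≠ y * x) : ∃ a b : G, orderOf a = p ^ (n - 1) ∧ orderOf b = p ∧ b ∉ Subgroup.zpowers a ∧ b * a * b⁻¹ = a ^ (1 + p ^ (n - 2)) := by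
  have hpp : p.Prime := Fact.out
  have hPG : IsPGroup p G := IsPGroup.of_card hG
  have hnorm : C.Normal := by
    apply Subgroup.normal_of_index_eq_minFac_card
    rw [hG, hpp.pow_minFac (by omega), hCi]
  have hQ : IsCyclic (G ⧸ C) :=
    isCyclic_of_prime_card (p := p) (by rw [← Subgroup.index_eq_card, hCi])
  obtain ⟨a, b₀, h⟩ := exists_setup hPG C hC hQ
  have hn1 : p ^ (n - 1) = p ^ (n - 2) * p := by rw [← pow_succ]; congr 1; omega
  have hcardC : Nat.card C = p ^ (n - 1) := by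
    have h1 := C.card_mul_index
    rw [hCi, hG] at h1
    have h2 : p ^ n = p ^ (n - 1) * p := by rw [← pow_succ]; congr 1; omega
    rw [h2] at h1
    exact Nat.eq_of_mul_eq_mul_right hpp.pos h1
  have hoa : orderOf a = p ^ (n - 1) := by
    rw [← hcardC, ← Nat.card_zpowers, ← h.hA]
  obtain ⟨k, hidx, hk⟩ := h.exists_k
  have hk1 : k = 1 := by
    rw [hCi] at hidx
    have h1 : p ^ 1 = p ^ k := by rw [pow_one]; exact hidx
    exact (Nat.pow_right_injective hpp.two_le h1).symm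
  subst hk1
  simp only [pow_one] at hk
  have hkb : ∀ M : ℕ, b₀ ^ M ∈ C ↔ p ∣ M := by
    intro M
    have := hk 1 C.one_mem M
    rwa [one_mul] at this
  have hb0p : b₀ ^ p ∈ C := (hkb p).mpr dvd_rfl
  have hy_p : ⁅b₀, a⁆ ^ p = 1 := by
    have h1 : ⁅b₀ ^ p, a⁆ = 1 :=
      commutatorElement_eq_one_iff_commute.mpr (h.commute_of_mem hb0p h.a_mem)
    have := (h.comm_pow_left_eq_one_iff hp b₀ a p 1).mp (by rw [pow_one]; exact h1)
    rwa [mul_one] at this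
  have hy_ne : ⁅b₀, a⁆ ≠ 1 := by
    intro h1
    obtain ⟨x, y, hxy⟩ := hna
    apply hxy
    have c : Commute b₀ a := commutatorElement_eq_one_iff_commute.mp h1
    obtain ⟨i, j, rfl⟩ := h.hb x
    obtain ⟨i', j', rfl⟩ := h.hb y
    exact (Commute.mul_left (Commute.mul_right ((Commute.refl a).pow_pow _ _)
      ((c.symm).pow_pow _ _)) (Commute.mul_right (c.pow_pow _ _)
      ((Commute.refl b₀).pow_pow _ _))).eq
  have hyC := h.comm b₀ a
  rw [h.hA] at hyC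
  obtain ⟨s, hs⟩ := mem_zpowers_iff_nat.mp hyC
  have hs1 : p ^ (n - 2) * p ∣ s * p := by
    rw [← hn1, ← hoa, orderOf_dvd_iff_pow_eq_one, pow_mul, hs, hy_p]
  obtain ⟨u, rfl⟩ : p ^ (n - 2) ∣ s := Nat.dvd_of_mul_dvd_mul_right hpp.pos hs1
  have hu : ¬ p ∣ u := by
    rintro ⟨u', rfl⟩
    apply hy_ne
    rw [← hs, ← mul_assoc, ← hn1, pow_mul, ← hoa, pow_orderOf_eq_one, one_pow]
  obtain ⟨j, _, hj⟩ := Nat.exists_mul_mod_eq_one_of_coprime
    ((Nat.Prime.coprime_iff_not_dvd hpp).mpr hu).symm hpp.one_lt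
  have hcp : (a ^ p ^ (n - 2)) ^ p = 1 := by
    rw [← pow_mul, ← hn1, ← hoa, pow_orderOf_eq_one]
  have hc1 : a ^ p ^ (n - 2) ≠ 1 := by
    intro h1
    rw [← orderOf_dvd_iff_pow_eq_one, hoa, Nat.pow_dvd_pow_iff_le_right hpp.one_lt] at h1
    omega
  have hpj : ¬ p ∣ j := by
    rintro ⟨j', rfl⟩
    rw [← mul_assoc, mul_comm u, mul_assoc, Nat.mul_mod_right] at hj
    omega
  obtain ⟨ρ, hρ, hact⟩ := h.acts b₀
  have hcomm1 : ⁅b₀ ^ j, a⁆ = a ^ p ^ (n - 2) := by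
    have hoy : orderOf ⁅b₀, a⁆ = p := orderOf_eq_prime hy_p hy_ne
    have e1 : ⁅b₀, a⁆ ^ gs ρ j = ⁅b₀, a⁆ ^ j := by
      rw [pow_eq_pow_iff_modEq, hoy]
      exact gs_modEq hρ hpp.one_lt j
    rw [comm_pow_left h.comm hact, e1, ← hs, pow_mul, ← pow_mul, ← Nat.div_add_mod (u * j) p, hj,
      pow_add, pow_mul, hcp, one_pow, one_mul, pow_one]
  have hconj1 : b₀ ^ j * a * (b₀ ^ j)⁻¹ = a ^ (1 + p ^ (n - 2)) := by
    have e : b₀ ^ j * a * (b₀ ^ j)⁻¹ = ⁅b₀ ^ j, a⁆ * a := by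
      rw [commutatorElement_def]; group
    rw [e, hcomm1, add_comm, pow_succ]
  have hb1C : b₀ ^ j ∉ C := fun hm => hpj ((hkb j).mp hm)
  have hb1p : (b₀ ^ j) ^ p ∈ C := by
    rw [← pow_mul, mul_comm, pow_mul]; exact C.pow_mem hb0p _
  have hb1p' := hb1p
  rw [h.hA] at hb1p'
  obtain ⟨t, ht⟩ := mem_zpowers_iff_nat.mp hb1p'
  have hpt : p ∣ t := by
    by_contra hcon
    have h1 := mem_zpowers_pow_of_not_dvd hPG a hcon
    rw [ht] at h1
    obtain ⟨z, hz⟩ := Subgroup.mem_zpowers_iff.mp h1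
    have c : Commute (b₀ ^ j) a := by
      rw [← hz]
      exact ((Commute.refl (b₀ ^ j)).pow_right p).zpow_right z
    apply hc1
    rw [← hcomm1]
    exact commutatorElement_eq_one_iff_commute.mpr c
  obtain ⟨t', rfl⟩ := hpt
  obtain ⟨ρ₁, hρ₁, hact₁⟩ := h.acts (b₀ ^ j)
  obtain ⟨w, hw, hgs⟩ := gs_pow_eq hp hρ₁ 1
  rw [pow_one] at hgs
  obtain ⟨x, hx, hxw⟩ := exists_root hPG C (C.inv_mem (C.pow_mem h.a_mem t')) hw
  have hbp : (x * b₀ ^ j) ^ p = 1 := by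
    rw [mul_pow_acts hact₁ hx, hgs, mul_comm, pow_mul, hxw, ← ht, inv_pow, ← pow_mul, mul_comm t',
      inv_mul_cancel]
  have hbC : x * b₀ ^ j ∉ C := fun hm => hb1C ((Subgroup.mul_mem_cancel_left C hx).mp hm)
  refine ⟨a, x * b₀ ^ j, hoa, ?_, ?_, ?_⟩
  · apply orderOf_eq_prime hbp
    rintro h1
    apply hbC
    rw [h1]; exact C.one_mem
  · rw [← h.hA]; exact hbC
  · have e : x * b₀ ^ j * a * (x * b₀ ^ j)⁻¹ = x * (b₀ ^ j * a * (b₀ ^ j)⁻¹) * x⁻¹ := by group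
    have c : Commute x (a ^ (1 + p ^ (n - 2))) := h.commute_of_mem hx (C.pow_mem h.a_mem _)
    rw [e, hconj1, c.eq, mul_inv_cancel_right]

end Cfsg.Agent.S0645
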