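import Cfsg.Statements.S0646
-- import your own Cfsg.Agent.* helpers here

set_option autoImplicit false
open Cfsg

namespace Cfsg.Agent.S0646

theorem sq_one_cases (K r : ℕ) (hK : 1 ≤ K) (hr : r < 2 * 2 ^ K)
    (h : r * r ≡ 1 [MOD 2 * 2 ^ K]) :
    r = 1 ∨ r = 1 + 2 ^ K ∨ r + 1 = 2 ^ K ∨ r + 1 = 2 * 2 ^ K := by
  obtain ⟨K', rfl⟩ : ∃ K', K = K' + 1 := ⟨K - 1, by omega⟩
  have hodd : r % 2 = 1 := by
    have h2 : r * r ≡ 1 [MOD 2] := h.of_mul_right _
    rcases Nat.mod_two_eq_zero_or_one r with h0 | h1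
    · exfalso
      have h3 : (r * r) % 2 = 0 := by rw [Nat.mul_mod, h0]
      unfold Nat.ModEq at h2
      omega
    · exact h1
  obtain ⟨u, rfl⟩ : ∃ u, r = 2 * u + 1 := ⟨r / 2, by omega⟩
  have h3 : 2 * 2 ^ (K' + 1) ∣ 4 * (u * (u + 1)) := by
    have h4 : (2 * u + 1) * (2 * u + 1) = 4 * (u * (u + 1)) + 1 := by ring
    rw [h4] at h
    have h5 : 4 * (u * (u + 1)) + 1 ≡ 0 + 1 [MOD 2 * 2 ^ (K' + 1)] := by simpa using h
    exact (Nat.modEq_zero_iff_dvd).1 (Nat.ModEq.add_right_cancel' 1 h5)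
  have h6 : 2 ^ K' ∣ u * (u + 1) := by
    have h7 : 2 * 2 ^ (K' + 1) = 4 * 2 ^ K' := by rw [pow_succ]; ring
    rw [h7] at h3
    exact Nat.dvd_of_mul_dvd_mul_left (by norm_num) h3
  have hpos : 0 < 2 ^ K' := by positivity
  rw [pow_succ] at hr ⊢
  obtain ⟨M, hM⟩ : ∃ M, M = 2 ^ K' := ⟨_, rfl⟩
  rw [← hM] at hr hpos h6 ⊢
  rcases Nat.even_or_odd u with he | ho
  · have hc : Nat.Coprime M (u + 1) := by
      rw [hM]; exact Nat.Coprime.pow_left _ (Nat.coprime_two_left.2 he.add_one)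
    have h7 : M ∣ u := hc.dvd_of_dvd_mul_right h6
    obtain ⟨j, hj⟩ := h7
    have hj2 : j < 2 := by
      by_contra hcon
      have h8 : 2 ≤ j := by omega
      have h9 : M * 2 ≤ M * j := Nat.mul_le_mul_left _ h8
      omega
    interval_cases j
    · left; omega
    · right; left; omega
  · have hc : Nat.Coprime M u := by
      rw [hM]; exact Nat.Coprime.pow_left _ (Nat.coprime_two_left.2 ho)
    have h7 : M ∣ u + 1 := hc.dvd_of_dvd_mul_left h6
    obtain ⟨j, hj⟩ := h7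
    have hj2 : j < 3 := by
      by_contra hcon
      have h8 : 3 ≤ j := by omega
      have h9 : M * 3 ≤ M * j := Nat.mul_le_mul_left _ h8
      omega
    interval_cases j
    · omega
    · right; right; left; omega
    · right; right; right; omega

/-- Classification of non-abelian 2-groups with a cyclic maximal subgroup: dihedral, generalized quaternion, and for order at least 16 the modular group and the semidihedral group, each given by generators a (of index 2) and b with the stated relations. -/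
theorem result {G : Type*} [Group G] [Finite G] (n : ℕ) (hn : 3 ≤ n) (hG : Nat.card G = 2 ^ n) (C : Subgroup G) (hC : IsCyclic C) (hCi : C.index = 2) (hna : ∃ x y : G, x * y ≠ y * x) : ∃ a b : G, orderOf a = 2 ^ (n - 1) ∧ b ∉ Subgroup.zpowers a ∧ ((b ^ 2 = 1 ∧ b * a * b⁻¹ = a⁻¹) ∨ (b ^ 2 = a ^ (2 ^ (n - 2)) ∧ b * a * b⁻¹ = a⁻¹) ∨ (4 ≤ n ∧ b ^ 2 = 1 ∧ b * a * b⁻¹ = a ^ (1 + 2 ^ (n - 2))) ∨ (4 ≤ n ∧ b ^ 2 = 1 ∧ b * a * b⁻¹ = a ^ (2 ^ (n - 2) - 1))) := by
  classical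
  obtain ⟨K, rfl⟩ : ∃ K, n = K + 2 := ⟨n - 2, by omega⟩
  have hK : 1 ≤ K := by omega
  have e1 : K + 2 - 1 = K + 1 := by omega
  have e2 : K + 2 - 2 = K := by omega
  rw [e1, e2]
  have hCn : C.Normal := Subgroup.normal_of_index_eq_two hCi
  obtain ⟨g, hg⟩ := IsCyclic.exists_generator (α := C)
  obtain ⟨a, ha⟩ : ∃ a : G, a = (g : G) := ⟨_, rfl⟩
  have hcardC : Nat.card C = 2 ^ (K + 1) := by
    have h1 := C.card_mul_index
    rw [hCi, hG, pow_succ 2 (K + 1)] at h1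
    exact Nat.eq_of_mul_eq_mul_right (by norm_num) h1
  have hoa : orderOf a = 2 * 2 ^ K := by
    rw [ha, Subgroup.orderOf_coe, orderOf_eq_card_of_forall_mem_zpowers hg, hcardC, pow_succ,
      mul_comm]
  have hoa' : orderOf a = 2 ^ (K + 1) := by rw [hoa, pow_succ, mul_comm]
  have hCa : ∀ x : G, x ∈ C ↔ x ∈ Subgroup.zpowers a := by
    intro x
    constructor
    · intro hx
      obtain ⟨k, hk⟩ := Subgroup.mem_zpowers_iff.1 (hg ⟨x, hx⟩)
      refine Subgroup.mem_zpowers_iff.2 ⟨k, ?_⟩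
      rw [ha]
      have := congrArg Subtype.val hk
      simpa using this
    · intro hx
      obtain ⟨k, rfl⟩ := Subgroup.mem_zpowers_iff.1 hx
      rw [ha]; exact zpow_mem g.2 k
  have haC : a ∈ C := (hCa a).2 (Subgroup.mem_zpowers a)
  obtain ⟨b0, hb0⟩ : ∃ b0 : G, b0 ∉ C := by
    by_contra hcon
    push Not at hcon
    have h1 : C = ⊤ := eq_top_iff.2 (fun x _ => hcon x)
    rw [h1, Subgroup.index_top] at hCi
    omega
  have hpow : ∀ x ∈ C, ∃ r, r < 2 * 2 ^ K ∧ x = a ^ r := by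
    intro x hx
    have h1 := (hCa x).1 hx
    rw [← mem_powers_iff_mem_zpowers, mem_powers_iff_mem_range_orderOf, hoa] at h1
    obtain ⟨r, hr, hrx⟩ := Finset.mem_image.1 h1
    exact ⟨r, Finset.mem_range.1 hr, hrx.symm⟩
  obtain ⟨r, hr, hbr⟩ := hpow _ (hCn.conj_mem a haC b0)
  obtain ⟨s, hs, hbs⟩ := hpow _ (Subgroup.sq_mem_of_index_two hCi b0)
  have hconj : ∀ i : ℕ, b0 * a ^ i * b0⁻¹ = a ^ (r * i) := by
    intro i; rw [← conj_pow, hbr, ← pow_mul]
  have hrr : r * r ≡ 1 [MOD 2 * 2 ^ K] := by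
    rw [← hoa, ← pow_eq_pow_iff_modEq, pow_one]
    have h1 : b0 ^ 2 * a * (b0 ^ 2)⁻¹ = a ^ (r * r) := by
      calc b0 ^ 2 * a * (b0 ^ 2)⁻¹ = b0 * (b0 * a * b0⁻¹) * b0⁻¹ := by rw [pow_two]; group
        _ = b0 * a ^ r * b0⁻¹ := by rw [hbr]
        _ = a ^ (r * r) := hconj r
    rw [← h1, hbs, ← pow_succ, pow_succ', mul_assoc, mul_inv_cancel, mul_one]
  have hrs : r * s ≡ s [MOD 2 * 2 ^ K] := by
    rw [← hoa, ← pow_eq_pow_iff_modEq, ← hconj s, ← hbs]
    group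
  have hdec : ∀ x : G, x ∈ C ∨ ∃ c ∈ C, x = b0 * c := by
    intro x
    by_cases hx : x ∈ C
    · exact Or.inl hx
    · right
      refine ⟨b0⁻¹ * x, ?_, by group⟩
      rw [Subgroup.mul_mem_iff_of_index_two hCi]
      constructor
      · intro h; exact absurd (inv_mem_iff.1 h) hb0
      · intro h; exact absurd h hx
  have hr1 : r ≠ 1 := by
    rintro rfl
    rw [pow_one] at hbr
    have hcomm : Commute b0 a := by
      show b0 * a = a * b0
      calc b0 * a = (b0 * a * b0⁻¹) * b0 := by group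
        _ = a * b0 := by rw [hbr]
    obtain ⟨x, y, hxy⟩ := hna
    apply hxy
    have hform : ∀ z : G, ∃ (e : ℕ) (k : ℤ), z = b0 ^ e * a ^ k := by
      intro z
      rcases hdec z with hz | ⟨c, hc, rfl⟩
      · obtain ⟨k, rfl⟩ := Subgroup.mem_zpowers_iff.1 ((hCa z).1 hz)
        exact ⟨0, k, by simp⟩
      · obtain ⟨k, rfl⟩ := Subgroup.mem_zpowers_iff.1 ((hCa c).1 hc)
        exact ⟨1, k, by simp⟩
    obtain ⟨e1, k1, rfl⟩ := hform x
    obtain ⟨e2, k2, rfl⟩ := hform y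
    have c1 : Commute (b0 ^ e1) (a ^ k2) := (hcomm.pow_left e1).zpow_right k2
    have c2 : Commute (b0 ^ e2) (a ^ k1) := (hcomm.pow_left e2).zpow_right k1
    have c3 : Commute (b0 ^ e1) (b0 ^ e2) := (Commute.refl b0).pow_pow e1 e2
    have c4 : Commute (a ^ k1) (a ^ k2) := (Commute.refl a).zpow_zpow k1 k2
    exact ((c3.mul_right c1).mul_left (c2.symm.mul_right c4)).eq
  have hbnot : ∀ i : ℤ, a ^ i * b0 ∉ Subgroup.zpowers a := by
    intro i h
    rw [← hCa] at h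
    exact hb0 ((Subgroup.mul_mem_cancel_left C (zpow_mem haC i)).1 h)
  have hbconj : ∀ i : ℤ, (a ^ i * b0) * a * (a ^ i * b0)⁻¹ = a ^ r := by
    intro i
    calc (a ^ i * b0) * a * (a ^ i * b0)⁻¹ = a ^ i * (b0 * a * b0⁻¹) * (a ^ i)⁻¹ := by group
      _ = a ^ i * a ^ r * (a ^ i)⁻¹ := by rw [hbr]
      _ = a ^ r := by
        rw [(((Commute.refl a).zpow_left i).pow_right r).eq, mul_assoc, mul_inv_cancel, mul_one]
  have hbsq : ∀ i : ℤ, (a ^ i * b0) ^ 2 = a ^ (i + r * i + s) := by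
    intro i
    have h1 : b0 * a ^ i * b0⁻¹ = a ^ ((r : ℤ) * i) := by
      rw [← conj_zpow, hbr, zpow_mul, zpow_natCast]
    calc (a ^ i * b0) ^ 2 = a ^ i * (b0 * a ^ i * b0⁻¹) * b0 ^ 2 := by rw [pow_two, pow_two]; group
      _ = a ^ i * a ^ ((r : ℤ) * i) * a ^ (s : ℤ) := by rw [h1, hbs, zpow_natCast]
      _ = a ^ (i + r * i + s) := by rw [← zpow_add, ← zpow_add]
  have hone : ∀ E : ℤ, ((2 * 2 ^ K : ℕ) : ℤ) ∣ E → a ^ E = 1 := by
    intro E hE
    apply orderOf_dvd_iff_zpow_eq_one.1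
    rw [hoa]; exact hE
  have hb0not : b0 ∉ Subgroup.zpowers a := fun hb => hb0 ((hCa b0).2 hb)
  -- the inverting case
  have hA : r + 1 = 2 * 2 ^ K → ∃ a b : G, orderOf a = 2 ^ (K + 1) ∧ b ∉ Subgroup.zpowers a ∧
      ((b ^ 2 = 1 ∧ b * a * b⁻¹ = a⁻¹) ∨ (b ^ 2 = a ^ (2 ^ K) ∧ b * a * b⁻¹ = a⁻¹) ∨
      (4 ≤ K + 2 ∧ b ^ 2 = 1 ∧ b * a * b⁻¹ = a ^ (1 + 2 ^ K)) ∨
      (4 ≤ K + 2 ∧ b ^ 2 = 1 ∧ b * a * b⁻¹ = a ^ (2 ^ K - 1))) := by
    intro h
    have har : a ^ r = a⁻¹ := by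
      apply eq_inv_of_mul_eq_one_left
      rw [← pow_succ, h, ← hoa]; exact pow_orderOf_eq_one a
    have h1 : s + s ≡ r * s + s [MOD 2 * 2 ^ K] := (hrs.symm).add_right s
    have h2 : r * s + s = (2 * 2 ^ K) * s := by rw [← h]; ring
    have h3 : 2 * 2 ^ K ∣ s + s := by
      rw [h2] at h1
      exact (Nat.modEq_zero_iff_dvd).1 (h1.trans ((Nat.modEq_zero_iff_dvd).2 (Dvd.intro _ rfl)))
    have h4 : 2 ^ K ∣ s := by
      have h5 : s + s = 2 * s := by ring
      rw [h5] at h3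
      exact Nat.dvd_of_mul_dvd_mul_left (by norm_num) h3
    obtain ⟨j, hj⟩ := h4
    have hj2 : j < 2 := by
      by_contra hcon
      have h5 : 2 ≤ j := by omega
      have h6 : 2 ^ K * 2 ≤ 2 ^ K * j := Nat.mul_le_mul_left _ h5
      omega
    refine ⟨a, b0, hoa', hb0not, ?_⟩
    interval_cases j
    · left; exact ⟨by rw [hbs, hj]; simp, by rw [hbr, har]⟩
    · right; left; exact ⟨by rw [hbs, hj, mul_one], by rw [hbr, har]⟩
  rcases sq_one_cases K r hK hr hrr with h | h | h | h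
  · exact absurd h hr1
  · by_cases hK1 : K = 1
    · apply hA
      rw [h, hK1]; norm_num
    · obtain ⟨L, rfl⟩ : ∃ L, K = L + 2 := ⟨K - 2, by omega⟩
      obtain ⟨W, hW⟩ : ∃ W : ℕ, W = 2 ^ L := ⟨_, rfl⟩
      have hM : 2 ^ (L + 2) = 4 * W := by rw [pow_succ, pow_succ, hW]; ring
      have h1 : 2 ^ (L + 2) * s ≡ 0 [MOD 2 * 2 ^ (L + 2)] := by
        apply Nat.ModEq.add_left_cancel' s
        have h2 : s + 2 ^ (L + 2) * s = r * s := by rw [h]; ring
        rw [h2, add_zero]; exact hrs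
      have h2 : 2 ∣ s := by
        have h3 := (Nat.modEq_zero_iff_dvd).1 h1
        rw [mul_comm 2 (2 ^ (L + 2))] at h3
        exact Nat.dvd_of_mul_dvd_mul_left (by positivity) h3
      obtain ⟨t, ht⟩ := h2
      refine ⟨a, a ^ (-((t : ℤ) * (1 + 2 * W))) * b0, hoa', hbnot _,
        Or.inr (Or.inr (Or.inl ⟨by omega, ?_, ?_⟩))⟩
      · rw [hbsq]
        apply hone
        refine ⟨-((t : ℤ) * (1 + W)), ?_⟩
        rw [h, ht, hM]
        push_cast
        ring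
      · rw [hbconj, h]
  · by_cases hK1 : K = 1
    · exfalso
      rw [hK1] at h
      omega
    · obtain ⟨L, rfl⟩ : ∃ L, K = L + 2 := ⟨K - 2, by omega⟩
      obtain ⟨W, hW⟩ : ∃ W : ℕ, W = 2 ^ L := ⟨_, rfl⟩
      have hM : 2 ^ (L + 2) = 4 * W := by rw [pow_succ, pow_succ, hW]; ring
      have hWpos : 0 < W := by rw [hW]; positivity
      rw [hM] at h hrs hs
      have h1 : s + s ≡ r * s + s [MOD 2 * (4 * W)] := (hrs.symm).add_right s
      have h2 : r * s + s = 2 * (2 * W * s) := by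
        have : r * s + s = (r + 1) * s := by ring
        rw [this, h]; ring
      have h3 : 2 * s ≡ 2 * (2 * W * s) [MOD 2 * (4 * W)] := by
        have e : 2 * s = s + s := by ring
        rw [e, ← h2]; exact h1
      have h4 : s ≡ 2 * W * s [MOD 4 * W] := Nat.ModEq.mul_left_cancel' (by norm_num) h3
      have h5 : 2 * W * s ≡ 2 * W * (2 * W * s) [MOD 4 * W] := h4.mul_left (2 * W)
      have h6 : 2 * W * (2 * W * s) = 4 * W * (W * s) := by ring
      have h7 : 4 * W ∣ s := by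
        apply (Nat.modEq_zero_iff_dvd).1
        rw [h6] at h5
        exact (h4.trans h5).trans ((Nat.modEq_zero_iff_dvd).2 (Dvd.intro _ rfl))
      obtain ⟨j, hj⟩ := h7
      have hj2 : j < 2 := by
        by_contra hcon
        have h8 : 2 ≤ j := by omega
        have h9 : 4 * W * 2 ≤ 4 * W * j := Nat.mul_le_mul_left _ h8
        omega
      have hr' : r = 2 ^ (L + 2) - 1 := by rw [hM]; omega
      interval_cases j
      · refine ⟨a, b0, hoa', hb0not, Or.inr (Or.inr (Or.inr ⟨by omega, ?_, ?_⟩))⟩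
        · rw [hbs, hj]; simp
        · rw [hbr, hr']
      · refine ⟨a, a ^ (1 : ℤ) * b0, hoa', hbnot _, Or.inr (Or.inr (Or.inr ⟨by omega, ?_, ?_⟩))⟩
        · rw [hbsq]
          apply hone
          refine ⟨1, ?_⟩
          rw [hM, hj]
          have h10 : (r : ℤ) + 1 = 4 * W := by exact_mod_cast h
          push_cast
          linarith
        · rw [hbconj, hr']
  · exact hA h

end Cfsg.Agent.S0646
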