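import Cfsg.Statements.S0660
import Cfsg.Agent.Lib.Helper18.Maschke
import Mathlib

set_option autoImplicit false
open Cfsg

namespace Cfsg.Agent.S0660

/-- Under a coprime action on an abelian group, an invariant subgroup that is complemented admits an invariant complement. -/
theorem result {G : Type*} [Group G] [Finite G] (V A U : Subgroup G) (hVab : IsMulCommutative V) (hAV : A ≤ Subgroup.normalizer (V : Set G)) (hcop : (Nat.card A).Coprime (Nat.card V)) (hUV : U ≤ V) (hAU : A ≤ Subgroup.normalizer (U : Set G)) (W : Subgroup G) (hWV : W ≤ V) (hUW : U ⊓ W = ⊥) (hUWV : U ⊔ W = V) : ∃ W' : Subgroup G, W' ≤ V ∧ A ≤ Subgroup.normalizer (W' : Set G) ∧ U ⊓ W' = ⊥ ∧ U ⊔ W' = V := by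
  classical
  have hc : ∀ x y : V, x * y = y * x := fun x y => hVab.is_comm.comm x y
  let ρ : A →* MulAut V := (V.normalizerMonoidHom).comp (Subgroup.inclusion hAV)
  have hρ : ∀ (a : A) (v : V), ((ρ a v : V) : G) = a * v * (a : G)⁻¹ := fun a v => rfl
  have hU' : ∀ a : A, ∀ u ∈ U.subgroupOf V, ρ a u ∈ U.subgroupOf V := by
    intro a u hu
    rw [Subgroup.mem_subgroupOf] at hu ⊢
    rw [hρ]
    exact (Subgroup.mem_normalizer_iff.1 (hAU a.2) _).1 hu
  have h1 : U.subgroupOf V ⊓ W.subgroupOf V = ⊥ := by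
    rw [eq_bot_iff]
    intro x hx
    have hx' : (x : G) ∈ U ⊓ W := ⟨Subgroup.mem_subgroupOf.1 hx.1, Subgroup.mem_subgroupOf.1 hx.2⟩
    rw [hUW, Subgroup.mem_bot] at hx'
    rw [Subgroup.mem_bot]
    exact Subtype.ext hx'
  have h2 : U.subgroupOf V ⊔ W.subgroupOf V = ⊤ := by
    apply Subgroup.map_injective V.subtype_injective
    rw [Subgroup.map_sup, Subgroup.subgroupOf_map_subtype, Subgroup.subgroupOf_map_subtype,
      inf_of_le_left hUV, inf_of_le_left hWV, hUWV, ← MonoidHom.range_eq_map, Subgroup.range_subtype]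
  obtain ⟨K, hK1, hK2, hK3⟩ := Cfsg.Agent.Lib.Helper18.maschke_grp hc ρ hcop _ _ hU' h1 h2
  refine ⟨K.map V.subtype, Subgroup.map_subtype_le K, ?_, ?_, ?_⟩
  · have key : ∀ a ∈ A, ∀ x ∈ K.map V.subtype, a * x * a⁻¹ ∈ K.map V.subtype := by
      intro a ha x hx
      obtain ⟨k, hk, rfl⟩ := hx
      exact ⟨ρ ⟨a, ha⟩ k, hK1 _ _ hk, rfl⟩
    intro a ha
    rw [Subgroup.mem_normalizer_iff]
    intro x
    constructor
    · exact key a ha x
    · intro h
      have := key a⁻¹ (A.inv_mem ha) _ h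
      simpa [mul_assoc] using this
  · rw [eq_bot_iff]
    intro x hx
    obtain ⟨hx1, k, hk, rfl⟩ := hx
    have : k ∈ U.subgroupOf V ⊓ K := ⟨Subgroup.mem_subgroupOf.2 hx1, hk⟩
    rw [hK2, Subgroup.mem_bot] at this
    rw [this]; simp
  · have := congrArg (Subgroup.map V.subtype) hK3
    rw [Subgroup.map_sup, Subgroup.subgroupOf_map_subtype, inf_of_le_left hUV,
      ← MonoidHom.range_eq_map, Subgroup.range_subtype] at this
    exact this

end Cfsg.Agent.S0660
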