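import Cfsg.Statements.S0663
-- import your own Cfsg.Agent.* helpers here
import Cfsg.Agent.Lib.Helper1.Coprime

set_option autoImplicit false
open Cfsg

namespace Cfsg.Agent.S0663


open Subgroup
open scoped Pointwise commutatorElement

local notation "ic" => Cfsg.iterCommutator

variable {L : Type*} [Group L]

theorem relIndex_mul_card' {H K : Subgroup L} (h : H ≤ K) :
    H.relIndex K * Nat.card H = Nat.card K := by
  have := Subgroup.relIndex_mul_relIndex ⊥ H K bot_le h
  rw [Subgroup.relIndex_bot_left, Subgroup.relIndex_bot_left] at this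
  rw [mul_comm]; exact this

theorem norm_ic {N G : Subgroup L} (h : G ≤ normalizer (N : Set L)) :
    ∀ i, G ≤ normalizer (ic N G i : Set L)
  | 0 => h
  | _ + 1 => normalizer_commutator_ge_right _ _

theorem ic_succ_le {N G : Subgroup L} (h : G ≤ normalizer (N : Set L)) (i : ℕ) :
    ic N G (i + 1) ≤ ic N G i :=
  le_normalizer_iff_commutator_le_left.mp (norm_ic h i)

theorem ic_antitone {N G : Subgroup L} (h : G ≤ normalizer (N : Set L)) : Antitone (ic N G) :=
  antitone_nat_of_succ_le (ic_succ_le h)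

theorem ic_le {N G : Subgroup L} (h : G ≤ normalizer (N : Set L)) (i : ℕ) : ic N G i ≤ N :=
  ic_antitone h (Nat.zero_le i)

theorem ic_mono {N G Γ : Subgroup L} (h : G ≤ Γ) : ∀ i, ic N G i ≤ ic N Γ i
  | 0 => le_rfl
  | i + 1 => commutator_mono (ic_mono h i) h

theorem step [Finite L] {p : ℕ} [Fact p.Prime] {X P : Subgroup L} (hX : IsPGroup p X)
    (hP : IsPGroup p P) (hPX : P ≤ normalizer (X : Set L)) (hne : X ≠ ⊥) :
    p * Nat.card (⁅X, P⁆ : Subgroup L) ≤ Nat.card X := by
  have hlt : ⁅X, P⁆ < X := Cfsg.Agent.Lib.Helper1.commutator_lt_of_isPGroup hX hP hPX hne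
  have h1 := relIndex_mul_card' hlt.le
  have h2 : p ≤ (⁅X, P⁆).relIndex X := by
    obtain ⟨k, hk⟩ := hX.index ((⁅X, P⁆).subgroupOf X)
    have hk' : (⁅X, P⁆).relIndex X = p ^ k := hk
    rw [hk']
    rcases Nat.eq_zero_or_pos k with rfl | hkpos
    · exfalso
      rw [pow_zero, Subgroup.relIndex_eq_one] at hk'
      exact absurd hk' (not_le_of_gt hlt)
    · calc p = p ^ 1 := (pow_one p).symm
        _ ≤ p ^ k := Nat.pow_le_pow_right (Fact.out : p.Prime).pos hkpos
  calc p * Nat.card (⁅X, P⁆ : Subgroup L) ≤ (⁅X, P⁆).relIndex X * Nat.card (⁅X, P⁆ : Subgroup L) := by gcongr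
    _ = Nat.card X := h1

theorem card_ic [Finite L] {p : ℕ} [Fact p.Prime] {N G : Subgroup L} (hN : IsPGroup p N)
    (hG : IsPGroup p G) (hGN : G ≤ normalizer (N : Set L)) (i : ℕ) :
    ∀ j, ic N G (i + j) ≠ ⊥ → p ^ j * Nat.card (ic N G (i + j)) ≤ Nat.card (ic N G i) := by
  intro j
  induction j with
  | zero => intro _; simp
  | succ j ih =>
    intro hne
    have hne' : ic N G (i + j) ≠ ⊥ := by
      intro h
      apply hne
      have := ic_succ_le hGN (i + j)
      rw [h] at this
      exact le_bot_iff.mp this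
    have h1 := step (hN.to_le (ic_le hGN (i + j))) hG (norm_ic hGN (i + j)) hne'
    calc p ^ (j + 1) * Nat.card (ic N G (i + (j + 1)))
        = p ^ j * (p * Nat.card (⁅ic N G (i + j), G⁆ : Subgroup L)) := by
          rw [pow_succ, mul_assoc]; rfl
      _ ≤ p ^ j * Nat.card (ic N G (i + j)) := by gcongr
      _ ≤ _ := ih hne'

theorem p_le_card [Finite L] {p : ℕ} [hp : Fact p.Prime] {X : Subgroup L} (hX : IsPGroup p X)
    (hne : X ≠ ⊥) : p ≤ Nat.card X := by
  obtain ⟨k, hk⟩ := IsPGroup.iff_card.mp hX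
  rw [hk]
  rcases Nat.eq_zero_or_pos k with rfl | hkpos
  · exfalso
    rw [pow_zero, Subgroup.card_eq_one] at hk
    exact hne hk
  · calc p = p ^ 1 := (pow_one p).symm
      _ ≤ p ^ k := Nat.pow_le_pow_right hp.out.pos hkpos

theorem chain_facts [Finite L] {p : ℕ} [hp : Fact p.Prime] {N G : Subgroup L} (hN : IsPGroup p N)
    (hG : IsPGroup p G) (hGN : G ≤ normalizer (N : Set L)) (m : ℕ)
    (hn : Nat.card N = p ^ (m + 1)) (hch : ic N G m ≠ ⊥) :
    (∀ i ≤ m + 1, Nat.card (ic N G i) = p ^ (m + 1 - i)) ∧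
      (∀ i, N ≤ normalizer (ic N G i : Set L)) := by
  have hppos : 0 < p := hp.out.pos
  have hΓp : IsPGroup p (G ⊔ N : Subgroup L) := hG.to_sup_of_normal_right' hN hGN
  have hΓN : G ⊔ N ≤ normalizer (N : Set L) := sup_le hGN le_normalizer
  have hne_i : ∀ i ≤ m, ic N G i ≠ ⊥ := by
    intro i hi h
    apply hch
    have := ic_antitone hGN hi
    rw [h] at this
    exact le_bot_iff.mp this
  have lower : ∀ i ≤ m, p ^ (m + 1 - i) ≤ Nat.card (ic N G i) := by
    intro i hi
    obtain ⟨j, rfl⟩ := Nat.exists_eq_add_of_le hi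
    have h1 := card_ic hN hG hGN i j hch
    have h2 := p_le_card (hN.to_le (ic_le hGN (i + j))) hch
    have h3 : i + j + 1 - i = j + 1 := by omega
    rw [h3, pow_succ]
    calc p ^ j * p ≤ p ^ j * Nat.card (ic N G (i + j)) := by gcongr
      _ ≤ _ := h1
  have hneΓ : ∀ i ≤ m, ic N (G ⊔ N) i ≠ ⊥ := by
    intro i hi h
    apply hne_i i hi
    have := ic_mono (N := N) (le_sup_left : G ≤ G ⊔ N) i
    rw [h] at this
    exact le_bot_iff.mp this
  have upper : ∀ i ≤ m, Nat.card (ic N (G ⊔ N) i) ≤ p ^ (m + 1 - i) := by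
    intro i hi
    have h1 := card_ic hN hΓp hΓN 0 i (by rw [zero_add]; exact hneΓ i hi)
    rw [zero_add] at h1
    have h2 : Nat.card (ic N (G ⊔ N) 0) = p ^ i * p ^ (m + 1 - i) := by
      rw [← pow_add]
      have : i + (m + 1 - i) = m + 1 := by omega
      rw [this]; exact hn
    rw [h2] at h1
    exact Nat.le_of_mul_le_mul_left h1 (pow_pos hppos i)
  have eq_i : ∀ i ≤ m, ic N G i = ic N (G ⊔ N) i := fun i hi =>
    eq_of_le_of_card_ge (ic_mono le_sup_left i) ((upper i hi).trans (lower i hi))
  have card_i : ∀ i ≤ m, Nat.card (ic N G i) = p ^ (m + 1 - i) := fun i hi =>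
    le_antisymm (by rw [eq_i i hi]; exact upper i hi) (lower i hi)
  have botΓ : ic N (G ⊔ N) (m + 1) = ⊥ := by
    have h1 := step (hN.to_le (ic_le hΓN m)) hΓp (norm_ic hΓN m) (hneΓ m le_rfl)
    have h2 := upper m le_rfl
    have h3 : m + 1 - m = 1 := by omega
    rw [h3, pow_one] at h2
    have h4 : p * Nat.card (⁅ic N (G ⊔ N) m, G ⊔ N⁆ : Subgroup L) ≤ p * 1 := by rw [mul_one]; exact h1.trans h2
    have h5 := Nat.le_of_mul_le_mul_left h4 hppos
    change ⁅ic N (G ⊔ N) m, G ⊔ N⁆ = ⊥
    rw [← Subgroup.card_eq_one]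
    exact le_antisymm h5 Nat.card_pos
  have eq_all : ∀ i, ic N G i = ic N (G ⊔ N) i := by
    intro i
    rcases Nat.lt_or_ge m i with hi | hi
    · have h1 : ic N (G ⊔ N) i = ⊥ := by
        have := ic_antitone hΓN (show m + 1 ≤ i from hi)
        rw [botΓ] at this
        exact le_bot_iff.mp this
      rw [h1]
      have := ic_mono (N := N) (le_sup_left : G ≤ G ⊔ N) i
      rw [h1] at this
      exact le_bot_iff.mp this
    · exact eq_i i hi
  refine ⟨?_, ?_⟩
  · intro i hi
    rcases Nat.lt_or_ge m i with hi' | hi'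
    · have : i = m + 1 := by omega
      subst this
      rw [eq_all, botΓ]
      simp
    · exact card_i i hi'
  · intro i
    rw [eq_all]
    exact le_sup_right.trans (norm_ic hΓN i)

theorem inv_eq_chain [Finite L] {p : ℕ} [hp : Fact p.Prime] {N G : Subgroup L} (hN : IsPGroup p N)
    (hG : IsPGroup p G) (hGN : G ≤ normalizer (N : Set L)) (m : ℕ)
    (hn : Nat.card N = p ^ (m + 1)) (hch : ic N G m ≠ ⊥) (H : Subgroup L) (hHN : H ≤ N)
    (hGH : G ≤ normalizer (H : Set L)) : ∃ i ≤ m + 1, H = ic N G i := by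
  obtain ⟨hcard, hnorm⟩ := chain_facts hN hG hGN m hn hch
  have hbot : ic N G (m + 1) = ⊥ := by
    rw [← Subgroup.card_eq_one, hcard (m + 1) le_rfl]; simp
  -- key dichotomy
  have key : ∀ i ≤ m, H ≤ ic N G i → H = ic N G i ∨ H ≤ ic N G (i + 1) := by
    intro i hi hHi
    by_cases hH1 : H ≤ ic N G (i + 1)
    · exact Or.inr hH1
    left
    apply le_antisymm hHi
    -- Q
    have Q : ∀ k, ic N G (i + k) ≤ (H ⊓ ic N G (i + k)) ⊔ ic N G (i + k + 1) := by
      intro k
      induction k with
      | zero =>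
        rw [add_zero, inf_eq_left.mpr hHi]
        have hle : H ⊔ ic N G (i + 1) ≤ ic N G i := sup_le hHi (ic_succ_le hGN i)
        apply le_of_eq
        symm
        apply eq_of_le_of_card_ge hle
        have hlt : ic N G (i + 1) < H ⊔ ic N G (i + 1) := by
          refine lt_of_le_of_ne le_sup_right ?_
          intro h
          apply hH1
          rw [h]; exact le_sup_left
        obtain ⟨b, hb⟩ := IsPGroup.iff_card.mp (hN.to_le (hle.trans (ic_le hGN i)))
        have h1 : Nat.card (ic N G (i + 1)) < Nat.card (H ⊔ ic N G (i + 1) : Subgroup L) := by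
          refine lt_of_le_of_ne (card_le_of_le hlt.le) ?_
          intro h
          exact hlt.ne (eq_of_le_of_card_ge hlt.le h.ge)
        rw [hcard (i + 1) (by omega), hb] at h1
        rw [hcard i (by omega), hb]
        have h2 : m + 1 - (i + 1) < b := (Nat.pow_lt_pow_iff_right hp.out.one_lt).mp h1
        exact Nat.pow_le_pow_right hp.out.pos (by omega)
      | succ k ih =>
        have hn1 : H ⊓ ic N G (i + k) ≤ normalizer (ic N G (i + k + 1) : Set L) :=
          (inf_le_left.trans hHN).trans (hnorm _)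
        change ⁅ic N G (i + k), G⁆ ≤ _
        rw [commutator_le]
        intro x hx g hg
        have hx' := ih hx
        rw [← SetLike.mem_coe, coe_mul_of_left_le_normalizer_right _ _ hn1] at hx'
        obtain ⟨h, hh, y, hy, rfl⟩ := Set.mem_mul.mp hx'
        have e1 : ⁅h * y, g⁆ = (h * ⁅y, g⁆ * h⁻¹) * ⁅h, g⁆ := by
          simp only [commutatorElement_def]; group
        rw [e1]
        apply Subgroup.mul_mem
        · apply Subgroup.mem_sup_right
          have hyg : ⁅y, g⁆ ∈ ic N G (i + k + 1 + 1) := commutator_mem_commutator hy hg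
          have hhN : h ∈ N := hHN hh.1
          exact (mem_normalizer_iff.mp (hnorm (i + k + 1 + 1) hhN) _).mp hyg
        · apply Subgroup.mem_sup_left
          refine ⟨?_, commutator_mem_commutator hh.2 hg⟩
          have : ⁅h, g⁆ = h * (g * h⁻¹ * g⁻¹) := by
            simp only [commutatorElement_def]; group
          rw [this]
          exact H.mul_mem hh.1 ((mem_normalizer_iff.mp (hGH hg) _).mp (H.inv_mem hh.1))
    -- downward induction
    have D : ∀ k j, i ≤ j → j + k = m + 1 → ic N G j ≤ H := by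
      intro k
      induction k with
      | zero =>
        intro j _ hj
        have : j = m + 1 := by omega
        rw [this, hbot]; exact bot_le
      | succ k ih =>
        intro j hij hj
        obtain ⟨t, rfl⟩ := Nat.exists_eq_add_of_le hij
        exact (Q t).trans (sup_le inf_le_left (ih (i + t + 1) (by omega) (by omega)))
    exact D (m + 1 - i) i le_rfl (by omega)
  have main : ∀ i ≤ m + 1, H ≤ ic N G i ∨ ∃ i' ≤ m + 1, H = ic N G i' := by
    intro i
    induction i with
    | zero => intro _; exact Or.inl hHN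
    | succ i ih =>
      intro hi
      rcases ih (by omega) with h | h
      · rcases key i (by omega) h with h1 | h1
        · exact Or.inr ⟨i, by omega, h1⟩
        · exact Or.inl h1
      · exact Or.inr h
  rcases main (m + 1) le_rfl with h | h
  · refine ⟨m + 1, le_rfl, ?_⟩
    rw [hbot] at h ⊢
    exact le_bot_iff.mp h
  · exact h

/-- A p-group acts uniserially on a p-group N of order p^n exactly when the iterated commutator chain from N has length n; in that case the chain terms are all the invariant subgroups of N and they are normal in N. -/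
theorem result {L : Type*} [Group L] [Finite L] {p : ℕ} [Fact p.Prime] (N G : Subgroup L) (hN : IsPGroup p N) (hG : IsPGroup p G) (hGN : G ≤ Subgroup.normalizer (N : Set L)) (n : ℕ) (hn : Nat.card N = p ^ n) : ((∀ H : Subgroup L, H ≤ N → G ≤ Subgroup.normalizer (H : Set L) → H ≠ ⊥ → (⁅H, G⁆).relIndex H = p) ↔ Cfsg.iterCommutator N G (n - 1) ≠ ⊥ ∨ n = 0) ∧ ((∀ H : Subgroup L, H ≤ N → G ≤ Subgroup.normalizer (H : Set L) → H ≠ ⊥ → (⁅H, G⁆).relIndex H = p) → ∀ H : Subgroup L, H ≤ N → G ≤ Subgroup.normalizer (H : Set L) → (∃ i ≤ n, H = Cfsg.iterCommutator N G i) ∧ N ≤ Subgroup.normalizer (H : Set L)) := by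
  have hp : p.Prime := Fact.out
  have fwd : (∀ H : Subgroup L, H ≤ N → G ≤ Subgroup.normalizer (H : Set L) → H ≠ ⊥ →
      (⁅H, G⁆).relIndex H = p) → Cfsg.iterCommutator N G (n - 1) ≠ ⊥ ∨ n = 0 := by
    intro huni
    rcases Nat.eq_zero_or_pos n with rfl | hnpos
    · exact Or.inr rfl
    left
    have hc : ∀ i ≤ n, Nat.card (Cfsg.iterCommutator N G i) = p ^ (n - i) := by
      intro i
      induction i with
      | zero => intro _; exact hn
      | succ i ih =>
        intro hi
        have h1 := ih (by omega)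
        have hne : Cfsg.iterCommutator N G i ≠ ⊥ := by
          intro h
          rw [h] at h1
          simp only [Subgroup.card_bot] at h1
          have : 1 < p ^ (n - i) := Nat.one_lt_pow (by omega) hp.one_lt
          omega
        have h2 := huni _ (ic_le hGN i) (norm_ic hGN i) hne
        have h3 := relIndex_mul_card' (ic_succ_le hGN i)
        change (⁅Cfsg.iterCommutator N G i, G⁆).relIndex _ * _ = _ at h3
        rw [h2, h1] at h3
        have h4 : n - i = (n - (i + 1)) + 1 := by omega
        rw [h4, pow_succ, mul_comm] at h3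
        exact Nat.eq_of_mul_eq_mul_right hp.pos h3
    intro h
    have h1 := hc (n - 1) (by omega)
    rw [h] at h1
    simp only [Subgroup.card_bot] at h1
    have : 1 < p ^ (n - (n - 1)) := Nat.one_lt_pow (by omega) hp.one_lt
    omega
  refine ⟨⟨fwd, ?_⟩, ?_⟩
  · rintro (hch | rfl)
    · rcases Nat.eq_zero_or_pos n with rfl | hnpos
      · intro H hHN _ hne
        exfalso
        apply hne
        rw [pow_zero, Subgroup.card_eq_one] at hn
        rw [hn] at hHN
        exact le_bot_iff.mp hHN
      · obtain ⟨m, rfl⟩ : ∃ m, n = m + 1 := ⟨n - 1, by omega⟩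
        simp only [Nat.add_sub_cancel] at hch
        intro H hHN hGH hne
        obtain ⟨i, hi, rfl⟩ := inv_eq_chain hN hG hGN m hn hch H hHN hGH
        obtain ⟨hcard, -⟩ := chain_facts hN hG hGN m hn hch
        have hi' : i ≤ m := by
          by_contra hcon
          have : i = m + 1 := by omega
          subst this
          apply hne
          rw [← Subgroup.card_eq_one, hcard (m + 1) le_rfl]; simp
        have h3 := relIndex_mul_card' (ic_succ_le hGN i)
        rw [hcard i hi, hcard (i + 1) (by omega)] at h3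
        have h4 : m + 1 - i = (m + 1 - (i + 1)) + 1 := by omega
        rw [h4, pow_succ, mul_comm] at h3
        exact Nat.eq_of_mul_eq_mul_left (pow_pos hp.pos _) h3
    · intro H hHN _ hne
      exfalso
      apply hne
      rw [pow_zero, Subgroup.card_eq_one] at hn
      rw [hn] at hHN
      exact le_bot_iff.mp hHN
  · intro huni H hHN hGH
    rcases fwd huni with hch | rfl
    · rcases Nat.eq_zero_or_pos n with rfl | hnpos
      · rw [pow_zero, Subgroup.card_eq_one] at hn
        subst hn
        have hH : H = ⊥ := le_bot_iff.mp hHN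
        subst hH
        exact ⟨⟨0, le_rfl, rfl⟩, bot_le⟩
      · obtain ⟨m, rfl⟩ : ∃ m, n = m + 1 := ⟨n - 1, by omega⟩
        simp only [Nat.add_sub_cancel] at hch
        obtain ⟨i, hi, rfl⟩ := inv_eq_chain hN hG hGN m hn hch H hHN hGH
        obtain ⟨-, hnorm⟩ := chain_facts hN hG hGN m hn hch
        exact ⟨⟨i, hi, rfl⟩, hnorm i⟩
    · rw [pow_zero, Subgroup.card_eq_one] at hn
      subst hn
      have hH : H = ⊥ := le_bot_iff.mp hHN
      subst hH
      exact ⟨⟨0, le_rfl, rfl⟩, bot_le⟩

end Cfsg.Agent.S0663
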