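import Cfsg.Statements.S0668
import Mathlib

set_option autoImplicit false
open Cfsg

namespace Cfsg.Agent.S0668

section
variable {G : Type*} [Group G] {K : Type*} [Field K] {Ω₁ Ω₂ : Type*} [Fintype Ω₁] [Fintype Ω₂]
  [MulAction G Ω₁] [MulAction G Ω₂]

noncomputable def Theta : (MulAction.orbitRel.Quotient G (Ω₁ × Ω₂) → K) →ₗ[K] ((Ω₁ → K) →ₗ[K] (Ω₂ → K)) where
  toFun c :=
    { toFun := fun φ y => ∑ x, c (Quotient.mk'' (x, y)) * φ x
      map_add' := by
        intro φ ψ
        ext y
        simp [mul_add, Finset.sum_add_distrib]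
      map_smul' := by
        intro a φ
        ext y
        simp only [Pi.smul_apply, smul_eq_mul, RingHom.id_apply, Finset.mul_sum]
        apply Finset.sum_congr rfl
        intro x _
        ring }
  map_add' := by
    intro c d
    ext φ y
    simp [add_mul, Finset.sum_add_distrib]
  map_smul' := by
    intro a c
    ext φ y
    simp [Finset.mul_sum, mul_assoc]

theorem Theta_apply (c : MulAction.orbitRel.Quotient G (Ω₁ × Ω₂) → K) (φ : Ω₁ → K) (y : Ω₂) :
    Theta c φ y = ∑ x, c (Quotient.mk'' (x, y)) * φ x := rfl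

theorem Theta_single [DecidableEq Ω₁] (c : MulAction.orbitRel.Quotient G (Ω₁ × Ω₂) → K) (x : Ω₁) (a : K) (y : Ω₂) :
    Theta c (Pi.single x a) y = c (Quotient.mk'' (x, y)) * a := by
  rw [Theta_apply, Finset.sum_eq_single x]
  · simp
  · intro b _ hb
    simp [Pi.single_eq_of_ne hb]
  · intro h; exact absurd (Finset.mem_univ x) h

theorem mk_smul (g : G) (x : Ω₁) (y : Ω₂) :
    (Quotient.mk'' (g • x, g • y) : MulAction.orbitRel.Quotient G (Ω₁ × Ω₂)) = Quotient.mk'' (x, y) := by
  apply Quotient.sound'
  show MulAction.orbitRel G (Ω₁ × Ω₂) _ _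
  rw [MulAction.orbitRel_apply]
  exact ⟨g, rfl⟩

theorem Theta_inj : Function.Injective (Theta (G := G) (K := K) (Ω₁ := Ω₁) (Ω₂ := Ω₂)) := by
  classical
  intro c d h
  ext q
  induction q using Quotient.inductionOn' with
  | h p =>
    obtain ⟨x, y⟩ := p
    have := congrArg (fun f => f (Pi.single x 1) y) h
    simpa [Theta_single] using this

theorem range_Theta : LinearMap.range (Theta (G := G) (K := K) (Ω₁ := Ω₁) (Ω₂ := Ω₂)) =
    ((Cfsg.permRep K G Ω₁).linHom (Cfsg.permRep K G Ω₂)).invariants := by
  classical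
  apply le_antisymm
  · rintro _ ⟨c, rfl⟩
    rw [Representation.mem_invariants]
    intro g
    rw [Representation.linHom_apply]
    apply LinearMap.ext
    intro φ
    funext y
    show Theta c (fun x => φ (g⁻¹⁻¹ • x)) (g⁻¹ • y) = Theta c φ y
    rw [Theta_apply, Theta_apply, ← Equiv.sum_comp (MulAction.toPerm g⁻¹)]
    apply Finset.sum_congr rfl
    intro x _
    simp only [MulAction.toPerm_apply, inv_inv, smul_inv_smul]
    rw [mk_smul]
  · intro f hf
    rw [Representation.mem_invariants] at hf
    have hinv : ∀ (g : G) (x : Ω₁) (y : Ω₂), f (Pi.single (g • x) 1) (g • y) = f (Pi.single x 1) y := by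
      intro g x y
      have h1 := congrArg (fun F => F (Pi.single (g • x) 1) (g • y)) (hf g)
      rw [Representation.linHom_apply] at h1
      have h2 : f (fun z => (Pi.single (g • x) (1 : K) : Ω₁ → K) (g⁻¹⁻¹ • z)) (g⁻¹ • g • y) =
          f (Pi.single (g • x) 1) (g • y) := h1
      rw [← h2, inv_smul_smul]
      have h4 : (fun z => (Pi.single (g • x) (1 : K) : Ω₁ → K) (g⁻¹⁻¹ • z)) = Pi.single x 1 := by
        funext z
        rw [inv_inv]
        by_cases hz : z = x
        · subst hz; simp
        · rw [Pi.single_eq_of_ne hz, Pi.single_eq_of_ne]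
          intro h
          exact hz (MulAction.injective g h)
      rw [h4]
    refine ⟨fun q => f (Pi.single q.out.1 1) q.out.2, ?_⟩
    apply LinearMap.pi_ext
    intro x a
    ext y
    rw [Theta_single]
    have h1 : MulAction.orbitRel G (Ω₁ × Ω₂) (Quotient.mk'' (x, y) : MulAction.orbitRel.Quotient G (Ω₁ × Ω₂)).out (x, y) :=
      Quotient.exact' (Quotient.out_eq' _)
    rw [MulAction.orbitRel_apply] at h1
    obtain ⟨g, hg⟩ := h1
    have h2 : (Quotient.mk'' (x, y) : MulAction.orbitRel.Quotient G (Ω₁ × Ω₂)).out = (g • x, g • y) := hg.symm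
    rw [h2]
    simp only
    rw [hinv]
    have h3 : (Pi.single x a : Ω₁ → K) = a • Pi.single x 1 := by
      ext z
      by_cases hz : z = x
      · subst hz; simp
      · simp [Pi.single_eq_of_ne hz]
    rw [h3, map_smul, Pi.smul_apply, smul_eq_mul, mul_comm]
end

/-- The equivariant linear maps between the permutation modules of two finite `G`-sets form a space whose dimension is the number of `G`-orbits on the product of the two sets. -/
theorem result {G : Type*} [Group G] {K : Type*} [Field K] {Ω₁ Ω₂ : Type*} [Fintype Ω₁] [Fintype Ω₂] [MulAction G Ω₁] [MulAction G Ω₂] : Module.finrank K ((Cfsg.permRep K G Ω₁).linHom (Cfsg.permRep K G Ω₂)).invariants = Nat.card (MulAction.orbitRel.Quotient G (Ω₁ × Ω₂)) := by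
  classical
  rw [← range_Theta, LinearMap.finrank_range_of_inj Theta_inj]
  haveI : Fintype (MulAction.orbitRel.Quotient G (Ω₁ × Ω₂)) := Fintype.ofFinite _
  rw [Module.finrank_fintype_fun_eq_card, Nat.card_eq_fintype_card]

end Cfsg.Agent.S0668
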