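import Cfsg.Statements.S0669
-- import your own Cfsg.Agent.* helpers here
import Mathlib

set_option autoImplicit false
open Cfsg

namespace Cfsg.Agent.S0669

/-- The rank of a transitive action: orbits on ordered pairs correspond to orbits of a point stabiliser. -/
theorem result {G : Type*} [Group G] {Ω : Type*} [Finite Ω] [MulAction G Ω] [MulAction.IsPretransitive G Ω] (a : Ω) : Nat.card (MulAction.orbitRel.Quotient G (Ω × Ω)) = Nat.card (MulAction.orbitRel.Quotient (MulAction.stabilizer G a) Ω) := by
  symm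
  refine Nat.card_congr (Equiv.ofBijective
    (Quotient.map' (s₁ := MulAction.orbitRel (MulAction.stabilizer G a) Ω) (s₂ := MulAction.orbitRel G (Ω × Ω))
      (fun x => (a, x)) ?_) ⟨?_, ?_⟩)
  · intro x y hxy
    rw [MulAction.orbitRel_apply] at hxy ⊢
    obtain ⟨h, hh⟩ := hxy
    refine ⟨h.1, ?_⟩
    have h1 : (h : G) • a = a := h.2
    have h2 : (h : G) • y = x := hh
    change ((h : G) • a, (h : G) • y) = (a, x)
    rw [h1, h2]
  · intro q₁ q₂
    induction q₁ using Quotient.inductionOn' with | _ x => ?_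
    induction q₂ using Quotient.inductionOn' with | _ y => ?_
    intro h
    rw [Quotient.map'_mk'', Quotient.map'_mk'', Quotient.eq''] at h
    rw [Quotient.eq'']
    rw [MulAction.orbitRel_apply] at h ⊢
    obtain ⟨g, hg⟩ := h
    have hg' : (g • a, g • y) = (a, x) := hg
    rw [Prod.mk.injEq] at hg'
    exact ⟨⟨g, hg'.1⟩, hg'.2⟩
  · intro q
    induction q using Quotient.inductionOn' with | _ uv => ?_
    obtain ⟨u, v⟩ := uv
    obtain ⟨g, hg⟩ := MulAction.exists_smul_eq G u a
    refine ⟨Quotient.mk'' (g • v), ?_⟩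
    rw [Quotient.map'_mk'', Quotient.eq'', MulAction.orbitRel_apply]
    refine ⟨g, ?_⟩
    change (g • u, g • v) = (a, g • v)
    rw [hg]

end Cfsg.Agent.S0669
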