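import Cfsg.Statements.S0672
-- import your own Cfsg.Agent.* helpers here
import Mathlib

set_option autoImplicit false
open Cfsg

namespace Cfsg.Agent.S0672

section aux
open scoped Pointwise
variable {G : Type*} [Group G] {K : Type*} [Field K] {Ω : Type*} [Fintype Ω] [DecidableEq Ω]
  [MulAction G Ω]

/-- the two-element subset `{a, b}`. -/
def pair (a b : Ω) (h : a ≠ b) : Set.powersetCard Ω 2 := ⟨{a, b}, Finset.card_pair h⟩

theorem mem_pair {a b c : Ω} (h : a ≠ b) : c ∈ pair a b h ↔ c = a ∨ c = b := by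
  change c ∈ ({a, b} : Finset Ω) ↔ _
  simp

theorem smul_mem_smul {g : G} {c : Ω} {e : Set.powersetCard Ω 2} : g • c ∈ g • e ↔ c ∈ e := by
  change g • c ∈ ((g • e : Set.powersetCard Ω 2) : Finset Ω) ↔ c ∈ (e : Finset Ω)
  rw [Set.powersetCard.coe_smul]
  exact Finset.smul_mem_smul_finset_iff g

theorem smul_pair_cases {g : G} {a b a' b' : Ω} (h : a ≠ b) (h' : a' ≠ b')
    (hg : g • pair a b h = pair a' b' h') :
    (g • a = a' ∧ g • b = b') ∨ (g • a = b' ∧ g • b = a') := by
  have h1 : g • a ∈ pair a' b' h' := by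
    rw [← hg, smul_mem_smul, mem_pair]; exact Or.inl rfl
  have h2 : g • b ∈ pair a' b' h' := by
    rw [← hg, smul_mem_smul, mem_pair]; exact Or.inr rfl
  rw [mem_pair] at h1 h2
  have h3 : g • a ≠ g • b := fun hh => h (smul_left_cancel g hh)
  rcases h1 with h1 | h1 <;> rcases h2 with h2 | h2
  · exact absurd (h1.trans h2.symm) h3
  · exact Or.inl ⟨h1, h2⟩
  · exact Or.inr ⟨h1, h2⟩
  · exact absurd (h1.trans h2.symm) h3

theorem exists_pair (e : Set.powersetCard Ω 2) : ∃ a b, ∃ h : a ≠ b, e = pair a b h := by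
  obtain ⟨a, b, hab, he⟩ := Finset.card_eq_two.mp e.2
  exact ⟨a, b, hab, Subtype.ext he⟩

/-- the operator attached to a kernel. -/
noncomputable def op (l : Ω → Set.powersetCard Ω 2 → K) :
    (Ω → K) →ₗ[K] (Set.powersetCard Ω 2 → K) where
  toFun v := fun e => ∑ c, l c e * v c
  map_add' v w := by ext e; simp [mul_add, Finset.sum_add_distrib]
  map_smul' t v := by
    ext e
    simp only [Pi.smul_apply, smul_eq_mul, RingHom.id_apply, Finset.mul_sum]
    apply Finset.sum_congr rfl
    intro c _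
    ring

theorem op_apply (l : Ω → Set.powersetCard Ω 2 → K) (v : Ω → K) (e : Set.powersetCard Ω 2) :
    op l v e = ∑ c, l c e * v c := rfl

/-- the intertwining map attached to an invariant kernel. -/
noncomputable def opI (l : Ω → Set.powersetCard Ω 2 → K)
    (hl : ∀ (g : G) c e, l (g • c) (g • e) = l c e) :
    Representation.IntertwiningMap (Cfsg.permSumZero K G Ω).toRepresentation
      (Cfsg.permRep K G (Set.powersetCard Ω 2)) :=
  LinearMap.intertwiningMap_of_isIntertwiningMap _ _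
    ((op l).comp (Submodule.subtype _)) (by
    intro g v
    ext e
    change ∑ c, l c e * (v : Ω → K) (g⁻¹ • c) = ∑ c, l c (g⁻¹ • e) * (v : Ω → K) c
    apply Fintype.sum_equiv (MulAction.toPerm g⁻¹)
    intro c
    rw [MulAction.toPerm_apply, hl])

theorem opI_apply (l : Ω → Set.powersetCard Ω 2 → K)
    (hl : ∀ (g : G) c e, l (g • c) (g • e) = l c e)
    (v : (Cfsg.permSumZero K G Ω).toSubmodule) (e : Set.powersetCard Ω 2) :
    opI l hl v e = ∑ c, l c e * (v : Ω → K) c := rfl

open Classical in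
/-- indicator of the orbit of a flag. -/
noncomputable def ind (G : Type*) [Group G] [MulAction G Ω] (K : Type*) [Field K]
    (c₁ : Ω) (e₁ : Set.powersetCard Ω 2) : Ω → Set.powersetCard Ω 2 → K :=
  fun c e => if ∃ g : G, g • c₁ = c ∧ g • e₁ = e then 1 else 0

theorem ind_inv (c₁ : Ω) (e₁ : Set.powersetCard Ω 2) (h : G) (c : Ω) (e : Set.powersetCard Ω 2) :
    ind G K c₁ e₁ (h • c) (h • e) = ind G K c₁ e₁ c e := by
  unfold ind
  congr 1
  apply propext
  constructor
  · rintro ⟨g, h1, h2⟩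
    refine ⟨h⁻¹ * g, ?_, ?_⟩
    · rw [mul_smul, h1, inv_smul_smul]
    · rw [mul_smul, h2, inv_smul_smul]
  · rintro ⟨g, h1, h2⟩
    refine ⟨h * g, ?_, ?_⟩
    · rw [mul_smul, h1]
    · rw [mul_smul, h2]

theorem ind_self (c₁ : Ω) (e₁ : Set.powersetCard Ω 2) : ind G K c₁ e₁ c₁ e₁ = 1 := by
  unfold ind
  rw [if_pos ⟨1, one_smul _ _, one_smul _ _⟩]

theorem ind_mem (c₁ : Ω) (e₁ : Set.powersetCard Ω 2) (h₁ : c₁ ∉ e₁) {a : Ω}
    {e : Set.powersetCard Ω 2} (ha : a ∈ e) : ind G K c₁ e₁ a e = 0 := by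
  unfold ind
  rw [if_neg]
  rintro ⟨g, h1, h2⟩
  apply h₁
  rw [← h1, ← h2, smul_mem_smul] at ha
  exact ha

theorem flag_trans (h2 : MulAction.IsMultiplyPretransitive G Ω 2)
    (h : ∀ f : Representation.IntertwiningMap (Cfsg.permSumZero K G Ω).toRepresentation
      (Cfsg.permRep K G (Set.powersetCard Ω 2)),
      (∀ v : (Cfsg.permSumZero K G Ω).toSubmodule,
        (v : Ω → K) ∈ (Cfsg.permConstants K G Ω).toSubmodule → f v = 0) → f = 0)
    (c₁ c₂ : Ω) (e₁ e₂ : Set.powersetCard Ω 2) (h₁ : c₁ ∉ e₁) (h₂ : c₂ ∉ e₂) :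
    ∃ g : G, g • c₁ = c₂ ∧ g • e₁ = e₂ := by
  classical
  by_contra hno
  haveI : MulAction.IsPretransitive G (Set.powersetCard Ω 2) :=
    Set.powersetCard.isPretransitive_of_isMultiplyPretransitive G h2
  -- counts
  have hcnt : ∀ (c : Ω) (e : Set.powersetCard Ω 2) (e' e'' : Set.powersetCard Ω 2),
      ∑ x, ind G K c e x e' = ∑ x, ind G K c e x e'' := by
    intro c e e' e''
    obtain ⟨g, rfl⟩ := MulAction.exists_smul_eq G e' e''
    apply Fintype.sum_equiv (MulAction.toPerm g)
    intro x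
    rw [MulAction.toPerm_apply, ind_inv]
  set k₁ : K := ∑ x, ind G K c₁ e₁ x e₁ with hk₁
  set k₂ : K := ∑ x, ind G K c₂ e₂ x e₁ with hk₂
  have key : ∀ l₁ l₂ : K, l₁ * k₁ + l₂ * k₂ = 0 → l₁ = 0 ∧ l₂ = 0 := by
    intro l₁ l₂ hl
    have hinv : ∀ (g : G) c e, (fun c e => l₁ * ind G K c₁ e₁ c e + l₂ * ind G K c₂ e₂ c e)
        (g • c) (g • e) = (fun c e => l₁ * ind G K c₁ e₁ c e + l₂ * ind G K c₂ e₂ c e) c e := by
      intro g c e
      simp only [ind_inv]
    have hf := h (opI _ hinv) (by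
      intro v hv
      obtain ⟨t, ht⟩ := Submodule.mem_span_singleton.mp hv
      ext e
      rw [opI_apply, ← ht]
      simp only [Pi.smul_apply, smul_eq_mul, mul_one, Pi.zero_apply]
      have e1 : ∑ x, (l₁ * ind G K c₁ e₁ x e + l₂ * ind G K c₂ e₂ x e) = l₁ * k₁ + l₂ * k₂ := by
        rw [Finset.sum_add_distrib, ← Finset.mul_sum, ← Finset.mul_sum,
          hcnt c₁ e₁ e e₁, hcnt c₂ e₂ e e₁]
      rw [← Finset.sum_mul, e1, hl, zero_mul])
    have eval : ∀ (c a : Ω) (e : Set.powersetCard Ω 2), c ≠ a →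
        (l₁ * ind G K c₁ e₁ c e + l₂ * ind G K c₂ e₂ c e)
          - (l₁ * ind G K c₁ e₁ a e + l₂ * ind G K c₂ e₂ a e) = 0 := by
      intro c a e hca
      have hv : (Pi.single c 1 - Pi.single a 1 : Ω → K) ∈
          (Cfsg.permSumZero K G Ω).toSubmodule := by
        change ∑ x, (Pi.single c 1 - Pi.single a 1 : Ω → K) x = 0
        simp [Finset.sum_sub_distrib]
      have := congrFun (congrArg (fun f => f ⟨_, hv⟩) hf) e
      simp only [Representation.IntertwiningMap.coe_zero, Pi.zero_apply] at this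
      rw [opI_apply] at this
      simp only [Pi.sub_apply, mul_sub, Finset.sum_sub_distrib, Pi.single_apply, mul_ite, mul_one,
        mul_zero, Finset.sum_ite_eq', Finset.mem_univ, if_true] at this
      exact this
    obtain ⟨a₁, b₁, hab₁, he₁⟩ := exists_pair e₁
    obtain ⟨a₂, b₂, hab₂, he₂⟩ := exists_pair e₂
    have ha₁ : a₁ ∈ e₁ := by rw [he₁, mem_pair]; exact Or.inl rfl
    have ha₂ : a₂ ∈ e₂ := by rw [he₂, mem_pair]; exact Or.inl rfl
    have n12 : ind G K c₁ e₁ c₂ e₂ = 0 := by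
      unfold ind; rw [if_neg hno]
    have n21 : ind G K c₂ e₂ c₁ e₁ = 0 := by
      unfold ind; rw [if_neg]
      rintro ⟨g, g1, g2⟩
      apply hno
      refine ⟨g⁻¹, ?_, ?_⟩
      · rw [← g1, inv_smul_smul]
      · rw [← g2, inv_smul_smul]
    constructor
    · have := eval c₁ a₁ e₁ (fun hh => h₁ (hh ▸ ha₁))
      rw [ind_self, n21, ind_mem c₁ e₁ h₁ ha₁, ind_mem c₂ e₂ h₂ ha₁] at this
      simpa using this
    · have := eval c₂ a₂ e₂ (fun hh => h₂ (hh ▸ ha₂))
      rw [ind_self, n12, ind_mem c₁ e₁ h₁ ha₂, ind_mem c₂ e₂ h₂ ha₂] at this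
      simpa using this
  by_cases hk : k₁ = 0
  · have := (key 1 0 (by rw [hk]; ring)).1
    exact one_ne_zero this
  · have := (key k₂ (-k₁) (by ring)).2
    exact hk (neg_eq_zero.mp this)

end aux

/-- Let a finite group act faithfully and doubly transitively with point stabilisers of even order, and let `K` have characteristic `p` dividing the degree. If the heart of the permutation module admits no non-zero equivariant map to the permutation module on unordered pairs (phrased: every intertwining map from the sum-zero functions vanishing on the constants is zero), the action is triply transitive. -/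
theorem result {G : Type*} [Group G] [Finite G] {K : Type*} [Field K] {p : ℕ} [Fact p.Prime] [CharP K p] {Ω : Type*} [Fintype Ω] [DecidableEq Ω] [MulAction G Ω] [FaithfulSMul G Ω] (h2 : MulAction.IsMultiplyPretransitive G Ω 2) (hp : p ∣ Fintype.card Ω) (heven : ∀ a : Ω, Even (Nat.card (MulAction.stabilizer G a))) (h : ∀ f : Representation.IntertwiningMap (Cfsg.permSumZero K G Ω).toRepresentation (Cfsg.permRep K G (Set.powersetCard Ω 2)), (∀ v : (Cfsg.permSumZero K G Ω).toSubmodule, (v : Ω → K) ∈ (Cfsg.permConstants K G Ω).toSubmodule → f v = 0) → f = 0) : MulAction.IsMultiplyPretransitive G Ω 3 := by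
  classical
  have hflag := flag_trans h2 h
  have hswap : ∀ a b c : Ω, a ≠ b → c ≠ a → c ≠ b → ∃ t : G, t • a = b ∧ t • b = a ∧ t • c = c := by
    intro a b c hab hca hcb
    obtain ⟨t, ht⟩ := exists_prime_orderOf_dvd_card' (G := MulAction.stabilizer G c) 2
      (even_iff_two_dvd.mp (heven c))
    have ht1 : (t : G) ≠ 1 := by
      intro hh
      have : t = 1 := Subtype.ext hh
      rw [this, orderOf_one] at ht
      norm_num at ht
    have ht2 : (t : G) * (t : G) = 1 := by
      have : t ^ 2 = 1 := ht ▸ pow_orderOf_eq_one t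
      have h3 := congrArg Subtype.val this
      simpa [pow_two] using h3
    have htc : (t : G) • c = c := t.2
    obtain ⟨a', ha'⟩ : ∃ a' : Ω, (t : G) • a' ≠ a' := by
      by_contra hcon
      push Not at hcon
      apply ht1
      apply FaithfulSMul.eq_of_smul_eq_smul (α := Ω)
      intro x
      rw [hcon, one_smul]
    have htb : (t : G) • ((t : G) • a') = a' := by
      rw [← mul_smul, ht2, one_smul]
    have hc1 : c ∉ pair a' ((t : G) • a') (Ne.symm ha') := by
      rw [mem_pair]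
      rintro (hh | hh)
      · apply ha'; rw [← hh]; exact htc
      · apply ha'
        have : (t : G) • c = (t : G) • ((t : G) • a') := by rw [← hh]
        rw [htc, htb] at this
        rw [← hh, this]
    have hc2 : c ∉ pair a b hab := by
      rw [mem_pair]
      rintro (hh | hh)
      · exact hca hh
      · exact hcb hh
    obtain ⟨g, hg1, hg2⟩ := hflag c c _ _ hc1 hc2
    have hgc : g⁻¹ • c = c := by
      rw [inv_smul_eq_iff, hg1]
    refine ⟨g * t * g⁻¹, ?_, ?_, ?_⟩
    · rcases smul_pair_cases _ _ hg2 with ⟨k1, k2⟩ | ⟨k1, k2⟩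
      · rw [mul_smul, mul_smul, ← k1, inv_smul_smul, k2]
      · rw [mul_smul, mul_smul, ← k2, inv_smul_smul, htb, k1]
    · rcases smul_pair_cases _ _ hg2 with ⟨k1, k2⟩ | ⟨k1, k2⟩
      · rw [mul_smul, mul_smul, ← k2, inv_smul_smul, htb, k1]
      · rw [mul_smul, mul_smul, ← k1, inv_smul_smul, k2]
    · rw [mul_smul, mul_smul, hgc, htc, hg1]
  refine ⟨fun x y => ?_⟩
  have hx01 : x 0 ≠ x 1 := fun hh => by simpa using x.injective hh
  have hx20 : x 2 ≠ x 0 := fun hh => by simpa using x.injective hh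
  have hx21 : x 2 ≠ x 1 := fun hh => by simpa using x.injective hh
  have hy01 : y 0 ≠ y 1 := fun hh => by simpa using y.injective hh
  have hy20 : y 2 ≠ y 0 := fun hh => by simpa using y.injective hh
  have hy21 : y 2 ≠ y 1 := fun hh => by simpa using y.injective hh
  obtain ⟨g, hg1, hg2⟩ := hflag (x 2) (y 2) (pair (x 0) (x 1) hx01) (pair (y 0) (y 1) hy01)
    (by rw [mem_pair]; rintro (hh | hh); exacts [hx20 hh, hx21 hh])
    (by rw [mem_pair]; rintro (hh | hh); exacts [hy20 hh, hy21 hh])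
  rcases smul_pair_cases _ _ hg2 with ⟨k1, k2⟩ | ⟨k1, k2⟩
  · refine ⟨g, ?_⟩
    ext i
    rw [Function.Embedding.smul_apply]
    fin_cases i
    · exact k1
    · exact k2
    · exact hg1
  · obtain ⟨t, t1, t2, t3⟩ := hswap (y 0) (y 1) (y 2) hy01 hy20 hy21
    refine ⟨t * g, ?_⟩
    ext i
    rw [Function.Embedding.smul_apply, mul_smul]
    fin_cases i
    · change t • g • x 0 = y 0
      rw [k1, t2]
    · change t • g • x 1 = y 1
      rw [k2, t1]
    · change t • g • x 2 = y 2
      rw [hg1, t3]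

end Cfsg.Agent.S0672
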