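import Cfsg.Statements.S0673
-- import your own Cfsg.Agent.* helpers here
import Mathlib
import Cfsg.Agent.Lib.Helper29.PrimeDeg

set_option autoImplicit false
open Cfsg

namespace Cfsg.Agent.S0673

/-- In characteristic `p`, the translation-invariant subspaces of the space of functions on `ZMod p` are exactly the spaces of polynomial functions of degree less than `r`, one for each `r ≤ p`, of dimension `r`. -/
theorem result {p : ℕ} [Fact p.Prime] {K : Type*} [Field K] [CharP K p] (W : Submodule K (ZMod p → K)) (hW : ∀ f ∈ W, (fun j => f (j - 1)) ∈ W) : ∃ r : ℕ, r ≤ p ∧ Module.finrank K W = r ∧ ∀ f : ZMod p → K, f ∈ W ↔ ∃ P : Polynomial K, P.degree < r ∧ ∀ j : ZMod p, f j = P.eval (ZMod.cast j : K) := by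
  classical
  let S : Cfsg.Agent.Lib.Helper29.PrimeDeg.Shift (ZMod p) K p :=
    { x := fun j => (ZMod.cast j : K)
      inj := (ZMod.castHom (dvd_refl p) K).injective
      c := Equiv.subRight 1
      s := -1
      s_ne := by simp
      shift := by
        intro a
        change (ZMod.cast (a - 1) : K) = ZMod.cast a + -1
        rw [ZMod.cast_sub (dvd_refl p), ZMod.cast_one (dvd_refl p)]
        ring
      card := ZMod.card p }
  obtain ⟨h1, h2⟩ := S.classify W hW
  refine ⟨Module.finrank K W, h1, rfl, ?_⟩
  intro f
  conv_lhs => rw [h2]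
  exact S.mem_V

end Cfsg.Agent.S0673
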