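import Cfsg.Statements.S0674
-- import your own Cfsg.Agent.* helpers here
import Mathlib
import Cfsg.Agent.Lib.Helper29.PrimeDeg2

set_option autoImplicit false
open Cfsg

namespace Cfsg.Agent.S0674

/-- Let `G` be a non-solvable transitive permutation group of prime degree `p` and `K` a field of characteristic `p`. Then the heart of the permutation module is irreducible: an invariant subspace containing the constants and contained in the sum-zero functions is one or the other. -/
theorem result {α : Type*} [Fintype α] [DecidableEq α] {p : ℕ} [Fact p.Prime] (hα : Fintype.card α = p) (G : Subgroup (Equiv.Perm α)) [MulAction.IsPretransitive G α] (hG : ¬ Group.IsSolvable G) {K : Type*} [Field K] [CharP K p] (W : Subrepresentation (Cfsg.permRep K G α)) (h₁ : (Cfsg.permConstants K G α).toSubmodule ≤ W.toSubmodule) (h₂ : W.toSubmodule ≤ (Cfsg.permSumZero K G α).toSubmodule) : W = Cfsg.permConstants K G α ∨ W = Cfsg.permSumZero K G α := by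
  classical
  have hp : p.Prime := Fact.out
  obtain ⟨S, hSc⟩ := Cfsg.Agent.Lib.Helper29.PrimeDeg.exists_shift hα G K
  have hinv : ∀ g ∈ G, ∀ f ∈ W.toSubmodule, (fun a => f (g a)) ∈ W.toSubmodule := by
    intro g hg f hf
    have h := W.apply_mem_toSubmodule (⟨g, hg⟩ : G)⁻¹ hf
    have e : Cfsg.permRep K G α (⟨g, hg⟩ : G)⁻¹ f = fun a => f (g a) := by
      ext a
      change f (((⟨g, hg⟩ : G)⁻¹)⁻¹ • a) = f (g a)
      rw [inv_inv]
      rfl
    rwa [e] at h
  obtain ⟨hr, hWr⟩ := S.classify W.toSubmodule (hinv S.c hSc)
  set r := Module.finrank K W.toSubmodule with hr_def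
  have hC : (Cfsg.permConstants K G α).toSubmodule = S.V 1 := S.V_one.symm
  have hZ : (Cfsg.permSumZero K G α).toSubmodule = S.V (p - 1) := by
    rw [← S.sz_eq]
    ext f
    exact Iff.rfl
  have hr1 : 1 ≤ r := by
    have := Submodule.finrank_mono h₁
    rw [hC, S.finrank_V hp.pos] at this
    exact this
  have hr2 : r ≤ p - 1 := by
    have := Submodule.finrank_mono h₂
    rw [hZ, S.finrank_V (Nat.sub_le p 1)] at this
    exact this
  by_cases e1 : r = 1
  · left
    apply Subrepresentation.toSubmodule_injective
    rw [hC, hWr, e1]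
  by_cases e2 : r = p - 1
  · right
    apply Subrepresentation.toSubmodule_injective
    rw [hZ, hWr, e2]
  exfalso
  apply hG
  apply S.solvable_of_affine G
  apply S.affine_of_inv (r := r) (by omega) (by omega) G
  intro g hg f hf
  rw [← hWr] at hf ⊢
  exact hinv g hg f hf

end Cfsg.Agent.S0674
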