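import Cfsg.Statements.S0675
-- import your own Cfsg.Agent.* helpers here
import Mathlib
import Cfsg.Agent.Lib.Helper29.PrimeDeg2
import Cfsg.Agent.S0671
import Cfsg.Agent.S0674

set_option autoImplicit false
open Cfsg

namespace Cfsg.Agent.S0675

/-- Burnside's Theorem on permutation groups of prime degree: a transitive permutation group of prime degree that is not solvable is doubly transitive. -/
theorem result {α : Type*} [Fintype α] [DecidableEq α] (hα : (Fintype.card α).Prime) (G : Subgroup (Equiv.Perm α)) [MulAction.IsPretransitive G α] : Group.IsSolvable G ∨ MulAction.IsMultiplyPretransitive G α 2 := by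
  classical
  set p := Fintype.card α with hp_def
  haveI : Fact p.Prime := ⟨hα⟩
  by_cases hs : Group.IsSolvable G
  · exact Or.inl hs
  right
  obtain ⟨S, hSc⟩ := Cfsg.Agent.Lib.Helper29.PrimeDeg.exists_shift hp_def.symm G (ZMod p)
  have hp4 : 4 ≤ p := by
    by_contra h
    push Not at h
    apply hs
    apply S.solvable_of_affine G
    intro g _
    exact S.affine_of_le_three (by omega) g
  have hC : (Cfsg.permConstants (ZMod p) G α).toSubmodule = S.V 1 := S.V_one.symm
  have hZ : (Cfsg.permSumZero (ZMod p) G α).toSubmodule = S.V (p - 1) := by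
    rw [← S.sz_eq]
    ext f
    exact Iff.rfl
  apply Cfsg.Agent.S0671.result (G := G) (K := ZMod p) (p := p) (f := 1) le_rfl (by rw [pow_one])
  intro W W' h1 h2 h3
  have hW := Cfsg.Agent.S0674.result hp_def.symm G hs W h1 (h2.le.trans h3)
  have hW' := Cfsg.Agent.S0674.result hp_def.symm G hs W' (h1.trans h2.le) h3
  have eW : W = Cfsg.permConstants (ZMod p) G α := by
    rcases hW with h | h
    · exact h
    · exfalso
      rw [h] at h2
      exact absurd h3 (not_le_of_gt h2)
  have eW' : W' = Cfsg.permSumZero (ZMod p) G α := by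
    rcases hW' with h | h
    · exfalso
      rw [h] at h2
      exact absurd h1 (not_le_of_gt h2)
    · exact h
  obtain ⟨k1, k2⟩ := S.sq_not_mem hp4
  refine ⟨(⟨S.c, hSc⟩ : G)⁻¹, S.ev (Polynomial.X ^ 2), ?_, ?_⟩
  · rw [eW', hZ]; exact k1
  · rw [eW, hC]
    have e : Cfsg.permRep (ZMod p) G α (⟨S.c, hSc⟩ : G)⁻¹ (S.ev (Polynomial.X ^ 2))
        - S.ev (Polynomial.X ^ 2) = S.D (S.ev (Polynomial.X ^ 2)) := by
      ext a
      rw [Cfsg.Agent.Lib.Helper29.PrimeDeg.Shift.D_apply]
      change (S.ev (Polynomial.X ^ 2)) (((⟨S.c, hSc⟩ : G)⁻¹)⁻¹ • a) - _ = _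
      rw [inv_inv]
      rfl
    rw [e]
    exact k2

end Cfsg.Agent.S0675
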