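import Cfsg.Statements.S0676
-- import your own Cfsg.Agent.* helpers here
import Mathlib
import Cfsg.Agent.Lib.Helper29.PrimeDeg3
import Cfsg.Agent.S0672
import Cfsg.Agent.S0674
import Cfsg.Agent.S0675

set_option autoImplicit false
open Cfsg

namespace Cfsg.Agent.S0676

section aux
open scoped Pointwise

theorem fix_pair {G : Type*} [Group G] {Ω : Type*} [DecidableEq Ω] [MulAction G Ω] (g : G)
    (e : Set.powersetCard Ω 2) (a b : Ω) (he : (e : Finset Ω) = {a, b}) (h1 : g • a = b)
    (h2 : g • b = a) : g • e = e := by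
  apply Subtype.ext
  change ((g • e : Set.powersetCard Ω 2) : Finset Ω) = (e : Finset Ω)
  rw [Set.powersetCard.coe_smul, he, Finset.smul_finset_insert, Finset.smul_finset_singleton,
    h1, h2, Finset.pair_comm]

end aux

/-- A non-solvable transitive permutation group of prime degree `p` whose Sylow `p`-normaliser has even order is triply transitive. -/
theorem result {α : Type*} [Fintype α] [DecidableEq α] {p : ℕ} [Fact p.Prime] (hα : Fintype.card α = p) (G : Subgroup (Equiv.Perm α)) [MulAction.IsPretransitive G α] (hG : ¬ Group.IsSolvable G) (P : Sylow p G) (heven : Even (Nat.card (Subgroup.normalizer ((P : Subgroup G) : Set G)))) : MulAction.IsMultiplyPretransitive G α 3 := by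
  classical
  have hp : p.Prime := Fact.out
  obtain ⟨c, t, hc, ht, j, hj⟩ := Cfsg.Agent.Lib.Helper29.PrimeDeg.exists_invol hα G P heven
  obtain ⟨S, hSc, hSs⟩ := Cfsg.Agent.Lib.Helper29.PrimeDeg.shift_of_order hα (c : Equiv.Perm α)
    (by rw [Subgroup.orderOf_coe, hc]) (ZMod p)
  have hp4 : 4 ≤ p := by
    by_contra h
    push Not at h
    apply hG
    apply S.solvable_of_affine G
    intro g _
    exact S.affine_of_le_three (by omega) g
  have hp2 : p ≠ 2 := by omega
  have h2 : MulAction.IsMultiplyPretransitive G α 2 :=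
    (Cfsg.Agent.S0675.result (hα ▸ hp) G).resolve_left hG
  have htt : t * t = 1 := by
    have : t ^ 2 = 1 := ht ▸ pow_orderOf_eq_one t
    rwa [pow_two] at this
  have ht1 : t ≠ 1 := by
    rintro rfl
    rw [orderOf_one] at ht
    norm_num at ht
  obtain ⟨v, hv⟩ := S.reflect hp2 (t : Equiv.Perm α)
    (by exact_mod_cast congrArg Subtype.val htt)
    (fun h => ht1 (Subtype.ext h)) j (by
      rw [hSc]
      exact_mod_cast congrArg Subtype.val hj)
  have hC : (Cfsg.permConstants (ZMod p) G α).toSubmodule = S.V 1 := S.V_one.symm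
  have hZ : (Cfsg.permSumZero (ZMod p) G α).toSubmodule = S.V (p - 1) := by
    rw [← S.sz_eq]
    ext f
    exact Iff.rfl
  have h2K : (2 : ZMod p) ≠ 0 := by
    intro h
    have : ((2 : ℕ) : ZMod p) = 0 := by exact_mod_cast h
    rw [CharP.cast_eq_zero_iff (ZMod p) p] at this
    exact hp2 ((Nat.prime_dvd_prime_iff_eq hp Nat.prime_two).mp this)
  have heven' : ∀ a : α, Even (Nat.card (MulAction.stabilizer G a)) := by
    intro a
    have h1 := MulAction.index_stabilizer_of_transitive G a
    rw [Nat.card_eq_fintype_card, hα] at h1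
    have h3 := Subgroup.card_mul_index (MulAction.stabilizer G a)
    rw [h1] at h3
    have h4 : 2 ∣ Nat.card G :=
      (even_iff_two_dvd.mp heven).trans (Subgroup.card_subgroup_dvd_card _)
    rw [← h3] at h4
    rw [even_iff_two_dvd]
    refine (Nat.Coprime.dvd_of_dvd_mul_right ?_ h4)
    exact (Nat.coprime_primes Nat.prime_two hp).mpr (Ne.symm hp2)
  apply Cfsg.Agent.S0672.result (G := G) (K := ZMod p) (p := p) h2 (by rw [hα]) heven'
  intro f hf
  -- the coordinate function
  have hxS : S.x ∈ (Cfsg.permSumZero (ZMod p) G α).toSubmodule := by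
    rw [hZ]
    have : S.x = S.ev Polynomial.X := by ext a; simp
    rw [this]
    apply S.ev_mem_V
    apply Cfsg.Agent.Lib.Helper29.PrimeDeg.Shift.deg_lt_of_natDegree_lt
    rw [Polynomial.natDegree_X]; omega
  have hC_le : (Cfsg.permConstants (ZMod p) G α).toSubmodule
      ≤ (Cfsg.permSumZero (ZMod p) G α).toSubmodule := by
    rw [hC, hZ]; exact S.V_mono (by omega)
  have hconst : ∀ r : ZMod p, (fun _ : α => r) ∈ (Cfsg.permConstants (ZMod p) G α).toSubmodule := by
    intro r
    exact Submodule.mem_span_singleton.mpr ⟨r, by ext a; simp⟩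
  set φ := f ⟨S.x, hxS⟩ with hφ
  -- invariance under the cycle
  have hφc : ∀ e, φ (c • e) = φ e := by
    intro e
    have h1 := f.isIntertwining _ _ c⁻¹ ⟨S.x, hxS⟩
    have h3 : (Cfsg.permSumZero (ZMod p) G α).toRepresentation c⁻¹ ⟨S.x, hxS⟩
        = ⟨S.x, hxS⟩ + ⟨fun _ => S.s, hC_le (hconst S.s)⟩ := by
      apply Subtype.ext
      ext a
      change S.x ((c⁻¹)⁻¹ • a) = S.x a + S.s
      rw [inv_inv, ← S.shift, hSc]
      rfl
    rw [h3, map_add, hf ⟨fun _ => S.s, hC_le (hconst S.s)⟩ (hconst S.s), add_zero] at h1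
    have h4 := congrFun h1 e
    change φ e = φ ((c⁻¹)⁻¹ • e) at h4
    rw [inv_inv] at h4
    exact h4.symm
  have hφck : ∀ (k : ℕ) e, φ (c ^ k • e) = φ e := by
    intro k
    induction k with
    | zero => intro e; simp
    | succ k ih => intro e; rw [pow_succ', mul_smul, hφc, ih]
  have htinv : t⁻¹ = t := inv_eq_of_mul_eq_one_left htt
  have hφt : ∀ e, φ (t • e) = - φ e := by
    intro e
    have h1 := f.isIntertwining _ _ t ⟨S.x, hxS⟩
    have h3 : (Cfsg.permSumZero (ZMod p) G α).toRepresentation t ⟨S.x, hxS⟩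
        = ⟨fun _ => v, hC_le (hconst v)⟩ - ⟨S.x, hxS⟩ := by
      apply Subtype.ext
      ext a
      change S.x (t⁻¹ • a) = v - S.x a
      rw [htinv, ← hv]
      rfl
    rw [h3, map_sub, hf ⟨fun _ => v, hC_le (hconst v)⟩ (hconst v), zero_sub] at h1
    have h4 := congrFun h1 e
    change - φ e = φ (t⁻¹ • e) at h4
    rw [htinv] at h4
    exact h4.symm
  have hφ0 : φ = 0 := by
    ext e
    obtain ⟨a, b, hab, he⟩ := Finset.card_eq_two.mp e.2
    obtain ⟨k, hk⟩ := S.trans ((t : Equiv.Perm α) a) b
    have hk2 : (S.c ^ k) ((t : Equiv.Perm α) b) = a := by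
      apply S.inj
      have e1 := congrArg S.x hk
      rw [S.x_pow, hv] at e1
      rw [S.x_pow, hv]
      linear_combination e1
    have hfix : c ^ k • t • e = e := by
      have e1 : (c ^ k * t) • a = b := by
        rw [← hk, hSc]; rfl
      have e2 : (c ^ k * t) • b = a := by
        rw [← hk2, hSc]; rfl
      rw [← mul_smul]
      exact fix_pair (c ^ k * t) e a b he e1 e2
    have h5 : φ e = - φ e := by
      conv_lhs => rw [← hfix, hφck, hφt]
    have h6 : (2 : ZMod p) * φ e = 0 := by linear_combination h5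
    exact (mul_eq_zero.mp h6).resolve_left h2K
  -- the kernel as a subrepresentation
  let W : Subrepresentation (Cfsg.permRep (ZMod p) G α) :=
    { toSubmodule := (LinearMap.ker f.toLinearMap).map
        (Cfsg.permSumZero (ZMod p) G α).toSubmodule.subtype
      apply_mem_toSubmodule := by
        rintro g _ ⟨w, hw, rfl⟩
        refine ⟨(Cfsg.permSumZero (ZMod p) G α).toRepresentation g w, ?_, rfl⟩
        have hw' : f w = 0 := hw
        change f ((Cfsg.permSumZero (ZMod p) G α).toRepresentation g w) = 0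
        rw [f.isIntertwining _ _, hw', map_zero] }
  have hW1 : (Cfsg.permConstants (ZMod p) G α).toSubmodule ≤ W.toSubmodule := by
    intro w hw
    exact ⟨⟨w, hC_le hw⟩, hf ⟨w, hC_le hw⟩ hw, rfl⟩
  have hW2 : W.toSubmodule ≤ (Cfsg.permSumZero (ZMod p) G α).toSubmodule := by
    rintro _ ⟨w, -, rfl⟩
    exact w.2
  have hxW : S.x ∈ W.toSubmodule := ⟨⟨S.x, hxS⟩, hφ0, rfl⟩
  rcases Cfsg.Agent.S0674.result hα G hG W hW1 hW2 with hW | hW
  · exfalso
    rw [hW, hC] at hxW
    obtain ⟨Q, hQ, hQe⟩ := hxW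
    have hQ' := Polynomial.mem_degreeLT.mp hQ
    have hX : S.x = S.ev Polynomial.X := by ext a; simp
    have h3 : Q = Polynomial.X := by
      apply S.ev_inj' _ _ (hQe.trans hX)
      · exact lt_of_lt_of_le hQ' (by exact_mod_cast (by omega : 1 ≤ p))
      · apply Cfsg.Agent.Lib.Helper29.PrimeDeg.Shift.deg_lt_of_natDegree_lt
        rw [Polynomial.natDegree_X]; omega
    have h4 := Cfsg.Agent.Lib.Helper29.PrimeDeg.Shift.natDegree_lt_of_deg_lt hQ'
      (by rw [h3]; exact Polynomial.X_ne_zero)
    rw [h3, Polynomial.natDegree_X] at h4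
    omega
  · apply Representation.IntertwiningMap.ext
    apply LinearMap.ext
    intro w
    have : (w : α → ZMod p) ∈ W.toSubmodule := by rw [hW]; exact w.2
    obtain ⟨w', hw', hww⟩ := this
    have : w' = w := Subtype.ext hww
    rw [← this]
    exact hw'

end Cfsg.Agent.S0676
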