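import Cfsg.Statements.S0677
-- import your own Cfsg.Agent.* helpers here
import Mathlib
import Cfsg.Agent.Lib.Helper29.PrimeDeg3
import Cfsg.Agent.S0671

set_option autoImplicit false
open Cfsg

namespace Cfsg.Agent.S0677

section aux
open Cfsg.Agent.Lib.Helper29.PrimeDeg

/-- parity of a finite set with an involution having at most one fixed point. -/
theorem parity {β : Type*} [DecidableEq β] (A : Finset β) (σ : β → β) (hσA : ∀ w ∈ A, σ w ∈ A)
    (hσσ : ∀ w, σ (σ w) = w) (w₀ : β) (hfix : ∀ w, σ w = w ↔ w = w₀) :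
    Odd A.card ↔ w₀ ∈ A := by
  have h1 : ∑ _w ∈ A.erase w₀, (1 : ZMod 2) = 0 := by
    apply Finset.sum_involution (fun w _ => σ w)
    · intro a _; decide
    · intro a ha _ h
      exact (Finset.mem_erase.mp ha).1 ((hfix a).mp h)
    · intro a ha
      rw [Finset.mem_erase] at ha ⊢
      refine ⟨fun h => ha.1 ?_, hσA a ha.2⟩
      have : σ (σ a) = σ w₀ := by rw [h]
      rw [hσσ, (hfix w₀).mpr rfl] at this
      exact this
    · intro a _; exact hσσ a
  have h2 : Even (A.erase w₀).card := by
    rw [Finset.sum_const, nsmul_eq_mul, mul_one] at h1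
    exact (ZMod.natCast_eq_zero_iff_even).mp h1
  constructor
  · intro hodd
    by_contra hn
    rw [Finset.erase_eq_of_notMem hn] at h2
    exact (Nat.not_even_iff_odd.mpr hodd) h2
  · intro hm
    have h3 := Finset.card_erase_add_one hm
    rw [← h3]
    exact h2.add_one

variable {α : Type*} [Fintype α] [DecidableEq α] {p : ℕ} [Fact p.Prime]

theorem heart (hα : Fintype.card α = p) (G : Subgroup (Equiv.Perm α))
    [MulAction.IsPretransitive G α] {K : Type*} [Field K] [CharP K p] (S : Shift α K p)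
    (hSc : S.c ∈ G) (hna : ¬ ∀ g ∈ G, (fun a => S.x (g a)) ∈ S.V 2)
    (W : Subrepresentation (Cfsg.permRep K G α))
    (h₁ : (Cfsg.permConstants K G α).toSubmodule ≤ W.toSubmodule)
    (h₂ : W.toSubmodule ≤ (Cfsg.permSumZero K G α).toSubmodule) :
    W = Cfsg.permConstants K G α ∨ W = Cfsg.permSumZero K G α := by
  classical
  have hp : p.Prime := Fact.out
  have hinv : ∀ g ∈ G, ∀ f ∈ W.toSubmodule, (fun a => f (g a)) ∈ W.toSubmodule := by
    intro g hg f hf
    have h := W.apply_mem_toSubmodule (⟨g, hg⟩ : G)⁻¹ hf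
    have e : Cfsg.permRep K G α (⟨g, hg⟩ : G)⁻¹ f = fun a => f (g a) := by
      ext a
      change f (((⟨g, hg⟩ : G)⁻¹)⁻¹ • a) = f (g a)
      rw [inv_inv]
      rfl
    rwa [e] at h
  obtain ⟨hr, hWr⟩ := S.classify W.toSubmodule (hinv S.c hSc)
  set r := Module.finrank K W.toSubmodule with hr_def
  have hC : (Cfsg.permConstants K G α).toSubmodule = S.V 1 := S.V_one.symm
  have hZ : (Cfsg.permSumZero K G α).toSubmodule = S.V (p - 1) := by
    rw [← S.sz_eq]
    ext f
    exact Iff.rfl
  have hr1 : 1 ≤ r := by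
    have := Submodule.finrank_mono h₁
    rw [hC, S.finrank_V hp.pos] at this
    exact this
  have hr2 : r ≤ p - 1 := by
    have := Submodule.finrank_mono h₂
    rw [hZ, S.finrank_V (Nat.sub_le p 1)] at this
    exact this
  by_cases e1 : r = 1
  · left
    apply Subrepresentation.toSubmodule_injective
    rw [hC, hWr, e1]
  by_cases e2 : r = p - 1
  · right
    apply Subrepresentation.toSubmodule_injective
    rw [hZ, hWr, e2]
  exfalso
  apply hna
  apply S.affine_of_inv (r := r) (by omega) (by omega) G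
  intro g hg f hf
  rw [← hWr] at hf ⊢
  exact hinv g hg f hf

theorem two_trans (hα : Fintype.card α = p) (G : Subgroup (Equiv.Perm α))
    [MulAction.IsPretransitive G α] (S : Shift α (ZMod p) p)
    (hSc : S.c ∈ G) (hna : ¬ ∀ g ∈ G, (fun a => S.x (g a)) ∈ S.V 2) :
    MulAction.IsMultiplyPretransitive G α 2 := by
  classical
  have hp4 : 4 ≤ p := by
    by_contra h
    push Not at h
    apply hna
    intro g _
    exact S.affine_of_le_three (by omega) g
  have hC : (Cfsg.permConstants (ZMod p) G α).toSubmodule = S.V 1 := S.V_one.symm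
  have hZ : (Cfsg.permSumZero (ZMod p) G α).toSubmodule = S.V (p - 1) := by
    rw [← S.sz_eq]
    ext f
    exact Iff.rfl
  apply Cfsg.Agent.S0671.result (G := G) (K := ZMod p) (p := p) (f := 1) le_rfl
    (by rw [pow_one, hα])
  intro W W' h1 h2 h3
  have hW := heart hα G S hSc hna W h1 (h2.le.trans h3)
  have hW' := heart hα G S hSc hna W' (h1.trans h2.le) h3
  have eW : W = Cfsg.permConstants (ZMod p) G α := by
    rcases hW with h | h
    · exact h
    · exfalso
      rw [h] at h2
      exact absurd h3 (not_le_of_gt h2)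
  have eW' : W' = Cfsg.permSumZero (ZMod p) G α := by
    rcases hW' with h | h
    · exfalso
      rw [h] at h2
      exact absurd h1 (not_le_of_gt h2)
    · exact h
  obtain ⟨k1, k2⟩ := S.sq_not_mem hp4
  refine ⟨(⟨S.c, hSc⟩ : G)⁻¹, S.ev (Polynomial.X ^ 2), ?_, ?_⟩
  · rw [eW', hZ]; exact k1
  · rw [eW, hC]
    have e : Cfsg.permRep (ZMod p) G α (⟨S.c, hSc⟩ : G)⁻¹ (S.ev (Polynomial.X ^ 2))
        - S.ev (Polynomial.X ^ 2) = S.D (S.ev (Polynomial.X ^ 2)) := by
      ext a
      rw [Shift.D_apply]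
      change (S.ev (Polynomial.X ^ 2)) (((⟨S.c, hSc⟩ : G)⁻¹)⁻¹ • a) - _ = _
      rw [inv_inv]
      rfl
    rw [e]
    exact k2

theorem x_surj (S : Shift α (ZMod p) p) : Function.Surjective S.x := by
  have := (Fintype.bijective_iff_injective_and_card S.x).mpr ⟨S.inj, by rw [S.card, ZMod.card]⟩
  exact this.2

/-- a `p'`-group of affine permutations fixes a point (barycentre). -/
theorem fixed_of_affine (S : Shift α (ZMod p) p) (U : Subgroup (Equiv.Perm α))
    (hU : ¬ p ∣ Nat.card U) (haff : ∀ g ∈ U, (fun a => S.x (g a)) ∈ S.V 2) :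
    ∃ z, ∀ g ∈ U, g z = z := by
  classical
  have hp : p.Prime := Fact.out
  haveI : Fintype U := Fintype.ofFinite U
  have hne : Nonempty α := by
    rw [← Fintype.card_pos_iff, S.card]; exact hp.pos
  obtain ⟨a₁⟩ := hne
  have hcard : ((Nat.card U : ℕ) : ZMod p) ≠ 0 := by
    rw [Ne, CharP.cast_eq_zero_iff (ZMod p) p]
    exact hU
  set sm : ZMod p := ∑ h : U, S.x ((h : Equiv.Perm α) a₁) with hsm
  obtain ⟨z, hz⟩ := x_surj S (sm * ((Nat.card U : ℕ) : ZMod p)⁻¹)
  refine ⟨z, fun g hg => ?_⟩
  obtain ⟨u, v, huv⟩ := S.affine_form (haff g hg)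
  apply S.inj
  have h1 : ∑ h : U, S.x (g ((h : Equiv.Perm α) a₁)) = sm := by
    apply Fintype.sum_equiv (Equiv.mulLeft (⟨g, hg⟩ : U))
    intro h
    rfl
  have h2 : ∑ h : U, S.x (g ((h : Equiv.Perm α) a₁)) = u * sm + ((Nat.card U : ℕ) : ZMod p) * v := by
    simp only [huv]
    rw [Finset.sum_add_distrib, ← Finset.mul_sum, Finset.sum_const, Finset.card_univ,
      nsmul_eq_mul, Nat.card_eq_fintype_card]
  rw [huv, hz]
  have h3 : sm = u * sm + ((Nat.card U : ℕ) : ZMod p) * v := h1.symm.trans h2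
  field_simp
  linear_combination -h3

theorem pow_translate (S : Shift α (ZMod p) p) (w : Equiv.Perm α) (δ : ZMod p)
    (hw : ∀ a, S.x (w a) = S.x a + δ) (j : ℕ) (a : α) : S.x ((w ^ j) a) = S.x a + j * δ := by
  induction j with
  | zero => simp
  | succ j ih =>
    rw [pow_succ', Equiv.Perm.mul_apply, hw, ih]
    push_cast
    ring

theorem fixed_of_two_trans (G : Subgroup (Equiv.Perm α))
    (h2 : MulAction.IsMultiplyPretransitive G α 2) (S : Shift α (ZMod p) p) (hs : S.s = 1)
    (c : G) (hc : S.c = (c : Equiv.Perm α)) (H : Subgroup G) (hH : H.index = p)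
    (hpH : ¬ p ∣ Nat.card H) (hp2 : p ≠ 2) (t : G) (htH : t ∈ H) (v : ZMod p)
    (hv : ∀ a, S.x ((t : Equiv.Perm α) a) = v - S.x a) :
    ∃ z, ∀ g ∈ H, ((g : G) : Equiv.Perm α) z = z := by
  classical
  have hp : p.Prime := Fact.out
  haveI : Fintype G := Fintype.ofFinite G
  haveI : Fintype H := Fintype.ofFinite H
  have h2K : (2 : ZMod p) ≠ 0 := by
    intro h
    have : ((2 : ℕ) : ZMod p) = 0 := by exact_mod_cast h
    rw [CharP.cast_eq_zero_iff (ZMod p) p] at this
    exact hp2 ((Nat.prime_dvd_prime_iff_eq hp Nat.prime_two).mp this)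
  obtain ⟨z₀, hz₀⟩ := x_surj S (v / 2)
  let Dp : ZMod p → Prop := fun w => ∃ u ∈ H, S.x (((u : G) : Equiv.Perm α) z₀) = w
  have hDH : ∀ (u : G), u ∈ H → ∀ a, Dp (S.x ((u : Equiv.Perm α) a)) ↔ Dp (S.x a) := by
    intro u hu a
    constructor
    · rintro ⟨u', hu', h⟩
      refine ⟨u⁻¹ * u', H.mul_mem (H.inv_mem hu) hu', ?_⟩
      have h3 := S.inj h
      congr 1
      change (u : Equiv.Perm α)⁻¹ ((u' : Equiv.Perm α) z₀) = a
      rw [h3]
      simp
    · rintro ⟨u', hu', h⟩
      refine ⟨u * u', H.mul_mem hu hu', ?_⟩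
      have h3 := S.inj h
      change S.x ((u : Equiv.Perm α) ((u' : Equiv.Perm α) z₀)) = _
      rw [h3]
  have hDv : ∀ w, Dp (v - w) ↔ Dp w := by
    intro w
    obtain ⟨a, rfl⟩ := x_surj S w
    rw [← hv]
    exact hDH t htH a
  let n : ZMod p → ℕ := fun d => (Finset.univ.filter (fun w => Dp w ∧ Dp (w + d))).card
  have hpar : ∀ d, Odd (n d) ↔ Dp ((v - d) / 2) := by
    intro d
    have h3 := parity (Finset.univ.filter (fun w => Dp w ∧ Dp (w + d))) (fun w => v - d - w)
      (by
        intro w hw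
        rw [Finset.mem_filter] at hw ⊢
        refine ⟨Finset.mem_univ _, ?_, ?_⟩
        · have : v - d - w = v - (w + d) := by ring
          rw [this, hDv]; exact hw.2.2
        · have : v - d - w + d = v - w := by ring
          rw [this, hDv]; exact hw.2.1)
      (by intro w; ring) ((v - d) / 2)
      (by
        intro w
        constructor
        · intro h
          field_simp
          linear_combination -h
        · intro h
          rw [h]
          field_simp
          ring)
    change Odd (Finset.univ.filter (fun w => Dp w ∧ Dp (w + d))).card ↔ _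
    rw [h3, Finset.mem_filter]
    constructor
    · intro h; exact h.2.1
    · intro h
      refine ⟨Finset.mem_univ _, h, ?_⟩
      have : (v - d) / 2 + d = v - (v - d) / 2 := by
        field_simp
        ring
      rw [this, hDv]; exact h
  let M : α → α → ℕ := fun y z => (Finset.univ.filter (fun g : G =>
    Dp (S.x ((g : Equiv.Perm α) y)) ∧ Dp (S.x ((g : Equiv.Perm α) z)))).card
  have hM1 : ∀ (h : G) y z, M ((h : Equiv.Perm α) y) ((h : Equiv.Perm α) z) = M y z := by
    intro h y z
    apply Finset.card_equiv (Equiv.mulRight h)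
    intro g
    simp only [Finset.mem_filter, Finset.mem_univ, true_and, Equiv.coe_mulRight]
    exact Iff.rfl
  have hcpow : ∀ (k : ZMod p) (a : α), S.x (((c ^ k.val : G) : Equiv.Perm α) a) = S.x a + k := by
    intro k a
    rw [Subgroup.coe_pow, ← hc, S.x_pow, hs, mul_one, ZMod.natCast_zmod_val]
  have hΦ : Function.Bijective (fun uk : H × ZMod p => (uk.1 : G) * c ^ uk.2.val) := by
    rw [Fintype.bijective_iff_injective_and_card]
    constructor
    · rintro ⟨u, k⟩ ⟨u', k'⟩ h
      simp only at h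
      have hw : (u' : G)⁻¹ * u = c ^ k'.val * (c ^ k.val)⁻¹ := by
        rw [eq_mul_inv_iff_mul_eq, mul_assoc, h]
        group
      have hwH : (u' : G)⁻¹ * u ∈ H := H.mul_mem (H.inv_mem u'.2) u.2
      have htr : ∀ a, S.x ((((u' : G)⁻¹ * u : G) : Equiv.Perm α) a) = S.x a + (k' - k) := by
        intro a
        rw [hw]
        change S.x (((c ^ k'.val : G) : Equiv.Perm α) ((((c ^ k.val : G)⁻¹ : G) : Equiv.Perm α) a)) = _
        rw [hcpow]
        have e1 := hcpow k ((((c ^ k.val : G)⁻¹ : G) : Equiv.Perm α) a)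
        have e2 : ((c ^ k.val : G) : Equiv.Perm α) ((((c ^ k.val : G)⁻¹ : G) : Equiv.Perm α) a) = a := by
          change (((c ^ k.val : G) * (c ^ k.val : G)⁻¹ : G) : Equiv.Perm α) a = a
          rw [mul_inv_cancel]; rfl
        rw [e2] at e1
        linear_combination -e1
      have hkk : k' = k := by
        by_contra hne
        have hδ : k' - k ≠ 0 := sub_ne_zero.mpr hne
        apply hpH
        have ho : orderOf (⟨(u' : G)⁻¹ * u, hwH⟩ : H) = p := by
          apply orderOf_eq_prime
          · apply Subtype.ext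
            apply Subtype.ext
            apply Equiv.ext
            intro a
            apply S.inj
            change S.x (((((u' : G)⁻¹ * u : G) : Equiv.Perm α) ^ p) a) = S.x a
            rw [pow_translate S _ _ htr]
            simp
          · intro h1
            have h3 : (u' : G)⁻¹ * u = 1 := congrArg Subtype.val h1
            have h4 := htr z₀
            rw [h3] at h4
            apply hδ
            have : S.x z₀ = S.x z₀ + (k' - k) := h4
            linear_combination -this
        rw [← ho]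
        exact orderOf_dvd_natCard _
      subst hkk
      have : (u : G) = u' := mul_right_cancel h
      rw [Subtype.ext this]
    · rw [Fintype.card_prod, ZMod.card, ← Nat.card_eq_fintype_card, ← Nat.card_eq_fintype_card,
        ← hH, Subgroup.card_mul_index]
  have hM2 : ∀ y z, M y z = Nat.card H * n (S.x z - S.x y) := by
    intro y z
    have e1 : M y z = (Finset.univ.filter (fun uk : H × ZMod p =>
        Dp (S.x y + uk.2) ∧ Dp (S.x z + uk.2))).card := by
      symm
      apply Finset.card_equiv (Equiv.ofBijective _ hΦ)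
      rintro ⟨u, k⟩
      simp only [Finset.mem_filter, Finset.mem_univ, true_and, Equiv.ofBijective_apply]
      have a1 : ∀ a, Dp (S.x ((((u : G) * c ^ k.val : G) : Equiv.Perm α) a)) ↔ Dp (S.x a + k) := by
        intro a
        change Dp (S.x (((u : G) : Equiv.Perm α) (((c ^ k.val : G) : Equiv.Perm α) a))) ↔ _
        rw [hDH u u.2, hcpow]
      rw [a1, a1]
    have e2 : (Finset.univ.filter (fun uk : H × ZMod p =>
        Dp (S.x y + uk.2) ∧ Dp (S.x z + uk.2))) = (Finset.univ : Finset H) ×ˢ
        (Finset.univ.filter (fun k : ZMod p => Dp (S.x y + k) ∧ Dp (S.x z + k))) := by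
      rw [← Finset.filter_product_right, Finset.univ_product_univ]
    have e3 : (Finset.univ.filter (fun k : ZMod p => Dp (S.x y + k) ∧ Dp (S.x z + k))).card
        = n (S.x z - S.x y) := by
      apply Finset.card_equiv (Equiv.addLeft (S.x y))
      intro k
      simp only [Finset.mem_filter, Finset.mem_univ, true_and, Equiv.coe_addLeft]
      have : S.x y + k + (S.x z - S.x y) = S.x z + k := by ring
      rw [this]
    rw [e1, e2, Finset.card_product, e3, Finset.card_univ, Nat.card_eq_fintype_card]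
  have hn : ∀ d d', d ≠ 0 → d' ≠ 0 → n d = n d' := by
    intro d d' hd hd'
    obtain ⟨y, hy⟩ := x_surj S 0
    obtain ⟨z, hz⟩ := x_surj S d
    obtain ⟨z', hz'⟩ := x_surj S d'
    have hyz : y ≠ z := by
      rintro rfl
      exact hd (hz.symm.trans hy)
    have hyz' : y ≠ z' := by
      rintro rfl
      exact hd' (hz'.symm.trans hy)
    obtain ⟨g, hg1, hg2⟩ := (MulAction.is_two_pretransitive_iff.mp h2) hyz hyz'
    have h3 := hM1 g y z
    have hg1' : (g : Equiv.Perm α) y = y := hg1
    have hg2' : (g : Equiv.Perm α) z = z' := hg2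
    rw [hg1', hg2', hM2, hM2, hy, hz, hz', sub_zero, sub_zero] at h3
    exact (Nat.eq_of_mul_eq_mul_left Nat.card_pos h3).symm
  refine ⟨z₀, ?_⟩
  by_contra hcon
  push Not at hcon
  obtain ⟨g, hg, hgz⟩ := hcon
  set w₁ := S.x ((g : Equiv.Perm α) z₀) with hw₁
  have hw₁D : Dp w₁ := ⟨g, hg, rfl⟩
  have hw₁ne : w₁ ≠ v / 2 := by
    intro h
    apply hgz
    apply S.inj
    rw [hz₀, ← h]
  have hall : ∀ w, Dp w := by
    intro w
    by_cases hw : w = v / 2
    · rw [hw, ← hz₀]
      exact ⟨1, H.one_mem, rfl⟩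
    · have d1 : v - 2 * w₁ ≠ 0 := by
        intro h
        apply hw₁ne
        field_simp
        linear_combination -h
      have d2 : v - 2 * w ≠ 0 := by
        intro h
        apply hw
        field_simp
        linear_combination -h
      have o1 : Odd (n (v - 2 * w₁)) := by
        rw [hpar]
        have : (v - (v - 2 * w₁)) / 2 = w₁ := by
          field_simp
          ring
        rw [this]; exact hw₁D
      rw [hn _ _ d1 d2, hpar] at o1
      have : (v - (v - 2 * w)) / 2 = w := by
        field_simp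
        ring
      rwa [this] at o1
  apply hpH
  haveI : MulAction.IsPretransitive H α := by
    refine ⟨fun a b => ?_⟩
    obtain ⟨u, hu, hua⟩ := hall (S.x a)
    obtain ⟨u', hu', hub⟩ := hall (S.x b)
    refine ⟨⟨u' * u⁻¹, H.mul_mem hu' (H.inv_mem hu)⟩, ?_⟩
    have e1 := S.inj hua
    have e2 := S.inj hub
    change (u' : Equiv.Perm α) ((u : Equiv.Perm α)⁻¹ a) = b
    rw [← e1, ← e2]
    simp
  have h3 := MulAction.index_stabilizer_of_transitive H z₀
  rw [Nat.card_eq_fintype_card, S.card] at h3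
  rw [← h3]
  exact Subgroup.index_dvd_card _

end aux

/-- In a transitive permutation group of prime degree `p` whose Sylow `p`-normaliser has even order, the point stabilisers are the only subgroups of index `p`. -/
theorem result {α : Type*} [Fintype α] [DecidableEq α] {p : ℕ} [Fact p.Prime] (hα : Fintype.card α = p) (G : Subgroup (Equiv.Perm α)) [MulAction.IsPretransitive G α] (P : Sylow p G) (heven : Even (Nat.card (Subgroup.normalizer ((P : Subgroup G) : Set G)))) (H : Subgroup G) (hH : H.index = p) : ∃ a : α, H = MulAction.stabilizer G a := by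
  classical
  have hp : p.Prime := Fact.out
  have hpH : ¬ p ∣ Nat.card H := by
    intro h
    apply Cfsg.Agent.Lib.Helper29.PrimeDeg.sq_not_dvd hα G
    rw [← Subgroup.card_mul_index H, hH, pow_two]
    exact Nat.mul_dvd_mul_right h p
  have hfin : ∀ z, (∀ g ∈ H, ((g : G) : Equiv.Perm α) z = z) →
      ∃ a : α, H = MulAction.stabilizer G a := by
    intro z hz
    refine ⟨z, ?_⟩
    have hle : H ≤ MulAction.stabilizer G z := fun g hg => hz g hg
    apply Subgroup.eq_of_le_of_card_ge hle
    have h1 := MulAction.index_stabilizer_of_transitive G z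
    rw [Nat.card_eq_fintype_card, hα] at h1
    have h2 := Subgroup.card_mul_index (MulAction.stabilizer G z)
    have h3 := Subgroup.card_mul_index H
    rw [h1] at h2
    rw [hH] at h3
    exact (Nat.eq_of_mul_eq_mul_right hp.pos (h2.trans h3.symm)).le
  have hA : ∀ S : Cfsg.Agent.Lib.Helper29.PrimeDeg.Shift α (ZMod p) p,
      (∀ g ∈ G, (fun a => S.x (g a)) ∈ S.V 2) → ∃ a : α, H = MulAction.stabilizer G a := by
    intro S haff
    obtain ⟨z, hz⟩ := fixed_of_affine S (H.map G.subtype)
      (by rw [Subgroup.card_map_of_injective G.subtype_injective]; exact hpH)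
      (by rintro _ ⟨g, _, rfl⟩; exact haff g g.2)
    exact hfin z (fun g hg => hz g ⟨g, hg, rfl⟩)
  by_cases hp3 : p ≤ 3
  · obtain ⟨S, hSc⟩ := Cfsg.Agent.Lib.Helper29.PrimeDeg.exists_shift hα G (ZMod p)
    exact hA S (fun g _ => S.affine_of_le_three hp3 g)
  have hp2 : p ≠ 2 := by omega
  obtain ⟨c, t, hc, ht, j, hj⟩ := Cfsg.Agent.Lib.Helper29.PrimeDeg.exists_invol hα G P heven
  obtain ⟨γ, hγ⟩ : ∃ γ : G, γ * t * γ⁻¹ ∈ H := by
    have hpg : IsPGroup 2 (Subgroup.zpowers t) :=
      IsPGroup.of_card (n := 1) (by rw [Nat.card_zpowers, ht, pow_one])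
    haveI : Fact (Nat.Prime 2) := ⟨Nat.prime_two⟩
    obtain ⟨q, hq⟩ := hpg.nonempty_fixed_point_of_prime_not_dvd_card (G ⧸ H) (by
      change ¬ 2 ∣ H.index
      rw [hH]
      intro h
      exact hp2 ((Nat.prime_dvd_prime_iff_eq Nat.prime_two hp).mp h).symm)
    obtain ⟨g, rfl⟩ := QuotientGroup.mk_surjective q
    have h1 := hq ⟨t, Subgroup.mem_zpowers t⟩
    have h2 : ((t * g : G) : G ⧸ H) = (g : G ⧸ H) := h1
    rw [QuotientGroup.eq] at h2
    refine ⟨g⁻¹, ?_⟩
    have h3 := H.inv_mem h2
    have e : ((t * g)⁻¹ * g)⁻¹ = g⁻¹ * t * g⁻¹⁻¹ := by group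
    rwa [e] at h3
  set c' : G := γ * c * γ⁻¹ with hc'
  set t' : G := γ * t * γ⁻¹ with ht'
  have hoc : orderOf c' = p := by
    have := (MulAut.conj γ).orderOf_eq c
    rw [MulAut.conj_apply] at this
    rw [hc', this, hc]
  have htt : t * t = 1 := by
    have : t ^ 2 = 1 := ht ▸ pow_orderOf_eq_one t
    rwa [pow_two] at this
  have ht1 : t ≠ 1 := by
    rintro rfl
    rw [orderOf_one] at ht
    norm_num at ht
  have htt' : t' * t' = 1 := by
    rw [ht']
    calc γ * t * γ⁻¹ * (γ * t * γ⁻¹) = γ * (t * t) * γ⁻¹ := by group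
      _ = 1 := by rw [htt]; group
  have ht1' : t' ≠ 1 := by
    intro h
    apply ht1
    rw [ht'] at h
    calc t = γ⁻¹ * (γ * t * γ⁻¹) * γ := by group
      _ = 1 := by rw [h]; group
  have hj' : t' * c' * t'⁻¹ = c' ^ j := by
    rw [hc', ht', conj_pow, ← hj]
    group
  obtain ⟨S, hSc, hSs⟩ := Cfsg.Agent.Lib.Helper29.PrimeDeg.shift_of_order hα (c' : Equiv.Perm α)
    (by rw [Subgroup.orderOf_coe, hoc]) (ZMod p)
  obtain ⟨v, hv⟩ := S.reflect hp2 (t' : Equiv.Perm α)
    (by exact_mod_cast congrArg Subtype.val htt')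
    (fun h => ht1' (Subtype.ext h)) j (by
      rw [hSc]
      exact_mod_cast congrArg Subtype.val hj')
  by_cases haff : ∀ g ∈ G, (fun a => S.x (g a)) ∈ S.V 2
  · exact hA S haff
  have h2 := two_trans hα G S (by rw [hSc]; exact c'.2) haff
  obtain ⟨z, hz⟩ := fixed_of_two_trans G h2 S hSs c' hSc H hH hpH hp2 t' hγ v hv
  exact hfin z hz

end Cfsg.Agent.S0677
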