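import Cfsg.Statements.S0684
-- import your own Cfsg.Agent.* helpers here
import Mathlib

set_option autoImplicit false
open Cfsg

namespace Cfsg.Agent.S0684

section aux
variable {p : ℕ} [Fact p.Prime] {V : Type*} [AddCommGroup V] [Module (ZMod p) V] [Finite V]

theorem exists_min {G : Type*} [Group G] (φ : G →* (V ≃ₗ[ZMod p] V))
    (U : Submodule (ZMod p) V) (hU0 : U ≠ ⊥) (hU : ∀ g : G, ∀ v ∈ U, φ g v ∈ U) :
    ∃ W : Submodule (ZMod p) V, W ≤ U ∧ W ≠ ⊥ ∧ (∀ g : G, ∀ v ∈ W, φ g v ∈ W) ∧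
      ∀ W' : Submodule (ZMod p) V, W' ≤ W → (∀ g : G, ∀ v ∈ W', φ g v ∈ W') → W' = ⊥ ∨ W' = W := by
  classical
  have hwf : WellFounded ((· < ·) : Submodule (ZMod p) V → Submodule (ZMod p) V → Prop) :=
    wellFounded_lt
  obtain ⟨W, ⟨hWU, hW0, hWi⟩, hmin⟩ := hwf.has_min
    {W : Submodule (ZMod p) V | W ≤ U ∧ W ≠ ⊥ ∧ ∀ g : G, ∀ v ∈ W, φ g v ∈ W} ⟨U, le_rfl, hU0, hU⟩
  refine ⟨W, hWU, hW0, hWi, ?_⟩
  intro W' hle hi
  by_cases h0 : W' = ⊥
  · exact Or.inl h0
  · right
    by_contra hne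
    exact hmin W' ⟨hle.trans hWU, h0, hi⟩ (lt_of_le_of_ne hle hne)

open scoped IsMulCommutative in
theorem cyclic_of_min {G : Type*} [CommGroup G] [Finite G] (φ : G →* (V ≃ₗ[ZMod p] V))
    (hfree : ∀ g : G, ∀ v : V, v ≠ 0 → φ g v = v → g = 1)
    (W : Submodule (ZMod p) V) (hW0 : W ≠ ⊥) (hinv : ∀ g : G, ∀ v ∈ W, φ g v ∈ W)
    (hmin : ∀ W' : Submodule (ZMod p) V, W' ≤ W → (∀ g : G, ∀ v ∈ W', φ g v ∈ W') →
      W' = ⊥ ∨ W' = W) :
    IsCyclic G := by
  classical
  let ρ : G →* Module.End (ZMod p) W :=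
    { toFun := fun g => (φ g).toLinearMap.restrict (hinv g)
      map_one' := by ext w; simp
      map_mul' := by intro a b; ext w; simp }
  have hρ : ∀ g : G, ∀ w : W, ((ρ g w : W) : V) = φ g (w : V) := fun g w => rfl
  let S : Set (Module.End (ZMod p) W) := Set.range ρ
  have hcomm : ∀ a ∈ S, ∀ b ∈ S, a * b = b * a := by
    rintro _ ⟨a, rfl⟩ _ ⟨b, rfl⟩
    rw [← map_mul, ← map_mul, mul_comm]
  haveI : IsMulCommutative (Algebra.adjoin (ZMod p) S) := Algebra.isMulCommutative_adjoin _ hcomm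
  obtain ⟨w0, hw0W, hw00⟩ := (Submodule.ne_bot_iff W).mp hW0
  have hinj : ∀ x : Algebra.adjoin (ZMod p) S, x ≠ 0 →
      ∀ w : W, (x : Module.End (ZMod p) W) w = 0 → w = 0 := by
    intro x hx
    have hk := hmin ((LinearMap.ker (x : Module.End (ZMod p) W)).map W.subtype) (by
        rintro _ ⟨w, -, rfl⟩; exact w.2) (by
        rintro g _ ⟨w, hw, rfl⟩
        refine ⟨ρ g w, ?_, rfl⟩
        have hc : (x : Module.End (ZMod p) W) * ρ g = ρ g * (x : Module.End (ZMod p) W) := by
          have := (Algebra.commute_of_mem_adjoin_of_forall_mem_commute (R := ZMod p) (a := ρ g)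
            (s := S) x.2 (by
              rintro _ ⟨b, rfl⟩
              exact hcomm _ ⟨g, rfl⟩ _ ⟨b, rfl⟩))
          exact this.eq.symm
        have hc' := congrArg (fun y : Module.End (ZMod p) W => y w) hc
        simp only [Module.End.mul_apply] at hc'
        have hw' : (x : Module.End (ZMod p) W) w = 0 := hw
        change (x : Module.End (ZMod p) W) (ρ g w) = 0
        rw [hc', hw', map_zero])
    rcases hk with hk | hk
    · intro w hw
      have : (w : V) ∈ ((LinearMap.ker (x : Module.End (ZMod p) W)).map W.subtype) :=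
        ⟨w, hw, rfl⟩
      rw [hk] at this
      exact Subtype.ext ((Submodule.mem_bot _).mp this)
    · exfalso
      apply hx
      apply Subtype.ext
      apply LinearMap.ext
      intro w
      have : (w : V) ∈ ((LinearMap.ker (x : Module.End (ZMod p) W)).map W.subtype) := by
        rw [hk]; exact w.2
      obtain ⟨w', hw', hww⟩ := this
      have : w' = w := Subtype.ext hww
      rw [← this]
      exact hw'
  haveI : Nontrivial (Algebra.adjoin (ZMod p) S) := by
    refine ⟨⟨0, 1, ?_⟩⟩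
    intro h
    have := congrArg (fun y : Algebra.adjoin (ZMod p) S =>
      ((y : Module.End (ZMod p) W) ⟨w0, hw0W⟩ : W)) h
    simp only [ZeroMemClass.coe_zero, LinearMap.zero_apply, OneMemClass.coe_one,
      Module.End.one_apply] at this
    exact hw00 (congrArg Subtype.val this).symm
  haveI : NoZeroDivisors (Algebra.adjoin (ZMod p) S) := by
    refine ⟨?_⟩
    intro a b hab
    by_contra hcon
    push Not at hcon
    apply hcon.2
    apply Subtype.ext
    apply LinearMap.ext
    intro w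
    apply hinj a hcon.1
    have := congrArg (fun y : Algebra.adjoin (ZMod p) S => ((y : Module.End (ZMod p) W) w : W)) hab
    simpa using this
  haveI : IsDomain (Algebra.adjoin (ZMod p) S) := NoZeroDivisors.to_isDomain _
  let f : G →* Algebra.adjoin (ZMod p) S :=
    { toFun := fun g => ⟨ρ g, Algebra.subset_adjoin ⟨g, rfl⟩⟩
      map_one' := by apply Subtype.ext; simp
      map_mul' := by intro a b; apply Subtype.ext; simp }
  apply isCyclic_of_injective_ringHom f
  intro a b hab
  have h1 : ρ a = ρ b := congrArg Subtype.val hab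
  have h2 : φ a w0 = φ b w0 := by
    have := congrArg (fun y : Module.End (ZMod p) W => ((y ⟨w0, hw0W⟩ : W) : V)) h1
    exact this
  have h3 : b⁻¹ * a = 1 := by
    apply hfree _ w0 hw00
    rw [map_mul, map_inv]
    change (φ b)⁻¹ (φ a w0) = w0
    rw [h2]
    exact (φ b).symm_apply_apply w0
  exact (inv_mul_eq_one.mp h3).symm

theorem card_dvd {G : Type*} [Group G] [Finite G] (φ : G →* (V ≃ₗ[ZMod p] V))
    (hfree : ∀ g : G, ∀ v : V, v ≠ 0 → φ g v = v → g = 1)
    (W : Submodule (ZMod p) V) (hinv : ∀ g : G, ∀ v ∈ W, φ g v ∈ W) :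
    Nat.card G ∣ p ^ Module.finrank (ZMod p) W - 1 := by
  classical
  let X := {w : W // w ≠ 0}
  letI : MulAction G X :=
    { smul := fun g x => ⟨⟨φ g x.1.1, hinv g _ x.1.2⟩, by
        intro h
        have h1 : φ g x.1.1 = 0 := congrArg Subtype.val h
        have h2 : (x.1.1 : V) = 0 := by
          have := (φ g).injective (h1.trans (map_zero (φ g)).symm)
          exact this
        exact x.2 (Subtype.ext h2)⟩
      one_smul := by
        intro x
        apply Subtype.ext; apply Subtype.ext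
        change φ 1 x.1.1 = x.1.1
        simp
      mul_smul := by
        intro a b x
        apply Subtype.ext; apply Subtype.ext
        change φ (a * b) x.1.1 = φ a (φ b x.1.1)
        simp }
  have hst : ∀ x : X, MulAction.stabilizer G x = ⊥ := by
    intro x
    rw [eq_bot_iff]
    intro g hg
    rw [MulAction.mem_stabilizer_iff] at hg
    have h1 : φ g x.1.1 = x.1.1 := congrArg (fun y : X => (y.1.1 : V)) hg
    rw [Subgroup.mem_bot]
    exact hfree g _ (fun h => x.2 (Subtype.ext h)) h1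
  have e := MulAction.selfEquivOrbitsQuotientProd hst
  have hc : Nat.card X = Nat.card (Quotient (MulAction.orbitRel G X)) * Nat.card G := by
    rw [Nat.card_congr e, Nat.card_prod]
  have hX : Nat.card X = p ^ Module.finrank (ZMod p) W - 1 := by
    have h1 : Nat.card W = p ^ Module.finrank (ZMod p) W := by
      rw [Module.natCard_eq_pow_finrank (K := ZMod p), Nat.card_zmod]
    rw [← h1]
    haveI := Fintype.ofFinite W
    rw [Nat.card_eq_fintype_card, Nat.card_eq_fintype_card]
    exact Fintype.card_subtype_compl (fun w : W => w = 0) |>.trans (by simp)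
  rw [← hX, hc]
  exact Dvd.intro_left _ rfl

end aux

/-- Point stabiliser of a sharply doubly transitive group not of semilinear type: a maximal normal abelian subgroup `A` of a linear group `H` that is regular on non-zero vectors and has no irreducible cyclic normal subgroup is cyclic and reducible, and the order of `A` divides `p ^ k - 1` for `k` the dimension of a minimal `A`-invariant subspace. -/
theorem result {p : ℕ} [Fact p.Prime] {V : Type*} [AddCommGroup V] [Module (ZMod p) V] [Finite V] (H : Subgroup (V ≃ₗ[ZMod p] V)) (hreg : ∀ v w : V, v ≠ 0 → w ≠ 0 → ∃! h : H, (h : V ≃ₗ[ZMod p] V) v = w) (hI : ∀ A : Subgroup H, A.Normal → IsCyclic A → ∃ W : Submodule (ZMod p) V, W ≠ ⊥ ∧ W ≠ ⊤ ∧ ∀ a ∈ A, ∀ v ∈ W, ((a : H) : V ≃ₗ[ZMod p] V) v ∈ W) (A : Subgroup H) (hAn : A.Normal) (hAc : IsMulCommutative A) (hAmax : ∀ B : Subgroup H, B.Normal → IsMulCommutative B → A ≤ B → B = A) : IsCyclic A ∧ ∃ W : Submodule (ZMod p) V, W ≠ ⊥ ∧ W ≠ ⊤ ∧ (∀ a ∈ A, ∀ v ∈ W, ((a : H) : V ≃ₗ[ZMod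 p] V) v ∈ W) ∧ (∀ W' : Submodule (ZMod p) V, W' ≤ W → (∀ a ∈ A, ∀ v ∈ W', ((a : H) : V ≃ₗ[ZMod p] V) v ∈ W') → W' = ⊥ ∨ W' = W) ∧ Nat.card A ∣ p ^ Module.finrank (ZMod p) W - 1 := by
  classical
  haveI : Finite (V ≃ₗ[ZMod p] V) :=
    Finite.of_injective (fun e : V ≃ₗ[ZMod p] V => (e : V → V)) DFunLike.coe_injective
  let φ : A →* (V ≃ₗ[ZMod p] V) := H.subtype.comp A.subtype
  have hφ : ∀ a : A, ∀ v : V, φ a v = (((a : H) : V ≃ₗ[ZMod p] V)) v := fun a v => rfl
  have hfree : ∀ g : A, ∀ v : V, v ≠ 0 → φ g v = v → g = 1 := by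
    intro g v hv hg
    obtain ⟨h, -, huniq⟩ := hreg v v hv hv
    have h1 : (g : H) = h := huniq _ hg
    have h2 : (1 : H) = h := huniq _ (by simp)
    exact Subtype.ext (h1.trans h2.symm)
  letI : CommGroup A := { (inferInstance : Group A) with mul_comm := hAc.is_comm.comm }
  have hcyc : IsCyclic A := by
    by_cases hV : (⊤ : Submodule (ZMod p) V) = ⊥
    · haveI : Subsingleton V := by
        refine ⟨fun a b => ?_⟩
        have ha : a ∈ (⊤ : Submodule (ZMod p) V) := trivial
        have hb : b ∈ (⊤ : Submodule (ZMod p) V) := trivial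
        rw [hV, Submodule.mem_bot] at ha hb
        rw [ha, hb]
      haveI : Subsingleton A := by
        refine ⟨fun a b => ?_⟩
        apply Subtype.ext; apply Subtype.ext
        ext v
        exact Subsingleton.elim _ _
      exact isCyclic_of_subsingleton
    · obtain ⟨W, -, hW0, hWi, hWm⟩ := exists_min φ ⊤ hV (fun _ _ _ => trivial)
      exact cyclic_of_min φ hfree W hW0 hWi hWm
  refine ⟨hcyc, ?_⟩
  obtain ⟨U, hU0, hUt, hUi⟩ := hI A hAn hcyc
  obtain ⟨W, hWU, hW0, hWi, hWm⟩ := exists_min φ U hU0 (fun g v hv => hUi g g.2 v hv)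
  refine ⟨W, hW0, ?_, fun a ha v hv => hWi ⟨a, ha⟩ v hv, ?_, card_dvd φ hfree W hWi⟩
  · intro h
    apply hUt
    rw [eq_top_iff, ← h]
    exact hWU
  · intro W' hle hi
    exact hWm W' hle (fun g v hv => hi g g.2 v hv)

end Cfsg.Agent.S0684
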