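import Cfsg.Statements.S0685
import Cfsg.Agent.S0684

set_option autoImplicit false
open Cfsg

namespace Cfsg.Agent.S0685

/-- In a linear group over the prime field that is regular on non-zero vectors and has no irreducible cyclic normal subgroup, a maximal normal abelian subgroup is properly contained in its centraliser, which is non-abelian. -/
theorem result {p : ℕ} [Fact p.Prime] {V : Type*} [AddCommGroup V] [Module (ZMod p) V] [Finite V] (H : Subgroup (V ≃ₗ[ZMod p] V)) (hreg : ∀ v w : V, v ≠ 0 → w ≠ 0 → ∃! h : H, (h : V ≃ₗ[ZMod p] V) v = w) (hI : ∀ A : Subgroup H, A.Normal → IsCyclic A → ∃ W : Submodule (ZMod p) V, W ≠ ⊥ ∧ W ≠ ⊤ ∧ ∀ a ∈ A, ∀ v ∈ W, ((a : H) : V ≃ₗ[ZMod p] V) v ∈ W) (A : Subgroup H) (hAn : A.Normal) (hAc : IsMulCommutative A) (hAmax : ∀ B : Subgroup H, B.Normal → IsMulCommutative B → A ≤ B → B = A) : A < Subgroup.centralizer (A : Set H) ∧ ¬ IsMulCommutative (Subgroup.centralizer (A : Set H)) := by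
  classical
  obtain ⟨hcyc, W, hW0, hWtop, hWinv, hWirr, hdvd⟩ :=
    Cfsg.Agent.S0684.result H hreg hI A hAn hAc hAmax
  haveI := hAn
  haveI : Fintype V := Fintype.ofFinite V
  haveI : Finite (V ≃ₗ[ZMod p] V) :=
    Finite.of_injective (fun e : V ≃ₗ[ZMod p] V => (e : V → V)) DFunLike.coe_injective
  have hAle : A ≤ Subgroup.centralizer (A : Set H) := by
    intro a ha
    rw [Subgroup.mem_centralizer_iff]
    intro b hb
    exact congrArg Subtype.val (hAc.is_comm.comm ⟨b, hb⟩ ⟨a, ha⟩)
  have hlt : A < Subgroup.centralizer (A : Set H) := by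
    refine lt_of_le_of_ne hAle ?_
    intro heq
    obtain ⟨v0, hv0W, hv0⟩ := Submodule.exists_mem_ne_zero_of_ne_bot hW0
    -- the order of `H`
    have hcardH : Nat.card H + 1 = p ^ Module.finrank (ZMod p) V := by
      have e : H ≃ {w : V // w ≠ 0} := Equiv.ofBijective
        (fun h => ⟨(h : V ≃ₗ[ZMod p] V) v0, fun h0 => hv0 (by simpa using h0)⟩) (by
          constructor
          · intro h1 h2 h12
            have h12' : (h1 : V ≃ₗ[ZMod p] V) v0 = (h2 : V ≃ₗ[ZMod p] V) v0 :=
              congrArg Subtype.val h12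
            have hne : (h2 : V ≃ₗ[ZMod p] V) v0 ≠ 0 := fun h0 => hv0 (by simpa using h0)
            exact (hreg v0 _ hv0 hne).unique h12' rfl
          · rintro ⟨w, hw⟩
            obtain ⟨h, hh, -⟩ := hreg v0 w hv0 hw
            exact ⟨h, Subtype.ext hh⟩)
      rw [Nat.card_congr e, Nat.card_eq_fintype_card, Fintype.card_subtype, Finset.filter_ne',
        Finset.card_erase_of_mem (Finset.mem_univ _), Finset.card_univ,
        Module.card_eq_pow_finrank (K := ZMod p) (V := V), ZMod.card]
      have : 0 < p ^ Module.finrank (ZMod p) V := pow_pos (Fact.out : p.Prime).pos _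
      omega
    -- `2 m ≤ n`
    have h2m : 2 * Module.finrank (ZMod p) W ≤ Module.finrank (ZMod p) V := by
      obtain ⟨v1, hv1⟩ : ∃ v1 : V, v1 ∉ W := by
        by_contra hcon
        push Not at hcon
        exact hWtop ((Submodule.eq_top_iff').2 hcon)
      have hv1' : v1 ≠ 0 := fun h0 => hv1 (h0 ▸ W.zero_mem)
      obtain ⟨h, hh, -⟩ := hreg v0 v1 hv0 hv1'
      set W' : Submodule (ZMod p) V := W.map ((h : V ≃ₗ[ZMod p] V) : V →ₗ[ZMod p] V) with hW'
      have hfr : Module.finrank (ZMod p) W' = Module.finrank (ZMod p) W :=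
        LinearEquiv.finrank_map_eq _ _
      have hinf : W ⊓ W' = ⊥ := by
        rcases hWirr (W ⊓ W') inf_le_left (by
          intro a ha v hv
          refine ⟨hWinv a ha v hv.1, ?_⟩
          obtain ⟨w, hw, rfl⟩ := hv.2
          refine ⟨((h⁻¹ * a * h : H) : V ≃ₗ[ZMod p] V) w, hWinv _ ?_ w hw, ?_⟩
          · have := hAn.conj_mem a ha h⁻¹
            rwa [inv_inv] at this
          · show (h : V ≃ₗ[ZMod p] V) (((h⁻¹ * a * h : H) : V ≃ₗ[ZMod p] V) w) = _
            have : ((h * (h⁻¹ * a * h) : H) : V ≃ₗ[ZMod p] V) w = ((a * h : H) : V ≃ₗ[ZMod p] V) w := by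
              congr 2
              group
            exact this) with h1 | h1
        · exact h1
        · exfalso
          have hle : W ≤ W' := inf_eq_left.1 h1
          have heq' : W = W' := Submodule.eq_of_le_of_finrank_eq hle hfr.symm
          apply hv1
          rw [heq', ← hh]
          exact ⟨v0, hv0W, rfl⟩
      have h3 := Submodule.finrank_sup_add_finrank_inf_eq W W'
      rw [hinf, finrank_bot, hfr] at h3
      have h4 := Submodule.finrank_le (W ⊔ W')
      omega
    -- the index of the centralizer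
    have hker : (MulAut.conjNormal (H := A)).ker = Subgroup.centralizer (A : Set H) := by
      ext g
      rw [MonoidHom.mem_ker, Subgroup.mem_centralizer_iff]
      constructor
      · intro hg a ha
        have h1 := congrArg (fun f : MulAut A => ((f ⟨a, ha⟩ : A) : H)) hg
        simp only [MulAut.conjNormal_apply, MulAut.one_apply] at h1
        calc a * g = (g * a * g⁻¹) * g := by rw [h1]
          _ = g * a := by group
      · intro hg
        ext a
        rw [MulAut.conjNormal_apply, MulAut.one_apply, ← hg a a.2]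
        group
    have hidx : (Subgroup.centralizer (A : Set H)).index ≤ Nat.card A := by
      rw [← hker, Subgroup.index_ker]
      calc Nat.card (MulAut.conjNormal (H := A)).range ≤ Nat.card (MulAut A) :=
            Nat.card_le_card_of_injective _ Subtype.val_injective
        _ = (Nat.card A).totient := IsCyclic.card_mulAut A
        _ ≤ Nat.card A := Nat.totient_le _
    have hmul := Subgroup.card_mul_index (Subgroup.centralizer (A : Set H))
    rw [← heq] at hmul hidx
    have hm1 : 1 ≤ Module.finrank (ZMod p) W := by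
      rw [Nat.one_le_iff_ne_zero]
      intro h0
      exact hW0 (Submodule.finrank_eq_zero.1 h0)
    set x := p ^ Module.finrank (ZMod p) W with hx
    have hx2 : 2 ≤ x := by
      calc 2 ≤ p := (Fact.out : p.Prime).two_le
        _ = p ^ 1 := (pow_one p).symm
        _ ≤ x := Nat.pow_le_pow_right (Fact.out : p.Prime).pos hm1
    have hd : Nat.card A ≤ x - 1 := Nat.le_of_dvd (by omega) hdvd
    have hxx : x * x ≤ p ^ Module.finrank (ZMod p) V := by
      rw [hx, ← pow_add]
      exact Nat.pow_le_pow_right (Fact.out : p.Prime).pos (by omega)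
    have h5 : Nat.card H ≤ (x - 1) * (x - 1) := by
      rw [← hmul]
      exact Nat.mul_le_mul hd (hidx.trans hd)
    clear_value x
    obtain ⟨y, rfl⟩ : ∃ y, x = y + 2 := ⟨x - 2, by omega⟩
    have h6 : (y + 2 - 1) * (y + 2 - 1) = y * y + 2 * y + 1 := by
      have : y + 2 - 1 = y + 1 := by omega
      rw [this]; ring
    have h7 : (y + 2) * (y + 2) = y * y + 4 * y + 4 := by ring
    omega
  refine ⟨hlt, fun hc => ?_⟩
  have := hAmax (Subgroup.centralizer (A : Set H)) inferInstance hc hAle
  exact hlt.ne this.symm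

end Cfsg.Agent.S0685
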