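import Cfsg.Statements.S0691
import Mathlib
import Cfsg.Agent.Lib.Helper15.RegTab

set_option autoImplicit false
open Cfsg

namespace Cfsg.Agent.S0691


def TF : ℕ := 65165374812902130427130200824826919337225100618596988040937568039266693882117528880168960
def TR : ℕ := 25157639860303495791789777689532705941355469404542693671680
def L : List (Matrix (Fin 2) (Fin 2) (ZMod 5)) := [!![2, 0; 0, -2], !![0, -1; 1, 0], !![1, 2; 1, -2]]

instance : Fact (Nat.Prime 5) := ⟨by norm_num⟩

set_option maxRecDepth 100000 in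
theorem h1 : Cfsg.Agent.Lib.Helper15.RegTab.F2 5 TF 1 0 = (0, 1) := by decide +kernel

set_option maxRecDepth 100000 in
theorem hF : ∀ M ∈ L, Cfsg.Agent.Lib.Helper15.RegTab.GoodF 5 TF M := by decide +kernel

set_option maxRecDepth 100000 in
theorem hR : Cfsg.Agent.Lib.Helper15.RegTab.GoodR 5 TR L := by decide +kernel

/-- An exceptional sharply doubly transitive group of degree 5^2: the listed matrices generate a subgroup of GL(2,5) of order 24 acting regularly on the non-zero vectors. -/
theorem result (A : Matrix.GeneralLinearGroup (Fin 2) (ZMod 5)) (B : Matrix.GeneralLinearGroup (Fin 2) (ZMod 5)) (C : Matrix.GeneralLinearGroup (Fin 2) (ZMod 5)) (hA : (A : Matrix (Fin 2) (Fin 2) (ZMod 5)) = !![2, 0; 0, -2]) (hB : (B : Matrix (Fin 2) (Fin 2) (ZMod 5)) = !![0, -1; 1, 0]) (hC : (C : Matrix (Fin 2) (Fin 2) (ZMod 5)) = !![1, 2; 1, -2]) : Nat.card (Subgroup.closure ({A, B, C} : Set (Matrix.GeneralLinearGroup (Fin 2) (ZMod 5)))) = 24 ∧ ∀ v w : Fin 2 → ZMod 5, v ≠ 0 → w ≠ 0 → ∃! h : Subgroup.closure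 ({A, B, C} : Set (Matrix.GeneralLinearGroup (Fin 2) (ZMod 5))), Matrix.mulVec ((h : Matrix.GeneralLinearGroup (Fin 2) (ZMod 5)) : Matrix (Fin 2) (Fin 2) (ZMod 5)) v = w := by
  have key := Cfsg.Agent.Lib.Helper15.RegTab.main2 (p := 5) ({A, B, C} : Set (Matrix.GeneralLinearGroup (Fin 2) (ZMod 5))) L TF TR
    (by
      intro s hs
      simp only [Set.mem_insert_iff, Set.mem_singleton_iff] at hs
      rcases hs with rfl | rfl | rfl <;> simp [L, hA, hB, hC])
    (by
      intro M hM
      simp only [L, List.mem_cons, List.not_mem_nil, or_false] at hM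
      rcases hM with rfl | rfl | rfl
      · exact ⟨A, by simp, hA⟩
      · exact ⟨B, by simp, hB⟩
      · exact ⟨C, by simp, hC⟩
      )
    h1 hF hR
  simpa using key

end Cfsg.Agent.S0691
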