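import Cfsg.Statements.S0692
import Mathlib
import Cfsg.Agent.Lib.Helper15.RegTab

set_option autoImplicit false
open Cfsg

namespace Cfsg.Agent.S0692


def TF : ℕ := 17828020839110171230370420178911569522542692305556953458560252036183820738353420046534254020537914299905530367418647279426410482420323393059812312844287327198006600376964185704314917115510768137274338622879688750418216805909953321167591708013029384426913394645504094230484994900975159113008822105640055206690268007894582564312085502991087451257065556395206879598940286521731873362491229005993092194389884220427653368289171373525009735680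
def TR : ℕ := 68446799902747174275830603727394883775597519684125988185799889648006543487252532491784035140880496759951110662772478566127375129433759914557307623431325503671852873384723489358986188101349596121787728821122165355219860254514058596102260886434313403675203777496283596185053486590954798711552
def L : List (Matrix (Fin 2) (Fin 2) (ZMod 11)) := [!![0, -1; 1, 0], !![2, 4; 1, -3]]

instance : Fact (Nat.Prime 11) := ⟨by norm_num⟩

set_option maxRecDepth 100000 in
theorem h1 : Cfsg.Agent.Lib.Helper15.RegTab.F2 11 TF 1 0 = (0, 1) := by decide +kernel

set_option maxRecDepth 100000 in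
theorem hF : ∀ M ∈ L, Cfsg.Agent.Lib.Helper15.RegTab.GoodF 11 TF M := by decide +kernel

set_option maxRecDepth 100000 in
theorem hR : Cfsg.Agent.Lib.Helper15.RegTab.GoodR 11 TR L := by decide +kernel

/-- An exceptional sharply doubly transitive group of degree 11^2: the listed matrices generate a subgroup of GL(2,11) of order 120 acting regularly on the non-zero vectors. -/
theorem result (A : Matrix.GeneralLinearGroup (Fin 2) (ZMod 11)) (B : Matrix.GeneralLinearGroup (Fin 2) (ZMod 11)) (hA : (A : Matrix (Fin 2) (Fin 2) (ZMod 11)) = !![0, -1; 1, 0]) (hB : (B : Matrix (Fin 2) (Fin 2) (ZMod 11)) = !![2, 4; 1, -3]) : Nat.card (Subgroup.closure ({A, B} : Set (Matrix.GeneralLinearGroup (Fin 2) (ZMod 11)))) = 120 ∧ ∀ v w : Fin 2 → ZMod 11, v ≠ 0 → w ≠ 0 → ∃! h : Subgroup.closure ({A, B} : Set (Matrix.GeneralLinearGroup (Fin 2) (ZMod 11))), Matrix.mulVec ((h : Matrix.GeneralLinearGroup (Fin 2) (ZMod 11)) : Matrix (Fin 2) (Fin 2) (ZMod 11)) v = w := by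
  have key := Cfsg.Agent.Lib.Helper15.RegTab.main2 (p := 11) ({A, B} : Set (Matrix.GeneralLinearGroup (Fin 2) (ZMod 11))) L TF TR
    (by
      intro s hs
      simp only [Set.mem_insert_iff, Set.mem_singleton_iff] at hs
      rcases hs with rfl | rfl <;> simp [L, hA, hB])
    (by
      intro M hM
      simp only [L, List.mem_cons, List.not_mem_nil, or_false] at hM
      rcases hM with rfl | rfl
      · exact ⟨A, by simp, hA⟩
      · exact ⟨B, by simp, hB⟩
      )
    h1 hF hR
  simpa using key

end Cfsg.Agent.S0692
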