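import Cfsg.Statements.S0694
import Mathlib

set_option autoImplicit false
open Cfsg

namespace Cfsg.Agent.S0694

theorem modEq_iff (q i N : ℕ) : q ^ i ≡ 1 [MOD N] ↔ (N : ℤ) ∣ (q : ℤ) ^ i - 1 := by
  rw [Nat.ModEq.comm, Nat.modEq_iff_dvd]
  push_cast
  exact Iff.rfl

theorem lemL : ∀ (m : ℕ) (x : ℤ), m ≠ 0 → (∀ r : ℕ, r.Prime → r ∣ m → (r : ℤ) ∣ x - 1) →
    (m : ℤ) * (x - 1) ∣ x ^ m - 1 := by
  intro m
  induction m using Nat.recOnMul with
  | zero => intro x h; exact absurd rfl h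
  | one => intro x _ _; simp
  | prime p hp =>
    intro x _ h
    have h1 := h p hp dvd_rfl
    have h2 := dvd_geom_sum₂_self (x := x) (y := 1) (n := p) h1
    have h3 := geom_sum₂_mul x 1 p
    rw [one_pow] at h3
    rw [← h3]; exact mul_dvd_mul_right h2 _
  | mul a b iha ihb =>
    intro x hab h
    have ha0 : a ≠ 0 := by rintro rfl; simp at hab
    have hb0 : b ≠ 0 := by rintro rfl; simp at hab
    have h1 := iha x ha0 (fun r hr hra => h r hr (hra.mul_right b))
    have hd : x - 1 ∣ x ^ a - 1 := by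
      have := sub_dvd_pow_sub_pow x 1 a
      rwa [one_pow] at this
    have h2 := ihb (x ^ a) hb0 (fun r hr hrb => (h r hr (hrb.mul_left a)).trans hd)
    rw [← pow_mul] at h2
    refine dvd_trans ?_ h2
    have : ((a * b : ℕ) : ℤ) * (x - 1) = (b : ℤ) * ((a : ℤ) * (x - 1)) := by push_cast; ring
    rw [this]
    exact mul_dvd_mul_left _ h1

theorem decomp (k : ℕ) : ∀ n : ℕ, n ≠ 0 →
    ∃ n₁ n₂, n = n₁ * n₂ ∧ (∀ r : ℕ, r.Prime → r ∣ n₁ → r ∣ k) ∧ Nat.Coprime n₂ k := by
  intro n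
  induction n using Nat.recOnMul with
  | zero => intro h; exact absurd rfl h
  | one =>
    intro _
    exact ⟨1, 1, rfl, fun r hr h => absurd (Nat.dvd_one.1 h) hr.one_lt.ne', Nat.coprime_one_left k⟩
  | prime p hp =>
    intro _
    by_cases h : p ∣ k
    · exact ⟨p, 1, (mul_one p).symm, fun r hr hrp => by
        rw [(Nat.prime_dvd_prime_iff_eq hr hp).1 hrp]; exact h, Nat.coprime_one_left k⟩
    · exact ⟨1, p, (one_mul p).symm, fun r hr h => absurd (Nat.dvd_one.1 h) hr.one_lt.ne',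
        (Nat.Prime.coprime_iff_not_dvd hp).2 h⟩
  | mul a b iha ihb =>
    intro hab
    obtain ⟨a1, a2, ha, ha1, ha2⟩ := iha (by rintro rfl; simp at hab)
    obtain ⟨b1, b2, hb, hb1, hb2⟩ := ihb (by rintro rfl; simp at hab)
    refine ⟨a1 * b1, a2 * b2, by rw [ha, hb]; ring, ?_, Nat.Coprime.mul_left ha2 hb2⟩
    intro r hr h
    rcases (Nat.Prime.dvd_mul hr).1 h with h | h
    · exact ha1 r hr h
    · exact hb1 r hr h

theorem lemP (r a i : ℕ) (x : ℤ) (hr : r.Prime) (hx1 : x - 1 ≠ 0) (hrx : (r : ℤ) ∣ x - 1)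
    (h4 : Odd r ∨ (4 : ℤ) ∣ x - 1)
    (h : (r : ℤ) ^ a * (x - 1) ∣ x ^ i - 1) : r ^ a ∣ i := by
  have hnx : ¬ (r : ℤ) ∣ x := by
    intro hd
    have h1 : (r : ℤ) ∣ 1 := by
      have := dvd_sub hd hrx
      simpa using this
    have h2 : r ∣ 1 := by exact_mod_cast h1
    exact hr.one_lt.ne' (Nat.dvd_one.1 h2)
  have key : emultiplicity (r : ℤ) (x ^ i - 1) =
      emultiplicity (r : ℤ) (x - 1) + emultiplicity r i := by
    rcases hr.eq_two_or_odd' with rfl | hodd
    · have h4' : (4 : ℤ) ∣ x - 1 := by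
        rcases h4 with h | h
        · exact absurd h (by decide)
        · exact h
      have := Int.two_pow_sub_pow' (x := x) (y := 1) i h4' hnx
      rw [one_pow] at this
      have e : emultiplicity (2 : ℤ) (i : ℤ) = emultiplicity 2 i := Int.natCast_emultiplicity 2 i
      rw [e] at this
      exact this
    · have := Int.emultiplicity_pow_sub_pow hr hodd (x := x) (y := 1) hrx hnx i
      rwa [one_pow] at this
  have hfin : FiniteMultiplicity (r : ℤ) (x - 1) := by
    rw [Int.finiteMultiplicity_iff]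
    exact ⟨by simpa using hr.one_lt.ne', hx1⟩
  have hb := pow_multiplicity_dvd (r : ℤ) (x - 1)
  have h1 : (r : ℤ) ^ (a + multiplicity (r : ℤ) (x - 1)) ∣ x ^ i - 1 := by
    rw [pow_add]
    exact (mul_dvd_mul_left _ hb).trans h
  have h2 := le_emultiplicity_of_pow_dvd h1
  rw [key, hfin.emultiplicity_eq_multiplicity] at h2
  apply pow_dvd_of_le_emultiplicity
  rcases eq_or_ne (emultiplicity r i) ⊤ with e | e
  · rw [e]; exact le_top
  · obtain ⟨c, hc⟩ := ENat.ne_top_iff_exists.1 e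
    rw [← hc] at h2 ⊢
    have h3 : a + multiplicity (r : ℤ) (x - 1) ≤ multiplicity (r : ℤ) (x - 1) + c := by
      exact_mod_cast h2
    have : a ≤ c := by omega
    exact_mod_cast this

/-- The Dickson pair condition: for a prime power `q` and `n > 1`, (every prime factor of `n` divides `q - 1`, and `4 ∣ n → 4 ∣ q - 1`) holds exactly when `q ^ n ≡ 1` modulo `n * (q - 1)` but `q ^ i` is not, for `0 < i < n`. -/
theorem result (q n : ℕ) (hq : IsPrimePow q) (hn : 1 < n) : ((∀ r : ℕ, r.Prime → r ∣ n → r ∣ q - 1) ∧ (4 ∣ n → 4 ∣ q - 1)) ↔ (q ^ n ≡ 1 [MOD n * (q - 1)] ∧ ∀ i : ℕ, 0 < i → i < n → ¬ q ^ i ≡ 1 [MOD n * (q - 1)]) := by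
  have hq2 : 2 ≤ q := hq.two_le
  have hn0 : n ≠ 0 := by omega
  obtain ⟨x, hx⟩ : ∃ x : ℤ, x = (q : ℤ) := ⟨_, rfl⟩
  have hcast : ((q - 1 : ℕ) : ℤ) = x - 1 := by
    rw [hx, Nat.cast_sub (by omega : 1 ≤ q)]; simp
  have hx1 : x - 1 ≠ 0 := by
    rw [hx]
    have : (2 : ℤ) ≤ q := by exact_mod_cast hq2
    omega
  have hdvd : ∀ r : ℕ, r ∣ q - 1 ↔ (r : ℤ) ∣ x - 1 := by
    intro r; rw [← hcast]; exact Int.natCast_dvd_natCast.symm
  have hmod : ∀ i : ℕ, q ^ i ≡ 1 [MOD n * (q - 1)] ↔ (n : ℤ) * (x - 1) ∣ x ^ i - 1 := by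
    intro i
    rw [modEq_iff, Nat.cast_mul, hcast, hx]
  simp only [hmod]
  constructor
  · rintro ⟨hD1, hD2⟩
    refine ⟨lemL n x hn0 (fun r hr hrn => (hdvd r).1 (hD1 r hr hrn)), ?_⟩
    intro i hi0 hin hdiv
    have hni : n ∣ i := by
      rw [Nat.dvd_iff_prime_pow_dvd_dvd]
      intro r a hr hra
      rcases Nat.eq_zero_or_pos a with rfl | ha
      · simp
      have hrn : r ∣ n := (dvd_pow_self r ha.ne').trans hra
      have hrq := hD1 r hr hrn
      have hdiv' : (r : ℤ) ^ a * (x - 1) ∣ x ^ i - 1 := by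
        refine dvd_trans (mul_dvd_mul_right ?_ _) hdiv
        exact_mod_cast hra
      by_cases h4 : Odd r ∨ (4 : ℤ) ∣ x - 1
      · exact lemP r a i x hr hx1 ((hdvd r).1 hrq) h4 hdiv'
      · push Not at h4
        obtain ⟨h4a, h4b⟩ := h4
        have hr2 : r = 2 := by
          rcases hr.eq_two_or_odd' with h | h
          · exact h
          · exact absurd h (by simpa using h4a)
        subst hr2
        have h4q : ¬ 4 ∣ q - 1 := fun h => h4b (by have := (hdvd 4).1 h; exact_mod_cast this)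
        have h4n : ¬ 4 ∣ n := fun h => h4q (hD2 h)
        have ha1 : a = 1 := by
          by_contra hne
          have h2a : 2 ≤ a := by omega
          have := (pow_dvd_pow 2 h2a).trans hra
          exact h4n (by simpa using this)
        subst ha1
        rw [pow_one]
        have h3 := geom_sum₂_mul x 1 i
        rw [one_pow] at h3
        rw [← h3, pow_one] at hdiv'
        have h5 := (mul_dvd_mul_iff_right hx1).1 hdiv'
        have h2x : ((2 : ℕ) : ℤ) ∣ x - 1 := (hdvd 2).1 hrq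
        have h6 := (dvd_geom_sum₂_iff_of_dvd_sub h2x).1 h5
        rw [one_pow, mul_one] at h6
        exact_mod_cast h6
    exact absurd (Nat.le_of_dvd hi0 hni) (by omega)
  · rintro ⟨hN, hmin⟩
    have hcop : Nat.Coprime q n := by
      by_contra hc
      obtain ⟨s, hs, hsq, hsn⟩ := Nat.Prime.not_coprime_iff_dvd.1 hc
      have h1 : (s : ℤ) ∣ x ^ n - 1 :=
        dvd_trans (Dvd.dvd.mul_right (by exact_mod_cast hsn) _) hN
      have h2 : (s : ℤ) ∣ x ^ n := dvd_pow (by rw [hx]; exact_mod_cast hsq) hn0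
      have h3 : (s : ℤ) ∣ 1 := by
        have := dvd_sub h2 h1
        simpa using this
      have h4 : s ∣ 1 := by exact_mod_cast h3
      exact hs.one_lt.ne' (Nat.dvd_one.1 h4)
    obtain ⟨n₁, n₂, hnn, hg, hb⟩ := decomp (q - 1) n hn0
    have hn1 : n₁ ≠ 0 := by
      rintro rfl
      simp at hnn; exact hn0 hnn
    have hn2 : n₂ ≠ 0 := by
      rintro rfl
      simp at hnn; exact hn0 hnn
    have hn2' : n₂ = 1 := by
      by_contra hne
      have h1 : 1 < n₂ := by omega
      have hφ0 : 0 < Nat.totient n₂ := Nat.totient_pos.2 (by omega)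
      have hφ1 : Nat.totient n₂ < n₂ := Nat.totient_lt n₂ h1
      apply hmin (n₁ * Nat.totient n₂) (Nat.mul_pos (by omega) hφ0)
        (by rw [hnn]; exact Nat.mul_lt_mul_of_pos_left hφ1 (by omega))
      have hA : (n₁ : ℤ) * (x - 1) ∣ x ^ (n₁ * Nat.totient n₂) - 1 := by
        refine (lemL n₁ x hn1 (fun r hr h => (hdvd r).1 (hg r hr h))).trans ?_
        rw [pow_mul]
        have := sub_dvd_pow_sub_pow (x ^ n₁) 1 (Nat.totient n₂)
        rwa [one_pow] at this
      have hB : (n₂ : ℤ) ∣ x ^ (n₁ * Nat.totient n₂) - 1 := by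
        have hc2 : Nat.Coprime q n₂ :=
          Nat.Coprime.coprime_dvd_right (Dvd.intro_left _ hnn.symm) hcop
        have h2 := (modEq_iff q _ n₂).1 (Nat.ModEq.pow_totient hc2)
        rw [← hx] at h2
        refine h2.trans ?_
        rw [mul_comm n₁, pow_mul]
        have := sub_dvd_pow_sub_pow (x ^ Nat.totient n₂) 1 n₁
        rwa [one_pow] at this
      have hcop2 : IsCoprime ((n₁ : ℤ) * (x - 1)) (n₂ : ℤ) := by
        rw [← hcast, ← Nat.cast_mul, Nat.isCoprime_iff_coprime]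
        apply Nat.Coprime.mul_left _ hb.symm
        by_contra hc
        obtain ⟨s, hs, hs1, hs2⟩ := Nat.Prime.not_coprime_iff_dvd.1 hc
        have h3 := hg s hs hs1
        have h4 := Nat.dvd_gcd hs2 h3
        rw [hb] at h4
        exact hs.one_lt.ne' (Nat.dvd_one.1 h4)
      have h5 := hcop2.mul_dvd hA hB
      have e : (n : ℤ) * (x - 1) = (n₁ : ℤ) * (x - 1) * (n₂ : ℤ) := by
        rw [hnn]; push_cast; ring
      rw [e]; exact h5
    have hD1 : ∀ r : ℕ, r.Prime → r ∣ n → r ∣ q - 1 := by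
      intro r hr hrn
      apply hg r hr
      rw [hnn, hn2', mul_one] at hrn; exact hrn
    refine ⟨hD1, ?_⟩
    intro h4n
    by_contra h4q
    obtain ⟨m, hm⟩ := h4n
    have hm0 : m ≠ 0 := by
      rintro rfl
      simp at hm; exact hn0 hm
    have h2q : 2 ∣ q - 1 := hD1 2 Nat.prime_two (by rw [hm]; exact Dvd.intro (2 * m) (by ring))
    have h4q1 : 4 ∣ q + 1 := by omega
    apply hmin (2 * m) (by omega) (by omega)
    have h1 := lemL m (x ^ 2) hm0 (fun r hr hrm => by
      have h2 := (hdvd r).1 (hD1 r hr (by rw [hm]; exact hrm.mul_left 4))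
      have : x ^ 2 - 1 = (x - 1) * (x + 1) := by ring
      rw [this]; exact h2.mul_right _)
    rw [← pow_mul] at h1
    refine dvd_trans ?_ h1
    obtain ⟨t, ht⟩ := h4q1
    have hxt : x + 1 = 4 * (t : ℤ) := by rw [hx]; exact_mod_cast ht
    have e : (m : ℤ) * (x ^ 2 - 1) = ((n : ℤ) * (x - 1)) * t := by
      have : x ^ 2 - 1 = (x - 1) * (x + 1) := by ring
      rw [this, hxt, hm]; push_cast; ring
    rw [e]; exact Dvd.intro _ rfl

end Cfsg.Agent.S0694
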