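import Cfsg.Statements.S0695
-- import your own Cfsg.Agent.* helpers here
import Cfsg.Agent.Lib.Helper29.PermReg

set_option autoImplicit false
open Cfsg

namespace Cfsg.Agent.S0695

open Cfsg.Agent.Lib.Helper29.PermReg


/-- A regular normal subgroup of a doubly primitive group of finite degree at least 2 is an elementary abelian 2-group (and the degree is a power of 2), unless the degree is 3. -/
theorem result {G : Type*} [Group G] {X : Type*} [Fintype X] [MulAction G X] (hX : 2 ≤ Fintype.card X) (h2 : MulAction.IsMultiplyPreprimitive G X 2) (N : Subgroup G) [N.Normal] (htrans : MulAction.IsPretransitive N X) (hreg : ∀ x : X, MulAction.stabilizer N x = ⊥) : Fintype.card X = 3 ∨ (IsMulCommutative N ∧ (∀ n ∈ N, n ^ 2 = 1) ∧ ∃ m : ℕ, Fintype.card X = 2 ^ m) := by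
  classical
  haveI := h2
  obtain ⟨x⟩ : Nonempty X := by
    rw [← Fintype.card_pos_iff]; omega
  have hs : ({x} : Set X).encard + 1 = ((2 : ℕ) : ℕ∞) := by
    rw [Set.encard_singleton]; norm_num
  haveI hprim := MulAction.IsMultiplyPreprimitive.isPreprimitive_ofFixingSubgroup G 2 hs
  have hfix : ∀ h : fixingSubgroup G ({x} : Set X), (h : G) • x = x := fun h =>
    (mem_fixingSubgroup_iff G).mp h.2 x rfl
  set φ := (regEquiv N htrans x (hreg x)).symm with hφ
  have hφn : ∀ n (hn : n ∈ N), φ (n • x) = ⟨n, hn⟩ := by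
    intro n hn
    rw [hφ, Equiv.symm_apply_eq]; rfl
  have hτmem : ∀ y : SubMulAction.ofFixingSubgroup G ({x} : Set X),
      (((φ y.1)⁻¹ : N) : G) • x ∈ SubMulAction.ofFixingSubgroup G ({x} : Set X) := by
    intro y
    rw [SubMulAction.mem_ofFixingSubgroup_iff, Set.mem_singleton_iff]
    intro h
    have h1 : (((φ y.1)⁻¹ : N) : G) = 1 := reg_inj N (hreg x) ((φ y.1)⁻¹).2 N.one_mem (by rw [h, one_smul])
    have h2 : φ y.1 = 1 := by
      have : (φ y.1)⁻¹ = 1 := Subtype.ext h1
      simpa using this
    have h3 : y.1 = x := by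
      have := (Equiv.symm_apply_eq _).mp h2
      rw [this, regEquiv_apply]; simp
    exact (SubMulAction.not_mem_of_mem_ofFixingSubgroup y) h3
  have key := pair_block (H := fixingSubgroup G ({x} : Set X)) (Y := SubMulAction.ofFixingSubgroup G ({x} : Set X))
    (fun y => ⟨(((φ y.1)⁻¹ : N) : G) • x, hτmem y⟩) ?_ ?_
  rotate_left
  · intro h y
    apply Subtype.ext
    obtain ⟨n, hn, hy⟩ := exists_reg N htrans x y.1
    change (h : G) • ((((φ y.1)⁻¹ : N) : G) • x) = (((φ ((h : G) • y.1))⁻¹ : N) : G) • x
    have hc : (h : G) * n * (h : G)⁻¹ ∈ N := ‹N.Normal›.conj_mem n hn h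
    have h1 : (h : G) • y.1 = ((h : G) * n * (h : G)⁻¹) • x := by
      rw [mul_smul, mul_smul, ← hy]
      congr 2
      rw [eq_inv_smul_iff, hfix]
    rw [h1, hφn _ hc, ← hy, hφn _ hn]
    change (h : G) • (n⁻¹ • x) = ((h : G) * n * (h : G)⁻¹)⁻¹ • x
    have h2 : ((h : G) * n * (h : G)⁻¹)⁻¹ = (h : G) * n⁻¹ * (h : G)⁻¹ := by group
    rw [h2, mul_smul, mul_smul]
    congr 2
    rw [eq_inv_smul_iff, hfix]
  · intro y
    apply Subtype.ext
    obtain ⟨n, hn, hy⟩ := exists_reg N htrans x y.1
    change (((φ ((((φ y.1)⁻¹ : N) : G) • x))⁻¹ : N) : G) • x = y.1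
    rw [← hy, hφn _ hn]
    change (((φ (n⁻¹ • x))⁻¹ : N) : G) • x = n • x
    rw [hφn _ (N.inv_mem hn)]
    simp
  by_cases h3 : Fintype.card X = 3
  · exact Or.inl h3
  right
  have hsq : ∀ n ∈ N, n ^ 2 = 1 := by
    intro n hn
    by_cases hn1 : n = 1
    · rw [hn1]; simp
    have hnx : n • x ∈ SubMulAction.ofFixingSubgroup G ({x} : Set X) := by
      rw [SubMulAction.mem_ofFixingSubgroup_iff, Set.mem_singleton_iff]
      intro h
      exact hn1 (reg_inj N (hreg x) hn N.one_mem (by rw [h, one_smul]))
    have hfin : n⁻¹ • x = n • x → n ^ 2 = 1 := by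
      intro h
      have := reg_inj N (hreg x) (N.inv_mem hn) hn h
      rw [sq]
      nth_rewrite 1 [← this]
      simp
    rcases key ⟨n • x, hnx⟩ with h | h
    · have h' := congrArg Subtype.val h
      change (((φ (n • x))⁻¹ : N) : G) • x = n • x at h'
      rw [hφn _ hn] at h'
      exact hfin h'
    · by_contra hcon
      have hne : n⁻¹ • x ≠ n • x := fun h => hcon (hfin h)
      apply h3
      have huniv : (Finset.univ : Finset X) = {x, n • x, n⁻¹ • x} := by
        ext z
        simp only [Finset.mem_univ, Finset.mem_insert, Finset.mem_singleton, true_iff]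
        by_cases hz : z = x
        · exact Or.inl hz
        right
        have hz' : z ∈ SubMulAction.ofFixingSubgroup G ({x} : Set X) := by
          rw [SubMulAction.mem_ofFixingSubgroup_iff, Set.mem_singleton_iff]; exact hz
        rcases h ⟨z, hz'⟩ with h4 | h4
        · exact Or.inl (congrArg Subtype.val h4)
        · right
          have h5 := congrArg Subtype.val h4
          change z = (((φ (n • x))⁻¹ : N) : G) • x at h5
          rw [hφn _ hn] at h5
          exact h5
      rw [← Finset.card_univ, huniv]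
      have hx1 : x ≠ n • x := fun h => hnx h.symm
      have hx2 : x ≠ n⁻¹ • x := by
        intro h
        apply hx1
        rw [eq_inv_smul_iff] at h
        exact h.symm
      rw [Finset.card_insert_of_notMem (by simp [hx1, hx2]), Finset.card_insert_of_notMem (by simp [hne.symm]),
        Finset.card_singleton]
  refine ⟨comm_of_sq hsq, hsq, ?_⟩
  have hcard := card_reg N htrans x (hreg x)
  haveI : Finite N := Finite.of_equiv X (regEquiv N htrans x (hreg x)).symm
  have hp : IsPGroup 2 N := by
    intro g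
    refine ⟨1, ?_⟩
    ext
    simpa using hsq g g.2
  obtain ⟨m, hm⟩ := hp.exists_card_eq
  exact ⟨m, by rw [← Nat.card_eq_fintype_card, ← hcard, hm]⟩

end Cfsg.Agent.S0695
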