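import Cfsg.Statements.S0696
-- import your own Cfsg.Agent.* helpers here
import Cfsg.Agent.Lib.Helper29.PermReg
import Cfsg.Agent.S0695

set_option autoImplicit false
open Cfsg

namespace Cfsg.Agent.S0696

open Cfsg.Agent.Lib.Helper29.PermReg


/-- A triply primitive group of degree at least 3 having a regular normal subgroup has degree 3 or 4. -/
theorem result {G : Type*} [Group G] {X : Type*} [Fintype X] [MulAction G X] (hX : 3 ≤ Fintype.card X) (h3 : MulAction.IsMultiplyPreprimitive G X 3) (N : Subgroup G) [N.Normal] (htrans : MulAction.IsPretransitive N X) (hreg : ∀ x : X, MulAction.stabilizer N x = ⊥) : Fintype.card X = 3 ∨ Fintype.card X = 4 := by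
  classical
  by_cases hc3 : Fintype.card X = 3
  · exact Or.inl hc3
  right
  have h2 : MulAction.IsMultiplyPreprimitive G X 2 :=
    MulAction.isMultiplyPreprimitive_of_le G X h3 (by norm_num) (by
      rw [ENat.card_eq_coe_fintype_card]; exact_mod_cast hX)
  have hsq : ∀ n ∈ N, n ^ 2 = 1 := by
    rcases Cfsg.Agent.S0695.result (by omega) h2 N htrans hreg with h | h
    · exact absurd h hc3
    · exact h.2.1
  haveI := h3
  obtain ⟨x⟩ : Nonempty X := by
    rw [← Fintype.card_pos_iff]; omega
  obtain ⟨y, hyx⟩ : ∃ y : X, y ≠ x := by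
    by_contra hcon
    push Not at hcon
    have : Fintype.card X ≤ 1 := Fintype.card_le_one_iff.mpr fun a b => by rw [hcon a, hcon b]
    omega
  obtain ⟨n, hn, hnx⟩ := exists_reg N htrans x y
  have hnn : n * n = 1 := by rw [← sq]; exact hsq n hn
  have hninv : n⁻¹ = n := inv_eq_of_mul_eq_one_left hnn
  have hn1 : n ≠ 1 := by
    intro h; rw [h, one_smul] at hnx; exact hyx hnx.symm
  have hs : ({x, y} : Set X).encard + 1 = ((3 : ℕ) : ℕ∞) := by
    rw [Set.encard_pair hyx.symm]; norm_num
  haveI hprim := MulAction.IsMultiplyPreprimitive.isPreprimitive_ofFixingSubgroup G 3 hs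
  have hfixx : ∀ h : fixingSubgroup G ({x, y} : Set X), (h : G) • x = x := fun h =>
    (mem_fixingSubgroup_iff G).mp h.2 x (by simp)
  have hfixy : ∀ h : fixingSubgroup G ({x, y} : Set X), (h : G) • y = y := fun h =>
    (mem_fixingSubgroup_iff G).mp h.2 y (by simp)
  have hτmem : ∀ z : SubMulAction.ofFixingSubgroup G ({x, y} : Set X),
      n • z.1 ∈ SubMulAction.ofFixingSubgroup G ({x, y} : Set X) := by
    intro z
    have hz := SubMulAction.not_mem_of_mem_ofFixingSubgroup z
    rw [SubMulAction.mem_ofFixingSubgroup_iff]
    simp only [Set.mem_insert_iff, Set.mem_singleton_iff, not_or] at hz ⊢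
    constructor
    · intro h
      apply hz.2
      calc z.1 = (n * n) • z.1 := by rw [hnn, one_smul]
        _ = n • x := by rw [mul_smul, h]
        _ = y := hnx
    · intro h
      apply hz.1
      exact MulAction.injective n (h.trans hnx.symm)
  have hcomm : ∀ h : fixingSubgroup G ({x, y} : Set X), (h : G) * n = n * (h : G) := by
    intro h
    have hc : (h : G) * n * (h : G)⁻¹ ∈ N := ‹N.Normal›.conj_mem n hn h
    have : (h : G) * n * (h : G)⁻¹ = n := by
      apply reg_inj N (hreg x) hc hn
      rw [mul_smul, mul_smul, hnx]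
      have : (h : G)⁻¹ • x = x := by rw [inv_smul_eq_iff, hfixx]
      rw [this, hnx, hfixy]
    exact mul_inv_eq_iff_eq_mul.mp this
  have key := pair_block (H := fixingSubgroup G ({x, y} : Set X)) (Y := SubMulAction.ofFixingSubgroup G ({x, y} : Set X))
    (fun z => ⟨n • z.1, hτmem z⟩) ?_ ?_
  rotate_left
  · intro h z
    apply Subtype.ext
    change (h : G) • (n • z.1) = n • ((h : G) • z.1)
    rw [smul_smul, smul_smul, hcomm]
  · intro z
    apply Subtype.ext
    change n • (n • z.1) = z.1
    rw [smul_smul, hnn, one_smul]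
  obtain ⟨z, hz⟩ : ∃ z : X, z ∉ ({x, y} : Finset X) := by
    by_contra hcon
    push Not at hcon
    have : Fintype.card X ≤ ({x, y} : Finset X).card := by
      rw [← Finset.card_univ]
      exact Finset.card_le_card fun w _ => hcon w
    have h3 := Finset.card_le_two (a := x) (b := y)
    omega
  have hz' : z ∈ SubMulAction.ofFixingSubgroup G ({x, y} : Set X) := by
    rw [SubMulAction.mem_ofFixingSubgroup_iff]
    simpa using hz
  have hle : Fintype.card X ≤ 4 := by
    rcases key ⟨z, hz'⟩ with h | h
    · exfalso
      have h' : n • z = z := congrArg Subtype.val h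
      apply hn1
      exact reg_inj N (hreg z) hn N.one_mem (by rw [h', one_smul])
    · have hsub : (Finset.univ : Finset X) ⊆ {x, y, z, n • z} := by
        intro w _
        simp only [Finset.mem_insert, Finset.mem_singleton]
        by_cases hw : w ∈ ({x, y} : Set X)
        · simp only [Set.mem_insert_iff, Set.mem_singleton_iff] at hw
          tauto
        · rcases h ⟨w, hw⟩ with h4 | h4
          · exact Or.inr (Or.inr (Or.inl (congrArg Subtype.val h4)))
          · exact Or.inr (Or.inr (Or.inr (congrArg Subtype.val h4)))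
      rw [← Finset.card_univ]
      exact (Finset.card_le_card hsub).trans Finset.card_le_four
  omega

end Cfsg.Agent.S0696
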