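import Cfsg.Statements.S0700
import Cfsg.Agent.S0035
import Cfsg.Agent.Lib.Helper15.Frob

set_option autoImplicit false
open Cfsg

namespace Cfsg.Agent.S0700

open MulAction Subgroup

section Orb
variable {α : Type*} [Finite α]

theorem dvd_ncard_of_orbits {A : Type*} [Group A] [MulAction A α] (d : ℕ) :
    ∀ (k : ℕ) (X : Set α), X.ncard = k → (∀ g : A, ∀ x ∈ X, g • x ∈ X) →
      (∀ x ∈ X, d ∣ (orbit A x).ncard) → d ∣ k := by
  intro k
  induction k using Nat.strong_induction_on with
  | _ k ih =>
    intro X hX hinv hd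
    rcases X.eq_empty_or_nonempty with rfl | ⟨x, hx⟩
    · rw [Set.ncard_empty] at hX; rw [← hX]; exact dvd_zero d
    · have hsub : orbit A x ⊆ X := by
        rintro _ ⟨g, rfl⟩
        exact hinv g x hx
      have hadd := Set.ncard_sdiff_add_ncard_of_subset hsub (Set.toFinite X)
      have hpos : 0 < (orbit A x).ncard :=
        (Set.ncard_pos (Set.toFinite _)).2 ⟨x, mem_orbit_self x⟩
      have hlt : (X \ orbit A x).ncard < k := by omega
      have h1 := ih _ hlt (X \ orbit A x) rfl (by
        rintro g y ⟨hy1, hy2⟩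
        refine ⟨hinv g y hy1, fun hmem => hy2 ?_⟩
        have e1 : orbit A (g • y) = orbit A x := orbit_eq_iff.2 hmem
        rw [orbit_smul] at e1
        exact orbit_eq_iff.1 e1) (fun y hy => hd y hy.1)
      rw [← hX, ← hadd]
      exact dvd_add h1 (hd x hx)

end Orb

section W
variable {M : Type*} [Group M] [Finite M] {α : Type*} [Finite α] [MulAction M α]

theorem orbit_card (A : Subgroup M) (x : α) :
    (orbit A x).ncard * Nat.card ↥(A ⊓ stabilizer M x) = Nat.card A := by
  rw [← index_stabilizer]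
  have key : stabilizer A x = (stabilizer M x).subgroupOf A := by
    ext g
    simp only [mem_stabilizer_iff, mem_subgroupOf]
    rfl
  have e2 : Nat.card (stabilizer A x) = Nat.card ↥(A ⊓ stabilizer M x) := by
    rw [key, ← inf_subgroupOf_left (stabilizer M x) A]
    exact Nat.card_congr (subgroupOfEquivOfLe inf_le_left).toEquiv
  rw [← e2]
  exact (stabilizer A x).index_mul_card

theorem card_stab_eq [IsPretransitive M α] (x y : α) :
    Nat.card (stabilizer M x) = Nat.card (stabilizer M y) := by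
  have h1 := (stabilizer M x).index_mul_card
  have h2 := (stabilizer M y).index_mul_card
  rw [index_stabilizer_of_transitive] at h1 h2
  have : Nonempty α := ⟨x⟩
  exact Nat.eq_of_mul_eq_mul_left Nat.card_pos (h1.trans h2.symm)

theorem wielandt [Nontrivial α] [IsPretransitive M α] (hf : ∀ g : M, (∀ a : α, g • a = a) → g = 1)
    (c : ℕ) (hc : ∀ a b : α, a ≠ b → Nat.card ↥(stabilizer M a ⊓ stabilizer M b) = c) (a : α) :
    IsCoatom (stabilizer M a) ∨ c = 1 := by
  by_contra hcon
  push Not at hcon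
  obtain ⟨hnc, hc1⟩ := hcon
  have hStop : stabilizer M a ≠ ⊤ := by
    intro e
    obtain ⟨b, hb⟩ := exists_ne a
    obtain ⟨g, hg⟩ := exists_smul_eq M a b
    have h1 : g ∈ stabilizer M a := by rw [e]; trivial
    exact hb (by rw [← hg]; exact h1)
  obtain ⟨H, hSH, hHtop⟩ : ∃ H, stabilizer M a < H ∧ H ≠ ⊤ := by
    by_contra hno
    push Not at hno
    exact hnc ⟨hStop, hno⟩
  have hcpos : 0 < c := by
    obtain ⟨b, hb⟩ := exists_ne a
    rw [← hc a b hb.symm]
    exact Nat.card_pos
  obtain ⟨hle, h0, hh0H, hh0S⟩ := SetLike.lt_iff_le_and_exists.1 hSH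
  set B : Set α := orbit H a with hB
  have haB : a ∈ B := mem_orbit_self a
  have ha'B : h0 • a ∈ B := ⟨⟨h0, hh0H⟩, rfl⟩
  have ha'a : h0 • a ≠ a := fun e => hh0S (mem_stabilizer_iff.2 e)
  obtain ⟨x0, hx0⟩ : ∃ x, x ∉ H := by
    by_contra hno
    push Not at hno
    exact hHtop (eq_top_iff.2 (fun x _ => hno x))
  have hb0 : x0 • a ∉ B := by
    rintro ⟨⟨h, hh⟩, e⟩
    have e' : h • a = x0 • a := e
    apply hx0
    have h1 : h⁻¹ * x0 ∈ stabilizer M a := by
      rw [mem_stabilizer_iff, mul_smul, ← e', inv_smul_smul]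
    have h2 := H.mul_mem hh (hle h1)
    rwa [mul_inv_cancel_left] at h2
  have hSy : ∀ y ∈ B, stabilizer M y ≤ H := by
    rintro _ ⟨⟨h, hh⟩, rfl⟩ g hg
    have hg' : g • (h • a) = h • a := hg
    have h1 : h⁻¹ * g * h ∈ stabilizer M a := by
      rw [mem_stabilizer_iff, mul_smul, mul_smul, hg', inv_smul_smul]
    have h2 := H.mul_mem (H.mul_mem hh (hle h1)) (H.inv_mem hh)
    have e : h * (h⁻¹ * g * h) * h⁻¹ = g := by group
    rwa [e] at h2
  have h4 : ∀ y, y ≠ a → (orbit (stabilizer M a) y).ncard * c = Nat.card (stabilizer M a) := by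
    intro y hy
    have := orbit_card (stabilizer M a) y
    rwa [hc a y hy.symm] at this
  have key : ∀ b, b ∉ B → ∀ y ∈ B, stabilizer M y ⊓ stabilizer M b = H ⊓ stabilizer M b := by
    intro b hb
    have hyb : ∀ y ∈ B, y ≠ b := fun y hy e => hb (e ▸ hy)
    have h1 : ∀ y ∈ B, (H ⊓ stabilizer M b) ⊓ stabilizer M y
        = stabilizer M y ⊓ stabilizer M b := by
      intro y hy
      apply le_antisymm
      · intro g hg
        exact ⟨hg.2, hg.1.2⟩
      · intro g hg
        exact ⟨⟨hSy y hy hg.1, hg.2⟩, hg.1⟩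
    have h2 : ∀ y ∈ B, (orbit ↥(H ⊓ stabilizer M b) y).ncard * c
        = Nat.card ↥(H ⊓ stabilizer M b) := by
      intro y hy
      have := orbit_card (H ⊓ stabilizer M b) y
      rwa [h1 y hy, hc y b (hyb y hy)] at this
    have h3 : ∀ y ∈ B, (orbit ↥(H ⊓ stabilizer M b) y).ncard
        = (orbit ↥(H ⊓ stabilizer M b) a).ncard := fun y hy =>
      Nat.eq_of_mul_eq_mul_right hcpos ((h2 y hy).trans (h2 a haB).symm)
    have ht_m : (orbit ↥(H ⊓ stabilizer M b) a).ncard ∣ B.ncard :=
      dvd_ncard_of_orbits (A := ↥(H ⊓ stabilizer M b)) _ _ B rfl (by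
        rintro ⟨g, hg⟩ _ ⟨h, rfl⟩
        exact ⟨⟨g, hg.1⟩ * h, mul_smul g (h : M) a⟩) (fun y hy => (h3 y hy) ▸ dvd_rfl)
    have h5 : ∀ y, y ≠ a → (orbit (stabilizer M a) y).ncard
        = (orbit (stabilizer M a) (h0 • a)).ncard := fun y hy =>
      Nat.eq_of_mul_eq_mul_right hcpos ((h4 y hy).trans (h4 _ ha'a).symm)
    have hs_m : (orbit (stabilizer M a) (h0 • a)).ncard ∣ (B \ {a}).ncard :=
      dvd_ncard_of_orbits (A := stabilizer M a) _ _ (B \ {a}) rfl (by
        rintro ⟨g, hg⟩ y ⟨hy1, hy2⟩
        obtain ⟨h, rfl⟩ := hy1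
        refine ⟨⟨⟨g, hle hg⟩ * h, mul_smul g (h : M) a⟩, ?_⟩
        intro e
        apply hy2
        have e' : g • (h • a) = a := e
        have hg' : g • a = a := hg
        have : h • a = a := by
          have e2 : g • (h • a) = g • a := by rw [e', hg']
          exact (smul_left_cancel_iff g).1 e2
        exact this) (fun y hy => (h5 y hy.2) ▸ dvd_rfl)
    have ht_s : (orbit ↥(H ⊓ stabilizer M b) a).ncard ∣ (orbit (stabilizer M a) (h0 • a)).ncard := by
      have h6 : Nat.card ↥(H ⊓ stabilizer M b) ∣ Nat.card (stabilizer M b) :=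
        card_dvd_of_le inf_le_right
      rw [← h2 a haB, card_stab_eq b a, ← h4 _ ha'a] at h6
      exact Nat.dvd_of_mul_dvd_mul_right hcpos h6
    have hmpos : 0 < B.ncard := (Set.ncard_pos (Set.toFinite _)).2 ⟨a, haB⟩
    have ht1 : (orbit ↥(H ⊓ stabilizer M b) a).ncard = 1 := by
      have h7 := ht_s.trans hs_m
      rw [Set.ncard_diff_singleton_of_mem haB] at h7
      have hm : B.ncard = (B.ncard - 1) + 1 := by omega
      rw [hm] at ht_m
      exact Nat.dvd_one.1 ((Nat.dvd_add_right h7).1 ht_m)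
    have hcardHb : Nat.card ↥(H ⊓ stabilizer M b) = c := by
      rw [← h2 a haB, ht1, one_mul]
    intro y hy
    apply eq_of_le_of_card_ge
    · intro g hg
      exact ⟨hSy y hy hg.1, hg.2⟩
    · rw [hcardHb, hc y b (hyb y hy)]
  have hW : ∀ b, b ∉ B → stabilizer M a ⊓ stabilizer M (h0 • a) = H ⊓ stabilizer M b := by
    intro b hb
    symm
    apply eq_of_le_of_card_ge
    · apply le_inf
      · rw [← key b hb a haB]; exact inf_le_left
      · rw [← key b hb _ ha'B]; exact inf_le_left
    · rw [hc a _ ha'a.symm, ← key b hb a haB, hc a b (fun e => hb (e ▸ haB))]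
  have hWbot : stabilizer M a ⊓ stabilizer M (h0 • a) = ⊥ := by
    rw [eq_bot_iff]
    intro g hg
    rw [mem_bot]
    apply hf
    intro x
    by_cases hx : x ∈ B
    · rw [hW _ hb0, ← key _ hb0 x hx] at hg
      exact hg.1
    · rw [hW x hx] at hg
      exact hg.2
  apply hc1
  rw [← hc a _ ha'a.symm, hWbot]
  exact card_bot

end W

section Core
variable {G0 : Type*} [Group G0] {α : Type*} [MulAction G0 α] (N : Subgroup G0) [N.Normal]

theorem conj_smul (g : G0) (x : N) (a : α) :
    (MulAut.conjNormal g x) • (g • a) = g • (x • a) := by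
  show ((MulAut.conjNormal g x : N) : G0) • (g • a) = g • ((x : G0) • a)
  rw [MulAut.conjNormal_apply, smul_smul, smul_smul]
  congr 1
  group

theorem mem_stab_conj (g : G0) (x : N) (a : α) :
    MulAut.conjNormal g x ∈ stabilizer N (g • a) ↔ x ∈ stabilizer N a := by
  rw [mem_stabilizer_iff, mem_stabilizer_iff, conj_smul]
  exact smul_left_cancel_iff g

theorem min' (hmin : ∀ M : Subgroup G0, M.Normal → M ≤ N → M = ⊥ ∨ M = N) (M' : Subgroup N)
    (h : ∀ g : G0, ∀ x ∈ M', MulAut.conjNormal g x ∈ M') : M' = ⊥ ∨ M' = ⊤ := by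
  have hn : (M'.map N.subtype).Normal := ⟨by
    rintro _ ⟨x, hx, rfl⟩ g
    exact ⟨MulAut.conjNormal g x, h g x hx, MulAut.conjNormal_apply g x⟩⟩
  rcases hmin _ hn (map_subtype_le M') with e | e
  · left
    exact (map_eq_bot_iff_of_injective _ N.subtype_injective).1 e
  · right
    rw [eq_top_iff]
    intro x _
    have hx : (x : G0) ∈ M'.map N.subtype := by rw [e]; exact x.2
    obtain ⟨y, hy, hyx⟩ := hx
    have : y = x := Subtype.ext hyx
    rwa [← this]

end Core

theorem core {G0 : Type*} [Group G0] [Finite G0] {α : Type*} [Finite α] [MulAction G0 α]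
    (hf : ∀ g : G0, (∀ a : α, g • a = a) → g = 1)
    (h2 : ∀ a b c d : α, a ≠ b → c ≠ d → ∃ g : G0, g • a = c ∧ g • b = d)
    (N : Subgroup G0) [N.Normal] (hN : N ≠ ⊥)
    (hmin : ∀ M : Subgroup G0, M.Normal → M ≤ N → M = ⊥ ∨ M = N) :
    (IsMulCommutative N ∧ (∃ p : ℕ, p.Prime ∧ ∀ n ∈ N, n ^ p = 1) ∧
      ∀ a : α, MulAction.stabilizer N a = ⊥) ∨
    (IsSimpleGroup N ∧ MulAction.IsPreprimitive N α) := by
  classical
  have hfN : ∀ x : N, (∀ a : α, x • a = a) → x = 1 := fun x hx => Subtype.ext (hf x hx)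
  obtain ⟨n0, hn0N, hn01⟩ : ∃ n ∈ N, n ≠ 1 := by
    by_contra hcon
    push Not at hcon
    exact hN ((eq_bot_iff_forall N).2 hcon)
  have hNnt : Nontrivial N := ⟨⟨⟨n0, hn0N⟩, 1, fun e => hn01 (congrArg Subtype.val e)⟩⟩
  obtain ⟨a1, ha1⟩ : ∃ a : α, n0 • a ≠ a := by
    by_contra hcon
    push Not at hcon
    exact hn01 (hf n0 hcon)
  have hαnt : Nontrivial α := ⟨⟨n0 • a1, a1, ha1⟩⟩
  have h2' : IsMultiplyPretransitive G0 α 2 :=
    is_two_pretransitive_iff.2 (fun {a b c d} h h' => h2 a b c d h h')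
  have hprim : IsPreprimitive G0 α := isPreprimitive_of_is_two_pretransitive h2'
  have htr : IsPretransitive N α := by
    apply IsQuasiPreprimitive.isPretransitive_of_normal
    intro e
    apply ha1
    have h1 : a1 ∈ fixedPoints N α := by rw [e]; trivial
    exact h1 ⟨n0, hn0N⟩
  have hconst : ∀ a b c d : α, a ≠ b → c ≠ d →
      Nat.card ↥(stabilizer N a ⊓ stabilizer N b)
        = Nat.card ↥(stabilizer N c ⊓ stabilizer N d) := by
    intro a b c d hab hcd
    obtain ⟨g, rfl, rfl⟩ := h2 a b c d hab hcd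
    exact Nat.card_congr (Equiv.subtypeEquiv (MulAut.conjNormal g : MulAut N).toEquiv (fun x => by
      show x ∈ stabilizer N a ⊓ stabilizer N b ↔
        MulAut.conjNormal g x ∈ stabilizer N (g • a) ⊓ stabilizer N (g • b)
      rw [Subgroup.mem_inf, Subgroup.mem_inf, mem_stab_conj, mem_stab_conj]))
  obtain ⟨b1, hb1⟩ := exists_ne a1
  obtain ⟨c0, hc0⟩ : ∃ c0, c0 = Nat.card ↥(stabilizer N a1 ⊓ stabilizer N b1) := ⟨_, rfl⟩
  have hc : ∀ a b : α, a ≠ b → Nat.card ↥(stabilizer N a ⊓ stabilizer N b) = c0 :=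
    fun a b h => (hconst a b a1 b1 h hb1.symm).trans hc0.symm
  by_cases hreg : ∀ a : α, stabilizer N a = ⊥
  · left
    have hne : ∀ x : N, x ≠ 1 → a1 ≠ x • a1 := fun x hx e => hx (by
      have h1 : x ∈ stabilizer N a1 := e.symm
      rwa [hreg a1, mem_bot] at h1)
    have hconj : ∀ x y : N, x ≠ 1 → y ≠ 1 → ∃ g : G0, MulAut.conjNormal g x = y := by
      intro x y hx hy
      obtain ⟨g, hg1, hg2⟩ := h2 _ _ _ _ (hne x hx) (hne y hy)
      refine ⟨g, ?_⟩
      have h3 : (MulAut.conjNormal g x) • a1 = y • a1 := by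
        have h5 := conj_smul N g x a1
        rw [hg1] at h5
        rw [h5]; exact hg2
      have h4 : y⁻¹ * MulAut.conjNormal g x ∈ stabilizer N a1 := by
        rw [mem_stabilizer_iff, mul_smul, h3, inv_smul_smul]
      rw [hreg a1, mem_bot] at h4
      exact (eq_of_inv_mul_eq_one h4).symm
    have hcard1 : Nat.card N ≠ 1 := by
      intro e
      have := (Nat.card_eq_one_iff_unique.1 e).1
      exact hn01 (congrArg Subtype.val (Subsingleton.elim (⟨n0, hn0N⟩ : N) 1))
    obtain ⟨p, hp, hpd⟩ := Nat.exists_prime_and_dvd hcard1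
    haveI : Fact p.Prime := ⟨hp⟩
    obtain ⟨x0, hx0⟩ := exists_prime_orderOf_dvd_card' (G := N) p hpd
    have hx01 : x0 ≠ 1 := by
      rintro rfl
      rw [orderOf_one] at hx0
      exact hp.one_lt.ne hx0
    have hpow : ∀ y : N, y ^ p = 1 := by
      intro y
      by_cases hy : y = 1
      · rw [hy, one_pow]
      · obtain ⟨g, rfl⟩ := hconj x0 y hx01 hy
        have h6 : x0 ^ p = 1 := by rw [← hx0]; exact pow_orderOf_eq_one x0
        rw [← map_pow, h6, map_one]
    have hPG : IsPGroup p N := fun y => ⟨1, by rw [pow_one]; exact hpow y⟩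
    have hcen : center N = ⊤ := by
      rcases min' N hmin (center N) (by
        intro g x hx
        rw [mem_center_iff] at hx ⊢
        intro y
        obtain ⟨z, rfl⟩ := (MulAut.conjNormal g : MulAut N).surjective y
        rw [← map_mul, ← map_mul, hx z]) with e | e
      · exact absurd e ((Subgroup.nontrivial_iff_ne_bot _).1 hPG.center_nontrivial)
      · exact e
    refine ⟨⟨⟨fun x y => ?_⟩⟩, ⟨p, hp, fun n hn => ?_⟩, hreg⟩
    · have h7 : y ∈ center N := by rw [hcen]; trivial
      exact mem_center_iff.1 h7 x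
    · have h8 := congrArg Subtype.val (hpow ⟨n, hn⟩)
      simpa using h8
  · right
    push Not at hreg
    obtain ⟨a0, ha0⟩ := hreg
    have hStop : stabilizer N a0 ≠ ⊤ := by
      intro e
      obtain ⟨b, hb⟩ := exists_ne a0
      obtain ⟨g, hg⟩ := exists_smul_eq N a0 b
      have h1 : g ∈ stabilizer N a0 := by rw [e]; trivial
      exact hb (by rw [← hg]; exact h1)
    have hco : IsCoatom (stabilizer N a0) := by
      rcases wielandt hfN c0 hc a0 with h | h
      · exact h
      · exfalso
        have htriv : ∀ a b : α, a ≠ b → stabilizer N a ⊓ stabilizer N b = ⊥ := fun a b hab =>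
          card_eq_one.1 ((hc a b hab).trans h)
        have hF : Cfsg.IsFrobeniusComplement (stabilizer N a0) := by
          refine ⟨ha0, hStop, fun g hg => ?_⟩
          rw [eq_bot_iff, ← htriv a0 (g • a0) (fun e => hg e.symm)]
          intro x hx
          obtain ⟨hx1, hx2⟩ := Subgroup.mem_inf.1 hx
          rw [Cfsg.Agent.Lib.Helper15.mem_conj_smul_iff] at hx2
          refine Subgroup.mem_inf.2 ⟨hx1, ?_⟩
          rw [mem_stabilizer_iff] at hx2 ⊢
          calc x • g • a0 = g • ((g⁻¹ * x * g) • a0) := by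
                rw [smul_smul, smul_smul]; congr 1; group
            _ = g • a0 := by rw [hx2]
        obtain ⟨K, hKset, hKn, hKc⟩ := Cfsg.Agent.S0035.result _ hF
        have hKiff : ∀ x : N, x ∈ K ↔ x = 1 ∨ ∀ b : α, x • b ≠ b := by
          intro x
          rw [← SetLike.mem_coe, hKset, Cfsg.Agent.Lib.Helper15.mem_frobeniusKernel_iff]
          constructor
          · rintro (h1 | h1)
            · exact Or.inl h1
            · right
              intro b hb
              obtain ⟨g, rfl⟩ := exists_smul_eq N a0 b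
              apply h1 g
              rw [mem_stabilizer_iff, mul_smul, mul_smul, hb, inv_smul_smul]
          · rintro (h1 | h1)
            · exact Or.inl h1
            · right
              intro g hg
              apply h1 (g • a0)
              rw [mem_stabilizer_iff, mul_smul, mul_smul, inv_smul_eq_iff] at hg
              exact hg
        rcases min' N hmin K (by
          intro g x hx
          rw [hKiff] at hx ⊢
          rcases hx with rfl | hx
          · left; exact map_one _
          · right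
            intro b hb
            apply hx (g⁻¹ • b)
            have h5 := conj_smul N g x (g⁻¹ • b)
            rw [smul_inv_smul, hb] at h5
            exact eq_inv_smul_iff.2 h5.symm) with e | e
        · rw [e] at hKc; exact hStop (isComplement'_bot_left.1 hKc)
        · rw [e] at hKc; exact ha0 (isComplement'_top_left.1 hKc)
    have hprimN : IsPreprimitive N α := (isCoatom_stabilizer_iff_preprimitive N a0).1 hco
    refine ⟨?_, hprimN⟩
    refine { toNontrivial := hNnt, eq_bot_or_eq_top_of_normal := ?_ }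
    intro L hLn
    by_contra hL
    push Not at hL
    obtain ⟨hLbot, hLtop⟩ := hL
    obtain ⟨T, hT⟩ := exists_minimal_of_wellFoundedLT
      (fun T : Subgroup N => T.Normal ∧ T ≠ ⊥ ∧ T ≤ L) ⟨L, hLn, hLbot, le_rfl⟩
    obtain ⟨⟨hTn, hTbot, hTL⟩, hTmin⟩ := hT
    have htrans : ∀ S : Subgroup N, S.Normal → S ≠ ⊥ → ∀ a b : α, ∃ s ∈ S, s • a = b := by
      intro S hSn hSbot a b
      haveI := hSn
      have : IsPretransitive S α := by
        apply IsQuasiPreprimitive.isPretransitive_of_normal
        intro e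
        apply hSbot
        rw [eq_bot_iff_forall]
        intro s hs
        apply hfN
        intro a'
        have h1 : a' ∈ fixedPoints S α := by rw [e]; trivial
        exact h1 ⟨s, hs⟩
      obtain ⟨s, hs⟩ := exists_smul_eq S a b
      exact ⟨s.1, s.2, hs⟩
    have hsemi : ∀ S : Subgroup N, (∀ a b : α, ∃ s ∈ S, s • a = b) → ∀ u : N,
        (∀ s ∈ S, s * u = u * s) → ∀ a : α, u • a = a → u = 1 := by
      intro S hS u hu a hua
      apply hfN
      intro b
      obtain ⟨s, hs, rfl⟩ := hS a b
      rw [← mul_smul, ← hu s hs, mul_smul, hua]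
    have hcard_le : ∀ S : Subgroup N, (∀ s ∈ S, s • a0 = a0 → s = 1) →
        Nat.card S ≤ Nat.card α := by
      intro S hS
      apply Nat.card_le_card_of_injective (fun s : S => (s : N) • a0)
      intro s t hst
      have hst' : (s : N) • a0 = (t : N) • a0 := hst
      have h1 : ((s : N)⁻¹ * t) • a0 = a0 := by rw [mul_smul, ← hst', inv_smul_smul]
      have h2 := hS _ (S.mul_mem (S.inv_mem s.2) t.2) h1
      exact Subtype.ext (eq_of_inv_mul_eq_one h2)
    have hcard_ge : ∀ S : Subgroup N, (∀ a b : α, ∃ s ∈ S, s • a = b) →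
        Nat.card α ≤ Nat.card S := by
      intro S hS
      apply Nat.card_le_card_of_surjective (fun s : S => (s : N) • a0)
      intro b
      obtain ⟨s, hs, rfl⟩ := hS a0 b
      exact ⟨⟨s, hs⟩, rfl⟩
    let Φ : G0 → Subgroup N := fun g => T.map (MulAut.conjNormal g : MulAut N).toMonoidHom
    have hΦn : ∀ g, (Φ g).Normal := fun g => hTn.map _ (MulEquiv.surjective _)
    have hΦbot : ∀ g, Φ g ≠ ⊥ := fun g e =>
      hTbot ((map_eq_bot_iff_of_injective _ (MulEquiv.injective _)).1 e)
    have hΦcard : ∀ g, Nat.card (Φ g) = Nat.card T := fun g =>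
      card_map_of_injective (MulEquiv.injective _)
    have hΦmem : ∀ g t, t ∈ T → MulAut.conjNormal g t ∈ Φ g := fun g t ht => ⟨t, ht, rfl⟩
    obtain ⟨g, hg⟩ : ∃ g, Φ g ≠ T := by
      by_contra hcon
      push Not at hcon
      rcases min' N hmin T (fun g x hx => by rw [← hcon g]; exact hΦmem g x hx) with e | e
      · exact hTbot e
      · exact hLtop (eq_top_iff.2 (e ▸ hTL))
    have hdisj : ∀ h, Φ h ≠ T → T ⊓ Φ h = ⊥ := by
      intro h hh
      by_contra hne
      haveI := hTn
      haveI := hΦn h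
      have hle : T ≤ T ⊓ Φ h := hTmin ⟨inferInstance, hne, inf_le_left.trans hTL⟩ inf_le_left
      apply hh
      exact (eq_of_le_of_card_ge (hle.trans inf_le_right) (hΦcard h).le).symm
    have hcomm : ∀ h, Φ h ≠ T → ∀ t ∈ T, ∀ u ∈ Φ h, t * u = u * t := fun h hh t ht u hu =>
      (commute_of_normal_of_disjoint T (Φ h) hTn (hΦn h) (disjoint_iff.2 (hdisj h hh)) t u ht hu).eq
    have hTtr := htrans T hTn hTbot
    have hT'tr := htrans (Φ g) (hΦn g) (hΦbot g)
    have cardT : Nat.card T = Nat.card α := le_antisymm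
      (hcard_le T (fun t ht h => hsemi (Φ g) hT'tr t (fun s hs => (hcomm g hg t ht s hs).symm) a0 h))
      (hcard_ge T hTtr)
    have cardC : Nat.card (centralizer (T : Set N)) ≤ Nat.card α :=
      hcard_le _ (fun u hu h => hsemi T hTtr u (fun s hs => mem_centralizer_iff.1 hu s hs) a0 h)
    have hΦeq : ∀ h, Φ h ≠ T → Φ h = centralizer (T : Set N) := by
      intro h hh
      apply eq_of_le_of_card_ge
      · intro u hu
        exact mem_centralizer_iff.2 (fun t ht => hcomm h hh t ht u hu)
      · rw [hΦcard, cardT]; exact cardC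
    have hΦ2 : ∀ h, Φ h = T ∨ Φ h = Φ g := by
      intro h
      by_cases hh : Φ h = T
      · exact Or.inl hh
      · exact Or.inr ((hΦeq h hh).trans (hΦeq g hg).symm)
    have hU : T ⊔ Φ g = ⊤ := by
      rcases min' N hmin (T ⊔ Φ g) (by
        intro h x hx
        haveI := hTn
        obtain ⟨t, ht, u, hu, rfl⟩ := mem_sup_of_normal_left.1 hx
        rw [map_mul]
        apply mul_mem
        · rcases hΦ2 h with e | e
          · exact le_sup_left (a := T) (e ▸ hΦmem h t ht)
          · exact le_sup_right (b := Φ g) (e ▸ hΦmem h t ht)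
        · obtain ⟨t', ht', rfl⟩ := hu
          have e1 : MulAut.conjNormal h ((MulAut.conjNormal g : MulAut N).toMonoidHom t')
              = MulAut.conjNormal (h * g) t' := by
            rw [map_mul]; rfl
          rw [e1]
          rcases hΦ2 (h * g) with e | e
          · exact le_sup_left (a := T) (e ▸ hΦmem (h * g) t' ht')
          · exact le_sup_right (b := Φ g) (e ▸ hΦmem (h * g) t' ht')) with e | e
      · exact absurd (le_bot_iff.1 (e ▸ (le_sup_left : T ≤ T ⊔ Φ g))) hTbot
      · exact e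
    haveI := hTn
    have hidx : Nat.card (Φ g) = T.index := by
      rw [← relIndex_top_right, ← hU, relIndex_sup_left, ← inf_relIndex_right, hdisj g hg,
        relIndex_bot_left]
    have hcN : Nat.card N = Nat.card α * Nat.card α := by
      rw [← T.card_mul_index, ← hidx, hΦcard, cardT]
    have hnpos : 0 < Nat.card α := Nat.card_pos
    have cardS : Nat.card (stabilizer N a0) = Nat.card α := by
      have h1 := (stabilizer N a0).index_mul_card
      rw [index_stabilizer_of_transitive, hcN] at h1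
      exact Nat.eq_of_mul_eq_mul_left hnpos h1
    have h4 : ∀ y, y ≠ a0 → (orbit (stabilizer N a0) y).ncard * c0 = Nat.card α := by
      intro y hy
      have := orbit_card (stabilizer N a0) y
      rwa [hc a0 y hy.symm, cardS] at this
    obtain ⟨b0, hb0⟩ := exists_ne a0
    have hc0pos : 0 < c0 := by
      rw [← hc a0 b0 hb0.symm]; exact Nat.card_pos
    have h5 : ∀ y, y ≠ a0 → (orbit (stabilizer N a0) y).ncard
        = (orbit (stabilizer N a0) b0).ncard := fun y hy =>
      Nat.eq_of_mul_eq_mul_right hc0pos ((h4 y hy).trans (h4 b0 hb0).symm)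
    have hs1 : (orbit (stabilizer N a0) b0).ncard ∣ ({a0}ᶜ : Set α).ncard :=
      dvd_ncard_of_orbits (A := stabilizer N a0) _ _ ({a0}ᶜ : Set α) rfl (by
        rintro ⟨x, hx⟩ y hy e
        apply hy
        have e' : x • y = a0 := e
        have hx' : x • a0 = a0 := hx
        have e2 : x • y = x • a0 := by rw [e', hx']
        exact (smul_left_cancel_iff x).1 e2) (fun y hy => (h5 y hy) ▸ dvd_rfl)
    have hs2 : (orbit (stabilizer N a0) b0).ncard ∣ Nat.card α := Dvd.intro _ (h4 b0 hb0)
    have hs : (orbit (stabilizer N a0) b0).ncard = 1 := by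
      rw [Set.ncard_compl, Set.ncard_singleton] at hs1
      have hm : Nat.card α = (Nat.card α - 1) + 1 := by omega
      rw [hm] at hs2
      exact Nat.dvd_one.1 ((Nat.dvd_add_right hs1).1 hs2)
    have hc0n : c0 = Nat.card α := by
      have := h4 b0 hb0
      rwa [hs, one_mul] at this
    apply ha0
    rw [eq_bot_iff_forall]
    intro x hx
    apply hfN
    intro y
    by_cases hy : y = a0
    · rw [hy]; exact hx
    · have h6 : stabilizer N a0 ⊓ stabilizer N y = stabilizer N a0 :=
        eq_of_le_of_card_ge inf_le_left (by rw [hc a0 y (Ne.symm hy), cardS, hc0n])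
      rw [← h6] at hx
      exact hx.2

/-- Burnside's Theorem on doubly transitive groups: a minimal normal subgroup of a finite doubly transitive permutation group is elementary abelian and regular, or simple and primitive. -/
theorem result {α : Type*} [Fintype α] [DecidableEq α] (G : Subgroup (Equiv.Perm α)) (hG : MulAction.IsMultiplyPretransitive G α 2) (N : Subgroup G) [N.Normal] (hN : N ≠ ⊥) (hmin : ∀ M : Subgroup G, M.Normal → M ≤ N → M = ⊥ ∨ M = N) : (IsMulCommutative N ∧ (∃ p : ℕ, p.Prime ∧ ∀ n ∈ N, n ^ p = 1) ∧ ∀ a : α, MulAction.stabilizer N a = ⊥) ∨ (IsSimpleGroup N ∧ MulAction.IsPreprimitive N α) := by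
  have hf : ∀ g : G, (∀ a : α, g • a = a) → g = 1 := fun g hg =>
    Subtype.ext (Equiv.ext (fun a => hg a))
  exact core hf (fun a b c d h h' => (MulAction.is_two_pretransitive_iff.1 hG) h h') N hN hmin

end Cfsg.Agent.S0700
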