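import Cfsg.Statements.S0701
import Cfsg.Agent.Lib.Helper6.PermCentralizer

set_option autoImplicit false
open Cfsg

namespace Cfsg.Agent.S0701

open Cfsg.Agent.Lib.Helper6 MulAction

/-- The centraliser in the full symmetric group of a transitive permutation group `G` is semiregular, and it is transitive if and only if `G` is regular. -/
theorem result {α : Type*} (G : Subgroup (Equiv.Perm α)) [MulAction.IsPretransitive G α] : (∀ c ∈ Subgroup.centralizer (G : Set (Equiv.Perm α)), ∀ a : α, c a = a → c = 1) ∧ (MulAction.IsPretransitive (Subgroup.centralizer (G : Set (Equiv.Perm α))) α ↔ ∀ a : α, MulAction.stabilizer G a = ⊥) := by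
  refine ⟨fun c hc a ha => centralizer_semiregular G hc ha, ?_, ?_⟩
  · intro htr a
    refine (Subgroup.eq_bot_iff_forall _).mpr fun n hn => ?_
    have hn' : (n : Equiv.Perm α) ∈ Subgroup.centralizer
        ((Subgroup.centralizer (G : Set (Equiv.Perm α)) : Subgroup (Equiv.Perm α)) :
          Set (Equiv.Perm α)) := Set.subset_centralizer_centralizer (S := (G : Set (Equiv.Perm α))) n.2
    have := centralizer_semiregular (Subgroup.centralizer (G : Set (Equiv.Perm α))) hn' (a := a) hn
    exact Subtype.ext this
  · intro hreg
    refine ⟨fun a b => ?_⟩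
    have hbij : ∀ x : α, Function.Bijective (fun g : G => g • x) := by
      intro x
      constructor
      · intro k l hkl
        have : l⁻¹ * k ∈ MulAction.stabilizer G x := by
          rw [MulAction.mem_stabilizer_iff, mul_smul]
          simp only at hkl
          rw [hkl, inv_smul_smul]
        rw [hreg x, Subgroup.mem_bot] at this
        exact (inv_mul_eq_one.mp this).symm
      · intro c
        exact MulAction.exists_smul_eq G x c
    let ea : G ≃ α := Equiv.ofBijective _ (hbij a)
    let eb : G ≃ α := Equiv.ofBijective _ (hbij b)
    let c : Equiv.Perm α := ea.symm.trans eb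
    have hc : c ∈ Subgroup.centralizer (G : Set (Equiv.Perm α)) := by
      rw [Subgroup.mem_centralizer_iff]
      intro h hh
      ext x
      obtain ⟨g, rfl⟩ := ea.surjective x
      have h1 : h (ea g) = ea (⟨h, hh⟩ * g) := by
        simp only [ea, Equiv.ofBijective_apply, mul_smul]
        rfl
      simp only [Equiv.Perm.mul_apply, c, Equiv.trans_apply, h1, Equiv.symm_apply_apply]
      simp only [eb, Equiv.ofBijective_apply, mul_smul]
      rfl
    refine ⟨⟨c, hc⟩, ?_⟩
    have h1 : ea 1 = a := by simp [ea]
    have h2 : eb 1 = b := by simp [eb]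
    change c a = b
    simp only [c, Equiv.trans_apply]
    rw [← h1, Equiv.symm_apply_apply, h2]

end Cfsg.Agent.S0701
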