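import Cfsg.Statements.S0702
import Mathlib

set_option autoImplicit false
open Cfsg

namespace Cfsg.Agent.S0702

open MulAction

section
variable {α : Type*} (G : Subgroup (Equiv.Perm α)) [MulAction.IsPretransitive G α] (a : α)

/-- the map `g • a ↦ g • n⁻¹ • a` -/
noncomputable def cmap (n : G) (x : α) : α :=
  (Classical.choose (exists_smul_eq G a x)) • (n⁻¹ • a)

theorem cmap_spec (n : G) (hn : n ∈ Subgroup.normalizer ((stabilizer G a : Subgroup G) : Set G))
    (g : G) : cmap G a n (g • a) = g • n⁻¹ • a := by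
  unfold cmap
  have h := Classical.choose_spec (exists_smul_eq G a (g • a))
  set g' := Classical.choose (exists_smul_eq G a (g • a)) with hg'
  have h1 : g⁻¹ * g' ∈ stabilizer G a := by
    rw [mem_stabilizer_iff, mul_smul, h, inv_smul_smul]
  have h2 := (Subgroup.mem_normalizer_iff.mp hn _).mp h1
  rw [mem_stabilizer_iff] at h2
  have h3 : n⁻¹ • (n * (g⁻¹ * g') * n⁻¹) • a = n⁻¹ • a := by rw [h2]
  rw [← mul_smul] at h3
  have h4 : g • (n⁻¹ * (n * (g⁻¹ * g') * n⁻¹)) • a = g • n⁻¹ • a := by rw [h3]
  rw [← mul_smul] at h4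
  rw [← h4, ← mul_smul]
  congr 1
  group

noncomputable def endHom :
    Subgroup.normalizer ((stabilizer G a : Subgroup G) : Set G) →* Function.End α where
  toFun n := cmap G a n
  map_one' := by
    funext x
    obtain ⟨g, rfl⟩ := exists_smul_eq G a x
    change cmap G a (1 : G) (g • a) = g • a
    rw [cmap_spec G a _ (Subgroup.one_mem _)]
    simp
  map_mul' n m := by
    funext x
    obtain ⟨g, rfl⟩ := exists_smul_eq G a x
    change cmap G a (n * m : G) (g • a) = cmap G a n (cmap G a m (g • a))
    rw [cmap_spec G a _ (Subgroup.mul_mem _ n.2 m.2), cmap_spec G a _ m.2,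
      ← mul_smul g (m : G)⁻¹ a, cmap_spec G a _ n.2, mul_inv_rev, mul_smul, mul_smul]

theorem toHomPerm_apply (n : Subgroup.normalizer ((stabilizer G a : Subgroup G) : Set G)) (g : G) :
    (endHom G a).toHomPerm n (g • a) = g • (n : G)⁻¹ • a :=
  cmap_spec G a n n.2 g

theorem mem_centralizer (n : Subgroup.normalizer ((stabilizer G a : Subgroup G) : Set G)) :
    (endHom G a).toHomPerm n ∈ Subgroup.centralizer (G : Set (Equiv.Perm α)) := by
  rw [Subgroup.mem_centralizer_iff]
  intro h hh
  ext x
  obtain ⟨g, rfl⟩ := exists_smul_eq G a x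
  rw [Equiv.Perm.mul_apply, Equiv.Perm.mul_apply, toHomPerm_apply]
  have : h (g • a) = ((⟨h, hh⟩ : G) * g) • a := by rw [mul_smul]; rfl
  rw [this, toHomPerm_apply, mul_smul]
  rfl

noncomputable def psi : Subgroup.normalizer ((stabilizer G a : Subgroup G) : Set G) →*
    Subgroup.centralizer (G : Set (Equiv.Perm α)) :=
  ((endHom G a).toHomPerm).codRestrict _ (mem_centralizer G a)

theorem comm_apply {c : Equiv.Perm α} (hc : c ∈ Subgroup.centralizer (G : Set (Equiv.Perm α)))
    (g : G) (x : α) : c (g • x) = g • c x := by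
  rw [Subgroup.mem_centralizer_iff] at hc
  have := congrArg (fun f : Equiv.Perm α => f x) (hc g g.2)
  exact this.symm

theorem psi_ker : (psi G a).ker = (stabilizer G a).subgroupOf
    (Subgroup.normalizer ((stabilizer G a : Subgroup G) : Set G)) := by
  ext n
  rw [MonoidHom.mem_ker, Subgroup.mem_subgroupOf, mem_stabilizer_iff]
  constructor
  · intro h
    have h1 : (endHom G a).toHomPerm n = 1 := congrArg Subtype.val h
    have h2 := toHomPerm_apply G a n 1
    rw [h1] at h2
    simp only [one_smul, Equiv.Perm.coe_one, id_eq] at h2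
    rw [eq_inv_smul_iff] at h2
    exact h2
  · intro h
    apply Subtype.ext
    change (endHom G a).toHomPerm n = 1
    ext x
    obtain ⟨g, rfl⟩ := exists_smul_eq G a x
    rw [toHomPerm_apply, inv_smul_eq_iff.mpr h.symm]
    rfl

theorem exists_psi_eq {c : Equiv.Perm α} (hc : c ∈ Subgroup.centralizer (G : Set (Equiv.Perm α))) :
    ∃ n, psi G a n = ⟨c, hc⟩ := by
  obtain ⟨k, hk⟩ := exists_smul_eq G a (c a)
  have hn : k⁻¹ ∈ Subgroup.normalizer ((stabilizer G a : Subgroup G) : Set G) := by
    rw [Subgroup.mem_normalizer_iff]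
    intro h
    rw [mem_stabilizer_iff, mem_stabilizer_iff, inv_inv, mul_smul, mul_smul, hk,
      inv_smul_eq_iff, hk, ← comm_apply G hc]
    exact ⟨fun h' => by rw [h'], fun h' => c.injective h'⟩
  refine ⟨⟨k⁻¹, hn⟩, ?_⟩
  apply Subtype.ext
  change (endHom G a).toHomPerm ⟨k⁻¹, hn⟩ = c
  ext x
  obtain ⟨g, rfl⟩ := exists_smul_eq G a x
  rw [toHomPerm_apply, inv_inv, hk, comm_apply G hc]

end

/-- For a transitive permutation group `G` on a finite set, the centraliser of `G` in the symmetric group is isomorphic to `N_G(G_ω)/G_ω`, and its orbit of `ω` is the set of fixed points of `G_ω`. -/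
theorem result {α : Type*} [Finite α] (G : Subgroup (Equiv.Perm α)) [MulAction.IsPretransitive G α] (a : α) : Nonempty (Subgroup.centralizer (G : Set (Equiv.Perm α)) ≃* Subgroup.normalizer ((MulAction.stabilizer G a : Subgroup G) : Set G) ⧸ (MulAction.stabilizer G a).subgroupOf (Subgroup.normalizer ((MulAction.stabilizer G a : Subgroup G) : Set G))) ∧ MulAction.orbit (Subgroup.centralizer (G : Set (Equiv.Perm α))) a = MulAction.fixedPoints (MulAction.stabilizer G a) α := by
  constructor
  · have hsurj : Function.Surjective (psi G a) := fun c => exists_psi_eq G a c.2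
    exact ⟨((QuotientGroup.quotientMulEquivOfEq (psi_ker G a)).symm.trans
      (QuotientGroup.quotientKerEquivOfSurjective (psi G a) hsurj)).symm⟩
  · ext x
    constructor
    · rintro ⟨c, rfl⟩ s
      change (s : G) • (c : Equiv.Perm α) a = (c : Equiv.Perm α) a
      rw [← comm_apply G c.2, s.2]
    · intro hx
      obtain ⟨k, rfl⟩ := exists_smul_eq G a x
      have hle : stabilizer G a ≤ (stabilizer G a).map (MulAut.conj k).toMonoidHom := by
        rw [← stabilizer_smul_eq_stabilizer_map_conj]
        intro s hs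
        exact hx ⟨s, hs⟩
      have heq : stabilizer G a = (stabilizer G a).map (MulAut.conj k).toMonoidHom := by
        apply Subgroup.eq_of_le_of_card_ge hle
        rw [Subgroup.card_map_of_injective (MulAut.conj k).injective]
      have hk : k ∈ Subgroup.normalizer ((stabilizer G a : Subgroup G) : Set G) := by
        rw [Subgroup.mem_normalizer_iff_map_conj_eq]
        exact heq.symm
      refine ⟨psi G a ⟨k⁻¹, Subgroup.inv_mem _ hk⟩, ?_⟩
      change (endHom G a).toHomPerm ⟨k⁻¹, Subgroup.inv_mem _ hk⟩ a = k • a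
      have := toHomPerm_apply G a ⟨k⁻¹, Subgroup.inv_mem _ hk⟩ 1
      simpa using this

end Cfsg.Agent.S0702
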