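import Cfsg.Statements.S0703
import Cfsg.Agent.Lib.Helper6.PermCentralizer

set_option autoImplicit false
open Cfsg

namespace Cfsg.Agent.S0703

open Cfsg.Agent.Lib.Helper6 MulAction

/-- An abelian transitive minimal normal subgroup `M` of a permutation group on a finite set is self-centralising in the symmetric group, regular, elementary abelian, and is the unique minimal normal subgroup. -/
theorem result {α : Type*} [Finite α] (G : Subgroup (Equiv.Perm α)) (M : Subgroup G) [M.Normal] (hM : M ≠ ⊥) (hmin : ∀ L : Subgroup G, L.Normal → L ≤ M → L = ⊥ ∨ L = M) (hab : IsMulCommutative M) (htrans : MulAction.IsPretransitive M α) : Subgroup.centralizer ((M.map G.subtype : Subgroup (Equiv.Perm α)) : Set (Equiv.Perm α)) = M.map G.subtype ∧ (∀ a : α, MulAction.stabilizer M a = ⊥) ∧ (∃ p : ℕ, p.Prime ∧ ∀ m ∈ M, m ^ p = 1) ∧ ∀ L : Subgroup G, L.Normal → L ≠ ⊥ → (∀ L' : Subgroup G, L'.Normal → L' ≤ L → L' = ⊥ ∨ L' = L) → L = M := by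
  have hcomm : ∀ m₁ ∈ M, ∀ m₂ ∈ M, m₁ * m₂ = m₂ * m₁ := by
    intro m₁ h₁ m₂ h₂
    have := hab.is_comm.comm ⟨m₁, h₁⟩ ⟨m₂, h₂⟩
    exact congrArg Subtype.val this
  have htr' : IsPretransitive (M.map G.subtype) α := isPretransitive_map_subtype G M htrans
  have hle : M.map G.subtype ≤ Subgroup.centralizer
      ((M.map G.subtype : Subgroup (Equiv.Perm α)) : Set (Equiv.Perm α)) := by
    rintro _ ⟨l, hl, rfl⟩
    rw [Subgroup.mem_centralizer_iff]
    rintro _ ⟨m, hm, rfl⟩
    exact congrArg Subtype.val (hcomm m hm l hl)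
  have hcent := centralizer_eq_of_transitive (M.map G.subtype) (M.map G.subtype) hle
  refine ⟨hcent, fun a => stabilizer_eq_bot_of_map_le_centralizer G _ M hle a, ?_, ?_⟩
  · have hcard : Nat.card M ≠ 1 := by
      intro h
      apply hM
      rw [Subgroup.card_eq_one] at h
      exact h
    let p := (Nat.card M).minFac
    have hp : p.Prime := Nat.minFac_prime hcard
    haveI : Fact p.Prime := ⟨hp⟩
    obtain ⟨x, hx⟩ := exists_prime_orderOf_dvd_card' (G := M) p (Nat.minFac_dvd _)
    let K : Subgroup G :=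
      { carrier := {m | m ∈ M ∧ m ^ p = 1}
        one_mem' := ⟨M.one_mem, one_pow _⟩
        mul_mem' := by
          rintro a b ⟨ha, ha'⟩ ⟨hb, hb'⟩
          refine ⟨M.mul_mem ha hb, ?_⟩
          rw [(show Commute a b from hcomm a ha b hb).mul_pow, ha', hb', one_mul]
        inv_mem' := by
          rintro a ⟨ha, ha'⟩
          exact ⟨M.inv_mem ha, by rw [inv_pow, ha', inv_one]⟩ }
    have hKn : K.Normal := by
      refine ⟨fun n hn g => ?_⟩
      refine ⟨(inferInstance : M.Normal).conj_mem n hn.1 g, ?_⟩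
      rw [conj_pow, hn.2]; simp
    have hKle : K ≤ M := fun m hm => hm.1
    rcases hmin K hKn hKle with h | h
    · exfalso
      have hxK : (x : G) ∈ K := by
        refine ⟨x.2, ?_⟩
        have := pow_orderOf_eq_one x
        rw [hx] at this
        exact congrArg Subtype.val this
      rw [h, Subgroup.mem_bot] at hxK
      have : x = 1 := Subtype.ext hxK
      rw [this, orderOf_one] at hx
      exact hp.one_lt.ne hx
    · refine ⟨p, hp, fun m hm => ?_⟩
      rw [← h] at hm
      exact hm.2
  · intro L hLn hL hLmin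
    by_contra hne
    have hinf := inf_eq_bot_of_minimal M L hL hmin hLmin hne
    have h1 := map_le_centralizer_map G M L hinf
    rw [hcent] at h1
    have h2 : L ≤ M := by
      intro l hl
      obtain ⟨m, hm, hml⟩ := h1 ⟨l, hl, rfl⟩
      have : m = l := Subtype.ext hml
      rw [← this]; exact hm
    apply hL
    rw [← hinf]
    exact (inf_eq_right.mpr h2).symm

end Cfsg.Agent.S0703
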