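import Cfsg.Statements.S0704
import Cfsg.Agent.Lib.Helper6.PermCentralizer

set_option autoImplicit false
open Cfsg

namespace Cfsg.Agent.S0704

open Cfsg.Agent.Lib.Helper6 MulAction

theorem bij_of_regular {H α : Type*} [Group H] [MulAction H α] [IsPretransitive H α]
    (hreg : ∀ a : α, stabilizer H a = ⊥) (x : α) : Function.Bijective (fun g : H => g • x) := by
  constructor
  · intro k l hkl
    have : l⁻¹ * k ∈ MulAction.stabilizer H x := by
      rw [MulAction.mem_stabilizer_iff, mul_smul]
      simp only at hkl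
      rw [hkl, inv_smul_smul]
    rw [hreg x, Subgroup.mem_bot] at this
    exact (inv_mul_eq_one.mp this).symm
  · intro c
    exact MulAction.exists_smul_eq H x c

/-- Two distinct transitive minimal normal subgroups `M`, `N` of a permutation group are regular, non-abelian, isomorphic, each other's centraliser in the symmetric group, and the only minimal normal subgroups. -/
theorem result {α : Type*} (G : Subgroup (Equiv.Perm α)) (M N : Subgroup G) [M.Normal] [N.Normal] (hM : M ≠ ⊥) (hN : N ≠ ⊥) (hMmin : ∀ L : Subgroup G, L.Normal → L ≤ M → L = ⊥ ∨ L = M) (hNmin : ∀ L : Subgroup G, L.Normal → L ≤ N → L = ⊥ ∨ L = N) (hMN : M ≠ N) (hMt : MulAction.IsPretransitive M α) (hNt : MulAction.IsPretransitive N α) : (∀ a : α, MulAction.stabilizer M a = ⊥) ∧ (∀ a : α, MulAction.stabilizer N a = ⊥) ∧ ¬ IsMulCommutative M ∧ Nonempty (M ≃* N) ∧ Subgroup.centralizer ((M.map G.subtype : Subgroup (Equiv.Perm α)) : Set (Equiv.Perm α)) = N.map G.subtype ∧ Subgroup.centralizer ((N.map G.subtype : Subgroup (Equiv.Perm α)) : Set (Equiv.Perm α))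 = M.map G.subtype ∧ ∀ L : Subgroup G, L.Normal → L ≠ ⊥ → (∀ L' : Subgroup G, L'.Normal → L' ≤ L → L' = ⊥ ∨ L' = L) → L = M ∨ L = N := by
  have hMt' : IsPretransitive (M.map G.subtype) α := isPretransitive_map_subtype G M hMt
  have hNt' : IsPretransitive (N.map G.subtype) α := isPretransitive_map_subtype G N hNt
  have hinf : M ⊓ N = ⊥ := inf_eq_bot_of_minimal M N hN hMmin hNmin (Ne.symm hMN)
  have hinf' : N ⊓ M = ⊥ := by rw [inf_comm]; exact hinf
  have hNle := map_le_centralizer_map G M N hinf
  have hMle := map_le_centralizer_map G N M hinf'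
  have hcM := centralizer_eq_of_transitive (M.map G.subtype) (N.map G.subtype) hNle
  have hcN := centralizer_eq_of_transitive (N.map G.subtype) (M.map G.subtype) hMle
  have hregM : ∀ a : α, MulAction.stabilizer M a = ⊥ :=
    fun a => stabilizer_eq_bot_of_map_le_centralizer G _ M hMle a
  have hregN : ∀ a : α, MulAction.stabilizer N a = ⊥ :=
    fun a => stabilizer_eq_bot_of_map_le_centralizer G _ N hNle a
  have hle_of_map : ∀ L K : Subgroup G, L.map G.subtype ≤ K.map G.subtype → L ≤ K := by
    intro L K h l hl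
    obtain ⟨m, hm, hml⟩ := h ⟨l, hl, rfl⟩
    have : m = l := Subtype.ext hml
    rw [← this]; exact hm
  refine ⟨hregM, hregN, ?_, ?_, hcM, hcN, ?_⟩
  · intro hab
    have hle : M.map G.subtype ≤ Subgroup.centralizer
        ((M.map G.subtype : Subgroup (Equiv.Perm α)) : Set (Equiv.Perm α)) := by
      rintro _ ⟨l, hl, rfl⟩
      rw [Subgroup.mem_centralizer_iff]
      rintro _ ⟨m, hm, rfl⟩
      have := hab.is_comm.comm ⟨m, hm⟩ ⟨l, hl⟩
      exact congrArg (fun x : M => ((x : G) : Equiv.Perm α)) this
    rw [hcM] at hle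
    have h2 := hle_of_map M N hle
    apply hM
    rw [← hinf]
    exact (inf_eq_left.mpr h2).symm
  · have hne : Nonempty α := by
      by_contra hcon
      rw [not_nonempty_iff] at hcon
      apply hM
      refine M.eq_bot_iff_forall.mpr fun n _ => ?_
      exact Subsingleton.elim _ _
    obtain ⟨a⟩ := hne
    let eM : M ≃ α := Equiv.ofBijective _ (bij_of_regular hregM a)
    let eN : N ≃ α := Equiv.ofBijective _ (bij_of_regular hregN a)
    let f : M ≃ N := (Equiv.inv M).trans (eM.trans eN.symm)
    have hf : ∀ m : M, (f m) • a = m⁻¹ • a := by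
      intro m
      have : eN (f m) = eM m⁻¹ := by simp [f]
      exact this
    have hcomm : ∀ (m : M) (n : N) (x : α), m • n • x = n • m • x := by
      intro m n x
      have := commute_of_normal_of_inf_eq_bot M N hinf m.2 n.2
      have h2 := congrArg (fun g : G => g • x) this
      simp only [mul_smul] at h2
      exact h2
    refine ⟨⟨f, fun m₁ m₂ => ?_⟩⟩
    apply eN.injective
    change (f (m₁ * m₂)) • a = (f m₁ * f m₂) • a
    rw [hf, mul_smul, hf, ← hcomm, hf, mul_inv_rev, mul_smul]
  · intro L hLn hL hLmin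
    by_contra hne
    push Not at hne
    have hinfL := inf_eq_bot_of_minimal M L hL hMmin hLmin hne.1
    have h1 := map_le_centralizer_map G M L hinfL
    rw [hcM] at h1
    have h2 := hle_of_map L N h1
    rcases hNmin L hLn h2 with h | h
    · exact hL h
    · exact hne.2 h

end Cfsg.Agent.S0704
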