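import Cfsg.Statements.S0705
-- import your own Cfsg.Agent.* helpers here
import Cfsg.Agent.Lib.Helper29.Generous

set_option autoImplicit false
open scoped Pointwise
open Cfsg

namespace Cfsg.Agent.S0705

open Cfsg.Agent.Lib.Helper29.Generous
open scoped Pointwise


/-- A generously `k`-transitive permutation group (every `(k+1)`-subset has its full symmetric group induced by the setwise stabiliser) of degree greater than `k` is `k`-transitive, and for a `k`-subset the setwise and pointwise stabilisers have the same orbits outside it. -/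
theorem result {α : Type*} [Fintype α] [DecidableEq α] (G : Subgroup (Equiv.Perm α)) {k : ℕ} (hk : k < Fintype.card α) (hgen : ∀ s : Finset α, s.card = k + 1 → ∀ σ : Equiv.Perm ↥s, ∃ g ∈ G, ∀ x : ↥s, g (x : α) = σ x) : MulAction.IsMultiplyPretransitive G α k ∧ ∀ s : Finset α, s.card = k → ∀ a b : α, a ∉ s → b ∉ s → (∃ g ∈ G, g • s = s ∧ g a = b) → ∃ g ∈ G, (∀ x ∈ s, g x = x) ∧ g a = b := by
  classical
  have hc := conv G hgen
  refine ⟨gen_trans k (by rwa [Nat.card_eq_fintype_card]) hc, ?_⟩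
  rintro s hs a b ha hb ⟨g, hg, hgs, hgab⟩
  have hfwd : ∀ x ∈ s, g x ∈ s := by
    intro x hx
    have : g • x ∈ g • s := Finset.smul_mem_smul_finset hx
    rw [hgs] at this
    exact this
  have hbwd : ∀ x ∈ s, g⁻¹ x ∈ s := by
    intro x hx
    rw [← hgs, Finset.mem_smul_finset] at hx
    obtain ⟨y, hy, hyx⟩ := hx
    have : g⁻¹ x = y := by
      rw [← hyx]
      change g⁻¹ (g y) = y
      rw [← Equiv.Perm.mul_apply, inv_mul_cancel]; rfl
    rw [this]; exact hy
  have hginvb : g⁻¹ b = a := by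
    rw [← hgab, ← Equiv.Perm.mul_apply, inv_mul_cancel]; rfl
  have hσb : (Equiv.swap a b * g⁻¹) b = b := by
    rw [Equiv.Perm.mul_apply, hginvb, Equiv.swap_apply_left]
  have hσs : ∀ x ∈ s, (Equiv.swap a b * g⁻¹) x = g⁻¹ x := by
    intro x hx
    rw [Equiv.Perm.mul_apply]
    have h1 := hbwd x hx
    exact Equiv.swap_apply_of_ne_of_ne (fun h => ha (h ▸ h1)) (fun h => hb (h ▸ h1))
  obtain ⟨h₁, hh₁⟩ := hc (insert b s) (by rw [Finset.card_insert_of_notMem hb, hs]) (Equiv.swap a b * g⁻¹) (by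
    intro x hx
    rw [Finset.mem_insert] at hx
    rcases hx with rfl | hx
    · rw [hσb]; exact Finset.mem_insert_self _ _
    · rw [hσs x hx]; exact Finset.mem_insert_of_mem (hbwd x hx))
  refine ⟨h₁ * g, G.mul_mem h₁.2 hg, ?_, ?_⟩
  · intro x hx
    rw [Equiv.Perm.mul_apply]
    have h2 := hh₁ (g x) (Finset.mem_insert_of_mem (hfwd x hx))
    have h3 : (h₁ : Equiv.Perm α) (g x) = (Equiv.swap a b * g⁻¹) (g x) := h2
    rw [h3, hσs _ (hfwd x hx), ← Equiv.Perm.mul_apply, inv_mul_cancel]; rfl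
  · rw [Equiv.Perm.mul_apply, hgab]
    have h2 := hh₁ b (Finset.mem_insert_self _ _)
    have h3 : (h₁ : Equiv.Perm α) b = (Equiv.swap a b * g⁻¹) b := h2
    rw [h3, hσb]

end Cfsg.Agent.S0705
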