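import Cfsg.Statements.S0706
-- import your own Cfsg.Agent.* helpers here
import Cfsg.Agent.Lib.Helper29.Generous
import Cfsg.Agent.S0705

set_option autoImplicit false
open Cfsg

namespace Cfsg.Agent.S0706

open Cfsg.Agent.Lib.Helper29.Generous
open scoped Pointwise

theorem orbit_modEq' {G α : Type*} [Group G] [MulAction G α] [Finite α] {p : ℕ} [Fact p.Prime]
    (P : Subgroup G) (hP : IsPGroup p P) (x : α) :
    Nat.card (MulAction.orbit G x) ≡ (MulAction.orbit G x ∩ MulAction.fixedPoints P α).ncard [MOD p] := by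
  have h := hP.card_modEq_card_fixedPoints (MulAction.orbit G x)
  have e : MulAction.fixedPoints P (MulAction.orbit G x) ≃
      ((MulAction.orbit G x ∩ MulAction.fixedPoints P α : Set α)) :=
    { toFun := fun y => ⟨y.1.1, y.1.2, fun g => congrArg Subtype.val (y.2 g)⟩
      invFun := fun y => ⟨⟨y.1, y.2.1⟩, fun g => Subtype.ext (y.2.2 g)⟩
      left_inv := fun y => rfl
      right_inv := fun y => rfl }
  rw [Nat.card_congr e, Nat.card_coe_set_eq] at h
  exact h

/-- In a generously `k`-transitive permutation group, for a prime `p ≤ k` and a `k`-set `Γ`, there are no `p` points outside `Γ` lying in distinct orbits of the pointwise stabiliser of `Γ` all of length prime to `p` (at most `p - 1` such orbits). -/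
theorem result {α : Type*} [Fintype α] [DecidableEq α] (G : Subgroup (Equiv.Perm α)) {k : ℕ} (hk : k < Fintype.card α) (hgen : ∀ s : Finset α, s.card = k + 1 → ∀ σ : Equiv.Perm ↥s, ∃ g ∈ G, ∀ x : ↥s, g (x : α) = σ x) {p : ℕ} (hp : p.Prime) (hpk : p ≤ k) (Γ : Finset α) (hΓ : Γ.card = k) (f : Fin p → α) (hf : ∀ i, f i ∉ Γ) (hdist : ∀ i j, i ≠ j → f j ∉ MulAction.orbit (fixingSubgroup G (Γ : Set α)) (f i)) : ∃ i, p ∣ Nat.card (MulAction.orbit (fixingSubgroup G (Γ : Set α)) (f i)) := by
  classical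
  by_contra hcon
  push Not at hcon
  haveI : Fact p.Prime := ⟨hp⟩
  have hc := conv G hgen
  have htr : MulAction.IsMultiplyPretransitive G α k := gen_trans k (by rwa [Nat.card_eq_fintype_card]) hc
  obtain ⟨Pi₀, hPi₀Γ, hPi₀c⟩ := Finset.exists_subset_card_eq (hpk.trans_eq hΓ.symm)
  set H := fixingSubgroup G (Γ : Set α) with hH
  set M : Subgroup G := fixingSubgroup G ((Γ \ Pi₀ : Finset α) : Set α) ⊓ MulAction.stabilizer G Γ with hM
  have hHfix : ∀ h ∈ H, ∀ y ∈ Γ, h • y = y := fun h hh y hy => (mem_fixingSubgroup_iff G).mp hh y hy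
  have hHM : H ≤ M := by
    intro h hh
    rw [hM, Subgroup.mem_inf]
    refine ⟨?_, ?_⟩
    · rw [mem_fixingSubgroup_iff]
      intro y hy
      exact hHfix h hh y (Finset.mem_sdiff.mp hy).1
    · rw [MulAction.mem_stabilizer_iff]
      ext y
      constructor
      · intro hy
        obtain ⟨z, hz, rfl⟩ := Finset.mem_smul_finset.mp hy
        rw [hHfix h hh z hz]; exact hz
      · intro hy
        rw [← hHfix h hh y hy]
        exact Finset.smul_mem_smul_finset hy
  have hMΓ : ∀ m ∈ M, m • Γ = Γ := fun m hm => hm.2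
  have hMmem : ∀ m ∈ M, ∀ y, y ∈ Γ → m • y ∈ Γ := by
    intro m hm y hy
    have : m • y ∈ m • Γ := Finset.smul_mem_smul_finset hy
    rwa [hMΓ m hm] at this
  have hMnot : ∀ m ∈ M, ∀ y, y ∉ Γ → m • y ∉ Γ := by
    intro m hm y hy hmy
    apply hy
    have := hMmem m⁻¹ (M.inv_mem hm) _ hmy
    rwa [inv_smul_smul] at this
  have hinv : ∀ m ∈ M, ∀ y, y ∉ Γ → m • y ∈ MulAction.orbit H y := by
    intro m hm y hy
    obtain ⟨g, hgG, hgfix, hgy⟩ := (Cfsg.Agent.S0705.result G hk hgen).2 Γ hΓ y (m • y) hy (hMnot m hm y hy)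
      ⟨m, m.2, hMΓ m hm, rfl⟩
    exact ⟨⟨⟨g, hgG⟩, (mem_fixingSubgroup_iff G).mpr fun z hz => hgfix z hz⟩, hgy⟩
  have horb : ∀ i, (MulAction.orbit M (f i) : Set α) = MulAction.orbit H (f i) := by
    intro i
    ext y
    constructor
    · rintro ⟨m, rfl⟩
      exact hinv m m.2 (f i) (hf i)
    · rintro ⟨h, rfl⟩
      exact ⟨⟨h, hHM h.2⟩, rfl⟩
  obtain ⟨P⟩ : Nonempty (Sylow p M) := inferInstance
  have hex : ∀ i, ∃ δ : α, δ ∈ MulAction.orbit H (f i) ∧ δ ∈ MulAction.fixedPoints (P : Subgroup M) α := by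
    intro i
    have h1 := orbit_modEq' (G := M) (P : Subgroup M) P.isPGroup' (f i)
    have h2 : (MulAction.orbit M (f i) ∩ MulAction.fixedPoints (P : Subgroup M) α).ncard ≠ 0 := by
      intro h0
      rw [h0] at h1
      apply hcon i
      rw [← horb i]
      exact (Nat.modEq_zero_iff_dvd).mp h1
    have h3 : (MulAction.orbit M (f i) ∩ MulAction.fixedPoints (P : Subgroup M) α).Nonempty := by
      by_contra hne
      rw [Set.not_nonempty_iff_eq_empty] at hne
      rw [hne, Set.ncard_empty] at h2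
      exact h2 rfl
    obtain ⟨δ, hδ1, hδ2⟩ := h3
    exact ⟨δ, by rw [← horb i]; exact hδ1, hδ2⟩
  choose δ hδorb hδfix using hex
  have hδinj : Function.Injective δ := by
    intro i j hij
    by_contra hne
    apply hdist i j hne
    have h1 := MulAction.orbit_eq_iff.mpr (hδorb i)
    have h2 := MulAction.orbit_eq_iff.mpr (hδorb j)
    rw [hij, h2] at h1
    rw [← h1]
    exact MulAction.mem_orbit_self _
  have hδΓ : ∀ i, δ i ∉ Γ := by
    intro i hi
    obtain ⟨h, hh⟩ := hδorb i
    have hh' : (h : G) • f i = δ i := hh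
    apply hf i
    have h2 := hHfix h h.2 _ hi
    rw [← hh'] at h2
    have h3 := MulAction.injective (h : G) h2
    rw [← h3, hh']; exact hi
  -- the new k-set
  have hdisj : Disjoint (Γ \ Pi₀) (Finset.univ.image δ) := by
    rw [Finset.disjoint_left]
    intro y hy hy'
    obtain ⟨i, _, rfl⟩ := Finset.mem_image.mp hy'
    exact hδΓ i (Finset.mem_sdiff.mp hy).1
  have hcard'' : ((Γ \ Pi₀) ∪ (Finset.univ.image δ)).card = k := by
    rw [Finset.card_union_of_disjoint hdisj, Finset.card_sdiff_of_subset hPi₀Γ, Finset.card_image_of_injective _ hδinj,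
      Finset.card_univ, Fintype.card_fin, hΓ, hPi₀c]
    omega
  have hPle : (P : Subgroup M).map M.subtype ≤ fixingSubgroup G (((Γ \ Pi₀) ∪ (Finset.univ.image δ) : Finset α) : Set α) := by
    rintro _ ⟨m, hm, rfl⟩
    rw [mem_fixingSubgroup_iff]
    intro y hy
    rw [Finset.mem_coe, Finset.mem_union] at hy
    rcases hy with hy | hy
    · exact (mem_fixingSubgroup_iff G).mp m.2.1 y hy
    · obtain ⟨i, _, rfl⟩ := Finset.mem_image.mp hy
      exact hδfix i ⟨m, hm⟩
  have hcardfix : Nat.card (fixingSubgroup G (((Γ \ Pi₀) ∪ (Finset.univ.image δ) : Finset α) : Set α)) = Nat.card H := by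
    have htr' := Set.powersetCard.isPretransitive_of_isMultiplyPretransitive G htr
    obtain ⟨g, hg⟩ := htr'.exists_smul_eq (⟨Γ, hΓ⟩ : Set.powersetCard α k) ⟨_, hcard''⟩
    have hg' : g • Γ = (Γ \ Pi₀) ∪ (Finset.univ.image δ) := congrArg (fun s : Set.powersetCard α k => (s : Finset α)) hg
    rw [← hg', Finset.coe_smul_finset, SubMulAction.fixingSubgroup_smul_eq_fixingSubgroup_map_conj,
      Subgroup.card_map_of_injective (MulAut.conj g).injective]
  -- p * |H| divides |M|
  obtain ⟨γ₁, hγ₁⟩ : Pi₀.Nonempty := by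
    rw [← Finset.card_pos, hPi₀c]; exact hp.pos
  have horbM : (MulAction.orbit M γ₁ : Set α) = (Pi₀ : Set α) := by
    ext y
    constructor
    · rintro ⟨m, rfl⟩
      have h1 : (m : G) • γ₁ ∈ Γ := hMmem m m.2 _ (hPi₀Γ hγ₁)
      by_contra h2
      have h3 : (m : G) • γ₁ ∈ Γ \ Pi₀ := Finset.mem_sdiff.mpr ⟨h1, h2⟩
      have h4 := (mem_fixingSubgroup_iff G).mp m.2.1 _ h3
      have h5 := MulAction.injective (m : G) h4
      rw [h5] at h3
      exact (Finset.mem_sdiff.mp h3).2 hγ₁
    · intro hy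
      have hy' : y ∈ Pi₀ := hy
      have hsw : ∀ x ∈ Γ, Equiv.swap γ₁ y x ∈ Γ := by
        intro x hx
        by_cases hx1 : x = γ₁
        · rw [hx1, Equiv.swap_apply_left]; exact hPi₀Γ hy'
        by_cases hx2 : x = y
        · rw [hx2, Equiv.swap_apply_right]; exact hPi₀Γ hγ₁
        rw [Equiv.swap_apply_of_ne_of_ne hx1 hx2]; exact hx
      have hp0 : 0 < p := hp.pos
      have hf0 := hf ⟨0, hp0⟩
      obtain ⟨g, hg⟩ := hc (insert (f ⟨0, hp0⟩) Γ) (by rw [Finset.card_insert_of_notMem hf0, hΓ]) (Equiv.swap γ₁ y) (by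
        intro x hx
        rw [Finset.mem_insert] at hx
        rcases hx with rfl | hx
        · rw [Equiv.swap_apply_of_ne_of_ne (fun h => hf0 (by rw [h]; exact hPi₀Γ hγ₁)) (fun h => hf0 (by rw [h]; exact hPi₀Γ hy'))]
          exact Finset.mem_insert_self _ _
        · exact Finset.mem_insert_of_mem (hsw x hx))
      have hgΓ : ∀ x ∈ Γ, g • x = Equiv.swap γ₁ y x := fun x hx => hg x (Finset.mem_insert_of_mem hx)
      refine ⟨⟨g, Subgroup.mem_inf.mpr ⟨?_, ?_⟩⟩, ?_⟩
      · rw [mem_fixingSubgroup_iff]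
        intro x hx
        have hx' := Finset.mem_sdiff.mp hx
        rw [hgΓ x hx'.1]
        exact Equiv.swap_apply_of_ne_of_ne (fun h => hx'.2 (h ▸ hγ₁)) (fun h => hx'.2 (h ▸ hy'))
      · rw [MulAction.mem_stabilizer_iff]
        apply Finset.eq_of_subset_of_card_le
        · intro x hx
          obtain ⟨z, hz, rfl⟩ := Finset.mem_smul_finset.mp hx
          rw [hgΓ z hz]; exact hsw z hz
        · rw [Finset.card_smul_finset]
      · change g • γ₁ = y
        rw [hgΓ _ (hPi₀Γ hγ₁), Equiv.swap_apply_left]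
  have hdvd : p * Nat.card H ∣ Nat.card M := by
    have h1 : Nat.card (MulAction.orbit M γ₁) * Nat.card (MulAction.stabilizer M γ₁) = Nat.card M := by
      rw [← Nat.card_prod]
      exact Nat.card_congr (MulAction.orbitProdStabilizerEquivGroup M γ₁)
    have h2 : Nat.card (MulAction.orbit M γ₁) = p := by
      rw [horbM, Nat.card_coe_set_eq, Set.ncard_coe_finset, hPi₀c]
    have h3 : Nat.card H ∣ Nat.card (MulAction.stabilizer M γ₁) := by
      have h4 : H.subgroupOf M ≤ MulAction.stabilizer M γ₁ := by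
        intro m hm
        exact hHfix m hm _ (hPi₀Γ hγ₁)
      have h5 := Subgroup.card_dvd_of_le h4
      rwa [Nat.card_congr (Subgroup.subgroupOfEquivOfLe hHM).toEquiv] at h5
    rw [← h1, h2]
    exact mul_dvd_mul_left p h3
  have hHpos : Nat.card H ≠ 0 := Nat.card_pos.ne'
  have hMpos : Nat.card M ≠ 0 := Nat.card_pos.ne'
  have hPcard : Nat.card ((P : Subgroup M).map M.subtype) = p ^ ((Nat.card M).factorization p) := by
    rw [Subgroup.card_map_of_injective (Subgroup.subtype_injective _), P.card_eq_multiplicity]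
  have h6 := Subgroup.card_dvd_of_le hPle
  rw [hPcard, hcardfix] at h6
  have h7 : p ^ ((Nat.card H).factorization p + 1) ∣ Nat.card M := by
    rw [pow_succ, mul_comm]
    exact (mul_dvd_mul_left p (Nat.ordProj_dvd _ p)).trans hdvd
  have h8 : (Nat.card H).factorization p + 1 ≤ (Nat.card M).factorization p :=
    (hp.pow_dvd_iff_le_factorization hMpos).mp h7
  exact Nat.pow_succ_factorization_not_dvd hHpos hp ((pow_dvd_pow p h8).trans h6)

end Cfsg.Agent.S0706
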