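import Cfsg.Statements.S0707
import Mathlib

set_option autoImplicit false
open Cfsg

namespace Cfsg.Agent.S0707

/-- In a primitive permutation group, distinct points have distinct stabilisers unless the group is regular of prime degree. -/
theorem result {α : Type*} (G : Subgroup (Equiv.Perm α)) [MulAction.IsPreprimitive G α] (h : ¬ (Nat.card α).Prime ∨ ∃ a : α, MulAction.stabilizer G a ≠ ⊥) {a b : α} (hab : a ≠ b) : MulAction.stabilizer G a ≠ MulAction.stabilizer G b := by
  intro heq
  have hnt : Nontrivial α := ⟨a, b, hab⟩
  have hco : IsCoatom (MulAction.stabilizer G a) :=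
    MulAction.IsPreprimitive.isCoatom_stabilizer_of_isPreprimitive _ a
  obtain ⟨g, hg⟩ := MulAction.exists_smul_eq G a b
  have hgn : g ∈ Subgroup.normalizer (MulAction.stabilizer G a : Set G) := by
    rw [Subgroup.mem_normalizer_iff_map_conj_eq]
    have := MulAction.stabilizer_smul_eq_stabilizer_map_conj g a
    rw [hg, ← heq] at this
    exact this.symm
  have hgs : g ∉ MulAction.stabilizer G a := by
    intro hgs
    rw [MulAction.mem_stabilizer_iff] at hgs
    exact hab (hgs.symm.trans hg)
  have hnorm : Subgroup.normalizer (MulAction.stabilizer G a : Set G) = ⊤ := by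
    rcases hco.le_iff.mp (Subgroup.le_normalizer (H := MulAction.stabilizer G a)) with h' | h'
    · exact h'
    · rw [h'] at hgn; exact absurd hgn hgs
  rw [Subgroup.normalizer_eq_top_iff] at hnorm
  have hstab : ∀ c : α, MulAction.stabilizer G c = MulAction.stabilizer G a := by
    intro c
    obtain ⟨k, rfl⟩ := MulAction.exists_smul_eq G a c
    rw [MulAction.stabilizer_smul_eq_stabilizer_map_conj]
    exact (Subgroup.normalizer_eq_top_iff.mpr hnorm ▸ Subgroup.mem_top k : k ∈ Subgroup.normalizer (MulAction.stabilizer G a : Set G)) |> Subgroup.mem_normalizer_iff_map_conj_eq.mp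
  have hbot : MulAction.stabilizer G a = ⊥ := by
    refine (Subgroup.eq_bot_iff_forall _).mpr fun n hn => ?_
    ext c
    have : n ∈ MulAction.stabilizer G c := by rw [hstab c]; exact hn
    exact this
  rw [hbot] at hco
  rcases h with h | ⟨c, hc⟩
  · apply h
    have hcard : Nat.card α = Nat.card G := by
      symm
      apply Nat.card_eq_of_bijective (fun k : G => k • a)
      constructor
      · intro k l hkl
        have : l⁻¹ * k ∈ MulAction.stabilizer G a := by
          rw [MulAction.mem_stabilizer_iff, mul_smul]
          simp only at hkl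
          rw [hkl, inv_smul_smul]
        rw [hbot, Subgroup.mem_bot] at this
        exact (inv_mul_eq_one.mp this).symm
      · intro c
        exact MulAction.exists_smul_eq G a c
    rw [hcard]
    have hGnt : Nontrivial G := by
      by_contra hcon
      rw [not_nontrivial_iff_subsingleton] at hcon
      exact hco.1 (Subsingleton.elim _ _)
    obtain ⟨x, hx⟩ := exists_ne (1 : G)
    have hz : Subgroup.zpowers x = ⊤ := by
      rcases hco.le_iff.mp (bot_le : ⊥ ≤ Subgroup.zpowers x) with h' | h'
      · exact h'
      · exact absurd h' (Subgroup.zpowers_ne_bot.2 hx)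
    have hcyc : IsCyclic G := ⟨⟨x, (Subgroup.eq_top_iff' _).1 hz⟩⟩
    let _ : CommGroup G := hcyc.commGroup
    have hsimple : IsSimpleGroup G := by
      refine ⟨fun H _ => ?_⟩
      rcases hco.le_iff.mp (bot_le : ⊥ ≤ H) with h' | h'
      · exact Or.inr h'
      · exact Or.inl h'
    exact IsSimpleGroup.prime_card
  · exact hc ((hstab c).trans hbot)

end Cfsg.Agent.S0707
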