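import Cfsg.Statements.S0709
import Mathlib
import Cfsg.Agent.Lib.Helper29.WittExt

set_option autoImplicit false
open Cfsg

namespace Cfsg.Agent.S0709

section aux

variable {α : Type*}

/-- the intermediate groups -/
def Gk (G : Subgroup (Equiv.Perm α)) (s : ℕ → Equiv.Perm α) (k : ℕ) : Subgroup (Equiv.Perm α) :=
  Subgroup.closure ((G : Set (Equiv.Perm α)) ∪ {x | ∃ i : ℕ, 2 ≤ i ∧ i + 1 ≤ k ∧ x = s i})

theorem G_le (G : Subgroup (Equiv.Perm α)) (s : ℕ → Equiv.Perm α) (k : ℕ) : G ≤ Gk G s k :=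
  fun _ hf => Subgroup.subset_closure (Or.inl hf)

theorem Gk_two (G : Subgroup (Equiv.Perm α)) (s : ℕ → Equiv.Perm α) : Gk G s 2 = G := by
  apply le_antisymm _ (G_le G s 2)
  unfold Gk
  rw [Subgroup.closure_le]
  rintro x (hx | ⟨i, h1, h2, _⟩)
  · exact hx
  · omega

theorem s_mem (G : Subgroup (Equiv.Perm α)) (s : ℕ → Equiv.Perm α) (hs1 : s 1 ∈ G) (k j : ℕ)
    (hj : 1 ≤ j) (hjk : j + 1 ≤ k) : s j ∈ Gk G s k := by
  rcases Nat.lt_or_ge j 2 with h | h
  · have : j = 1 := by omega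
    subst this
    exact G_le G s k hs1
  · exact Subgroup.subset_closure (Or.inr ⟨j, h, hjk, rfl⟩)

theorem Gk_succ (G : Subgroup (Equiv.Perm α)) (s : ℕ → Equiv.Perm α) (k : ℕ) (hk : 2 ≤ k) :
    Gk G s (k + 1) = Subgroup.closure (((Gk G s k : Subgroup (Equiv.Perm α)) :
      Set (Equiv.Perm α)) ∪ {s k}) := by
  apply le_antisymm
  · unfold Gk
    rw [Subgroup.closure_le]
    rintro x (hx | ⟨i, h1, h2, rfl⟩)
    · exact Subgroup.subset_closure (Or.inl (Subgroup.subset_closure (Or.inl hx)))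
    · rcases Nat.lt_or_ge i k with h | h
      · exact Subgroup.subset_closure (Or.inl (Subgroup.subset_closure (Or.inr ⟨i, h1, h, rfl⟩)))
      · have : i = k := by omega
        subst this
        exact Subgroup.subset_closure (Or.inr rfl)
  · rw [Subgroup.closure_le]
    rintro x (hx | hx)
    · revert x
      change Gk G s k ≤ Gk G s (k + 1)
      unfold Gk
      apply Subgroup.closure_mono
      rintro x (hx | ⟨i, h1, h2, rfl⟩)
      · exact Or.inl hx
      · exact Or.inr ⟨i, h1, by omega, rfl⟩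
    · rw [Set.mem_singleton_iff] at hx
      subst hx
      exact Subgroup.subset_closure (Or.inr ⟨k, hk, le_refl _, rfl⟩)

theorem pairEmb (a b : α) (hab : a ≠ b) : ∃ e : Fin 2 ↪ α, e 0 = a ∧ e 1 = b := by
  refine ⟨⟨![a, b], fun i j hij => ?_⟩, rfl, rfl⟩
  fin_cases i <;> fin_cases j <;> simp_all

end aux

/-- Witt's Lemma for constructing transitive extensions. Points `q 1, …, q t` (`t ≥ 2`) of a finite set are given; `G` fixes `q i` for `i ≥ 3` and is doubly transitive on the remaining points; `s 1 ∈ G` swaps `q 1, q 2`; for `2 ≤ i ≤ t-1`, `s i` swaps `q i, q (i+1)` and fixes the other `q j`; with `H` the stabiliser of `q 1, q 2` in `G`: `s i ^ 2 ∈ H`, `(s i * s (i+1)) ^ 3 ∈ H`, `(s i * s j) ^ 2 ∈ H` for `j ≥ i + 2`, and `s i` (`i ≥ 2`) normalises the stabiliser of `q 2` in `G`. Then `G` and the `s i` generate a `t`-transitive group whose pointwise stabiliser of the `q`'s is `H`. -/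
theorem result {α : Type*} [Fintype α] [DecidableEq α] (t : ℕ) (ht : 2 ≤ t) (q : ℕ → α) (hq : ∀ i j : ℕ, 1 ≤ i → i ≤ t → 1 ≤ j → j ≤ t → q i = q j → i = j) (G : Subgroup (Equiv.Perm α)) (hfix : ∀ g ∈ G, ∀ i : ℕ, 3 ≤ i → i ≤ t → g (q i) = q i) (h2 : ∀ a b c d : α, (∀ i, 3 ≤ i → i ≤ t → a ≠ q i ∧ b ≠ q i ∧ c ≠ q i ∧ d ≠ q i) → a ≠ b → c ≠ d → ∃ g ∈ G, g a = c ∧ g b = d) (s : ℕ → Equiv.Perm α) (hs1 : s 1 ∈ G) (hs1q : s 1 (q 1) = q 2 ∧ s 1 (q 2) = q 1) (hsq : ∀ i : ℕ, 2 ≤ i → i + 1 ≤ t → s i (q i) = q (i + 1) ∧ s i (q (i + 1)) = q i ∧ ∀ j : ℕ, 1 ≤ j → j ≤ t → j ≠ i → j ≠ i + 1 → s i (q j) = q j) (H : Subgroup (Equiv.Perm α)) (hH : H = G ⊓ MulAction.stabilizer (Equiv.Perm α) (q 1) ⊓ MulAction.stabilizer (Equiv.Perm α) (q 2)) (hsq2 : ∀ i : ℕ, 1 ≤ i → i + 1 ≤ t → s i ^ 2 ∈ H) (hbraid : ∀ i : ℕ, 1 ≤ i → i + 2 ≤ t → (s i * s (i + 1)) ^ 3 ∈ H) (hcomm : ∀ i j : ℕ, 1 ≤ i → i + 2 ≤ j → j + 1 ≤ t → (s i * s j) ^ 2 ∈ H ∧ (s j * s i) ^ 2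 ∈ H) (hnorm : ∀ i : ℕ, 2 ≤ i → i + 1 ≤ t → ∀ g ∈ G ⊓ MulAction.stabilizer (Equiv.Perm α) (q 2), s i * g * (s i)⁻¹ ∈ G ⊓ MulAction.stabilizer (Equiv.Perm α) (q 2)) : MulAction.IsMultiplyPretransitive ↥(Subgroup.closure ((G : Set (Equiv.Perm α)) ∪ {x | ∃ i : ℕ, 2 ≤ i ∧ i + 1 ≤ t ∧ x = s i})) α t ∧ Subgroup.closure ((G : Set (Equiv.Perm α)) ∪ {x | ∃ i : ℕ, 2 ≤ i ∧ i + 1 ≤ t ∧ x = s i}) ⊓ fixingSubgroup (Equiv.Perm α) {x | ∃ i : ℕ, 1 ≤ i ∧ i ≤ t ∧ x = q i} = H := by
  classical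
  have hHG : H ≤ G := by
    rw [hH]; exact fun f hf => hf.1.1
  -- swaps
  have hswap : ∀ j, 1 ≤ j → j + 1 ≤ t → s j (q (j + 1)) = q j ∧ s j (q j) = q (j + 1) := by
    intro j h1 h2'
    rcases Nat.lt_or_ge j 2 with h | h
    · have : j = 1 := by omega
      subst this
      exact ⟨hs1q.2, hs1q.1⟩
    · exact ⟨(hsq j h h2').2.1, (hsq j h h2').1⟩
  have hqne : ∀ i j, 1 ≤ i → i ≤ t → 1 ≤ j → j ≤ t → i ≠ j → q i ≠ q j :=
    fun i j h1 h2 h3 h4 hij h => hij (hq i j h1 h2 h3 h4 h)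
  -- fixed points
  have fixq : ∀ k, 2 ≤ k → ∀ f ∈ Gk G s k, ∀ i, k + 1 ≤ i → i ≤ t → f (q i) = q i := by
    intro k hk f hf
    unfold Gk at hf
    induction hf using Subgroup.closure_induction with
    | mem x hx =>
      intro i h1 h2'
      rcases hx with hx | ⟨l, hl1, hl2, rfl⟩
      · exact hfix x hx i (by omega) h2'
      · exact (hsq l hl1 (by omega)).2.2 i (by omega) h2' (by omega) (by omega)
    | one => intro i _ _; rfl
    | mul x y _ _ hx hy =>
      intro i h1 h2'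
      rw [Equiv.Perm.mul_apply, hy i h1 h2', hx i h1 h2']
    | inv x _ hx =>
      intro i h1 h2'
      rw [Equiv.Perm.inv_eq_iff_eq, hx i h1 h2']
  -- s i normalises G for i ≥ 3
  have hmid : ∀ l i, 1 ≤ l → l + 2 ≤ i → i + 1 ≤ t →
      s i * s l * (s i)⁻¹ = (s i * s l) ^ 2 * (s l)⁻¹ * (s i ^ 2)⁻¹ := by
    intro l i _ _ _
    rw [show (s i * s l) ^ 2 = s i * s l * (s i * s l) from by simp [pow_succ]]
    group
  have NG : ∀ i, 3 ≤ i → i + 1 ≤ t → ∀ f ∈ G, s i * f * (s i)⁻¹ ∈ G := by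
    intro i hi hit f hf
    have hs1i : s i * s 1 * (s i)⁻¹ ∈ G := by
      rw [hmid 1 i le_rfl (by omega) hit]
      exact G.mul_mem (G.mul_mem (hHG (hcomm 1 i le_rfl (by omega) hit).2) (G.inv_mem hs1))
        (G.inv_mem (hHG (hsq2 i (by omega) hit)))
    by_cases hf2 : f (q 2) = q 2
    · exact (hnorm i (by omega) hit f ⟨hf, hf2⟩).1
    · have hz : ∀ i', 3 ≤ i' → i' ≤ t → f (q 2) ≠ q i' := by
        intro i' h1 h2' h'
        rw [← hfix f hf i' h1 h2'] at h'
        exact hqne 2 i' (by omega) (by omega) (by omega) h2' (by omega) (f.injective h')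
      obtain ⟨u, hu, hu2, huz⟩ := h2 (q 2) (f (q 2)) (q 2) (q 1) (fun i' h1 h2' =>
        ⟨hqne 2 i' (by omega) (by omega) (by omega) h2' (by omega), hz i' h1 h2',
          hqne 2 i' (by omega) (by omega) (by omega) h2' (by omega),
          hqne 1 i' (by omega) (by omega) (by omega) h2' (by omega)⟩) (Ne.symm hf2)
        (hqne 2 1 (by omega) (by omega) (by omega) (by omega) (by omega))
      have hv : (s 1)⁻¹ * u * f ∈ G := G.mul_mem (G.mul_mem (G.inv_mem hs1) hu) hf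
      have hv2 : ((s 1)⁻¹ * u * f) (q 2) = q 2 := by
        simp only [Equiv.Perm.mul_apply, huz]
        rw [Equiv.Perm.inv_eq_iff_eq, hs1q.2]
      have hu2' : u⁻¹ (q 2) = q 2 := by
        rw [Equiv.Perm.inv_eq_iff_eq, hu2]
      have e : s i * f * (s i)⁻¹ = (s i * u⁻¹ * (s i)⁻¹) * (s i * s 1 * (s i)⁻¹) *
          (s i * ((s 1)⁻¹ * u * f) * (s i)⁻¹) := by group
      rw [e]
      exact G.mul_mem (G.mul_mem (hnorm i (by omega) hit _ ⟨G.inv_mem hu, hu2'⟩).1 hs1i)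
        (hnorm i (by omega) hit _ ⟨hv, hv2⟩).1
  have Nrm : ∀ i j, 3 ≤ i → i + 1 ≤ t → j + 1 ≤ i → ∀ f ∈ Gk G s j,
      s i * f * (s i)⁻¹ ∈ Gk G s j := by
    intro i j hi hit hji f hf
    have hf' := hf
    unfold Gk at hf'
    induction hf' using Subgroup.closure_induction with
    | mem x hx =>
      rcases hx with hx | ⟨l, hl1, hl2, rfl⟩
      · exact G_le G s j (NG i hi hit x hx)
      · rw [hmid l i (by omega) (by omega) hit]
        exact (Gk G s j).mul_mem ((Gk G s j).mul_mem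
          (G_le G s j (hHG (hcomm l i (by omega) (by omega) hit).2))
          ((Gk G s j).inv_mem hf)) ((Gk G s j).inv_mem (G_le G s j (hHG (hsq2 i (by omega) hit))))
    | one => simp
    | mul x y hx' hy' hx hy =>
      have e : s i * (x * y) * (s i)⁻¹ = (s i * x * (s i)⁻¹) * (s i * y * (s i)⁻¹) := by group
      rw [e]
      exact (Gk G s j).mul_mem (hx hx') (hy hy')
    | inv x hx' hx =>
      have e : s i * x⁻¹ * (s i)⁻¹ = (s i * x * (s i)⁻¹)⁻¹ := by group
      rw [e]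
      exact (Gk G s j).inv_mem (hx hx')
  -- the main induction
  have main : ∀ m, m + 2 ≤ t →
      (∀ a b : Fin (m + 2) ↪ α, (∀ i, a i ∈ {z | ∀ i, m + 2 + 1 ≤ i → i ≤ t → z ≠ q i}) →
        (∀ i, b i ∈ {z | ∀ i, m + 2 + 1 ≤ i → i ≤ t → z ≠ q i}) →
        ∃ f ∈ Gk G s (m + 2), ∀ i, f (a i) = b i) ∧
      (∀ a b c d, a ∈ {z | ∀ i, m + 2 + 1 ≤ i → i ≤ t → z ≠ q i} →
        b ∈ {z | ∀ i, m + 2 + 1 ≤ i → i ≤ t → z ≠ q i} →
        c ∈ {z | ∀ i, m + 2 + 1 ≤ i → i ≤ t → z ≠ q i} →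
        d ∈ {z | ∀ i, m + 2 + 1 ≤ i → i ≤ t → z ≠ q i} → a ≠ b → c ≠ d →
        ∃ f ∈ Gk G s (m + 2), f a = c ∧ f b = d) ∧
      (1 ≤ m → ∀ f ∈ Gk G s (m + 2), f (q (m + 2)) = q (m + 2) ↔ f ∈ Gk G s (m + 1)) := by
    intro m
    induction m with
    | zero =>
      intro _
      have hp : ∀ a b c d, a ∈ {z | ∀ i, 0 + 2 + 1 ≤ i → i ≤ t → z ≠ q i} →
        b ∈ {z | ∀ i, 0 + 2 + 1 ≤ i → i ≤ t → z ≠ q i} →
        c ∈ {z | ∀ i, 0 + 2 + 1 ≤ i → i ≤ t → z ≠ q i} →
        d ∈ {z | ∀ i, 0 + 2 + 1 ≤ i → i ≤ t → z ≠ q i} → a ≠ b → c ≠ d →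
        ∃ f ∈ Gk G s (0 + 2), f a = c ∧ f b = d := by
        intro a b c d ha hb hc hd hab hcd
        rw [show 0 + 2 = 2 from rfl, Gk_two]
        exact h2 a b c d (fun i h1 h2' => ⟨ha i h1 h2', hb i h1 h2', hc i h1 h2', hd i h1 h2'⟩)
          hab hcd
      refine ⟨?_, hp, fun h => absurd h (by omega)⟩
      intro a b ha hb
      obtain ⟨f, hf, h0, h1⟩ := hp (a 0) (a 1) (b 0) (b 1) (ha 0) (ha 1) (hb 0) (hb 1)
        (fun h => by simpa using a.injective h) (fun h => by simpa using b.injective h)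
      refine ⟨f, hf, fun i => ?_⟩
      fin_cases i
      · exact h0
      · exact h1
    | succ m ih =>
      intro hm
      obtain ⟨ih1, ih2, ih3⟩ := ih (by omega)
      have hw : q (m + 3) ∉ {z | ∀ i, m + 2 + 1 ≤ i → i ≤ t → z ≠ q i} := by
        intro h
        exact h (m + 3) (by omega) (by omega) rfl
      have hKw : ∀ f ∈ Gk G s (m + 2), f (q (m + 3)) = q (m + 3) := fun f hf =>
        fixq (m + 2) (by omega) f hf (m + 3) (by omega) (by omega)
      have hKD : ∀ f ∈ Gk G s (m + 2), ∀ a ∈ {z | ∀ i, m + 2 + 1 ≤ i → i ≤ t → z ≠ q i},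
          f a ∈ {z | ∀ i, m + 2 + 1 ≤ i → i ≤ t → z ≠ q i} := by
        intro f hf a ha i h1 h2' h'
        rw [← fixq (m + 2) (by omega) f hf i h1 h2'] at h'
        exact ha i h1 h2' (f.injective h')
      have hx : q (m + 2) ∈ {z | ∀ i, m + 2 + 1 ≤ i → i ≤ t → z ≠ q i} := fun i h1 h2' =>
        hqne _ _ (by omega) (by omega) (by omega) h2' (by omega)
      have hy : q (m + 1) ∈ {z | ∀ i, m + 2 + 1 ≤ i → i ≤ t → z ≠ q i} := fun i h1 h2' =>
        hqne _ _ (by omega) (by omega) (by omega) h2' (by omega)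
      have hD : ∀ a ∈ {z | ∀ i, m + 2 + 1 ≤ i → i ≤ t → z ≠ q i}, a ≠ q (m + 2) →
          s (m + 2) a ∈ {z | ∀ i, m + 2 + 1 ≤ i → i ≤ t → z ≠ q i} := by
        intro a ha hax i h1 h2' h'
        rcases Nat.lt_or_ge i (m + 4) with h | h
        · have : i = m + 2 + 1 := by omega
          subst this
          rw [← (hswap (m + 2) (by omega) (by omega)).2] at h'
          exact hax ((s (m + 2)).injective h')
        · rw [← (hsq (m + 2) (by omega) (by omega)).2.2 i (by omega) h2' (by omega) (by omega)] at h'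
          exact ha i h1 h2' ((s (m + 2)).injective h')
      have h8 : ∀ f ∈ Gk G s (m + 2), f (q (m + 2)) = q (m + 2) →
          s (m + 2) * f * s (m + 2) ∈ Gk G s (m + 2) := by
        intro f hf hfx
        have e : s (m + 2) * f * s (m + 2) = (s (m + 2) * f * (s (m + 2))⁻¹) * s (m + 2) ^ 2 := by
          group
        rw [e]
        refine (Gk G s (m + 2)).mul_mem ?_ (G_le G s _ (hHG (hsq2 (m + 2) (by omega) (by omega))))
        rcases Nat.eq_zero_or_pos m with h0 | h0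
        · subst h0
          rw [show 0 + 2 = 2 from rfl, Gk_two] at hf ⊢
          exact (hnorm 2 le_rfl (by omega) f ⟨hf, hfx⟩).1
        · have hf1 : f ∈ Gk G s (m + 1) := (ih3 h0 f hf).1 hfx
          have := Nrm (m + 2) (m + 1) (by omega) (by omega) (by omega) f hf1
          have hle : Gk G s (m + 1) ≤ Gk G s (m + 2) := by
            unfold Gk
            apply Subgroup.closure_mono
            rintro x (hx | ⟨i, h1, h2, rfl⟩)
            · exact Or.inl hx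
            · exact Or.inr ⟨i, h1, by omega, rfl⟩
          exact hle this
      have hk1 : ∀ a b : Fin 1 ↪ α, (∀ i, a i ∈ {z | ∀ i, m + 2 + 1 ≤ i → i ≤ t → z ≠ q i}) →
          (∀ i, b i ∈ {z | ∀ i, m + 2 + 1 ≤ i → i ≤ t → z ≠ q i}) →
          ∃ f ∈ Gk G s (m + 2), ∀ i, f (a i) = b i := by
        intro a b ha hb
        by_cases hab : a 0 = b 0
        · refine ⟨1, Subgroup.one_mem _, fun i => ?_⟩
          fin_cases i
          exact hab
        · obtain ⟨f, hf, h0, _⟩ := ih2 (a 0) (b 0) (b 0) (a 0) (ha 0) (hb 0) (hb 0) (ha 0) hab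
            (Ne.symm hab)
          refine ⟨f, hf, fun i => ?_⟩
          fin_cases i
          exact h0
      have hsm : s (m + 1) ∈ Gk G s (m + 2) := s_mem G s hs1 _ _ (by omega) (by omega)
      have h6 : (s (m + 1) * s (m + 2)) ^ 3 ∈ Gk G s (m + 2) :=
        G_le G s _ (hHG (hbraid (m + 1) (by omega) (by omega)))
      have h7 : s (m + 2) ^ 2 ∈ Gk G s (m + 2) :=
        G_le G s _ (hHG (hsq2 (m + 2) (by omega) (by omega)))
      have hxy : q (m + 2) ≠ q (m + 1) := hqne _ _ (by omega) (by omega) (by omega) (by omega)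
        (by omega)
      obtain ⟨r1, _, r3⟩ := Cfsg.Agent.Lib.Helper29.WittExt.ext (Gk G s (m + 2))
        {z | ∀ i, m + 2 + 1 ≤ i → i ≤ t → z ≠ q i} (q (m + 3)) hw hKw hKD ih2 (m + 2) ih1
        (s (m + 2)) (s (m + 1)) hsm (q (m + 2)) (q (m + 1)) hx hy
        (hswap (m + 2) (by omega) (by omega)).1 (hswap (m + 2) (by omega) (by omega)).2 hD
        (hswap (m + 1) (by omega) (by omega)).1 hxy h6 h7 h8
      obtain ⟨_, _, r3'⟩ := Cfsg.Agent.Lib.Helper29.WittExt.ext (Gk G s (m + 2))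
        {z | ∀ i, m + 2 + 1 ≤ i → i ≤ t → z ≠ q i} (q (m + 3)) hw hKw hKD ih2 1 hk1
        (s (m + 2)) (s (m + 1)) hsm (q (m + 2)) (q (m + 1)) hx hy
        (hswap (m + 2) (by omega) (by omega)).1 (hswap (m + 2) (by omega) (by omega)).2 hD
        (hswap (m + 1) (by omega) (by omega)).1 hxy h6 h7 h8
      rw [← Gk_succ G s (m + 2) (by omega)] at r1 r3 r3'
      have hDD : ∀ a, a ∈ {z | ∀ i, m + 1 + 2 + 1 ≤ i → i ≤ t → z ≠ q i} →
          (a ∈ {z | ∀ i, m + 2 + 1 ≤ i → i ≤ t → z ≠ q i} ∨ a = q (m + 3)) := by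
        intro a ha
        by_cases h : a = q (m + 3)
        · exact Or.inr h
        · left
          intro i h1 h2'
          rcases Nat.lt_or_ge i (m + 4) with h' | h'
          · have : i = m + 3 := by omega
            subst this
            exact h
          · exact ha i (by omega) h2'
      refine ⟨?_, ?_, ?_⟩
      · intro a b ha hb
        exact r3 a b (fun i => hDD _ (ha i)) (fun i => hDD _ (hb i))
      · intro a b c d ha hb hc hd hab hcd
        obtain ⟨a', ha0, ha1⟩ := pairEmb a b hab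
        obtain ⟨b', hb0, hb1⟩ := pairEmb c d hcd
        obtain ⟨f, hf, hfi⟩ := r3' a' b' (fun i => by
          refine Fin.cases ?_ (fun j => ?_) i
          · rw [ha0]; exact hDD _ ha
          · rw [Subsingleton.elim j 0]
            change a' 1 ∈ _ ∨ a' 1 = _
            rw [ha1]; exact hDD _ hb) (fun i => by
          refine Fin.cases ?_ (fun j => ?_) i
          · rw [hb0]; exact hDD _ hc
          · rw [Subsingleton.elim j 0]
            change b' 1 ∈ _ ∨ b' 1 = _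
            rw [hb1]; exact hDD _ hd)
        refine ⟨f, hf, ?_, ?_⟩
        · have := hfi 0
          rwa [ha0, hb0] at this
        · have := hfi 1
          rwa [ha1, hb1] at this
      · intro _ f hf
        exact r1 f hf
  obtain ⟨m, rfl⟩ : ∃ m, t = m + 2 := ⟨t - 2, by omega⟩
  change MulAction.IsMultiplyPretransitive ↥(Gk G s (m + 2)) α (m + 2) ∧
    Gk G s (m + 2) ⊓ fixingSubgroup (Equiv.Perm α) {x | ∃ i : ℕ, 1 ≤ i ∧ i ≤ m + 2 ∧ x = q i} = H
  constructor
  · refine ⟨fun a b => ?_⟩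
    obtain ⟨f, hf, hfi⟩ := (main m le_rfl).1 a b (fun i j h1 h2' => by omega)
      (fun i j h1 h2' => by omega)
    refine ⟨⟨f, hf⟩, ?_⟩
    ext i : 1
    exact hfi i
  · apply le_antisymm
    · rintro f ⟨hf, hfix'⟩
      have hfq : ∀ i, 1 ≤ i → i ≤ m + 2 → f (q i) = q i := by
        intro i h1 h2'
        exact (mem_fixingSubgroup_iff _).1 hfix' (q i) ⟨i, h1, h2', rfl⟩
      have hdown : ∀ d m', m' + 2 + d = m + 2 → f ∈ Gk G s (m' + 2) := by
        intro d
        induction d with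
        | zero =>
          intro m' h
          have : m' = m := by omega
          subst this
          exact hf
        | succ d ih =>
          intro m' h
          have h1 := ih (m' + 1) (by omega)
          exact ((main (m' + 1) (by omega)).2.2 (by omega) f h1).1 (hfq _ (by omega) (by omega))
      have hG := hdown m 0 (by omega)
      rw [show 0 + 2 = 2 from rfl, Gk_two] at hG
      rw [hH]
      exact ⟨⟨hG, hfq 1 le_rfl (by omega)⟩, hfq 2 (by omega) (by omega)⟩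
    · intro f hf
      have hf' := hf
      rw [hH] at hf'
      refine ⟨G_le G s _ (hHG hf), (mem_fixingSubgroup_iff _).2 ?_⟩
      rintro y ⟨i, h1, h2', rfl⟩
      rcases Nat.lt_or_ge i 3 with h | h
      · rcases (show i = 1 ∨ i = 2 by omega) with rfl | rfl
        · exact hf'.1.2
        · exact hf'.2
      · exact hfix f (hHG hf) i h h2'

end Cfsg.Agent.S0709
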