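import Cfsg.Statements.S0710
-- import your own Cfsg.Agent.* helpers here
import Mathlib

set_option autoImplicit false
open Cfsg

namespace Cfsg.Agent.S0710

/-- No transitive permutation group on 13 points has order `13 * 12 * 11 * 10 * 9 * 8`. -/
theorem result {α : Type*} [Fintype α] [DecidableEq α] (hα : Fintype.card α = 13) (G : Subgroup (Equiv.Perm α)) [MulAction.IsPretransitive G α] : Nat.card G ≠ 13 * 12 * 11 * 10 * 9 * 8 := by
  classical
  intro hcard
  haveI : Fact (Nat.Prime 13) := ⟨by norm_num⟩
  obtain ⟨P⟩ : Nonempty (Sylow 13 G) := inferInstance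
  -- |P| = 13
  have hP13 : Nat.card P = 13 := by
    obtain ⟨k, hk⟩ := P.isPGroup'.exists_card_eq
    have h1 : Nat.card P * (P : Subgroup G).index = Nat.card G := (P : Subgroup G).card_mul_index
    have h2 := P.not_dvd_index
    rw [hcard] at h1
    have hk' : Nat.card (P : Subgroup G) = 13 ^ k := hk
    rcases Nat.lt_or_ge k 2 with hlt | hge
    · interval_cases k
      · exfalso
        apply h2
        rw [hk', pow_zero, one_mul] at h1
        rw [h1]; norm_num
      · simpa using hk
    · exfalso
      have h3 : 13 ^ 2 ∣ Nat.card (P : Subgroup G) := by rw [hk']; exact pow_dvd_pow 13 hge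
      have h4 : 13 ^ 2 ∣ 13 * 12 * 11 * 10 * 9 * 8 := by rw [← h1]; exact Dvd.dvd.mul_right h3 _
      norm_num at h4
  haveI hcyc : IsCyclic P := isCyclic_of_prime_card hP13
  have key := Subgroup.card_dvd_of_injective _ (QuotientGroup.kerLift_injective (P : Subgroup G).normalizerMonoidHom)
  rw [Subgroup.normalizerMonoidHom_ker, ← Subgroup.index, hcyc.card_mulAut, hP13] at key
  have htot : Nat.totient 13 = 12 := by rw [Nat.totient_prime (by norm_num)]
  rw [htot] at key
  -- the centralizer has order 13
  obtain ⟨g₀, hg₀⟩ := hcyc.exists_generator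
  have hord : orderOf g₀ = 13 := by rw [orderOf_eq_card_of_forall_mem_zpowers hg₀, hP13]
  have hord' : orderOf (((g₀ : G) : Equiv.Perm α)) = 13 := by
    rw [Subgroup.orderOf_coe, Subgroup.orderOf_coe, hord]
  have hcycle : (((g₀ : G) : Equiv.Perm α)).IsCycle :=
    Equiv.Perm.isCycle_of_prime_order' (by rw [hord']; norm_num) (by rw [hord', hα]; norm_num)
  have hct : (((g₀ : G) : Equiv.Perm α)).cycleType = {13} := by
    rw [hcycle.cycleType, ← hcycle.orderOf, hord']
  have hcent : Nat.card (Subgroup.centralizer {(((g₀ : G) : Equiv.Perm α))}) = 13 := by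
    rw [Equiv.Perm.nat_card_centralizer, hct, hα]
    simp
  have hCle : Nat.card (Subgroup.centralizer ((P : Subgroup G) : Set G)) ≤ 13 := by
    refine le_of_le_of_eq ?_ hcent
    refine Nat.card_le_card_of_injective
      (fun c : Subgroup.centralizer ((P : Subgroup G) : Set G) =>
        (⟨((c : G) : Equiv.Perm α), ?_⟩ : Subgroup.centralizer {(((g₀ : G) : Equiv.Perm α))})) ?_
    · rw [Subgroup.mem_centralizer_singleton_iff]
      have := Subgroup.mem_centralizer_iff.mp c.2 (g₀ : G) g₀.2
      have h2 := congrArg (fun z : G => (z : Equiv.Perm α)) this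
      exact h2.symm
    · intro c c' h
      have := congrArg Subtype.val h
      exact Subtype.ext (Subtype.ext this)
  have hPC : (P : Subgroup G) ≤ Subgroup.centralizer ((P : Subgroup G) : Set G) := by
    letI := hcyc.commGroup
    intro a ha
    rw [Subgroup.mem_centralizer_iff]
    intro b hb
    have := mul_comm (⟨b, hb⟩ : P) ⟨a, ha⟩
    exact congrArg Subtype.val this
  have hC13 : Nat.card (Subgroup.centralizer ((P : Subgroup G) : Set G)) = 13 := by
    have := Subgroup.card_le_of_le hPC
    have h13 : Nat.card (P : Subgroup G) = 13 := hP13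
    omega
  have hCN : Subgroup.centralizer ((P : Subgroup G) : Set G) ≤ Subgroup.normalizer ((P : Subgroup G) : Set G) :=
    Subgroup.centralizer_le_normalizer _
  have h5 := ((Subgroup.centralizer ((P : Subgroup G) : Set G)).subgroupOf
    (Subgroup.normalizer ((P : Subgroup G) : Set G))).card_mul_index
  rw [Nat.card_congr (Subgroup.subgroupOfEquivOfLe hCN).toEquiv, hC13] at h5
  have h6 := (Subgroup.normalizer ((P : Subgroup G) : Set G)).card_mul_index
  have h7 := card_sylow_modEq_one 13 G
  rw [P.card_eq_index_normalizer] at h7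
  rw [hcard, ← h5] at h6
  generalize ((Subgroup.centralizer ((P : Subgroup G) : Set G)).subgroupOf
    (Subgroup.normalizer ((P : Subgroup G) : Set G))).index = d at key h6
  generalize (Subgroup.normalizer ((P : Subgroup G) : Set G)).index = I at h6 h7
  have hd : d ≤ 12 := Nat.le_of_dvd (by norm_num) key
  have h8 : I % 13 = 1 := h7
  interval_cases d <;> first | omega | (exfalso; revert key; decide)

end Cfsg.Agent.S0710
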