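import Cfsg.Statements.S0711
-- import your own Cfsg.Agent.* helpers here
import Mathlib

set_option autoImplicit false
open Cfsg

namespace Cfsg.Agent.S0711

theorem tool {α : Type*} [Fintype α] [DecidableEq α] (G : Subgroup (Equiv.Perm α)) {k : ℕ}
    (hkn : k ≤ Fintype.card α) (hG : MulAction.IsMultiplyPretransitive G α k)
    (B : Finset α) (hB : B.card + 1 ≤ k) {y y' : α} (hy : y ∉ B) (hy' : y' ∉ B) :
    ∃ h : Equiv.Perm α, h ∈ G ∧ (∀ b ∈ B, h b = b) ∧ h y = y' := by
  haveI : MulAction.IsMultiplyPretransitive G α (B.card + 1) :=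
    MulAction.isMultiplyPretransitive_of_le hB (by rwa [Nat.card_eq_fintype_card])
  have h1 := SubMulAction.ofFixingSubgroup.isMultiplyPretransitive G (m := 1) (n := B.card + 1)
    (B : Set α) (by rw [Set.ncard_coe_finset])
  rw [MulAction.is_one_pretransitive_iff] at h1
  obtain ⟨h, hh⟩ := MulAction.exists_smul_eq (fixingSubgroup G (B : Set α))
    (⟨y, by rw [SubMulAction.mem_ofFixingSubgroup_iff G]; simpa using hy⟩ :
      SubMulAction.ofFixingSubgroup G (B : Set α))
    ⟨y', by rw [SubMulAction.mem_ofFixingSubgroup_iff G]; simpa using hy'⟩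
  refine ⟨((h : G) : Equiv.Perm α), (h : G).2, fun b hb => ?_, ?_⟩
  · exact (mem_fixingSubgroup_iff G).mp h.2 b (by simpa using hb)
  · exact congrArg Subtype.val hh

theorem mem_conj {α : Type*} [Fintype α] [DecidableEq α] (g h : Equiv.Perm α) {s : α}
    (hs : s ∈ g.support) : h s ∈ (h * g * h⁻¹).support := by
  rw [Equiv.Perm.support_conj]; exact Finset.mem_map_of_mem _ hs

theorem lemU {α : Type*} [Fintype α] [DecidableEq α] (g h : Equiv.Perm α) (A C : Finset α)
    (hA : A ⊆ g.support) (hC : C ⊆ g.support) (hC' : C ⊆ (h * g * h⁻¹).support)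
    (hfix : ∀ x ∈ A, h x = x ∧ h (g x) = g x) :
    (g⁻¹ * (h * g * h⁻¹)).support.card + A.card + C.card ≤ 2 * g.support.card := by
  have h1 : (g⁻¹ * (h * g * h⁻¹)).support ⊆ (g.support \ A) ∪ ((h * g * h⁻¹).support \ C) := by
    intro x hx
    have hxA : x ∉ A := by
      intro hxA
      obtain ⟨e1, e2⟩ := hfix x hxA
      rw [Equiv.Perm.mem_support] at hx
      apply hx
      have : h⁻¹ x = x := by rw [Equiv.Perm.inv_eq_iff_eq]; exact e1.symm
      simp [Equiv.Perm.mul_apply, this, e2]
    have := Equiv.Perm.support_mul_le _ _ hx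
    rw [Equiv.Perm.support_inv] at this
    rcases Finset.mem_union.mp this with h2 | h2
    · exact Finset.mem_union_left _ (Finset.mem_sdiff.mpr ⟨h2, hxA⟩)
    · by_cases hxC : x ∈ C
      · exact Finset.mem_union_left _ (Finset.mem_sdiff.mpr ⟨hC hxC, hxA⟩)
      · exact Finset.mem_union_right _ (Finset.mem_sdiff.mpr ⟨h2, hxC⟩)
  have h2 := Finset.card_le_card h1
  have h3 := Finset.card_union_le (g.support \ A) ((h * g * h⁻¹).support \ C)
  rw [Finset.card_sdiff_of_subset hA, Finset.card_sdiff_of_subset hC',
    Equiv.Perm.card_support_conj] at h3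
  have := Finset.card_le_card hA
  have := Finset.card_le_card hC
  omega

theorem lemE {α : Type*} [Fintype α] [DecidableEq α] (g : Equiv.Perm α) (j : ℕ)
    (hj : j ≤ g.support.card) :
    ∃ B : Finset α, B ⊆ g.support ∧ B.card = j ∧
      ∀ x ∈ B, ∀ x' ∈ B, g x ∉ B → g x' ∉ B → x = x' := by
  induction j with
  | zero => exact ⟨∅, by simp, by simp, by simp⟩
  | succ j ih =>
    obtain ⟨B, hBS, hBc, hB⟩ := ih (by omega)
    by_cases hex : ∃ x ∈ B, g x ∉ B
    · obtain ⟨x, hx, hgx⟩ := hex
      refine ⟨insert (g x) B, ?_, by rw [Finset.card_insert_of_notMem hgx, hBc], ?_⟩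
      · intro z hz
        rcases Finset.mem_insert.mp hz with rfl | hz
        · exact Equiv.Perm.apply_mem_support.mpr (hBS hx)
        · exact hBS hz
      · have key : ∀ z ∈ insert (g x) B, g z ∉ insert (g x) B → z = g x := by
          intro z hz hgz
          rcases Finset.mem_insert.mp hz with rfl | hz
          · rfl
          · exfalso
            have h1 : g z ∉ B := fun h => hgz (Finset.mem_insert_of_mem h)
            have h2 := hB z hz x hx h1 hgx
            rw [h2] at hgz
            exact hgz (Finset.mem_insert_self _ _)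
        intro z hz z' hz' h1 h2
        rw [key z hz h1, key z' hz' h2]
    · push Not at hex
      obtain ⟨s, hs, hsB⟩ : ∃ s ∈ g.support, s ∉ B := by
        by_contra hcon
        push Not at hcon
        have := Finset.card_le_card (show g.support ⊆ B from hcon)
        omega
      refine ⟨insert s B, ?_, by rw [Finset.card_insert_of_notMem hsB, hBc], ?_⟩
      · intro z hz
        rcases Finset.mem_insert.mp hz with rfl | hz
        · exact hs
        · exact hBS hz
      · have key : ∀ z ∈ insert s B, g z ∉ insert s B → z = s := by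
          intro z hz hgz
          rcases Finset.mem_insert.mp hz with rfl | hz
          · rfl
          · exact absurd (Finset.mem_insert_of_mem (hex z hz)) hgz
        intro z hz z' hz' h1 h2
        rw [key z hz h1, key z' hz' h2]

theorem step {α : Type*} [Fintype α] [DecidableEq α] (G : Subgroup (Equiv.Perm α)) {k : ℕ}
    (hk : 3 ≤ k) (hkn : k ≤ Fintype.card α) (hG : MulAction.IsMultiplyPretransitive G α k)
    (g : Equiv.Perm α) (hg : g ∈ G) (hsupp : g.support.card < 2 * k - 2)
    (h4 : 4 ≤ g.support.card) :
    ∃ u : Equiv.Perm α, u ∈ G ∧ u ≠ 1 ∧ u.support.card < g.support.card := by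
  by_cases hfull : g.support = Finset.univ
  · have h3 : 2 < (Finset.univ : Finset α).card := by rw [← hfull]; omega
    obtain ⟨b, -, y, -, y', -, hby, hby', hyy'⟩ := Finset.two_lt_card.mp h3
    obtain ⟨h, hhG, hhB, hhy⟩ := tool G hkn hG {b} (by simp; omega) (y := y) (y' := y')
      (by simpa using hby.symm) (by simpa using hby'.symm)
    refine ⟨h, hhG, ?_, ?_⟩
    · rintro rfl
      exact hyy' hhy
    · rw [hfull]
      apply Finset.card_lt_card
      rw [Finset.ssubset_univ_iff]
      intro hu
      have : b ∈ h.support := by rw [hu]; exact Finset.mem_univ _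
      exact (Equiv.Perm.mem_support.mp this) (hhB b (by simp))
  · obtain ⟨y', hy'⟩ : ∃ y', y' ∉ g.support := by
      by_contra hcon
      push Not at hcon
      exact hfull (Finset.eq_univ_iff_forall.mpr hcon)
    have huG : ∀ h ∈ G, g⁻¹ * (h * g * h⁻¹) ∈ G := fun h hh =>
      G.mul_mem (G.inv_mem hg) (G.mul_mem (G.mul_mem hh hg) (G.inv_mem hh))
    by_cases hmk : g.support.card ≤ k
    · obtain ⟨y, hy⟩ : g.support.Nonempty := by
        rw [← Finset.card_pos]; omega
      have hBc : (g.support.erase y).card = g.support.card - 1 := Finset.card_erase_of_mem hy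
      obtain ⟨h, hhG, hhB, hhy⟩ := tool G hkn hG (g.support.erase y) (by omega) (y := y) (y' := y')
        (by simp) (fun h => hy' (Finset.mem_of_mem_erase h))
      refine ⟨_, huG h hhG, ?_, ?_⟩
      · intro h1
        rw [inv_mul_eq_one] at h1
        apply hy'
        rw [h1, ← hhy]
        exact mem_conj g h hy
      · have := lemU g h ((g.support.erase y).erase (g⁻¹ y)) (g.support.erase y)
          (fun z hz => Finset.mem_of_mem_erase (Finset.mem_of_mem_erase hz))
          (fun z hz => Finset.mem_of_mem_erase hz)
          (fun z hz => by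
            have := mem_conj g h (Finset.mem_of_mem_erase hz)
            rwa [hhB z hz] at this)
          (fun x hx => by
            have hxB := Finset.mem_of_mem_erase hx
            refine ⟨hhB x hxB, hhB _ ?_⟩
            rw [Finset.mem_erase]
            refine ⟨?_, Equiv.Perm.apply_mem_support.mpr (Finset.mem_of_mem_erase hxB)⟩
            intro e
            apply Finset.ne_of_mem_erase hx
            rw [← e]; simp)
        have h5 := Finset.pred_card_le_card_erase (s := g.support.erase y) (a := g⁻¹ y)
        omega
    · obtain ⟨B, hBS, hBc, hB⟩ := lemE g (k - 1) (by omega)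
      by_cases hex : ∃ x ∈ B, g x ∉ B
      · obtain ⟨x, hx, hgx⟩ := hex
        obtain ⟨y₁, hy₁, hy₁B⟩ : ∃ s ∈ g.support, s ∉ insert (g x) B := by
          by_contra hcon
          push Not at hcon
          have := Finset.card_le_card (show g.support ⊆ insert (g x) B from hcon)
          rw [Finset.card_insert_of_notMem hgx] at this
          omega
        have hy₁B' : y₁ ∉ B := fun h => hy₁B (Finset.mem_insert_of_mem h)
        have hy₁x : y₁ ≠ g x := fun h => hy₁B (by rw [h]; exact Finset.mem_insert_self _ _)
        obtain ⟨h, hhG, hhB, hhy⟩ := tool G hkn hG B (by omega) (y := g x) (y' := y₁) hgx hy₁B'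
        refine ⟨_, huG h hhG, ?_, ?_⟩
        · intro h1
          rw [inv_mul_eq_one] at h1
          have h2 := congrArg (fun σ : Equiv.Perm α => σ x) h1
          have h3 : h⁻¹ x = x := by rw [Equiv.Perm.inv_eq_iff_eq]; exact (hhB x hx).symm
          simp only [Equiv.Perm.mul_apply, h3, hhy] at h2
          exact hy₁x h2.symm
        · have := lemU g h (B.erase x) (insert y₁ B)
            (fun z hz => hBS (Finset.mem_of_mem_erase hz))
            (fun z hz => by
              rcases Finset.mem_insert.mp hz with rfl | hz
              · exact hy₁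
              · exact hBS hz)
            (fun z hz => by
              rcases Finset.mem_insert.mp hz with rfl | hz
              · rw [← hhy]
                exact mem_conj g h (Equiv.Perm.apply_mem_support.mpr (hBS hx))
              · have := mem_conj g h (hBS hz)
                rwa [hhB z hz] at this)
            (fun z hz => by
              have hzB := Finset.mem_of_mem_erase hz
              refine ⟨hhB z hzB, hhB _ ?_⟩
              by_contra hgz
              exact Finset.ne_of_mem_erase hz (hB z hzB x hx hgz hgx))
          rw [Finset.card_erase_of_mem hx, Finset.card_insert_of_notMem hy₁B', hBc] at this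
          omega
      · push Not at hex
        obtain ⟨y, hy, hyB⟩ : ∃ s ∈ g.support, s ∉ B := by
          by_contra hcon
          push Not at hcon
          have := Finset.card_le_card (show g.support ⊆ B from hcon)
          omega
        obtain ⟨h, hhG, hhB, hhy⟩ := tool G hkn hG B (by omega) (y := y) (y' := y') hyB
          (fun h => hy' (hBS h))
        refine ⟨_, huG h hhG, ?_, ?_⟩
        · intro h1
          rw [inv_mul_eq_one] at h1
          apply hy'
          rw [h1, ← hhy]
          exact mem_conj g h hy
        · have := lemU g h B B hBS hBS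
            (fun z hz => by
              have := mem_conj g h (hBS hz)
              rwa [hhB z hz] at this)
            (fun z hz => ⟨hhB z hz, hhB _ (hex z hz)⟩)
          rw [hBc] at this
          omega

theorem small {α : Type*} [Fintype α] [DecidableEq α] (G : Subgroup (Equiv.Perm α)) {k : ℕ}
    (hk : 3 ≤ k) (hkn : k ≤ Fintype.card α) (hG : MulAction.IsMultiplyPretransitive G α k) (m : ℕ) :
    ∀ g : Equiv.Perm α, g ∈ G → g ≠ 1 → g.support.card < 2 * k - 2 → g.support.card = m →
      ∃ h : Equiv.Perm α, h ∈ G ∧ h ≠ 1 ∧ h.support.card ≤ 3 := by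
  induction m using Nat.strong_induction_on with
  | _ m ih =>
    intro g hg hg1 hsupp hm
    by_cases h3 : g.support.card ≤ 3
    · exact ⟨g, hg, hg1, h3⟩
    · obtain ⟨u, hu, hu1, hlt⟩ := step G hk hkn hG g hg hsupp (by omega)
      exact ih u.support.card (by omega) u hu hu1 (by omega) rfl

/-- A `k`-transitive permutation group (`k ≥ 3`) with a non-identity element of support smaller than `2k - 2` contains a non-identity element of support at most 3, and therefore contains the alternating group. -/
theorem result {α : Type*} [Fintype α] [DecidableEq α] (G : Subgroup (Equiv.Perm α)) {k : ℕ} (hk : 3 ≤ k) (hkn : k ≤ Fintype.card α) (hG : MulAction.IsMultiplyPretransitive G α k) (g : Equiv.Perm α) (hg : g ∈ G) (hg1 : g ≠ 1) (hsupp : g.support.card < 2 * k - 2) : (∃ h : Equiv.Perm α, h ∈ G ∧ h ≠ 1 ∧ h.support.card ≤ 3) ∧ alternatingGroup α ≤ G := by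
  obtain ⟨h, hh, hh1, hh3⟩ := small G hk hkn hG _ g hg hg1 hsupp rfl
  refine ⟨⟨h, hh, hh1, hh3⟩, ?_⟩
  haveI : MulAction.IsMultiplyPretransitive G α 2 :=
    MulAction.isMultiplyPretransitive_of_le (n := k) (by omega) (by rwa [Nat.card_eq_fintype_card])
  have hprim : MulAction.IsPreprimitive G α := MulAction.isPreprimitive_of_is_two_pretransitive inferInstance
  have h0 : h.support.card ≠ 0 := by
    rw [Ne, Equiv.Perm.card_support_eq_zero]; exact hh1
  have h1 := Equiv.Perm.card_support_ne_one h
  have h23 : h.support.card = 2 ∨ h.support.card = 3 := by omega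
  rcases h23 with h2 | h3
  · rw [Equiv.Perm.card_support_eq_two] at h2
    rw [Equiv.Perm.subgroup_eq_top_of_isPreprimitive_of_isSwap_mem hprim h h2 hh]
    exact le_top
  · rw [card_support_eq_three_iff] at h3
    exact Equiv.Perm.alternatingGroup_le_of_isPreprimitive_of_isThreeCycle_mem hprim h3 hh

end Cfsg.Agent.S0711
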