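import Cfsg.Statements.S0712
import Mathlib.GroupTheory.GroupAction.Jordan

set_option autoImplicit false
open Cfsg

namespace Cfsg.Agent.S0712

open MulAction SubMulAction

theorem aux {G α : Type*} [Group G] [MulAction G α] [Finite α]
    (hG : IsPreprimitive G α) (s : Set α) {m : ℕ} (hsm : s.ncard = m) (hm : m + 2 ≤ Nat.card α)
    (h2 : IsMultiplyPretransitive (fixingSubgroup G s) (ofFixingSubgroup G s) 2) :
    IsMultiplyPretransitive G α (m + 2) := by
  induction m generalizing α G with
  | zero =>
    have hs : s = ∅ := by
      rwa [Set.ncard_eq_zero (Set.toFinite s)] at hsm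
    subst hs
    exact (IsPretransitive.of_embedding_congr
      (of_fixingSubgroupEmpty_mapScalars_surjective (M := G) (α := α))
      (ofFixingSubgroupEmpty_equivariantMap_bijective (M := G) (α := α))).mp h2
  | succ n hrec =>
    have hprim : IsPreprimitive (fixingSubgroup G s) (ofFixingSubgroup G s) :=
      isPreprimitive_of_is_two_pretransitive h2
    have hsn' : n + 2 < Nat.card α := by omega
    have h2p := hG.is_two_preprimitive hsm hsn' hprim
    have hne : s.Nonempty := by
      rw [← Set.ncard_pos, hsm]; apply Nat.succ_pos
    obtain ⟨a, ha⟩ := hne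
    have hst : s = insert a (Subtype.val '' (Subtype.val ⁻¹' s : Set (ofStabilizer G a))) := by
      ext x
      by_cases hx : x = a <;> simp [hx, mem_ofStabilizer_iff, ha]
    set t : Set (ofStabilizer G a) := Subtype.val ⁻¹' s with ht
    have ha' : a ∉ Subtype.val '' t := by
      intro h; rw [Set.mem_image] at h; obtain ⟨x, hx⟩ := h
      apply x.prop; rw [hx.right]; exact Set.mem_singleton a
    have ht_prim : IsPreprimitive (stabilizer G a) (ofStabilizer G a) := by
      rw [← is_one_preprimitive_iff]
      rw [← isMultiplyPreprimitive_succ_iff_ofStabilizer]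
      · exact h2p
      · norm_num
    have h2' : IsMultiplyPretransitive ↥(fixingSubgroup G (insert a (Subtype.val '' t)))
        (ofFixingSubgroup G (insert a (Subtype.val '' t))) 2 :=
      IsPretransitive.of_embedding
        (ofFixingSubgroup_of_eq_bijective (hst := hst)).surjective
    have h2'' : IsMultiplyPretransitive (fixingSubgroup (stabilizer G a) t)
        (ofFixingSubgroup (stabilizer G a) t) 2 :=
      IsPretransitive.of_embedding
        ofFixingSubgroup_insert_map_bijective.surjective
    have := hG.toIsPretransitive
    rw [show n + 1 + 2 = (n + 2).succ from rfl, ofStabilizer.isMultiplyPretransitive (a := a)]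
    refine hrec ht_prim t ?_ ?_ h2''
    · rw [← Set.ncard_image_of_injective t Subtype.val_injective]
      apply Nat.add_right_cancel
      rw [← Set.ncard_insert_of_notMem ha', ← hst, hsm]
    · rw [← Nat.add_le_add_iff_right (n := 1), nat_card_ofStabilizer_add_one_eq]
      exact hm

/-- Jordan: a primitive group in which the pointwise stabiliser of a set `s` is doubly transitive on the complement of `s` (which has at least 2 points) is `(|s| + 2)`-transitive. -/
theorem result {α : Type*} [Fintype α] [DecidableEq α] (G : Subgroup (Equiv.Perm α)) (hG : MulAction.IsPreprimitive G α) (s : Set α) {m : ℕ} (hsm : s.ncard = m) (hm : m + 2 ≤ Fintype.card α) (h2 : MulAction.IsMultiplyPretransitive (fixingSubgroup G s) (SubMulAction.ofFixingSubgroup G s) 2) : MulAction.IsMultiplyPretransitive G α (m + 2) := by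
  exact aux hG s hsm (by rwa [Nat.card_eq_fintype_card]) h2

end Cfsg.Agent.S0712
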