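import Cfsg.Statements.S0713
import Mathlib

set_option autoImplicit false
open Cfsg

namespace Cfsg.Agent.S0713

open MulAction Equiv Equiv.Perm

theorem conj_of_card_prime {H : Type*} [Group H] [Finite H] {p : ℕ} [hp : Fact p.Prime]
    (h2 : ¬ p ^ 2 ∣ Nat.card H) (A B : Subgroup H) (hA : Nat.card A = p) (hB : Nat.card B = p) :
    ∃ c : H, ∀ x, x ∈ A → c * x * c⁻¹ ∈ B := by
  have key : ∀ (A : Subgroup H), Nat.card A = p → ∃ Q : Sylow p H, (Q : Subgroup H) = A := by
    intro A hA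
    have hAp : IsPGroup p A := IsPGroup.of_card (n := 1) (by rw [hA, pow_one])
    obtain ⟨Q, hQ⟩ := hAp.exists_le_sylow
    refine ⟨Q, ?_⟩
    have hc := Q.card_eq_multiplicity
    set j := (Nat.card H).factorization p with hj
    have hdvd : p ^ j ∣ Nat.card H := Nat.ordProj_dvd _ _
    have hj2 : j < 2 := by
      by_contra hcon
      exact h2 ((pow_dvd_pow p (not_lt.mp hcon)).trans hdvd)
    have hle : Nat.card A ≤ Nat.card Q := Subgroup.card_le_of_le hQ
    have hQc : Nat.card Q ≤ Nat.card A := by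
      rw [hA]
      rw [hc]
      calc p ^ j ≤ p ^ 1 := Nat.pow_le_pow_right hp.out.pos (by omega)
        _ = p := pow_one p
    exact (Subgroup.eq_of_le_of_card_ge hQ hQc).symm
  obtain ⟨QA, hQA⟩ := key A hA
  obtain ⟨QB, hQB⟩ := key B hB
  obtain ⟨c, hc⟩ := MulAction.exists_smul_eq H QA QB
  refine ⟨c, fun x hx => ?_⟩
  rw [← hQB, ← hc, Sylow.coe_subgroup_smul, Subgroup.mem_pointwise_smul_iff_inv_smul_mem]
  simp only [MulAut.smul_def, ← map_inv, MulAut.conj_apply, inv_inv]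
  rw [hQA]
  have : c⁻¹ * (c * x * c⁻¹) * c = x := by group
  rw [this]; exact hx
theorem card_dvd_factorial_of_fix {α : Type*} [Fintype α] [DecidableEq α] (S : Finset α)
    (H : Subgroup (Perm α)) (hH : ∀ h ∈ H, ∀ a, a ∉ S → h a = a) :
    Nat.card H ∣ S.card.factorial := by
  have hle : H ≤ (ofSubtype : Perm {x // x ∈ S} →* Perm α).range := by
    intro h hh
    refine ⟨(Perm.subtypeEquivSubtypePerm (· ∈ S)).symm ⟨h, hH h hh⟩, ?_⟩
    exact congrArg Subtype.val
      ((Perm.subtypeEquivSubtypePerm (· ∈ S)).apply_symm_apply ⟨h, hH h hh⟩)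
  have h1 := Subgroup.card_dvd_of_le hle
  have h2 : Nat.card (ofSubtype : Perm {x // x ∈ S} →* Perm α).range = S.card.factorial := by
    rw [← Nat.card_congr (MonoidHom.ofInjective ofSubtype_injective).toEquiv, Nat.card_perm]
    simp
  rwa [h2] at h1

theorem not_sq_dvd_factorial {p : ℕ} (hp : p.Prime) : ¬ p ^ 2 ∣ p.factorial := by
  intro h
  obtain ⟨m, rfl⟩ : ∃ m, p = m + 1 := ⟨p - 1, by have := hp.pos; omega⟩
  rw [Nat.factorial_succ, pow_two] at h
  have h2 : (m + 1) ∣ m.factorial := Nat.dvd_of_mul_dvd_mul_left (Nat.succ_pos m) h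
  have := (hp.dvd_factorial).mp h2
  omega

theorem witt_step {α : Type*} [Fintype α] [DecidableEq α] (G : Subgroup (Perm α)) {p : ℕ}
    (hp : p.Prime) {g : Perm α} (hgc : g.IsCycle) (hgp : g.support.card = p) (hg : g ∈ G)
    (h : Perm α) (hh : h ∈ G) (hs : ∀ t, t ∉ g.support → h t ∉ g.support) :
    ∃ n ∈ G, (∀ t, t ∉ g.support → n t = h t) ∧ ∃ a : ℤ, n * g * n⁻¹ = g ^ a := by
  have : Fact p.Prime := ⟨hp⟩
  let H : Subgroup (Perm α) :=
    { carrier := {f | f ∈ G ∧ ∀ a, a ∉ g.support → f a = a}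
      mul_mem' := by
        rintro x y ⟨hx, hx'⟩ ⟨hy, hy'⟩
        exact ⟨G.mul_mem hx hy, fun a ha => by rw [Perm.mul_apply, hy' a ha, hx' a ha]⟩
      one_mem' := ⟨G.one_mem, fun a _ => rfl⟩
      inv_mem' := by
        rintro x ⟨hx, hx'⟩
        exact ⟨G.inv_mem hx, fun a ha => by rw [Perm.inv_eq_iff_eq, hx' a ha]⟩ }
  have hgH : g ∈ H := ⟨hg, fun a ha => Perm.notMem_support.mp ha⟩
  have hsinv : ∀ a, a ∉ g.support → h⁻¹ a ∉ g.support := by
    intro a ha
    let f : {x // x ∉ g.support} → {x // x ∉ g.support} := fun x => ⟨h x, hs x x.2⟩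
    have hf : Function.Injective f := by
      intro x y hxy
      apply Subtype.ext
      exact h.injective (congrArg Subtype.val hxy)
    obtain ⟨b, hb⟩ := Finite.surjective_of_injective hf ⟨a, ha⟩
    have hb' : h b = a := congrArg Subtype.val hb
    rw [← hb']
    simp only [Perm.coe_inv, symm_apply_apply]
    exact b.2
  have hg'H : h * g * h⁻¹ ∈ H := by
    refine ⟨G.mul_mem (G.mul_mem hh hg) (G.inv_mem hh), fun a ha => ?_⟩
    rw [Perm.mul_apply, Perm.mul_apply, Perm.notMem_support.mp (hsinv a ha)]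
    simp only [Perm.coe_inv, apply_symm_apply]
  have hcard : ¬ p ^ 2 ∣ Nat.card H := by
    intro hd
    have h1 := card_dvd_factorial_of_fix g.support H (fun f hf => hf.2)
    rw [hgp] at h1
    exact not_sq_dvd_factorial hp (hd.trans h1)
  have hog : orderOf g = p := by rw [hgc.orderOf, hgp]
  have hog' : orderOf (h * g * h⁻¹) = p := by
    rw [← hog]
    exact (MulAut.conj h).orderOf_eq g
  obtain ⟨c, hc⟩ := conj_of_card_prime hcard (Subgroup.zpowers (⟨h * g * h⁻¹, hg'H⟩ : H))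
    (Subgroup.zpowers (⟨g, hgH⟩ : H)) (by rw [Nat.card_zpowers, Subgroup.orderOf_mk, hog'])
    (by rw [Nat.card_zpowers, Subgroup.orderOf_mk, hog])
  obtain ⟨a, ha⟩ := Subgroup.mem_zpowers_iff.mp (hc _ (Subgroup.mem_zpowers _))
  have ha' : g ^ a = c.1 * (h * g * h⁻¹) * c.1⁻¹ := by
    simpa using congrArg Subtype.val ha
  refine ⟨c.1 * h, G.mul_mem c.2.1 hh, fun t ht => ?_, a, ?_⟩
  · rw [Perm.mul_apply, c.2.2 _ (hs t ht)]
  · rw [ha']; group

theorem exists_extend {α : Type*} [Fintype α] [DecidableEq α] (G : Subgroup (Perm α))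
    (S : Finset α) (hk : IsMultiplyPretransitive G α S.card) (σ : Perm α) :
    ∃ h ∈ G, ∀ t ∈ S, h t = σ t := by
  let e : Fin S.card ≃ S := S.equivFin.symm
  let x : Fin S.card ↪ α := e.toEmbedding.trans (Function.Embedding.subtype _)
  let y : Fin S.card ↪ α := x.trans σ.toEmbedding
  obtain ⟨h, hh⟩ := exists_smul_eq G x y
  refine ⟨h.1, h.2, fun t ht => ?_⟩
  have h1 := DFunLike.congr_fun hh (e.symm ⟨t, ht⟩)
  rw [Function.Embedding.smul_apply] at h1
  have h2 : h • t = σ t := by simpa [x, y] using h1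
  exact h2

theorem jordan_trans {α : Type*} [Fintype α] [DecidableEq α] (G : Subgroup (Perm α))
    (hG : IsPreprimitive G α) {p : ℕ} (hp : p.Prime) (hpn : p + 3 ≤ Fintype.card α)
    {g : Perm α} (hgc : g.IsCycle) (hgp : g.support.card = p) (hg : g ∈ G) :
    IsMultiplyPretransitive G α (g.supportᶜ).card := by
  classical
  obtain ⟨m, hm⟩ : ∃ m, Fintype.card α = p + (m + 1) := ⟨Fintype.card α - p - 1, by omega⟩
  have hcard : (g.supportᶜ).card = m + 1 := by
    rw [Finset.card_compl, hgp]; omega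
  have hsc : Set.ncard ((g.support : Set α)ᶜ) = m + 1 := by
    apply Nat.add_left_cancel (n := (g.support : Set α).ncard)
    rw [Set.ncard_add_ncard_compl, Set.ncard_coe_finset, hgp, Nat.card_eq_fintype_card, hm]
  have hprim : IsMultiplyPreprimitive G α (m + 2) := by
    apply hG.isMultiplyPreprimitive hsc
    · rw [Nat.card_eq_fintype_card, hm]; have := hp.two_le; omega
    have := isPretransitive_of_isCycle_mem hgc hg
    apply IsPreprimitive.of_prime_card
    convert hp
    rw [Nat.card_eq_fintype_card, Fintype.card_subtype, ← hgp]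
    apply congr_arg
    ext x
    simp [SubMulAction.mem_ofFixingSubgroup_iff]
  rw [hcard]
  have : IsMultiplyPretransitive G α (m + 2) := inferInstance
  exact isMultiplyPretransitive_of_le (n := m + 2) (by omega)
    (by rw [Nat.card_eq_fintype_card, hm]; have := hp.two_le; omega)

theorem jordan_prime {α : Type*} [Fintype α] [DecidableEq α] (G : Subgroup (Perm α))
    (hG : IsPreprimitive G α) {p : ℕ} (hp : p.Prime) (hpn : p + 3 ≤ Fintype.card α)
    {g : Perm α} (hgc : g.IsCycle) (hgp : g.support.card = p) (hg : g ∈ G) :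
    alternatingGroup α ≤ G := by
  have hk := jordan_trans G hG hp hpn hgc hgp hg
  have hc3 : 2 < (g.supportᶜ).card := by rw [Finset.card_compl, hgp]; omega
  obtain ⟨a, ha, b, hb, c, hc, hab, hac, hbc⟩ := Finset.two_lt_card.mp hc3
  rw [Finset.mem_compl] at ha hb hc
  have step : ∀ σ : Perm α, (∀ t, t ∉ g.support → σ t ∉ g.support) →
      ∃ n ∈ G, (∀ t, t ∉ g.support → n t = σ t) ∧ ∃ a : ℤ, n * g * n⁻¹ = g ^ a := by
    intro σ hσ
    obtain ⟨h, hh, hht⟩ := exists_extend G (g.supportᶜ) hk σ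
    have hht' : ∀ t, t ∉ g.support → h t = σ t := fun t ht => hht t (Finset.mem_compl.mpr ht)
    obtain ⟨n, hn, hnt, a, hna⟩ := witt_step G hp hgc hgp hg h hh
      (fun t ht => by rw [hht' t ht]; exact hσ t ht)
    exact ⟨n, hn, fun t ht => by rw [hnt t ht, hht' t ht], a, hna⟩
  have hsw : ∀ u v, u ∉ g.support → v ∉ g.support → ∀ t, t ∉ g.support →
      swap u v t ∉ g.support := by
    intro u v hu hv t ht
    by_cases h1 : t = u
    · rw [h1, swap_apply_left]; exact hv
    by_cases h2 : t = v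
    · rw [h2, swap_apply_right]; exact hu
    rw [swap_apply_of_ne_of_ne h1 h2]; exact ht
  obtain ⟨n1, hn1, hn1t, a1, h1⟩ := step (swap a b) (hsw a b ha hb)
  obtain ⟨n2, hn2, hn2t, a2, h2⟩ := step (swap b c) (hsw b c hb hc)
  have hn1i : ∀ u, u ∉ g.support → n1⁻¹ u = swap a b u := by
    intro u hu
    rw [Perm.inv_eq_iff_eq, hn1t _ (hsw a b ha hb u hu), swap_apply_self]
  have hn2i : ∀ u, u ∉ g.support → n2⁻¹ u = swap b c u := by
    intro u hu
    rw [Perm.inv_eq_iff_eq, hn2t _ (hsw b c hb hc u hu), swap_apply_self]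
  set x := (n2 * n1)⁻¹ * (n1 * n2) with hx
  have hxG : x ∈ G := G.mul_mem (G.inv_mem (G.mul_mem hn2 hn1)) (G.mul_mem hn1 hn2)
  have e1 : (n1 * n2) * g * (n1 * n2)⁻¹ = g ^ (a1 * a2) := by
    calc (n1 * n2) * g * (n1 * n2)⁻¹ = n1 * (n2 * g * n2⁻¹) * n1⁻¹ := by group
      _ = n1 * g ^ a2 * n1⁻¹ := by rw [h2]
      _ = (n1 * g * n1⁻¹) ^ a2 := by rw [conj_zpow]
      _ = g ^ (a1 * a2) := by rw [h1, zpow_mul]
  have e2 : (n2 * n1) * g * (n2 * n1)⁻¹ = g ^ (a1 * a2) := by
    calc (n2 * n1) * g * (n2 * n1)⁻¹ = n2 * (n1 * g * n1⁻¹) * n2⁻¹ := by group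
      _ = n2 * g ^ a1 * n2⁻¹ := by rw [h1]
      _ = (n2 * g * n2⁻¹) ^ a1 := by rw [conj_zpow]
      _ = g ^ (a1 * a2) := by rw [h2, mul_comm a1 a2, zpow_mul]
  have hxg : Commute x g := by
    show x * g = g * x
    have e3 : (n1 * n2) * g = (n2 * n1) * g * (n2 * n1)⁻¹ * (n1 * n2) := by
      rw [e2, ← e1]; group
    calc x * g = (n2 * n1)⁻¹ * ((n1 * n2) * g) := by rw [hx]; group
      _ = (n2 * n1)⁻¹ * ((n2 * n1) * g * (n2 * n1)⁻¹ * (n1 * n2)) := by rw [e3]
      _ = g * x := by rw [hx]; group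
  have hxt : ∀ t, t ∉ g.support → x t = swap a b (swap b c (swap a b (swap b c t))) := by
    intro t ht
    have t1 := hsw b c hb hc t ht
    have t2 := hsw a b ha hb _ t1
    have t3 := hsw b c hb hc _ t2
    rw [hx, mul_inv_rev]
    simp only [Perm.mul_apply]
    rw [hn2t t ht, hn1t _ t1, hn2i _ t2, hn1i _ t3]
  clear_value x
  obtain ⟨y0, hy0, -⟩ := id hgc
  have hxy0 : g (x y0) ≠ x y0 := by
    intro hcon
    apply hy0
    have : x (g y0) = x y0 := by
      rw [← hcon, ← Perm.mul_apply, ← Perm.mul_apply, hxg.eq]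
    exact x.injective this
  obtain ⟨i, hi⟩ := hgc.sameCycle hy0 hxy0
  have hxy : ∀ y, y ∈ g.support → x y = (g ^ i) y := by
    intro y hy
    obtain ⟨j, hj⟩ := hgc.sameCycle hy0 (Perm.mem_support.mp hy)
    have hc1 : Commute x (g ^ j) := hxg.zpow_right j
    calc x y = (x * g ^ j) y0 := by rw [Perm.mul_apply, hj]
      _ = (g ^ j * x) y0 := by rw [hc1.eq]
      _ = (g ^ j * g ^ i) y0 := by rw [Perm.mul_apply, ← hi, ← Perm.mul_apply]
      _ = (g ^ i * g ^ j) y0 := by rw [← zpow_add, ← zpow_add, add_comm]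
      _ = (g ^ i) y := by rw [Perm.mul_apply, hj]
  have hz : (g ^ i)⁻¹ * x = (swap b a * swap b c) ^ 2 := by
    ext w
    rw [Perm.mul_apply, pow_two, swap_comm b a]
    simp only [Perm.mul_apply]
    by_cases hw : w ∈ g.support
    · rw [hxy w hw]
      have wa : w ≠ a := fun h => ha (h ▸ hw)
      have wb : w ≠ b := fun h => hb (h ▸ hw)
      have wc : w ≠ c := fun h => hc (h ▸ hw)
      simp [swap_apply_of_ne_of_ne, wa, wb, wc]
    · rw [hxt w hw, Perm.inv_eq_iff_eq]
      have t1 := hsw b c hb hc w hw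
      have t2 := hsw a b ha hb _ t1
      have t3 := hsw b c hb hc _ t2
      have t4 := hsw a b ha hb _ t3
      exact (Perm.zpow_apply_eq_self_of_apply_eq_self (Perm.notMem_support.mp t4) i).symm
  have h3 : ((swap b a * swap b c) ^ 2).IsThreeCycle :=
    (isThreeCycle_swap_mul_swap_same hab.symm hbc hac).isThreeCycle_sq
  apply alternatingGroup_le_of_isPreprimitive_of_isThreeCycle_mem hG h3
  rw [← hz]
  exact G.mul_mem (G.inv_mem (G.zpow_mem hg i)) hxG


/-- Jordan's Theorem: a primitive permutation group of degree `n ≥ 5` containing a `p`-cycle for a prime `p ≤ n - 3` contains the alternating group. -/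
theorem result {α : Type*} [Fintype α] [DecidableEq α] (G : Subgroup (Equiv.Perm α)) (hG : MulAction.IsPreprimitive G α) {p : ℕ} (hp : p.Prime) (hn : 5 ≤ Fintype.card α) (hpn : p + 3 ≤ Fintype.card α) {g : Equiv.Perm α} (hgc : g.IsCycle) (hgp : g.support.card = p) (hg : g ∈ G) : alternatingGroup α ≤ G := by
  exact jordan_prime G hG hp hpn hgc hgp hg


end Cfsg.Agent.S0713
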