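import Cfsg.Statements.S0714
-- import your own Cfsg.Agent.* helpers here
import Mathlib

set_option autoImplicit false
open Cfsg

namespace Cfsg.Agent.S0714

/-- the 3-cycle `x → y → z → x` -/
def c3 {α : Type*} [DecidableEq α] (x y z : α) : Equiv.Perm α := Equiv.swap x y * Equiv.swap y z

theorem c3_fst {α : Type*} [DecidableEq α] {x y z : α} (hxy : x ≠ y) (hxz : x ≠ z) : c3 x y z x = y := by
  simp [c3, Equiv.swap_apply_of_ne_of_ne hxy hxz]

theorem c3_snd {α : Type*} [DecidableEq α] {x y z : α} (hxz : x ≠ z) (hyz : y ≠ z) : c3 x y z y = z := by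
  simp [c3, Equiv.swap_apply_of_ne_of_ne hxz.symm hyz.symm]

theorem c3_trd {α : Type*} [DecidableEq α] {x y z : α} : c3 x y z z = x := by
  simp [c3]

theorem c3_other {α : Type*} [DecidableEq α] {x y z w : α} (h1 : w ≠ x) (h2 : w ≠ y) (h3 : w ≠ z) :
    c3 x y z w = w := by
  simp [c3, Equiv.swap_apply_of_ne_of_ne h2 h3, Equiv.swap_apply_of_ne_of_ne h1 h2]

theorem c3_mem {α : Type*} [Fintype α] [DecidableEq α] {x y z : α} (hxy : x ≠ y) (hyz : y ≠ z) :
    c3 x y z ∈ alternatingGroup α := by
  rw [Equiv.Perm.mem_alternatingGroup, c3, Equiv.Perm.sign_mul, Equiv.Perm.sign_swap hxy,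
    Equiv.Perm.sign_swap hyz]
  rfl

theorem comp_mem {α : Type*} [Fintype α] [DecidableEq α] {K : Type*} [Field K]
    (W : Subrepresentation (Cfsg.permRep K (alternatingGroup α) α)) {f : α → K}
    (hf : f ∈ W.toSubmodule) {τ : Equiv.Perm α} (hτ : τ ∈ alternatingGroup α) :
    (fun x => f (τ x)) ∈ W.toSubmodule := by
  have := W.apply_mem_toSubmodule (⟨τ, hτ⟩⁻¹ : alternatingGroup α) hf
  have e : Cfsg.permRep K (alternatingGroup α) α (⟨τ, hτ⟩⁻¹ : alternatingGroup α) f = fun x => f (τ x) := by
    funext x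
    change f (((⟨τ, hτ⟩⁻¹ : alternatingGroup α))⁻¹ • x) = f (τ x)
    rw [inv_inv]
    rfl
  rwa [e] at this

theorem key {α : Type*} [Fintype α] [DecidableEq α] {K : Type*} [Field K]
    (W : Subrepresentation (Cfsg.permRep K (alternatingGroup α) α)) {w : α → K}
    (hw : w ∈ W.toSubmodule) {a b c d e : α} (hab : a ≠ b) (hac : a ≠ c) (had : a ≠ d) (hae : a ≠ e)
    (hbc : b ≠ c) (hbd : b ≠ d) (hbe : b ≠ e) (hcd : c ≠ d) (hce : c ≠ e) (hde : d ≠ e)
    (hne : w a ≠ w b) : (Pi.single a 1 - Pi.single d 1 : α → K) ∈ W.toSubmodule := by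
  set v : α → K := w - fun x => w (c3 a b c x) with hv
  have hvW : v ∈ W.toSubmodule := W.toSubmodule.sub_mem hw (comp_mem W hw (c3_mem hab hbc))
  have hva : v a = w a - w b := by simp [hv, c3_fst hab hac]
  have hv0 : ∀ x, x ≠ a → x ≠ b → x ≠ c → v x = 0 := by
    intro x h1 h2 h3
    simp [hv, c3_other h1 h2 h3]
  set u : α → K := v - fun x => v (c3 d a e x) with hu
  have huW : u ∈ W.toSubmodule := W.toSubmodule.sub_mem hvW (comp_mem W hvW (c3_mem had.symm hae))
  have hua : u a = v a := by
    simp [hu, c3_snd hde hae, hv0 e hae.symm hbe.symm hce.symm]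
  have hud : u d = - v a := by
    simp [hu, c3_fst had.symm hde, hv0 d had.symm hbd.symm hcd.symm]
  have hu0 : ∀ x, x ≠ a → x ≠ d → u x = 0 := by
    intro x h1 h2
    by_cases h3 : x = e
    · subst h3
      simp [hu, c3_trd, hv0 x hae.symm hbe.symm hce.symm, hv0 d had.symm hbd.symm hcd.symm]
    · simp [hu, c3_other h2 h1 h3]
  have ht : v a ≠ 0 := by rw [hva]; exact sub_ne_zero.mpr hne
  have : (Pi.single a 1 - Pi.single d 1 : α → K) = (v a)⁻¹ • u := by
    funext x
    by_cases h1 : x = a
    · subst h1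
      simp [hua, ht, Pi.single_apply, had]
    · by_cases h2 : x = d
      · subst h2
        simp [hud, ht, Pi.single_apply, h1]
      · simp [hu0 x h1 h2, Pi.single_apply, h1, h2]
  rw [this]
  exact W.toSubmodule.smul_mem _ huW

theorem exists3 {α : Type*} [Fintype α] [DecidableEq α] (hα : 5 ≤ Fintype.card α) (s : Finset α)
    (hs : s.card ≤ 4) : ∃ x, x ∉ s := by
  by_contra hcon
  push Not at hcon
  have : s = Finset.univ := Finset.eq_univ_iff_forall.mpr hcon
  rw [this, Finset.card_univ] at hs
  omega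

theorem key2 {α : Type*} [Fintype α] [DecidableEq α] (hα : 5 ≤ Fintype.card α) {K : Type*} [Field K]
    (W : Subrepresentation (Cfsg.permRep K (alternatingGroup α) α)) {w : α → K}
    (hw : w ∈ W.toSubmodule) {a b d : α} (hab : a ≠ b) (had : a ≠ d) (hbd : b ≠ d)
    (hne : w a ≠ w b) : (Pi.single a 1 - Pi.single d 1 : α → K) ∈ W.toSubmodule := by
  obtain ⟨c, hc⟩ := exists3 hα {a, b, d} (le_trans (Finset.card_le_three) (by norm_num))
  obtain ⟨e, he⟩ := exists3 hα {a, b, d, c} (Finset.card_le_four)
  simp only [Finset.mem_insert, Finset.mem_singleton, not_or] at hc he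
  exact key W hw hab (Ne.symm hc.1) had (Ne.symm he.1) (Ne.symm hc.2.1) hbd (Ne.symm he.2.1) hc.2.2
    (Ne.symm he.2.2.2) (Ne.symm he.2.2.1) hne

theorem sumZero_le {α : Type*} [Fintype α] [DecidableEq α] (hα : 5 ≤ Fintype.card α) {K : Type*} [Field K]
    (W : Subrepresentation (Cfsg.permRep K (alternatingGroup α) α)) {w : α → K}
    (hw : w ∈ W.toSubmodule) {a b : α} (hne : w a ≠ w b) :
    (Cfsg.permSumZero K (alternatingGroup α) α).toSubmodule ≤ W.toSubmodule := by
  have hab : a ≠ b := fun h => hne (by rw [h])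
  have h1 : ∀ x, (Pi.single a 1 - Pi.single x 1 : α → K) ∈ W.toSubmodule := by
    intro x
    by_cases hxa : x = a
    · subst hxa; simp
    · by_cases hxb : x = b
      · subst hxb
        obtain ⟨d, hd⟩ := exists3 hα {a, x} (le_trans (Finset.card_le_two) (by norm_num))
        simp only [Finset.mem_insert, Finset.mem_singleton, not_or] at hd
        have e1 := key2 hα W hw hab (Ne.symm hd.1) (Ne.symm hd.2) hne
        have e2 := key2 hα W hw hab.symm (Ne.symm hd.2) (Ne.symm hd.1) hne.symm
        have := W.toSubmodule.sub_mem e1 e2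
        simpa using this
      · exact key2 hα W hw hab (Ne.symm hxa) (Ne.symm hxb) hne
  intro f hf
  have hf0 : ∑ x, f x = 0 := hf
  have : f = - ∑ x, f x • (Pi.single a 1 - Pi.single x 1 : α → K) := by
    funext y
    simp only [Pi.neg_apply, Finset.sum_apply, Pi.smul_apply, Pi.sub_apply, smul_eq_mul, mul_sub,
      Finset.sum_sub_distrib, Pi.single_apply, mul_ite, mul_one, mul_zero, Finset.sum_ite_eq,
      Finset.mem_univ, if_true]
    by_cases hya : y = a
    · simp [hya, hf0]
    · simp [hya]
  rw [this]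
  exact W.toSubmodule.neg_mem (W.toSubmodule.sum_mem fun x _ => W.toSubmodule.smul_mem _ (h1 x))

/-- Over any field, the permutation module of the alternating group of degree at least 5 has exactly four invariant subspaces: zero, the constant functions, the functions with coordinate sum zero, and everything. -/
theorem result {α : Type*} [Fintype α] [DecidableEq α] (hα : 5 ≤ Fintype.card α) {K : Type*} [Field K] (W : Subrepresentation (Cfsg.permRep K (alternatingGroup α) α)) : W.toSubmodule = ⊥ ∨ W = Cfsg.permConstants K (alternatingGroup α) α ∨ W = Cfsg.permSumZero K (alternatingGroup α) α ∨ W.toSubmodule = ⊤ := by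
  by_cases hconst : ∀ w ∈ W.toSubmodule, ∀ a b : α, w a = w b
  · by_cases hbot : W.toSubmodule = ⊥
    · exact Or.inl hbot
    · right; left
      obtain ⟨w, hw, hw0⟩ := (Submodule.ne_bot_iff _).mp hbot
      obtain ⟨a₀, ha₀⟩ : ∃ a, w a ≠ 0 := by
        by_contra hcon
        push Not at hcon
        exact hw0 (funext hcon)
      apply Subrepresentation.toSubmodule_injective
      apply le_antisymm
      · intro f hf
        change f ∈ Submodule.span K {fun _ => (1 : K)}
        rw [Submodule.mem_span_singleton]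
        exact ⟨f a₀, funext fun x => by simp [hconst f hf x a₀]⟩
      · change Submodule.span K {fun _ => (1 : K)} ≤ W.toSubmodule
        rw [Submodule.span_singleton_le_iff_mem]
        have : (fun _ => (1 : K)) = (w a₀)⁻¹ • w := by
          funext x
          simp [hconst w hw x a₀, ha₀]
        rw [this]
        exact W.toSubmodule.smul_mem _ hw
  · push Not at hconst
    obtain ⟨w, hw, a, b, hne⟩ := hconst
    have hle := sumZero_le hα W hw hne
    right; right
    by_cases hle' : W.toSubmodule ≤ (Cfsg.permSumZero K (alternatingGroup α) α).toSubmodule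
    · left
      exact Subrepresentation.toSubmodule_injective (le_antisymm hle' hle)
    · right
      obtain ⟨w', hw', hs⟩ := SetLike.not_le_iff_exists.mp hle'
      have hs' : ∑ x, w' x ≠ 0 := hs
      rw [eq_top_iff]
      intro f _
      have h1 : f - ((∑ x, f x) / (∑ x, w' x)) • w' ∈ W.toSubmodule := by
        apply hle
        change ∑ x, (f - ((∑ x, f x) / (∑ x, w' x)) • w') x = 0
        simp only [Pi.sub_apply, Pi.smul_apply, smul_eq_mul, Finset.sum_sub_distrib, ← Finset.mul_sum]
        field_simp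
        ring
      have := W.toSubmodule.add_mem h1 (W.toSubmodule.smul_mem ((∑ x, f x) / (∑ x, w' x)) hw')
      simpa using this

end Cfsg.Agent.S0714
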