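import Cfsg.Statements.S0715
import Cfsg.Agent.Lib.Helper25.Hecke3

set_option autoImplicit false
open Cfsg

namespace Cfsg.Agent.S0715

open Cfsg.Agent.Lib.Helper25 Cfsg.Agent.Lib

/-- If a natural number `f` divides the degree of every non-principal irreducible constituent of the permutation character of a transitive group, then `f` divides every non-trivial subdegree. -/
theorem result {G : Type*} [Group G] [Fintype G] {Ω : Type*} [Fintype Ω] [MulAction G Ω] [MulAction.IsPretransitive G Ω] (f : ℕ) (hf : ∀ χ : G → ℂ, Cfsg.IsIrrCharacter G χ → χ ≠ (fun _ => 1) → Cfsg.classInner (fun g : G => (Nat.card (MulAction.fixedBy Ω g) : ℂ)) χ ≠ 0 → ∃ m : ℕ, χ 1 = (f : ℂ) * m) (a b : Ω) (hab : b ≠ a) : f ∣ Nat.card (MulAction.orbit (MulAction.stabilizer G a) b) := by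
  classical
  apply dvd_card_suborbit f hf a (MulAction.orbit (MulAction.stabilizer G a) b)
  · rintro ⟨h, hh⟩
    apply hab
    have h1 : (h : G) • b = a := hh
    have h2 : (h : G) • a = a := h.2
    exact smul_left_cancel (h : G) (h1.trans h2.symm)
  · intro h hh y
    constructor
    · rintro ⟨k, hk⟩
      refine ⟨(⟨h, hh⟩ : MulAction.stabilizer G a)⁻¹ * k, ?_⟩
      have hk' : (k : G) • b = h • y := hk
      show ((⟨h, hh⟩ : MulAction.stabilizer G a)⁻¹ * k : MulAction.stabilizer G a).1 • b = y
      simp only [Subgroup.coe_mul, Subgroup.coe_inv, mul_smul, hk', inv_smul_smul]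
    · rintro ⟨k, hk⟩
      refine ⟨(⟨h, hh⟩ : MulAction.stabilizer G a) * k, ?_⟩
      have hk' : (k : G) • b = y := hk
      show ((⟨h, hh⟩ : MulAction.stabilizer G a) * k : MulAction.stabilizer G a).1 • b = h • y
      simp only [Subgroup.coe_mul, mul_smul, hk']

end Cfsg.Agent.S0715
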