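import Cfsg.Statements.S0716
import Cfsg.Agent.Lib.Helper25.Hecke5

set_option autoImplicit false
open Cfsg

namespace Cfsg.Agent.S0716

open Cfsg.Agent.Lib.Helper25 Cfsg.Agent.Lib

/-- (a) If all non-principal irreducible constituents of the permutation character of a transitive group have the same degree `f`, the character is multiplicity-free and all non-trivial subdegrees equal `f`. (b) A transitive group of rank at most 5 has multiplicity-free permutation character. -/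
theorem result {G : Type*} [Group G] [Fintype G] {Ω : Type*} [Fintype Ω] [MulAction G Ω] [MulAction.IsPretransitive G Ω] (a : Ω) : ((f : ℕ) → (∀ χ : G → ℂ, Cfsg.IsIrrCharacter G χ → χ ≠ (fun _ => 1) → Cfsg.classInner (fun g : G => (Nat.card (MulAction.fixedBy Ω g) : ℂ)) χ ≠ 0 → χ 1 = f) → (∀ χ : G → ℂ, Cfsg.IsIrrCharacter G χ → Cfsg.classInner (fun g : G => (Nat.card (MulAction.fixedBy Ω g) : ℂ)) χ = 0 ∨ Cfsg.classInner (fun g : G => (Nat.card (MulAction.fixedBy Ω g) : ℂ)) χ = 1) ∧ ∀ b : Ω, b ≠ a → Nat.card (MulAction.orbit (MulAction.stabilizer G a) b) = f) ∧ (Nat.card (MulAction.orbitRel.Quotient (MulAction.stabilizer G a) Ω) ≤ 5 → ∀ χ : G → ℂ, Cfsg.IsIrrCharacter G χ → Cfsg.classInner (fun g : G => (Nat.card (MulAction.fixedBy Ω g) : ℂ)) χ = 0 ∨ Cfsg.classInner (fun g : G => (Nat.card (MulAction.fixedBy Ω g) : ℂ)) χ = 1) := by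
  classical
  refine ⟨fun f hf => equal_degree a f hf, ?_⟩
  intro hrank χ₀ hχ₀
  have : Fintype (IrrCharacter G) := Fintype.ofFinite _
  obtain ⟨m, d, hm, hd, hm1, hn, hr⟩ := perm_mult_data (G := G) a
  set χ₁ : IrrCharacter G := ⟨fun _ => 1, Helper7.isIrrCharacter_one⟩ with hχ₁
  rw [hr] at hrank
  by_cases h2 : m ⟨χ₀, hχ₀⟩ ≤ 1
  · have h0 := hm ⟨χ₀, hχ₀⟩
    simp only at h0
    rw [h0]
    rcases Nat.le_one_iff_eq_zero_or_eq_one.1 h2 with h | h
    · left; rw [h, Nat.cast_zero]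
    · right; rw [h, Nat.cast_one]
  · push Not at h2
    have hne : (⟨χ₀, hχ₀⟩ : IrrCharacter G) ≠ χ₁ := by
      intro h
      rw [h, hm1] at h2
      omega
    have hother : ∀ ψ : IrrCharacter G, ψ ≠ χ₁ → ψ ≠ ⟨χ₀, hχ₀⟩ → m ψ = 0 := by
      intro ψ h1 h3
      by_contra h0
      have hsub := Finset.sum_le_sum_of_subset (f := fun χ => m χ * m χ)
        (Finset.subset_univ ({χ₁, ⟨χ₀, hχ₀⟩, ψ} : Finset (IrrCharacter G)))
      rw [Finset.sum_insert (by simp [hne.symm, h1.symm]), Finset.sum_pair h3.symm, hm1] at hsub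
      have := Nat.pos_of_ne_zero h0
      nlinarith
    refine (equal_degree a (d ⟨χ₀, hχ₀⟩) ?_).1 χ₀ hχ₀
    intro χ hχ hχ1 hχ0
    have h1 : (⟨χ, hχ⟩ : IrrCharacter G) ≠ χ₁ := fun h => hχ1 (congrArg Subtype.val h)
    have h3 : (⟨χ, hχ⟩ : IrrCharacter G) = ⟨χ₀, hχ₀⟩ := by
      by_contra h3
      apply hχ0
      have := hm ⟨χ, hχ⟩
      rw [hother _ h1 h3] at this
      simpa using this
    have h4 : χ = χ₀ := congrArg Subtype.val h3
    rw [h4]
    exact (hd ⟨χ₀, hχ₀⟩).2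

end Cfsg.Agent.S0716
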