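import Cfsg.Statements.S0719
import Cfsg.Agent.Lib.Helper25.Hecke13

set_option autoImplicit false
open Cfsg

namespace Cfsg.Agent.S0719

open Cfsg.Agent.Lib.Helper25 Cfsg.Agent.Lib

/-- Groups of Wielandt type: if a primitive group of degree `2m` has rank 3 and permutation character `1 + χ₁ + χ₂` with irreducible `χ₁, χ₂` of degrees `m - 1` and `m`, then `m = 2a² + 2a + 1` for some positive integer `a` and the two non-trivial subdegrees are `a(2a+1)` and `(a+1)(2a+1)`. -/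
theorem result {G : Type*} [Group G] [Fintype G] {Ω : Type*} [Fintype Ω] [MulAction G Ω] (hprim : MulAction.IsPreprimitive G Ω) {m : ℕ} (hm : Fintype.card Ω = 2 * m) (a₀ : Ω) (hrank : Nat.card (MulAction.orbitRel.Quotient (MulAction.stabilizer G a₀) Ω) = 3) (χ₁ χ₂ : G → ℂ) (h₁ : Cfsg.IsIrrCharacter G χ₁) (h₂ : Cfsg.IsIrrCharacter G χ₂) (hπ : (fun g : G => (Nat.card (MulAction.fixedBy Ω g) : ℂ)) = fun g => 1 + χ₁ g + χ₂ g) (hd₁ : χ₁ 1 = (m : ℂ) - 1) (hd₂ : χ₂ 1 = m) : ∃ a : ℕ, 0 < a ∧ m = 2 * a ^ 2 + 2 * a + 1 ∧ ∀ b : Ω, b ≠ a₀ → Nat.card (MulAction.orbit (MulAction.stabilizer G a₀) b) = a * (2 * a + 1) ∨ Nat.card (MulAction.orbit (MulAction.stabilizer G a₀) b) = (a + 1) * (2 * a + 1) := by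
  classical
  have key := fun b hb => wielandt_key hprim hm a₀ hrank χ₁ χ₂ h₁ h₂ hπ hd₁ hd₂ b hb
  have hex : ∃ b : Ω, b ≠ a₀ := by
    by_contra hcon
    push Not at hcon
    have hsub : Subsingleton (MulAction.orbitRel.Quotient (MulAction.stabilizer G a₀) Ω) := by
      constructor
      intro x y
      induction x using Quotient.inductionOn' with
      | h x =>
        induction y using Quotient.inductionOn' with
        | h y => rw [hcon x, hcon y]
    have := Finite.card_le_one_iff_subsingleton.2 hsub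
    omega
  obtain ⟨b₀, hb₀⟩ := hex
  have h0 := key b₀ hb₀
  have hk0 := two_le_card_orbit hprim hm a₀ hrank b₀ hb₀
  set k₀ : ℤ := (Nat.card (MulAction.orbit (MulAction.stabilizer G a₀) b₀) : ℤ) with hk₀
  obtain ⟨s, hs⟩ : ∃ s : ℕ, (s : ℤ) ^ 2 = 2 * (m : ℤ) - 1 :=
    ⟨(2 * k₀ - (2 * (m : ℤ) - 1)).natAbs, by rw [Int.natAbs_sq]; exact h0⟩
  have hsodd : s % 2 = 1 := by
    rcases Nat.even_or_odd s with he | ho
    · exfalso
      obtain ⟨r, hr⟩ := he
      rw [hr] at hs
      push_cast at hs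
      have : (2 : ℤ) * (2 * (r : ℤ) ^ 2 - m) = -1 := by linear_combination hs
      omega
    · exact Nat.odd_iff.1 ho
  obtain ⟨a, ha⟩ : ∃ a, s = 2 * a + 1 := ⟨s / 2, by omega⟩
  rw [ha] at hs
  push_cast at hs
  have hmeq : (m : ℤ) = 2 * (a : ℤ) ^ 2 + 2 * a + 1 := by
    have h2 : (2 : ℤ) * (m : ℤ) = 2 * (2 * (a : ℤ) ^ 2 + 2 * a + 1) := by linear_combination -hs
    exact mul_left_cancel₀ two_ne_zero h2
  have hcase : ∀ k : ℤ, (2 * k - (2 * (m : ℤ) - 1)) ^ 2 = 2 * (m : ℤ) - 1 →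
      k = a * (2 * a + 1) ∨ k = (a + 1) * (2 * a + 1) := by
    intro k hk
    rw [← hs] at hk
    have h3 : (2 * k - (2 * (a : ℤ) + 1) ^ 2 - (2 * a + 1)) * (2 * k - (2 * (a : ℤ) + 1) ^ 2 + (2 * a + 1)) = 0 := by
      linear_combination hk
    rcases mul_eq_zero.1 h3 with h4 | h4
    · right
      have h5 : (2 : ℤ) * k = 2 * (((a : ℤ) + 1) * (2 * a + 1)) := by linear_combination h4
      exact mul_left_cancel₀ two_ne_zero h5
    · left
      have h5 : (2 : ℤ) * k = 2 * ((a : ℤ) * (2 * a + 1)) := by linear_combination h4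
      exact mul_left_cancel₀ two_ne_zero h5
  refine ⟨a, ?_, by exact_mod_cast hmeq, ?_⟩
  · rcases Nat.eq_zero_or_pos a with h | h
    · exfalso
      rw [h] at hcase
      rcases hcase k₀ h0 with h5 | h5
      · simp at h5
        omega
      · simp at h5
        omega
    · exact h
  · intro b hb
    rcases hcase _ (key b hb) with h | h
    · left; exact_mod_cast h
    · right; exact_mod_cast h

end Cfsg.Agent.S0719
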