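import Cfsg.Statements.S0722

set_option autoImplicit false
open Cfsg

namespace Cfsg.Agent.S0722

/-- In a primitive group `H`, with `N` a minimal normal subgroup and `K` a point stabiliser, `K ⊓ N` is maximal among proper `K`-invariant subgroups of `N`. -/
theorem result {α : Type*} [Finite α] (H : Subgroup (Equiv.Perm α)) [MulAction.IsPreprimitive H α] (N : Subgroup H) [N.Normal] (hN : N ≠ ⊥) (hmin : ∀ M : Subgroup H, M.Normal → M ≤ N → M = ⊥ ∨ M = N) (a : α) (X : Subgroup H) (hX : X ≤ N) (hKX : MulAction.stabilizer H a ⊓ N ≤ X) (hinv : MulAction.stabilizer H a ≤ Subgroup.normalizer (X : Set H)) : X = MulAction.stabilizer H a ⊓ N ∨ X = N := by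
  have hnt : Nontrivial α := by
    by_contra hcon
    rw [not_nontrivial_iff_subsingleton] at hcon
    apply hN
    refine N.eq_bot_iff_forall.mpr fun n _ => ?_
    exact Subsingleton.elim _ _
  have hco : IsCoatom (MulAction.stabilizer H a) :=
    MulAction.IsPreprimitive.isCoatom_stabilizer_of_isPreprimitive _ a
  rcases hco.le_iff.mp (le_sup_left : MulAction.stabilizer H a ≤ MulAction.stabilizer H a ⊔ X) with h | h
  · have hnorm : Subgroup.normalizer (X : Set H) = ⊤ := by
      rw [eq_top_iff, ← h]
      exact sup_le hinv Subgroup.le_normalizer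
    rw [Subgroup.normalizer_eq_top_iff] at hnorm
    rcases hmin X hnorm hX with h' | h'
    · left
      subst h'
      exact le_antisymm bot_le hKX
    · right; exact h'
  · left
    have : X ≤ MulAction.stabilizer H a := by
      rw [← h]; exact le_sup_right
    exact le_antisymm (le_inf this hX) hKX

end Cfsg.Agent.S0722
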