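import Cfsg.Statements.S0724
-- import your own Cfsg.Agent.* helpers here
import Mathlib

set_option autoImplicit false
open Cfsg

namespace Cfsg.Agent.S0724

theorem card_fixedBy_pi {α : Type*} [Fintype α] [DecidableEq α] (G : Subgroup (Equiv.Perm α)) (k : ℕ) (g : G) :
    Nat.card (MulAction.fixedBy (Fin k → α) g) = Nat.card (MulAction.fixedBy α (g : Equiv.Perm α)) ^ k := by
  have e : MulAction.fixedBy (Fin k → α) g ≃ (Fin k → MulAction.fixedBy α (g : Equiv.Perm α)) :=
    { toFun := fun f i => ⟨f.1 i, by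
        have := f.2
        rw [MulAction.mem_fixedBy] at this ⊢
        exact congrFun this i⟩
      invFun := fun f => ⟨fun i => (f i).1, by
        rw [MulAction.mem_fixedBy]
        funext i
        exact (f i).2⟩
      left_inv := fun f => rfl
      right_inv := fun f => rfl }
  rw [Nat.card_congr e, Nat.card_pi]
  simp

theorem dvd_sum_pow {α : Type*} [Fintype α] [DecidableEq α] (G : Subgroup (Equiv.Perm α)) [Fintype G] (k : ℕ) :
    (Nat.card G : ℤ) ∣ ∑ g : G, (Nat.card (MulAction.fixedBy α (g : Equiv.Perm α)) : ℤ) ^ k := by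
  classical
  have h := MulAction.sum_card_fixedBy_eq_card_orbits_mul_card_group G (Fin k → α)
  have h2 : ∑ g : G, (Nat.card (MulAction.fixedBy α (g : Equiv.Perm α)) : ℤ) ^ k
      = ((∑ g : G, Fintype.card (MulAction.fixedBy (Fin k → α) g) : ℕ) : ℤ) := by
    push_cast
    refine Finset.sum_congr rfl fun g _ => ?_
    rw [← Nat.card_eq_fintype_card, card_fixedBy_pi]
    push_cast
    rfl
  rw [h2, h, Nat.card_eq_fintype_card]
  push_cast
  exact Dvd.intro_left _ rfl

/-- Blichfeldt's Theorem: if a finite set `L` of natural numbers contains the number of fixed points of every non-identity element of a permutation group `G` of degree `n`, then the order of `G` divides `∏ (n - l)` over `l ∈ L`. -/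
theorem result {α : Type*} [Fintype α] [DecidableEq α] (G : Subgroup (Equiv.Perm α)) (L : Finset ℕ) (hL : ∀ g ∈ G, g ≠ 1 → Nat.card (MulAction.fixedBy α g) ∈ L) : Nat.card G ∣ ∏ l ∈ L, (Fintype.card α - l) := by
  classical
  haveI : Fintype G := Fintype.ofFinite G
  by_cases hbig : ∃ l ∈ L, Fintype.card α ≤ l
  · obtain ⟨l, hl, hle⟩ := hbig
    rw [Finset.prod_eq_zero hl (Nat.sub_eq_zero_of_le hle)]
    exact dvd_zero _
  push Not at hbig
  have hcast : ((∏ l ∈ L, (Fintype.card α - l) : ℕ) : ℤ) = ∏ l ∈ L, ((Fintype.card α : ℤ) - l) := by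
    push_cast
    refine Finset.prod_congr rfl fun l hl => ?_
    rw [Nat.cast_sub (hbig l hl).le]
  rw [← Int.natCast_dvd_natCast, hcast]
  set P : Polynomial ℤ := ∏ l ∈ L, (Polynomial.X - Polynomial.C (l : ℤ)) with hP
  have heval : ∀ x : ℤ, P.eval x = ∏ l ∈ L, (x - l) := by
    intro x
    rw [hP, Polynomial.eval_prod]
    simp
  have hsum : ∑ g : G, P.eval (Nat.card (MulAction.fixedBy α (g : Equiv.Perm α)) : ℤ)
      = ∏ l ∈ L, ((Fintype.card α : ℤ) - l) := by
    rw [Finset.sum_eq_single (1 : G)]
    · rw [heval]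
      have : Nat.card (MulAction.fixedBy α (((1 : G) : Equiv.Perm α))) = Fintype.card α := by
        rw [Subgroup.coe_one, MulAction.fixedBy_one_eq_univ, Nat.card_coe_set_eq, Set.ncard_univ, Nat.card_eq_fintype_card]
      rw [this]
    · intro g _ hg
      rw [heval]
      have hg' : (g : Equiv.Perm α) ≠ 1 := fun h => hg (Subtype.ext h)
      exact Finset.prod_eq_zero (hL g g.2 hg') (sub_self _)
    · intro h; exact absurd (Finset.mem_univ _) h
  rw [← hsum]
  simp_rw [Polynomial.eval_eq_sum_range]
  rw [Finset.sum_comm]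
  refine Finset.dvd_sum fun i _ => ?_
  rw [← Finset.mul_sum]
  exact Dvd.dvd.mul_left (dvd_sum_pow G i) _

end Cfsg.Agent.S0724
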