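import Cfsg.Statements.S0726
import Cfsg.Agent.Lib.Helper6.PermCentralizer

set_option autoImplicit false
open Cfsg

namespace Cfsg.Agent.S0726

open Cfsg.Agent.Lib.Helper6 MulAction

/-- The left and right regular permutation representations of a group are each other's centralisers in the symmetric group: the centraliser of the left regular image is the right regular image, and a transitive subgroup centralising the left regular image is the whole right regular image. -/
theorem result {G : Type*} [Group G] : Subgroup.centralizer ((MulAction.toPermHom G G).range : Set (Equiv.Perm G)) = (MulAction.toPermHom Gᵐᵒᵖ G).range ∧ ∀ H : Subgroup (Equiv.Perm G), H ≤ Subgroup.centralizer ((MulAction.toPermHom G G).range : Set (Equiv.Perm G)) → MulAction.IsPretransitive H G → H = (MulAction.toPermHom Gᵐᵒᵖ G).range := by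
  have hL : IsPretransitive (MulAction.toPermHom G G).range G := by
    refine ⟨fun a b => ⟨⟨_, ⟨b * a⁻¹, rfl⟩⟩, ?_⟩⟩
    change (b * a⁻¹) • a = b
    simp
  have hR : IsPretransitive (MulAction.toPermHom Gᵐᵒᵖ G).range G := by
    refine ⟨fun a b => ⟨⟨_, ⟨MulOpposite.op (a⁻¹ * b), rfl⟩⟩, ?_⟩⟩
    change MulOpposite.op (a⁻¹ * b) • a = b
    simp
  have hle : (MulAction.toPermHom Gᵐᵒᵖ G).range ≤
      Subgroup.centralizer ((MulAction.toPermHom G G).range : Set (Equiv.Perm G)) := by
    rintro _ ⟨r, rfl⟩
    rw [Subgroup.mem_centralizer_iff]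
    rintro _ ⟨l, rfl⟩
    ext x
    simp [mul_assoc]
  have h1 := centralizer_eq_of_transitive _ _ hle
  refine ⟨h1, fun H hH hHt => ?_⟩
  rw [← h1]
  exact (centralizer_eq_of_transitive _ H hH).symm

end Cfsg.Agent.S0726
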