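import Cfsg.Statements.S0728
-- import your own Cfsg.Agent.* helpers here
import Cfsg.Agent.Lib.Helper13.Sharp3

set_option autoImplicit false
open Cfsg

namespace Cfsg.Agent.S0728

/-- In a sharply triply transitive group of even degree at least 6 (degree `q + 1`, `q` odd), a two-point stabiliser has at most one subgroup of order 3. -/
theorem result {α : Type*} [Fintype α] [DecidableEq α] (heven : Even (Fintype.card α)) (h6 : 6 ≤ Fintype.card α) (G : Subgroup (Equiv.Perm α)) (h3 : MulAction.IsMultiplyPretransitive G α 3) (hsharp : ∀ x : Fin 3 ↪ α, MulAction.stabilizer G x = ⊥) {a b : α} (hab : a ≠ b) (A B : Subgroup G) (hA : A ≤ MulAction.stabilizer G a ⊓ MulAction.stabilizer G b) (hB : B ≤ MulAction.stabilizer G a ⊓ MulAction.stabilizer G b) (hA3 : Nat.card A = 3) (hB3 : Nat.card B = 3) : A = B := by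
  classical
  by_contra hne
  -- sharpness in elementary form
  have hs : ∀ (g : G) (x y z : α), x ≠ y → x ≠ z → y ≠ z → g • x = x → g • y = y → g • z = z →
      g = 1 := by
    intro g x y z hxy hxz hyz hx hy hz
    let e : Fin 3 ↪ α := ⟨![x, y, z], by
      intro i j hij
      fin_cases i <;> fin_cases j <;> simp_all⟩
    have hmem : g ∈ MulAction.stabilizer G e := by
      rw [MulAction.mem_stabilizer_iff]
      ext i
      change g • e i = e i
      fin_cases i
      · exact hx
      · exact hy
      · exact hz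
    rw [hsharp e] at hmem
    exact Subgroup.mem_bot.1 hmem
  have h2' : MulAction.IsMultiplyPretransitive G α 2 :=
    MulAction.isMultiplyPretransitive_of_le (n := 3) (by norm_num)
      (by rw [Nat.card_eq_fintype_card]; omega)
  have h2 : ∀ x y x' y' : α, x ≠ y → x' ≠ y' → ∃ g : G, g • x = x' ∧ g • y = y' := by
    intro x y x' y' h h'
    exact MulAction.is_two_pretransitive_iff.1 h2' h h'
  -- a third point
  obtain ⟨c, hc⟩ : ∃ c : α, c ∉ ({a, b} : Finset α) := by
    by_contra hcon
    push Not at hcon
    have : (Finset.univ : Finset α) ⊆ {a, b} := fun x _ => hcon x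
    have h1 := Finset.card_le_card this
    have h2 : ({a, b} : Finset α).card ≤ 2 := Finset.card_le_two
    rw [Finset.card_univ] at h1
    omega
  have hca : c ≠ a := fun h => hc (by simp [h])
  have hcb : c ≠ b := fun h => hc (by simp [h])
  -- elements
  have hpow : ∀ (C : Subgroup G), Nat.card C = 3 → ∀ x ∈ C, x ^ 3 = 1 := by
    intro C hC x hx
    have := pow_card_eq_one' (G := C) (x := ⟨x, hx⟩)
    rw [hC] at this
    exact congrArg Subtype.val this
  obtain ⟨x, hxA, hx1⟩ : ∃ x ∈ A, x ≠ 1 := by
    by_contra hcon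
    push Not at hcon
    have : A = ⊥ := (Subgroup.eq_bot_iff_forall _).2 hcon
    rw [this] at hA3
    simp at hA3
  obtain ⟨y, hyB, hyA⟩ : ∃ y ∈ B, y ∉ A := by
    by_contra hcon
    push Not at hcon
    have hle : B ≤ A := hcon
    exact hne (Subgroup.eq_of_le_of_card_ge hle (by rw [hA3, hB3])).symm
  have hx3 := hpow A hA3 x hxA
  have hy3 := hpow B hB3 y hyB
  have hy1 : y ≠ 1 := fun h => hyA (h ▸ A.one_mem)
  have hxx : x ≠ x⁻¹ := by
    intro h
    apply hx1
    have h2 : x * x = 1 := by
      nth_rewrite 2 [h]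
      exact mul_inv_cancel x
    have : x ^ 3 = x * x * x := by rw [pow_succ, pow_two]
    rw [this, h2, one_mul] at hx3
    exact hx3
  have fixA : ∀ g ∈ A, g • a = a ∧ g • b = b := by
    intro g hg
    have := hA hg
    rw [Subgroup.mem_inf, MulAction.mem_stabilizer_iff, MulAction.mem_stabilizer_iff] at this
    exact this
  have fixB : ∀ g ∈ B, g • a = a ∧ g • b = b := by
    intro g hg
    have := hB hg
    rw [Subgroup.mem_inf, MulAction.mem_stabilizer_iff, MulAction.mem_stabilizer_iff] at this
    exact this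
  refine Cfsg.Agent.Lib.Helper13.Sharp3.core hs h2 hab hca hcb ![x, x⁻¹, y] ?_ ?_ ?_ ?_ ?_
  · intro i j hij
    have hyx : y ≠ x := fun h => hyA (h ▸ hxA)
    have hyx' : y ≠ x⁻¹ := fun h => hyA (h ▸ A.inv_mem hxA)
    fin_cases i <;> fin_cases j
    · rfl
    · exact absurd hij hxx
    · exact absurd hij hyx.symm
    · exact absurd hij hxx.symm
    · rfl
    · exact absurd hij hyx'.symm
    · exact absurd hij hyx
    · exact absurd hij hyx'
    · rfl
  · intro i
    fin_cases i
    · exact hx1
    · exact inv_ne_one.2 hx1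
    · exact hy1
  · intro i
    fin_cases i
    · exact hx3
    · show x⁻¹ ^ 3 = 1
      rw [inv_pow, hx3, inv_one]
    · exact hy3
  · intro i
    fin_cases i
    · exact (fixA x hxA).1
    · exact (fixA _ (A.inv_mem hxA)).1
    · exact (fixB y hyB).1
  · intro i
    fin_cases i
    · exact (fixA x hxA).2
    · exact (fixA _ (A.inv_mem hxA)).2
    · exact (fixB y hyB).2

end Cfsg.Agent.S0728
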