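import Cfsg.Statements.S0733
-- import your own Cfsg.Agent.* helpers here
import Mathlib

set_option autoImplicit false
open Cfsg

namespace Cfsg.Agent.S0733

open scoped Pointwise


/-- A permutation group of affine type — generated by the translations of a finite vector space `V` over `ZMod p` together with a group `G₀` of linear automorphisms — is primitive on `V` if and only if `G₀` is irreducible on `V`. -/
theorem result {p : ℕ} [Fact p.Prime] {V : Type*} [AddCommGroup V] [Module (ZMod p) V] [Finite V] [Nontrivial V] (G₀ : Subgroup (V ≃ₗ[ZMod p] V)) (G : Subgroup (Equiv.Perm V)) (hG : ∀ σ : Equiv.Perm V, σ ∈ G ↔ ∃ g ∈ G₀, ∃ b : V, ∀ x : V, σ x = (g : V ≃ₗ[ZMod p] V) x + b) : MulAction.IsPreprimitive G V ↔ ∀ W : Submodule (ZMod p) V, (∀ g ∈ G₀, ∀ v ∈ W, (g : V ≃ₗ[ZMod p] V) v ∈ W) → W = ⊥ ∨ W = ⊤ := by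
  classical
  -- elements of G
  have hmk : ∀ g ∈ G₀, ∀ b : V, ∃ σ : G, ∀ x : V, σ • x = (g : V ≃ₗ[ZMod p] V) x + b := by
    intro g hg b
    refine ⟨⟨(g.toEquiv).trans (Equiv.addRight b), (hG _).2 ⟨g, hg, b, fun x => rfl⟩⟩, fun x => rfl⟩
  have htr : MulAction.IsPretransitive G V := by
    refine ⟨fun x y => ?_⟩
    obtain ⟨σ, hσ⟩ := hmk 1 G₀.one_mem (y - x)
    exact ⟨σ, by rw [hσ]; simp⟩
  constructor
  · intro hprim W hW
    have hB : MulAction.IsBlock G (W : Set V) := by
      rw [MulAction.isBlock_iff_smul_eq_of_nonempty]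
      rintro σ ⟨z, ⟨w, hw, rfl⟩, hz⟩
      obtain ⟨g, hg, b, hσ⟩ := (hG σ).1 σ.2
      have hσ' : ∀ x : V, σ • x = g x + b := hσ
      have hb : b ∈ W := by
        have h1 : g w + b ∈ W := by rw [← hσ']; exact hz
        have h2 := W.sub_mem h1 (hW g hg w hw)
        simpa using h2
      ext u
      constructor
      · rintro ⟨v, hv, rfl⟩
        change σ • v ∈ W
        rw [hσ']
        exact W.add_mem (hW g hg v hv) hb
      · intro hu
        refine ⟨(g⁻¹ : V ≃ₗ[ZMod p] V) (u - b), hW g⁻¹ (G₀.inv_mem hg) _ (W.sub_mem hu hb), ?_⟩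
        change σ • _ = u
        rw [hσ']
        have : g ((g⁻¹ : V ≃ₗ[ZMod p] V) (u - b)) = u - b := by
          rw [← LinearEquiv.mul_apply, mul_inv_cancel]; rfl
        rw [this]; simp
    rcases hprim.isTrivialBlock_of_isBlock hB with h | h
    · left
      rw [Submodule.eq_bot_iff]
      intro x hx
      exact h hx W.zero_mem
    · right
      rw [Submodule.eq_top_iff']
      intro x
      have : x ∈ (W : Set V) := by rw [h]; exact Set.mem_univ x
      exact this
  · intro hirr
    refine MulAction.IsPreprimitive.of_isTrivialBlock_base (0 : V) ?_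
    intro B h0 hB
    rw [MulAction.isBlock_iff_smul_eq_of_nonempty] at hB
    have htrans : ∀ u ∈ B, ∀ v : V, v ∈ B ↔ v + u ∈ B := by
      intro u hu v
      obtain ⟨σ, hσ⟩ := hmk 1 G₀.one_mem u
      have hσ' : ∀ x, σ • x = x + u := fun x => by rw [hσ]; rfl
      have h1 : σ • B = B := hB ⟨u, ⟨0, h0, (hσ' 0).trans (zero_add u)⟩, hu⟩
      constructor
      · intro hv
        rw [← h1, ← hσ']
        exact Set.smul_mem_smul_set hv
      · intro hv
        rw [← h1, ← hσ'] at hv
        exact (Set.smul_mem_smul_set_iff).mp hv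
    let S : AddSubgroup V :=
      { carrier := B
        zero_mem' := h0
        add_mem' := fun {a b} ha hb => (htrans b hb a).1 ha
        neg_mem' := fun {a} ha => (htrans a ha (-a)).2 (by rw [neg_add_cancel]; exact h0) }
    have hinv : ∀ g ∈ G₀, ∀ v ∈ AddSubgroup.toZModSubmodule p S, (g : V ≃ₗ[ZMod p] V) v ∈ AddSubgroup.toZModSubmodule p S := by
      intro g hg v hv
      have hv' : v ∈ B := hv
      obtain ⟨σ, hσ⟩ := hmk g hg 0
      have hσ' : ∀ x, σ • x = g x := fun x => by rw [hσ, add_zero]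
      have h1 : σ • B = B := hB ⟨0, ⟨0, h0, (hσ' 0).trans (map_zero g)⟩, h0⟩
      change g v ∈ B
      rw [← h1, ← hσ']
      exact Set.smul_mem_smul_set hv'
    rcases hirr _ hinv with h | h
    · left
      intro x hx y hy
      have hx' : x ∈ AddSubgroup.toZModSubmodule p S := hx
      have hy' : y ∈ AddSubgroup.toZModSubmodule p S := hy
      rw [h, Submodule.mem_bot] at hx' hy'
      rw [hx', hy']
    · right
      rw [Set.eq_univ_iff_forall]
      intro x
      have : x ∈ AddSubgroup.toZModSubmodule p S := by rw [h]; exact Submodule.mem_top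
      exact this

end Cfsg.Agent.S0733
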