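import Cfsg.Statements.S0734
-- import your own Cfsg.Agent.* helpers here
import Mathlib

set_option autoImplicit false
open Cfsg

namespace Cfsg.Agent.S0734

open scoped Pointwise

theorem adj_smul {G : Type*} [Group G] {Ω : Type*} [MulAction G Ω] (a b : Ω) (g : G) {x y : Ω}
    (h : (SimpleGraph.fromRel fun x y : Ω => ∃ g : G, g • a = x ∧ g • b = y).Adj x y) :
    (SimpleGraph.fromRel fun x y : Ω => ∃ g : G, g • a = x ∧ g • b = y).Adj (g • x) (g • y) := by
  rw [SimpleGraph.fromRel_adj] at h ⊢
  obtain ⟨hne, h⟩ := h
  refine ⟨fun h' => hne (MulAction.injective g h'), ?_⟩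
  rcases h with ⟨k, h1, h2⟩ | ⟨k, h1, h2⟩
  · exact Or.inl ⟨g * k, by rw [mul_smul, h1], by rw [mul_smul, h2]⟩
  · exact Or.inr ⟨g * k, by rw [mul_smul, h1], by rw [mul_smul, h2]⟩

theorem reach_smul {G : Type*} [Group G] {Ω : Type*} [MulAction G Ω] (a b : Ω) (g : G) {x y : Ω}
    (h : (SimpleGraph.fromRel fun x y : Ω => ∃ g : G, g • a = x ∧ g • b = y).Reachable x y) :
    (SimpleGraph.fromRel fun x y : Ω => ∃ g : G, g • a = x ∧ g • b = y).Reachable (g • x) (g • y) := by
  rw [SimpleGraph.reachable_iff_reflTransGen] at h ⊢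
  exact Relation.ReflTransGen.lift (fun z => g • z) (fun u v huv => adj_smul a b g huv) _ _ h

/-- Higman's criterion for primitivity: a transitive action on a finite set is primitive if and only if every non-trivial orbital graph (edges = images of a fixed pair of distinct points) is connected. -/
theorem result {G : Type*} [Group G] {Ω : Type*} [Finite Ω] [MulAction G Ω] [MulAction.IsPretransitive G Ω] [Nontrivial Ω] : MulAction.IsPreprimitive G Ω ↔ ∀ a b : Ω, a ≠ b → (SimpleGraph.fromRel fun x y : Ω => ∃ g : G, g • a = x ∧ g • b = y).Connected := by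
  constructor
  · intro hprim a b hab
    set Γ := (SimpleGraph.fromRel fun x y : Ω => ∃ g : G, g • a = x ∧ g • b = y) with hΓ
    have hB : MulAction.IsBlock G {x | Γ.Reachable a x} := by
      rw [MulAction.isBlock_iff_smul_eq_of_nonempty]
      rintro g ⟨z, ⟨w, hw, rfl⟩, hz⟩
      have hw' : Γ.Reachable a w := hw
      have hz' : Γ.Reachable a (g • w) := hz
      have h1 : Γ.Reachable a (g • a) := hz'.trans (reach_smul a b g hw').symm
      ext u
      rw [Set.mem_smul_set_iff_inv_smul_mem]
      constructor
      · intro hu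
        have hu' : Γ.Reachable a (g⁻¹ • u) := hu
        have := reach_smul a b g hu'
        rw [smul_inv_smul] at this
        exact h1.trans this
      · intro hu
        have hu' : Γ.Reachable a u := hu
        have := reach_smul a b g⁻¹ (h1.symm.trans hu')
        rw [inv_smul_smul] at this
        exact this
    have hadj : Γ.Adj a b := by
      rw [hΓ, SimpleGraph.fromRel_adj]
      exact ⟨hab, Or.inl ⟨1, one_smul _ _, one_smul _ _⟩⟩
    rcases hprim.isTrivialBlock_of_isBlock hB with h | h
    · exact absurd (h (SimpleGraph.Reachable.refl a) hadj.reachable) hab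
    · have hall : ∀ u, Γ.Reachable a u := by
        intro u
        have : u ∈ {x | Γ.Reachable a x} := by rw [h]; exact Set.mem_univ u
        exact this
      exact { preconnected := fun u v => (hall u).symm.trans (hall v), nonempty := ⟨a⟩ }
  · intro hconn
    refine { isTrivialBlock_of_isBlock := ?_ }
    intro B hB
    by_cases hsub : B.Subsingleton
    · exact Or.inl hsub
    right
    rw [Set.not_subsingleton_iff] at hsub
    obtain ⟨a, ha, b, hb, hab⟩ := hsub
    rw [MulAction.isBlock_iff_smul_eq_of_nonempty] at hB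
    rw [Set.eq_univ_iff_forall]
    intro c
    have hr := (hconn a b hab).preconnected a c
    rw [SimpleGraph.reachable_iff_reflTransGen] at hr
    induction hr with
    | refl => exact ha
    | tail _ hyz ih =>
      rw [SimpleGraph.fromRel_adj] at hyz
      obtain ⟨_, ⟨g, h1, h2⟩ | ⟨g, h1, h2⟩⟩ := hyz
      · have : g • B = B := hB ⟨_, ⟨a, ha, h1⟩, ih⟩
        rw [← this]
        exact ⟨b, hb, h2⟩
      · have : g • B = B := hB ⟨_, ⟨b, hb, h2⟩, ih⟩
        rw [← this]
        exact ⟨a, ha, h1⟩

end Cfsg.Agent.S0734
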