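import Cfsg.Statements.S0735
-- import your own Cfsg.Agent.* helpers here
import Mathlib

set_option autoImplicit false
open Cfsg

namespace Cfsg.Agent.S0735

open scoped Pointwise

theorem hom2 {α : Type*} [Fintype α] [DecidableEq α] (G : Subgroup (Equiv.Perm α))
    (h2 : MulAction.IsPretransitive G (Set.powersetCard α 2)) {a b c d : α} (hab : a ≠ b) (hcd : c ≠ d) :
    ∃ g : G, (g • a = c ∧ g • b = d) ∨ (g • a = d ∧ g • b = c) := by
  obtain ⟨g, hg⟩ := h2.exists_smul_eq (⟨{a, b}, Finset.card_pair hab⟩ : Set.powersetCard α 2)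
    (⟨{c, d}, Finset.card_pair hcd⟩ : Set.powersetCard α 2)
  have hg' : g • ({a, b} : Finset α) = {c, d} := by
    have := congrArg (fun s : Set.powersetCard α 2 => (s : Finset α)) hg
    exact this
  have ha : g • a ∈ ({c, d} : Finset α) := by
    rw [← hg']; exact Finset.smul_mem_smul_finset (by simp)
  have hb : g • b ∈ ({c, d} : Finset α) := by
    rw [← hg']; exact Finset.smul_mem_smul_finset (by simp)
  have hne : g • a ≠ g • b := fun h => hab (MulAction.injective g h)
  simp only [Finset.mem_insert, Finset.mem_singleton] at ha hb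
  refine ⟨g, ?_⟩
  rcases ha with ha | ha <;> rcases hb with hb | hb
  · exact absurd (ha.trans hb.symm) hne
  · exact Or.inl ⟨ha, hb⟩
  · exact Or.inr ⟨ha, hb⟩
  · exact absurd (ha.trans hb.symm) hne

/-- A 2-homogeneous permutation group (transitive on 2-subsets) of even order is doubly transitive; a non-trivial 2-homogeneous group is primitive. -/
theorem result {α : Type*} [Fintype α] [DecidableEq α] (G : Subgroup (Equiv.Perm α)) (h2 : MulAction.IsPretransitive G (Set.powersetCard α 2)) (hα : 3 ≤ Fintype.card α) : (Even (Nat.card G) → MulAction.IsMultiplyPretransitive G α 2) ∧ (G ≠ ⊥ → MulAction.IsPreprimitive G α) := by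
  classical
  constructor
  · intro heven
    obtain ⟨t, ht⟩ := exists_prime_orderOf_dvd_card' (G := G) 2 heven.two_dvd
    have ht1 : t ≠ 1 := by
      intro h; rw [h, orderOf_one] at ht; omega
    have ht2 : t * t = 1 := by
      rw [← sq, ← ht]; exact pow_orderOf_eq_one t
    obtain ⟨a, ha⟩ : ∃ a : α, t • a ≠ a := by
      by_contra hcon
      push Not at hcon
      apply ht1
      ext x
      exact hcon x
    have hta : t • (t • a) = a := by rw [smul_smul, ht2, one_smul]
    have key : ∀ c d : α, c ≠ d → ∃ g : G, g • a = c ∧ g • (t • a) = d := by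
      intro c d hcd
      obtain ⟨g, hg | hg⟩ := hom2 G h2 (Ne.symm ha) hcd
      · exact ⟨g, hg⟩
      · refine ⟨g * t, ?_, ?_⟩
        · rw [mul_smul]; exact hg.2
        · rw [mul_smul, hta]; exact hg.1
    rw [MulAction.is_two_pretransitive_iff]
    intro x y c d hxy hcd
    obtain ⟨g₁, h1, h1'⟩ := key x y hxy
    obtain ⟨g₂, h2a, h2b⟩ := key c d hcd
    refine ⟨g₂ * g₁⁻¹, ?_, ?_⟩
    · rw [mul_smul, ← h1, inv_smul_smul, h2a]
    · rw [mul_smul, ← h1', inv_smul_smul, h2b]
  · intro _
    have htr : MulAction.IsPretransitive G α := by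
      refine ⟨fun x y => ?_⟩
      by_cases hxy : x = y
      · exact ⟨1, by rw [one_smul, hxy]⟩
      obtain ⟨z, hz⟩ : ∃ z : α, z ∉ ({x, y} : Finset α) := by
        by_contra hcon
        push Not at hcon
        have : Fintype.card α ≤ ({x, y} : Finset α).card := by
          rw [← Finset.card_univ]
          exact Finset.card_le_card fun w _ => hcon w
        have h3 := Finset.card_le_two (a := x) (b := y)
        omega
      simp only [Finset.mem_insert, Finset.mem_singleton, not_or] at hz
      obtain ⟨g₂, hg₂ | hg₂⟩ := hom2 G h2 hxy (Ne.symm hz.2)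
      · exact ⟨g₂, hg₂.1⟩
      obtain ⟨g₁, hg₁ | hg₁⟩ := hom2 G h2 (Ne.symm hz.1) hxy
      · exact ⟨g₁ * g₂, by rw [mul_smul, hg₂.1, hg₁.2]⟩
      · exact ⟨g₁, hg₁.1⟩
    refine { toIsPretransitive := htr, isTrivialBlock_of_isBlock := ?_ }
    intro B hB
    by_cases hsub : B.Subsingleton
    · exact Or.inl hsub
    right
    rw [Set.not_subsingleton_iff] at hsub
    obtain ⟨a, ha, b, hb, hab⟩ := hsub
    rw [Set.eq_univ_iff_forall]
    intro c
    by_contra hc
    have hac : a ≠ c := fun h => hc (h ▸ ha)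
    rw [MulAction.isBlock_iff_smul_eq_of_nonempty] at hB
    obtain ⟨g, hg | hg⟩ := hom2 G h2 hab hac
    · have : g • B = B := hB ⟨a, ⟨a, ha, hg.1⟩, ha⟩
      apply hc
      rw [← this]
      exact ⟨b, hb, hg.2⟩
    · have : g • B = B := hB ⟨a, ⟨b, hb, hg.2⟩, ha⟩
      apply hc
      rw [← this]
      exact ⟨a, ha, hg.1⟩

end Cfsg.Agent.S0735
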