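import Cfsg.Statements.S0736
-- import your own Cfsg.Agent.* helpers here
import Cfsg.Agent.Lib.Helper13.KHomB

set_option autoImplicit false
open Cfsg

namespace Cfsg.Agent.S0736

/-- A `k`-homogeneous permutation group of degree `n`, `k ≥ 2`, with `k + q - 1 ≤ n` for every prime power `q` dividing `k`, is `(k-1)`-homogeneous. -/
theorem result {α : Type*} [Fintype α] [DecidableEq α] (G : Subgroup (Equiv.Perm α)) {k : ℕ} (hk : 2 ≤ k) (hG : MulAction.IsPretransitive G (Set.powersetCard α k)) (hq : ∀ q : ℕ, IsPrimePow q → q ∣ k → k + q - 1 ≤ Fintype.card α) : MulAction.IsPretransitive G (Set.powersetCard α (k - 1)) := by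
  classical
  open Pointwise in
  have hG' : ∀ s t : Finset α, s.card = k → t.card = k → ∃ g : G, g • s = t := by
    intro s t hs ht
    obtain ⟨g, hg⟩ := MulAction.exists_smul_eq G
      (⟨s, Set.powersetCard.mem_iff.2 hs⟩ : Set.powersetCard α k)
      (⟨t, Set.powersetCard.mem_iff.2 ht⟩ : Set.powersetCard α k)
    refine ⟨g, ?_⟩
    have := congrArg Subtype.val hg
    exact this
  constructor
  intro a b
  obtain ⟨g, hg⟩ := Cfsg.Agent.Lib.Helper13.KHom.core hk hG' hq a.1 b.1 a.2 b.2
  refine ⟨g, ?_⟩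
  apply Subtype.ext
  exact hg

end Cfsg.Agent.S0736
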