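import Cfsg.Statements.S0743
-- import your own Cfsg.Agent.* helpers here
import Mathlib

set_option autoImplicit false
open Cfsg

namespace Cfsg.Agent.S0743

theorem orbit_modEq {G α : Type*} [Group G] [MulAction G α] [Finite α] {p : ℕ} [Fact p.Prime]
    (P : Subgroup G) (hP : IsPGroup p P) (x : α) :
    Nat.card (MulAction.orbit G x) ≡ (MulAction.orbit G x ∩ MulAction.fixedPoints P α).ncard [MOD p] := by
  have h := hP.card_modEq_card_fixedPoints (MulAction.orbit G x)
  have e : MulAction.fixedPoints P (MulAction.orbit G x) ≃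
      ((MulAction.orbit G x ∩ MulAction.fixedPoints P α : Set α)) :=
    { toFun := fun y => ⟨y.1.1, y.1.2, fun g => congrArg Subtype.val (y.2 g)⟩
      invFun := fun y => ⟨⟨y.1, y.2.1⟩, fun g => Subtype.ext (y.2.2 g)⟩
      left_inv := fun y => rfl
      right_inv := fun y => rfl }
  rw [Nat.card_congr e, Nat.card_coe_set_eq] at h
  exact h

theorem trans_of {G α : Type*} [Group G] [MulAction G α] [Finite α] {p : ℕ} [Fact p.Prime] (k : ℕ)
    (hk : 1 ≤ k) (hkn : k < Nat.card α)
    (h : ∀ s : Finset α, s.card = k → ∃ P : Subgroup G, IsPGroup p P ∧ MulAction.fixedPoints P α = (s : Set α)) :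
    MulAction.IsPretransitive G α := by
  classical
  haveI := Fintype.ofFinite α
  refine ⟨fun x y => ?_⟩
  by_contra hy
  have hy' : y ∉ MulAction.orbit G x := hy
  have hxy : x ≠ y := fun hxy => hy' (hxy ▸ MulAction.mem_orbit_self x)
  rw [Nat.card_eq_fintype_card] at hkn
  obtain ⟨u, hyu, hux, hcard⟩ := Finset.exists_subsuperset_card_eq (s := {y}) (t := Finset.univ.erase x) (n := k)
    (by intro z hz; rw [Finset.mem_singleton] at hz; subst hz; simp [hxy.symm])
    (by simpa using hk) (by rw [Finset.card_erase_of_mem (Finset.mem_univ _), Finset.card_univ]; omega)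
  have hyu' : y ∈ u := hyu (Finset.mem_singleton_self y)
  have hxu : x ∉ u := fun hx => by simpa using hux hx
  have hcard' : (insert x (u.erase y)).card = k := by
    rw [Finset.card_insert_of_notMem (fun hx => hxu (Finset.mem_of_mem_erase hx)),
      Finset.card_erase_of_mem hyu', hcard]
    omega
  obtain ⟨P, hP, hPf⟩ := h u hcard
  obtain ⟨P', hP', hPf'⟩ := h _ hcard'
  have h1 := orbit_modEq P hP x
  have h2 := orbit_modEq P' hP' x
  rw [hPf] at h1
  rw [hPf'] at h2
  have hset : (MulAction.orbit G x ∩ ((insert x (u.erase y) : Finset α) : Set α))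
      = insert x (MulAction.orbit G x ∩ (u : Set α)) := by
    ext z
    simp only [Set.mem_inter_iff, Finset.coe_insert, Finset.coe_erase, Set.mem_insert_iff, Set.mem_diff,
      Finset.mem_coe, Set.mem_singleton_iff]
    constructor
    · rintro ⟨hz, rfl | ⟨hzu, _⟩⟩
      · exact Or.inl rfl
      · exact Or.inr ⟨hz, hzu⟩
    · rintro (rfl | ⟨hz, hzu⟩)
      · exact ⟨MulAction.mem_orbit_self _, Or.inl rfl⟩
      · exact ⟨hz, Or.inr ⟨hzu, fun hzy => hy' (hzy ▸ hz)⟩⟩
  rw [hset, Set.ncard_insert_of_notMem (fun hx => hxu hx.2) (Set.toFinite _)] at h2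
  have h3 := h1.symm.trans h2
  have h4 : p ∣ 1 := by
    have := (Nat.modEq_iff_dvd' (Nat.le_succ _)).mp h3
    simpa using this
  exact (Fact.out : p.Prime).one_lt.ne' (Nat.dvd_one.mp h4)

theorem gleason {p : ℕ} [Fact p.Prime] (k : ℕ) : ∀ {G α : Type*} [Group G] [MulAction G α] [Finite α]
    (_ : 1 ≤ k) (_ : k < Nat.card α)
    (_ : ∀ s : Finset α, s.card = k → ∃ P : Subgroup G, IsPGroup p P ∧ MulAction.fixedPoints P α = (s : Set α)),
    MulAction.IsMultiplyPretransitive G α k := by
  classical
  induction k with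
  | zero => intro G α _ _ _ hk; omega
  | succ k ih =>
    intro G α _ _ _ hk hkn h
    haveI htr := trans_of (k + 1) hk hkn h
    by_cases hk0 : k = 0
    · subst hk0
      exact MulAction.is_one_pretransitive_iff.mpr htr
    haveI : Nonempty α := by
      by_contra hne
      rw [not_nonempty_iff] at hne
      rw [Nat.card_of_isEmpty] at hkn
      omega
    obtain ⟨a⟩ := this
    rw [SubMulAction.ofStabilizer.isMultiplyPretransitive (a := a)]
    have hc := SubMulAction.nat_card_ofStabilizer_add_one_eq (G := G) a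
    refine ih (by omega) (by omega) ?_
    intro s' hs'
    have hcard : (insert a (s'.map ⟨Subtype.val, Subtype.val_injective⟩)).card = k + 1 := by
      rw [Finset.card_insert_of_notMem, Finset.card_map, hs']
      intro hmem
      rw [Finset.mem_map] at hmem
      obtain ⟨z, _, hz⟩ := hmem
      exact SubMulAction.neq_of_mem_ofStabilizer G a hz
    obtain ⟨P, hP, hPf⟩ := h _ hcard
    have haP : a ∈ MulAction.fixedPoints P α := by
      rw [hPf]; simp
    refine ⟨P.subgroupOf (MulAction.stabilizer G a), hP.comap_subtype, ?_⟩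
    ext z
    have hz : (z : α) ∈ MulAction.fixedPoints P α ↔ z ∈ s' := by
      rw [hPf]
      simp only [Finset.coe_insert, Finset.coe_map, Function.Embedding.coeFn_mk, Set.mem_insert_iff,
        Set.mem_image, Finset.mem_coe]
      constructor
      · rintro (hza | ⟨w, hw, hwz⟩)
        · exact absurd hza (SubMulAction.neq_of_mem_ofStabilizer G a)
        · rwa [← Subtype.ext hwz]
      · intro hz; exact Or.inr ⟨z, hz, rfl⟩
    rw [Finset.mem_coe, ← hz]
    constructor
    · intro hfix g
      have := hfix ⟨⟨g.1, haP g⟩, g.2⟩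
      exact congrArg Subtype.val this
    · intro hfix g
      exact Subtype.ext (hfix ⟨g.1.1, g.2⟩)

/-- Gleason's Lemma: let `p` be a prime and `1 ≤ k < n`; if every `k`-subset of the `n` points is exactly the fixed-point set of some `p`-subgroup of `G`, then `G` is `k`-transitive. -/
theorem result {α : Type*} [Fintype α] [DecidableEq α] (G : Subgroup (Equiv.Perm α)) {p k : ℕ} (hp : p.Prime) (hk : 1 ≤ k) (hkn : k < Fintype.card α) (h : ∀ s : Finset α, s.card = k → ∃ P : Subgroup G, IsPGroup p P ∧ MulAction.fixedPoints P α = (s : Set α)) : MulAction.IsMultiplyPretransitive G α k := by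
  haveI : Fact p.Prime := ⟨hp⟩
  exact gleason k hk (by rwa [Nat.card_eq_fintype_card]) h

end Cfsg.Agent.S0743
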