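import Cfsg.Statements.S0744
-- import your own Cfsg.Agent.* helpers here
import Mathlib
import Cfsg.Agent.S0743

set_option autoImplicit false
open Cfsg

namespace Cfsg.Agent.S0744

/-- If for some `k > 1` the pointwise stabilisers of all `(k-1)`-subsets have the same order `> 1` and those of all `k`-subsets have the same order, then the group is `(k-1)`-transitive. -/
theorem result {α : Type*} [Fintype α] [DecidableEq α] (G : Subgroup (Equiv.Perm α)) {k : ℕ} (hk : 1 < k) (hkn : k ≤ Fintype.card α) (l m : ℕ) (hl : 1 < l) (hkm1 : ∀ s : Finset α, s.card = k - 1 → Nat.card (fixingSubgroup G (s : Set α)) = l) (hkm : ∀ s : Finset α, s.card = k → Nat.card (fixingSubgroup G (s : Set α)) = m) : MulAction.IsMultiplyPretransitive G α (k - 1) := by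
  classical
  have hk1 : 1 ≤ k - 1 := by omega
  have hk1n : k - 1 < Fintype.card α := by omega
  -- a base set
  obtain ⟨Δ, hΔ⟩ : ∃ Δ : Finset α, Δ.card = k - 1 := by
    obtain ⟨u, _, hu⟩ := Finset.exists_subset_card_eq (s := (Finset.univ : Finset α)) (n := k - 1)
      (by rw [Finset.card_univ]; omega)
    exact ⟨u, hu⟩
  have hle : ∀ (s : Finset α) (x : α), fixingSubgroup G ((insert x s : Finset α) : Set α) ≤ fixingSubgroup G (s : Set α) := by
    intro s x g hg
    rw [mem_fixingSubgroup_iff] at hg ⊢
    intro y hy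
    exact hg y (by simp only [Finset.coe_insert]; exact Set.mem_insert_of_mem _ hy)
  have hins : ∀ (s : Finset α) (x : α), s.card = k - 1 → x ∉ s → (insert x s).card = k := by
    intro s x hs hx
    rw [Finset.card_insert_of_notMem hx, hs]; omega
  obtain ⟨x₀, hx₀⟩ : ∃ x₀ : α, x₀ ∉ Δ := by
    by_contra hcon
    push Not at hcon
    have : Fintype.card α ≤ Δ.card := by
      rw [← Finset.card_univ]
      exact Finset.card_le_card fun w _ => hcon w
    omega
  have hml : m ∣ l := by
    rw [← hkm1 Δ hΔ, ← hkm _ (hins Δ x₀ hΔ hx₀)]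
    exact Subgroup.card_dvd_of_le (hle Δ x₀)
  have hne : m ≠ l := by
    intro hml'
    have hall : ∀ g ∈ fixingSubgroup G (Δ : Set α), g = 1 := by
      intro g hg
      ext x
      by_cases hx : x ∈ Δ
      · exact (mem_fixingSubgroup_iff G).mp hg x hx
      · have heq : fixingSubgroup G ((insert x Δ : Finset α) : Set α) = fixingSubgroup G (Δ : Set α) :=
          Subgroup.eq_of_le_of_card_ge (hle Δ x) (by rw [hkm1 Δ hΔ, hkm _ (hins Δ x hΔ hx), hml'])
        rw [← heq] at hg
        exact (mem_fixingSubgroup_iff G).mp hg x (by simp)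
    have hbot : fixingSubgroup G (Δ : Set α) = ⊥ := (Subgroup.eq_bot_iff_forall _).mpr hall
    have := hkm1 Δ hΔ
    rw [hbot, Subgroup.card_bot] at this
    omega
  obtain ⟨r, hr⟩ := hml
  have hr1 : r ≠ 1 := by
    intro h; rw [h, mul_one] at hr; exact hne hr.symm
  obtain ⟨p, hp, hpr⟩ := Nat.exists_prime_and_dvd hr1
  haveI : Fact p.Prime := ⟨hp⟩
  refine Cfsg.Agent.S0743.result G hp hk1 hk1n ?_
  intro s hs
  obtain ⟨P₀⟩ : Nonempty (Sylow p (fixingSubgroup G (s : Set α))) := inferInstance
  refine ⟨(P₀ : Subgroup (fixingSubgroup G (s : Set α))).map (fixingSubgroup G (s : Set α)).subtype,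
    P₀.isPGroup'.map _, ?_⟩
  have hcardP : Nat.card ((P₀ : Subgroup (fixingSubgroup G (s : Set α))).map (fixingSubgroup G (s : Set α)).subtype)
      = p ^ (l.factorization p) := by
    rw [Subgroup.card_map_of_injective (Subgroup.subtype_injective _), P₀.card_eq_multiplicity, hkm1 s hs]
  ext x
  constructor
  · intro hx
    by_contra hxs
    have hxs' : x ∉ s := hxs
    have hPle : (P₀ : Subgroup (fixingSubgroup G (s : Set α))).map (fixingSubgroup G (s : Set α)).subtype
        ≤ fixingSubgroup G ((insert x s : Finset α) : Set α) := by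
      intro g hg
      have hgx : g • x = x := hx ⟨g, hg⟩
      obtain ⟨g', _, rfl⟩ := hg
      rw [mem_fixingSubgroup_iff]
      intro y hy
      simp only [Finset.coe_insert, Set.mem_insert_iff, Finset.mem_coe] at hy
      rcases hy with rfl | hy
      · exact hgx
      · exact (mem_fixingSubgroup_iff G).mp g'.2 y hy
    have hdvd := Subgroup.card_dvd_of_le hPle
    rw [hcardP, hkm _ (hins s x hs hxs')] at hdvd
    have h2 : p ^ (l.factorization p + 1) ∣ l := by
      rw [pow_succ]
      calc p ^ l.factorization p * p ∣ m * r := mul_dvd_mul hdvd hpr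
        _ = l := hr.symm
    exact Nat.pow_succ_factorization_not_dvd (by omega) hp h2
  · intro hx g
    obtain ⟨g', _, hg'⟩ := g.2
    have : (g : G) • x = x := by
      rw [← hg']
      exact (mem_fixingSubgroup_iff G).mp g'.2 x hx
    exact this

end Cfsg.Agent.S0744
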