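import Cfsg.Statements.S0754

set_option autoImplicit false
open Cfsg

namespace Cfsg.Agent.S0754

/-- In a field F with q^2 elements, every non-zero μ with μ^q = μ (that is, μ in the subfield of order q) has exactly q + 1 solutions λ of λ^(q+1) = μ. -/
theorem result {F : Type*} [Field F] [Fintype F] {q : ℕ} (hF : Fintype.card F = q ^ 2) (μ : F) (hμ : μ ≠ 0) (hμq : μ ^ q = μ) : Nat.card {x : F // x ^ (q + 1) = μ} = q + 1 := by
  classical
  have hq : 2 ≤ q := by
    have h1 := Fintype.one_lt_card (α := F)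
    rw [hF] at h1
    by_contra hlt
    have : q = 0 ∨ q = 1 := by omega
    rcases this with rfl | rfl <;> simp at h1
  have hcard : Nat.card Fˣ = (q - 1) * (q + 1) := by
    rw [Nat.card_eq_fintype_card, Fintype.card_units, hF]
    obtain ⟨r, rfl⟩ : ∃ r, q = r + 1 := ⟨q - 1, by omega⟩
    simp only [Nat.add_sub_cancel]
    have : (r + 1) ^ 2 = r * (r + 1 + 1) + 1 := by ring
    omega
  let f : Fˣ →* Fˣ := powMonoidHom (q + 1)
  let h : Fˣ →* Fˣ := powMonoidHom (q - 1)
  have hker : Nat.card f.ker = q + 1 := by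
    rw [IsCyclic.card_powMonoidHom_ker, hcard]
    exact Nat.gcd_eq_right (Dvd.intro_left _ rfl)
  have hrange : Nat.card f.range = q - 1 := by
    rw [IsCyclic.card_powMonoidHom_range, hcard, Nat.gcd_eq_right (Dvd.intro_left _ rfl)]
    exact Nat.mul_div_cancel _ (by omega)
  have hkerh : Nat.card h.ker = q - 1 := by
    rw [IsCyclic.card_powMonoidHom_ker, hcard]
    exact Nat.gcd_eq_right (Dvd.intro _ rfl)
  have hle : f.range ≤ h.ker := by
    rintro _ ⟨x, rfl⟩
    rw [MonoidHom.mem_ker]
    change (x ^ (q + 1)) ^ (q - 1) = 1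
    rw [← pow_mul, mul_comm, ← hcard]
    exact pow_card_eq_one'
  have heq : f.range = h.ker := Subgroup.eq_of_le_of_card_ge hle (by rw [hrange, hkerh])
  have hu : Units.mk0 μ hμ ∈ h.ker := by
    rw [MonoidHom.mem_ker]
    change (Units.mk0 μ hμ) ^ (q - 1) = 1
    apply Units.ext
    rw [Units.val_pow_eq_pow_val, Units.val_mk0, Units.val_one]
    have : μ ^ (q - 1) * μ = 1 * μ := by
      rw [← pow_succ, Nat.sub_add_cancel (by omega), hμq, one_mul]
    exact mul_right_cancel₀ hμ this
  rw [← heq] at hu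
  obtain ⟨x0, hx0⟩ := hu
  have hx0' : (x0 : F) ^ (q + 1) = μ := by
    have := congrArg Units.val hx0
    simpa [f] using this
  refine Eq.trans (Eq.symm ?_) hker
  apply Nat.card_eq_of_bijective (fun k : f.ker => (⟨(x0 : F) * ((k : Fˣ) : F), by
    have hk : ((k : Fˣ) : F) ^ (q + 1) = 1 := by
      have := congrArg Units.val (MonoidHom.mem_ker.mp k.2)
      simpa [f] using this
    rw [mul_pow, hx0', hk, mul_one]⟩ : {x : F // x ^ (q + 1) = μ}))
  constructor
  · intro k l hkl
    have := congrArg Subtype.val hkl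
    simp only at this
    have h2 := mul_left_cancel₀ x0.ne_zero this
    exact Subtype.ext (Units.ext h2)
  · rintro ⟨x, hx⟩
    have hx0ne : x ≠ 0 := by
      rintro rfl
      rw [zero_pow (by omega)] at hx
      exact hμ hx.symm
    refine ⟨⟨x0⁻¹ * Units.mk0 x hx0ne, ?_⟩, ?_⟩
    · rw [MonoidHom.mem_ker]
      change (x0⁻¹ * Units.mk0 x hx0ne) ^ (q + 1) = 1
      apply Units.ext
      simp only [mul_pow, inv_pow, Units.val_mul, Units.val_pow_eq_pow_val, Units.val_mk0,
        Units.val_one, Units.val_inv_eq_inv_val, hx, hx0']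
      exact inv_mul_cancel₀ hμ
    · apply Subtype.ext
      simp

end Cfsg.Agent.S0754
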