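import Cfsg.Statements.S0757

set_option autoImplicit false
open Cfsg

namespace Cfsg.Agent.S0757

theorem toMatrix'_wss {F : Type*} [Field F] [Invertible (2 : F)] {ι : Type*} [Fintype ι]
    [DecidableEq ι] (w : ι → F) :
    QuadraticForm.toMatrix' (QuadraticMap.weightedSumSquares F w) = Matrix.diagonal w := by
  ext i j
  rw [QuadraticForm.toMatrix', LinearMap.toMatrix₂'_apply]
  have h2 : (2 : F) ≠ 0 := Invertible.ne_zero 2
  have hassoc : (2 : F) * QuadraticMap.associated (R := F) (QuadraticMap.weightedSumSquares F w)
      (Pi.single i 1) (Pi.single j 1) =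
      QuadraticMap.polar (QuadraticMap.weightedSumSquares F w) (Pi.single i 1) (Pi.single j 1) := by
    have := congrArg (fun B => B (Pi.single i 1) (Pi.single j 1))
      (QuadraticMap.two_nsmul_associated (S := F) (QuadraticMap.weightedSumSquares F w))
    simpa [two_mul, two_smul] using this
  apply mul_left_cancel₀ h2
  rw [hassoc, QuadraticMap.polar]
  simp only [QuadraticMap.weightedSumSquares_apply, Pi.add_apply, smul_eq_mul]
  rw [← Finset.sum_sub_distrib, ← Finset.sum_sub_distrib]
  have : ∀ k, w k * (((Pi.single i 1 : ι → F) k + (Pi.single j 1 : ι → F) k) *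
      ((Pi.single i 1 : ι → F) k + (Pi.single j 1 : ι → F) k)) -
      w k * ((Pi.single i 1 : ι → F) k * (Pi.single i 1 : ι → F) k) -
      w k * ((Pi.single j 1 : ι → F) k * (Pi.single j 1 : ι → F) k) =
      2 * (w k * ((Pi.single i 1 : ι → F) k * (Pi.single j 1 : ι → F) k)) := by
    intro k; ring
  simp only [this]
  rw [← Finset.mul_sum]
  congr 1
  by_cases hij : i = j
  · subst hij
    simp [Pi.single_apply]
  · rw [Matrix.diagonal_apply_ne _ hij]
    apply Finset.sum_eq_zero
    intro k _
    by_cases hk : k = i
    · subst hk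
      simp [Pi.single_apply, hij]
    · simp [Pi.single_apply, hk]

/-- The two diagonal forms Σ x_i^2 and Σ_(i<n) x_i^2 + α x_n^2 on F^(n+1), with α a non-square and 2 ≠ 0 in F, are inequivalent quadratic forms (so over a finite field of odd order there are exactly two classes of non-singular symmetric bilinear forms in each dimension). -/
theorem result {F : Type*} [Field F] (h2 : (2 : F) ≠ 0) (n : ℕ) (α : F) (hα : ¬ IsSquare α) : ¬ (QuadraticMap.weightedSumSquares F (fun _ : Fin (n + 1) => (1 : F))).Equivalent (QuadraticMap.weightedSumSquares F (fun i : Fin (n + 1) => if i = Fin.last n then α else (1 : F))) := by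
  rintro ⟨e⟩
  let _ : Invertible (2 : F) := invertibleOfNonzero h2
  have hcomp : QuadraticMap.weightedSumSquares F (fun _ : Fin (n + 1) => (1 : F)) =
      (QuadraticMap.weightedSumSquares F
        (fun i : Fin (n + 1) => if i = Fin.last n then α else (1 : F))).comp
        e.toLinearEquiv.toLinearMap := by
    ext x
    exact (e.map_app x).symm
  have hd := congrArg QuadraticForm.discr' hcomp
  rw [QuadraticForm.discr'_comp, QuadraticForm.discr', QuadraticForm.discr', toMatrix'_wss,
    toMatrix'_wss, Matrix.det_diagonal, Matrix.det_diagonal] at hd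
  simp only [Finset.prod_const_one, Finset.prod_ite_eq', Finset.mem_univ, if_true] at hd
  set d := (LinearMap.toMatrix' e.toLinearEquiv.toLinearMap).det with hdd
  have hd0 : d ≠ 0 := by
    rintro h0
    rw [h0] at hd
    simp at hd
  apply hα
  refine ⟨d⁻¹, ?_⟩
  field_simp
  linear_combination -hd

end Cfsg.Agent.S0757
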