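import Cfsg.Statements.S0759
import Cfsg.Agent.Lib.Helper16.SymmDisc2

set_option autoImplicit false

open Cfsg

namespace Cfsg.Agent.S0759

open Cfsg.Agent.Lib.Helper16 Cfsg.Agent.Lib.Helper6

theorem result {F : Type*} [Field F] [Fintype F] (h2 : (2 : F) ≠ 0) (m : ℕ) (hm : 1 ≤ m) : (∃ W : Submodule F (Fin (2 * m) → F), Module.finrank F W = m ∧ ∀ w ∈ W, ∑ i, w i ^ 2 = 0) ↔ ¬ (Fintype.card F % 4 = 3 ∧ Odd m) := by
  obtain ⟨B, hB⟩ : ∃ B : LinearMap.BilinForm F (Fin (2 * m) → F),
    B = Matrix.toBilin' (1 : Matrix (Fin (2 * m)) (Fin (2 * m)) F) := ⟨_, rfl⟩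
  have happ : ∀ x y, B x y = ∑ i, x i * y i := by
    intro x y
    rw [hB, Matrix.toBilin'_apply']
    simp [dotProduct]
  have hdet : (LinearMap.BilinForm.toMatrix (Pi.basisFun F (Fin (2 * m))) B).det = 1 := by
    rw [hB, LinearMap.BilinForm.toMatrix_basisFun, LinearMap.BilinForm.toMatrix'_toBilin',
      Matrix.det_one]
  have hS : B.IsSymm := ⟨fun x y => by
    rw [happ, happ]
    exact Finset.sum_congr rfl (fun i _ => by ring)⟩
  have hN : B.Nondegenerate := by
    rw [LinearMap.BilinForm.nondegenerate_iff_det_ne_zero (Pi.basisFun F (Fin (2 * m))), hdet]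
    exact one_ne_zero
  have key := sd_lagr_iff h2 B hS hN (Pi.basisFun F (Fin (2 * m))) m (by simp)
  rw [hdet, mul_one] at key
  have h1 : (∃ W : Submodule F (Fin (2 * m) → F), Module.finrank F W = m ∧
      ∀ w ∈ W, ∑ i, w i ^ 2 = 0) ↔
      (∃ X : Submodule F (Fin (2 * m) → F), Module.finrank F X = m ∧
        ∀ x ∈ X, ∀ y ∈ X, B x y = 0) := by
    constructor
    · rintro ⟨W, hW, h⟩
      refine ⟨W, hW, fun x hx y hy => ?_⟩
      have e1 := h _ (W.add_mem hx hy)
      have e2 := h _ hx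
      have e3 := h _ hy
      rw [happ]
      apply mul_left_cancel₀ h2
      rw [mul_zero, Finset.mul_sum]
      have : ∑ i, (x + y) i ^ 2 = ∑ i, x i ^ 2 + ∑ i, y i ^ 2 + ∑ i, 2 * (x i * y i) := by
        rw [← Finset.sum_add_distrib, ← Finset.sum_add_distrib]
        exact Finset.sum_congr rfl (fun i _ => by rw [Pi.add_apply]; ring)
      rw [e1, e2, e3] at this
      simpa using this.symm
    · rintro ⟨W, hW, h⟩
      refine ⟨W, hW, fun x hx => ?_⟩
      have := h x hx x hx
      rw [happ] at this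
      rw [← this]
      exact Finset.sum_congr rfl (fun i _ => by ring)
  rw [h1, key]
  rcases Nat.even_or_odd m with he | ho
  · rw [he.neg_one_pow]
    constructor
    · rintro - ⟨-, ho⟩
      exact (Nat.not_odd_iff_even.2 he) ho
    · intro _
      exact IsSquare.one
  · rw [ho.neg_one_pow, FiniteField.isSquare_neg_one_iff]
    constructor
    · rintro h ⟨h', -⟩
      exact h h'
    · intro h h'
      exact h ⟨h', ho⟩

end Cfsg.Agent.S0759
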