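import Cfsg.Statements.S0760
import Cfsg.Agent.Lib.Helper6.WittQuad

set_option autoImplicit false
open Cfsg

namespace Cfsg.Agent.S0760

open Cfsg.Agent.Lib.Helper6

theorem aux {F V : Type*} [Field F] [AddCommGroup V] [Module F V] [FiniteDimensional F V]
    (Q : QuadraticForm F V) (hQ : (QuadraticMap.polarBilin Q).Nondegenerate)
    (W₁ W₂ : Submodule F V) (h₁ : ∀ w ∈ W₁, Q w = 0) (h₂ : ∀ w ∈ W₂, Q w = 0)
    (hmax₁ : ∀ W : Submodule F V, W₁ ≤ W → (∀ w ∈ W, Q w = 0) → W = W₁) :
    Module.finrank F W₂ ≤ Module.finrank F W₁ := by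
  by_contra hlt
  push Not at hlt
  obtain ⟨f, hf⟩ := finrank_le_iff_exists_linearMap.mp hlt.le
  obtain ⟨g, hg, hgf⟩ := witt_quadratic Q hQ W₁ (W₂.subtype ∘ₗ f)
    (W₂.subtype_injective.comp hf) (fun x => by
      rw [h₁ x x.2]
      exact h₂ _ (f x).2)
  -- the preimage of W₂ under g
  have hle : W₁ ≤ W₂.comap g.toLinearMap := by
    intro x hx
    rw [Submodule.mem_comap]
    change g x ∈ W₂
    rw [hgf ⟨x, hx⟩]
    exact (f ⟨x, hx⟩).2
  have hsing : ∀ w ∈ W₂.comap g.toLinearMap, Q w = 0 := by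
    intro w hw
    rw [← hg w]
    exact h₂ _ hw
  have heq := hmax₁ _ hle hsing
  have hdim : Module.finrank F (W₂.comap g.toLinearMap) = Module.finrank F W₂ := by
    have : W₂.comap g.toLinearMap = W₂.map g.symm.toLinearMap := by
      exact (Submodule.map_equiv_eq_comap_symm g.symm W₂).symm
    rw [this]
    exact LinearEquiv.finrank_map_eq g.symm W₂
  rw [heq] at hdim
  omega

/-- Witt index is well defined: if Q is a quadratic form on a finite-dimensional space V over a finite field with non-degenerate polar form, and W₁, W₂ are subspaces on which Q vanishes that are maximal with this property, then W₁ and W₂ have the same dimension, and twice this dimension is at most dim V. -/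
theorem result {F V : Type*} [Field F] [Finite F] [AddCommGroup V] [Module F V] [FiniteDimensional F V] (Q : QuadraticForm F V) (hQ : (QuadraticMap.polarBilin Q).Nondegenerate) (W₁ W₂ : Submodule F V) (h₁ : ∀ w ∈ W₁, Q w = 0) (h₂ : ∀ w ∈ W₂, Q w = 0) (hmax₁ : ∀ W : Submodule F V, W₁ ≤ W → (∀ w ∈ W, Q w = 0) → W = W₁) (hmax₂ : ∀ W : Submodule F V, W₂ ≤ W → (∀ w ∈ W, Q w = 0) → W = W₂) : Module.finrank F W₁ = Module.finrank F W₂ ∧ 2 * Module.finrank F W₁ ≤ Module.finrank F V := by
  refine ⟨le_antisymm (aux Q hQ W₂ W₁ h₂ h₁ hmax₂) (aux Q hQ W₁ W₂ h₁ h₂ hmax₁), ?_⟩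
  have hle : W₁ ≤ LinearMap.BilinForm.orthogonal (QuadraticMap.polarBilin Q) W₁ := by
    intro x hx
    rw [LinearMap.BilinForm.mem_orthogonal_iff]
    intro n hn
    have := wq_add Q n x
    rw [h₁ _ (W₁.add_mem hn hx), h₁ n hn, h₁ x hx] at this
    simpa using this.symm
  have h3 := LinearMap.BilinForm.finrank_orthogonal hQ W₁
  have h4 := Submodule.finrank_mono hle
  have h5 := Submodule.finrank_le W₁
  omega

end Cfsg.Agent.S0760
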