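import Cfsg.Statements.S0761

set_option autoImplicit false
open Cfsg

namespace Cfsg.Agent.S0761

/-- Hyperbolic partners: let B be a non-degenerate bilinear form on a finite-dimensional space, either alternating, or symmetric with 2 ≠ 0. If Z is a subspace on which B vanishes, x ∉ Z is isotropic and orthogonal to Z, then there is an isotropic y with B x y = 1 which is orthogonal to Z. -/
theorem result {F V : Type*} [Field F] [AddCommGroup V] [Module F V] [FiniteDimensional F V] (B : LinearMap.BilinForm F V) (hB : B.Nondegenerate) (hform : B.IsAlt ∨ (B.IsSymm ∧ (2 : F) ≠ 0)) (x : V) (Z : Submodule F V) (hxZ : x ∉ Z) (hx : B x x = 0) (hxz : ∀ z ∈ Z, B x z = 0) (hZ : ∀ z ∈ Z, ∀ z' ∈ Z, B z z' = 0) : ∃ y : V, B y y = 0 ∧ B x y = 1 ∧ ∀ z ∈ Z, B z y = 0 := by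
  have hrefl : B.IsRefl := by
    rcases hform with h | h
    · exact h.isRefl
    · exact h.1.isRefl
  obtain ⟨t0, ht0Z, ht0x⟩ : ∃ t, (∀ n ∈ Z, B n t = 0) ∧ B t x ≠ 0 := by
    by_contra hcon
    push Not at hcon
    apply hxZ
    rw [← LinearMap.BilinForm.orthogonal_orthogonal hB hrefl Z,
      LinearMap.BilinForm.mem_orthogonal_iff]
    intro t ht
    exact hcon t (LinearMap.BilinForm.mem_orthogonal_iff.mp ht)
  have hxt0 : B x t0 ≠ 0 := fun h => ht0x (hrefl _ _ h)
  set t := (B x t0)⁻¹ • t0 with ht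
  have hxt : B x t = 1 := by rw [ht, map_smul, smul_eq_mul, inv_mul_cancel₀ hxt0]
  have htZ : ∀ n ∈ Z, B n t = 0 := by
    intro n hn
    rw [ht, map_smul, ht0Z n hn, smul_zero]
  clear_value t
  rcases hform with h | ⟨hs, h2⟩
  · exact ⟨t, h t, hxt, htZ⟩
  · refine ⟨t - (B t t / 2) • x, ?_, ?_, ?_⟩
    · have htx : B t x = 1 := by rw [hs.eq t x, hxt]
      simp only [map_sub, map_smul, LinearMap.sub_apply, LinearMap.smul_apply, smul_eq_mul, hx,
        hxt, htx]
      field_simp
      ring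
    · rw [map_sub, map_smul, hx, hxt]; simp
    · intro z hz
      rw [map_sub, map_smul, htZ z hz, hrefl _ _ (hxz z hz)]; simp

end Cfsg.Agent.S0761
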