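import Cfsg.Statements.S0762

set_option autoImplicit false
open Cfsg

namespace Cfsg.Agent.S0762

/-- In characteristic two over a finite field, a quadratic form on a space of dimension at least 3 vanishes on some non-zero vector. -/
theorem result {F V : Type*} [Field F] [Finite F] [CharP F 2] [AddCommGroup V] [Module F V] [FiniteDimensional F V] (Q : QuadraticForm F V) (h3 : 3 ≤ Module.finrank F V) : ∃ v : V, v ≠ 0 ∧ Q v = 0 := by
  have hnt : Nontrivial V := Module.nontrivial_of_finrank_pos (R := F) (by omega)
  obtain ⟨v, hv⟩ := exists_ne (0 : V)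
  by_cases hQv : Q v = 0
  · exact ⟨v, hv, hQv⟩
  have h2 : (2 : F) = 0 := CharTwo.two_eq_zero
  let f : V →ₗ[F] F := QuadraticMap.polarBilin Q v
  have hker : 2 ≤ Module.finrank F (LinearMap.ker f) := by
    have h1 := LinearMap.finrank_range_add_finrank_ker f
    have h4 : Module.finrank F (LinearMap.range f) ≤ 1 := by
      have := Submodule.finrank_le (LinearMap.range f)
      rwa [Module.finrank_self] at this
    omega
  have hvker : v ∈ LinearMap.ker f := by
    rw [LinearMap.mem_ker]
    change QuadraticMap.polarBilin Q v v = 0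
    rw [QuadraticMap.polarBilin_apply_apply, QuadraticMap.polar_self]
    simp [h2]
  have hlt : Submodule.span F {v} < LinearMap.ker f := by
    refine lt_of_le_of_ne ?_ ?_
    · rw [Submodule.span_singleton_le_iff_mem]; exact hvker
    · intro h
      rw [← h, finrank_span_singleton hv] at hker
      omega
  obtain ⟨w, hwker, hw⟩ := SetLike.exists_of_lt hlt
  have : Fintype F := Fintype.ofFinite F
  obtain ⟨a, ha⟩ := FiniteField.isSquare_of_char_two (CharP.ringChar_of_prime_eq_zero Nat.prime_two
    (by exact_mod_cast h2)) (Q w / Q v)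
  refine ⟨a • v + w, ?_, ?_⟩
  · intro h0
    apply hw
    rw [Submodule.mem_span_singleton]
    refine ⟨-a, ?_⟩
    rw [neg_smul]
    exact (eq_neg_of_add_eq_zero_right h0).symm
  · have hvw : QuadraticMap.polar Q v w = 0 := hwker
    rw [QuadraticMap.map_add Q, QuadraticMap.map_smul, QuadraticMap.polar_smul_left, hvw, ← ha,
      smul_eq_mul, div_mul_cancel₀ _ hQv, smul_zero, add_zero, ← two_mul, h2, zero_mul]

end Cfsg.Agent.S0762
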