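import Cfsg.Statements.S0763

set_option autoImplicit false
open Cfsg

namespace Cfsg.Agent.S0763

/-- Binary quadratic forms in characteristic two over a finite field: if Q is a quadratic form on a 2-dimensional space whose polar form is non-degenerate, then either there are vectors v, w with Q v = Q w = 0 and polar value 1 (Q is xy in these coordinates), or there are v, w and μ with Q v = 1, Q w = μ, polar value 1 and x² + x + μ without roots in F (Q is x² + xy + μy²). -/
theorem result {F V : Type*} [Field F] [Finite F] [CharP F 2] [AddCommGroup V] [Module F V] (Q : QuadraticForm F V) (h2 : Module.finrank F V = 2) (hQ : (QuadraticMap.polarBilin Q).Nondegenerate) : (∃ v w : V, LinearIndependent F ![v, w] ∧ Q v = 0 ∧ Q w = 0 ∧ QuadraticMap.polar Q v w = 1) ∨ (∃ (v w : V) (μ : F), LinearIndependent F ![v, w] ∧ (∀ x : F, x ^ 2 + x + μ ≠ 0) ∧ Q v = 1 ∧ Q w = μ ∧ QuadraticMap.polar Q v w = 1) := by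
  have h20 : (2 : F) = 0 := CharTwo.two_eq_zero
  have hself : ∀ u : V, QuadraticMap.polar Q u u = 0 := by
    intro u
    rw [QuadraticMap.polar_self]; simp [h20]
  have hLI : ∀ v w : V, QuadraticMap.polar Q v w = 1 → LinearIndependent F ![v, w] := by
    intro v w hvw
    rw [LinearIndependent.pair_iff]
    intro s t hst
    have h1 := congrArg (fun u => QuadraticMap.polar Q v u) hst
    have h3 := congrArg (fun u => QuadraticMap.polar Q u w) hst
    simp only [QuadraticMap.polar_add_right, QuadraticMap.polar_smul_right, hself, hvw,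
      QuadraticMap.polar_add_left, QuadraticMap.polar_smul_left, smul_eq_mul, mul_zero, mul_one,
      zero_add, add_zero, QuadraticMap.polar_zero_right, QuadraticMap.polar_zero_left] at h1 h3
    exact ⟨h3, h1⟩
  have hpartner : ∀ v : V, v ≠ 0 → ∃ w, QuadraticMap.polar Q v w = 1 := by
    intro v hv
    by_contra hcon
    apply hv
    apply hQ.1
    intro z
    by_contra hz
    apply hcon
    rw [QuadraticMap.polarBilin_apply_apply] at hz
    refine ⟨(QuadraticMap.polar Q v z)⁻¹ • z, ?_⟩
    rw [QuadraticMap.polar_smul_right, smul_eq_mul, inv_mul_cancel₀ hz]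
  have hnt : Nontrivial V := Module.nontrivial_of_finrank_pos (R := F) (by omega)
  by_cases hiso : ∃ v : V, v ≠ 0 ∧ Q v = 0
  · left
    obtain ⟨v, hv, hQv⟩ := hiso
    obtain ⟨w, hvw⟩ := hpartner v hv
    have hvw' : QuadraticMap.polar Q v (w + (-(Q w)) • v) = 1 := by
      rw [QuadraticMap.polar_add_right, QuadraticMap.polar_smul_right, hself, hvw]; simp
    refine ⟨v, w + (-(Q w)) • v, hLI _ _ hvw', hQv, ?_, hvw'⟩
    rw [QuadraticMap.map_add Q, QuadraticMap.map_smul, hQv, QuadraticMap.polar_smul_right,
      QuadraticMap.polar_comm, hvw]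
    simp
  · right
    push Not at hiso
    obtain ⟨v0, hv0⟩ := exists_ne (0 : V)
    have hQv0 := hiso v0 hv0
    have : Fintype F := Fintype.ofFinite F
    obtain ⟨a, ha⟩ := FiniteField.isSquare_of_char_two
      (CharP.ringChar_of_prime_eq_zero Nat.prime_two (by exact_mod_cast h20)) (Q v0)⁻¹
    have ha0 : a ≠ 0 := by
      rintro rfl
      simp at ha
      exact hQv0 ha
    have hv : a • v0 ≠ 0 := smul_ne_zero ha0 hv0
    have hQv : Q (a • v0) = 1 := by
      rw [QuadraticMap.map_smul, ← ha, smul_eq_mul, inv_mul_cancel₀ hQv0]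
    obtain ⟨w, hvw⟩ := hpartner _ hv
    have hli := hLI _ _ hvw
    refine ⟨a • v0, w, Q w, hli, fun x hx => ?_, hQv, rfl, hvw⟩
    have hne : x • (a • v0) + w ≠ 0 := by
      intro h0
      have := (LinearIndependent.pair_iff.mp hli) x 1 (by rw [one_smul]; exact h0)
      exact one_ne_zero this.2
    apply hiso _ hne
    rw [QuadraticMap.map_add Q, QuadraticMap.map_smul, hQv, QuadraticMap.polar_smul_left, hvw,
      ← hx]
    simp only [smul_eq_mul]
    ring

end Cfsg.Agent.S0763
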