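import Mathlib
import Cfsg.Prelude.Def_ClassicalGeometry

set_option autoImplicit false

namespace Cfsg.Agent.S0770

open Matrix

variable {F : Type*} [Field F] {n : ℕ}

theorem mem_D_iff (h : Matrix.GeneralLinearGroup (Fin n) F) :
    h ∈ ((Units.map (Matrix.diagonalRingHom (Fin n) F).toMonoidHom).range :
      Subgroup (Matrix.GeneralLinearGroup (Fin n) F)) ↔
    ∃ d : Fin n → F, (h : Matrix (Fin n) (Fin n) F) = Matrix.diagonal d := by
  constructor
  · rintro ⟨u, rfl⟩
    exact ⟨(u : Fin n → F), rfl⟩
  · rintro ⟨d, hd⟩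
    have hdet : (h : Matrix (Fin n) (Fin n) F).det ≠ 0 := by
      have := (Matrix.isUnit_iff_isUnit_det _).mp h.isUnit
      exact this.ne_zero
    rw [hd, Matrix.det_diagonal] at hdet
    have hne : ∀ i, d i ≠ 0 := fun i => (Finset.prod_ne_zero_iff.mp hdet) i (Finset.mem_univ i)
    refine ⟨⟨d, fun i => (d i)⁻¹, ?_, ?_⟩, ?_⟩
    · ext i; simp [hne i]
    · ext i; simp [hne i]
    · apply Units.ext
      rw [hd]
      rfl

theorem comm_diag (g : Matrix (Fin n) (Fin n) F) (σ : Fin n → Fin n)
    (hσ : ∀ i j, g i j ≠ 0 → j = σ i) (d : Fin n → F) :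
    g * Matrix.diagonal d = Matrix.diagonal (d ∘ σ) * g := by
  ext i k
  rw [Matrix.mul_diagonal, Matrix.diagonal_mul]
  by_cases h : g i k = 0
  · simp [h]
  · rw [hσ i k h, Function.comp_apply, mul_comm]

/-- For a field with at least 3 elements, an invertible matrix normalises the subgroup of invertible diagonal matrices of GL_n if and only if it is monomial (exactly one non-zero entry in each row). -/
theorem result {F : Type*} [Field F] (hF : ∃ a : F, a ≠ 0 ∧ a ≠ 1) (n : ℕ) (g : Matrix.GeneralLinearGroup (Fin n) F) : g ∈ Subgroup.normalizer ((Units.map (Matrix.diagonalRingHom (Fin n) F).toMonoidHom).range : Subgroup (Matrix.GeneralLinearGroup (Fin n) F)) ↔ ∀ i : Fin n, ∃! j : Fin n, (g : Matrix (Fin n) (Fin n) F) i j ≠ 0 := by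
  have hdet : (g : Matrix (Fin n) (Fin n) F).det ≠ 0 := by
    have := (Matrix.isUnit_iff_isUnit_det _).mp g.isUnit
    exact this.ne_zero
  have hgg : (g : Matrix (Fin n) (Fin n) F) * ((g⁻¹ : Matrix.GeneralLinearGroup (Fin n) F) : Matrix (Fin n) (Fin n) F) = 1 := by
    rw [← Units.val_mul, mul_inv_cancel, Units.val_one]
  have hgg' : ((g⁻¹ : Matrix.GeneralLinearGroup (Fin n) F) : Matrix (Fin n) (Fin n) F) * (g : Matrix (Fin n) (Fin n) F) = 1 := by
    rw [← Units.val_mul, inv_mul_cancel, Units.val_one]
  rw [Subgroup.mem_normalizer_iff]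
  constructor
  · intro hg i
    obtain ⟨a, ha0, ha1⟩ := hF
    have hex : ∃ j, (g : Matrix (Fin n) (Fin n) F) i j ≠ 0 := by
      by_contra hcon
      push Not at hcon
      exact hdet (Matrix.det_eq_zero_of_row_eq_zero i hcon)
    obtain ⟨j, hj⟩ := hex
    refine ⟨j, hj, ?_⟩
    intro k hk
    by_contra hkj
    have hne : ∀ l, (Function.update (1 : Fin n → F) j a) l ≠ 0 := by
      intro l
      by_cases hl : l = j
      · subst hl; simpa using ha0
      · simp [Function.update_of_ne hl]
    let u : (Fin n → F)ˣ := ⟨Function.update (1 : Fin n → F) j a,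
      fun l => ((Function.update (1 : Fin n → F) j a) l)⁻¹,
      by ext l; simp [hne l], by ext l; simp [hne l]⟩
    have hmem := (hg (Units.map (Matrix.diagonalRingHom (Fin n) F).toMonoidHom u)).mp ⟨u, rfl⟩
    rw [mem_D_iff] at hmem
    obtain ⟨d', hd'⟩ := hmem
    have h1 : (g : Matrix (Fin n) (Fin n) F) * Matrix.diagonal (Function.update (1 : Fin n → F) j a)
        = Matrix.diagonal d' * (g : Matrix (Fin n) (Fin n) F) := by
      rw [← hd']
      rw [Units.val_mul, Units.val_mul, mul_assoc, hgg', mul_one]
      rfl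
    have e1 := congrFun (congrFun h1 i) j
    have e2 := congrFun (congrFun h1 i) k
    rw [Matrix.mul_diagonal, Matrix.diagonal_mul] at e1 e2
    rw [Function.update_self] at e1
    rw [Function.update_of_ne hkj] at e2
    have e3 : d' i = a := by
      have : (g : Matrix (Fin n) (Fin n) F) i j * (d' i - a) = 0 := by linear_combination -e1
      rcases mul_eq_zero.mp this with h | h
      · exact absurd h hj
      · linear_combination h
    have e4 : d' i = 1 := by
      have : (g : Matrix (Fin n) (Fin n) F) i k * (d' i - 1) = 0 := by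
        simp only [Pi.one_apply] at e2
        linear_combination -e2
      rcases mul_eq_zero.mp this with h | h
      · exact absurd h hk
      · linear_combination h
    exact ha1 (e3.symm.trans e4)
  · intro hmon
    choose σ hσ1 hσ2 using hmon
    have hσ : ∀ i j, (g : Matrix (Fin n) (Fin n) F) i j ≠ 0 → j = σ i := fun i j h => hσ2 i j h
    have hsurj : Function.Surjective σ := by
      intro k
      by_contra hcon
      push Not at hcon
      apply hdet
      apply Matrix.det_eq_zero_of_column_eq_zero k
      intro i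
      by_contra hne
      exact hcon i (hσ i k hne).symm
    have hbij : Function.Bijective σ := ⟨Finite.injective_iff_surjective.mpr hsurj, hsurj⟩
    let e := Equiv.ofBijective σ hbij
    intro h
    rw [mem_D_iff, mem_D_iff]
    constructor
    · rintro ⟨d, hd⟩
      refine ⟨d ∘ σ, ?_⟩
      rw [Units.val_mul, Units.val_mul, hd, comm_diag _ σ hσ, mul_assoc, hgg, mul_one]
    · rintro ⟨d', hd'⟩
      refine ⟨d' ∘ e.symm, ?_⟩
      have h1 := comm_diag _ σ hσ (d' ∘ e.symm)
      have h2 : (d' ∘ e.symm) ∘ σ = d' := by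
        ext i
        simp only [Function.comp_apply]
        congr 1
        exact e.symm_apply_apply i
      rw [h2, ← hd', Units.val_mul, Units.val_mul, mul_assoc, hgg', mul_one] at h1
      have h3 := congrArg (fun M => ((g⁻¹ : Matrix.GeneralLinearGroup (Fin n) F) : Matrix (Fin n) (Fin n) F) * M) h1
      simp only [← mul_assoc, hgg', one_mul] at h3
      exact h3.symm

end Cfsg.Agent.S0770
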