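import Mathlib
import Cfsg.Prelude.Def_ClassicalGeometry
import Cfsg.Agent.Lib.Helper6.GLStab

set_option autoImplicit false

namespace Cfsg.Agent.S0771

open Matrix Cfsg Cfsg.Agent.Lib.Helper6

variable {F : Type*} [Field F]

/-- the index equivalence. -/
def idx (n k : ℕ) (hk : k ≤ n) : Fin k ⊕ Fin (n - k) ≃ Fin n :=
  finSumFinEquiv.trans (finCongr (by omega))

theorem idx_inl (n k : ℕ) (hk : k ≤ n) (a : Fin k) : ((idx n k hk (Sum.inl a) : Fin n) : ℕ) = a := by
  simp [idx]

theorem idx_inr (n k : ℕ) (hk : k ≤ n) (b : Fin (n - k)) :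
    ((idx n k hk (Sum.inr b) : Fin n) : ℕ) = k + b := by
  simp [idx]

theorem det_ne_zero_of_gl {ι : Type*} [Fintype ι] [DecidableEq ι] (g : Matrix.GeneralLinearGroup ι F) :
    (g : Matrix ι ι F).det ≠ 0 :=
  ((Matrix.isUnit_iff_isUnit_det _).mp g.isUnit).ne_zero

/-- the parametrisation. -/
noncomputable def par (n k : ℕ) (hk : k ≤ n)
    (x : Matrix.GeneralLinearGroup (Fin k) F × Matrix.GeneralLinearGroup (Fin (n - k)) F ×
      Matrix (Fin k) (Fin (n - k)) F) : Matrix.GeneralLinearGroup (Fin n) F :=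
  Matrix.GeneralLinearGroup.mkOfDetNeZero
    (Matrix.reindex (idx n k hk) (idx n k hk)
      (Matrix.fromBlocks (x.1 : Matrix (Fin k) (Fin k) F) x.2.2 0 (x.2.1 : Matrix _ _ F)))
    (by
      rw [Matrix.det_reindex_self, Matrix.det_fromBlocks_zero₂₁]
      exact mul_ne_zero (det_ne_zero_of_gl _) (det_ne_zero_of_gl _))

theorem par_coe (n k : ℕ) (hk : k ≤ n)
    (x : Matrix.GeneralLinearGroup (Fin k) F × Matrix.GeneralLinearGroup (Fin (n - k)) F ×
      Matrix (Fin k) (Fin (n - k)) F) :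
    (par n k hk x : Matrix (Fin n) (Fin n) F) = Matrix.reindex (idx n k hk) (idx n k hk)
      (Matrix.fromBlocks (x.1 : Matrix (Fin k) (Fin k) F) x.2.2 0 (x.2.1 : Matrix _ _ F)) := rfl

theorem par_mem (n k : ℕ) (hk : k ≤ n)
    (x : Matrix.GeneralLinearGroup (Fin k) F × Matrix.GeneralLinearGroup (Fin (n - k)) F ×
      Matrix (Fin k) (Fin (n - k)) F) :
    par n k hk x ∈ stabilizing (glToMat (Fin n) F)
      {v : Fin n → F | ∀ i : Fin n, k ≤ (i : ℕ) → v i = 0} := by
  rw [mem_stab_coord_iff]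
  intro i j hi hj
  rw [par_coe]
  obtain ⟨i', rfl⟩ := (idx n k hk).surjective i
  obtain ⟨j', rfl⟩ := (idx n k hk).surjective j
  simp only [Matrix.reindex_apply, Matrix.submatrix_apply, Equiv.symm_apply_apply]
  rcases i' with a | b
  · rw [idx_inl] at hi
    have := a.2
    omega
  · rcases j' with a' | b'
    · rfl
    · rw [idx_inr] at hj
      omega

theorem par_bij (n k : ℕ) (hk : k ≤ n) :
    Function.Bijective (fun x : Matrix.GeneralLinearGroup (Fin k) F ×
      Matrix.GeneralLinearGroup (Fin (n - k)) F × Matrix (Fin k) (Fin (n - k)) F =>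
      (⟨par n k hk x, par_mem n k hk x⟩ : ↥(stabilizing (glToMat (Fin n) F)
      {v : Fin n → F | ∀ i : Fin n, k ≤ (i : ℕ) → v i = 0}))) := by
  constructor
  · rintro ⟨A, D, B⟩ ⟨A', D', B'⟩ h
    have h1 : (par n k hk (A, D, B) : Matrix (Fin n) (Fin n) F) = par n k hk (A', D', B') := by
      have := congrArg (fun z => ((z : Matrix.GeneralLinearGroup (Fin n) F) : Matrix (Fin n) (Fin n) F))
        (congrArg Subtype.val h)
      exact this
    rw [par_coe, par_coe] at h1
    have h2 := (Matrix.reindex (idx n k hk) (idx n k hk)).injective h1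
    rw [Matrix.fromBlocks_inj] at h2
    obtain ⟨hA, hB, -, hD⟩ := h2
    simp only at hA hB hD
    rw [Units.ext hA, Units.ext hD, hB]
  · rintro ⟨g, hg⟩
    rw [mem_stab_coord_iff] at hg
    set M : Matrix (Fin k ⊕ Fin (n - k)) (Fin k ⊕ Fin (n - k)) F :=
      (g : Matrix (Fin n) (Fin n) F).submatrix (idx n k hk) (idx n k hk) with hM
    have h21 : M.toBlocks₂₁ = 0 := by
      ext b a
      simp only [Matrix.toBlocks₂₁, hM, Matrix.of_apply, Matrix.submatrix_apply, Matrix.zero_apply]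
      apply hg
      · rw [idx_inr]; omega
      · rw [idx_inl]; exact a.2
    have hMb : M = Matrix.fromBlocks M.toBlocks₁₁ M.toBlocks₁₂ 0 M.toBlocks₂₂ := by
      rw [← h21, Matrix.fromBlocks_toBlocks]
    have hdet : M.det ≠ 0 := by
      rw [hM, Matrix.det_submatrix_equiv_self]
      exact det_ne_zero_of_gl g
    rw [hMb, Matrix.det_fromBlocks_zero₂₁] at hdet
    refine ⟨(Matrix.GeneralLinearGroup.mkOfDetNeZero M.toBlocks₁₁ (left_ne_zero_of_mul hdet),
      Matrix.GeneralLinearGroup.mkOfDetNeZero M.toBlocks₂₂ (right_ne_zero_of_mul hdet),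
      M.toBlocks₁₂), ?_⟩
    apply Subtype.ext
    apply Units.ext
    show Matrix.reindex (idx n k hk) (idx n k hk)
      (Matrix.fromBlocks M.toBlocks₁₁ M.toBlocks₁₂ 0 M.toBlocks₂₂) = g
    rw [← hMb, hM]
    ext i j
    simp

/-- Maximal parabolic of GL_n(q): the stabiliser of the coordinate subspace spanned by the first k basis vectors has order q^(k(n-k)) · |GL_k(q)| · |GL_(n-k)(q)| (unipotent radical of order q^(k(n-k)) and Levi complement GL_k × GL_(n-k)). -/
theorem result {F : Type*} [Field F] [Fintype F] {q : ℕ} (hF : Fintype.card F = q) (n k : ℕ) (hk : k ≤ n) : Nat.card ↥(Cfsg.stabilizing (Cfsg.glToMat (Fin n) F) {v : Fin n → F | ∀ i : Fin n, k ≤ (i : ℕ) → v i = 0}) = q ^ (k * (n - k)) * (∏ i : Fin k, (q ^ k - q ^ (i : ℕ))) * ∏ i : Fin (n - k), (q ^ (n - k) - q ^ (i : ℕ)) := by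
  rw [← Nat.card_congr (Equiv.ofBijective _ (par_bij n k hk)), Nat.card_prod, Nat.card_prod,
    Matrix.card_GL_field, Matrix.card_GL_field, hF]
  have : Nat.card (Matrix (Fin k) (Fin (n - k)) F) = q ^ (k * (n - k)) := by
    show Nat.card (Fin k → Fin (n - k) → F) = q ^ (k * (n - k))
    rw [Nat.card_eq_fintype_card, Fintype.card_fun, Fintype.card_fun, hF]
    simp only [Fintype.card_fin]
    rw [← pow_mul, mul_comm]
  rw [this]
  ring

end Cfsg.Agent.S0771
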