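import Mathlib
import Cfsg.Prelude.Def_ClassicalGeometry
import Cfsg.Agent.Lib.Helper6.GLStab

set_option autoImplicit false

namespace Cfsg.Agent.S0772

open Matrix Cfsg Cfsg.Agent.Lib.Helper6

variable {F : Type*} [Field F] {n : ℕ}

theorem r1_det (u w : Fin n → F) : (1 + vecMulVec u w : Matrix (Fin n) (Fin n) F).det = 1 + w ⬝ᵥ u := by
  rw [vecMulVec_eq Unit, det_one_add_replicateCol_mul_replicateRow]

/-- rank one update as an element of `GL`. -/
noncomputable def r1 (u w : Fin n → F) (h : 1 + w ⬝ᵥ u ≠ 0) : Matrix.GeneralLinearGroup (Fin n) F :=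
  Matrix.GeneralLinearGroup.mkOfDetNeZero (1 + vecMulVec u w) (by rw [r1_det]; exact h)

theorem r1_coe (u w : Fin n → F) (h : 1 + w ⬝ᵥ u ≠ 0) :
    (r1 u w h : Matrix (Fin n) (Fin n) F) = 1 + vecMulVec u w := rfl

theorem r1_mulVec (u w : Fin n → F) (h : 1 + w ⬝ᵥ u ≠ 0) (x : Fin n → F) :
    (r1 u w h : Matrix (Fin n) (Fin n) F) *ᵥ x = x + (w ⬝ᵥ x) • u := by
  rw [r1_coe, add_mulVec, one_mulVec, vecMulVec_mulVec]
  ext i
  simp [mul_comm]

theorem r1_vecMul (u w : Fin n → F) (h : 1 + w ⬝ᵥ u ≠ 0) (y : Fin n → F) :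
    y ᵥ* (r1 u w h : Matrix (Fin n) (Fin n) F) = y + (y ⬝ᵥ u) • w := by
  rw [r1_coe, vecMul_add, vecMul_one, vecMul_vecMulVec]

theorem tv_eq (a b : Fin n) (c : F) :
    Matrix.transvection a b c = 1 + c • vecMulVec (Pi.single a 1) (Pi.single b 1) := by
  rw [Matrix.transvection, ← single_eq_single_vecMulVec_single, Matrix.smul_single, smul_eq_mul,
    mul_one]

theorem conj_tv (m : Matrix (Fin n) (Fin n) F) (a b l j : Fin n) (c : F)
    (h1 : m *ᵥ Pi.single a 1 = Pi.single l 1) (h2 : Pi.single j 1 ᵥ* m = Pi.single b 1) :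
    m * Matrix.transvection a b c = Matrix.transvection l j c * m := by
  rw [tv_eq, tv_eq, mul_add, add_mul, mul_one, one_mul, Matrix.mul_smul, Matrix.smul_mul,
    mul_vecMulVec, vecMulVec_mul, h1, h2]

theorem glTv_comm (a b c : Fin n) (hab : a ≠ b) (hbc : b ≠ c) (hac : a ≠ c) (s t : F) :
    glTv a b hab s * glTv b c hbc t = glTv a c hac (s * t) * glTv b c hbc t * glTv a b hab s := by
  apply Units.ext
  rw [Units.val_mul, Units.val_mul, Units.val_mul]
  simp only [glTv_coe]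
  apply Matrix.toLin'.injective
  apply LinearMap.ext
  intro x
  simp only [Matrix.toLin'_apply, ← Matrix.mulVec_mulVec, transvection_mulVec]
  ext i
  simp only [Pi.add_apply, Pi.smul_apply, Pi.single_apply, smul_eq_mul,
    hbc.symm, hac.symm, if_true, if_false]
  split_ifs <;> ring

theorem key (k : ℕ) (H : Subgroup (Matrix.GeneralLinearGroup (Fin n) F))
    (hPH : stabilizing (glToMat (Fin n) F) {v : Fin n → F | ∀ i : Fin n, k ≤ (i : ℕ) → v i = 0} ≤ H)
    (h : Matrix.GeneralLinearGroup (Fin n) F) (hH : h ∈ H)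
    (hP : h ∉ stabilizing (glToMat (Fin n) F) {v : Fin n → F | ∀ i : Fin n, k ≤ (i : ℕ) → v i = 0}) :
    ∃ l j : Fin n, ∃ hlj : l ≠ j, k ≤ (l : ℕ) ∧ (j : ℕ) < k ∧ ∀ c : F, glTv l j hlj c ∈ H := by
  have hP' : h⁻¹ ∉ stabilizing (glToMat (Fin n) F)
      {v : Fin n → F | ∀ i : Fin n, k ≤ (i : ℕ) → v i = 0} := by
    intro hh
    exact hP (by simpa using Subgroup.inv_mem _ hh)
  rw [mem_stab_coord_iff] at hP hP'
  push Not at hP hP'
  obtain ⟨l, a, hl, ha, hla⟩ := hP
  obtain ⟨b, j, hb, hj, hbj⟩ := hP'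
  have hlj : l ≠ j := by intro e; subst e; omega
  have hab : a ≠ b := by intro e; subst e; omega
  refine ⟨l, j, hlj, hl, hj, ?_⟩
  set v : Fin n → F := (h : Matrix (Fin n) (Fin n) F) *ᵥ Pi.single a 1 with hv
  set φ : Fin n → F := Pi.single b 1 ᵥ* ((h⁻¹ : Matrix.GeneralLinearGroup (Fin n) F) : Matrix (Fin n) (Fin n) F) with hφ
  have hvl : v l ≠ 0 := by
    rw [hv]; simpa using hla
  have hφj : φ j ≠ 0 := by
    rw [hφ]; simpa using hbj
  have hφv : φ ⬝ᵥ v = 0 := by
    rw [hv, hφ, ← Matrix.dotProduct_mulVec, Matrix.mulVec_mulVec, ← Units.val_mul, inv_mul_cancel,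
      Units.val_one, Matrix.one_mulVec]
    simp [hab.symm]
  -- p
  have hpd : 1 + (Pi.single l 1 : Fin n → F) ⬝ᵥ (v - Pi.single l 1) ≠ 0 := by
    simpa using hvl
  set p := r1 (v - Pi.single l 1) (Pi.single l 1) hpd with hp
  have hp1 : (p : Matrix (Fin n) (Fin n) F) *ᵥ Pi.single l 1 = v := by
    rw [hp, r1_mulVec]; simp
  have hpP : p ∈ stabilizing (glToMat (Fin n) F)
      {v : Fin n → F | ∀ i : Fin n, k ≤ (i : ℕ) → v i = 0} := by
    rw [mem_stab_coord_iff]
    intro x y hx hy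
    have hxy : x ≠ y := by intro e; subst e; omega
    have hyl : y ≠ l := by intro e; subst e; omega
    rw [hp, r1_coe]
    simp [Matrix.one_apply_ne hxy, vecMulVec_apply, hyl]
  set φ' : Fin n → F := φ ᵥ* (p : Matrix (Fin n) (Fin n) F) with hφ'
  have hφ'e : φ' = φ - φ l • Pi.single l 1 := by
    rw [hφ', hp, r1_vecMul, dotProduct_sub, hφv]
    simp [sub_eq_add_neg]
  have hφ'l : φ' l = 0 := by rw [hφ'e]; simp
  have hφ'j : φ' j = φ j := by rw [hφ'e]; simp [hlj.symm]
  have hrd : 1 + (φ' - Pi.single j 1 : Fin n → F) ⬝ᵥ (Pi.single j 1) ≠ 0 := by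
    simpa [hφ'j] using hφj
  set r := r1 (Pi.single j 1) (φ' - Pi.single j 1) hrd with hr
  have hr1 : (r : Matrix (Fin n) (Fin n) F) *ᵥ Pi.single l 1 = Pi.single l 1 := by
    rw [hr, r1_mulVec]; simp [hφ'l, hlj.symm]
  have hr2 : Pi.single j 1 ᵥ* (r : Matrix (Fin n) (Fin n) F) = φ' := by
    rw [hr, r1_vecMul]; simp
  have hrP : r ∈ stabilizing (glToMat (Fin n) F)
      {v : Fin n → F | ∀ i : Fin n, k ≤ (i : ℕ) → v i = 0} := by
    rw [mem_stab_coord_iff]
    intro x y hx hy
    have hxy : x ≠ y := by intro e; subst e; omega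
    have hxj : x ≠ j := by intro e; subst e; omega
    rw [hr, r1_coe]
    simp [Matrix.one_apply_ne hxy, vecMulVec_apply, hxj]
  set m := r * p⁻¹ * h with hm
  have hmH : m ∈ H := H.mul_mem (H.mul_mem (hPH hrP) (H.inv_mem (hPH hpP))) hH
  have hm1 : (m : Matrix (Fin n) (Fin n) F) *ᵥ Pi.single a 1 = Pi.single l 1 := by
    rw [hm, Units.val_mul, Units.val_mul, ← Matrix.mulVec_mulVec, ← hv, ← Matrix.mulVec_mulVec,
      ← hp1, Matrix.mulVec_mulVec _ _ (p : Matrix (Fin n) (Fin n) F), ← Units.val_mul, inv_mul_cancel,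
      Units.val_one, Matrix.one_mulVec, hr1]
  have hm2 : Pi.single j 1 ᵥ* (m : Matrix (Fin n) (Fin n) F) = Pi.single b 1 := by
    rw [hm, Units.val_mul, Units.val_mul, ← Matrix.vecMul_vecMul, ← Matrix.vecMul_vecMul, hr2, hφ',
      Matrix.vecMul_vecMul _ (p : Matrix (Fin n) (Fin n) F), ← Units.val_mul, mul_inv_cancel,
      Units.val_one, Matrix.vecMul_one, hφ, Matrix.vecMul_vecMul, ← Units.val_mul, inv_mul_cancel,
      Units.val_one, Matrix.vecMul_one]
  clear_value m
  intro c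
  have hconj : m * glTv a b hab c = glTv l j hlj c * m := by
    apply Units.ext
    rw [Units.val_mul, Units.val_mul, glTv_coe, glTv_coe]
    exact conj_tv _ a b l j c hm1 hm2
  have : glTv l j hlj c = m * glTv a b hab c * m⁻¹ := by
    rw [hconj, mul_inv_cancel_right]
  rw [this]
  exact H.mul_mem (H.mul_mem hmH (hPH (glTv_mem_stab k a b hab c (Or.inl ha)))) (H.inv_mem hmH)

/-- Maximal parabolics are maximal: over a finite field, for 0 < k < n the stabiliser in GL_n of the span of the first k coordinate vectors is a maximal proper subgroup. -/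
theorem result {F : Type*} [Field F] [Finite F] (n k : ℕ) (hk0 : 0 < k) (hkn : k < n) : IsCoatom (Cfsg.stabilizing (Cfsg.glToMat (Fin n) F) {v : Fin n → F | ∀ i : Fin n, k ≤ (i : ℕ) → v i = 0}) := by
  constructor
  · -- proper
    intro htop
    have hne : (⟨k, hkn⟩ : Fin n) ≠ ⟨0, by omega⟩ := by
      intro e
      have := congrArg Fin.val e
      simp at this
      omega
    have h1 : glTv (⟨k, hkn⟩ : Fin n) ⟨0, by omega⟩ hne (1 : F) ∈ Cfsg.stabilizing (Cfsg.glToMat (Fin n) F)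
        {v : Fin n → F | ∀ i : Fin n, k ≤ (i : ℕ) → v i = 0} := by
      rw [htop]; trivial
    rw [mem_stab_coord_iff] at h1
    have h2 := h1 ⟨k, hkn⟩ ⟨0, by omega⟩ le_rfl hk0
    rw [glTv_coe, Matrix.transvection, Matrix.add_apply, Matrix.one_apply_ne hne,
      Matrix.single_apply_same] at h2
    simp at h2
  · intro H hlt
    obtain ⟨hPH, h, hH, hP⟩ := SetLike.lt_iff_le_and_exists.mp hlt
    obtain ⟨l, j, hlj, hl, hj, hT⟩ := key k H hPH h hH hP
    -- all transvections
    have hall : ∀ (x y : Fin n) (hxy : x ≠ y) (c : F), glTv x y hxy c ∈ H := by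
      intro x y hxy c
      by_cases hin : (x : ℕ) < k ∨ k ≤ (y : ℕ)
      · exact hPH (glTv_mem_stab k x y hxy c hin)
      · push Not at hin
        obtain ⟨hx, hy⟩ := hin
        -- first: (x, j)
        have hxj : x ≠ j := by intro e; subst e; omega
        have s1 : ∀ c : F, glTv x j hxj c ∈ H := by
          intro c
          by_cases hxl : x = l
          · subst hxl; exact hT c
          · have e := glTv_comm x l j hxl hlj hxj 1 c
            have e2 : glTv x j hxj (1 * c) =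
                glTv x l hxl 1 * glTv l j hlj c * (glTv x l hxl 1)⁻¹ * (glTv l j hlj c)⁻¹ := by
              rw [e]; group
            rw [one_mul] at e2
            rw [e2]
            have hm := hPH (glTv_mem_stab k x l hxl (1 : F) (Or.inr hl))
            exact H.mul_mem (H.mul_mem (H.mul_mem hm (hT c)) (H.inv_mem hm)) (H.inv_mem (hT c))
        by_cases hjy : j = y
        · subst hjy; exact s1 c
        · have e := glTv_comm x j y hxj hjy hxy c 1
          have e2 : glTv x y hxy (c * 1) =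
              glTv x j hxj c * glTv j y hjy 1 * (glTv x j hxj c)⁻¹ * (glTv j y hjy 1)⁻¹ := by
            rw [e]; group
          rw [mul_one] at e2
          rw [e2]
          have hm := hPH (glTv_mem_stab k j y hjy (1 : F) (Or.inl hj))
          exact H.mul_mem (H.mul_mem (H.mul_mem (s1 c) hm) (H.inv_mem (s1 c))) (H.inv_mem hm)
    rw [eq_top_iff]
    intro g _
    have hgdet : (g : Matrix (Fin n) (Fin n) F).det ≠ 0 :=
      ((Matrix.isUnit_iff_isUnit_det _).mp g.isUnit).ne_zero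
    have := Matrix.diagonal_transvection_induction_of_det_ne_zero
      (fun M => ∃ x ∈ H, (x : Matrix (Fin n) (Fin n) F) = M) (g : Matrix (Fin n) (Fin n) F) hgdet
      ?_ ?_ ?_
    · obtain ⟨x, hx, hxg⟩ := this
      rwa [← Units.ext hxg]
    · intro D hD
      refine ⟨Matrix.GeneralLinearGroup.mkOfDetNeZero (Matrix.diagonal D) hD, hPH ?_, rfl⟩
      rw [mem_stab_coord_iff]
      intro x y hx hy
      have hxy : x ≠ y := by intro e; subst e; omega
      exact Matrix.diagonal_apply_ne _ hxy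
    · intro t
      exact ⟨glTv t.i t.j t.hij t.c, hall _ _ _ _, rfl⟩
    · rintro A B _ _ ⟨x, hx, rfl⟩ ⟨y, hy, rfl⟩
      exact ⟨x * y, H.mul_mem hx hy, rfl⟩

end Cfsg.Agent.S0772
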