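import Mathlib
import Cfsg.Prelude.Def_ClassicalGeometry
import Cfsg.Agent.Lib.Helper6.GLStab

set_option autoImplicit false

namespace Cfsg.Agent.S0773

open Matrix Cfsg Cfsg.Agent.Lib.Helper6

variable {F : Type*} [Field F] {n : ℕ}

/-- inverse transpose followed by reversal, as a hom to matrices. -/
def thetaMat (F : Type*) [Field F] (n : ℕ) :
    Matrix.GeneralLinearGroup (Fin n) F →* Matrix (Fin n) (Fin n) F where
  toFun g := (((g⁻¹ : Matrix.GeneralLinearGroup (Fin n) F) : Matrix (Fin n) (Fin n) F)ᵀ).submatrix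
    Fin.revPerm Fin.revPerm
  map_one' := by
    simp
  map_mul' g h := by
    rw [_root_.mul_inv_rev, Units.val_mul, Matrix.transpose_mul, Matrix.submatrix_mul_equiv]

/-- the automorphism. -/
def theta (F : Type*) [Field F] (n : ℕ) :
    Matrix.GeneralLinearGroup (Fin n) F →* Matrix.GeneralLinearGroup (Fin n) F :=
  (thetaMat F n).toHomUnits

theorem theta_apply (g : Matrix.GeneralLinearGroup (Fin n) F) (i j : Fin n) :
    (theta F n g : Matrix (Fin n) (Fin n) F) i j =
      ((g⁻¹ : Matrix.GeneralLinearGroup (Fin n) F) : Matrix (Fin n) (Fin n) F) (Fin.rev j) (Fin.rev i) :=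
  rfl

theorem theta_theta (g : Matrix.GeneralLinearGroup (Fin n) F) : theta F n (theta F n g) = g := by
  apply Units.ext
  ext i j
  rw [theta_apply, ← map_inv, theta_apply, inv_inv, Fin.rev_rev, Fin.rev_rev]

theorem theta_mem (k k' : ℕ) (hkk : k + k' = n) (g : Matrix.GeneralLinearGroup (Fin n) F)
    (hg : g ∈ stabilizing (glToMat (Fin n) F) {v : Fin n → F | ∀ i : Fin n, k ≤ (i : ℕ) → v i = 0}) :
    theta F n g ∈ stabilizing (glToMat (Fin n) F)
      {v : Fin n → F | ∀ i : Fin n, k' ≤ (i : ℕ) → v i = 0} := by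
  have hg' := Subgroup.inv_mem _ hg
  rw [mem_stab_coord_iff] at hg' ⊢
  intro i j hi hj
  rw [theta_apply]
  apply hg'
  · rw [Fin.val_rev]; have := j.2; omega
  · rw [Fin.val_rev]; have := i.2; omega

/-- The stabilisers in GL_n(F), F finite, of the coordinate subspaces of dimensions k and n − k are isomorphic groups, but when 2k ≠ n (and 0 < k < n) no element of GL_n conjugates one onto the other. -/
theorem result {F : Type*} [Field F] [Finite F] (n k : ℕ) (hk0 : 0 < k) (hkn : k < n) (h2 : 2 * k ≠ n) : Nonempty (↥(Cfsg.stabilizing (Cfsg.glToMat (Fin n) F) {v : Fin n → F | ∀ i : Fin n, k ≤ (i : ℕ) → v i = 0}) ≃* ↥(Cfsg.stabilizing (Cfsg.glToMat (Fin n) F) {v : Fin n → F | ∀ i : Fin n, n - k ≤ (i : ℕ) → v i = 0})) ∧ ∀ g : Matrix.GeneralLinearGroup (Fin n) F, (Cfsg.stabilizing (Cfsg.glToMat (Fin n) F) {v : Fin n → F | ∀ i : Fin n, k ≤ (i : ℕ) → v i = 0}).map (MulAut.conj g).toMonoidHom ≠ Cfsg.stabilizing (Cfsg.glToMat (Fin n) F) {v : Fin n → F | ∀ i : Fin n, n - k ≤ (i : ℕ) → v i = 0} := by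
  constructor
  · refine ⟨{ toFun := fun g => ⟨theta F n g.1, theta_mem k (n - k) (by omega) g.1 g.2⟩
              invFun := fun g => ⟨theta F n g.1, theta_mem (n - k) k (by omega) g.1 g.2⟩
              left_inv := fun g => Subtype.ext (theta_theta g.1)
              right_inv := fun g => Subtype.ext (theta_theta g.1)
              map_mul' := fun g h => Subtype.ext (map_mul (theta F n) g.1 h.1) }⟩
  · intro g hconj
    have hinj : Function.Injective (Matrix.mulVecLin
        ((g⁻¹ : Matrix.GeneralLinearGroup (Fin n) F) : Matrix (Fin n) (Fin n) F)) := by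
      intro x y hxy
      simp only [Matrix.mulVecLin_apply] at hxy
      have := congrArg (fun z => (g : Matrix (Fin n) (Fin n) F) *ᵥ z) hxy
      simpa [Matrix.mulVec_mulVec, ← Units.val_mul] using this
    set U : Submodule F (Fin n → F) := (coordSub F n (n - k)).map (Matrix.mulVecLin
        ((g⁻¹ : Matrix.GeneralLinearGroup (Fin n) F) : Matrix (Fin n) (Fin n) F)) with hU
    have hfr : Module.finrank F U = n - k := by
      rw [hU, ← (Submodule.equivMapOfInjective _ hinj (coordSub F n (n - k))).finrank_eq,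
        finrank_coordSub F n (n - k) (by omega)]
    have hinv : ∀ p ∈ stabilizing (glToMat (Fin n) F)
      {v : Fin n → F | ∀ i : Fin n, k ≤ (i : ℕ) → v i = 0}, ∀ x ∈ U,
      (p : Matrix (Fin n) (Fin n) F) *ᵥ x ∈ U := by
      rintro p hp _ ⟨w, hw, rfl⟩
      have h1 : g * p * g⁻¹ ∈ Cfsg.stabilizing (Cfsg.glToMat (Fin n) F)
          {v : Fin n → F | ∀ i : Fin n, n - k ≤ (i : ℕ) → v i = 0} := by
        rw [← hconj]
        exact ⟨p, hp, rfl⟩
      rw [← coordSub_coe, mem_stabilizing_submodule_iff] at h1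
      refine ⟨_, h1 w hw, ?_⟩
      simp only [Matrix.mulVecLin_apply, glToMat, Units.coeHom_apply, Matrix.mulVec_mulVec,
        ← Units.val_mul]
      congr 2
      group
    rcases invariant_of_stab_coord n k U hinv with h | h | h
    · rw [h, finrank_bot] at hfr; omega
    · rw [h, finrank_coordSub F n k (by omega)] at hfr; omega
    · rw [h, finrank_top, Module.finrank_fintype_fun_eq_card, Fintype.card_fin] at hfr; omega

end Cfsg.Agent.S0773
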