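import Cfsg.Statements.S0774
import Cfsg.Agent.Lib.Helper12.TriCount
import Cfsg.Agent.Lib.Helper6.GLStab

set_option autoImplicit false
open Cfsg

namespace Cfsg.Agent.S0774

open Matrix Cfsg.Agent.Lib.Helper12 Cfsg.Agent.Lib.Helper6

/-- the coordinate flag member. -/
def flagSub (F : Type*) [Field F] (m : ℕ) (k : Fin m) : Submodule F (Fin m ⊕ Fin m → F) where
  carrier := {v : Fin m ⊕ Fin m → F | (∀ i : Fin m, (k : ℕ) < (i : ℕ) → v (Sum.inl i) = 0) ∧
    ∀ i : Fin m, v (Sum.inr i) = 0}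
  add_mem' := by
    intro a b ha hb
    exact ⟨fun i hi => by simp [ha.1 i hi, hb.1 i hi], fun i => by simp [ha.2 i, hb.2 i]⟩
  zero_mem' := ⟨fun i _ => rfl, fun i => rfl⟩
  smul_mem' := by
    intro c a ha
    exact ⟨fun i hi => by simp [ha.1 i hi], fun i => by simp [ha.2 i]⟩

/-- Borel subgroup of the symplectic group: the elements of Sp_2m(q) stabilising each of the totally isotropic coordinate subspaces ⟨e_0, ..., e_k⟩ (k < m) form a subgroup of order q^(m²) (q − 1)^m. -/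
theorem result {F : Type*} [Field F] [Fintype F] {q : ℕ} (hF : Fintype.card F = q) (m : ℕ) : Nat.card ↥(⨅ k : Fin m, Cfsg.stabilizing (Cfsg.spToMat m F) {v : Fin m ⊕ Fin m → F | (∀ i : Fin m, (k : ℕ) < (i : ℕ) → v (Sum.inl i) = 0) ∧ ∀ i : Fin m, v (Sum.inr i) = 0}) = q ^ (m ^ 2) * (q - 1) ^ m := by
  classical
  set B := (⨅ k : Fin m, Cfsg.stabilizing (Cfsg.spToMat m F) {v : Fin m ⊕ Fin m → F | (∀ i : Fin m, (k : ℕ) < (i : ℕ) → v (Sum.inl i) = 0) ∧ ∀ i : Fin m, v (Sum.inr i) = 0}) with hB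
  have hmemB : ∀ A : symplecticGroup (Fin m) F, A ∈ B ↔
      ∀ k : Fin m, ∀ v ∈ flagSub F m k, (A : Matrix (Fin m ⊕ Fin m) (Fin m ⊕ Fin m) F) *ᵥ v ∈ flagSub F m k := by
    intro A
    rw [hB, Subgroup.mem_iInf]
    apply forall_congr'
    intro k
    exact mem_stabilizing_submodule_iff (Cfsg.spToMat m F) (flagSub F m k) A
  have hXX : ∀ X : GL (Fin m) F, (X : Matrix (Fin m) (Fin m) F) * ((X⁻¹ : GL (Fin m) F) : Matrix (Fin m) (Fin m) F) = 1 := by
    intro X
    rw [← Units.val_mul, mul_inv_cancel, Units.val_one]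
  have hXX' : ∀ X : GL (Fin m) F, ((X⁻¹ : GL (Fin m) F) : Matrix (Fin m) (Fin m) F) * (X : Matrix (Fin m) (Fin m) F) = 1 := by
    intro X
    rw [← Units.val_mul, inv_mul_cancel, Units.val_one]
  let Mat : GL (Fin m) F → Matrix (Fin m) (Fin m) F → Matrix (Fin m ⊕ Fin m) (Fin m ⊕ Fin m) F :=
    fun X S => fromBlocks (X : Matrix (Fin m) (Fin m) F)
      (S * ((X⁻¹ : GL (Fin m) F) : Matrix (Fin m) (Fin m) F)ᵀ) 0
      ((X⁻¹ : GL (Fin m) F) : Matrix (Fin m) (Fin m) F)ᵀ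
  have hmem : ∀ X S, Sᵀ = S → Mat X S ∈ symplecticGroup (Fin m) F := by
    intro X S hS
    rw [SymplecticGroup.mem_iff, Matrix.J]
    simp only [Mat, fromBlocks_transpose, fromBlocks_multiply, transpose_transpose,
      transpose_zero, Matrix.mul_zero, Matrix.zero_mul, add_zero, zero_add, Matrix.mul_neg,
      Matrix.mul_one, Matrix.neg_mul, hXX, transpose_mul, hS]
    have h1 : ((X⁻¹ : GL (Fin m) F) : Matrix (Fin m) (Fin m) F)ᵀ * (X : Matrix (Fin m) (Fin m) F)ᵀ = 1 := by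
      rw [← transpose_mul, hXX, transpose_one]
    rw [Matrix.mul_assoc, h1, ← Matrix.mul_assoc, hXX]
    simp
  have hflag : ∀ (X : GL (Fin m) F) (S : Matrix (Fin m) (Fin m) F),
      (∀ i j : Fin m, j < i → (X : Matrix (Fin m) (Fin m) F) i j = 0) →
      ∀ k : Fin m, ∀ v ∈ flagSub F m k, Mat X S *ᵥ v ∈ flagSub F m k := by
    intro X S hX k v hv
    have hv2 : v ∘ Sum.inr = 0 := funext hv.2
    simp only [Mat, fromBlocks_mulVec, hv2, mulVec_zero, add_zero, zero_mulVec]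
    refine ⟨fun i hi => ?_, fun i => rfl⟩
    show ((X : Matrix (Fin m) (Fin m) F) *ᵥ (v ∘ Sum.inl)) i = 0
    simp only [mulVec, dotProduct]
    apply Finset.sum_eq_zero
    intro j _
    by_cases hj : j < i
    · rw [hX i j hj, zero_mul]
    · have : (k : ℕ) < (j : ℕ) := lt_of_lt_of_le hi (not_lt.1 hj)
      rw [Function.comp_apply, hv.1 j this, mul_zero]
  let Θ : {g : GL (Fin m) F // ∀ i j : Fin m, j < i → (g : Matrix (Fin m) (Fin m) F) i j = 0} ×
      {S : Matrix (Fin m) (Fin m) F // Sᵀ = S} → B := fun p =>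
    ⟨⟨Mat p.1.1 p.2.1, hmem _ _ p.2.2⟩, (hmemB _).2 (hflag p.1.1 p.2.1 p.1.2)⟩
  have hbij : Function.Bijective Θ := by
    constructor
    · rintro ⟨X, S⟩ ⟨X', S'⟩ h
      have h1 : Mat X.1 S.1 = Mat X'.1 S'.1 := congrArg (fun z => z.1.1) h
      simp only [Mat, fromBlocks_inj] at h1
      have h2 : X.1 = X'.1 := Units.ext h1.1
      have h3 := h1.2.1
      rw [← h2] at h3
      have h4 := congrArg (fun z => z * (X.1 : Matrix (Fin m) (Fin m) F)ᵀ) h3
      simp only [Matrix.mul_assoc, ← transpose_mul, hXX, transpose_one, Matrix.mul_one] at h4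
      exact Prod.ext (Subtype.ext h2) (Subtype.ext h4)
    · rintro ⟨⟨A, hA⟩, hAB⟩
      rw [hmemB] at hAB
      have hsingle : ∀ j : Fin m, (Pi.single (Sum.inl j) 1 : Fin m ⊕ Fin m → F) ∈ flagSub F m j := by
        intro j
        refine ⟨fun i hi => ?_, fun i => by simp⟩
        have : i ≠ j := by rintro rfl; exact lt_irrefl _ hi
        simp [this]
      have h21 : A.toBlocks₂₁ = 0 := by
        ext i j
        have h4 : (A *ᵥ Pi.single (Sum.inl j) 1) (Sum.inr i) = 0 := (hAB j _ (hsingle j)).2 i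
        simpa [toBlocks₂₁] using h4
      have hup : ∀ i j : Fin m, j < i → A.toBlocks₁₁ i j = 0 := by
        intro i j hij
        have h4 : (A *ᵥ Pi.single (Sum.inl j) 1) (Sum.inl i) = 0 := (hAB j _ (hsingle j)).1 i hij
        simpa [toBlocks₁₁] using h4
      have hAb : A = fromBlocks A.toBlocks₁₁ A.toBlocks₁₂ 0 A.toBlocks₂₂ := by
        conv_lhs => rw [← fromBlocks_toBlocks A, h21]
      have hA' := hA
      rw [SymplecticGroup.mem_iff, Matrix.J, hAb] at hA'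
      simp only [fromBlocks_transpose, fromBlocks_multiply, transpose_zero, Matrix.mul_zero,
        Matrix.zero_mul, add_zero, zero_add, Matrix.mul_neg, Matrix.mul_one, Matrix.neg_mul,
        fromBlocks_inj, neg_inj] at hA'
      obtain ⟨h8, h5, h6, -⟩ := hA'
      have h7 : (A.toBlocks₂₂)ᵀ * A.toBlocks₁₁ = 1 := by
        rw [mul_eq_one_comm]; exact h5
      let X : GL (Fin m) F := ⟨A.toBlocks₁₁, (A.toBlocks₂₂)ᵀ, h5, h7⟩
      have hS : (A.toBlocks₁₂ * (A.toBlocks₁₁)ᵀ)ᵀ = A.toBlocks₁₂ * (A.toBlocks₁₁)ᵀ := by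
        rw [transpose_mul, transpose_transpose]
        have := h8
        rw [← sub_eq_add_neg, sub_eq_zero] at this
        exact this.symm
      refine ⟨(⟨X, hup⟩, ⟨A.toBlocks₁₂ * (A.toBlocks₁₁)ᵀ, hS⟩), ?_⟩
      apply Subtype.ext
      apply Subtype.ext
      show Mat X (A.toBlocks₁₂ * (A.toBlocks₁₁)ᵀ) = A
      conv_rhs => rw [hAb]
      show fromBlocks A.toBlocks₁₁ (A.toBlocks₁₂ * (A.toBlocks₁₁)ᵀ * ((A.toBlocks₂₂)ᵀ)ᵀ) 0
        ((A.toBlocks₂₂)ᵀ)ᵀ = _
      rw [transpose_transpose, Matrix.mul_assoc]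
      have h9 : (A.toBlocks₁₁)ᵀ * A.toBlocks₂₂ = 1 := by
        rw [mul_eq_one_comm]; simpa using h6
      rw [h9, Matrix.mul_one]
  rw [← Nat.card_congr (Equiv.ofBijective Θ hbij), Nat.card_prod, card_upperTri hF,
    card_symmMat hF]
  have h1 : m * (m - 1) / 2 + m * (m + 1) / 2 = m ^ 2 := by
    have h2 : m * (m - 1) / 2 * 2 = m * (m - 1) := Nat.div_mul_cancel (Nat.even_mul_pred_self m).two_dvd
    have h3 : m * (m + 1) / 2 * 2 = m * (m + 1) := Nat.div_mul_cancel (Nat.even_mul_succ_self m).two_dvd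
    rcases m with _ | m
    · simp
    · simp only [Nat.add_sub_cancel] at h2 ⊢
      nlinarith
  rw [← h1, pow_add]
  ring


end Cfsg.Agent.S0774
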