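import Cfsg.Statements.S0776
import Cfsg.Agent.Lib.Helper12.BlockStab
import Cfsg.Agent.Lib.Helper6.SpDecomp

set_option autoImplicit false
open Cfsg

namespace Cfsg.Agent.S0776

open Matrix Cfsg.Agent.Lib.Helper6 Cfsg.Agent.Lib.Helper12

theorem exists_symp_coords {F : Type*} [Field F] {m k : ℕ} (X : Submodule F (Fin m ⊕ Fin m → F))
    (hX : NDeg X) (hd : Module.finrank F X = 2 * k) :
    ∃ ψ : (Fin k ⊕ Fin k → F) ≃ₗ[F] X, ∀ x y,
      sympForm m F (ψ x : Fin m ⊕ Fin m → F) (ψ y) = sympForm k F x y := by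
  have hAX : ((sympB m F).restrict X).IsAlt := fun x => sympForm_self (x : Fin m ⊕ Fin m → F)
  obtain ⟨m₁, k₁, b₁, ef₁, ee₁, ff₁, r₁⟩ := exists_symp_basis _ hAX
  have hk₁ : k₁ = 0 := by
    by_contra hne
    obtain ⟨j⟩ : Nonempty (Fin k₁) := ⟨⟨0, Nat.pos_of_ne_zero hne⟩⟩
    exact b₁.ne_zero (Sum.inr j) ((ndeg_restrict hX).1 _ (r₁ j))
  subst hk₁
  have c₁ := Module.finrank_eq_card_basis b₁
  simp only [Fintype.card_sum, Fintype.card_fin] at c₁
  have hm : m₁ = k := by omega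
  subst hm
  let e : (Fin m₁ ⊕ Fin m₁) ⊕ Fin 0 ≃ Fin m₁ ⊕ Fin m₁ :=
    (Equiv.sumEmpty _ _).trans (Equiv.sumComm _ _)
  let b' := b₁.reindex e
  let ψ : (Fin m₁ ⊕ Fin m₁ → F) ≃ₗ[F] X := b'.equivFun.symm
  have hψ : ∀ i, ψ (Pi.single i 1) = b₁ (e.symm i) := by
    intro i
    show b'.equivFun.symm (Pi.single i 1) = _
    rw [Module.Basis.equivFun_symm_apply]
    simp [Pi.single_apply, b']
  have key : ((sympB m F).restrict X).comp ψ.toLinearMap ψ.toLinearMap = sympB m₁ F := by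
    apply LinearMap.BilinForm.ext_basis (Pi.basisFun F _)
    intro i j
    rw [LinearMap.BilinForm.comp_apply]
    simp only [LinearEquiv.coe_coe, Pi.basisFun_apply, hψ, sympB_apply]
    rcases i with i | i
    · rcases j with j | j
      · rw [sympForm_single_inl]
        simpa [e] using ff₁ i j
      · rw [sympForm_single_inr]
        have h1 := ef₁ j i
        rw [← LinearMap.IsAlt.neg hAX] at h1
        have h2 : ((sympB m F).restrict X) (b₁ (Sum.inl (Sum.inr i))) (b₁ (Sum.inl (Sum.inl j)))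
            = - (if j = i then 1 else 0) := by rw [← h1, neg_neg]
        simp only [e, Equiv.symm_trans_apply, Equiv.sumComm_symm, Equiv.sumComm_apply,
          Sum.swap_inl, Sum.swap_inr, Equiv.sumEmpty_symm_apply]
        rw [h2]
        simp [Pi.single_apply, eq_comm]
    · rcases j with j | j
      · rw [sympForm_single_inl]
        have h1 := ef₁ i j
        simp only [e, Equiv.symm_trans_apply, Equiv.sumComm_symm, Equiv.sumComm_apply,
          Sum.swap_inl, Sum.swap_inr, Equiv.sumEmpty_symm_apply]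
        rw [h1]
        simp [Pi.single_apply, eq_comm]
      · rw [sympForm_single_inr]
        simpa [e] using ee₁ i j
  refine ⟨ψ, fun x y => ?_⟩
  have := congrArg (fun B => B x y) key
  exact this

/-- If W ≤ F^(2m) is a 2k-dimensional subspace on which the symplectic form is non-degenerate, then the stabiliser of W in Sp_2m(F) is isomorphic to Sp_2k(F) × Sp_(2m−2k)(F). -/
theorem result {F : Type*} [Field F] (m k : ℕ) (hk : k ≤ m) (W : Submodule F (Fin m ⊕ Fin m → F)) (hWk : Module.finrank F W = 2 * k) (hW : ∀ u ∈ W, (∀ v ∈ W, Cfsg.sympForm m F u v = 0) → u = 0) : Nonempty (↥(Cfsg.stabilizing (Cfsg.spToMat m F) (W : Set (Fin m ⊕ Fin m → F))) ≃* Matrix.symplecticGroup (Fin k) F × Matrix.symplecticGroup (Fin (m - k)) F) := by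
  have hX : NDeg W := by
    intro w hw hw0
    by_contra hcon
    push Not at hcon
    exact hw0 (hW w hw hcon)
  set W' := (sympB m F).orthogonal W with hW'
  have hc : IsCompl W W' := ndeg_isCompl hX
  have hX' : NDeg W' := by
    intro w hw hw0
    by_contra hcon
    push Not at hcon
    apply hw0
    apply sympForm_nondeg_left
    intro z
    obtain ⟨a, ha, b, hb, rfl⟩ := ndeg_split hX z
    rw [sympForm_add_right, ((mem_perp_iff W w).1 hw) a ha, hcon b ((mem_perp_iff W b).2 hb),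
      add_zero]
  have hd' : Module.finrank F W' = 2 * (m - k) := by
    have h1 := Submodule.finrank_add_eq_of_isCompl hc
    rw [hWk] at h1
    simp only [Module.finrank_fintype_fun_eq_card, Fintype.card_sum, Fintype.card_fin] at h1
    omega
  obtain ⟨ψ₁, hψ₁⟩ := exists_symp_coords W hX hWk
  obtain ⟨ψ₂, hψ₂⟩ := exists_symp_coords W' hX' hd'
  obtain ⟨φ, hφ, hφW⟩ := exists_glue W W' hc ψ₁ ψ₂
  have hr : ∀ (n : ℕ) (M : Matrix (Fin n ⊕ Fin n) (Fin n ⊕ Fin n) F),
      (∃ h, Cfsg.spToMat n F h = M) ↔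
        ∀ u v, sympForm n F (M *ᵥ u) (M *ᵥ v) = sympForm n F u v := by
    intro n M
    rw [← mem_symplecticGroup_iff_sympForm]
    constructor
    · rintro ⟨h, rfl⟩
      exact h.2
    · intro h
      exact ⟨⟨M, h⟩, rfl⟩
  refine stab_equiv_prod (Cfsg.spToMat m F) (Cfsg.spToMat k F) (Cfsg.spToMat (m - k) F)
    Subtype.val_injective Subtype.val_injective Subtype.val_injective
    (sympForm m F) (sympForm k F) (sympForm (m - k) F) (hr m) (hr k) (hr (m - k)) φ ?_
    (fun x h => sympForm_nondeg_right k x h) (fun x => sympForm_zero_right x)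
    (fun x => sympForm_zero_left x) (W : Set (Fin m ⊕ Fin m → F)) hφW
  intro x y
  rw [hφ, hφ, sympForm_add_left, sympForm_add_right, sympForm_add_right, hψ₁, hψ₂]
  have h1 : sympForm m F (ψ₂ (x ∘ Sum.inr) : Fin m ⊕ Fin m → F) (ψ₁ (y ∘ Sum.inl)) = 0 :=
    (mem_perp_iff W _).1 (ψ₂ _).2 _ (ψ₁ _).2
  have h2 : sympForm m F (ψ₁ (x ∘ Sum.inl) : Fin m ⊕ Fin m → F) (ψ₂ (y ∘ Sum.inr)) = 0 := by
    rw [sympForm_swap, (mem_perp_iff W _).1 (ψ₂ _).2 _ (ψ₁ _).2, neg_zero]
  rw [h1, h2]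
  ring


end Cfsg.Agent.S0776
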