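import Cfsg.Statements.S0778

set_option autoImplicit false
open Cfsg

namespace Cfsg.Agent.S0778

open Matrix

/-- The elements of Sp_2m(F) stabilising both W = ⟨e_1..e_m⟩ and U = ⟨f_1..f_m⟩ form a subgroup isomorphic to GL_m(F) (block-diagonal matrices diag(X, X^(−ᵀ)) up to the sign convention of J), for m ≥ 1 or m = 0 alike. -/
theorem result {F : Type*} [Field F] (m : ℕ) : Nonempty (↥(Cfsg.stabilizing (Cfsg.spToMat m F) {v : Fin m ⊕ Fin m → F | ∀ i : Fin m, v (Sum.inr i) = 0} ⊓ Cfsg.stabilizing (Cfsg.spToMat m F) {v : Fin m ⊕ Fin m → F | ∀ i : Fin m, v (Sum.inl i) = 0}) ≃* Matrix.GeneralLinearGroup (Fin m) F) := by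
  classical
  let Mat : GL (Fin m) F → Matrix (Fin m ⊕ Fin m) (Fin m ⊕ Fin m) F := fun X =>
    fromBlocks (X : Matrix (Fin m) (Fin m) F) 0 0 ((X⁻¹ : GL (Fin m) F) : Matrix (Fin m) (Fin m) F)ᵀ
  have hXX : ∀ X : GL (Fin m) F, (X : Matrix (Fin m) (Fin m) F) * ((X⁻¹ : GL (Fin m) F) : Matrix (Fin m) (Fin m) F) = 1 := by
    intro X
    rw [← Units.val_mul, mul_inv_cancel, Units.val_one]
  have hXX' : ∀ X : GL (Fin m) F, ((X⁻¹ : GL (Fin m) F) : Matrix (Fin m) (Fin m) F) * (X : Matrix (Fin m) (Fin m) F) = 1 := by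
    intro X
    rw [← Units.val_mul, inv_mul_cancel, Units.val_one]
  have hmem : ∀ X, Mat X ∈ symplecticGroup (Fin m) F := by
    intro X
    rw [SymplecticGroup.mem_iff, Matrix.J]
    simp only [Mat, fromBlocks_transpose, fromBlocks_multiply, transpose_transpose,
      transpose_zero, Matrix.mul_zero, Matrix.zero_mul, add_zero, zero_add, Matrix.mul_neg,
      Matrix.mul_one, Matrix.neg_mul, hXX]
    rw [← transpose_mul, hXX, transpose_one, neg_zero]
  have hX0 : ∀ (X : GL (Fin m) F) (w : Fin m → F),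
      (X : Matrix (Fin m) (Fin m) F) *ᵥ w = 0 ↔ w = 0 := by
    intro X w
    constructor
    · intro h
      have := congrArg (fun z => ((X⁻¹ : GL (Fin m) F) : Matrix (Fin m) (Fin m) F) *ᵥ z) h
      simpa [mulVec_mulVec, hXX'] using this
    · rintro rfl; simp
  have hY0 : ∀ (X : GL (Fin m) F) (w : Fin m → F),
      ((X⁻¹ : GL (Fin m) F) : Matrix (Fin m) (Fin m) F)ᵀ *ᵥ w = 0 ↔ w = 0 := by
    intro X w
    constructor
    · intro h
      have := congrArg (fun z => (X : Matrix (Fin m) (Fin m) F)ᵀ *ᵥ z) h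
      simpa [mulVec_mulVec, ← transpose_mul, hXX'] using this
    · rintro rfl; simp
  have hS₁ : ∀ v : Fin m ⊕ Fin m → F, (v ∈ {v : Fin m ⊕ Fin m → F | ∀ i : Fin m, v (Sum.inr i) = 0})
      ↔ v ∘ Sum.inr = 0 := by
    intro v
    constructor
    · intro h; funext i; exact h i
    · intro h i; exact congrFun h i
  have hS₂ : ∀ v : Fin m ⊕ Fin m → F, (v ∈ {v : Fin m ⊕ Fin m → F | ∀ i : Fin m, v (Sum.inl i) = 0})
      ↔ v ∘ Sum.inl = 0 := by
    intro v
    constructor
    · intro h; funext i; exact h i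
    · intro h i; exact congrFun h i
  have hst : ∀ X, (⟨Mat X, hmem X⟩ : symplecticGroup (Fin m) F) ∈
      (Cfsg.stabilizing (Cfsg.spToMat m F) {v : Fin m ⊕ Fin m → F | ∀ i : Fin m, v (Sum.inr i) = 0} ⊓ Cfsg.stabilizing (Cfsg.spToMat m F) {v : Fin m ⊕ Fin m → F | ∀ i : Fin m, v (Sum.inl i) = 0}) := by
    intro X
    constructor
    · intro v
      show _ ↔ Mat X *ᵥ v ∈ _
      rw [hS₁, hS₁]
      simp only [Mat, fromBlocks_mulVec, Sum.elim_comp_inr, zero_mulVec, zero_add, hY0]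
    · intro v
      show _ ↔ Mat X *ᵥ v ∈ _
      rw [hS₂, hS₂]
      simp only [Mat, fromBlocks_mulVec, Sum.elim_comp_inl, zero_mulVec, add_zero, hX0]
  let Ψ : GL (Fin m) F →* ↥(Cfsg.stabilizing (Cfsg.spToMat m F) {v : Fin m ⊕ Fin m → F | ∀ i : Fin m, v (Sum.inr i) = 0} ⊓ Cfsg.stabilizing (Cfsg.spToMat m F) {v : Fin m ⊕ Fin m → F | ∀ i : Fin m, v (Sum.inl i) = 0}) :=
    { toFun := fun X => ⟨⟨Mat X, hmem X⟩, hst X⟩
      map_one' := by
        apply Subtype.ext
        apply Subtype.ext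
        show Mat 1 = 1
        simp [Mat]
      map_mul' := by
        intro X Y
        apply Subtype.ext
        apply Subtype.ext
        show Mat (X * Y) = Mat X * Mat Y
        simp only [Mat, fromBlocks_multiply, _root_.mul_inv_rev, Units.val_mul, transpose_mul,
          Matrix.mul_zero, Matrix.zero_mul, add_zero, zero_add] }
  have hinj : Function.Injective Ψ := by
    intro X Y h
    have h1 : Mat X = Mat Y := congrArg (fun z => z.1.1) h
    simp only [Mat, fromBlocks_inj] at h1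
    exact Units.ext h1.1
  have hsurj : Function.Surjective Ψ := by
    rintro ⟨⟨A, hA⟩, h1, h2⟩
    have h21 : A.toBlocks₂₁ = 0 := by
      ext i j
      have h3 := (h1 (Pi.single (Sum.inl j) 1)).1 (by intro i; simp)
      have h4 : (A *ᵥ Pi.single (Sum.inl j) 1) (Sum.inr i) = 0 := h3 i
      simpa [toBlocks₂₁] using h4
    have h12 : A.toBlocks₁₂ = 0 := by
      ext i j
      have h3 := (h2 (Pi.single (Sum.inr j) 1)).1 (by intro i; simp)
      have h4 : (A *ᵥ Pi.single (Sum.inr j) 1) (Sum.inl i) = 0 := h3 i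
      simpa [toBlocks₁₂] using h4
    have hAb : A = fromBlocks A.toBlocks₁₁ 0 0 A.toBlocks₂₂ := by
      conv_lhs => rw [← fromBlocks_toBlocks A, h12, h21]
    have hA' := hA
    rw [SymplecticGroup.mem_iff, Matrix.J, hAb] at hA'
    simp only [fromBlocks_transpose, fromBlocks_multiply, transpose_zero, Matrix.mul_zero,
      Matrix.zero_mul, add_zero, zero_add, Matrix.mul_neg, Matrix.mul_one, Matrix.neg_mul,
      fromBlocks_inj, neg_inj] at hA'
    obtain ⟨-, h5, h6, -⟩ := hA'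
    have h7 : (A.toBlocks₂₂)ᵀ * A.toBlocks₁₁ = 1 := by
      rw [mul_eq_one_comm]; exact h5
    let X : GL (Fin m) F := ⟨A.toBlocks₁₁, (A.toBlocks₂₂)ᵀ, h5, h7⟩
    refine ⟨X, ?_⟩
    apply Subtype.ext
    apply Subtype.ext
    show Mat X = A
    rw [hAb]
    show fromBlocks A.toBlocks₁₁ 0 0 ((A.toBlocks₂₂)ᵀ)ᵀ = _
    rw [transpose_transpose]
  exact ⟨(MulEquiv.ofBijective Ψ ⟨hinj, hsurj⟩).symm⟩


end Cfsg.Agent.S0778
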