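import Mathlib
import Cfsg.Prelude.Def_ClassicalGeometry
import Cfsg.Agent.Lib.Helper6.Herm

set_option autoImplicit false

namespace Cfsg.Agent.S0779

open Cfsg.Agent.Lib.Helper6 Matrix

theorem key {F : Type*} [Field F] [Fintype F] {q : ℕ} (hF : Fintype.card F = q ^ 2) (n : ℕ)
    (v : Fin n → F) (hv0 : Cfsg.hermForm n F q v v = 0) (c : F) (x y : Fin n → F) :
    Cfsg.hermForm n F q ((Cfsg.unitaryTransvection n q v c).mulVec x)
      ((Cfsg.unitaryTransvection n q v c).mulVec y) =
    Cfsg.hermForm n F q x y + (c ^ q + c) * (Cfsg.hermForm n F q x v * Cfsg.hermForm n F q v y) := by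
  rw [unitaryTransvection_mulVec, unitaryTransvection_mulVec, herm_add_left, herm_add_right hF,
    herm_add_right hF, herm_smul_left, herm_smul_right, herm_smul_left, herm_smul_right, hv0,
    mul_pow, herm_conj hF]
  ring

/-- Unitary transvections: let |F| = q², h the standard Hermitian form Σ x_i y_i^q and v ≠ 0 with h(v, v) = 0. The linear map x ↦ x + c h(x, v) v is an isometry of h if and only if c = 0 or c^(q−1) = −1. -/
theorem result {F : Type*} [Field F] [Fintype F] {q : ℕ} (hF : Fintype.card F = q ^ 2) (n : ℕ) (v : Fin n → F) (hv : v ≠ 0) (hv0 : Cfsg.hermForm n F q v v = 0) (c : F) : (∀ x y : Fin n → F, Cfsg.hermForm n F q ((Cfsg.unitaryTransvection n q v c).mulVec x) ((Cfsg.unitaryTransvection n q v c).mulVec y) = Cfsg.hermForm n F q x y) ↔ (c = 0 ∨ c ^ (q - 1) = -1) := by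
  have hq := herm_q_pos hF
  have hfac : c ^ q + c = c * (c ^ (q - 1) + 1) := by
    obtain ⟨k, rfl⟩ : ∃ k, q = k + 1 := ⟨q - 1, by omega⟩
    simp only [Nat.add_sub_cancel]
    ring
  constructor
  · intro h
    obtain ⟨i, hi⟩ : ∃ i, v i ≠ 0 := by
      by_contra hcon
      push Not at hcon
      exact hv (funext hcon)
    have h1 := h (Pi.single i 1) (Pi.single i 1)
    rw [key hF n v hv0, herm_single_left q n i v, herm_single_right q n (by omega) i v] at h1
    have h2 : (c ^ q + c) * ((v i) ^ q * v i) = 0 := by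
      linear_combination h1
    have h3 : (v i) ^ q * v i ≠ 0 := mul_ne_zero (pow_ne_zero _ hi) hi
    have h4 : c ^ q + c = 0 := by
      rcases mul_eq_zero.mp h2 with h | h
      · exact h
      · exact absurd h h3
    rw [hfac] at h4
    rcases mul_eq_zero.mp h4 with h | h
    · exact Or.inl h
    · right; linear_combination h
  · intro h x y
    rw [key hF n v hv0]
    have : c ^ q + c = 0 := by
      rw [hfac]
      rcases h with h | h
      · rw [h]; ring
      · rw [h]; ring
    rw [this]; ring

end Cfsg.Agent.S0779
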