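import Cfsg.Statements.S0781
import Cfsg.Agent.Lib.Helper6.USet
import Cfsg.Agent.Lib.Helper6.SubRat

set_option autoImplicit false
open Cfsg

namespace Cfsg.Agent.S0781

open Cfsg.Agent.Lib.Helper6 Matrix

/-- elements of `GL` that are unitary of determinant one, as elements of `SU`. -/
def mkSU {F : Type*} [Field F] {q n : ℕ} (g : Matrix.GeneralLinearGroup (Fin n) F)
    (h1 : ∀ x y, hermForm n F q ((g : Matrix (Fin n) (Fin n) F) *ᵥ x)
      ((g : Matrix (Fin n) (Fin n) F) *ᵥ y) = hermForm n F q x y)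
    (h2 : (g : Matrix (Fin n) (Fin n) F).det = 1) : ↥(Cfsg.SU n F q) :=
  ⟨⟨(g : Matrix (Fin n) (Fin n) F), h2⟩, fun u v => h1 u v⟩

theorem mkSU_coe {F : Type*} [Field F] {q n : ℕ} (g : Matrix.GeneralLinearGroup (Fin n) F)
    (h1 : ∀ x y, hermForm n F q ((g : Matrix (Fin n) (Fin n) F) *ᵥ x)
      ((g : Matrix (Fin n) (Fin n) F) *ᵥ y) = hermForm n F q x y)
    (h2 : (g : Matrix (Fin n) (Fin n) F).det = 1) :
    (((mkSU g h1 h2 : ↥(Cfsg.SU n F q)) : Matrix.SpecialLinearGroup (Fin n) F) :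
      Matrix (Fin n) (Fin n) F) = (g : Matrix (Fin n) (Fin n) F) := rfl

theorem tv_mulVec {F : Type*} [Field F] {q n : ℕ} (v : Fin n → F) (c : F) (x : Fin n → F) :
    Cfsg.unitaryTransvection n q v c *ᵥ x = x + (c * hermForm n F q x v) • v := by
  unfold Cfsg.unitaryTransvection
  rw [Matrix.add_mulVec, Matrix.one_mulVec, Matrix.smul_mulVec, Matrix.vecMulVec_mulVec]
  have : (fun j => v j ^ q) ⬝ᵥ x = hermForm n F q x v := by
    unfold hermForm dotProduct
    exact Finset.sum_congr rfl (fun i _ => mul_comm _ _)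
  rw [this]
  ext i
  simp only [Pi.add_apply, Pi.smul_apply, smul_eq_mul, MulOpposite.smul_eq_mul_unop,
    MulOpposite.unop_op]
  ring

/-- In SU_n(q) with n ≥ 4, or n = 3 and q > 2, every element whose matrix is a unitary transvection x ↦ x + c h(x, v) v (v isotropic) is a commutator ⁅B, C⁆ of two elements of SU_n(q). -/
theorem result {F : Type*} [Field F] [Fintype F] {q : ℕ} (hF : Fintype.card F = q ^ 2) (n : ℕ) (hn : 4 ≤ n ∨ (n = 3 ∧ 3 ≤ q)) (A : ↥(Cfsg.SU n F q)) (v : Fin n → F) (c : F) (hv0 : Cfsg.hermForm n F q v v = 0) (hA : ((A : Matrix.SpecialLinearGroup (Fin n) F) : Matrix (Fin n) (Fin n) F) = Cfsg.unitaryTransvection n q v c) : A ∈ commutatorSet ↥(Cfsg.SU n F q) := by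
  have hn3 : 3 ≤ n := by omega
  have hf := herm_isUnitary hF n
  obtain ⟨σ, hσ⟩ : ∃ σ, σ = frobEquiv hF := ⟨_, rfl⟩
  rw [← hσ] at hf
  obtain ⟨f, hfdef⟩ : ∃ f, f = hermForm n F q := ⟨_, rfl⟩
  by_cases hv : v = 0
  · have : A = 1 := by
      apply Subtype.ext
      apply Subtype.ext
      rw [hA, hv]
      unfold Cfsg.unitaryTransvection
      simp
    rw [this]
    exact one_mem_commutatorSet _
  have hAiso : ∀ x y, hermForm n F q (Cfsg.unitaryTransvection n q v c *ᵥ x)
      (Cfsg.unitaryTransvection n q v c *ᵥ y) = hermForm n F q x y := by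
    intro x y
    rw [← hA]
    exact A.2 x y
  -- `c` is skew
  have hc : σ c = -c := by
    obtain ⟨⟨y, hy⟩, -⟩ := hf.nondegenerate v hv
    have h1 := hAiso y y
    rw [tv_mulVec] at h1
    simp only [hf.add_left, uf_add_right hf, hf.smul_left, uf_smul_right hf, hv0, map_mul] at h1
    rw [← hf.herm v y] at h1
    have h2 : (c + σ c) * (hermForm n F q y v * hermForm n F q v y) = 0 := by
      linear_combination h1
    have hy' : hermForm n F q v y ≠ 0 := uf_ne_zero_symm hf hy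
    rcases mul_eq_zero.mp h2 with h3 | h3
    · linear_combination h3
    · exact absurd h3 (mul_ne_zero hy hy')
  obtain ⟨z, hz, hzS⟩ := ex_perp ![uPhi (hermForm n F q) v] (Submodule.span F {v}) (by
    rw [finrank_span_singleton hv, Fintype.card_fin]; omega)
  have hzv : hermForm n F q z v = 0 := by
    rw [← uPhi_dot hf]; exact hz 0
  obtain ⟨x, hxS, hxz⟩ := uf_separate hf (Submodule.span F {v}) z hzS
  have hxv : hermForm n F q x v = 0 := hxS v (Submodule.mem_span_singleton_self v)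
  have hzx : hermForm n F q z x ≠ 0 := uf_ne_zero_symm hf hxz
  obtain ⟨t₀, ht₀⟩ := uf_skew_surj hf c hc
  obtain ⟨z', hz'⟩ : ∃ z', z' = σ (t₀ / hermForm n F q z x) • x := ⟨_, rfl⟩
  have hz'v : hermForm n F q z' v = 0 := by rw [hz', hf.smul_left, hxv, mul_zero]
  have hzz' : hermForm n F q z z' = t₀ := by
    rw [hz', uf_smul_right hf, hf.involutive]
    field_simp
  have hz'z : hermForm n F q z' z = σ t₀ := by rw [hf.herm, hzz']
  obtain ⟨μ, hμ⟩ := uf_trace_surj hf (-hermForm n F q z z) (by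
    rw [map_neg, uf_self_fixed hf])
  obtain ⟨μ', hμ'⟩ := uf_trace_surj hf (-hermForm n F q z' z') (by
    rw [map_neg, uf_self_fixed hf])
  have hvz : hermForm n F q v z = 0 := uf_eq_zero_symm hf hzv
  have hvz' : hermForm n F q v z' = 0 := uf_eq_zero_symm hf hz'v
  refine ⟨mkSU (uQ hf v z μ hv0 hzv)
      ((mem_uIso_iff _).mp (uQ_mem_uIso hf v z μ hv0 hzv (by linear_combination hμ)))
      ((mem_specialLinear_iff _).mp (uQ_mem_SL hf v z μ hv0 hzv)),
    mkSU (uQ hf v z' μ' hv0 hz'v)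
      ((mem_uIso_iff _).mp (uQ_mem_uIso hf v z' μ' hv0 hz'v (by linear_combination hμ')))
      ((mem_specialLinear_iff _).mp (uQ_mem_SL hf v z' μ' hv0 hz'v)), ?_⟩
  have key : mkSU (uQ hf v z μ hv0 hzv)
      ((mem_uIso_iff _).mp (uQ_mem_uIso hf v z μ hv0 hzv (by linear_combination hμ)))
      ((mem_specialLinear_iff _).mp (uQ_mem_SL hf v z μ hv0 hzv)) *
    mkSU (uQ hf v z' μ' hv0 hz'v)
      ((mem_uIso_iff _).mp (uQ_mem_uIso hf v z' μ' hv0 hz'v (by linear_combination hμ')))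
      ((mem_specialLinear_iff _).mp (uQ_mem_SL hf v z' μ' hv0 hz'v)) =
    A * mkSU (uQ hf v z' μ' hv0 hz'v)
      ((mem_uIso_iff _).mp (uQ_mem_uIso hf v z' μ' hv0 hz'v (by linear_combination hμ')))
      ((mem_specialLinear_iff _).mp (uQ_mem_SL hf v z' μ' hv0 hz'v)) *
    mkSU (uQ hf v z μ hv0 hzv)
      ((mem_uIso_iff _).mp (uQ_mem_uIso hf v z μ hv0 hzv (by linear_combination hμ)))
      ((mem_specialLinear_iff _).mp (uQ_mem_SL hf v z μ hv0 hzv)) := by
    apply Subtype.ext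
    apply Subtype.ext
    simp only [Subgroup.coe_mul, Matrix.SpecialLinearGroup.coe_mul, mkSU_coe, hA]
    rw [Matrix.ext_iff_mulVec]
    intro y
    simp only [← Matrix.mulVec_mulVec, uQ_mulVec hf, tv_mulVec]
    simp only [hf.add_left, uf_sub_left hf, hf.smul_left, hv0, hzv, hz'v, hvz, hvz', hzz', hz'z]
    rw [← ht₀]
    module
  rw [commutatorElement_def, key]
  group

end Cfsg.Agent.S0781
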