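import Cfsg.Statements.S0783
import Cfsg.Agent.Lib.Helper12.UnitaryGU

set_option autoImplicit false
open Cfsg

namespace Cfsg.Agent.S0783

open Matrix Cfsg Cfsg.Agent.Lib.Helper6 Cfsg.Agent.Lib.Helper12

theorem exists_GU_det {F : Type*} [Field F] {q : ℕ} (hq0 : q ≠ 0) (n : ℕ) (hn : 1 ≤ n) (u : F)
    (hu : u ^ (q + 1) = 1) :
    ∃ g : GU n F q, ((g : GL (Fin n) F) : Matrix (Fin n) (Fin n) F).det = u := by
  classical
  let i0 : Fin n := ⟨0, hn⟩
  have hd : (diagonal (Function.update (1 : Fin n → F) i0 u)).det = u := by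
    rw [det_diagonal, Finset.prod_update_of_mem (Finset.mem_univ _)]
    simp
  obtain ⟨g, hg⟩ := exists_GU_of_HPres (q := q) hq0
    (diagonal_pres (q := q) (Function.update (1 : Fin n → F) i0 u) (by
      intro i
      by_cases hi : i = i0
      · rw [hi, Function.update_self, hu]
      · rw [Function.update_of_ne hi]; simp))
  exact ⟨g, by rw [hg, hd]⟩

/-- PGU_n(q)/PSU_n(q) is cyclic of order (n, q+1): for n ≥ 2 and |F| = q² there is a surjective homomorphism from GU_n(q) onto the cyclic group of order gcd(n, q + 1) whose kernel is generated by the determinant-one elements together with the centre. -/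
theorem result {F : Type*} [Field F] [Fintype F] {q : ℕ} (hF : Fintype.card F = q ^ 2) (n : ℕ) (hn : 2 ≤ n) : ∃ φ : ↥(Cfsg.GU n F q) →* Multiplicative (ZMod (Nat.gcd n (q + 1))), Function.Surjective φ ∧ φ.ker = (Matrix.GeneralLinearGroup.det : Matrix.GeneralLinearGroup (Fin n) F →* Fˣ).ker.subgroupOf (Cfsg.GU n F q) ⊔ Subgroup.center ↥(Cfsg.GU n F q) := by
  classical
  have hq := herm_q_pos hF
  have hq0 : q ≠ 0 := by omega
  set d := Nat.gcd n (q + 1) with hd
  have hdpos : 0 < d := Nat.gcd_pos_of_pos_left _ (by omega)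
  obtain ⟨e, he⟩ : d ∣ q + 1 := Nat.gcd_dvd_right _ _
  obtain ⟨n', hn'⟩ : d ∣ n := Nat.gcd_dvd_left _ _
  have hepos : 0 < e := by
    rcases Nat.eq_zero_or_pos e with h | h
    · rw [h, mul_zero] at he; omega
    · exact h
  have hM : Nat.card Fˣ = (q - 1) * (q + 1) := by
    rw [Nat.card_eq_fintype_card, Fintype.card_units, hF]
    obtain ⟨k, rfl⟩ : ∃ k, q = k + 1 := ⟨q - 1, by omega⟩
    simp only [Nat.add_sub_cancel]
    have : (k + 1) ^ 2 = k * (k + 1 + 1) + 1 := by ring
    omega
  let detU : GU n F q →* Fˣ := GeneralLinearGroup.det.comp (GU n F q).subtype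
  have hdetU : ∀ g : GU n F q, ((detU g : Fˣ) : F)
      = ((g : GL (Fin n) F) : Matrix (Fin n) (Fin n) F).det := fun g => rfl
  have hdetN : ∀ g : GU n F q, (detU g) ^ (q + 1) = 1 := by
    intro g
    ext
    rw [Units.val_pow_eq_pow_val, hdetU, Units.val_one]
    exact HPres.det_norm hF g.2
  have hdetS : ∀ u : Fˣ, u ^ (q + 1) = 1 → ∃ g : GU n F q, detU g = u := by
    intro u hu
    obtain ⟨g, hg⟩ := exists_GU_det (q := q) hq0 n (by omega) (u : F) (by
      have := congrArg Units.val hu
      simpa using this)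
    exact ⟨g, Units.ext (by rw [hdetU, hg])⟩
  let ψ : GU n F q →* Fˣ := (powMonoidHom e).comp detU
  have hψ : ∀ g, ψ g = (detU g) ^ e := fun g => rfl
  have hrange : ψ.range = (powMonoidHom d : Fˣ →* Fˣ).ker := by
    ext u
    rw [MonoidHom.mem_ker, powMonoidHom_apply]
    constructor
    · rintro ⟨g, rfl⟩
      rw [hψ, ← pow_mul, mul_comm, ← he, hdetN]
    · intro hu
      obtain ⟨y, hy⟩ := exists_pow_eq_of_pow_eq_one d ((q - 1) * e) hdpos
        (by rw [hM, he]; ring) u hu
      obtain ⟨g, hg⟩ := hdetS (y ^ (q - 1)) (by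
        rw [← pow_mul, ← hM]; exact pow_card_eq_one')
      exact ⟨g, by rw [hψ, hg, ← pow_mul, hy]⟩
  have hcard : Nat.card ψ.range = d := by
    rw [hrange, IsCyclic.card_powMonoidHom_ker, hM]
    apply Nat.gcd_eq_right
    rw [he]
    exact Dvd.intro _ (by ring : d * ((q - 1) * e) = (q - 1) * (d * e))
  have hne : NeZero d := ⟨hdpos.ne'⟩
  let iso : ψ.range ≃* Multiplicative (ZMod d) := mulEquivOfCyclicCardEq (by
    rw [hcard, Nat.card_eq_fintype_card, Fintype.card_multiplicative, ZMod.card])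
  refine ⟨iso.toMonoidHom.comp ψ.rangeRestrict,
    iso.surjective.comp ψ.rangeRestrict_surjective, ?_⟩
  have hker : (iso.toMonoidHom.comp ψ.rangeRestrict).ker = ψ.ker := by
    ext g
    rw [MonoidHom.mem_ker, MonoidHom.mem_ker, MonoidHom.comp_apply]
    constructor
    · intro h
      have h1 : ψ.rangeRestrict g = 1 := iso.injective (by rw [map_one]; exact h)
      exact congrArg Subtype.val h1
    · intro h
      have h1 : ψ.rangeRestrict g = 1 := Subtype.ext h
      rw [h1, map_one]
  rw [hker]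
  apply le_antisymm
  · intro g hg
    rw [MonoidHom.mem_ker, hψ] at hg
    obtain ⟨y, hy⟩ := exists_pow_eq_of_pow_eq_one e ((q - 1) * d) hepos
      (by rw [hM, he]; ring) (detU g) hg
    set w := y ^ (q - 1) with hw
    have hwN : w ^ (q + 1) = 1 := by
      rw [hw, ← pow_mul, ← hM]; exact pow_card_eq_one'
    have hwd : w ^ d = detU g := by rw [hw, ← pow_mul, hy]
    have hbez := Nat.gcd_eq_gcd_ab n (q + 1)
    rw [← hd] at hbez
    set l := w ^ (Nat.gcdA n (q + 1)) with hl
    have hlN : l ^ (q + 1) = 1 := by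
      rw [hl, ← zpow_natCast, ← _root_.zpow_mul, mul_comm, _root_.zpow_mul, zpow_natCast, hwN, _root_.one_zpow]
    have hln : l ^ n = detU g := by
      have h1 : w ^ ((q + 1 : ℕ) : ℤ) = 1 := by rw [zpow_natCast, hwN]
      rw [← hwd]
      calc l ^ n = w ^ (Nat.gcdA n (q + 1) * (n : ℤ)) := by
            rw [hl, ← zpow_natCast, ← _root_.zpow_mul]
        _ = w ^ ((d : ℤ) - ((q + 1 : ℕ) : ℤ) * Nat.gcdB n (q + 1)) := by
            congr 1; rw [hbez]; ring
        _ = w ^ (d : ℤ) * (w ^ (((q + 1 : ℕ) : ℤ) * Nat.gcdB n (q + 1)))⁻¹ := by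
            rw [_root_.zpow_sub]
        _ = w ^ d := by
            rw [_root_.zpow_mul, h1, _root_.one_zpow, inv_one, mul_one, zpow_natCast]
    have hlN' : (l : F) ^ (q + 1) = 1 := by
      have := congrArg Units.val hlN
      simpa using this
    obtain ⟨z, hz⟩ := exists_GU_of_HPres hq0 (scalar_pres hF n (l : F) hlN')
    have hzc : z ∈ Subgroup.center (GU n F q) :=
      (mem_center_GU_iff hF n (by omega) z).mpr ⟨l, hlN', hz⟩
    have hdz : detU z = l ^ n := by
      ext
      rw [hdetU, hz, det_smul, det_one, Fintype.card_fin, mul_one, Units.val_pow_eq_pow_val]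
    have hs : g * z⁻¹ ∈ (GeneralLinearGroup.det : GL (Fin n) F →* Fˣ).ker.subgroupOf (GU n F q) := by
      rw [Subgroup.mem_subgroupOf, MonoidHom.mem_ker]
      change detU (g * z⁻¹) = 1
      rw [map_mul, map_inv, hdz, hln, mul_inv_cancel]
    have := Subgroup.mul_mem_sup hs hzc
    rwa [inv_mul_cancel_right] at this
  · apply sup_le
    · intro g hg
      rw [Subgroup.mem_subgroupOf, MonoidHom.mem_ker] at hg
      rw [MonoidHom.mem_ker, hψ]
      have : detU g = 1 := hg
      rw [this, one_pow]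
    · intro z hz
      obtain ⟨l, hl, hzl⟩ := (mem_center_GU_iff hF n (by omega) z).mp hz
      rw [MonoidHom.mem_ker, hψ]
      ext
      rw [Units.val_pow_eq_pow_val, hdetU, hzl, det_smul, det_one, Fintype.card_fin, mul_one,
        ← pow_mul, Units.val_one, hn']
      have : d * n' * e = (q + 1) * n' := by rw [he]; ring
      rw [this, pow_mul, hl, one_pow]


end Cfsg.Agent.S0783
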