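import Cfsg.Statements.S0785
import Cfsg.Agent.Lib.Helper6.OrthoMat

set_option autoImplicit false
open Cfsg

namespace Cfsg.Agent.S0785

open Cfsg.Agent.Lib.Helper6 Matrix

theorem det_sq {F : Type*} [Field F] {n : ℕ} (Q : QuadraticForm F (Fin n → F))
    (hQ : (QuadraticMap.polarBilin Q).Nondegenerate) (A : Matrix (Fin n) (Fin n) F)
    (hA : ∀ x, Q (A *ᵥ x) = Q x) : A.det = 1 ∨ A.det = -1 := by
  let P : LinearMap.BilinForm F (Fin n → F) := QuadraticMap.polarBilin Q
  have hcomp : P.comp (Matrix.toLin' A) (Matrix.toLin' A) = P := by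
    refine LinearMap.ext fun x => LinearMap.ext fun y => ?_
    simp only [LinearMap.BilinForm.comp_apply, Matrix.toLin'_apply, P,
      QuadraticMap.polarBilin_apply_apply, QuadraticMap.polar, ← mulVec_add, hA]
  have hM := congrArg LinearMap.BilinForm.toMatrix' hcomp
  rw [LinearMap.BilinForm.toMatrix'_comp, LinearMap.toMatrix'_toLin'] at hM
  have hdet := congrArg Matrix.det hM
  rw [det_mul, det_mul, det_transpose] at hdet
  have hne : (LinearMap.BilinForm.toMatrix' P).det ≠ 0 := by
    rw [← Matrix.nondegenerate_iff_det_ne_zero, LinearMap.BilinForm.nondegenerate_toMatrix'_iff]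
    exact hQ
  have h1 : A.det * A.det = 1 := by
    apply mul_right_cancel₀ hne
    linear_combination hdet
  have h2 : (A.det - 1) * (A.det + 1) = 0 := by linear_combination h1
  rcases mul_eq_zero.mp h2 with h | h
  · left; linear_combination h
  · right; linear_combination h

/-- det(I) = {±1}: for a quadratic form on F^n whose polar form is non-degenerate, every element of the isometry group has determinant 1 or −1, and as soon as Q takes a non-zero value some isometry has determinant −1. -/
theorem result {F : Type*} [Field F] {n : ℕ} (Q : QuadraticForm F (Fin n → F)) (hQ : (QuadraticMap.polarBilin Q).Nondegenerate) : (∀ g : ↥(Cfsg.isometryGroup F ⇑Q), ((g : Matrix.GeneralLinearGroup (Fin n) F) : Matrix (Fin n) (Fin n) F).det = 1 ∨ ((g : Matrix.GeneralLinearGroup (Fin n) F) : Matrix (Fin n) (Fin n) F).det = -1) ∧ ((∃ v, Q v ≠ 0) → ∃ g : ↥(Cfsg.isometryGroup F ⇑Q), ((g : Matrix.GeneralLinearGroup (Fin n) F) : Matrix (Fin n) (Fin n) F).det = -1) := by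
  constructor
  · intro g
    apply det_sq Q hQ
    intro x
    exact g.2 x x
  · rintro ⟨v, hv⟩
    have hdet := reflectionMatrix_det Q v hv
    refine ⟨⟨Matrix.GeneralLinearGroup.mkOfDetNeZero (reflectionMatrix ⇑Q v)
      (by rw [hdet]; simp), ?_⟩, hdet⟩
    intro x _
    exact reflectionMatrix_isom Q v hv x

end Cfsg.Agent.S0785
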