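import Cfsg.Statements.S0787
import Cfsg.Agent.Lib.Helper16.SOIdx

set_option autoImplicit false

open Cfsg

namespace Cfsg.Agent.S0787

open Cfsg.Agent.Lib.Helper16 Cfsg.Agent.Lib.Helper6

theorem result {F : Type*} [Field F] [Fintype F] {n : ℕ} (hn : 2 ≤ n) (Q : QuadraticForm F (Fin n → F)) (hQ : (QuadraticMap.polarBilin Q).Nondegenerate) (h : Fintype.card F ≠ 2 ∨ n ≠ 4) : ∃! H : Subgroup ↥(Cfsg.specialIsometryGroup F ⇑Q), H.index = 2 := by
  classical
  have hfr : Module.finrank F (Fin n → F) = n := Module.finrank_fin_fun F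
  have H : Fintype.card F ≠ 2 ∨ Module.finrank F (Fin n → F) ≠ 4 := by rw [hfr]; exact h
  haveI : Finite ↥(isometryGroup F ⇑Q) := inferInstance
  let R : Set ↥(isometryGroup F ⇑Q) := {g | ∃ v, Q v ≠ 0 ∧ g = (bridge Q).symm (rO Q v)}
  have hdetR : ∀ a ∈ R, ((a : GL (Fin n) F) : Matrix (Fin n) (Fin n) F).det = -1 := by
    rintro _ ⟨v, hv, rfl⟩
    rw [bridge_symm_rO, det_reflectionMatrix Q v hv]
  have hlist : ∀ g : ↥(isometryGroup F ⇑Q), ∃ vs : List (Fin n → F), (∀ v ∈ vs, Q v ≠ 0) ∧
      g = (vs.map (fun v => (bridge Q).symm (rO Q v))).prod := by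
    intro g
    obtain ⟨vs, hvs, hg⟩ := exists_list_refl Q hQ H (bridge Q g)
    refine ⟨vs, hvs, ?_⟩
    have : g = (bridge Q).symm ((vs.map (rO Q)).prod) := by rw [← hg, MulEquiv.symm_apply_apply]
    rw [this, map_list_prod, List.map_map]
    rfl
  apply SOIdx.unique_index_two R
  · rw [eq_top_iff]
    intro g _
    obtain ⟨vs, hvs, rfl⟩ := hlist g
    apply Subgroup.list_prod_mem
    intro x hx
    rw [List.mem_map] at hx
    obtain ⟨v, hv, rfl⟩ := hx
    exact Subgroup.subset_closure ⟨v, hvs v hv, rfl⟩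
  · rintro _ ⟨v, hv, rfl⟩
    rw [← map_mul, rO_mul_self, map_one]
  · rintro g _ ⟨v, hv, rfl⟩
    refine ⟨(bridge Q g).1 v, by rw [(bridge Q g).2 v]; exact hv, ?_⟩
    rw [← rO_conj, map_mul, map_mul, map_inv, MulEquiv.symm_apply_apply]
  · intro a ha b hb
    rw [specialIsometryGroup, MonoidHom.mem_ker]
    apply Units.ext
    change (((a * b : ↥(isometryGroup F ⇑Q)) : GL (Fin n) F) : Matrix (Fin n) (Fin n) F).det = 1
    rw [Subgroup.coe_mul, Units.val_mul, Matrix.det_mul, hdetR a ha, hdetR b hb]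
    ring
  · by_cases h2 : (2 : F) = 0
    · have htop : specialIsometryGroup F ⇑Q = ⊤ := by
        rw [eq_top_iff]
        intro g _
        obtain ⟨vs, hvs, rfl⟩ := hlist g
        apply Subgroup.list_prod_mem
        intro x hx
        rw [List.mem_map] at hx
        obtain ⟨v, hv, rfl⟩ := hx
        rw [specialIsometryGroup, MonoidHom.mem_ker]
        apply Units.ext
        change ((((bridge Q).symm (rO Q v) : ↥(isometryGroup F ⇑Q)) : GL (Fin n) F) :
          Matrix (Fin n) (Fin n) F).det = 1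
        rw [bridge_symm_rO, det_reflectionMatrix Q v (hvs v hv)]
        linear_combination -h2
      rw [htop, Subgroup.relIndex_top_right]
      obtain ⟨φ, hs, hk⟩ := exists_eps_surj Q h2 hQ H (by omega)
      have hOm : commutator ↥(isometryGroup F ⇑Q) = (φ.comp (bridge Q).toMonoidHom).ker := by
        ext g
        have := mem_Omega_iff Q g
        rw [this, ← hk, MonoidHom.mem_ker, MonoidHom.mem_ker]
        rfl
      have hs' : Function.Surjective (φ.comp (bridge Q).toMonoidHom) :=
        hs.comp (bridge Q).surjective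
      rw [hOm, index_of_surj_ker _ hs']
      simp
    · have hS : specialIsometryGroup F ⇑Q = POAut.SOsub Q := by
        ext g
        rw [POAut.mem_SOsub, specialIsometryGroup, MonoidHom.mem_ker, Units.ext_iff]
        rfl
      rw [hS]
      exact (POAut.relIndex_omega_so Q h2 hQ (by omega)).2

end Cfsg.Agent.S0787
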