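import Cfsg.Statements.S0788
import Cfsg.Agent.Lib.Helper16.Orth14

set_option autoImplicit false

open Cfsg

namespace Cfsg.Agent.S0788

open Cfsg.Agent.Lib.Helper16

theorem result {F : Type*} [Field F] [Fintype F] (h2 : (2 : F) ≠ 0) {n : ℕ} (hn : 2 ≤ n) (Q : QuadraticForm F (Fin n → F)) (hQ : (QuadraticMap.polarBilin Q).Nondegenerate) : (Cfsg.Omega F ⇑Q).index = 4 := by
  obtain ⟨φ, hs, hk, -, -⟩ := exists_eps_theta_surj Q h2 hQ (by rw [Module.finrank_fin_fun]; exact hn)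
  rw [← ker_comp_bridge Q φ hk, index_of_surj_ker _ (surj_comp_bridge Q φ hs)]
  simp

end Cfsg.Agent.S0788
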