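import Cfsg.Statements.S0789
import Cfsg.Agent.Lib.Helper16.Orth14

set_option autoImplicit false

open Cfsg

namespace Cfsg.Agent.S0789

open Cfsg.Agent.Lib.Helper16

theorem result {F : Type*} [Field F] [Fintype F] [CharP F 2] {n : ℕ} (hn : 2 ≤ n) (Q : QuadraticForm F (Fin n → F)) (hQ : (QuadraticMap.polarBilin Q).Nondegenerate) (h : Fintype.card F ≠ 2 ∨ n ≠ 4) : (Cfsg.Omega F ⇑Q).index = 2 := by
  have h2 : (2 : F) = 0 := by
    have := CharP.cast_eq_zero F 2
    exact_mod_cast this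
  obtain ⟨φ, hs, hk⟩ := exists_eps_surj Q h2 hQ (by rw [Module.finrank_fin_fun]; exact h)
    (by rw [Module.finrank_fin_fun]; exact hn)
  rw [← ker_comp_bridge Q φ hk, index_of_surj_ker _ (surj_comp_bridge Q φ hs)]
  simp

end Cfsg.Agent.S0789
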