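import Cfsg.Statements.S0792
import Cfsg.Agent.Lib.Helper16.Orth16

set_option autoImplicit false

open Cfsg

namespace Cfsg.Agent.S0792

open Cfsg.Agent.Lib.Helper16

theorem result {F : Type*} [Field F] [Fintype F] (h2 : (2 : F) ≠ 0) {n : ℕ} (Q : QuadraticForm F (Fin n → F)) (hQ : (QuadraticMap.polarBilin Q).Nondegenerate) : Cfsg.specialIsometryGroup F ⇑Q = Subgroup.closure {g : ↥(Cfsg.isometryGroup F ⇑Q) | ∃ u v : Fin n → F, Q u ≠ 0 ∧ Q v ≠ 0 ∧ ((g : Matrix.GeneralLinearGroup (Fin n) F) : Matrix (Fin n) (Fin n) F) = Cfsg.reflectionMatrix ⇑Q u * Cfsg.reflectionMatrix ⇑Q v} := by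
  exact special_eq_closure_pairs Q h2 hQ

end Cfsg.Agent.S0792
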