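import Cfsg.Statements.S0794
import Cfsg.Agent.Lib.Helper16.Orth16

set_option autoImplicit false

open Cfsg

namespace Cfsg.Agent.S0794

open Cfsg.Agent.Lib.Helper16

theorem result {F : Type*} [Field F] [Fintype F] (h2 : (2 : F) ≠ 0) {n : ℕ} (hn : 5 ≤ n) (Q : QuadraticForm F (Fin n → F)) (hQ : (QuadraticMap.polarBilin Q).Nondegenerate) (u v : Fin n → F) (hu : Q u = 0) (hv : Q v = 0) (huv : QuadraticMap.polar ⇑Q u v = 0) (c : F) (g : ↥(Cfsg.isometryGroup F ⇑Q)) (hg : ((g : Matrix.GeneralLinearGroup (Fin n) F) : Matrix (Fin n) (Fin n) F) = Cfsg.siegelMatrix ⇑Q u v c) : g ∈ commutatorSet ↥(Cfsg.isometryGroup F ⇑Q) ∧ g ∈ Cfsg.Omega F ⇑Q := by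
  have hcu : QuadraticMap.polarBilin Q (c • u) v = 0 := by
    rw [map_smul, LinearMap.smul_apply, QuadraticMap.polarBilin_apply_apply, huv, smul_zero]
  have hQcu : Q (c • u) = 0 := by rw [QuadraticMap.map_smul, hu, smul_zero]
  have hb : bridge Q g = siegO Q v (c • u) hv hcu := by
    apply bridge_eq_of_mulVec
    intro x
    rw [hg, siegelMatrix_mulVec_eq_siegL Q u v c hu]
    rfl
  obtain ⟨a, b, hab⟩ := siegO_mem_commutatorSet Q h2 hQ (c • u) v hQcu hv hcu
  have h1 : g ∈ commutatorSet ↥(Cfsg.isometryGroup F ⇑Q) := by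
    refine ⟨(bridge Q).symm a, (bridge Q).symm b, ?_⟩
    rw [← map_commutatorElement, hab, ← hb, MulEquiv.symm_apply_apply]
  refine ⟨h1, ?_⟩
  rw [Omega, commutator_eq_closure]
  exact Subgroup.subset_closure h1

end Cfsg.Agent.S0794
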