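import Cfsg.Statements.S0795
import Cfsg.Agent.Lib.Helper16.Orth32
import Cfsg.Agent.S0794

set_option autoImplicit false

open Cfsg

namespace Cfsg.Agent.S0795

open Cfsg.Agent.Lib.Helper16 Cfsg.Agent.Lib.Helper6

theorem result {F : Type*} [Field F] [Fintype F] (h2 : (2 : F) ≠ 0) {n : ℕ} (hn : 5 ≤ n) (Q : QuadraticForm F (Fin n → F)) (hQ : (QuadraticMap.polarBilin Q).Nondegenerate) : Cfsg.Omega F ⇑Q = Subgroup.closure {g : ↥(Cfsg.isometryGroup F ⇑Q) | ∃ (u v : Fin n → F) (c : F), Q u = 0 ∧ Q v = 0 ∧ QuadraticMap.polar ⇑Q u v = 0 ∧ ((g : Matrix.GeneralLinearGroup (Fin n) F) : Matrix (Fin n) (Fin n) F) = Cfsg.siegelMatrix ⇑Q u v c} := by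
  have hfr : Module.finrank F (Fin n → F) = n := by simp
  apply le_antisymm
  · intro g hg
    rw [mem_Omega_iff, ← SS_eq_comm hQ (by omega)] at hg
    have main : ∀ x ∈ SS Q, (bridge Q).symm x ∈ Subgroup.closure {g : ↥(Cfsg.isometryGroup F ⇑Q) |
        ∃ (u v : Fin n → F) (c : F), Q u = 0 ∧ Q v = 0 ∧ QuadraticMap.polar ⇑Q u v = 0 ∧
          ((g : Matrix.GeneralLinearGroup (Fin n) F) : Matrix (Fin n) (Fin n) F) =
            Cfsg.siegelMatrix ⇑Q u v c} := by
      intro x hx
      induction hx using Subgroup.closure_induction with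
      | mem x hx =>
        obtain ⟨w, u, hw, huw, hu, rfl⟩ := hx
        apply Subgroup.subset_closure
        refine ⟨u, w, 1, hu, hw, huw, ?_⟩
        apply bridge_symm_coe
        intro z
        rw [siegelMatrix_mulVec_eq_siegL Q u w 1 hu, one_smul]
        rfl
      | one => rw [map_one]; exact Subgroup.one_mem _
      | mul x y _ _ hx hy => rw [map_mul]; exact Subgroup.mul_mem _ hx hy
      | inv x _ hx => rw [map_inv]; exact Subgroup.inv_mem _ hx
    have := main _ hg
    rwa [MulEquiv.symm_apply_apply] at this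
  · rw [Subgroup.closure_le]
    rintro g ⟨u, v, c, hu, hv, huv, hg⟩
    exact (Cfsg.Agent.S0794.result h2 hn Q hQ u v hu hv huv c g hg).2

end Cfsg.Agent.S0795
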