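import Cfsg.Statements.S0797
import Cfsg.Agent.Lib.Helper16.IndexTwo
import Cfsg.Agent.Lib.Helper16.Orth14

set_option autoImplicit false

open Cfsg

namespace Cfsg.Agent.S0797

open Cfsg.Agent.Lib.Helper16 Cfsg.Agent.Lib.Helper6

theorem result {F : Type*} [Field F] [Fintype F] (h2 : (2 : F) ≠ 0) {n : ℕ} (hn : 2 ≤ n) (heven : Even n) (Q : QuadraticForm F (Fin n → F)) (hQ : (QuadraticMap.polarBilin Q).Nondegenerate) : Nat.card {H : Subgroup ↥(Cfsg.isometryGroup F ⇑Q) // H.index = 2} = 3 := by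
  obtain ⟨φ, hsurj, hker, -, -⟩ := exists_eps_theta_surj Q h2 hQ (by simpa using hn)
  apply card_index_two_of_four (φ.comp (bridge Q).toMonoidHom) (surj_comp_bridge Q φ hsurj)
  rw [ker_comp_bridge Q φ hker]

end Cfsg.Agent.S0797
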