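import Cfsg.Statements.S0800
import Cfsg.Agent.Lib.Helper12.SL2Tori

set_option autoImplicit false
open Cfsg

namespace Cfsg.Agent.S0800

open Matrix Cfsg.Agent.Lib.Helper12
open scoped MatrixGroups

/-- Tori of SL_2(q): if g ∈ SL_2(q) has order coprime to the characteristic p, then the order of g divides q − 1 or q + 1. -/
theorem result {F : Type*} [Field F] [Fintype F] {q : ℕ} (hF : Fintype.card F = q) (p : ℕ) [Fact p.Prime] [CharP F p] (g : Matrix.SpecialLinearGroup (Fin 2) F) (hg : Nat.Coprime (orderOf g) p) : orderOf g ∣ q - 1 ∨ orderOf g ∣ q + 1 := by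
  classical
  subst hF
  by_cases hroot : ∃ a : F, a ^ 2 - (g : Matrix (Fin 2) (Fin 2) F).trace * a + 1 = 0
  · obtain ⟨a, ha⟩ := hroot
    by_cases ha2 : a ^ 2 = 1
    · obtain ⟨ha0, hta⟩ := trace_eq_of_root ha
      have ht : (g : Matrix (Fin 2) (Fin 2) F).trace = 2 * a := by
        rw [hta]
        field_simp
        linear_combination -ha2
      have hp := pow_char_eq_scalar p g a ha2 ht
      have h2p : g ^ (p * 2) = 1 := by
        apply Subtype.ext
        rw [Matrix.SpecialLinearGroup.coe_pow, pow_mul, hp, smul_pow, one_pow, ← pow_mul, mul_comm,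
          pow_mul, ha2, one_pow, one_smul]
        rfl
      have h1 : orderOf g ∣ p * 2 := orderOf_dvd_of_pow_eq_one h2p
      have h2 : orderOf g ∣ 2 := hg.dvd_of_dvd_mul_left h1
      left
      rcases (Nat.dvd_prime Nat.prime_two).mp h2 with h | h
      · rw [h]; exact one_dvd _
      · rw [h] at hg ⊢
        by_contra hcon
        have hq : 2 ≤ Fintype.card F := Fintype.one_lt_card
        have h3 : ringChar F = 2 := FiniteField.even_card_iff_char_two.mpr (by omega)
        rw [ringChar.eq F p] at h3
        rw [h3] at hg
        norm_num at hg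
    · left
      rw [← card_centralizer_split g a ha ha2]
      exact orderOf_dvd_card_centralizer g
  · push Not at hroot
    right
    rw [← (centralizer_SL2_irred g (no_eigen_of_no_root g hroot)).2]
    exact orderOf_dvd_card_centralizer g


end Cfsg.Agent.S0800
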