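import Cfsg.Statements.S0802
import Cfsg.Agent.Lib.Helper12.PSL2A4

set_option autoImplicit false
open Cfsg

namespace Cfsg.Agent.S0802

open Matrix Cfsg.Agent.Lib.Helper12
open scoped MatrixGroups

theorem a4_elts : ∃ a g : alternatingGroup (Fin 4), a ≠ 1 ∧ g * g * g = 1 ∧
    (g * a * g⁻¹) * a = a * (g * a * g⁻¹) ∧ g * a * g⁻¹ ≠ a := by
  refine ⟨⟨Equiv.swap 0 1 * Equiv.swap 2 3, Equiv.Perm.mem_alternatingGroup.mpr (by decide)⟩,
    ⟨Equiv.swap 1 2 * Equiv.swap 2 3, Equiv.Perm.mem_alternatingGroup.mpr (by decide)⟩,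
    ?_, ?_, ?_, ?_⟩
  · intro h
    have := congrArg Subtype.val h
    revert this
    decide
  · apply Subtype.ext
    decide
  · apply Subtype.ext
    decide
  · intro h
    have := congrArg Subtype.val h
    revert this
    decide

/-- PSL_2(p^n) has a subgroup isomorphic to A_4 if and only if it is not the case that p = 2 and n is odd. -/
theorem result {F : Type*} [Field F] [Fintype F] (p n : ℕ) [Fact p.Prime] [CharP F p] (hF : Fintype.card F = p ^ n) : (∃ H : Subgroup (Matrix.ProjectiveSpecialLinearGroup (Fin 2) F), Nonempty (H ≃* alternatingGroup (Fin 4))) ↔ ¬ (p = 2 ∧ Odd n) := by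
  classical
  constructor
  · rintro ⟨H, ⟨e⟩⟩ ⟨rfl, hn⟩
    obtain ⟨a₀, g₀, h1, h3, hc, hne⟩ := a4_elts
    have hq : Fintype.card F % 3 = 2 := by
      obtain ⟨m, rfl⟩ := hn
      rw [hF, pow_succ, pow_mul, Nat.mul_mod, Nat.pow_mod]
      norm_num
    obtain ⟨A, hA⟩ := QuotientGroup.mk'_surjective (Subgroup.center SL(2, F)) (e.symm a₀).1
    obtain ⟨Γ, hΓ⟩ := QuotientGroup.mk'_surjective (Subgroup.center SL(2, F)) (e.symm g₀).1
    have hinj := mk_injective_charTwo (F := F)
    apply hne
    apply e.symm.injective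
    apply Subtype.ext
    rw [map_mul, map_mul, map_inv, Subgroup.coe_mul, Subgroup.coe_mul, Subgroup.coe_inv, ← hA, ← hΓ,
      ← map_inv, ← map_mul, ← map_mul]
    congr 1
    apply conj_eq_of_comm_charTwo hq
    · rintro rfl
      apply h1
      apply e.symm.injective
      apply Subtype.ext
      rw [← hA, map_one, map_one]
      rfl
    · apply hinj
      have := congrArg (fun z => ((e.symm z : H) : SL(2, F) ⧸ Subgroup.center SL(2, F))) hc
      simp only [map_mul, map_inv, Subgroup.coe_mul, Subgroup.coe_inv, ← hA, ← hΓ] at this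
      simpa only [map_mul, map_inv] using this
    · apply hinj
      have := congrArg (fun z => ((e.symm z : H) : SL(2, F) ⧸ Subgroup.center SL(2, F))) h3
      simp only [map_mul, map_one, Subgroup.coe_mul, Subgroup.coe_one, ← hΓ] at this
      simpa only [map_mul, map_one] using this
  · intro h
    by_cases hp : p = 2
    · subst hp
      have hn : Even n := by
        rcases Nat.even_or_odd n with h' | h'
        · exact h'
        · exact absurd ⟨rfl, h'⟩ h
      apply exists_A4_even
      obtain ⟨m, rfl⟩ := hn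
      rw [hF, ← two_mul, pow_mul]
      have := Nat.sub_dvd_pow_sub_pow (2 ^ 2) 1 m
      simpa using this
    · apply exists_A4_odd p
      intro h2
      apply hp
      have : ((2 : ℕ) : F) = 0 := by exact_mod_cast h2
      have := (CharP.cast_eq_zero_iff F p 2).mp this
      exact (Nat.prime_dvd_prime_iff_eq Fact.out Nat.prime_two).mp this


end Cfsg.Agent.S0802
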