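import Cfsg.Statements.S0803
import Cfsg.Agent.Lib.Helper12.S4Rec12
import Cfsg.Agent.Lib.Helper12.PSL2A4
import Cfsg.Agent.Lib.Helper12.SL2SylowTwo

set_option autoImplicit false
open Cfsg

namespace Cfsg.Agent.S0803

open Matrix Cfsg.Agent.Lib.Helper12
open scoped MatrixGroups
open Cfsg.Agent.Lib.Helper27.PSL2 (sq_eq_one sq_eq_neg_one_iff one_ne_neg_one ne_neg
  orderOf_mk_eq_two_iff mk_eq_iff comm_mk_iff two_mul_card_PSL2)

theorem s4_elt : ∃ σ : Equiv.Perm (Fin 4), (σ * σ) * (σ * σ) = 1 ∧ σ * σ ≠ 1 :=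
  ⟨Equiv.swap 0 1 * Equiv.swap 1 2 * Equiv.swap 2 3, by decide, by decide⟩

theorem sq_eq_one_charTwo {F : Type*} [Field F] [CharP F 2] (X : SL(2, F))
    (h : (X * X) * (X * X) = 1) : X * X = 1 := by
  have h20 : (2 : F) = 0 := CharTwo.two_eq_zero
  have hY := sl2_cayley (X * X)
  have hX := sl2_cayley X
  have h1 : ((X * X : SL(2, F)) : Matrix (Fin 2) (Fin 2) F) *
      ((X * X : SL(2, F)) : Matrix (Fin 2) (Fin 2) F) = 1 := by
    rw [← Matrix.SpecialLinearGroup.coe_mul, h]; rfl
  have htY : ((X * X : SL(2, F)) : Matrix (Fin 2) (Fin 2) F).trace = 0 := by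
    rw [h1] at hY
    have h3 := congrArg (fun M => M * ((X * X : SL(2, F)) : Matrix (Fin 2) (Fin 2) F)) hY
    simp only [sub_mul, Matrix.smul_mul, h1, one_mul] at h3
    have h4 := congrFun (congrFun h3 0) 1
    have h5 := congrFun (congrFun h3 0) 0
    have h6 := congrFun (congrFun h3 1) 1
    simp only [Matrix.sub_apply, Matrix.smul_apply, Matrix.one_apply_eq, smul_eq_mul, mul_one] at h5 h6
    rw [Matrix.trace_fin_two] at h5 h6 ⊢
    linear_combination (-1 : F) * h5 + (((X * X : SL(2, F)) : Matrix (Fin 2) (Fin 2) F) 0 0) * h20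
  have htX : (X : Matrix (Fin 2) (Fin 2) F).trace = 0 := by
    rw [Matrix.SpecialLinearGroup.coe_mul, hX, Matrix.trace_sub, Matrix.trace_smul, Matrix.trace_one,
      Fintype.card_fin, smul_eq_mul] at htY
    have : (X : Matrix (Fin 2) (Fin 2) F).trace * (X : Matrix (Fin 2) (Fin 2) F).trace = 0 := by
      push_cast at htY
      linear_combination htY + h20
    exact mul_self_eq_zero.mp this
  apply Subtype.ext
  rw [Matrix.SpecialLinearGroup.coe_mul, hX, htX, zero_smul, zero_sub,
    Matrix.SpecialLinearGroup.coe_one]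
  ext i j
  rw [Matrix.neg_apply]
  exact CharTwo.neg_eq _

/-- PSL_2(q) has a subgroup isomorphic to S_4 iff q² ≡ 1 (mod 16). -/
theorem result {F : Type*} [Field F] [Fintype F] {q : ℕ} (hF : Fintype.card F = q) : (∃ H : Subgroup (Matrix.ProjectiveSpecialLinearGroup (Fin 2) F), Nonempty (H ≃* Equiv.Perm (Fin 4))) ↔ q ^ 2 % 16 = 1 := by
  classical
  subst hF
  haveI : Finite (Matrix.ProjectiveSpecialLinearGroup (Fin 2) F) :=
    inferInstanceAs (Finite (SL(2, F) ⧸ Subgroup.center SL(2, F)))
  constructor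
  · rintro ⟨H, ⟨e⟩⟩
    have hcard : Nat.card H = 24 := by
      rw [Nat.card_congr e.toEquiv, Nat.card_eq_fintype_card, Fintype.card_perm, Fintype.card_fin]
      rfl
    rcases Nat.even_or_odd (Fintype.card F) with hev | hodd
    · exfalso
      have hch := FiniteField.even_card_iff_char_two.mpr (Nat.even_iff.mp hev)
      haveI : CharP F 2 := ringChar.of_eq hch
      obtain ⟨σ, h4, h2⟩ := s4_elt
      obtain ⟨X, hX⟩ := QuotientGroup.mk'_surjective (Subgroup.center SL(2, F)) (e.symm σ).1
      have hinj := mk_injective_charTwo (F := F)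
      apply h2
      apply e.symm.injective
      apply Subtype.ext
      rw [map_mul, map_one, Subgroup.coe_mul, Subgroup.coe_one, ← hX, ← map_mul]
      have : X * X = 1 := by
        apply sq_eq_one_charTwo
        apply hinj
        have h5 := congrArg (fun z => ((e.symm z : H) : SL(2, F) ⧸ Subgroup.center SL(2, F))) h4
        simp only [map_mul, map_one, Subgroup.coe_mul, Subgroup.coe_one, ← hX] at h5
        simpa only [map_mul, map_one] using h5
      rw [this, map_one]
    · have hodd' : Fintype.card F % 2 = 1 := Nat.odd_iff.mp hodd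
      have h1 := two_mul_card_PSL2 (F := F) hodd'
      have h2 : 24 ∣ Nat.card (Matrix.ProjectiveSpecialLinearGroup (Fin 2) F) := by
        rw [← hcard]; exact Subgroup.card_subgroup_dvd_card H
      have h3 : 16 ∣ Fintype.card F * (Fintype.card F ^ 2 - 1) := by
        rw [← h1]
        obtain ⟨k, hk⟩ := h2
        rw [hk]
        exact ⟨3 * k, by ring⟩
      have hcop : Nat.Coprime 16 (Fintype.card F) := by
        have : Nat.Coprime (2 ^ 4) (Fintype.card F) :=
          Nat.Coprime.pow_left 4 ((Nat.coprime_two_left).mpr hodd)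
        simpa using this
      have h4 := hcop.dvd_of_dvd_mul_left h3
      have h5 : 1 ≤ Fintype.card F ^ 2 := Nat.one_le_pow _ _ Fintype.card_pos
      omega
  · intro hq
    have hq8 : Fintype.card F % 8 = 1 ∨ Fintype.card F % 8 = 7 := by
      rw [Nat.pow_mod] at hq
      have h16 : Fintype.card F % 16 < 16 := Nat.mod_lt _ (by norm_num)
      have e8 : Fintype.card F % 8 = (Fintype.card F % 16) % 8 := by omega
      rw [e8]
      generalize Fintype.card F % 16 = r at hq h16
      interval_cases r <;> simp_all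
    have hodd' : Fintype.card F % 2 = 1 := by omega
    have h2 : (2 : F) ≠ 0 := Cfsg.Agent.Lib.Helper14.SL2.two_ne_zero_of_odd hodd'
    have hs : IsSquare (2 : F) := by rw [FiniteField.isSquare_two_iff]; omega
    haveI : Fact (ringChar F).Prime := ⟨CharP.char_is_prime F (ringChar F)⟩
    obtain ⟨u, v, w, h, hwu, hwv, hw3⟩ := exists_QP_omega (F := F) (ringChar F) h2
    obtain ⟨s, hsC, hss⟩ := exists_sq_eq_of_isSquare_two h2 u h.1 hs
    have hq3 := h.ne h2
    have e1 := (orderOf_two_iff _).mp ((orderOf_mk_eq_two_iff h2 u).mpr h.1)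
    have e2 := (orderOf_two_iff _).mp ((orderOf_mk_eq_two_iff h2 v).mpr h.2.1)
    have e3 : QuotientGroup.mk' (Subgroup.center SL(2, F)) u *
        QuotientGroup.mk' (Subgroup.center SL(2, F)) v =
        QuotientGroup.mk' (Subgroup.center SL(2, F)) v *
        QuotientGroup.mk' (Subgroup.center SL(2, F)) u :=
      (comm_mk_iff u v).mpr (Or.inr (by rw [h.2.2, neg_neg]))
    set π := QuotientGroup.mk' (Subgroup.center SL(2, F)) with hπ
    set V := K4 (π u) (π v) e1.1 e2.1 e3 with hV
    have hVk : IsKleinFour V := isKleinFour_K4 _ _ e1.1 e2.1 e3 hq3.1 hq3.2.1 hq3.2.2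
    have huV : π u ∈ V := (mem_K4 _ _ e1.1 e2.1 e3 _).mpr (Or.inr (Or.inl rfl))
    have hvV : π v ∈ V := (mem_K4 _ _ e1.1 e2.1 e3 _).mpr (Or.inr (Or.inr (Or.inl rfl)))
    have c1 : π w * π u = π v * π w := by rw [← map_mul, ← map_mul, hwu]
    have c2 : π w * π v = π u * π v * π w := by rw [← map_mul, ← map_mul, ← map_mul, hwv]
    have c3 : π s * π u = π u * π s := by
      rw [← map_mul, ← map_mul, Subgroup.mem_centralizer_singleton_iff.mp hsC]
    have c4 : π s * π v = π u * π v * π s := by
      rw [← map_mul, ← map_mul, ← map_mul]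
      congr 1
      have h5 := h.conjT h2 s hsC
      rw [hss] at h5
      calc s * v = (s * v * s⁻¹) * s := by group
        _ = u * v * s := by rw [h5]
    apply exists_S4 V hVk _ (π u) (π v) (π w) (π s) huV hvV hq3.1 hq3.2.1 hq3.2.2 c1 c2 c3 c4
    · have : π w ^ 3 = 1 := by
        rw [← map_pow]
        have : w ^ 3 = w * w * w := by norm_num [pow_succ]
        rw [this, hw3, hπ, QuotientGroup.mk'_apply, QuotientGroup.eq_one_iff,
          Cfsg.Agent.Lib.Helper27.PSL2.mem_center_iff]
        right; rfl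
      rw [this]; exact V.one_mem
    · rw [pow_two, ← map_mul, hss]; exact huV
    · intro x hx
      obtain ⟨X, rfl⟩ := QuotientGroup.mk'_surjective (Subgroup.center SL(2, F)) x
      exact (mem_K4 (π u) (π v) e1.1 e2.1 e3 _).mpr
        (h.mem_of_ctil h2 X ((comm_mk_iff X u).mp (hx _ huV)) ((comm_mk_iff X v).mp (hx _ hvV)))


end Cfsg.Agent.S0803
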