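import Cfsg.Statements.S0804
import Mathlib
import Cfsg.Agent.S3377
import Cfsg.Agent.Lib.Helper14.ClassCard

set_option autoImplicit false
open Cfsg

namespace Cfsg.Agent.S0804

lemma exists_A5 {X : Type*} [Group X] (x y : X) (h3 : x ^ 3 = 1) (h5 : y ^ 5 = 1)
    (h2 : (x * y) ^ 2 = 1) (hx : x ≠ 1) :
    ∃ H : Subgroup X, Nonempty (H ≃* alternatingGroup (Fin 5)) := by
  obtain ⟨e⟩ := Cfsg.Agent.S3377.result
  have hrels : ∀ r ∈ Cfsg.Agent.S3377.rels, FreeGroup.lift (![x, y] : Fin 2 → X) r = 1 := by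
    rintro r (rfl | rfl | rfl)
    · simpa using h3
    · simpa using h5
    · simpa using h2
  obtain ⟨φ, hφ⟩ : ∃ φ : alternatingGroup (Fin 5) →* X,
      φ = (PresentedGroup.toGroup hrels).comp e.symm.toMonoidHom := ⟨_, rfl⟩
  haveI : IsSimpleGroup (alternatingGroup (Fin 5)) :=
    alternatingGroup.isSimpleGroup (by simp)
  have hinj : Function.Injective φ := by
    rw [← MonoidHom.ker_eq_bot_iff]
    rcases Subgroup.Normal.eq_bot_or_eq_top (H := φ.ker) inferInstance with h | h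
    · exact h
    · exfalso
      apply hx
      have h1 : e (PresentedGroup.of 0) ∈ φ.ker := by rw [h]; trivial
      rw [MonoidHom.mem_ker, hφ] at h1
      simpa using h1
  exact ⟨φ.range, ⟨(MonoidHom.ofInjective hinj).symm⟩⟩

section
variable {F : Type*} [Field F]

lemma CH (M : Matrix (Fin 2) (Fin 2) F) (hd : M.det = 1) : M * M = M.trace • M - 1 := by
  rw [Matrix.det_fin_two] at hd
  ext i j
  fin_cases i <;> fin_cases j <;>
    simp [Matrix.mul_apply, Fin.sum_univ_two, Matrix.trace_fin_two] <;>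
    first | linear_combination -hd | ring

lemma cube_eq (M : Matrix (Fin 2) (Fin 2) F) (hd : M.det = 1) (ht : M.trace = 1) :
    M ^ 3 = -1 := by
  have h := CH M hd
  rw [ht, one_smul] at h
  rw [pow_succ, pow_two, h, sub_mul, h, one_mul]
  abel

lemma sq_eq (M : Matrix (Fin 2) (Fin 2) F) (hd : M.det = 1) (ht : M.trace = 0) :
    M ^ 2 = -1 := by
  have h := CH M hd
  rw [ht, zero_smul, zero_sub] at h
  rw [pow_two, h]

lemma five_eq (M : Matrix (Fin 2) (Fin 2) F) (hd : M.det = 1) (τ : F) (ht : M.trace = τ)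
    (hτ : τ * τ = τ + 1) : M ^ 5 = -1 := by
  have h := CH M hd
  rw [ht] at h
  have h3 : M * M * M = τ • M - τ • (1 : Matrix (Fin 2) (Fin 2) F) := by
    rw [h, sub_mul, smul_mul_assoc, h, one_mul, smul_sub, smul_smul, hτ]
    module
  have h4 : M * M * M * M = M - τ • (1 : Matrix (Fin 2) (Fin 2) F) := by
    rw [h3, sub_mul, smul_mul_assoc, smul_mul_assoc, h, one_mul, smul_sub, smul_smul, hτ]
    module
  have h5 : M * M * M * M * M = -1 := by
    rw [h4, sub_mul, smul_mul_assoc, one_mul, h]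
    abel
  rw [← h5]
  simp only [pow_succ, pow_zero, one_mul]

lemma mk_eq_one (A : Matrix.SpecialLinearGroup (Fin 2) F) (h : A.1 = -1) :
    (QuotientGroup.mk' (Subgroup.center (Matrix.SpecialLinearGroup (Fin 2) F))) A = 1 := by
  rw [QuotientGroup.mk'_apply, QuotientGroup.eq_one_iff, Subgroup.mem_center_iff]
  intro g
  apply Subtype.ext
  show g.1 * A.1 = A.1 * g.1
  rw [h, mul_neg, mul_one, neg_mul, one_mul]

lemma exists_of_sol (τ a b : F) (hτ : τ * τ = τ + 1)
    (hab : a * a - a + b * b + τ * b + 1 = 0) :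
    ∃ H : Subgroup (Matrix.ProjectiveSpecialLinearGroup (Fin 2) F),
      Nonempty (H ≃* alternatingGroup (Fin 5)) := by
  have hdX : (!![a, b; b + τ, 1 - a] : Matrix (Fin 2) (Fin 2) F).det = 1 := by
    rw [Matrix.det_fin_two_of]
    linear_combination -hab
  have hdY : (!![-b, -(1 - a); a, b + τ] : Matrix (Fin 2) (Fin 2) F).det = 1 := by
    rw [Matrix.det_fin_two_of]
    linear_combination -hab
  obtain ⟨X, hX⟩ : ∃ X : Matrix.SpecialLinearGroup (Fin 2) F, X = ⟨_, hdX⟩ := ⟨_, rfl⟩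
  obtain ⟨Y, hY⟩ : ∃ Y : Matrix.SpecialLinearGroup (Fin 2) F, Y = ⟨_, hdY⟩ := ⟨_, rfl⟩
  have hX1 : X.1 = !![a, b; b + τ, 1 - a] := by rw [hX]
  have hY1 : Y.1 = !![-b, -(1 - a); a, b + τ] := by rw [hY]
  have htX : X.1.trace = 1 := by
    rw [hX1, Matrix.trace_fin_two_of]; ring
  have htY : Y.1.trace = τ := by
    rw [hY1, Matrix.trace_fin_two_of]; ring
  have htXY : (X * Y).1.trace = 0 := by
    show (X.1 * Y.1).trace = 0
    rw [hX1, hY1, Matrix.mul_fin_two, Matrix.trace_fin_two_of]; ring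
  refine exists_A5
    ((QuotientGroup.mk' (Subgroup.center (Matrix.SpecialLinearGroup (Fin 2) F))) X)
    ((QuotientGroup.mk' (Subgroup.center (Matrix.SpecialLinearGroup (Fin 2) F))) Y) ?_ ?_ ?_ ?_
  · rw [← map_pow]
    exact mk_eq_one _ (cube_eq X.1 X.2 htX)
  · rw [← map_pow]
    exact mk_eq_one _ (five_eq Y.1 Y.2 τ htY hτ)
  · rw [← map_mul, ← map_pow]
    exact mk_eq_one _ (sq_eq (X * Y).1 (X * Y).2 htXY)
  · intro h
    rw [QuotientGroup.mk'_apply, QuotientGroup.eq_one_iff,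
      Matrix.SpecialLinearGroup.mem_center_iff] at h
    obtain ⟨r, -, hr⟩ := h
    have h01 : X.1 0 1 = 0 := by
      have : (Matrix.scalar (Fin 2) r) 0 1 = X.1 0 1 := by rw [hr]
      rw [← this]; simp
    have h10 : X.1 1 0 = 0 := by
      have : (Matrix.scalar (Fin 2) r) 1 0 = X.1 1 0 := by rw [hr]
      rw [← this]; simp
    rw [hX1] at h01 h10
    simp at h01 h10
    rw [h01, zero_add] at h10
    rw [h10] at hτ
    simp at hτ

lemma mod5 (q : ℕ) (hq : 1 ≤ q) (h : 5 ∣ q * (q ^ 2 - 1)) :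
    q % 5 = 0 ∨ q % 5 = 1 ∨ q % 5 = 4 := by
  have e : q ^ 2 - 1 = (q + 1) * (q - 1) := by
    have := Nat.sq_sub_sq q 1
    rwa [one_pow] at this
  rw [e] at h
  have p5 : Nat.Prime 5 := by norm_num
  rcases (Nat.Prime.dvd_mul p5).mp h with h | h
  · omega
  · rcases (Nat.Prime.dvd_mul p5).mp h with h | h <;> omega

lemma two_pow_mod (n : ℕ) : 2 ^ n % 15 = 1 ∨ 2 ^ n % 15 = 2 ∨ 2 ^ n % 15 = 4 ∨ 2 ^ n % 15 = 8 := by
  induction n with
  | zero => simp
  | succ n ih =>
    rw [pow_succ]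
    omega

instance fact5 : Fact (Nat.Prime 5) := ⟨by norm_num⟩

lemma qc5 : ∀ u : ZMod 5, (u = 0 ∨ u = 1 ∨ u = -1) → ∀ v : ZMod 5, (v = 0 ∨ v = 1 ∨ v = 4) →
    quadraticChar (ZMod 5) (u * v) ≠ -1 := by decide

lemma chi4 : ∀ a : ZMod 4, ZMod.χ₄ a = 0 ∨ ZMod.χ₄ a = 1 ∨ ZMod.χ₄ a = -1 := by decide

lemma exists_all [Fintype F] (h : 5 ∣ Fintype.card F * (Fintype.card F ^ 2 - 1)) :
    ∃ τ a b : F, τ * τ = τ + 1 ∧ a * a - a + b * b + τ * b + 1 = 0 := by
  classical
  have hq1 : 1 ≤ Fintype.card F := Fintype.card_pos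
  have h5 := mod5 _ hq1 h
  by_cases hF : ringChar F = 2
  · haveI : CharP F 2 := by
      rw [← hF]; exact ringChar.charP F
    obtain ⟨n, -, hn⟩ := FiniteField.card F 2
    have h15 := two_pow_mod n
    rw [← hn] at h15
    have h3 : 3 ∣ Fintype.card F - 1 := by omega
    have hcu : Nat.card Fˣ = Fintype.card F - 1 := by
      rw [Nat.card_eq_fintype_card, Fintype.card_units]
    haveI : Fact (Nat.Prime 3) := ⟨by norm_num⟩
    obtain ⟨w, hw⟩ := exists_prime_orderOf_dvd_card' (G := Fˣ) 3 (by rw [hcu]; exact h3)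
    have hw3 : (w : F) ^ 3 = 1 := by
      have : w ^ 3 = 1 := by rw [← hw]; exact pow_orderOf_eq_one w
      have := congrArg Units.val this
      simpa using this
    have hw1 : (w : F) ≠ 1 := by
      intro h1
      have : w = 1 := Units.ext h1
      rw [this, orderOf_one] at hw
      norm_num at hw
    have hw2 : (w : F) * w + w + 1 = 0 := by
      have : ((w : F) - 1) * ((w : F) * w + w + 1) = 0 := by
        linear_combination hw3
      rcases mul_eq_zero.mp this with h0 | h0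
      · exact absurd (sub_eq_zero.mp h0) hw1
      · exact h0
    have h2 : (2 : F) = 0 := CharTwo.two_eq_zero
    refine ⟨w, w, 0, ?_, ?_⟩
    · linear_combination hw2 - ((w : F) + 1) * h2
    · linear_combination hw2 - (w : F) * h2
  · have hodd := FiniteField.odd_card_of_char_ne_two hF
    have hsq : IsSquare ((5 : ℕ) : F) := by
      rw [FiniteField.isSquare_odd_prime_iff hF (by norm_num)]
      apply qc5
      · rcases chi4 (Fintype.card F : ZMod 4) with h0 | h0 | h0 <;> rw [h0] <;> simp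
      · rw [← ZMod.natCast_mod]
        rcases h5 with h0 | h0 | h0 <;> rw [h0] <;> simp
    obtain ⟨s, hs⟩ := hsq
    have h2 : (2 : F) ≠ 0 := Ring.two_ne_zero hF
    obtain ⟨τ, hτd⟩ : ∃ τ : F, τ = (1 + s) / 2 := ⟨_, rfl⟩
    have hτ2 : 2 * τ = 1 + s := by rw [hτd]; field_simp
    have hτ : τ * τ = τ + 1 := by
      have h4 : (4 : F) ≠ 0 := by
        have : (4 : F) = 2 * 2 := by norm_num
        rw [this]; exact mul_ne_zero h2 h2
      apply mul_left_cancel₀ h4
      have hs' : s * s = 5 := by rw [← hs]; norm_num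
      have hs2 : s = 2 * τ - 1 := by linear_combination -hτ2
      rw [hs2] at hs'
      linear_combination hs'
    obtain ⟨a, b, hab⟩ := FiniteField.exists_root_sum_quadratic
      (f := Polynomial.C (1 : F) * Polynomial.X ^ 2 + Polynomial.C (-1) * Polynomial.X
        + Polynomial.C 1)
      (g := Polynomial.C (1 : F) * Polynomial.X ^ 2 + Polynomial.C τ * Polynomial.X
        + Polynomial.C 0)
      (Polynomial.degree_quadratic one_ne_zero) (Polynomial.degree_quadratic one_ne_zero) hodd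
    refine ⟨τ, a, b, hτ, ?_⟩
    simp only [Polynomial.eval_add, Polynomial.eval_mul, Polynomial.eval_C, Polynomial.eval_pow,
      Polynomial.eval_X] at hab
    linear_combination hab

end


/-- PSL_2(q) has a subgroup isomorphic to A_5 iff 5 ∣ q(q² − 1). -/
theorem result {F : Type*} [Field F] [Fintype F] {q : ℕ} (hF : Fintype.card F = q) : (∃ H : Subgroup (Matrix.ProjectiveSpecialLinearGroup (Fin 2) F), Nonempty (H ≃* alternatingGroup (Fin 5))) ↔ 5 ∣ q * (q ^ 2 - 1) := by
  subst hF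
  constructor
  · rintro ⟨H, ⟨e⟩⟩
    have h1 : Nat.card H = 60 := by
      rw [Nat.card_congr e.toEquiv]
      exact Cfsg.Agent.S3377.card_A5
    have h2 : Nat.card H ∣ Nat.card (Matrix.ProjectiveSpecialLinearGroup (Fin 2) F) :=
      Subgroup.card_subgroup_dvd_card H
    have h3 : Nat.card (Matrix.ProjectiveSpecialLinearGroup (Fin 2) F) ∣
        Nat.card (Matrix.SpecialLinearGroup (Fin 2) F) :=
      Subgroup.card_quotient_dvd_card _
    rw [Cfsg.Agent.Lib.Helper14.card_SL2] at h3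
    rw [h1] at h2
    exact Dvd.dvd.trans (by norm_num) (h2.trans h3)
  · intro h
    obtain ⟨τ, a, b, hτ, hab⟩ := exists_all h
    exact exists_of_sol τ a b hτ hab

end Cfsg.Agent.S0804
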