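import Cfsg.Statements.S0805
import Cfsg.Agent.Lib.Helper12.GLCard
import Cfsg.Agent.Lib.Helper27.PSL2Invol

set_option autoImplicit false
open Cfsg

namespace Cfsg.Agent.S0805

open Matrix Cfsg.Agent.Lib.Helper12
open scoped MatrixGroups

theorem exists_ringHom {F K : Type*} [Field F] [Fintype F] [Field K] [Fintype K] (m : ℕ)
    (hK : Fintype.card K ^ m = Fintype.card F) : Nonempty (K →+* F) := by
  obtain ⟨p, hp⟩ := CharP.exists K
  haveI : Fact p.Prime := ⟨CharP.char_is_prime K p⟩
  obtain ⟨a, -, ha⟩ := FiniteField.card K p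
  haveI : CharP F p := by
    obtain ⟨p', hp'⟩ := CharP.exists F
    have hp'prime : p'.Prime := CharP.char_is_prime F p'
    obtain ⟨b, -, hb⟩ := FiniteField.card F p'
    have h1 : p' ∣ p ^ ((a : ℕ) * m) := by
      rw [pow_mul, ← ha, hK, hb]; exact dvd_pow_self _ b.ne_zero
    have h2 : p' = p :=
      (Nat.prime_dvd_prime_iff_eq hp'prime Fact.out).mp (hp'prime.dvd_of_dvd_pow h1)
    exact h2 ▸ hp'
  letI : Algebra (ZMod p) K := ZMod.algebra _ _
  letI : Algebra (ZMod p) F := ZMod.algebra _ _
  have h1 := FiniteField.pow_finrank_eq_card p K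
  have h2 := FiniteField.pow_finrank_eq_card p F
  have h3 : Module.finrank (ZMod p) F = Module.finrank (ZMod p) K * m := by
    apply Nat.pow_right_injective (Fact.out : p.Prime).two_le
    show p ^ _ = p ^ _
    rw [h2, pow_mul, h1, hK]
  obtain ⟨f⟩ := FiniteField.nonempty_algHom_of_finrank_dvd (F := ZMod p) (K := K) (L := F)
    (h3 ▸ dvd_mul_right _ _)
  exact ⟨f.toRingHom⟩

theorem exists_PSL {F K : Type*} [Field F] [Field K] (ι : K →+* F) :
    ∃ H : Subgroup (Matrix.ProjectiveSpecialLinearGroup (Fin 2) F),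
      Nonempty (H ≃* Matrix.ProjectiveSpecialLinearGroup (Fin 2) K) := by
  set f : SL(2, K) →* SL(2, F) ⧸ Subgroup.center SL(2, F) :=
    (QuotientGroup.mk' (Subgroup.center SL(2, F))).comp (Matrix.SpecialLinearGroup.map ι) with hf
  have hinj : Function.Injective (Matrix.SpecialLinearGroup.map ι : SL(2, K) →* SL(2, F)) := by
    intro x y h
    apply Subtype.ext
    ext i j
    have := congrArg (fun g : SL(2, F) => (g : Matrix (Fin 2) (Fin 2) F) i j) h
    simp only [Matrix.SpecialLinearGroup.map_apply_coe, RingHom.mapMatrix_apply,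
      Matrix.map_apply] at this
    exact ι.injective this
  have hneg : (Matrix.SpecialLinearGroup.map ι : SL(2, K) →* SL(2, F)) (-1) = -1 := by
    apply Subtype.ext
    ext i j
    simp [Matrix.SpecialLinearGroup.map_apply_coe, Matrix.one_apply]
  have hker : f.ker = Subgroup.center SL(2, K) := by
    ext x
    rw [MonoidHom.mem_ker, hf, MonoidHom.comp_apply, QuotientGroup.mk'_apply,
      QuotientGroup.eq_one_iff, Cfsg.Agent.Lib.Helper27.PSL2.mem_center_iff,
      Cfsg.Agent.Lib.Helper27.PSL2.mem_center_iff]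
    constructor
    · rintro (h | h)
      · left; apply hinj; rw [h, map_one]
      · right; apply hinj; rw [h, hneg]
    · rintro (rfl | rfl)
      · left; exact map_one _
      · right; exact hneg
  exact ⟨f.range, ⟨(QuotientGroup.quotientKerEquivRange f).symm.trans
    (QuotientGroup.quotientMulEquivOfEq hker)⟩⟩

theorem mk_mem_range_toPGL {F : Type*} [Field F] (A : GL (Fin 2) F) (r : Fˣ)
    (hr : r ^ 2 * A.det = 1) :
    Matrix.ProjGenLinGroup.mk A ∈
      (Matrix.ProjectiveSpecialLinearGroup.toPGL (n := Fin 2) (R := F)).range := by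
  have hr' : (r.1 • A.1).det = 1 := by
    rw [Matrix.det_smul, Fintype.card_fin]
    have := congrArg Units.val hr
    simpa using this
  obtain ⟨s, hs⟩ : ∃ s : SL(2, F), (s : Matrix (Fin 2) (Fin 2) F) = r.1 • A.1 := ⟨⟨_, hr'⟩, rfl⟩
  refine ⟨QuotientGroup.mk s, ?_⟩
  rw [ProjectiveSpecialLinearGroup.toPGL_mk, Matrix.ProjGenLinGroup.mk_eq_mk_iff]
  refine ⟨r⁻¹, Units.ext ?_⟩
  simp only [Units.val_mul, Matrix.SpecialLinearGroup.coe_GL_coe_matrix,
    GeneralLinearGroup.coe_scalar, hs]
  simp [← Matrix.mul_smul, ← Matrix.diagonal_smul, Pi.smul_def, smul_eq_mul]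

theorem exists_PGL {F K : Type*} [Field F] [Field K] (ι : K →+* F)
    (hsq : ∀ a : K, a ≠ 0 → ∃ c : F, c * c = ι a) :
    ∃ H : Subgroup (Matrix.ProjectiveSpecialLinearGroup (Fin 2) F),
      Nonempty (H ≃* Matrix.ProjGenLinGroup (Fin 2) K) := by
  set g : GL (Fin 2) K →* Matrix.ProjGenLinGroup (Fin 2) F :=
    Matrix.ProjGenLinGroup.mk.comp (Matrix.GeneralLinearGroup.map ι) with hg
  set j := Matrix.ProjectiveSpecialLinearGroup.toPGL (n := Fin 2) (R := F) with hj
  have hjinj : Function.Injective j := Matrix.ProjectiveSpecialLinearGroup.toPGL_injective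
  have hker : g.ker = Subgroup.center (GL (Fin 2) K) := by
    ext x
    rw [MonoidHom.mem_ker, hg, MonoidHom.comp_apply, Matrix.ProjGenLinGroup.mk_eq_one,
      Matrix.GeneralLinearGroup.mem_center_iff_val_mem_range_scalar,
      Matrix.GeneralLinearGroup.mem_center_iff_val_mem_range_scalar]
    constructor
    · rintro ⟨b, hb⟩
      refine ⟨x 0 0, ?_⟩
      have e : ∀ i k, (Matrix.scalar (Fin 2) b) i k = ι (x i k) := by
        intro i k
        rw [hb]
        exact Matrix.GeneralLinearGroup.map_apply ι i k x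
      have e00 := e 0 0
      have e01 := e 0 1
      have e10 := e 1 0
      have e11 := e 1 1
      simp at e00 e01 e10 e11
      have h01 : x 0 1 = 0 := ι.injective (by rw [← e01, map_zero])
      have h10 : x 1 0 = 0 := ι.injective (by rw [← e10, map_zero])
      have h11 : x 1 1 = x 0 0 := ι.injective (by rw [← e11, ← e00])
      ext i k
      fin_cases i <;> fin_cases k
      · simp
      · simpa using h01.symm
      · simpa using h10.symm
      · simpa using h11.symm
    · rintro ⟨a, ha⟩
      refine ⟨ι a, ?_⟩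
      ext i k
      have e := Matrix.GeneralLinearGroup.map_apply ι i k x
      have e2 : x i k = (Matrix.scalar (Fin 2) a) i k := by rw [ha]
      show _ = (Matrix.GeneralLinearGroup.map ι x) i k
      rw [e, e2]
      by_cases hik : i = k
      · subst hik; simp
      · simp [hik]
  have hle : g.range ≤ j.range := by
    rintro _ ⟨x, rfl⟩
    have hd0 : (x.det : K) ≠ 0 := x.det.ne_zero
    obtain ⟨c, hc⟩ := hsq _ hd0
    have hc0 : c ≠ 0 := by
      rintro rfl
      rw [mul_zero] at hc
      exact hd0 (ι.injective (by rw [← hc, map_zero]))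
    apply mk_mem_range_toPGL _ (Units.mk0 c hc0)⁻¹
    apply Units.ext
    have hdet : ((Matrix.GeneralLinearGroup.map ι x).det : F) = ι (x.det : K) := by
      simp [Matrix.GeneralLinearGroup.map, RingHom.map_det]
    rw [Units.val_mul, hdet, ← hc]
    simp
    field_simp
  set H := g.range.comap j with hH
  have hmap : H.map j = g.range := by
    rw [hH, Subgroup.map_comap_eq, inf_eq_right.mpr hle]
  exact ⟨H, ⟨((H.equivMapOfInjective j hjinj).trans (MulEquiv.subgroupCongr hmap)).trans
    ((QuotientGroup.quotientKerEquivRange g).symm.trans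
      (QuotientGroup.quotientMulEquivOfEq hker))⟩⟩

theorem odd_geom (b m : ℕ) (hb : b % 2 = 1) : (∑ i ∈ Finset.range m, b ^ i) % 2 = m % 2 := by
  induction m with
  | zero => simp
  | succ k ih =>
    rw [Finset.sum_range_succ, Nat.add_mod, ih, Nat.pow_mod, hb, one_pow]
    omega

/-- Subfield subgroups: let F be a finite field of odd order q and K a finite field with |K|^m = q, m ≥ 1. Then PSL_2(F) has a subgroup isomorphic to PSL_2(K), and has a subgroup isomorphic to PGL_2(K) if and only if m is even. -/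
theorem result {F K : Type*} [Field F] [Fintype F] [Field K] [Fintype K] {q : ℕ} (hF : Fintype.card F = q) (hodd : Odd q) (m : ℕ) (hm : 1 ≤ m) (hK : Fintype.card K ^ m = q) : (∃ H : Subgroup (Matrix.ProjectiveSpecialLinearGroup (Fin 2) F), Nonempty (H ≃* Matrix.ProjectiveSpecialLinearGroup (Fin 2) K)) ∧ ((∃ H : Subgroup (Matrix.ProjectiveSpecialLinearGroup (Fin 2) F), Nonempty (H ≃* Matrix.ProjGenLinGroup (Fin 2) K)) ↔ Even m) := by
  classical
  subst hF
  obtain ⟨ι⟩ := exists_ringHom (F := F) (K := K) m hK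
  have hq₀1 : 1 < Fintype.card K := Fintype.one_lt_card
  have hqodd : Fintype.card F % 2 = 1 := Nat.odd_iff.mp hodd
  have hq₀odd : Fintype.card K % 2 = 1 := by
    rcases Nat.even_or_odd (Fintype.card K) with h | h
    · exfalso
      have h1 : Even (Fintype.card K ^ m) := h.pow_of_ne_zero (by omega)
      rw [hK] at h1
      exact (Nat.not_even_iff_odd.mpr hodd) h1
    · exact Nat.odd_iff.mp h
  obtain ⟨t, ht⟩ : ∃ t, Fintype.card K = 2 * t + 1 := ⟨Fintype.card K / 2, by omega⟩
  have ht0 : 0 < t := by omega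
  refine ⟨exists_PSL ι, ?_, ?_⟩
  · rintro ⟨H, ⟨e⟩⟩
    by_contra hm2
    have hmodd : m % 2 = 1 := by
      rcases Nat.even_or_odd m with h | h
      · exact absurd h hm2
      · exact Nat.odd_iff.mp h
    haveI : Finite (Matrix.ProjectiveSpecialLinearGroup (Fin 2) F) :=
      inferInstanceAs (Finite (SL(2, F) ⧸ Subgroup.center SL(2, F)))
    have hP : Nat.card (Matrix.ProjGenLinGroup (Fin 2) K) = (4 * t ^ 2 + 4 * t) * (2 * t + 1) := by
      have h1 := Subgroup.card_eq_card_quotient_mul_card_subgroup (Subgroup.center (GL (Fin 2) K))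
      rw [card_center_GL 2 (by norm_num), card_units_eq, Matrix.card_GL_field, Fin.prod_univ_two,
        ht] at h1
      have h2 : Nat.card (Matrix.ProjGenLinGroup (Fin 2) K) =
          Nat.card (GL (Fin 2) K ⧸ Subgroup.center (GL (Fin 2) K)) := rfl
      rw [h2]
      have e1 : (2 * t + 1) ^ 2 - (2 * t + 1) ^ ((0 : Fin 2) : ℕ) = 4 * t ^ 2 + 4 * t := by
        have : (2 * t + 1) ^ 2 = 4 * t ^ 2 + 4 * t + 1 := by ring
        simp [this]
      have e2 : (2 * t + 1) ^ 2 - (2 * t + 1) ^ ((1 : Fin 2) : ℕ) = (2 * t + 1) * (2 * t) := by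
        have : (2 * t + 1) ^ 2 = (2 * t + 1) * (2 * t) + (2 * t + 1) := by ring
        simp [this]
      have e3 : 2 * t + 1 - 1 = 2 * t := by omega
      rw [e1, e2, e3] at h1
      have h2t : 0 < 2 * t := by omega
      apply Nat.eq_of_mul_eq_mul_right h2t
      rw [← h1]; ring
    have hHc : Nat.card H = (4 * t ^ 2 + 4 * t) * (2 * t + 1) := by
      rw [Nat.card_congr e.toEquiv, hP]
    have hM := Cfsg.Agent.Lib.Helper27.PSL2.two_mul_card_PSL2 (F := F) hqodd
    obtain ⟨k, hk⟩ := Subgroup.card_subgroup_dvd_card H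
    have hgeom := geom_sum_mul_add (4 * t ^ 2 + 4 * t) m
    have hq2 : Fintype.card F ^ 2 = (4 * t ^ 2 + 4 * t + 1) ^ m := by
      rw [← hK, ht, ← pow_mul, mul_comm m 2, pow_mul]
      congr 1; ring
    rw [← hq2] at hgeom
    have hS := odd_geom (4 * t ^ 2 + 4 * t + 1) m (by omega)
    set S := ∑ i ∈ Finset.range m, (4 * t ^ 2 + 4 * t + 1) ^ i with hSdef
    have hq21 : Fintype.card F ^ 2 - 1 = S * (4 * t ^ 2 + 4 * t) := by omega
    rw [hq21, hk, hHc] at hM
    have hN : 0 < 4 * t ^ 2 + 4 * t := by positivity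
    have h5 : (2 * t + 1) * k * 2 = Fintype.card F * S := by
      apply Nat.eq_of_mul_eq_mul_left hN
      calc (4 * t ^ 2 + 4 * t) * ((2 * t + 1) * k * 2)
          = (4 * t ^ 2 + 4 * t) * (2 * t + 1) * k * 2 := by ring
        _ = Fintype.card F * (S * (4 * t ^ 2 + 4 * t)) := hM
        _ = (4 * t ^ 2 + 4 * t) * (Fintype.card F * S) := by ring
    have h6 : (Fintype.card F * S) % 2 = 1 := by
      rw [Nat.mul_mod, hqodd, hS, hmodd]
    omega
  · rintro ⟨l, rfl⟩
    apply exists_PGL ι
    intro a ha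
    have hchar : ringChar F ≠ 2 := by
      intro h
      have := FiniteField.even_card_iff_char_two.mp h
      omega
    have hιa : ι a ≠ 0 := by
      intro h
      exact ha (ι.injective (by rw [h, map_zero]))
    have hsq : IsSquare (ι a) := by
      rw [FiniteField.isSquare_iff hchar hιa]
      have hgeom := geom_sum_mul_add (4 * t ^ 2 + 4 * t) l
      have hq2 : Fintype.card F = (4 * t ^ 2 + 4 * t + 1) ^ l := by
        rw [← hK, ht, ← two_mul, pow_mul]
        congr 1; ring
      rw [← hq2] at hgeom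
      set S := ∑ i ∈ Finset.range l, (4 * t ^ 2 + 4 * t + 1) ^ i with hSdef
      have hk : Fintype.card F / 2 = (Fintype.card K - 1) * (S * (t + 1)) := by
        have e3 : Fintype.card K - 1 = 2 * t := by omega
        rw [e3]
        have : Fintype.card F = 2 * (2 * t * (S * (t + 1))) + 1 := by
          rw [← hgeom]; ring
        omega
      rw [hk, pow_mul, ← map_pow, FiniteField.pow_card_sub_one_eq_one a ha, map_one, one_pow]
    obtain ⟨c, hc⟩ := hsq
    exact ⟨c, hc.symm⟩


end Cfsg.Agent.S0805
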