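import Cfsg.Statements.S0809
import Cfsg.Agent.Lib.Helper12.PSL2Cent

set_option autoImplicit false
open Cfsg

namespace Cfsg.Agent.S0809

open Matrix Cfsg.Agent.Lib.Helper12
open scoped MatrixGroups
open Cfsg.Agent.Lib.Helper27.PSL2 (sq_eq_one sq_eq_neg_one_iff one_ne_neg_one ne_neg isConj_of_tr_zero
  isConj_of_orderOf_two tr)

section
variable {F : Type*} [Field F] [Fintype F]

theorem exists_gen (h2 : (2 : F) ≠ 0) (A : Subgroup SL(2, F)) (hA : Nat.card A = 4) :
    ∃ u : SL(2, F), u * u = -1 ∧ A = Subgroup.zpowers u := by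
  classical
  have hex : ∃ u ∈ A, u * u ≠ 1 := by
    by_contra hcon
    push Not at hcon
    have hsub : (A : Set SL(2, F)) ⊆ {1, -1} := by
      intro a ha
      rcases sq_eq_one h2 a (hcon a ha) with h | h
      · left; exact h
      · right; exact h
    have h1 : Nat.card A = (A : Set SL(2, F)).ncard := rfl
    have h3 := Set.ncard_le_ncard hsub (Set.toFinite _)
    have h4 : ({1, -1} : Set SL(2, F)).ncard ≤ 2 := by
      have := Set.ncard_insert_le (1 : SL(2, F)) {-1}
      rw [Set.ncard_singleton] at this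
      exact this
    omega
  obtain ⟨u, huA, hu⟩ := hex
  have hu4 : u ^ 4 = 1 := by
    have := pow_card_eq_one' (x := (⟨u, huA⟩ : A))
    rw [hA] at this
    exact congrArg Subtype.val this
  have hu2 : u * u = -1 := by
    have h5 : (u * u) * (u * u) = 1 := by
      rw [← pow_two, ← pow_two, ← pow_mul]
      exact hu4
    rcases sq_eq_one h2 _ h5 with h | h
    · exact absurd h hu
    · exact h
  refine ⟨u, hu2, ?_⟩
  symm
  haveI : Finite A := Nat.finite_of_card_ne_zero (by omega)
  apply Subgroup.eq_of_le_of_card_ge ((Subgroup.zpowers_le).mpr huA)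
  rw [hA, Nat.card_zpowers]
  have : orderOf u = 2 ^ (1 + 1) := by
    apply orderOf_eq_prime_pow
    · rw [pow_one, pow_two]; exact hu
    · exact hu4
  rw [this]
  norm_num

theorem conj_mem_zpowers (u h : SL(2, F)) (hu : u * u = -1) (hh : h ∈ ctil u) (x : SL(2, F))
    (hx : x ∈ Subgroup.zpowers u) : h * x * h⁻¹ ∈ Subgroup.zpowers u := by
  obtain ⟨k, rfl⟩ := hx
  have hui : u⁻¹ = -u := by
    apply inv_eq_of_mul_eq_one_right
    rw [mul_neg, hu, neg_neg]
  have h1 : h * u ^ k * h⁻¹ = (h * u * h⁻¹) ^ k := (conj_zpow).symm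
  show h * u ^ k * h⁻¹ ∈ _
  rw [h1]
  apply Subgroup.zpow_mem
  rcases (mem_ctil u h).mp hh with h3 | h3
  · rw [h3, mul_inv_cancel_right]
    exact Subgroup.mem_zpowers u
  · rw [h3, neg_mul, mul_inv_cancel_right, ← hui]
    exact Subgroup.inv_mem _ (Subgroup.mem_zpowers u)

theorem mem_zpowers_cases (u : SL(2, F)) (hu : u * u = -1) (x : SL(2, F))
    (hx : x ∈ Subgroup.zpowers u) : x = 1 ∨ x = u ∨ x = -1 ∨ x = -u := by
  rw [← mem_powers_iff_mem_zpowers] at hx
  obtain ⟨k, rfl⟩ := hx
  show u ^ k = 1 ∨ u ^ k = u ∨ u ^ k = -1 ∨ u ^ k = -u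
  induction k with
  | zero => left; simp
  | succ k ih =>
    rw [pow_succ]
    rcases ih with h | h | h | h <;> rw [h]
    · right; left; simp
    · right; right; left; exact hu
    · right; right; right; simp
    · left; rw [neg_mul, hu, neg_neg]

theorem normalizer_eq (h2 : (2 : F) ≠ 0) (u : SL(2, F)) (hu : u * u = -1) :
    Subgroup.normalizer ((Subgroup.zpowers u : Subgroup SL(2, F)) : Set SL(2, F)) = ctil u := by
  ext h
  constructor
  · intro hh
    have h1 := (Subgroup.mem_normalizer_iff.mp hh u).mp (Subgroup.mem_zpowers u)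
    apply (mem_ctil u h).mpr
    have hne : (-1 : SL(2, F)) ≠ 1 := (one_ne_neg_one h2).symm
    rcases mem_zpowers_cases u hu _ h1 with h3 | h3 | h3 | h3
    · exfalso
      have : u = 1 := by
        have : u = h⁻¹ * (h * u * h⁻¹) * h := by group
        rw [this, h3]; group
      rw [this, mul_one] at hu
      exact hne hu.symm
    · left
      have : h * u = (h * u * h⁻¹) * h := by group
      rw [this, h3]
    · exfalso
      have : u = -1 := by
        have : u = h⁻¹ * (h * u * h⁻¹) * h := by group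
        rw [this, h3, mul_neg, mul_one, neg_mul, inv_mul_cancel]
      rw [this, neg_mul_neg, mul_one] at hu
      exact hne hu.symm
    · right
      have : h * u = (h * u * h⁻¹) * h := by group
      rw [this, h3, neg_mul]
  · intro hh
    apply Subgroup.mem_normalizer_iff.mpr
    intro x
    constructor
    · exact conj_mem_zpowers u h hu hh x
    · intro hx
      have := conj_mem_zpowers u h⁻¹ hu (Subgroup.inv_mem _ hh) _ hx
      have h4 : h⁻¹ * (h * x * h⁻¹) * h⁻¹⁻¹ = x := by group
      rwa [h4] at this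

theorem card_ctil (hodd : Fintype.card F % 2 = 1) (u : SL(2, F))
    (ht : (u : Matrix (Fin 2) (Fin 2) F).trace = 0) :
    Nat.card (ctil u) = 2 * Nat.card (Subgroup.centralizer ({u} : Set SL(2, F))) := by
  have h1 := relIndex_ctil hodd u ht
  have h3 := Subgroup.card_mul_index ((Subgroup.centralizer ({u} : Set SL(2, F))).subgroupOf (ctil u))
  rw [Nat.card_congr (Subgroup.subgroupOfEquivOfLe (centralizer_le_ctil u)).toEquiv] at h3
  have h4 : ((Subgroup.centralizer ({u} : Set SL(2, F))).subgroupOf (ctil u)).index = 2 := h1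
  rw [h4] at h3
  omega

end

/-- In SL_2(q), q odd: any two subgroups of order 4 are conjugate, and the normaliser of a subgroup of order 4 has order 2(q − 1) if q ≡ 1 (mod 4) and 2(q + 1) if q ≡ 3 (mod 4); consequently all involutions of PSL_2(q) are conjugate. -/
theorem result {F : Type*} [Field F] [Fintype F] {q : ℕ} (hF : Fintype.card F = q) (hodd : Odd q) (A : Subgroup (Matrix.SpecialLinearGroup (Fin 2) F)) (hA : Nat.card A = 4) : (∀ B : Subgroup (Matrix.SpecialLinearGroup (Fin 2) F), Nat.card B = 4 → ∃ g : Matrix.SpecialLinearGroup (Fin 2) F, B = A.map (MulAut.conj g).toMonoidHom) ∧ (q % 4 = 1 → Nat.card ↥(Subgroup.normalizer (A : Set (Matrix.SpecialLinearGroup (Fin 2) F))) = 2 * (q - 1)) ∧ (q % 4 = 3 → Nat.card ↥(Subgroup.normalizer (A : Set (Matrix.SpecialLinearGroup (Fin 2) F))) = 2 * (q + 1)) ∧ (∀ x y : Matrix.ProjectiveSpecialLinearGroup (Fin 2) F, orderOf x = 2 → orderOf y = 2 → IsConj x y) := by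
  classical
  subst hF
  have hodd' : Fintype.card F % 2 = 1 := Nat.odd_iff.mp hodd
  have h2 : (2 : F) ≠ 0 := Cfsg.Agent.Lib.Helper14.SL2.two_ne_zero_of_odd hodd'
  obtain ⟨u, hu, rfl⟩ := exists_gen h2 A hA
  have htr : tr u = 0 := (sq_eq_neg_one_iff u).mp hu
  have htr' : (u : Matrix (Fin 2) (Fin 2) F).trace = 0 := by
    rw [Matrix.trace_fin_two]; exact htr
  refine ⟨?_, ?_, ?_, ?_⟩
  · intro B hB
    obtain ⟨v, hv, rfl⟩ := exists_gen h2 B hB
    obtain ⟨c, hc⟩ := isConj_iff.mp (isConj_of_tr_zero hodd' u v htr ((sq_eq_neg_one_iff v).mp hv))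
    refine ⟨c, ?_⟩
    rw [MonoidHom.map_zpowers]
    congr 1
    exact hc.symm
  · intro h1
    obtain ⟨i, hi⟩ := FiniteField.isSquare_neg_one_iff.mpr (by omega : Fintype.card F % 4 ≠ 3)
    rw [normalizer_eq h2 u hu, card_ctil hodd' u htr', card_centralizer_split u i]
    · rw [htr']
      linear_combination -hi
    · rw [pow_two, ← hi]
      intro h
      apply h2
      linear_combination -h
  · intro h3
    rw [normalizer_eq h2 u hu, card_ctil hodd' u htr',
      (centralizer_SL2_irred u (no_eigen_of_no_root u _)).2]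
    intro a ha
    rw [htr'] at ha
    exact FiniteField.isSquare_neg_one_iff.mp ⟨a, by linear_combination -ha⟩ h3
  · intro x y hx hy
    exact isConj_of_orderOf_two hodd' x y hx hy


end Cfsg.Agent.S0809
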