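import Cfsg.Statements.S0821
import Cfsg.Agent.Lib.Helper16.SpRank5
import Cfsg.Agent.Lib.Helper16.SpRank8

set_option autoImplicit false

open Cfsg

namespace Cfsg.Agent.S0821

open Cfsg.Agent.Lib.Helper16 Cfsg.Agent.Lib.Helper6

theorem result {F : Type*} [Field F] [Fintype F] (hodd : Odd (Fintype.card F)) (m : ℕ) (hm : 3 ≤ m) : IsEmpty (Cfsg.PSp m F ≃* Cfsg.POmega F (Cfsg.quadFormOdd m F)) := by
  have h2 : (2 : F) ≠ 0 := two_ne_zero_of_odd_card hodd
  rw [← qOdd_coe]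
  refine ⟨fun φ => ?_⟩
  obtain ⟨E, hE, hcard⟩ := SpRank.o_side h2 hm
  have hmk : Function.Injective
      (QuotientGroup.mk' (Subgroup.center ↥(commutator ↥(OG (qOdd m F))))) := by
    rw [← MonoidHom.ker_eq_bot_iff, QuotientGroup.ker_mk', SpRank.center_bot h2 hm]
  obtain ⟨ψ, hψ⟩ : ∃ ψ : ↥(commutator ↥(OG (qOdd m F))) →* Cfsg.PSp m F, Function.Injective ψ :=
    ⟨φ.symm.toMonoidHom.comp ((pOmegaEquiv (qOdd m F)).symm.toMonoidHom.comp
      (QuotientGroup.mk' (Subgroup.center ↥(commutator ↥(OG (qOdd m F)))))),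
      φ.symm.injective.comp ((pOmegaEquiv (qOdd m F)).symm.injective.comp hmk)⟩
  have hb := SpRank.sp_side hodd hm (E.map ψ) (by
    rintro _ ⟨e, he, rfl⟩
    rw [← map_mul, hE e he, map_one])
  rw [Subgroup.card_map_of_injective hψ] at hb
  have : 2 ^ (2 * m - 2) < 2 ^ (2 * m - 1) := Nat.pow_lt_pow_right (by norm_num) (by omega)
  omega

end Cfsg.Agent.S0821
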