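import Cfsg.Statements.S0823
import Mathlib
import Cfsg.Agent.Lib.Helper29.O3b
import Cfsg.Agent.Lib.Helper29.ProjLine
import Cfsg.Agent.S0266

set_option autoImplicit false
open Cfsg

namespace Cfsg.Agent.S0823

open Cfsg.Agent.Lib.Helper29.O3 Cfsg.Agent.Lib.Helper29.ProjLine

/-- SO_3(3) ≅ S_4: the determinant-one isometries of the form x_0² + x_1y_1 over the field with 3 elements form a group isomorphic to the symmetric group on 4 letters. -/
theorem result {F : Type*} [Field F] [Fintype F] (hF : Fintype.card F = 3) : Nonempty (↥(Cfsg.specialIsometryGroup F (Cfsg.quadFormOdd 1 F)) ≃* Equiv.Perm (Fin 4)) := by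
  classical
  have hodd : Odd (Fintype.card F) := by rw [hF]; decide
  -- `SO₃ = Φ(GL₂)`
  have hSO : Cfsg.specialIsometryGroup F (Cfsg.quadFormOdd 1 F) =
      (Phi : Matrix.GeneralLinearGroup (Fin 2) F →* _).range := by
    have hmem : ∀ x : Cfsg.isometryGroup F (Cfsg.quadFormOdd 1 F),
        x ∈ Cfsg.specialIsometryGroup F (Cfsg.quadFormOdd 1 F) ↔
          ((x : Matrix.GeneralLinearGroup J F) : Matrix J J F).det = 1 := by
      intro x
      show Matrix.GeneralLinearGroup.det (x : Matrix.GeneralLinearGroup J F) = 1 ↔ _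
      rw [Units.ext_iff]
      rfl
    apply le_antisymm
    · intro x hx
      rw [hmem] at hx
      obtain ⟨g, h | h⟩ := exists_pm hodd x
      · exact ⟨g, h.symm⟩
      · exfalso
        rw [h] at hx
        have h2 : (((negOne : Cfsg.isometryGroup F (Cfsg.quadFormOdd 1 F)) :
            Matrix.GeneralLinearGroup J F) : Matrix J J F).det *
            ((Phi g : Matrix.GeneralLinearGroup J F) : Matrix J J F).det = 1 := by
          rw [← Matrix.det_mul]; exact hx
        rw [det_negOne, det_Phi] at h2
        apply two_ne_zero' hodd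
        linear_combination -h2
    · rintro _ ⟨g, rfl⟩
      rw [hmem]
      exact det_Phi g
  have e1 : ↥(Cfsg.specialIsometryGroup F (Cfsg.quadFormOdd 1 F)) ≃*
      ↥(Phi : Matrix.GeneralLinearGroup (Fin 2) F →* _).range := MulEquiv.subgroupCongr hSO
  have e2 : Matrix.GeneralLinearGroup (Fin 2) F ⧸ (Phi : Matrix.GeneralLinearGroup (Fin 2) F →* _).ker
      ≃* ↥(Phi : Matrix.GeneralLinearGroup (Fin 2) F →* _).range :=
    QuotientGroup.quotientKerEquivRange Phi
  have e3 : Matrix.GeneralLinearGroup (Fin 2) F ⧸ (Phi : Matrix.GeneralLinearGroup (Fin 2) F →* _).ker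
      ≃* Matrix.ProjGenLinGroup (Fin 2) F :=
    QuotientGroup.quotientMulEquivOfEq Phi_ker
  have hcardP : Nat.card (Matrix.ProjGenLinGroup (Fin 2) F) = 24 := by
    rw [← Nat.card_congr e3.toEquiv, Nat.card_congr e2.toEquiv, card_range, hF]
    rfl
  have hcardL : Nat.card (Projectivization F (Fin 2 → F)) = 4 := by
    have h2 : Module.finrank F (Fin 2 → F) = 2 := by simp
    rw [Projectivization.card_of_finrank_two F (Fin 2 → F) h2, Nat.card_eq_fintype_card, hF]
  haveI : Finite (Projectivization F (Fin 2 → F)) := Nat.finite_of_card_ne_zero (by rw [hcardL]; decide)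
  haveI : Finite (Matrix.ProjGenLinGroup (Fin 2) F) := Nat.finite_of_card_ne_zero (by rw [hcardP]; decide)
  have hinj : Function.Injective
      (MulAction.toPermHom (Matrix.ProjGenLinGroup (Fin 2) F) (Projectivization F (Fin 2 → F))) := by
    rw [injective_iff_map_eq_one]
    intro g hg
    have hfix : ∀ x : Projectivization F (Fin 2 → F), g • x = x := fun x => by
      have := congrArg (fun σ : Equiv.Perm (Projectivization F (Fin 2 → F)) => σ x) hg
      exact this
    exact Cfsg.Agent.S0266.result.2 g P0 P1 (Pn 1) P0_ne_P1 (P0_ne_Pn one_ne_zero) (P1_ne_Pn 1)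
      (hfix _) (hfix _) (hfix _)
  have e5 : Equiv.Perm (Projectivization F (Fin 2 → F)) ≃* Equiv.Perm (Fin 4) :=
    (Finite.equivFinOfCardEq hcardL).permCongrHom
  have hcardS : Nat.card (Equiv.Perm (Projectivization F (Fin 2 → F))) = 24 := by
    rw [Nat.card_congr e5.toEquiv, Nat.card_eq_fintype_card, Fintype.card_perm, Fintype.card_fin]
    rfl
  have hbij : Function.Bijective
      (MulAction.toPermHom (Matrix.ProjGenLinGroup (Fin 2) F) (Projectivization F (Fin 2 → F))) :=
    (Nat.bijective_iff_injective_and_card _).2 ⟨hinj, by rw [hcardP, hcardS]⟩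
  exact ⟨e1.trans (e2.symm.trans (e3.trans ((MulEquiv.ofBijective _ hbij).trans e5)))⟩

end Cfsg.Agent.S0823
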