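import Cfsg.Statements.S0824
import Cfsg.Agent.Lib.Helper12.Heart
import Cfsg.Agent.Lib.Helper12.QuadRep
import Cfsg.Agent.S0288

set_option autoImplicit false
open Cfsg

namespace Cfsg.Agent.S0824

open Matrix Cfsg.Agent.Lib.Helper12

/-- the sum-zero hyperplane. -/
def szSub (F : Type*) [Field F] (ι : Type*) [Fintype ι] : Submodule F (ι → F) where
  carrier := {x | ∑ i, x i = 0}
  add_mem' := by
    intro a b ha hb
    show ∑ i, (a + b) i = 0
    simp only [Pi.add_apply, Finset.sum_add_distrib]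
    rw [show ∑ i, a i = 0 from ha, show ∑ i, b i = 0 from hb, add_zero]
  zero_mem' := by show ∑ i, (0 : ι → F) i = 0; simp
  smul_mem' := by
    intro c a ha
    show ∑ i, (c • a) i = 0
    simp only [Pi.smul_apply, smul_eq_mul, ← Finset.mul_sum]
    rw [show ∑ i, a i = 0 from ha, mul_zero]

/-- the permutation representation on the sum-zero hyperplane. -/
def szRep (F : Type*) [Field F] (ι : Type*) [Fintype ι] :
    Equiv.Perm ι →* Module.End F (szSub F ι) where
  toFun σ := (LinearMap.funLeft F F (σ⁻¹ : Equiv.Perm ι)).restrict (by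
    intro x hx
    show ∑ i, x (σ⁻¹ i) = 0
    rw [Equiv.sum_comp σ⁻¹ x]
    exact hx)
  map_one' := by
    apply LinearMap.ext
    intro x
    apply Subtype.ext
    funext i
    rfl
  map_mul' σ τ := by
    apply LinearMap.ext
    intro x
    apply Subtype.ext
    funext i
    show (x : ι → F) ((σ * τ)⁻¹ i) = (x : ι → F) (τ⁻¹ (σ⁻¹ i))
    simp only [_root_.mul_inv_rev, Equiv.Perm.mul_apply]

theorem szRep_apply {F : Type*} [Field F] {ι : Type*} [Fintype ι] (σ : Equiv.Perm ι)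
    (x : szSub F ι) (i : ι) : (szRep F ι σ x : ι → F) i = (x : ι → F) (σ⁻¹ i) := rfl

theorem szRep_injective (F : Type*) [Field F] (ι : Type*) [Fintype ι] [DecidableEq ι]
    (h3 : 3 ≤ Fintype.card ι) : Function.Injective (szRep F ι) := by
  rw [injective_iff_map_eq_one]
  intro σ hσ
  have hstar : ∀ x ∈ szSub F ι, ∀ i, x (σ⁻¹ i) = x i := by
    intro x hx i
    have := congrArg (fun T : Module.End F (szSub F ι) => ((T ⟨x, hx⟩ : szSub F ι) : ι → F) i) hσ
    exact this
  have hτ : ∀ τ : Equiv.Perm ι, (∀ x ∈ szSub F ι, ∀ i, x (τ i) = x i) → τ = 1 := by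
    intro τ hτ
    by_contra hne
    obtain ⟨i, hi⟩ : ∃ i, τ i ≠ i := by
      by_contra hc
      push Not at hc
      exact hne (Equiv.ext hc)
    obtain ⟨c, hc⟩ := exists_fresh [i, τ i] (by simp; omega)
    simp only [List.mem_cons, List.not_mem_nil, or_false, not_or] at hc
    have hmem : (Pi.single i 1 - Pi.single c 1 : ι → F) ∈ szSub F ι := by
      show ∑ j, (Pi.single i 1 - Pi.single c 1 : ι → F) j = 0
      simp [Finset.sum_sub_distrib]
    have h1 := hτ _ hmem i
    simp [Pi.single_apply, hi, Ne.symm hc.1, Ne.symm hc.2] at h1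
  have := hτ σ⁻¹ hstar
  rw [← inv_inv σ, this, inv_one]

theorem sz_finrank (F : Type*) [Field F] (ι : Type*) [Fintype ι] [DecidableEq ι] (i₀ : ι) :
    Module.finrank F (szSub F ι) + 1 = Fintype.card ι := by
  let L : (ι → F) →ₗ[F] F :=
    { toFun := fun x => ∑ i, x i
      map_add' := by intro x y; simp [Finset.sum_add_distrib]
      map_smul' := by intro c x; simp [Finset.mul_sum] }
  have hker : LinearMap.ker L = szSub F ι := by
    ext x
    rw [LinearMap.mem_ker]
    rfl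
  have hrange : LinearMap.range L = ⊤ := by
    rw [LinearMap.range_eq_top]
    intro a
    refine ⟨Pi.single i₀ a, ?_⟩
    show ∑ i, (Pi.single i₀ a : ι → F) i = a
    simp
  have h1 := LinearMap.finrank_range_add_finrank_ker L
  rw [hker, hrange, finrank_top, Module.finrank_self, Module.finrank_fintype_fun_eq_card] at h1
  omega

theorem e2_five {R : Type*} [CommRing R] (x : Fin 5 → R) :
    e2 x = x 0 * x 1 + x 0 * x 2 + x 0 * x 3 + x 0 * x 4 + x 1 * x 2 + x 1 * x 3 + x 1 * x 4 + x 2 * x 3 + x 2 * x 4 + x 3 * x 4 := by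
  simp only [e2, Fin.sum_univ_five]
  simp
  ring

/-- a standard basis of the sum-zero hyperplane. -/
def L5 (F : Type*) [Field F] : ((Fin 1 ⊕ Fin 1) ⊕ Fin 2 → F) →ₗ[F] (Fin 5 → F) where
  toFun x := ![x (Sum.inl (Sum.inl 0)) + x (Sum.inl (Sum.inr 0)) + x (Sum.inr 0), x (Sum.inl (Sum.inl 0)) + x (Sum.inl (Sum.inr 0)) + x (Sum.inr 0) + x (Sum.inr 1), x (Sum.inl (Sum.inl 0)) + x (Sum.inl (Sum.inr 0)) + x (Sum.inr 1), x (Sum.inl (Sum.inl 0)), x (Sum.inl (Sum.inr 0))]
  map_add' x y := by ext i; fin_cases i <;> simp <;> ring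
  map_smul' c x := by ext i; fin_cases i <;> simp <;> ring

theorem L5_apply {F : Type*} [Field F] (x : (Fin 1 ⊕ Fin 1) ⊕ Fin 2 → F) :
    L5 F x = ![x (Sum.inl (Sum.inl 0)) + x (Sum.inl (Sum.inr 0)) + x (Sum.inr 0), x (Sum.inl (Sum.inl 0)) + x (Sum.inl (Sum.inr 0)) + x (Sum.inr 0) + x (Sum.inr 1), x (Sum.inl (Sum.inl 0)) + x (Sum.inl (Sum.inr 0)) + x (Sum.inr 1), x (Sum.inl (Sum.inl 0)), x (Sum.inl (Sum.inr 0))] := rfl

/-- O⁻_4(2) ≅ S_5: the isometry group of the form x y + z_1² + z_1 z_2 + z_2² over the field with 2 elements is isomorphic to the symmetric group on 5 letters. -/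
theorem result {F : Type*} [Field F] [Fintype F] (hF : Fintype.card F = 2) : Nonempty (↥(Cfsg.isometryGroup F (Cfsg.quadFormMinus 1 F 1 1)) ≃* Equiv.Perm (Fin 5)) := by
  have h2 : (2 : F) = 0 := by
    have := Nat.cast_card_eq_zero F
    rw [hF] at this
    exact_mod_cast this
  have hmem : ∀ x, L5 F x ∈ szSub F (Fin 5) := by
    intro x
    show ∑ i, L5 F x i = 0
    rw [L5_apply, Fin.sum_univ_five]
    simp
    linear_combination ((2) * x (Sum.inl (Sum.inl 0)) + (2) * x (Sum.inl (Sum.inr 0)) + (1) * x (Sum.inr 0) + (1) * x (Sum.inr 1)) * h2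
  let Lc : ((Fin 1 ⊕ Fin 1) ⊕ Fin 2 → F) →ₗ[F] szSub F (Fin 5) := (L5 F).codRestrict _ hmem
  have hinj : Function.Injective Lc := by
    rw [injective_iff_map_eq_zero]
    intro x hx
    have hx' : L5 F x = 0 := congrArg Subtype.val hx
    rw [L5_apply] at hx'
    have e0 := congrFun hx' 0
    have e2' := congrFun hx' 2
    have e3 := congrFun hx' 3
    have e4 := congrFun hx' 4
    simp at e0 e2' e3 e4
    funext i
    rcases i with (i | i) | i
    · fin_cases i
      exact e3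
    · fin_cases i
      exact e4
    · fin_cases i
      · show x (Sum.inr 0) = 0
        linear_combination e0 - e3 - e4
      · show x (Sum.inr 1) = 0
        linear_combination e2' - e3 - e4
  have hfr : Module.finrank F ((Fin 1 ⊕ Fin 1) ⊕ Fin 2 → F) = Module.finrank F (szSub F (Fin 5)) := by
    have h1 := sz_finrank F (Fin 5) 0
    rw [Fintype.card_fin] at h1
    rw [Module.finrank_fintype_fun_eq_card]
    simp only [Fintype.card_sum, Fintype.card_fin]
    omega
  have hsurj : Function.Surjective Lc :=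
    (LinearMap.injective_iff_surjective_of_finrank_eq_finrank hfr).1 hinj
  let ψ : ((Fin 1 ⊕ Fin 1) ⊕ Fin 2 → F) ≃ₗ[F] szSub F (Fin 5) := LinearEquiv.ofBijective Lc ⟨hinj, hsurj⟩
  let Qv : szSub F (Fin 5) → F := fun v => e2 (v : Fin 5 → F)
  have hψ : ∀ x, Qv (ψ x) = Cfsg.quadFormMinus 1 F 1 1 x := by
    intro x
    show e2 (L5 F x) = _
    rw [e2_five, L5_apply, Cfsg.quadFormMinus, Fin.sum_univ_one]
    simp
    linear_combination ((3) * x (Sum.inl (Sum.inl 0)) * x (Sum.inl (Sum.inl 0)) + (6) * x (Sum.inl (Sum.inl 0)) * x (Sum.inl (Sum.inr 0)) + (3) * x (Sum.inl (Sum.inl 0)) * x (Sum.inr 0) + (3) * x (Sum.inl (Sum.inl 0)) * x (Sum.inr 1) + (3) * x (Sum.inl (Sum.inr 0)) * x (Sum.inl (Sum.inr 0)) + (3) * x (Sum.inl (Sum.inr 0)) * x (Sum.inr 0) + (3) * x (Sum.inl (Sum.inr 0)) * x (Sum.inr 1) + (1) * x (Sum.inr 0) * x (Sum.inr 1)) * h2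
  have hQ : ∀ σ v, Qv (szRep F (Fin 5) σ v) = Qv v := by
    intro σ v
    show e2 ((szRep F (Fin 5) σ v : szSub F (Fin 5)) : Fin 5 → F) = e2 (v : Fin 5 → F)
    rw [← e2_perm (v : Fin 5 → F) σ⁻¹]
    rfl
  obtain ⟨f, hf⟩ := exists_hom_iso_of_rep ψ Qv _ hψ (szRep F (Fin 5))
    (szRep_injective F (Fin 5) (by rw [Fintype.card_fin]; omega)) hQ
  have h01 : ∀ a : F, a = 0 ∨ a = 1 := by
    intro a
    have h1 := FiniteField.pow_card a
    rw [hF] at h1
    have h3 : a * (a - 1) = 0 := by linear_combination h1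
    rcases mul_eq_zero.1 h3 with h | h
    · exact Or.inl h
    · exact Or.inr (sub_eq_zero.1 h)
  have hab : ∀ z₁ z₂ : F, z₁ ^ 2 + 1 * z₁ * z₂ + 1 * z₂ ^ 2 = 0 → z₁ = 0 ∧ z₂ = 0 := by
    intro z₁ z₂ h
    rcases h01 z₁ with rfl | rfl <;> rcases h01 z₂ with rfl | rfl
    · exact ⟨rfl, rfl⟩
    · simp at h
    · simp at h
    · exfalso
      have : (1 : F) = 0 := by linear_combination h - h2
      exact one_ne_zero this
  have hcard : Nat.card (Equiv.Perm (Fin 5)) = Nat.card (Cfsg.isometryGroup F (Cfsg.quadFormMinus 1 F 1 1)) := by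
    have h1 := Cfsg.Agent.S0288.result hF 2 (by norm_num) 1 1 hab
    have h3 : Nat.card (Cfsg.isometryGroup F (Cfsg.quadFormMinus 1 F 1 1)) = 120 := by
      rw [show (1 : ℕ) = 2 - 1 from rfl, h1]
      simp [Finset.prod_range_succ]
    rw [h3, Nat.card_eq_fintype_card, Fintype.card_perm, Fintype.card_fin]
    rfl
  have hbij : Function.Bijective f := (Nat.bijective_iff_injective_and_card f).2 ⟨hf, hcard⟩
  exact ⟨(MulEquiv.ofBijective f hbij).symm⟩


end Cfsg.Agent.S0824
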