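import Cfsg.Statements.S0825
import Cfsg.Agent.Lib.Helper12.Heart
import Cfsg.Agent.Lib.Helper12.QuadRep
import Cfsg.Agent.S0287

set_option autoImplicit false
open Cfsg

namespace Cfsg.Agent.S0825

open Matrix Cfsg.Agent.Lib.Helper12

theorem e2_eight {R : Type*} [CommRing R] (x : Fin 8 → R) :
    e2 x = x 0 * x 1 + x 0 * x 2 + x 0 * x 3 + x 0 * x 4 + x 0 * x 5 + x 0 * x 6 + x 0 * x 7 + x 1 * x 2 + x 1 * x 3 + x 1 * x 4 + x 1 * x 5 + x 1 * x 6 + x 1 * x 7 + x 2 * x 3 + x 2 * x 4 + x 2 * x 5 + x 2 * x 6 + x 2 * x 7 + x 3 * x 4 + x 3 * x 5 + x 3 * x 6 + x 3 * x 7 + x 4 * x 5 + x 4 * x 6 + x 4 * x 7 + x 5 * x 6 + x 5 * x 7 + x 6 * x 7 := by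
  simp only [e2, Fin.sum_univ_eight]
  simp
  ring

/-- a hyperbolic basis of the heart. -/
def L8 (F : Type*) [Field F] : (Fin 3 ⊕ Fin 3 → F) →ₗ[F] (Fin 8 → F) where
  toFun x := ![0, x (Sum.inl 0) + x (Sum.inr 0), x (Sum.inl 0) + x (Sum.inl 1) + x (Sum.inl 2) + x (Sum.inr 2), x (Sum.inl 0) + x (Sum.inl 1) + x (Sum.inr 1), x (Sum.inl 0) + x (Sum.inl 2) + x (Sum.inr 1) + x (Sum.inr 2), x (Sum.inl 1) + x (Sum.inl 2) + x (Sum.inr 0) + x (Sum.inr 1), x (Sum.inl 1) + x (Sum.inr 0) + x (Sum.inr 1) + x (Sum.inr 2), x (Sum.inl 2) + x (Sum.inr 0) + x (Sum.inr 2)]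
  map_add' x y := by ext i; fin_cases i <;> simp <;> ring
  map_smul' c x := by ext i; fin_cases i <;> simp <;> ring

theorem L8_apply {F : Type*} [Field F] (x : Fin 3 ⊕ Fin 3 → F) :
    L8 F x = ![0, x (Sum.inl 0) + x (Sum.inr 0), x (Sum.inl 0) + x (Sum.inl 1) + x (Sum.inl 2) + x (Sum.inr 2), x (Sum.inl 0) + x (Sum.inl 1) + x (Sum.inr 1), x (Sum.inl 0) + x (Sum.inl 2) + x (Sum.inr 1) + x (Sum.inr 2), x (Sum.inl 1) + x (Sum.inl 2) + x (Sum.inr 0) + x (Sum.inr 1), x (Sum.inl 1) + x (Sum.inr 0) + x (Sum.inr 1) + x (Sum.inr 2), x (Sum.inl 2) + x (Sum.inr 0) + x (Sum.inr 2)] := rfl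

/-- O⁺_6(2) ≅ S_8: the isometry group of the hyperbolic form x_1y_1 + x_2y_2 + x_3y_3 over the field with 2 elements is isomorphic to the symmetric group on 8 letters. -/
theorem result {F : Type*} [Field F] [Fintype F] (hF : Fintype.card F = 2) : Nonempty (↥(Cfsg.isometryGroup F (Cfsg.quadFormPlus 3 F)) ≃* Equiv.Perm (Fin 8)) := by
  have h2 : (2 : F) = 0 := by
    have := Nat.cast_card_eq_zero F
    rw [hF] at this
    exact_mod_cast this
  have : CharP F 2 := CharTwo.of_one_ne_zero_of_two_eq_zero one_ne_zero h2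
  have hN : ((Fintype.card (Fin 8) : ℕ) : F) = 0 := by
    rw [Fintype.card_fin]
    push_cast
    linear_combination 4 * h2
  have hmem : ∀ x, L8 F x ∈ heartSub F (0 : Fin 8) := by
    intro x
    refine ⟨?_, ?_⟩
    · rw [L8_apply, Fin.sum_univ_eight]
      simp
      linear_combination ((2) * x (Sum.inl 0) + (2) * x (Sum.inl 1) + (2) * x (Sum.inl 2) + (2) * x (Sum.inr 0) + (2) * x (Sum.inr 1) + (2) * x (Sum.inr 2)) * h2
    · rw [L8_apply]; rfl
  let Lc : (Fin 3 ⊕ Fin 3 → F) →ₗ[F] heartSub F (0 : Fin 8) := (L8 F).codRestrict _ hmem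
  have hinj : Function.Injective Lc := by
    rw [injective_iff_map_eq_zero]
    intro x hx
    have hx' : L8 F x = 0 := congrArg Subtype.val hx
    rw [L8_apply] at hx'
    have e1 := congrFun hx' 1
    have e2' := congrFun hx' 2
    have e3 := congrFun hx' 3
    have e4 := congrFun hx' 4
    have e5 := congrFun hx' 5
    have e6 := congrFun hx' 6
    have e7 := congrFun hx' 7
    simp at e1 e2' e3 e4 e5 e6 e7
    funext i
    rcases i with i | i
    · fin_cases i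
      · show x (Sum.inl 0) = 0
        linear_combination e1 + e5 + e6 + e7 - ((1) * x (Sum.inl 1) + (1) * x (Sum.inl 2) + (2) * x (Sum.inr 0) + (1) * x (Sum.inr 1) + (1) * x (Sum.inr 2)) * h2
      · show x (Sum.inl 1) = 0
        linear_combination e3 + e4 + e5 + e6 - ((1) * x (Sum.inl 0) + (1) * x (Sum.inl 1) + (1) * x (Sum.inl 2) + (1) * x (Sum.inr 0) + (2) * x (Sum.inr 1) + (1) * x (Sum.inr 2)) * h2
      · show x (Sum.inl 2) = 0
        linear_combination e2' + e4 + e6 + e7 - ((1) * x (Sum.inl 0) + (1) * x (Sum.inl 1) + (1) * x (Sum.inl 2) + (1) * x (Sum.inr 0) + (1) * x (Sum.inr 1) + (2) * x (Sum.inr 2)) * h2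
    · fin_cases i
      · show x (Sum.inr 0) = 0
        linear_combination e1 + e2' + e3 + e4 - ((2) * x (Sum.inl 0) + (1) * x (Sum.inl 1) + (1) * x (Sum.inl 2) + (1) * x (Sum.inr 1) + (1) * x (Sum.inr 2)) * h2
      · show x (Sum.inr 1) = 0
        linear_combination e2' + e3 + e5 + e6 - ((1) * x (Sum.inl 0) + (2) * x (Sum.inl 1) + (1) * x (Sum.inl 2) + (1) * x (Sum.inr 0) + (1) * x (Sum.inr 1) + (1) * x (Sum.inr 2)) * h2
      · show x (Sum.inr 2) = 0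
        linear_combination e2' + e4 + e5 + e7 - ((1) * x (Sum.inl 0) + (1) * x (Sum.inl 1) + (2) * x (Sum.inl 2) + (1) * x (Sum.inr 0) + (1) * x (Sum.inr 1) + (1) * x (Sum.inr 2)) * h2
  have hfr : Module.finrank F (Fin 3 ⊕ Fin 3 → F) = Module.finrank F (heartSub F (0 : Fin 8)) := by
    have h1 := heart_finrank (F := F) (0 : Fin 8) 1 (by decide)
    rw [Fintype.card_fin] at h1
    rw [Module.finrank_fintype_fun_eq_card]
    simp only [Fintype.card_sum, Fintype.card_fin]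
    omega
  have hsurj : Function.Surjective Lc :=
    (LinearMap.injective_iff_surjective_of_finrank_eq_finrank hfr).1 hinj
  let ψ : (Fin 3 ⊕ Fin 3 → F) ≃ₗ[F] heartSub F (0 : Fin 8) := LinearEquiv.ofBijective Lc ⟨hinj, hsurj⟩
  let Qv : heartSub F (0 : Fin 8) → F := fun v => e2 (v : Fin 8 → F)
  have hψ : ∀ x, Qv (ψ x) = Cfsg.quadFormPlus 3 F x := by
    intro x
    show e2 (L8 F x) = _
    rw [e2_eight, L8_apply, Cfsg.quadFormPlus, Fin.sum_univ_three]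
    simp
    linear_combination ((3) * x (Sum.inl 0) * x (Sum.inl 0) + (7) * x (Sum.inl 0) * x (Sum.inl 1) + (7) * x (Sum.inl 0) * x (Sum.inl 2) + (7) * x (Sum.inl 0) * x (Sum.inr 0) + (7) * x (Sum.inl 0) * x (Sum.inr 1) + (7) * x (Sum.inl 0) * x (Sum.inr 2) + (3) * x (Sum.inl 1) * x (Sum.inl 1) + (7) * x (Sum.inl 1) * x (Sum.inl 2) + (7) * x (Sum.inl 1) * x (Sum.inr 0) + (6) * x (Sum.inl 1) * x (Sum.inr 1) + (7) * x (Sum.inl 1) * x (Sum.inr 2) + (3) * x (Sum.inl 2) * x (Sum.inl 2) + (7) * x (Sum.inl 2) * x (Sum.inr 0) + (7) * x (Sum.inl 2) * x (Sum.inr 1) + (6) * x (Sum.inl 2) * x (Sum.inr 2) + (3) * x (Sum.inr 0) * x (Sum.inr 0) + (7) * x (Sum.inr 0) * x (Sum.inr 1) + (7) * x (Sum.inr 0) * x (Sum.inr 2) + (3) * x (Sum.inr 1) * x (Sum.inr 1) + (7) * x (Sum.inr 1) * x (Sum.inr 2) + (3) * x (Sum.inr 2) * x (Sum.inr 2)) * h2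
  have hQ : ∀ σ v, Qv (heartRep hN (0 : Fin 8) σ v) = Qv v := by
    intro σ v
    show e2 ((heartRep hN (0 : Fin 8) σ v : heartSub F (0 : Fin 8)) : Fin 8 → F) = e2 (v : Fin 8 → F)
    rw [← e2_perm (v : Fin 8 → F) σ⁻¹]
    have h1 : ((heartRep hN (0 : Fin 8) σ v : heartSub F (0 : Fin 8)) : Fin 8 → F)
        = fun i => (v : Fin 8 → F) (σ⁻¹ i) - (v : Fin 8 → F) (σ⁻¹ 0) := by
      funext i; exact heartRep_apply hN 0 σ v i
    rw [h1]
    have hs : ∑ i, (v : Fin 8 → F) (σ⁻¹ i) = 0 := by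
      rw [Equiv.sum_comp σ⁻¹ (v : Fin 8 → F)]; exact v.2.1
    rw [Fin.sum_univ_eight] at hs
    rw [e2_eight, e2_eight]
    linear_combination (-7 * (v : Fin 8 → F) (σ⁻¹ 0)) * hs + (14 * ((v : Fin 8 → F) (σ⁻¹ 0)) ^ 2) * h2
  obtain ⟨f, hf⟩ := exists_hom_iso_of_rep ψ Qv _ hψ (heartRep hN (0 : Fin 8))
    (heartRep_injective hN 0 (by rw [Fintype.card_fin]; omega)) hQ
  have hcard : Nat.card (Equiv.Perm (Fin 8)) = Nat.card (Cfsg.isometryGroup F (Cfsg.quadFormPlus 3 F)) := by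
    rw [Cfsg.Agent.S0287.result hF 3 (by norm_num), Nat.card_eq_fintype_card, Fintype.card_perm,
      Fintype.card_fin]
    simp [Finset.prod_range_succ, Nat.factorial]
  have hbij : Function.Bijective f := (Nat.bijective_iff_injective_and_card f).2 ⟨hf, hcard⟩
  exact ⟨(MulEquiv.ofBijective f hbij).symm⟩


end Cfsg.Agent.S0825
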