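import Cfsg.Statements.S0828
import Cfsg.Agent.Lib.Helper12.Frames2
import Cfsg.Agent.Lib.Helper12.SpCard

set_option autoImplicit false
open Cfsg

namespace Cfsg.Agent.S0828

open Matrix Cfsg Cfsg.Agent.Lib.Helper6 Cfsg.Agent.Lib.Helper12

theorem card_symp_eq {F : Type*} [Field F] [Fintype F] (m : ℕ) (u : Fin m ⊕ Fin m → F) (hu : u ≠ 0)
    (c : F) :
    Fintype.card F * Nat.card {v : Fin m ⊕ Fin m → F // sympForm m F u v = c}
      = Fintype.card F ^ (2 * m) := by
  obtain ⟨v0, hv0⟩ := exists_sympForm_eq_one m u hu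
  rw [← card_symp_eq_one m u hu]
  congr 1
  refine Nat.card_congr ⟨fun v => ⟨v.1 + (1 - c) • v0, ?_⟩, fun v => ⟨v.1 - (1 - c) • v0, ?_⟩,
    ?_, ?_⟩
  · rw [sympForm_add_right, sympForm_smul_right, hv0, v.2]; ring
  · rw [sympForm_sub_right, sympForm_smul_right, hv0, v.2]; ring
  · intro v; ext1; simp
  · intro v; ext1; simp

theorem ti_span_pair_symp {F : Type*} [Field F] (m : ℕ) (u v : Fin m ⊕ Fin m → F) :
    (∀ x ∈ Submodule.span F {u, v}, ∀ y ∈ Submodule.span F {u, v}, sympForm m F x y = 0) ↔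
      sympForm m F u v = 0 := by
  constructor
  · intro h
    exact h u (Submodule.subset_span (by simp)) v (Submodule.subset_span (by simp))
  · intro h1 x hx y hy
    have h2 : sympForm m F v u = 0 := by rw [sympForm_swap, h1, neg_zero]
    obtain ⟨a, b, rfl⟩ := Submodule.mem_span_pair.mp hx
    obtain ⟨c, d, rfl⟩ := Submodule.mem_span_pair.mp hy
    rw [sympForm_add_left, sympForm_add_right, sympForm_add_right]
    simp only [sympForm_smul_left, sympForm_smul_right, sympForm_self, h1, h2]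
    ring

theorem card_perp_not_span {F : Type*} [Field F] [Fintype F] {q : ℕ} (hF : Fintype.card F = q)
    (u : Fin 2 ⊕ Fin 2 → F) (hu : u ≠ 0) :
    Nat.card {v : Fin 2 ⊕ Fin 2 → F // LinearIndependent F ![u, v] ∧
      ∀ x ∈ Submodule.span F {u, v}, ∀ y ∈ Submodule.span F {u, v}, sympForm 2 F x y = 0}
      = q ^ 3 - q := by
  have hq : 0 < q := by rw [← hF]; exact Fintype.card_pos
  have hD : Nat.card {v : Fin 2 ⊕ Fin 2 → F // sympForm 2 F u v = 0} = q ^ 3 := by
    have := card_symp_eq 2 u hu 0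
    rw [hF] at this
    apply Nat.eq_of_mul_eq_mul_left hq
    rw [this]; ring
  have hE : Nat.card {v : Fin 2 ⊕ Fin 2 → F // ∃ a : F, a • u = v} = q := by
    have : Function.Injective (fun a : F => a • u) := smul_left_injective F hu
    have h1 := Nat.card_range_of_injective this
    rw [Nat.card_eq_fintype_card (α := F), hF] at h1
    exact h1
  rw [← hD, ← hE, ← card_and_not]
  · refine Nat.card_congr (Equiv.subtypeEquivRight fun v => ?_)
    rw [ti_span_pair_symp, LinearIndependent.pair_iff' hu]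
    constructor
    · rintro ⟨h1, h2⟩
      exact ⟨h2, fun ⟨a, ha⟩ => h1 a ha⟩
    · rintro ⟨h2, h1⟩
      exact ⟨fun a ha => h1 ⟨a, ha⟩, h2⟩
  · rintro v ⟨a, rfl⟩
    rw [sympForm_smul_right, sympForm_self, mul_zero]

/-- The symplectic generalised quadrangle over a field with q elements: the number of 2-dimensional subspaces of F^4 on which the symplectic form vanishes is (q + 1)(q² + 1), and every non-zero vector lies in exactly q + 1 of them. -/
theorem result {F : Type*} [Field F] [Fintype F] {q : ℕ} (hF : Fintype.card F = q) : Nat.card {W : Submodule F (Fin 2 ⊕ Fin 2 → F) // Module.finrank F W = 2 ∧ ∀ u ∈ W, ∀ v ∈ W, Cfsg.sympForm 2 F u v = 0} = (q + 1) * (q ^ 2 + 1) ∧ ∀ v : Fin 2 ⊕ Fin 2 → F, v ≠ 0 → Nat.card {W : Submodule F (Fin 2 ⊕ Fin 2 → F) // Module.finrank F W = 2 ∧ v ∈ W ∧ ∀ u ∈ W, ∀ w ∈ W, Cfsg.sympForm 2 F u w = 0} = q + 1 := by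
  classical
  have hq : 2 ≤ q := by rw [← hF]; exact Fintype.one_lt_card
  have h13 : q ≤ q ^ 3 := Nat.le_self_pow (by omega) _
  have h12 : q ≤ q ^ 2 := Nat.le_self_pow (by omega) _
  have h1q : 1 ≤ q ^ 2 := Nat.one_le_pow _ _ (by omega)
  have h14 : 1 ≤ q ^ 4 := Nat.one_le_pow _ _ (by omega)
  have hlt : q < q ^ 2 := by nlinarith
  constructor
  · have h := card_frames_two (K := F) (V := Fin 2 ⊕ Fin 2 → F)
      (fun W => ∀ u ∈ W, ∀ v ∈ W, sympForm 2 F u v = 0)
    rw [hF, card_prod_subtype (fun u v : Fin 2 ⊕ Fin 2 → F => LinearIndependent F ![u, v] ∧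
      ∀ x ∈ Submodule.span F {u, v}, ∀ y ∈ Submodule.span F {u, v}, sympForm 2 F x y = 0)] at h
    have hterm : ∀ u : Fin 2 ⊕ Fin 2 → F, Nat.card {v : Fin 2 ⊕ Fin 2 → F //
        LinearIndependent F ![u, v] ∧
        ∀ x ∈ Submodule.span F {u, v}, ∀ y ∈ Submodule.span F {u, v}, sympForm 2 F x y = 0}
        = if u = 0 then 0 else q ^ 3 - q := by
      intro u
      split_ifs with hu
      · rw [Nat.card_eq_zero]
        left
        refine ⟨fun v => ?_⟩
        have := v.2.1.ne_zero 0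
        exact this (by simpa using hu)
      · exact card_perp_not_span hF u hu
    rw [Finset.sum_congr rfl fun u _ => hterm u, sum_ite_const', mul_zero, zero_add] at h
    have hc : Fintype.card (Fin 2 ⊕ Fin 2 → F) - Nat.card {x : Fin 2 ⊕ Fin 2 → F // x = 0}
        = q ^ 4 - 1 := by
      simp [hF]
    rw [hc] at h
    have hpos : 0 < (q ^ 2 - 1) * (q ^ 2 - q) := by
      apply Nat.mul_pos <;> omega
    apply Nat.eq_of_mul_eq_mul_right hpos
    rw [← h]
    zify [h13, h12, h1q, h14]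
    ring
  · intro v hv
    have h := card_frames_through (K := F) v hv
      (fun W => ∀ u ∈ W, ∀ w ∈ W, sympForm 2 F u w = 0)
    rw [card_perp_not_span hF v hv, hF] at h
    have hpos : 0 < q ^ 2 - q := by omega
    apply Nat.eq_of_mul_eq_mul_right hpos
    rw [← h]
    zify [h13, h12]
    ring


end Cfsg.Agent.S0828
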