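import Cfsg.Statements.S0829
import Cfsg.Agent.Lib.Helper12.UnitaryIso

set_option autoImplicit false
open Cfsg

namespace Cfsg.Agent.S0829

open Cfsg.Agent.Lib.Helper6 Cfsg.Agent.Lib.Helper12

/-- The unitary quadrangle of PSU_4(q): with |F| = q², the number of 2-dimensional subspaces of F^4 on which the Hermitian form Σ x_i y_i^q vanishes is (q + 1)(q³ + 1). -/
theorem result {F : Type*} [Field F] [Fintype F] {q : ℕ} (hF : Fintype.card F = q ^ 2) : Nat.card {W : Submodule F (Fin 4 → F) // Module.finrank F W = 2 ∧ ∀ u ∈ W, ∀ v ∈ W, Cfsg.hermForm 4 F q u v = 0} = (q + 1) * (q ^ 3 + 1) := by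
  have hq := herm_q_pos hF
  have hA := (hcnt_closed hF 3).2
  have h34 : q ^ 3 ≤ q ^ 4 := Nat.pow_le_pow_right (by omega) (by omega)
  have h1q : 1 ≤ q ^ 2 := Nat.one_le_pow _ _ (by omega)
  have h1Q : 1 ≤ (q ^ 2) ^ 2 := Nat.one_le_pow _ _ (by omega)
  have hQQ : q ^ 2 ≤ (q ^ 2) ^ 2 := Nat.le_self_pow (by omega) _
  have h25 : q ^ 2 ≤ q ^ 5 + (q ^ 4 - q ^ 3) :=
    le_trans (Nat.pow_le_pow_right (by omega) (by omega)) (Nat.le_add_right _ _)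
  have hN : q ^ 5 + (q ^ 4 - q ^ 3) + (q ^ 2 - 1) * q ^ 5 = hcnt F q 4 0 := by
    zify [h34, h1q]
    rw [hA]; ring
  have hA1 : 1 ≤ hcnt F q 4 0 := by
    rw [← hN]
    have : 1 ≤ q ^ 5 := Nat.one_le_pow _ _ (by omega)
    omega
  have hmain := card_TI_lines hF 4 (q ^ 5 + (q ^ 4 - q ^ 3)) (q ^ 5) (by ring) hN
  have hpos : 0 < ((q ^ 2) ^ 2 - 1) * ((q ^ 2) ^ 2 - q ^ 2) := by
    have h2 : q ^ 2 < (q ^ 2) ^ 2 := by nlinarith
    apply Nat.mul_pos <;> omega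
  apply Nat.eq_of_mul_eq_mul_right hpos
  rw [hmain]
  zify [h34, h1q, h1Q, hQQ, h25, hA1]
  rw [hA]; ring


end Cfsg.Agent.S0829
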