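import Cfsg.Statements.S2612
import Cfsg.Agent.Lib.Helper16.Orth13

set_option autoImplicit false

open Cfsg

namespace Cfsg.Agent.S2612

open Cfsg.Agent.Lib.Helper16 Cfsg.Agent.Lib.Helper6

variable {F : Type*} [Field F] {m : ℕ}

theorem polar_e (x : Fin m ⊕ Fin m → F) (j : Fin m) :
    QuadraticMap.polarBilin (qPlus m F) x (Pi.single (Sum.inl j) 1) = x (Sum.inr j) := by
  rw [QuadraticMap.polarBilin_apply_apply, qPlus_coe, polar_plus]
  simp [Pi.single_apply]

theorem polar_f (x : Fin m ⊕ Fin m → F) (j : Fin m) :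
    QuadraticMap.polarBilin (qPlus m F) x (Pi.single (Sum.inr j) 1) = x (Sum.inl j) := by
  rw [QuadraticMap.polarBilin_apply_apply, qPlus_coe, polar_plus]
  simp [Pi.single_apply]

/-- the vectors `e_j - f_j` -/
def av (F : Type*) [Field F] (m : ℕ) (j : Fin m) : Fin m ⊕ Fin m → F :=
  Pi.single (Sum.inl j) 1 - Pi.single (Sum.inr j) 1

theorem Q_av (j : Fin m) : qPlus m F (av F m j) = -1 := by
  rw [qPlus_apply, quadFormPlus, av]
  simp [Pi.single_apply]

theorem polar_av (x : Fin m ⊕ Fin m → F) (j : Fin m) :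
    QuadraticMap.polarBilin (qPlus m F) x (av F m j) = x (Sum.inr j) - x (Sum.inl j) := by
  rw [av, map_sub, polar_e, polar_f]

theorem swap_apply (x : Fin m ⊕ Fin m → F) :
    ((List.ofFn (av F m)).map (reflE (qPlus m F))).prod x = fun k => x (Sum.swap k) := by
  rw [prod_refl_orth]
  · rw [List.map_ofFn, List.sum_ofFn]
    ext k
    simp only [Function.comp, Q_av, polar_av]
    simp only [Pi.sub_apply, Finset.sum_apply, Pi.smul_apply, av, smul_eq_mul]
    rcases k with k | k
    · rw [Finset.sum_eq_single k]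
      · simp
      · intro b _ hb
        simp [Pi.single_apply, hb.symm]
      · simp
    · rw [Finset.sum_eq_single k]
      · simp
      · intro b _ hb
        simp [Pi.single_apply, hb.symm]
      · simp
  · rw [List.pairwise_ofFn]
    intro i j hij
    rw [polar_av, av]
    simp [Pi.single_apply, (ne_of_gt hij), (ne_of_lt hij)]

theorem result {F : Type*} [Field F] [Fintype F] {m : ℕ} (hm : 1 ≤ m) (h : Fintype.card F ≠ 2 ∨ m ≠ 2) : (∃ g : ↥(Cfsg.isometryGroup F (Cfsg.quadFormPlus m F)), g ∈ Cfsg.Omega F (Cfsg.quadFormPlus m F) ∧ (∀ v : Fin m ⊕ Fin m → F, (∀ i, v (Sum.inr i) = 0) → ∀ i, (((g : Matrix.GeneralLinearGroup (Fin m ⊕ Fin m) F) : Matrix (Fin m ⊕ Fin m) (Fin m ⊕ Fin m) F).mulVec v) (Sum.inl i) = 0) ∧ (∀ v : Fin m ⊕ Fin m → F, (∀ i, v (Sum.inl i) = 0) → ∀ i, (((g : Matrix.GeneralLinearGroup (Fin m ⊕ Fin m) F) : Matrix (Fin m ⊕ Fin m) (Fin m ⊕ Fin m) F).mulVec v) (Sum.inr i) = 0)) ↔ Even m := by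
  rw [← qPlus_coe]
  have H : Fintype.card F ≠ 2 ∨ Module.finrank F (Fin m ⊕ Fin m → F) ≠ 4 := by
    rw [finrank_plus]
    rcases h with h | h
    · exact Or.inl h
    · right; omega
  constructor
  · rintro ⟨g, hg, h1, -⟩
    obtain ⟨vs, hvs, hgv⟩ := exists_list_refl (qPlus m F) qPlus_nondeg H (bridge (qPlus m F) g)
    have hev : Even vs.length := by
      rw [mem_Omega_iff, hgv] at hg
      by_cases h2 : (2 : F) = 0
      · exact (prod_mem_comm_iff_even _ h2 qPlus_nondeg H vs hvs).1 hg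
      · exact ((prod_mem_comm_iff_odd _ h2 qPlus_nondeg vs hvs).1 hg).1
    have hpar := parity_of_list stdU_mts stdU_mts g vs hvs hgv
    rw [inf_idem, stdU_finrank, Nat.sub_self, zero_add] at hpar
    have hbot : LinearMap.ker (LinearMap.funLeft F F (Sum.inr : Fin m → Fin m ⊕ Fin m)) ⊓
        (LinearMap.ker (LinearMap.funLeft F F (Sum.inr : Fin m → Fin m ⊕ Fin m))).map
          (Matrix.mulVecLin ((g : Matrix.GeneralLinearGroup (Fin m ⊕ Fin m) F) :
            Matrix (Fin m ⊕ Fin m) (Fin m ⊕ Fin m) F)) = ⊥ := by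
      rw [eq_bot_iff]
      rintro x ⟨hx1, ⟨u, hu, rfl⟩⟩
      have hu' : ∀ i, u (Sum.inr i) = 0 := fun i => congrFun (LinearMap.mem_ker.1 hu) i
      have hx1' : ∀ i, (Matrix.mulVecLin ((g : Matrix.GeneralLinearGroup (Fin m ⊕ Fin m) F) :
            Matrix (Fin m ⊕ Fin m) (Fin m ⊕ Fin m) F) u) (Sum.inr i) = 0 :=
        fun i => congrFun (LinearMap.mem_ker.1 hx1) i
      rw [Submodule.mem_bot]
      ext (k | k)
      · exact h1 u hu' k
      · exact hx1' k
    rw [hbot, finrank_bot, Nat.sub_zero] at hpar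
    exact hpar.2 hev
  · intro hev
    have hvs : ∀ v ∈ List.ofFn (av F m), qPlus m F v ≠ 0 := by
      intro v hv
      rw [List.mem_ofFn] at hv
      obtain ⟨i, rfl⟩ := hv
      rw [Q_av]; simp
    have hmem : ((List.ofFn (av F m)).map (rO (qPlus m F))).prod ∈ commutator ↥(OG (qPlus m F)) := by
      apply prod_mem_comm _ qPlus_nondeg _ hvs
      · rw [List.length_ofFn]; exact hev
      · rw [List.map_ofFn, List.prod_ofFn]
        simp only [Function.comp, Q_av, Finset.prod_const, Finset.card_univ, Fintype.card_fin]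
        rw [hev.neg_one_pow]
        exact IsSquare.one
    refine ⟨(bridge (qPlus m F)).symm (((List.ofFn (av F m)).map (rO (qPlus m F))).prod), ?_, ?_, ?_⟩
    · rw [mem_Omega_iff, MulEquiv.apply_symm_apply]; exact hmem
    · intro v hv i
      rw [bridge_symm_mulVec, coe_prod_rO, swap_apply]
      exact hv i
    · intro v hv i
      rw [bridge_symm_mulVec, coe_prod_rO, swap_apply]
      exact hv i

end Cfsg.Agent.S2612
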