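import Cfsg.Statements.S0831
import Cfsg.Agent.Lib.Helper16.Orth20
import Cfsg.Agent.S2612

set_option autoImplicit false

open Cfsg

namespace Cfsg.Agent.S0831

open Cfsg.Agent.Lib.Helper16 Cfsg.Agent.Lib.Helper6

theorem result {F : Type*} [Field F] (m : ℕ) (hm : 1 ≤ m) : (∀ U W X : Submodule F (Fin m ⊕ Fin m → F), (Module.finrank F U = m ∧ ∀ w ∈ U, Cfsg.quadFormPlus m F w = 0) → (Module.finrank F W = m ∧ ∀ w ∈ W, Cfsg.quadFormPlus m F w = 0) → (Module.finrank F X = m ∧ ∀ w ∈ X, Cfsg.quadFormPlus m F w = 0) → Even ((m - Module.finrank F ↥(U ⊓ W)) + (m - Module.finrank F ↥(W ⊓ X)) + (m - Module.finrank F ↥(U ⊓ X)))) ∧ ∃ U W : Submodule F (Fin m ⊕ Fin m → F), (Module.finrank F U = m ∧ ∀ w ∈ U, Cfsg.quadFormPlus m F w = 0) ∧ (Module.finrank F W = m ∧ ∀ w ∈ W, Cfsg.quadFormPlus m F w = 0) ∧ Module.finrank F ↥(U ⊓ W) + 1 = m := by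
  rw [← qPlus_coe]
  have hmts : ∀ U : Submodule F (Fin m ⊕ Fin m → F),
      (Module.finrank F U = m ∧ ∀ w ∈ U, qPlus m F w = 0) → IsMTS (qPlus m F) U :=
    fun U h => ⟨h.2, by rw [h.1, finrank_plus]⟩
  constructor
  · intro U W X hU hW hX
    have := IsMTS.three qPlus_nondeg (hmts U hU) (hmts W hW) (hmts X hX)
    rwa [hU.1] at this
  · set U := LinearMap.ker (LinearMap.funLeft F F (Sum.inr : Fin m → Fin m ⊕ Fin m)) with hUdef
    have hU : IsMTS (qPlus m F) U := stdU_mts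
    have hv : qPlus m F (S2612.av F m ⟨0, hm⟩) ≠ 0 := by rw [S2612.Q_av]; simp
    have hW := hU.map (reflE_mem (qPlus m F) (S2612.av F m ⟨0, hm⟩))
    refine ⟨U, U.map (reflE (qPlus m F) (S2612.av F m ⟨0, hm⟩)).toLinearMap,
      ⟨stdU_finrank, hU.1⟩, ⟨?_, hW.1⟩, ?_⟩
    · rw [← hU.finrank_eq hW]; exact stdU_finrank
    · have h1 := IsMTS.finrank_inf_map_refl qPlus_nondeg hU hU _ hv
      rw [inf_idem, stdU_finrank] at h1
      have h2 : Module.finrank F ↥(U ⊓ U.map (reflE (qPlus m F) (S2612.av F m ⟨0, hm⟩)).toLinearMap) ≤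
          Module.finrank F U := Submodule.finrank_mono inf_le_left
      rw [stdU_finrank] at h2
      omega

end Cfsg.Agent.S0831
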