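import Cfsg.Statements.S0832
import Cfsg.Agent.Lib.Helper16.Orth21

set_option autoImplicit false

open Cfsg

namespace Cfsg.Agent.S0832

open Cfsg.Agent.Lib.Helper16 Cfsg.Agent.Lib.Helper6

theorem result {F : Type*} [Field F] [Finite F] (m : ℕ) (hm : 1 ≤ m) (U : Submodule F (Fin m ⊕ Fin m → F)) (hU : Module.finrank F U + 1 = m ∧ ∀ u ∈ U, Cfsg.quadFormPlus m F u = 0) : Nat.card {W : Submodule F (Fin m ⊕ Fin m → F) // Module.finrank F W = m ∧ (∀ w ∈ W, Cfsg.quadFormPlus m F w = 0) ∧ U ≤ W} = 2 := by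
  rw [← qPlus_coe] at hU ⊢
  obtain ⟨W₁, W₂, hne, ⟨h1, h1U⟩, ⟨h2, h2U⟩, hall⟩ := IsMTS.exactly_two qPlus_nondeg
    (stdU_mts (F := F) (m := m)) U hU.2 (by rw [stdU_finrank]; exact hU.1)
  have hfr : ∀ W, IsMTS (qPlus m F) W → Module.finrank F W = m := by
    intro W hW
    have := hW.2
    rw [finrank_plus] at this
    omega
  rw [Nat.card_eq_two_iff]
  refine ⟨⟨W₁, hfr W₁ h1, h1.1, h1U⟩, ⟨W₂, hfr W₂ h2, h2.1, h2U⟩, ?_, ?_⟩
  · intro h
    exact hne (congrArg Subtype.val h)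
  · rw [Set.eq_univ_iff_forall]
    rintro ⟨W, hW1, hW2, hW3⟩
    rcases hall W ⟨hW2, by rw [hW1, finrank_plus]⟩ hW3 with h | h
    · left; exact Subtype.ext h
    · right; exact Subtype.ext h

end Cfsg.Agent.S0832
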