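import Cfsg.Statements.S0833
import Cfsg.Agent.Lib.Helper6.SympBasis

set_option autoImplicit false
open Cfsg

namespace Cfsg.Agent.S0833

open TensorProduct

theorem tmul_nondegenerate {F U W : Type*} [Field F] [AddCommGroup U] [Module F U]
    [FiniteDimensional F U] [AddCommGroup W] [Module F W] [FiniteDimensional F W]
    (B₁ : LinearMap.BilinForm F U) (B₂ : LinearMap.BilinForm F W) (h₁ : B₁.Nondegenerate)
    (h₂ : B₂.Nondegenerate) : (B₁.tmul B₂).Nondegenerate := by
  classical
  let b₁ := Module.finBasis F U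
  let b₂ := Module.finBasis F W
  rw [LinearMap.BilinForm.nondegenerate_iff_det_ne_zero b₁] at h₁
  rw [LinearMap.BilinForm.nondegenerate_iff_det_ne_zero b₂] at h₂
  change LinearMap.BilinForm.Nondegenerate (B₁.tmul B₂)
  rw [LinearMap.BilinForm.nondegenerate_iff_det_ne_zero (b₁.tensorProduct b₂)]
  have : LinearMap.BilinForm.toMatrix (b₁.tensorProduct b₂) (B₁.tmul B₂) =
      Matrix.kroneckerMap (fun x1 x2 => x1 * x2) (LinearMap.BilinForm.toMatrix b₁ B₁)
        (LinearMap.BilinForm.toMatrix b₂ B₂) := by
    ext ⟨i, j⟩ ⟨i', j'⟩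
    rw [LinearMap.BilinForm.toMatrix_apply, Matrix.kroneckerMap_apply,
      LinearMap.BilinForm.toMatrix_apply, LinearMap.BilinForm.toMatrix_apply,
      Module.Basis.tensorProduct_apply, Module.Basis.tensorProduct_apply]
    change (LinearMap.BilinForm.tensorDistrib F F (B₁ ⊗ₜ B₂)) _ _ = _
    rw [LinearMap.BilinForm.tensorDistrib_tmul, smul_eq_mul, mul_comm]
  rw [this, Matrix.det_kronecker]
  exact mul_ne_zero (pow_ne_zero _ h₁) (pow_ne_zero _ h₂)

theorem exists_lagrangian {F U : Type*} [Field F] [AddCommGroup U] [Module F U]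
    [FiniteDimensional F U] (B : LinearMap.BilinForm F U) (h : B.Nondegenerate) (hA : B.IsAlt)
    (k : ℕ) (hU : Module.finrank F U = 2 * k) :
    ∃ L : Submodule F U, Module.finrank F L = k ∧ ∀ x ∈ L, ∀ y ∈ L, B x y = 0 := by
  obtain ⟨m, k', b, -, hee, -, hr⟩ := Cfsg.Agent.Lib.Helper6.exists_symp_basis B hA
  have hk' : k' = 0 := by
    by_contra hne
    obtain ⟨j⟩ : Nonempty (Fin k') := ⟨⟨0, Nat.pos_of_ne_zero hne⟩⟩
    exact b.ne_zero (Sum.inr j) (h.1 _ (hr j))
  have hcard := Module.finrank_eq_card_basis b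
  simp only [Fintype.card_sum, Fintype.card_fin, hk', hU] at hcard
  have hm : m = k := by omega
  refine ⟨Submodule.span F (Set.range (fun i : Fin m => b (Sum.inl (Sum.inl i)))), ?_, ?_⟩
  · rw [finrank_span_eq_card, Fintype.card_fin, hm]
    exact b.linearIndependent.comp (fun i : Fin m => Sum.inl (Sum.inl i))
      (fun i j hij => by simpa using hij)
  · intro x hx y hy
    induction hx using Submodule.span_induction with
    | mem x hx =>
      obtain ⟨i, rfl⟩ := hx
      induction hy using Submodule.span_induction with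
      | mem y hy =>
        obtain ⟨j, rfl⟩ := hy
        exact hee i j
      | zero => simp
      | add y z _ _ hy hz => rw [map_add, hy, hz, add_zero]
      | smul c y _ hy => rw [map_smul, hy, smul_zero]
    | zero => simp
    | add x z _ _ hx hz => rw [map_add, LinearMap.add_apply, hx, hz, add_zero]
    | smul c x _ hx => rw [map_smul, LinearMap.smul_apply, hx, smul_zero]

/-- If B₁, B₂ are non-degenerate alternating forms on U (dim 2k) and W (dim 2l), then B₁ ⊗ B₂ on U ⊗ W is symmetric, non-degenerate, and vanishes identically on some subspace of dimension 2kl (half of dim U ⊗ W). -/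
theorem result {F U W : Type*} [Field F] [Fintype F] [AddCommGroup U] [Module F U] [FiniteDimensional F U] [AddCommGroup W] [Module F W] [FiniteDimensional F W] (B₁ : LinearMap.BilinForm F U) (B₂ : LinearMap.BilinForm F W) (h₁ : B₁.Nondegenerate) (h₂ : B₂.Nondegenerate) (hA₁ : B₁.IsAlt) (hA₂ : B₂.IsAlt) (k l : ℕ) (hU : Module.finrank F U = 2 * k) (hW : Module.finrank F W = 2 * l) : (B₁.tmul B₂).IsSymm ∧ (B₁.tmul B₂).Nondegenerate ∧ (∃ X : Submodule F (TensorProduct F U W), Module.finrank F X = 2 * k * l ∧ ∀ x ∈ X, ∀ y ∈ X, (B₁.tmul B₂) x y = 0) := by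
  have hpure : ∀ (u u' : U) (w w' : W), (B₁.tmul B₂) (u ⊗ₜ w) (u' ⊗ₜ w') = B₂ w w' * B₁ u u' := by
    intro u u' w w'
    change (LinearMap.BilinForm.tensorDistrib F F (B₁ ⊗ₜ B₂)) _ _ = _
    rw [LinearMap.BilinForm.tensorDistrib_tmul, smul_eq_mul]
  refine ⟨⟨fun x y => ?_⟩, tmul_nondegenerate B₁ B₂ h₁ h₂, ?_⟩
  · simp only [RingHom.id_apply]
    induction x using TensorProduct.induction_on with
    | zero => simp
    | tmul u w =>
      induction y using TensorProduct.induction_on with
      | zero => simp
      | tmul u' w' =>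
        rw [hpure, hpure, ← LinearMap.IsAlt.neg hA₁ u u', ← LinearMap.IsAlt.neg hA₂ w w']
        ring
      | add y z hy hz => rw [map_add, map_add, LinearMap.add_apply, hy, hz]
    | add x z hx hz => rw [map_add, map_add, LinearMap.add_apply, hx, hz]
  · obtain ⟨L, hL, hL0⟩ := exists_lagrangian B₁ h₁ hA₁ k hU
    refine ⟨LinearMap.range (LinearMap.rTensor W L.subtype), ?_, ?_⟩
    · rw [LinearMap.finrank_range_of_inj
        (Module.Flat.rTensor_preserves_injective_linearMap L.subtype L.subtype_injective),
        Module.finrank_tensorProduct, hL, hW]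
      ring
    · rintro _ ⟨x, rfl⟩ _ ⟨y, rfl⟩
      induction x using TensorProduct.induction_on with
      | zero => simp
      | tmul u w =>
        induction y using TensorProduct.induction_on with
        | zero => simp
        | tmul u' w' =>
          rw [LinearMap.rTensor_tmul, LinearMap.rTensor_tmul, hpure]
          rw [Submodule.subtype_apply, Submodule.subtype_apply, hL0 u u.2 u' u'.2, mul_zero]
        | add y z hy hz => rw [map_add, map_add, hy, hz, add_zero]
      | add x z hx hz => rw [map_add, map_add, LinearMap.add_apply, hx, hz, add_zero]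

end Cfsg.Agent.S0833
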