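import Cfsg.Statements.S0834
import Cfsg.Agent.Lib.Helper16.SymmDisc3

set_option autoImplicit false

open Cfsg

namespace Cfsg.Agent.S0834

open Cfsg.Agent.Lib.Helper16 Cfsg.Agent.Lib.Helper6

theorem result {F U W : Type*} [Field F] [Fintype F] [AddCommGroup U] [Module F U] [FiniteDimensional F U] [AddCommGroup W] [Module F W] [FiniteDimensional F W] (h2 : (2 : F) ≠ 0) (B₁ : LinearMap.BilinForm F U) (B₂ : LinearMap.BilinForm F W) (h₁ : B₁.Nondegenerate) (h₂ : B₂.Nondegenerate) (hS₁ : B₁.IsSymm) (hS₂ : B₂.IsSymm) (k l : ℕ) (hk : 1 ≤ k) (hl : 1 ≤ l) (hU : Module.finrank F U = 2 * k) (hW : Module.finrank F W = 2 * l) (hm₁ : ¬ (∃ X : Submodule F (U), Module.finrank F X = k ∧ ∀ x ∈ X, ∀ y ∈ X, (B₁) x y = 0)) (hm₂ : ¬ (∃ X : Submodule F (W), Module.finrank F X = l ∧ ∀ x ∈ X, ∀ y ∈ X, (B₂) x y = 0)) : (∃ X : Submodule F (TensorProduct F U W), Module.finrank F X = 2 * k * l ∧ ∀ x ∈ X, ∀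 y ∈ X, (B₁.tmul B₂) x y = 0) := by
  obtain ⟨b₁⟩ : Nonempty (Module.Basis (Fin (2 * k)) F U) := ⟨Module.finBasisOfFinrankEq F U hU⟩
  obtain ⟨b₂⟩ : Nonempty (Module.Basis (Fin (2 * l)) F W) := ⟨Module.finBasisOfFinrankEq F W hW⟩
  have hd₁ := (LinearMap.BilinForm.nondegenerate_iff_det_ne_zero b₁).1 h₁
  have hd₂ := (LinearMap.BilinForm.nondegenerate_iff_det_ne_zero b₂).1 h₂
  have hdet := sd_det_tmul b₁ b₂ B₁ B₂
  rw [Fintype.card_fin, Fintype.card_fin] at hdet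
  have hS : LinearMap.BilinForm.IsSymm (B₁.tmul B₂) := LinearMap.BilinForm.isSymm_iff.2
    (LinearMap.IsSymm.tmul (LinearMap.BilinForm.isSymm_iff.1 hS₁) (LinearMap.BilinForm.isSymm_iff.1 hS₂))
  have hN : LinearMap.BilinForm.Nondegenerate (B₁.tmul B₂) := by
    rw [LinearMap.BilinForm.nondegenerate_iff_det_ne_zero (b₁.tensorProduct b₂), hdet]
    exact mul_ne_zero (pow_ne_zero _ hd₁) (pow_ne_zero _ hd₂)
  refine sd_lagr_of_isSquare h2 (B₁.tmul B₂) hS hN (b₁.tensorProduct b₂) (2 * k * l)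
    (by rw [Module.finrank_tensorProduct, hU, hW]; ring) ?_
  rw [hdet, mul_assoc 2 k l, (even_two_mul (k * l)).neg_one_pow, one_mul]
  exact ⟨(LinearMap.BilinForm.toMatrix b₁ B₁).det ^ l * (LinearMap.BilinForm.toMatrix b₂ B₂).det ^ k, by ring⟩

end Cfsg.Agent.S0834
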