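import Cfsg.Statements.S0835
import Cfsg.Agent.Lib.Helper16.SymmDisc3

set_option autoImplicit false

open Cfsg

namespace Cfsg.Agent.S0835

open Cfsg.Agent.Lib.Helper16 Cfsg.Agent.Lib.Helper6

theorem result {F U W : Type*} [Field F] [Fintype F] [AddCommGroup U] [Module F U] [FiniteDimensional F U] [AddCommGroup W] [Module F W] [FiniteDimensional F W] (h2 : (2 : F) ≠ 0) (B₁ : LinearMap.BilinForm F U) (B₂ : LinearMap.BilinForm F W) (h₁ : B₁.Nondegenerate) (h₂ : B₂.Nondegenerate) (hS₁ : B₁.IsSymm) (hS₂ : B₂.IsSymm) (k l : ℕ) (hk : 1 ≤ k) (hU : Module.finrank F U = 2 * k) (hW : Module.finrank F W = 2 * l + 1) (hm₁ : ¬ (∃ X : Submodule F (U), Module.finrank F X = k ∧ ∀ x ∈ X, ∀ y ∈ X, (B₁) x y = 0)) : ¬ (∃ X : Submodule F (TensorProduct F U W), Module.finrank F X = k * (2 * l + 1) ∧ ∀ x ∈ X, ∀ y ∈ X, (B₁.tmul B₂) x y = 0) := by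
  rintro ⟨X, hX, hX0⟩
  apply hm₁
  obtain ⟨b₁⟩ : Nonempty (Module.Basis (Fin (2 * k)) F U) := ⟨Module.finBasisOfFinrankEq F U hU⟩
  obtain ⟨b₂⟩ : Nonempty (Module.Basis (Fin (2 * l + 1)) F W) :=
    ⟨Module.finBasisOfFinrankEq F W hW⟩
  have hd₁ := (LinearMap.BilinForm.nondegenerate_iff_det_ne_zero b₁).1 h₁
  have hd₂ := (LinearMap.BilinForm.nondegenerate_iff_det_ne_zero b₂).1 h₂
  have hdet := sd_det_tmul b₁ b₂ B₁ B₂
  rw [Fintype.card_fin, Fintype.card_fin] at hdet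
  have hS : LinearMap.BilinForm.IsSymm (B₁.tmul B₂) := LinearMap.BilinForm.isSymm_iff.2
    (LinearMap.IsSymm.tmul (LinearMap.BilinForm.isSymm_iff.1 hS₁) (LinearMap.BilinForm.isSymm_iff.1 hS₂))
  obtain ⟨r, hr⟩ := sd_isSquare_of_lagr (B₁.tmul B₂) hS (b₁.tensorProduct b₂) (k * (2 * l + 1))
    (by rw [Module.finrank_tensorProduct, hU, hW]; ring) X hX hX0
  rw [hdet] at hr
  refine sd_lagr_of_isSquare h2 B₁ hS₁ h₁ b₁ k hU ?_
  set D₁ := (LinearMap.BilinForm.toMatrix b₁ B₁).det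
  set D₂ := (LinearMap.BilinForm.toMatrix b₂ B₂).det
  have hne : ((-1 : F) ^ (k * l)) * D₁ ^ l * D₂ ^ k ≠ 0 :=
    mul_ne_zero (mul_ne_zero (pow_ne_zero _ (neg_ne_zero.2 one_ne_zero)) (pow_ne_zero _ hd₁))
      (pow_ne_zero _ hd₂)
  refine ⟨r / (((-1 : F) ^ (k * l)) * D₁ ^ l * D₂ ^ k), ?_⟩
  rw [div_mul_div_comm, eq_div_iff (mul_ne_zero hne hne), ← hr]
  ring

end Cfsg.Agent.S0835
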