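import Cfsg.Statements.S0836
import Cfsg.Agent.Lib.Helper12.SLn

set_option autoImplicit false
open Cfsg

namespace Cfsg.Agent.S0836

open Matrix Matrix.SpecialLinearGroup Cfsg.Agent.Lib.Helper12
open scoped commutatorElement

theorem diag2n_transvection_comm {F : Type*} [Field F] {ι : Type*} [DecidableEq ι] [Fintype ι]
    {i j : ι} (hij : i ≠ j) (a : F) (ha : a ≠ 0) (b : F) :
    ⁅diag2n hij a ha, SpecialLinearGroup.transvection hij b⁆ =
      SpecialLinearGroup.transvection hij (b * (a ^ 2 - 1)) := by
  have key : diag2n hij a ha * SpecialLinearGroup.transvection hij b =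
      SpecialLinearGroup.transvection hij (b * (a ^ 2 - 1)) *
        SpecialLinearGroup.transvection hij b * diag2n hij a ha := by
    apply sl_ext_smul
    intro w
    simp only [mul_smul, transvection_smul, diag2n_smul]
    ext k
    by_cases hk : k = i
    · subst hk
      simp [Function.update_apply, hij, hij.symm]
      field_simp
      ring
    · by_cases hk' : k = j
      · subst hk'
        simp [Function.update_apply, hij, hij.symm]
      · simp [Function.update_apply, hk, hk']
  rw [commutatorElement_def, key]
  group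


/-- For i ≠ j and any scalar c, the elementary transvection 1 + c E_ij is a commutator ⁅g, h⁆ of two elements of SL_n(F) provided n ≥ 3, or n = 2 and F contains x ≠ 0 with x² ≠ 1. -/
theorem result {F : Type*} [Field F] (n : ℕ) (hn : 3 ≤ n ∨ (n = 2 ∧ ∃ x : F, x ≠ 0 ∧ x ^ 2 ≠ 1)) (i j : Fin n) (hij : i ≠ j) (c : F) (t : Matrix.SpecialLinearGroup (Fin n) F) (ht : (t : Matrix (Fin n) (Fin n) F) = Matrix.transvection i j c) : t ∈ commutatorSet (Matrix.SpecialLinearGroup (Fin n) F) := by
  rcases hn with hn | ⟨rfl, x, hx0, hx1⟩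
  · obtain ⟨k, hk1, hk2⟩ : ∃ k : Fin n, i ≠ k ∧ k ≠ j := by
      have : (({i, j} : Finset (Fin n))ᶜ).Nonempty := by
        rw [← Finset.card_pos, Finset.card_compl, Fintype.card_fin]
        have := Finset.card_le_two (a := i) (b := j)
        omega
      obtain ⟨k, hk⟩ := this
      simp only [Finset.mem_compl, Finset.mem_insert, Finset.mem_singleton, not_or] at hk
      exact ⟨k, fun h => hk.1 h.symm, hk.2⟩
    refine ⟨SpecialLinearGroup.transvection hk1 c, SpecialLinearGroup.transvection hk2 1, ?_⟩
    rw [transvection_commutator hij hk1 hk2 c 1, mul_one]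
    apply Subtype.ext
    rw [ht, transvection_coe]; rfl
  · refine ⟨diag2n hij x hx0, SpecialLinearGroup.transvection hij (c / (x ^ 2 - 1)), ?_⟩
    rw [diag2n_transvection_comm, div_mul_cancel₀ c (sub_ne_zero_of_ne hx1)]
    apply Subtype.ext
    rw [ht, transvection_coe]; rfl


end Cfsg.Agent.S0836
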