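import Cfsg.Statements.S0837
import Cfsg.Agent.Lib.Helper12.BlockStab
import Cfsg.Agent.Lib.Helper12.UnitaryON
import Cfsg.Agent.Lib.Helper12.Unitary

set_option autoImplicit false
open Cfsg

namespace Cfsg.Agent.S0837

open Matrix Cfsg.Agent.Lib.Helper6 Cfsg.Agent.Lib.Helper12

/-- If W ≤ F^n (|F| = q²) is a k-dimensional subspace on which the Hermitian form Σ x_i y_i^q is non-degenerate, then the stabiliser of W in GU_n(q) is isomorphic to GU_k(q) × GU_(n−k)(q). -/
theorem result {F : Type*} [Field F] [Fintype F] {q : ℕ} (hF : Fintype.card F = q ^ 2) (n k : ℕ) (hk : k ≤ n) (W : Submodule F (Fin n → F)) (hWk : Module.finrank F W = k) (hW : ∀ u ∈ W, (∀ v ∈ W, Cfsg.hermForm n F q u v = 0) → u = 0) : Nonempty (↥((Cfsg.stabilizing (Cfsg.glToMat (Fin n) F) (W : Set (Fin n → F))).subgroupOf (Cfsg.GU n F q)) ≃* ↥(Cfsg.GU k F q) × ↥(Cfsg.GU (n - k) F q)) := by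
  have hq := herm_q_pos hF
  have hq0 : q ≠ 0 := by omega
  set W' := hermPerp q n W with hW'
  have hc : IsCompl W W' := hermPerp_isCompl hF n W hW
  have hX' := hermPerp_nondeg hF n W hW
  have hd' : Module.finrank F W' = n - k := by
    have h1 := Submodule.finrank_add_eq_of_isCompl hc
    rw [hWk] at h1
    simp only [Module.finrank_fintype_fun_eq_card, Fintype.card_fin] at h1
    omega
  obtain ⟨ψ₁, hψ₁⟩ := exists_herm_coords hF n k W hWk hW
  obtain ⟨ψ₂, hψ₂⟩ := exists_herm_coords hF n (n - k) W' hd' hX'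
  obtain ⟨φ, hφ, hφW⟩ := exists_glue W W' hc ψ₁ ψ₂
  let t : ∀ n : ℕ, ↥(Cfsg.GU n F q) →* Matrix (Fin n) (Fin n) F := fun n =>
    (Cfsg.glToMat (Fin n) F).comp (Cfsg.GU n F q).subtype
  have ht : ∀ n, Function.Injective (t n) := by
    intro n a b hab
    exact Subtype.ext (Units.ext hab)
  have hr : ∀ (n : ℕ) (M : Matrix (Fin n) (Fin n) F),
      (∃ h, t n h = M) ↔
        ∀ u v, hermForm n F q (M *ᵥ u) (M *ᵥ v) = hermForm n F q u v := by
    intro n M
    constructor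
    · rintro ⟨h, rfl⟩
      exact (mem_GU_iff h.1).1 h.2
    · intro h
      exact exists_GU_of_HPres hq0 h
  have main := stab_equiv_prod (t n) (t k) (t (n - k)) (ht n) (ht k) (ht (n - k))
    (hermForm n F q) (hermForm k F q) (hermForm (n - k) F q) (hr n) (hr k) (hr (n - k)) φ ?_
    ?_ (fun x => herm_zero_right hF k x)
    (fun x => by simp [hermForm]) (W : Set (Fin n → F)) hφW
  · exact main
  · intro x y
    rw [hφ, hφ, herm_add_left, herm_add_right hF, herm_add_right hF, hψ₁, hψ₂]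
    have h1 : hermForm n F q (ψ₂ (x ∘ Sum.inr) : Fin n → F) (ψ₁ (y ∘ Sum.inl)) = 0 :=
      (ψ₂ _).2 _ (ψ₁ _).2
    have h2 : hermForm n F q (ψ₁ (x ∘ Sum.inl) : Fin n → F) (ψ₂ (y ∘ Sum.inr)) = 0 :=
      herm_eq_zero_symm hF n ((ψ₂ _).2 _ (ψ₁ _).2)
    rw [h1, h2]
    ring
  · intro x h
    funext i
    have h1 := h (Pi.single i 1)
    rw [herm_single_left] at h1
    exact pow_eq_zero_iff hq0 |>.1 h1


end Cfsg.Agent.S0837
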