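import Cfsg.Statements.S0838
import Cfsg.Agent.Lib.Helper16.SymmDisc

set_option autoImplicit false

open Cfsg

namespace Cfsg.Agent.S0838

open Cfsg.Agent.Lib.Helper16 Cfsg.Agent.Lib.Helper6

theorem result {F : Type*} [Field F] [Fintype F] (h2 : (2 : F) ≠ 0) {n : ℕ} (hn : Odd n) (Q₁ Q₂ : QuadraticForm F (Fin n → F)) (h₁ : (QuadraticMap.polarBilin Q₁).Nondegenerate) (h₂ : (QuadraticMap.polarBilin Q₂).Nondegenerate) : ∃ (g : (Fin n → F) ≃ₗ[F] (Fin n → F)) (c : F), c ≠ 0 ∧ ∀ v, Q₂ (g v) = c * Q₁ v := by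
  obtain ⟨k, rfl⟩ := hn
  set b := Pi.basisFun F (Fin (2 * k + 1)) with hb
  have hd₁ := (LinearMap.BilinForm.nondegenerate_iff_det_ne_zero b).1 h₁
  have hd₂ := (LinearMap.BilinForm.nondegenerate_iff_det_ne_zero b).1 h₂
  set d₁ := (LinearMap.BilinForm.toMatrix b (QuadraticMap.polarBilin Q₁)).det with hd₁'
  set d₂ := (LinearMap.BilinForm.toMatrix b (QuadraticMap.polarBilin Q₂)).det with hd₂'
  have hc : d₂ * d₁ ≠ 0 := mul_ne_zero hd₂ hd₁
  obtain ⟨B₁, hB₁⟩ : ∃ B₁ : LinearMap.BilinForm F (Fin (2 * k + 1) → F),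
    B₁ = (d₂ * d₁) • QuadraticMap.polarBilin Q₁ := ⟨_, rfl⟩
  have hdet : (LinearMap.BilinForm.toMatrix b B₁).det = (d₂ * d₁) ^ (2 * k + 1) * d₁ := by
    rw [hB₁, map_smul, Matrix.det_smul, Fintype.card_fin]
  have hS₁ : B₁.IsSymm :=
    ⟨fun x y => by rw [hB₁]; simp [QuadraticMap.polar_comm Q₁ x y]⟩
  have hS₂ : LinearMap.BilinForm.IsSymm (QuadraticMap.polarBilin Q₂) :=
    ⟨fun x y => by simp [QuadraticMap.polar_comm Q₂ x y]⟩
  have hN₁ : B₁.Nondegenerate := by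
    rw [LinearMap.BilinForm.nondegenerate_iff_det_ne_zero b, hdet]
    exact mul_ne_zero (pow_ne_zero _ hc) hd₁
  obtain ⟨g, hg⟩ := sd_isometric h2 B₁ _ hS₁ hN₁ hS₂ h₂ b b (((d₂ * d₁) ^ k * d₁)⁻¹)
    (inv_ne_zero (mul_ne_zero (pow_ne_zero _ hc) hd₁)) (by
      rw [hdet]
      have : (d₂ * d₁) ^ k ≠ 0 := pow_ne_zero _ hc
      field_simp
      ring)
  refine ⟨g, d₂ * d₁, hc, fun v => ?_⟩
  have h := hg v v
  rw [hB₁] at h
  simp only [QuadraticMap.polarBilin_apply_apply, LinearMap.smul_apply, smul_eq_mul,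
    QuadraticMap.polar_self] at h
  apply mul_left_cancel₀ h2
  linear_combination h

end Cfsg.Agent.S0838
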