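import Cfsg.Statements.S0839
import Mathlib
import Cfsg.Agent.Lib.Helper12.Transv

set_option autoImplicit false
open Cfsg

namespace Cfsg.Agent.S0839


/-- Every transvection t ∈ SL_(n+2)(F) (rank(t − 1) = 1, (t − 1)² = 0) is conjugate in SL_(n+2)(F) to 1 + v·e_0ᵀ for some column vector v with v_0 = 0 (the group A of matrices that are the identity except in the first column below the diagonal); the dimension is written n + 2 ≥ 2. -/
theorem result {F : Type*} [Field F] (n : ℕ) (t : Matrix.SpecialLinearGroup (Fin (n + 2)) F) (ht : Cfsg.IsTransvection (t : Matrix (Fin (n + 2)) (Fin (n + 2)) F)) : ∃ (g : Matrix.SpecialLinearGroup (Fin (n + 2)) F) (v : Fin (n + 2) → F), v 0 = 0 ∧ ((g⁻¹ * t * g : Matrix.SpecialLinearGroup (Fin (n + 2)) F) : Matrix (Fin (n + 2)) (Fin (n + 2)) F) = 1 + Matrix.vecMulVec v (Pi.single 0 1) := by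
  have h0 : (1 : Fin (n + 2)) ≠ 0 := by simp [Fin.ext_iff]
  obtain ⟨G, c, hc, hG⟩ := Cfsg.Agent.Lib.Helper12.exists_SL_conj_transvection _ ht.1 ht.2 1 0 h0
  refine ⟨G, Pi.single 1 c, by simp [Pi.single_apply], ?_⟩
  rw [mul_assoc, Matrix.SpecialLinearGroup.coe_mul, Matrix.SpecialLinearGroup.coe_mul, hG,
    ← mul_assoc, ← Matrix.SpecialLinearGroup.coe_mul, inv_mul_cancel]
  simp only [Matrix.SpecialLinearGroup.coe_one, one_mul, Matrix.transvection]
  congr 1
  ext i j
  simp [Matrix.vecMulVec_apply, Matrix.single_apply, Pi.single_apply, eq_comm]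
  by_cases hj : j = 0 <;> by_cases hi : i = 1 <;> simp [hi, hj]


end Cfsg.Agent.S0839
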