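import Cfsg.Statements.S0840
import Cfsg.Agent.Lib.Helper25.Count

set_option autoImplicit false
open scoped ComplexConjugate
open Cfsg

namespace Cfsg.Agent.S0840

/-- Class multiplication coefficients from the character table: for elements a, b, c of a finite group G, the number of ordered pairs (x, y) with x conjugate to a, y conjugate to b and x * y = c equals the product of the sizes of the conjugacy classes of a and b, divided by the order of G, times the sum over the irreducible characters χ of χ a * χ b * conj (χ c) / χ 1. -/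
theorem result {G : Type*} [Group G] [Finite G] (a b c : G) : (Nat.card {p : G × G // IsConj a p.1 ∧ IsConj b p.2 ∧ p.1 * p.2 = c} : ℂ) = (Nat.card {x : G // IsConj a x} : ℂ) * (Nat.card {x : G // IsConj b x} : ℂ) / (Nat.card G : ℂ) * ∑ᶠ χ : Cfsg.IrrCharacter G, (χ : G → ℂ) a * (χ : G → ℂ) b * conj ((χ : G → ℂ) c) / (χ : G → ℂ) 1 := by
  classical
  cases nonempty_fintype G
  cases nonempty_fintype (Cfsg.IrrCharacter G)
  rw [finsum_eq_sum_of_fintype]
  have hG : (Nat.card G : ℂ) ≠ 0 := by exact_mod_cast Nat.card_pos.ne'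
  have hC : ∀ g : G, (Nat.card (Subgroup.centralizer ({g} : Set G)) : ℂ) ≠ 0 := by
    intro g
    exact_mod_cast Nat.card_pos.ne'
  have hK : ∀ g : G, (Nat.card {x : G // IsConj g x} : ℂ)
      = (Nat.card G : ℂ) / (Nat.card (Subgroup.centralizer ({g} : Set G)) : ℂ) := by
    intro g
    have h1 := Subgroup.card_mul_index (Subgroup.centralizer ({g} : Set G))
    rw [Cfsg.Agent.Lib.Helper24.index_centralizer_eq_ncard, ← Nat.card_coe_set_eq] at h1
    rw [eq_div_iff (hC g), mul_comm]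
    exact_mod_cast h1
  have hind : ∀ g x : G, (if IsConj g x then (1 : ℂ) else 0)
      = (Nat.card (Subgroup.centralizer ({g} : Set G)) : ℂ)⁻¹ *
        ∑ χ : Cfsg.IrrCharacter G, (χ : G → ℂ) g * conj ((χ : G → ℂ) x) := by
    intro g x
    rw [Cfsg.Agent.Lib.Helper7.column_orthogonality]
    split_ifs
    · rw [inv_mul_cancel₀ (hC g)]
    · rw [mul_zero]
  have hN : (Nat.card {p : G × G // IsConj a p.1 ∧ IsConj b p.2 ∧ p.1 * p.2 = c} : ℂ)
      = ∑ x : G, (if IsConj a x then (1 : ℂ) else 0) * (if IsConj b (x⁻¹ * c) then (1 : ℂ) else 0) := by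
    have e : {p : G × G // IsConj a p.1 ∧ IsConj b p.2 ∧ p.1 * p.2 = c}
        ≃ {x : G // IsConj a x ∧ IsConj b (x⁻¹ * c)} :=
      { toFun := fun p => ⟨p.1.1, p.2.1, by
          have h1 := p.2.2.2
          have h2 : p.1.1⁻¹ * c = p.1.2 := inv_mul_eq_of_eq_mul h1.symm
          rw [h2]
          exact p.2.2.1⟩
        invFun := fun x => ⟨(x.1, x.1⁻¹ * c), x.2.1, x.2.2, by group⟩
        left_inv := fun p => by
          apply Subtype.ext
          apply Prod.ext
          · rfl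
          · have h1 := p.2.2.2
            exact inv_mul_eq_of_eq_mul h1.symm
        right_inv := fun x => rfl }
    rw [Nat.card_congr e, Nat.card_eq_fintype_card, Fintype.card_subtype, ← Finset.sum_boole]
    apply Finset.sum_congr rfl
    intro x _
    by_cases h1 : IsConj a x
    · by_cases h2 : IsConj b (x⁻¹ * c)
      · rw [if_pos ⟨h1, h2⟩, if_pos h1, if_pos h2, one_mul]
      · rw [if_neg (fun h => h2 h.2), if_neg h2, mul_zero]
    · rw [if_neg (fun h => h1 h.1), if_neg h1, zero_mul]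
  rw [hN]
  simp_rw [hind]
  have e1 : ∀ x : G, ((Nat.card (Subgroup.centralizer ({a} : Set G)) : ℂ)⁻¹ *
        ∑ χ : Cfsg.IrrCharacter G, (χ : G → ℂ) a * conj ((χ : G → ℂ) x))
      * ((Nat.card (Subgroup.centralizer ({b} : Set G)) : ℂ)⁻¹ *
        ∑ χ : Cfsg.IrrCharacter G, (χ : G → ℂ) b * conj ((χ : G → ℂ) (x⁻¹ * c)))
      = (Nat.card (Subgroup.centralizer ({a} : Set G)) : ℂ)⁻¹
        * (Nat.card (Subgroup.centralizer ({b} : Set G)) : ℂ)⁻¹
        * ∑ χ : Cfsg.IrrCharacter G, ∑ ψ : Cfsg.IrrCharacter G,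
          (χ : G → ℂ) a * (ψ : G → ℂ) b * conj ((χ : G → ℂ) x * (ψ : G → ℂ) (x⁻¹ * c)) := by
    intro x
    have : (∑ χ : Cfsg.IrrCharacter G, (χ : G → ℂ) a * conj ((χ : G → ℂ) x))
        * (∑ χ : Cfsg.IrrCharacter G, (χ : G → ℂ) b * conj ((χ : G → ℂ) (x⁻¹ * c)))
        = ∑ χ : Cfsg.IrrCharacter G, ∑ ψ : Cfsg.IrrCharacter G,
          (χ : G → ℂ) a * (ψ : G → ℂ) b * conj ((χ : G → ℂ) x * (ψ : G → ℂ) (x⁻¹ * c)) := by
      rw [Finset.sum_mul_sum]
      apply Finset.sum_congr rfl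
      intro χ _
      apply Finset.sum_congr rfl
      intro ψ _
      rw [map_mul]
      ring
    rw [← this]
    ring
  simp_rw [e1]
  rw [← Finset.mul_sum, Finset.sum_comm]
  have e2 : ∀ χ : Cfsg.IrrCharacter G, ∑ x : G, ∑ ψ : Cfsg.IrrCharacter G,
      (χ : G → ℂ) a * (ψ : G → ℂ) b * conj ((χ : G → ℂ) x * (ψ : G → ℂ) (x⁻¹ * c))
      = (Nat.card G : ℂ) * ((χ : G → ℂ) a * (χ : G → ℂ) b * conj ((χ : G → ℂ) c) / (χ : G → ℂ) 1) := by
    intro χ
    rw [Finset.sum_comm, Finset.sum_eq_single χ]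
    · rw [← Finset.mul_sum, ← map_sum, Cfsg.Agent.Lib.Helper25.sum_irr_conv χ.2 χ.2, if_pos rfl,
        map_div₀, map_mul, map_natCast, Cfsg.Agent.Lib.Helper7.conj_irr_one]
      ring
    · intro ψ _ hψ
      rw [← Finset.mul_sum, ← map_sum, Cfsg.Agent.Lib.Helper25.sum_irr_conv χ.2 ψ.2,
        if_neg (fun e => hψ (Subtype.ext e.symm)), map_zero, mul_zero]
    · intro hh
      exact absurd (Finset.mem_univ _) hh
  simp_rw [e2]
  rw [← Finset.mul_sum, hK, hK]
  have := hC a
  have := hC b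
  field_simp

end Cfsg.Agent.S0840
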