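import Cfsg.Statements.S0841
import Mathlib

set_option autoImplicit false
open Cfsg

namespace Cfsg.Agent.S0841

/-- If the commutator subgroup of G lies in the centre, then for all x, y in G and every natural number n one has (x * y) ^ n = x ^ n * y ^ n * c ^ (n * (n - 1) / 2) with c = y⁻¹ * x⁻¹ * y * x. -/
theorem result {G : Type*} [Group G] (hG : commutator G ≤ Subgroup.center G) (x y : G) (n : ℕ) : (x * y) ^ n = x ^ n * y ^ n * (y⁻¹ * x⁻¹ * y * x) ^ (n * (n - 1) / 2) := by
  have hc : y⁻¹ * x⁻¹ * y * x ∈ Subgroup.center G := by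
    apply hG
    have : y⁻¹ * x⁻¹ * y * x = y⁻¹ * x⁻¹ * y⁻¹⁻¹ * x⁻¹⁻¹ := by group
    rw [this]
    exact Subgroup.commutator_mem_commutator (Subgroup.mem_top _) (Subgroup.mem_top _)
  have hyx0 : y * x = x * y * (y⁻¹ * x⁻¹ * y * x) := by group
  generalize y⁻¹ * x⁻¹ * y * x = c at hc hyx0 ⊢
  have hcc : ∀ g : G, g * c = c * g := Subgroup.mem_center_iff.mp hc
  have hcp : ∀ (g : G) (k : ℕ), g * c ^ k = c ^ k * g := by
    intro g k
    exact (Commute.pow_right (hcc g) k)
  have hyx : ∀ k : ℕ, y ^ k * x = x * y ^ k * c ^ k := by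
    intro k
    induction k with
    | zero => simp
    | succ k ih =>
      calc y ^ (k + 1) * x = y * (y ^ k * x) := by rw [pow_succ']; group
        _ = y * (x * y ^ k * c ^ k) := by rw [ih]
        _ = (y * x) * y ^ k * c ^ k := by group
        _ = (x * y * c) * y ^ k * c ^ k := by rw [hyx0]
        _ = x * y * (c * y ^ k) * c ^ k := by group
        _ = x * y * (y ^ k * c) * c ^ k := by rw [hcc (y ^ k)]
        _ = x * y ^ (k + 1) * c ^ (k + 1) := by rw [pow_succ' y, pow_succ' c]; group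
  induction n with
  | zero => simp
  | succ n ih =>
    have htri : (n + 1) * (n + 1 - 1) / 2 = n * (n - 1) / 2 + n := Nat.triangle_succ n
    rw [htri]
    calc (x * y) ^ (n + 1) = (x * y) ^ n * (x * y) := pow_succ _ _
      _ = x ^ n * y ^ n * c ^ (n * (n - 1) / 2) * (x * y) := by rw [ih]
      _ = x ^ n * y ^ n * (c ^ (n * (n - 1) / 2) * (x * y)) := by group
      _ = x ^ n * y ^ n * ((x * y) * c ^ (n * (n - 1) / 2)) := by rw [hcp (x * y)]
      _ = x ^ n * (y ^ n * x) * y * c ^ (n * (n - 1) / 2) := by group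
      _ = x ^ n * (x * y ^ n * c ^ n) * y * c ^ (n * (n - 1) / 2) := by rw [hyx]
      _ = x ^ n * x * y ^ n * (c ^ n * y) * c ^ (n * (n - 1) / 2) := by group
      _ = x ^ n * x * y ^ n * (y * c ^ n) * c ^ (n * (n - 1) / 2) := by rw [hcp y]
      _ = x ^ (n + 1) * y ^ (n + 1) * c ^ (n * (n - 1) / 2 + n) := by
        rw [pow_succ x, pow_succ y, pow_add, hcp (c ^ (n * (n - 1) / 2))]
        group

end Cfsg.Agent.S0841
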