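import Cfsg.Statements.S0842
import Cfsg.Agent.Lib.Helper2.Quat4

set_option autoImplicit false
open Cfsg

namespace Cfsg.Agent.S0842

/-- Suppose a Sylow 2-subgroup S of the finite group G is generalized quaternion of order at least 16, and let D be the commutator subgroup of S, C its centralizer and N its normalizer in G. Then there is a subgroup K of odd order, contained in C and normalized by N, with K ⊔ S = N and K ⊔ (S ⊓ C) = C, and C has index 2 in N. -/
theorem result {G : Type*} [Group G] [Finite G] (S : Sylow 2 G) (n : ℕ) (e : (S : Subgroup G) ≃* QuaternionGroup (2 ^ (n + 2))) (D : Subgroup G) (hD : D = ⁅(S : Subgroup G), (S : Subgroup G)⁆) : ∃ K : Subgroup G, Odd (Nat.card K) ∧ K ≤ Subgroup.centralizer (D : Set G) ∧ Subgroup.normalizer (D : Set G) ≤ Subgroup.normalizer (K : Set G) ∧ K ⊔ (S : Subgroup G) = Subgroup.normalizer (D : Set G) ∧ K ⊔ ((S : Subgroup G) ⊓ Subgroup.centralizer (D : Set G)) = Subgroup.centralizer (D : Set G) ∧ ((Subgroup.centralizer (D : Set G)).subgroupOf (Subgroup.normalizer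 (D : Set G))).index = 2 := by
  obtain ⟨a, s, K, haS, hsS, hoa, hDz, hDcard, hSC, hconj, hSN, hNC, hKC, hKodd, hKsup, hKchar,
    hrel, hidx, hsup⟩ := Cfsg.Agent.Lib.Helper2.quat_local S n e D hD
  refine ⟨K, hKodd, hKC, ?_, ?_, ?_, hidx⟩
  · intro g hg
    rw [Subgroup.mem_normalizer_iff]
    intro x
    have h1 := (Subgroup.mem_normalizer_iff.1 (hNC hg)) x
    have h2 : orderOf (g * x * g⁻¹) = orderOf x := by
      have : g * x * g⁻¹ = MulAut.conj g x := by simp [MulAut.conj_apply]
      rw [this, MulEquiv.orderOf_eq]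
    rw [hKchar, hKchar, h2, h1]
  · have h1 : Subgroup.zpowers a ⊔ (S : Subgroup G) = S :=
      sup_eq_right.2 (Subgroup.zpowers_le.2 haS)
    rw [← hsup, ← hKsup, sup_assoc, h1]
  · rw [hSC, hKsup]

end Cfsg.Agent.S0842
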