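import Cfsg.Statements.S0845
import Cfsg.Agent.Lib.Helper2.Quat7

set_option autoImplicit false
open Cfsg

namespace Cfsg.Agent.S0845

open Cfsg.Agent.Lib.Helper2

/-- Suppose a Sylow 2-subgroup S of the finite group G is generalized quaternion of order at least 16. Then G has a normal subgroup M of even order such that G / M is non-abelian, that is, M does not contain the commutator subgroup of G. -/
theorem result {G : Type*} [Group G] [Finite G] (S : Sylow 2 G) (n : ℕ) (e : (S : Subgroup G) ≃* QuaternionGroup (2 ^ (n + 2))) : ∃ M : Subgroup G, M.Normal ∧ Even (Nat.card M) ∧ ¬ commutator G ≤ M := by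
  cases nonempty_fintype G
  have hne : NeZero (2 ^ (n + 2)) := ⟨by positivity⟩
  obtain ⟨a, χ₁, χ₂, haS, hoa, hinv, hχ₁, hχ₂, hne₁, hne₂, hdeg, hval, hne⟩ := quat_chars S n e
  have huniq : ∀ x ∈ S, ∀ y ∈ S, orderOf x = 2 → orderOf y = 2 → x = y :=
    fun x hx y hy hx2 hy2 => quat_unique_invol' _ e hx hy hx2 hy2
  have ht : orderOf (a ^ 2 ^ (n + 2)) = 2 := by
    rw [orderOf_pow_of_dvd (by positivity) (by rw [hoa]; exact pow_dvd_pow 2 (by omega)), hoa,
      pow_succ]
    exact Nat.mul_div_cancel_left _ (by positivity)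
  obtain ⟨hk1, hk2⟩ := invol_mem_ker hχ₁ hχ₂ hdeg hval ht (fun x y h4 => by
    have h1 := odd_orderOf_mul_invol S huniq
      (a := x * a ^ 2 ^ (n + 2) * x⁻¹) (b := y * a ^ 2 ^ (n + 2) * y⁻¹)
      (by rw [orderOf_conj', ht]) (by rw [orderOf_conj', ht])
    have h2 : 2 ∣ orderOf (x * a ^ 2 ^ (n + 2) * x⁻¹ * (y * a ^ 2 ^ (n + 2) * y⁻¹)) :=
      Dvd.dvd.trans (by norm_num) h4
    exact (Nat.not_even_iff_odd.2 h1) (even_iff_two_dvd.2 h2))
  obtain ⟨M, hMn, hM⟩ := IsCharacter.exists_ker (IsIrrCharacter.isCharacter hχ₁)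
  refine ⟨M, hMn, ?_, ?_⟩
  · rw [even_iff_two_dvd, ← ht]
    exact Subgroup.orderOf_dvd_natCard M ((hM _).2 hk1)
  · intro hle
    have h1 := IsIrrCharacter.apply_one_eq_one_of_commutator_le hχ₁
      (fun g hg => (hM g).1 (hle hg))
    apply IsIrrCharacter.apply_one_ne_zero hχ₂
    rw [h1] at hdeg
    linear_combination -hdeg

end Cfsg.Agent.S0845
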