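import Cfsg.Statements.S0846
import Cfsg.Agent.Lib.Helper2.Quat7

set_option autoImplicit false
open Cfsg

namespace Cfsg.Agent.S0846

open Cfsg.Agent.Lib.Helper2

/-- Suppose a Sylow 2-subgroup S of the finite group G is generalized quaternion of order at least 16. Then every Sylow 2-subgroup of the subgroup generated by the involutions of G is cyclic. -/
theorem result {G : Type*} [Group G] [Finite G] (S : Sylow 2 G) (n : ℕ) (e : (S : Subgroup G) ≃* QuaternionGroup (2 ^ (n + 2))) (Q : Sylow 2 ↥(Subgroup.closure {g : G | orderOf g = 2})) : IsCyclic Q := by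
  cases nonempty_fintype G
  have : Fact (Nat.Prime 2) := ⟨Nat.prime_two⟩
  have hne : NeZero (2 ^ (n + 2)) := ⟨by positivity⟩
  obtain ⟨a, χ₁, χ₂, haS, hoa, hinv, hχ₁, hχ₂, hne₁, hne₂, hdeg, hval, hne⟩ := quat_chars S n e
  have huniq : ∀ x ∈ S, ∀ y ∈ S, orderOf x = 2 → orderOf y = 2 → x = y :=
    fun x hx y hy hx2 hy2 => quat_unique_invol' _ e hx hy hx2 hy2
  suffices key : ∀ T : Subgroup G, T = Subgroup.closure {g : G | orderOf g = 2} →
      ∀ Q : Sylow 2 T, IsCyclic Q from key _ rfl Q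
  clear Q
  intro T hT Q
  obtain ⟨M₁, hM₁n, hM₁⟩ := IsCharacter.exists_ker (IsIrrCharacter.isCharacter hχ₁)
  obtain ⟨M₂, hM₂n, hM₂⟩ := IsCharacter.exists_ker (IsIrrCharacter.isCharacter hχ₂)
  have hTM : T ≤ M₁ ⊓ M₂ := by
    rw [hT, Subgroup.closure_le]
    intro t ht
    have ht : orderOf t = 2 := ht
    obtain ⟨hk1, hk2⟩ := invol_mem_ker hχ₁ hχ₂ hdeg hval ht (fun x y h4 => by
      have h1 := odd_orderOf_mul_invol S huniq
        (a := x * t * x⁻¹) (b := y * t * y⁻¹)
        (by rw [orderOf_conj', ht]) (by rw [orderOf_conj', ht])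
      have h2 : 2 ∣ orderOf (x * t * x⁻¹ * (y * t * y⁻¹)) :=
        Dvd.dvd.trans (by norm_num) h4
      exact (Nat.not_even_iff_odd.2 h1) (even_iff_two_dvd.2 h2))
    exact ⟨(hM₁ t).2 hk1, (hM₂ t).2 hk2⟩
  have ha2T : a ^ 2 ∉ T := by
    intro h
    obtain ⟨h1, h2⟩ := hTM h
    apply hne
    rw [(hM₁ _).1 h1, (hM₂ _).1 h2, hdeg]; ring
  have hTn : ∀ g x : G, x ∈ T → g * x * g⁻¹ ∈ T := by
    intro g x hx
    rw [hT] at hx ⊢
    induction hx using Subgroup.closure_induction with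
    | mem y hy =>
      apply Subgroup.subset_closure
      have hy : orderOf y = 2 := hy
      change orderOf (g * y * g⁻¹) = 2
      rw [orderOf_conj', hy]
    | one => simp
    | mul y z _ _ hy hz =>
      have : g * (y * z) * g⁻¹ = (g * y * g⁻¹) * (g * z * g⁻¹) := by group
      rw [this]; exact Subgroup.mul_mem _ hy hz
    | inv y _ hy =>
      have : g * y⁻¹ * g⁻¹ = (g * y * g⁻¹)⁻¹ := by group
      rw [this]; exact Subgroup.inv_mem _ hy
  have hST : ∀ x ∈ S, x ∈ T → x ∈ Subgroup.zpowers a := by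
    intro x hxS hxT
    by_contra hxa
    have h1 := hinv x hxS hxa
    apply ha2T
    have h2 : x * a⁻¹ * x⁻¹ = a := by
      have : x * a⁻¹ * x⁻¹ = (x * a * x⁻¹)⁻¹ := by group
      rw [this, h1, inv_inv]
    have h3 : a ^ 2 = (a * x * a⁻¹) * x⁻¹ := by
      calc a ^ 2 = a * (x * a⁻¹ * x⁻¹) := by rw [h2, sq]
        _ = _ := by group
    rw [h3]
    exact T.mul_mem (hTn a x hxT) (T.inv_mem hxT)
  have hQ' : IsPGroup 2 ((Q : Subgroup T).map T.subtype) := Q.2.map _
  obtain ⟨P, hP⟩ := hQ'.exists_le_sylow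
  obtain ⟨k, hk⟩ := MulAction.exists_smul_eq G S P
  let f : (Q : Subgroup T) →* G := (MulAut.conj k⁻¹).toMonoidHom.comp
    (T.subtype.comp (Q : Subgroup T).subtype)
  have hf : ∀ y, f y ∈ Subgroup.zpowers a := by
    intro y
    have h1 : ((y : T) : G) ∈ P := hP ⟨y, y.2, rfl⟩
    rw [← hk, Cfsg.Agent.Lib.Lead.mem_sylow_smul_iff] at h1
    have h2 : f y = k⁻¹ * ((y : T) : G) * k := by
      simp [f, MulAut.conj_apply]
    rw [h2]
    apply hST _ h1
    have := hTn k⁻¹ _ (y : T).2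
    rwa [inv_inv] at this
  have hinj : Function.Injective (f.codRestrict (Subgroup.zpowers a) hf) := by
    rw [MonoidHom.injective_codRestrict]
    exact (MulAut.conj k⁻¹).injective.comp
      ((Subgroup.subtype_injective _).comp (Subgroup.subtype_injective _))
  exact isCyclic_of_injective _ hinj

end Cfsg.Agent.S0846
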