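import Cfsg.Statements.S0847
import Cfsg.Agent.Lib.Helper2.Quat7
import Cfsg.Agent.S0846

set_option autoImplicit false
open Cfsg

namespace Cfsg.Agent.S0847

open Cfsg.Agent.Lib.Helper2

/-- The Brauer–Suzuki Theorem in the case of order at least 16: if a Sylow 2-subgroup S of the finite group G is generalized quaternion of order at least 16 and G has no nontrivial normal subgroup of odd order, then the centre of G has order 2. -/
theorem result {G : Type*} [Group G] [Finite G] (S : Sylow 2 G) (n : ℕ) (e : (S : Subgroup G) ≃* QuaternionGroup (2 ^ (n + 2))) (hO : ∀ N : Subgroup G, N.Normal → Odd (Nat.card N) → N = ⊥) : Nat.card (Subgroup.center G) = 2 := by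
  have : Fact (Nat.Prime 2) := ⟨Nat.prime_two⟩
  have hne : NeZero (2 ^ (n + 2)) := ⟨by positivity⟩
  have hq3 : 3 ≤ 2 ^ (n + 2) := by
    have : 1 ≤ 2 ^ n := Nat.one_le_two_pow
    rw [pow_add]; omega
  obtain ⟨a, s, haS, hsS, hoa, hcomm, hcent, hconj, hcard⟩ :=
    quat_structure (S : Subgroup G) (2 ^ (n + 2)) hq3 e
  have huniq : ∀ x ∈ S, ∀ y ∈ S, orderOf x = 2 → orderOf y = 2 → x = y :=
    fun x hx y hy hx2 hy2 => quat_unique_invol' _ e hx hy hx2 hy2
  obtain ⟨z, hz⟩ : ∃ z : G, z = a ^ 2 ^ (n + 2) := ⟨_, rfl⟩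
  have hz2 : orderOf z = 2 := by
    rw [hz, orderOf_pow_of_dvd (by positivity) (by rw [hoa]; exact dvd_mul_left _ _), hoa]
    exact Nat.mul_div_cancel _ (by positivity)
  obtain ⟨T, hT⟩ : ∃ T : Subgroup G, T = Subgroup.closure {g : G | orderOf g = 2} := ⟨_, rfl⟩
  have hTn : ∀ g x : G, x ∈ T → g * x * g⁻¹ ∈ T := by
    intro g x hx
    rw [hT] at hx ⊢
    induction hx using Subgroup.closure_induction with
    | mem y hy =>
      apply Subgroup.subset_closure
      have hy : orderOf y = 2 := hy
      change orderOf (g * y * g⁻¹) = 2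
      rw [orderOf_conj', hy]
    | one => simp
    | mul y z _ _ hy hz =>
      have : g * (y * z) * g⁻¹ = (g * y * g⁻¹) * (g * z * g⁻¹) := by group
      rw [this]; exact Subgroup.mul_mem _ hy hz
    | inv y _ hy =>
      have : g * y⁻¹ * g⁻¹ = (g * y * g⁻¹)⁻¹ := by group
      rw [this]; exact Subgroup.inv_mem _ hy
  -- `T` is cyclic
  have hTcyc : IsCyclic T := by
    have key : ∀ Q : Sylow 2 T, IsCyclic Q := by
      subst hT
      exact fun Q => Cfsg.Agent.S0846.result S n e Q
    obtain ⟨Q⟩ : Nonempty (Sylow 2 T) := inferInstance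
    have hQc := key Q
    have hAT : (Q : Subgroup T).map T.subtype ≤ T := by
      rintro _ ⟨y, _, rfl⟩; exact y.2
    have hAc : IsCyclic ((Q : Subgroup T).map T.subtype) :=
      isCyclic_of_surjective ((Q : Subgroup T).equivMapOfInjective T.subtype
        T.subtype_injective).toMonoidHom
        ((Q : Subgroup T).equivMapOfInjective T.subtype T.subtype_injective).surjective
    have hrel : ¬ 2 ∣ ((Q : Subgroup T).map T.subtype).relIndex T := by
      have h1 : ((Q : Subgroup T).map T.subtype).relIndex T = (Q : Subgroup T).index := by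
        have h2 : (⊤ : Subgroup T).map T.subtype = T := by
          rw [← MonoidHom.range_eq_map, Subgroup.range_subtype]
        have h3 := Subgroup.relIndex_map_map_of_injective (Q : Subgroup T) ⊤ T.subtype_injective
        rw [h2, Subgroup.relIndex_top_right] at h3
        exact h3
      rw [h1]; exact Q.not_dvd_index
    obtain ⟨K, hKT, hKodd, hKsup, hKchar, -⟩ :=
      exists_normal_two_complement T _ hAT (Q.2.map _) hAc hrel
    have hKn : K.Normal := ⟨fun x hx g => by
      rw [hKchar] at hx ⊢
      exact ⟨hTn g x hx.1, by rw [orderOf_conj']; exact hx.2⟩⟩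
    have hKbot := hO K hKn hKodd
    rw [hKbot, bot_sup_eq] at hKsup
    rw [← hKsup]; exact hAc
  -- hence `z` is the unique involution
  have hzuniq : ∀ t : G, orderOf t = 2 → t = z := by
    intro t ht
    have htT : t ∈ T := hT ▸ Subgroup.subset_closure ht
    have hzT : z ∈ T := hT ▸ Subgroup.subset_closure hz2
    have hc : Commute t z := by
      have h1 := hTcyc.isMulCommutative.is_comm.comm (⟨t, htT⟩ : T) ⟨z, hzT⟩
      exact congrArg Subtype.val h1
    exact eq_of_commute_invol S huniq ht hz2 hc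
  have hzc : z ∈ Subgroup.center G := by
    rw [Subgroup.mem_center_iff]
    intro g
    have h1 := hzuniq (g * z * g⁻¹) (by rw [orderOf_conj', hz2])
    exact mul_inv_eq_iff_eq_mul.1 h1
  have hcenter : Subgroup.center G = Subgroup.zpowers z := by
    apply le_antisymm
    · intro x hx
      have hxc : ∀ g : G, g * x = x * g := Subgroup.mem_center_iff.1 hx
      -- the odd part of `x` is trivial
      obtain ⟨k, r, hr, hkr⟩ := Nat.exists_eq_two_pow_mul_odd (orderOf_pos x).ne'
      have hxo : orderOf (x ^ 2 ^ k) = r := by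
        rw [orderOf_pow_of_dvd (by positivity) (by rw [hkr]; exact dvd_mul_right _ _), hkr]
        exact Nat.mul_div_cancel_left _ (by positivity)
      have hnorm : (Subgroup.zpowers (x ^ 2 ^ k)).Normal := ⟨fun y hy g => by
        obtain ⟨j, rfl⟩ := Subgroup.mem_zpowers_iff.1 hy
        have h1 : g * (x ^ 2 ^ k) ^ j * g⁻¹ = (x ^ 2 ^ k) ^ j := by
          have h2 : Commute g ((x ^ 2 ^ k) ^ j) :=
            ((show Commute g x from hxc g).pow_right _).zpow_right _
          rw [h2.eq, mul_inv_cancel_right]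
        rw [h1]; exact Subgroup.zpow_mem _ (Subgroup.mem_zpowers _) j⟩
      have hbot := hO _ hnorm (by rw [Nat.card_zpowers, hxo]; exact hr)
      have hr1 : r = 1 := by
        rw [← hxo, orderOf_eq_one_iff]
        have : x ^ 2 ^ k ∈ (⊥ : Subgroup G) := hbot ▸ Subgroup.mem_zpowers _
        exact Subgroup.mem_bot.1 this
      rw [hr1, mul_one] at hkr
      -- so `x` lies in `S`
      have hxS : x ∈ S := by
        have hp : IsPGroup 2 (Subgroup.zpowers x) :=
          IsPGroup.of_card (n := k) (by rw [Nat.card_zpowers, hkr])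
        obtain ⟨P, hP⟩ := hp.exists_le_sylow
        obtain ⟨g, hg⟩ := MulAction.exists_smul_eq G S P
        have h1 : x ∈ P := hP (Subgroup.mem_zpowers x)
        rw [← hg, Cfsg.Agent.Lib.Lead.mem_sylow_smul_iff] at h1
        have h2 : g⁻¹ * x * g = x := by rw [hxc g⁻¹, mul_assoc, inv_mul_cancel, mul_one]
        rwa [h2] at h1
      have hxa : x ∈ Subgroup.zpowers a := hcent x hxS (hxc _).symm
      obtain ⟨j, rfl⟩ := Subgroup.mem_zpowers_iff.1 hxa
      have h3 : s * a ^ j * s⁻¹ = (a ^ j)⁻¹ := by
        rw [← conj_zpow, hconj, inv_zpow]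
      have h4 : s * a ^ j * s⁻¹ = a ^ j := by rw [hxc s, mul_inv_cancel_right]
      have h5 : a ^ j * a ^ j = 1 := by
        have : (a ^ j)⁻¹ = a ^ j := h3.symm.trans h4
        calc a ^ j * a ^ j = (a ^ j)⁻¹ * a ^ j := by rw [this]
          _ = 1 := inv_mul_cancel _
      by_cases h1 : a ^ j = 1
      · rw [h1]; exact Subgroup.one_mem _
      · rw [hzuniq _ (Cfsg.Agent.Lib.Lead.orderOf_two_of h5 h1)]
        exact Subgroup.mem_zpowers z
    · rw [Subgroup.zpowers_le]; exact hzc
  rw [hcenter, Nat.card_zpowers, hz2]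

end Cfsg.Agent.S0847
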