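import Cfsg.Statements.S0849
import Cfsg.Agent.Lib.Helper25.Ind

set_option autoImplicit false
open Cfsg

namespace Cfsg.Agent.S0849

open Cfsg.Agent.Lib.Helper25

/-- Let H be a subgroup of a finite group G and S a subset of H that is mapped to itself under conjugation by H, is disjoint from its conjugate by any element outside H, and is closed under inverses. Let φ be a class function of H vanishing on H away from S, and let u, v be involutions of G. Then the sum of the induced function of φ over all products a * b with a conjugate to u and b conjugate to v equals the index of H times the sum of φ (a * b) over such pairs with a and b in H. -/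
theorem result {G : Type*} [Group G] [Fintype G] (H : Subgroup G) (S : Set G) (hSH : S ⊆ H) (hHS : ∀ h ∈ H, ∀ s ∈ S, h * s * h⁻¹ ∈ S) (hTI : ∀ g : G, g ∉ H → ∀ s ∈ S, g * s * g⁻¹ ∉ S) (hinv : ∀ s ∈ S, s⁻¹ ∈ S) (φ : H → ℂ) (hφ : Cfsg.IsClassFunction H φ) (hφS : ∀ x : H, (x : G) ∉ S → φ x = 0) (u v : G) (hu : orderOf u = 2) (hv : orderOf v = 2) : ∑ᶠ p ∈ {p : G × G | IsConj u p.1 ∧ IsConj v p.2}, Cfsg.indFun H φ (p.1 * p.2) = (H.index : ℂ) * ∑ᶠ p ∈ {p : H × H | IsConj u (p.1 : G) ∧ IsConj v (p.2 : G)}, φ (p.1 * p.2) := by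
  classical
  have hinvol : ∀ {w a : G}, orderOf w = 2 → IsConj w a → a * a = 1 := by
    intro w a hw hc
    obtain ⟨c, hc⟩ := isConj_iff.1 hc
    have hw2 : w * w = 1 := by
      have := pow_orderOf_eq_one w
      rwa [hw, pow_two] at this
    rw [← hc]
    calc c * w * c⁻¹ * (c * w * c⁻¹) = c * (w * w) * c⁻¹ := by group
      _ = 1 := by rw [hw2]; group
  rw [finsum_mem_def, finsum_mem_def, finsum_eq_sum_of_fintype, finsum_eq_sum_of_fintype]
  simp only [Set.indicator_apply, Set.mem_setOf_eq]
  set E : ℂ := ∑ p : G × G, if IsConj u p.1 ∧ IsConj v p.2 then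
    Cfsg.extendByZero H φ (p.1 * p.2) else 0 with hE
  have h1 : ∑ p : G × G, (if IsConj u p.1 ∧ IsConj v p.2 then Cfsg.indFun H φ (p.1 * p.2) else 0)
      = (H.index : ℂ) * E := by
    have hx : ∀ x : G, (∑ p : G × G, if IsConj u p.1 ∧ IsConj v p.2 then
        Cfsg.extendByZero H φ (x⁻¹ * (p.1 * p.2) * x) else 0) = E := by
      intro x
      rw [hE]
      apply Fintype.sum_equiv ((MulAut.conj x⁻¹).toEquiv.prodCongr (MulAut.conj x⁻¹).toEquiv)
      rintro ⟨a, b⟩
      have e1 : IsConj u (x⁻¹ * a * x) ↔ IsConj u a := by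
        constructor
        · intro h
          exact h.trans (isConj_iff.2 ⟨x, by group⟩)
        · intro h
          exact h.trans (isConj_iff.2 ⟨x⁻¹, by group⟩)
      have e2 : IsConj v (x⁻¹ * b * x) ↔ IsConj v b := by
        constructor
        · intro h
          exact h.trans (isConj_iff.2 ⟨x, by group⟩)
        · intro h
          exact h.trans (isConj_iff.2 ⟨x⁻¹, by group⟩)
      simp only [Equiv.prodCongr_apply, Prod.map_apply, MulEquiv.toEquiv_eq_coe, EquivLike.coe_coe,
        MulAut.conj_apply, inv_inv, e1, e2]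
      have e3 : x⁻¹ * a * x * (x⁻¹ * b * x) = x⁻¹ * (a * b) * x := by group
      rw [e3]
    have h2 : ∀ p : G × G, (if IsConj u p.1 ∧ IsConj v p.2 then Cfsg.indFun H φ (p.1 * p.2) else 0)
        = (Nat.card H : ℂ)⁻¹ * ∑ x : G, (if IsConj u p.1 ∧ IsConj v p.2 then
        Cfsg.extendByZero H φ (x⁻¹ * (p.1 * p.2) * x) else 0) := by
      intro p
      split_ifs with h
      · rfl
      · simp
    simp only [h2]
    rw [← Finset.mul_sum, Finset.sum_comm, Finset.sum_congr rfl (fun x _ => hx x), Finset.sum_const,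
      Finset.card_univ, nsmul_eq_mul, ← mul_assoc, ← Nat.card_eq_fintype_card]
    congr 1
    have hH0 : (Nat.card H : ℂ) ≠ 0 := by exact_mod_cast Nat.card_pos.ne'
    rw [← H.card_mul_index]
    push_cast
    field_simp
  rw [h1]
  congr 1
  rw [hE]
  symm
  apply Fintype.sum_of_injective (fun p : H × H => ((p.1 : G), (p.2 : G)))
  · rintro ⟨a, b⟩ ⟨c, d⟩ h
    simp only [Prod.mk.injEq] at h
    exact Prod.ext (Subtype.ext h.1) (Subtype.ext h.2)
  · rintro ⟨a, b⟩ hnr
    simp only
    split_ifs with hc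
    swap
    · rfl
    by_contra hne
    apply hnr
    have habH : a * b ∈ H := by
      by_contra hn
      exact hne (extendByZero_not_mem H φ hn)
    rw [extendByZero_mem H φ habH] at hne
    have habS : a * b ∈ S := by
      by_contra hn
      exact hne (hφS ⟨a * b, habH⟩ hn)
    have ha2 := hinvol hu hc.1
    have hb2 := hinvol hv hc.2
    have hainv : a⁻¹ = a := inv_eq_of_mul_eq_one_left ha2
    have hbinv : b⁻¹ = b := inv_eq_of_mul_eq_one_left hb2
    have haH : a ∈ H := by
      by_contra hn
      apply hTI a hn (a * b) habS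
      have : a * (a * b) * a⁻¹ = (a * b)⁻¹ := by
        rw [mul_inv_rev, hainv, hbinv, ← mul_assoc, ha2, one_mul]
      rw [this]
      exact hinv _ habS
    have hbH : b ∈ H := by
      have := H.mul_mem (H.inv_mem haH) habH
      simpa using this
    exact ⟨(⟨a, haH⟩, ⟨b, hbH⟩), rfl⟩
  · rintro ⟨a, b⟩
    simp only
    split_ifs with hc
    · have : ((a : G) * (b : G)) = ((a * b : H) : G) := rfl
      rw [this, extendByZero_coe]
    · rfl

end Cfsg.Agent.S0849
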