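import Cfsg.Statements.S0850
import Cfsg.Agent.Lib.Helper25.Ind
import Mathlib.GroupTheory.PGroup

set_option autoImplicit false
open Cfsg

namespace Cfsg.Agent.S0850

open Cfsg.Agent.Lib.Helper25 Cfsg.Agent.Lib

/-- Let K be a subgroup of the finite group G that meets each conjugate by an element outside its normalizer N trivially, is properly contained in N, and contains the centralizer of each of its non-identity elements (a T.I. subgroup with Frobenius normalizer). Then no element of N outside K is conjugate in G to an element of K, and for every class function ϑ of N that vanishes on N away from K and at the identity, the function induced from ϑ to G agrees with ϑ on all of N. -/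
theorem result {G : Type*} [Group G] [Fintype G] (K : Subgroup G) (hTI : ∀ g : G, g ∉ Subgroup.normalizer (K : Set G) → ∀ k ∈ K, g * k * g⁻¹ ∈ K → k = 1) (hlt : K < Subgroup.normalizer (K : Set G)) (hC : ∀ k ∈ K, k ≠ 1 → Subgroup.centralizer ({k} : Set G) ≤ K) : (∀ x ∈ Subgroup.normalizer (K : Set G), x ∉ K → ∀ g : G, g * x * g⁻¹ ∉ K) ∧ ∀ (ϑ : Subgroup.normalizer (K : Set G) → ℂ), Cfsg.IsClassFunction (Subgroup.normalizer (K : Set G)) ϑ → (∀ x : Subgroup.normalizer (K : Set G), (x : G) ∉ K → ϑ x = 0) → ϑ 1 = 0 → ∀ x : Subgroup.normalizer (K : Set G), Cfsg.indFun (Subgroup.normalizer (K : Set G)) ϑ x = ϑ x := by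
  classical
  set N := Subgroup.normalizer (K : Set G) with hN
  have hnorm : ∀ z ∈ N, ∀ k ∈ K, z * k * z⁻¹ ∈ K := by
    intro z hz k hk
    exact (Subgroup.mem_normalizer_iff.1 hz k).1 hk
  have part1 : ∀ x ∈ N, x ∉ K → ∀ g : G, g * x * g⁻¹ ∉ K := by
    intro x hx hxK g hy
    have hx1 : x ≠ 1 := fun h => hxK (h ▸ K.one_mem)
    have hgN : g ∉ N := by
      intro hg
      apply hxK
      have := hnorm g⁻¹ (N.inv_mem hg) _ hy
      have e : g⁻¹ * (g * x * g⁻¹) * g⁻¹⁻¹ = x := by group
      rwa [e] at this
    -- a power of prime order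
    have hord : orderOf x ≠ 1 := by
      intro h
      exact hx1 (orderOf_eq_one_iff.1 h)
    obtain ⟨p, hp, hpd⟩ := Nat.exists_prime_and_dvd hord
    haveI : Fact p.Prime := ⟨hp⟩
    obtain ⟨m, hm⟩ := hpd
    set x' := x ^ m with hx'
    have hox' : orderOf x' = p := by
      have hpos : 0 < orderOf x := orderOf_pos x
      have hm0 : m ≠ 0 := by
        rintro rfl
        rw [mul_zero] at hm
        exact hpos.ne' hm
      have : orderOf x' = orderOf x / m := by
        rw [hx']
        exact orderOf_pow_of_dvd hm0 ⟨p, by rw [hm, mul_comm]⟩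
      rw [this, hm, Nat.mul_div_cancel _ (Nat.pos_of_ne_zero hm0)]
    have hx'N : x' ∈ N := N.pow_mem hx m
    have hy' : g * x' * g⁻¹ ∈ K := by
      have : g * x' * g⁻¹ = (g * x * g⁻¹) ^ m := by
        rw [hx', conj_pow]
      rw [this]
      exact K.pow_mem hy m
    have hx'1 : x' ≠ 1 := by
      intro h
      rw [h, orderOf_one] at hox'
      exact hp.one_lt.ne hox'
    have hy'1 : g * x' * g⁻¹ ≠ 1 := by
      intro h
      apply hx'1
      have : x' = g⁻¹ * (g * x' * g⁻¹) * g := by group
      rw [this, h]; group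
    have hpK : p ∣ Nat.card K := by
      have h1 : orderOf (⟨g * x' * g⁻¹, hy'⟩ : K) = p := by
        rw [← hox', ← Subgroup.orderOf_coe]
        exact (MulAut.conj g).orderOf_eq x'
      rw [← h1]
      exact orderOf_dvd_natCard _
    letI act : MulAction (Subgroup.zpowers x') K :=
      { smul := fun z k => ⟨z * k * z⁻¹, hnorm z ((Subgroup.zpowers_le.2 hx'N) z.2) k k.2⟩
        one_smul := fun k => Subtype.ext (by
          show ((1 : Subgroup.zpowers x') : G) * k * ((1 : Subgroup.zpowers x') : G)⁻¹ = k
          simp)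
        mul_smul := fun a b k => Subtype.ext (by
          show ((a * b : Subgroup.zpowers x') : G) * k * ((a * b : Subgroup.zpowers x') : G)⁻¹
            = (a : G) * ((b : G) * k * (b : G)⁻¹) * (a : G)⁻¹
          simp only [Subgroup.coe_mul]
          group) }
    have hPG : IsPGroup p (Subgroup.zpowers x') := by
      apply IsPGroup.of_card (n := 1)
      rw [Nat.card_zpowers, hox', pow_one]
    have hfix1 : (1 : K) ∈ MulAction.fixedPoints (Subgroup.zpowers x') K := by
      intro z
      apply Subtype.ext
      show (z : G) * ((1 : K) : G) * (z : G)⁻¹ = ((1 : K) : G)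
      simp
    obtain ⟨b, hb, hb1⟩ := hPG.exists_fixed_point_of_prime_dvd_card_of_fixed_point K hpK hfix1
    have hbx : x' * b * x'⁻¹ = b := by
      have := hb ⟨x', Subgroup.mem_zpowers x'⟩
      exact congrArg Subtype.val this
    -- g b g⁻¹ centralizes g x' g⁻¹
    have hcen : g * b * g⁻¹ ∈ Subgroup.centralizer ({g * x' * g⁻¹} : Set G) := by
      rw [Subgroup.mem_centralizer_singleton_iff]
      have e : x' * b = b * x' := by
        calc x' * b = x' * b * x'⁻¹ * x' := by group
          _ = b * x' := by rw [hbx]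
      calc g * b * g⁻¹ * (g * x' * g⁻¹) = g * (b * x') * g⁻¹ := by group
        _ = g * (x' * b) * g⁻¹ := by rw [e]
        _ = g * x' * g⁻¹ * (g * b * g⁻¹) := by group
    have hgb : g * b * g⁻¹ ∈ K := hC _ hy' hy'1 hcen
    have := hTI g hgN b b.2 hgb
    exact hb1 (Subtype.ext this.symm)
  refine ⟨part1, ?_⟩
  intro ϑ hϑ hoff h1 x
  have hNc : (Nat.card N : ℂ) ≠ 0 := by exact_mod_cast Nat.card_pos.ne'
  rw [indFun_apply]
  by_cases hxK : (x : G) ∈ K
  · by_cases hx1 : (x : G) = 1
    · have hx1' : x = 1 := Subtype.ext hx1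
      have h2 : ∀ y : G, extendByZero N ϑ (y⁻¹ * x * y) = 0 := by
        intro y
        have : y⁻¹ * (x : G) * y = ((1 : N) : G) := by rw [hx1]; simp
        rw [this, extendByZero_coe, h1]
      simp_rw [h2]
      rw [hx1', h1]
      simp
    · have h2 : ∀ y : G, extendByZero N ϑ (y⁻¹ * x * y) = if y ∈ N then ϑ x else 0 := by
        intro y
        split_ifs with hy
        · have hm : y⁻¹ * x * y ∈ N := N.mul_mem (N.mul_mem (N.inv_mem hy) x.2) hy
          rw [extendByZero_mem N ϑ hm]
          have := hϑ x (⟨y, hy⟩⁻¹ : N)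
          rw [← this]
          congr 1
          apply Subtype.ext
          simp
        · by_cases hm : y⁻¹ * x * y ∈ N
          · rw [extendByZero_mem N ϑ hm]
            apply hoff
            intro hmK
            apply hx1
            apply hTI y⁻¹ (fun h => hy (by simpa using N.inv_mem h)) x hxK
            simpa using hmK
          · exact extendByZero_not_mem N ϑ hm
      simp_rw [h2]
      rw [← Finset.sum_filter, Finset.sum_const, nsmul_eq_mul]
      have h3 : (Finset.univ.filter (fun y : G => y ∈ N)).card = Nat.card N := by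
        rw [Nat.card_eq_fintype_card, Fintype.card_subtype]
      rw [h3, ← mul_assoc, inv_mul_cancel₀ hNc, one_mul]
  · have h2 : ∀ y : G, extendByZero N ϑ (y⁻¹ * x * y) = 0 := by
      intro y
      by_cases hm : y⁻¹ * x * y ∈ N
      · rw [extendByZero_mem N ϑ hm]
        apply hoff
        intro hmK
        apply part1 x x.2 hxK y⁻¹
        simpa using hmK
      · exact extendByZero_not_mem N ϑ hm
    simp_rw [h2]
    rw [hoff x hxK]
    simp

end Cfsg.Agent.S0850
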