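import Cfsg.Statements.S0851
import Cfsg.Agent.Lib.Helper24.TIFrob2
import Cfsg.Agent.Lib.Helper25.Ito
import Cfsg.Agent.S0170

set_option autoImplicit false
open Cfsg

namespace Cfsg.Agent.S0851


open Cfsg.Agent.Lib.Helper7 Cfsg.Agent.Lib.Helper24.TIFrob
open scoped ComplexConjugate

theorem deg_eq_index {N : Type*} [Group N] [Fintype N] (H : Subgroup N) [hH : H.Normal]
    (hC : ∀ h ∈ H, h ≠ 1 → Subgroup.centralizer ({h} : Set N) ≤ H)
    (hab : ∀ a ∈ H, ∀ b ∈ H, a * b = b * a) {χ : N → ℂ} (hχ : IsIrrCharacter N χ)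
    (hrel : ∃ h ∈ H, χ h ≠ χ 1) : χ 1 = (H.index : ℂ) := by
  classical
  haveI : IsMulCommutative H := ⟨⟨fun a b => Subtype.ext (hab a a.2 b b.2)⟩⟩
  obtain ⟨θ, hθ, hc⟩ := Cfsg.Agent.Lib.Helper25.exists_irr_constituent
    (isCharacter_restrict (isCharacter_of_irr hχ) H) (by
      intro h0
      have := congrFun h0 1
      exact irr_apply_one_ne_zero hχ this)
  have hθ1 : θ 1 = 1 := irr_apply_one_of_comm hθ
  have hθne : θ ≠ fun _ => 1 := by
    intro e
    apply hc
    rw [e]
    have h0 := sum_eq_zero H hχ hrel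
    rw [sum_indicator_eq] at h0
    simp only [classInner, map_one, mul_one]
    rw [h0, mul_zero]
  obtain ⟨φ, hφ⟩ := exists_hom_of_linear (isCharacter_of_irr hθ) hθ1
  have hT : ∀ g : N, g ∈ H ↔ ∀ h : H, θ ⟨g * h * g⁻¹, hH.conj_mem h h.2 g⟩ = θ h := by
    intro g
    constructor
    · intro hg h
      congr 1
      apply Subtype.ext
      show g * h * g⁻¹ = h
      rw [hab g hg h h.2, mul_assoc, mul_inv_cancel, mul_one]
    · intro hinv
      by_contra hg
      apply hθne
      let c : H → H := fun h => ⟨g * h * g⁻¹, hH.conj_mem h h.2 g⟩ * h⁻¹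
      have hcinj : Function.Injective c := by
        intro h h' e
        have e' : g * h * g⁻¹ * (h : N)⁻¹ = g * h' * g⁻¹ * (h' : N)⁻¹ := congrArg Subtype.val e
        by_contra hne
        have hu : (h' : N)⁻¹ * h ∈ H := H.mul_mem (H.inv_mem h'.2) h.2
        have hu1 : (h' : N)⁻¹ * h ≠ 1 := by
          intro e1
          apply hne
          apply Subtype.ext
          exact (inv_mul_eq_one.mp e1).symm
        apply hg
        apply hC _ hu hu1
        rw [Subgroup.mem_centralizer_singleton_iff]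
        have x1 : g * h * g⁻¹ ∈ H := hH.conj_mem h h.2 g
        have y1 : g * h' * g⁻¹ ∈ H := hH.conj_mem h' h'.2 g
        -- y⁻¹ x = h'⁻¹ h
        have k1 : (g * h' * g⁻¹)⁻¹ * (g * h * g⁻¹) = (h' : N)⁻¹ * h := by
          have k2 : g * h * g⁻¹ = g * h' * g⁻¹ * (h' : N)⁻¹ * h := by
            rw [← e']; group
          rw [k2]; group
        have k3 : (g * h' * g⁻¹)⁻¹ * (g * h * g⁻¹) = g * ((h' : N)⁻¹ * h) * g⁻¹ := by group
        rw [k3] at k1
        calc g * ((h' : N)⁻¹ * h) = g * ((h' : N)⁻¹ * h) * g⁻¹ * g := by group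
          _ = (h' : N)⁻¹ * h * g := by rw [k1]
      have hcsurj : Function.Surjective c := Finite.injective_iff_surjective.mp hcinj
      funext k
      obtain ⟨h, rfl⟩ := hcsurj k
      rw [hφ, map_mul, map_inv]
      have e1 := hinv h
      rw [hφ, hφ] at e1
      have e2 : φ ⟨g * h * g⁻¹, hH.conj_mem h h.2 g⟩ = φ h := Units.ext e1
      rw [e2, mul_inv_cancel]
      rfl
  have hdeg := Cfsg.Agent.Lib.Helper25.clifford_degree H hχ hθ hc H hT
  obtain ⟨a, ha⟩ := classInner_char_nat (isCharacter_restrict (isCharacter_of_irr hχ) H)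
    (isCharacter_of_irr hθ)
  have ha' : classInner (fun n : H => χ n) θ = a := ha
  obtain ⟨d, hd, hdvd⟩ := Cfsg.Agent.Lib.Helper25.ito_aux _ N rfl H hab χ hχ
  rw [ha', hθ1, mul_one, hd] at hdeg
  have hdeg' : d = a * H.index := by exact_mod_cast hdeg
  have ha0 : a ≠ 0 := by
    rintro rfl
    apply hc
    rw [ha']; simp
  have he0 : 0 < H.index := Nat.pos_of_ne_zero Subgroup.index_ne_zero_of_finite
  have hle : a * H.index ≤ H.index := by
    rw [← hdeg']; exact Nat.le_of_dvd he0 hdvd
  have ha1 : a = 1 := by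
    have : a ≤ 1 := by
      by_contra h
      push Not at h
      nlinarith
    omega
  rw [hd, hdeg', ha1, one_mul]


/-- Let K be a subgroup of the finite group G that meets each conjugate by an element outside its normalizer N trivially, is properly contained in N, and contains the centralizer of each of its non-identity elements (a T.I. subgroup with Frobenius normalizer). Suppose K is abelian, let e be the index of K in N, and call an irreducible character of N relevant when it takes at some element of K a value different from its degree. Then either there is exactly one relevant character and K is an elementary abelian p-group of order e + 1 for some prime p, or there are a sign ε and an injective map f from the relevant characters to the irreducible characters of G such that inducing χ - ξ to G gives ε (f χ - f ξ) for all relevant χ and ξ. -/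
theorem result {G : Type*} [Group G] [Fintype G] (K : Subgroup G) (hTI : ∀ g : G, g ∉ Subgroup.normalizer (K : Set G) → ∀ k ∈ K, g * k * g⁻¹ ∈ K → k = 1) (hlt : K < Subgroup.normalizer (K : Set G)) (hC : ∀ k ∈ K, k ≠ 1 → Subgroup.centralizer ({k} : Set G) ≤ K) (hab : ∀ a ∈ K, ∀ b ∈ K, a * b = b * a) : (Nat.card {χ : Cfsg.IrrCharacter (Subgroup.normalizer (K : Set G)) // ∃ k : Subgroup.normalizer (K : Set G), (k : G) ∈ K ∧ (χ : ↥(Subgroup.normalizer (K : Set G)) → ℂ) k ≠ (χ : ↥(Subgroup.normalizer (K : Set G)) → ℂ) 1} = 1 ∧ ∃ p : ℕ, p.Prime ∧ Cfsg.IsElementaryAbelian p K ∧ Nat.card K = (K.subgroupOf (Subgroup.normalizer (K : Set G))).index + 1) ∨ ∃ (ε : ℂ) (f : {χ : Cfsg.IrrCharacter (Subgroup.normalizer (K : Set G)) // ∃ k : Subgroup.normalizer (K : Set G), (k : G) ∈ K ∧ (χ : ↥(Subgroup.normalizer (K : Set G)) → ℂ) k ≠ (χ : ↥(Subgroup.normalizer (K : Set G)) → ℂ) 1} → Cfsg.IrrCharacter G), (ε = 1 ∨ ε = -1) ∧ Function.Injective f ∧ ∀ χ ξ, Cfsg.indFun (Subgroup.normalizer (K : Set G)) ((χ.1 : ↥(Subgroup.normalizer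 (K : Set G)) → ℂ) - (ξ.1 : ↥(Subgroup.normalizer (K : Set G)) → ℂ)) = ε • ((f χ : G → ℂ) - (f ξ : G → ℂ)) := by
  classical
  right
  haveI : Fintype ↥(Subgroup.normalizer (K : Set G)) := Fintype.ofFinite _
  haveI : Fintype {χ : Cfsg.IrrCharacter (Subgroup.normalizer (K : Set G)) //
      ∃ k : Subgroup.normalizer (K : Set G), (k : G) ∈ K ∧
        (χ : ↥(Subgroup.normalizer (K : Set G)) → ℂ) k ≠
          (χ : ↥(Subgroup.normalizer (K : Set G)) → ℂ) 1} := Fintype.ofFinite _
  have hC' : ∀ h ∈ K.subgroupOf (Subgroup.normalizer (K : Set G)), h ≠ 1 →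
      Subgroup.centralizer ({h} : Set ↥(Subgroup.normalizer (K : Set G))) ≤
        K.subgroupOf (Subgroup.normalizer (K : Set G)) := by
    intro h hh h1 c hc
    rw [Subgroup.mem_subgroupOf]
    apply hC (h : G) hh (fun e => h1 (Subtype.ext e))
    rw [Subgroup.mem_centralizer_singleton_iff] at hc ⊢
    exact congrArg Subtype.val hc
  have hab' : ∀ a ∈ K.subgroupOf (Subgroup.normalizer (K : Set G)),
      ∀ b ∈ K.subgroupOf (Subgroup.normalizer (K : Set G)), a * b = b * a := by
    intro a ha b hb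
    exact Subtype.ext (hab a ha b hb)
  by_cases hn : 2 ≤ Fintype.card {χ : Cfsg.IrrCharacter (Subgroup.normalizer (K : Set G)) //
      ∃ k : Subgroup.normalizer (K : Set G), (k : G) ∈ K ∧
        (χ : ↥(Subgroup.normalizer (K : Set G)) → ℂ) k ≠
          (χ : ↥(Subgroup.normalizer (K : Set G)) → ℂ) 1}
  · obtain ⟨ε, hε, θ, hθirr, hθinj, hθ⟩ := Cfsg.Agent.S0170.result (K : Set G) hlt.le hTI _ hn
      (fun i => (((Fintype.equivFin _).symm i).1 : ↥(Subgroup.normalizer (K : Set G)) → ℂ))
      (fun i => ((Fintype.equivFin _).symm i).1.2)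
      (by
        intro i j hij
        exact (Fintype.equivFin _).symm.injective (Subtype.ext (Subtype.ext hij)))
      (by
        intro i x hx
        exact vanish_off _ hC' ((Fintype.equivFin _).symm i).1.2 ((Fintype.equivFin _).symm i).2 hx)
      (by
        intro i j
        rw [deg_eq_index _ hC' hab' ((Fintype.equivFin _).symm i).1.2 ((Fintype.equivFin _).symm i).2,
          deg_eq_index _ hC' hab' ((Fintype.equivFin _).symm j).1.2 ((Fintype.equivFin _).symm j).2])
    refine ⟨ε, fun t => ⟨θ (Fintype.equivFin _ t), hθirr _⟩, hε, ?_, ?_⟩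
    · intro t t' h
      exact (Fintype.equivFin _).injective (hθinj (congrArg Subtype.val h))
    · intro χ ξ
      rw [Cfsg.Agent.Lib.Helper2.indFun_sub]
      have := hθ (Fintype.equivFin _ χ) (Fintype.equivFin _ ξ)
      simpa using this
  · have hsub : Subsingleton {χ : Cfsg.IrrCharacter (Subgroup.normalizer (K : Set G)) //
      ∃ k : Subgroup.normalizer (K : Set G), (k : G) ∈ K ∧
        (χ : ↥(Subgroup.normalizer (K : Set G)) → ℂ) k ≠
          (χ : ↥(Subgroup.normalizer (K : Set G)) → ℂ) 1} :=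
      Fintype.card_le_one_iff_subsingleton.mp (by omega)
    refine ⟨1, fun _ => ⟨fun _ => 1, isIrrCharacter_one⟩, Or.inl rfl,
      fun a b _ => Subsingleton.elim a b, ?_⟩
    intro χ ξ
    rw [Subsingleton.elim χ ξ, Cfsg.Agent.Lib.Helper2.indFun_sub, sub_self, sub_self, smul_zero]

end Cfsg.Agent.S0851
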