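import Cfsg.Statements.S0852
import Cfsg.Agent.Lib.Helper24.TIFrob2

set_option autoImplicit false
open Cfsg

namespace Cfsg.Agent.S0852


open Cfsg.Agent.Lib.Helper7 Cfsg.Agent.Lib.Helper11 Cfsg.Agent.Lib.Helper24.Coh
open Cfsg.Agent.Lib.Helper24.TIFrob
open scoped ComplexConjugate


/-- Let K be a subgroup of the finite group G that meets each conjugate by an element outside its normalizer N trivially, is properly contained in N, and contains the centralizer of each of its non-identity elements (a T.I. subgroup with Frobenius normalizer). Let S be the set of irreducible characters of N taking at some element of K a value different from their degree, suppose S has at least two members, and let star be a linear isometry on the integer span of S into the generalized characters of G that agrees with induction on the members vanishing at the identity (so S is coherent, with star as the extending isometry). Then an irreducible character ψ of G is of the form star χ or -star χ for some χ in S if and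 only if ψ is not constant on the non-identity elements of K. -/
theorem result {G : Type*} [Group G] [Fintype G] (K : Subgroup G) (hTI : ∀ g : G, g ∉ Subgroup.normalizer (K : Set G) → ∀ k ∈ K, g * k * g⁻¹ ∈ K → k = 1) (hlt : K < Subgroup.normalizer (K : Set G)) (hC : ∀ k ∈ K, k ≠ 1 → Subgroup.centralizer ({k} : Set G) ≤ K) [Fintype ↥(Subgroup.normalizer (K : Set G))] (S : Set (↥(Subgroup.normalizer (K : Set G)) → ℂ)) (hS : S = {χ : ↥(Subgroup.normalizer (K : Set G)) → ℂ | Cfsg.IsIrrCharacter ↥(Subgroup.normalizer (K : Set G)) χ ∧ ∃ k : ↥(Subgroup.normalizer (K : Set G)), (k : G) ∈ K ∧ χ k ≠ χ 1}) (htwo : ∃ χ ∈ S, ∃ ξ ∈ S, χ ≠ ξ) (star : (↥(Subgroup.normalizer (K : Set G)) → ℂ) → (G → ℂ)) (hstar : Cfsg.IsLinearIsometryOn (Cfsg.zspan S) star) (hext : ∀ α ∈ Cfsg.zspanOn S ({1}ᶜ : Set ↥(Subgroup.normalizer (K : Set G))), star α = Cfsg.indFun (Subgroup.normalizer (K : Set G)) α) (ψ : G → ℂ) (hψ : Cfsg.IsIrrCharacter G ψ) : (∃ χ ∈ S, ψ = star χ ∨ ψ = -star χ) ↔ ∃ a ∈ K, ∃ b ∈ K, a ≠ 1 ∧ b ≠ 1 ∧ ψ a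 ≠ ψ b := by
  classical
  have hKN : K ≤ Subgroup.normalizer (K : Set G) := hlt.le
  have hC' : ∀ h ∈ K.subgroupOf (Subgroup.normalizer (K : Set G)), h ≠ 1 →
      Subgroup.centralizer ({h} : Set ↥(Subgroup.normalizer (K : Set G))) ≤
        K.subgroupOf (Subgroup.normalizer (K : Set G)) := by
    intro h hh h1 c hc
    rw [Subgroup.mem_subgroupOf]
    apply hC (h : G) hh (fun e => h1 (Subtype.ext e))
    rw [Subgroup.mem_centralizer_singleton_iff] at hc ⊢
    exact congrArg Subtype.val hc
  have hS' : S = {χ | IsIrrCharacter ↥(Subgroup.normalizer (K : Set G)) χ ∧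
      ∃ h ∈ K.subgroupOf (Subgroup.normalizer (K : Set G)), χ h ≠ χ 1} := hS
  have hirr : ∀ χ ∈ S, IsIrrCharacter ↥(Subgroup.normalizer (K : Set G)) χ := by
    intro χ hχ; rw [hS] at hχ; exact hχ.1
  have hrel : ∀ χ ∈ S, ∃ h ∈ K.subgroupOf (Subgroup.normalizer (K : Set G)), χ h ≠ χ 1 := by
    intro χ hχ; rw [hS] at hχ; exact hχ.2
  have hψg : IsGeneralizedCharacter G ψ := genChar_of_irr hψ
  constructor
  · rintro ⟨ζ, hζ, hψζ⟩
    by_contra hcon
    push Not at hcon
    have cζ := subset_zspan hζ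
    obtain ⟨C, hCc⟩ := const_of_star (Subgroup.normalizer (K : Set G))
      (K.subgroupOf (Subgroup.normalizer (K : Set G))) S hS' (star ζ)
      (genChar_isClassFunction (hstar.2.2.2 ζ cζ)) ζ
      (isClassFunction_of_isCharacter (isCharacter_of_irr (hirr ζ hζ)))
      (by
        intro θ hθ
        rw [← hext θ hθ, hstar.2.2.1 θ hθ.1 ζ cζ])
    have hstarconst : ∀ a ∈ K, ∀ b ∈ K, a ≠ 1 → b ≠ 1 → star ζ a = star ζ b := by
      intro a ha b hb ha1 hb1
      have := hcon a ha b hb ha1 hb1
      rcases hψζ with e | e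
      · rw [e] at this; exact this
      · rw [e] at this
        simpa using this
    obtain ⟨k₀, hk₀, hk₀ne⟩ := hrel ζ hζ
    have hk₀1 : k₀ ≠ 1 := fun e => hk₀ne (by rw [e])
    have hfC : ∀ h ∈ K.subgroupOf (Subgroup.normalizer (K : Set G)), h ≠ 1 → ζ h = ζ k₀ := by
      intro h hh h1
      have e1 := hCc h hh h1
      have e2 := hCc k₀ hk₀ hk₀1
      have e3 := hstarconst (h : G) hh (k₀ : G) hk₀ (fun e => h1 (Subtype.ext e))
        (fun e => hk₀1 (Subtype.ext e))
      rw [e3] at e1
      have : star ζ (k₀ : G) - ζ h = star ζ (k₀ : G) - ζ k₀ := by rw [e1, e2]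
      exact sub_right_injective this
    obtain ⟨ξ, hξ, hξne⟩ : ∃ ξ ∈ S, ξ ≠ ζ := by
      obtain ⟨x₁, hx₁, x₂, hx₂, hx⟩ := htwo
      by_cases h : x₁ = ζ
      · exact ⟨x₂, hx₂, fun e => hx (h.trans e.symm)⟩
      · exact ⟨x₁, hx₁, h⟩
    have h1 := inner_of_const _ hC' hfC (hirr ξ hξ) (hrel ξ hξ)
    rw [classInner_irr_ne (hirr ζ hζ) (hirr ξ hξ) hξne.symm] at h1
    have hc : (Nat.card ↥(Subgroup.normalizer (K : Set G)) : ℂ)⁻¹ ≠ 0 :=
      inv_ne_zero (by exact_mod_cast Nat.card_pos.ne')
    have h2 := (mul_eq_zero.mp h1.symm).resolve_left hc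
    have h3 := (mul_eq_zero.mp h2).resolve_right (irr_apply_one_ne_zero (hirr ξ hξ))
    exact hk₀ne (sub_eq_zero.mp h3).symm
  · rintro ⟨a, ha, b, hb, ha1, hb1, hab⟩
    by_contra hcon
    push Not at hcon
    have hgen : ∀ χ ∈ S, classInner (star χ) ψ = 0 := by
      intro χ hχ
      by_contra hne
      have cχ := subset_zspan hχ
      have n1 : classInner (star χ) (star χ) = 1 := by
        rw [hstar.2.2.1 χ cχ χ cχ, classInner_irr_self (hirr χ hχ)]
      rcases norm_one_eq_or_neg (hstar.2.2.2 χ cχ) n1 hψg (classInner_irr_self hψ) hne with e | e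
      · exact (hcon χ hχ).1 e.symm
      · exact (hcon χ hχ).2 (by rw [e, neg_neg])
    have hall : ∀ θ ∈ zspan S, classInner (star θ) ψ = 0 := by
      intro θ hθ
      induction hθ using Submodule.span_induction with
      | mem x hx => exact hgen x hx
      | zero => rw [iso_zero hstar]; exact classInner_zero_left _
      | add u v hu' hv' hu hv => rw [hstar.1 u hu' v hv', classInner_add_left, hu, hv, add_zero]
      | smul n u hu' hu => rw [hstar.2.1 u hu' n, classInner_zsmul_left, hu, mul_zero]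
    obtain ⟨C, hCc⟩ := const_of_star (Subgroup.normalizer (K : Set G))
      (K.subgroupOf (Subgroup.normalizer (K : Set G))) S hS' ψ
      (genChar_isClassFunction hψg) 0 (fun _ _ => rfl)
      (by
        intro θ hθ
        rw [← hext θ hθ, hall θ hθ.1, classInner_zero_right])
    apply hab
    have e1 := hCc ⟨a, hKN ha⟩ ha (fun e => ha1 (congrArg Subtype.val e))
    have e2 := hCc ⟨b, hKN hb⟩ hb (fun e => hb1 (congrArg Subtype.val e))
    simp only [Pi.zero_apply, sub_zero] at e1 e2
    rw [e1, e2]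

end Cfsg.Agent.S0852
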