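import Cfsg.Statements.S4455
import Cfsg.Agent.Lib.Helper25.PRes1

set_option autoImplicit false
open Cfsg

namespace Cfsg.Agent.S4455

open Cfsg.Agent.Lib.Helper25

/-- Fix a prime p and a finite group G. Let s be the sum of χ(1)² over the irreducible characters χ of G whose degree is not divisible by p and whose determinantal order o(χ) is not divisible by p. Then the order of O^p(G), the subgroup generated by the elements of order prime to p, is congruent to s modulo p. -/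
theorem result {G : Type*} [Group G] [Finite G] (p : ℕ) (hp : p.Prime) : (Nat.card (Cfsg.pResidual p G) : ℤ) ≡ (∑ᶠ χ ∈ {χ : Cfsg.IrrCharacter G | ¬ p ∣ Cfsg.charDegree (χ : G → ℂ) ∧ ¬ p ∣ Cfsg.detOrder (χ : G → ℂ)}, (Cfsg.charDegree (χ : G → ℂ) : ℤ) ^ 2) [ZMOD p] := by
  classical
  have : Fact p.Prime := ⟨hp⟩
  cases nonempty_fintype G
  have hNn : (Cfsg.pResidual p G).Normal := inferInstance
  obtain ⟨k, hk⟩ : ∃ k, (Cfsg.pResidual p G).index = p ^ k := by
    obtain ⟨n, hn⟩ := IsPGroup.iff_card.mp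
      (Cfsg.Agent.Lib.Helper17.pResidual_quotient_isPGroup (G := G) (p := p))
    exact ⟨n, by rw [Subgroup.index_eq_card]; exact hn⟩
  obtain ⟨P⟩ : Nonempty (Sylow p G) := inferInstance
  have hsup := Cfsg.Agent.Lib.Helper17.pResidual_sup_sylow P
  have hnorm : ∀ m ∈ (P : Subgroup G), ∀ n ∈ Cfsg.pResidual p G, m * n * m⁻¹ ∈ Cfsg.pResidual p G :=
    fun m _ n hn => hNn.conj_mem n hn m
  have hact : ActsP p (Cfsg.pResidual p G) (P : Subgroup G) := by
    intro s hs
    obtain ⟨j, hj⟩ := P.2 ⟨s, hs⟩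
    refine ⟨j, fun g _ => ?_⟩
    have : s ^ p ^ j = 1 := congrArg Subtype.val hj
    rw [this, one_mul, mul_one]
  have := Cfsg.Agent.Lib.Helper2.finite_irrCharacter (G := G)
  have := Cfsg.Agent.Lib.Helper2.finite_irrCharacter (G := Cfsg.pResidual p G)
  cases nonempty_fintype (Cfsg.IrrCharacter G)
  cases nonempty_fintype (Cfsg.IrrCharacter (Cfsg.pResidual p G))
  -- step 1
  have hsq : ∑ θ : Cfsg.IrrCharacter (Cfsg.pResidual p G),
      (Cfsg.charDegree (θ : Cfsg.pResidual p G → ℂ)) ^ 2 = Nat.card (Cfsg.pResidual p G) := by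
    have h1 := Cfsg.Agent.Lib.Helper7.sum_sq_degrees (G := Cfsg.pResidual p G)
    have h2 : ∀ θ : Cfsg.IrrCharacter (Cfsg.pResidual p G),
        (θ : Cfsg.pResidual p G → ℂ) 1 = (Cfsg.charDegree (θ : Cfsg.pResidual p G → ℂ) : ℂ) := by
      intro θ
      obtain ⟨d, -, hd⟩ := Cfsg.Agent.Lib.Helper7.irr_apply_one θ.2
      rw [charDegree_eq hd, hd]
    simp only [h2] at h1
    exact_mod_cast h1
  have hd1 : p ∣ ∑ θ ∈ Finset.univ.filter (fun θ : Cfsg.IrrCharacter (Cfsg.pResidual p G) =>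
      ¬ InvUnder (Cfsg.pResidual p G) (P : Subgroup G) (θ : Cfsg.pResidual p G → ℂ)),
      (Cfsg.charDegree (θ : Cfsg.pResidual p G → ℂ)) ^ 2 := by
    apply dvd_sum_not_fixed hp (irrAct (Cfsg.pResidual p G) (P : Subgroup G) hnorm)
      (isPGroup_irrAct _ _ hnorm hact)
    · rintro _ ⟨m, rfl⟩ θ
      have : ((((irrPerm (Cfsg.pResidual p G)).comp (conjAutHom _ _ hnorm)) m θ :
          Cfsg.IrrCharacter (Cfsg.pResidual p G)) : Cfsg.pResidual p G → ℂ) 1
          = (θ : Cfsg.pResidual p G → ℂ) 1 := by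
        show (θ : Cfsg.pResidual p G → ℂ) ((conjAutHom _ _ hnorm m).symm 1) = _
        rw [map_one]
      unfold Cfsg.charDegree
      rw [this]
    · intro θ
      rw [Finset.mem_filter, irrAct_fixed_iff]
      simp
  have hd2 : p ∣ ∑ θ ∈ (Finset.univ.filter (fun θ : Cfsg.IrrCharacter (Cfsg.pResidual p G) =>
      InvUnder (Cfsg.pResidual p G) (P : Subgroup G) (θ : Cfsg.pResidual p G → ℂ))).filter
        (fun θ : Cfsg.IrrCharacter (Cfsg.pResidual p G) => ¬ ¬ p ∣ Cfsg.charDegree (θ : Cfsg.pResidual p G → ℂ)),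
      (Cfsg.charDegree (θ : Cfsg.pResidual p G → ℂ)) ^ 2 := by
    apply Finset.dvd_sum
    intro θ hθ
    have := (Finset.mem_filter.1 hθ).2
    rw [not_not] at this
    exact Dvd.dvd.trans this (dvd_pow_self _ two_ne_zero)
  have hstep1 : (Nat.card (Cfsg.pResidual p G) : ℤ) ≡
      ((∑ θ ∈ (Finset.univ.filter (fun θ : Cfsg.IrrCharacter (Cfsg.pResidual p G) =>
      InvUnder (Cfsg.pResidual p G) (P : Subgroup G) (θ : Cfsg.pResidual p G → ℂ))).filter
        (fun θ : Cfsg.IrrCharacter (Cfsg.pResidual p G) => ¬ p ∣ Cfsg.charDegree (θ : Cfsg.pResidual p G → ℂ)),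
      (Cfsg.charDegree (θ : Cfsg.pResidual p G → ℂ)) ^ 2 : ℕ) : ℤ) [ZMOD p] := by
    rw [← hsq, ← Finset.sum_filter_add_sum_filter_not Finset.univ
      (fun θ : Cfsg.IrrCharacter (Cfsg.pResidual p G) =>
      InvUnder (Cfsg.pResidual p G) (P : Subgroup G) (θ : Cfsg.pResidual p G → ℂ)),
      ← Finset.sum_filter_add_sum_filter_not (Finset.univ.filter
      (fun θ : Cfsg.IrrCharacter (Cfsg.pResidual p G) =>
      InvUnder (Cfsg.pResidual p G) (P : Subgroup G) (θ : Cfsg.pResidual p G → ℂ)))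
      (fun θ : Cfsg.IrrCharacter (Cfsg.pResidual p G) => ¬ p ∣ Cfsg.charDegree (θ : Cfsg.pResidual p G → ℂ))]
    obtain ⟨c1, hc1⟩ := hd1
    obtain ⟨c2, hc2⟩ := hd2
    rw [hc1, hc2]
    push_cast
    rw [Int.modEq_iff_dvd]
    exact ⟨-(c1 + c2), by ring⟩
  refine hstep1.trans ?_
  have hA : {χ : Cfsg.IrrCharacter G | ¬ p ∣ Cfsg.charDegree (χ : G → ℂ) ∧
      ¬ p ∣ Cfsg.detOrder (χ : G → ℂ)} = ↑(Finset.univ.filter (fun χ : Cfsg.IrrCharacter G =>
      ¬ p ∣ Cfsg.charDegree (χ : G → ℂ) ∧ ¬ p ∣ Cfsg.detOrder (χ : G → ℂ))) := by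
    ext χ
    simp
  rw [hA, finsum_mem_coe_finset]
  push_cast
  unfold Int.ModEq
  congr 1
  symm
  have hdegres : ∀ χ : G → ℂ, Cfsg.charDegree (fun n : Cfsg.pResidual p G => χ n)
      = Cfsg.charDegree χ := fun χ => rfl
  apply Finset.sum_bij (fun (χ : Cfsg.IrrCharacter G) hχ =>
    (⟨fun n : Cfsg.pResidual p G => (χ : G → ℂ) n,
      restrict_irr_of_not_dvd hp _ hk χ.2 (Finset.mem_filter.1 hχ).2.1⟩ :
      Cfsg.IrrCharacter (Cfsg.pResidual p G)))
  · intro χ hχ
    rw [Finset.mem_filter, Finset.mem_filter]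
    refine ⟨⟨Finset.mem_univ _, ?_⟩, (Finset.mem_filter.1 hχ).2.1⟩
    intro s _ g g' hg
    show (χ : G → ℂ) g' = (χ : G → ℂ) g
    rw [hg]
    exact Cfsg.Agent.Lib.Helper7.isClassFunction_of_isCharacter
      (Cfsg.Agent.Lib.Helper7.isCharacter_of_irr χ.2) g s
  · intro χ hχ χ' hχ' h
    have hres : ∀ n : Cfsg.pResidual p G, (χ : G → ℂ) n = (χ' : G → ℂ) n :=
      fun n => congrFun (congrArg Subtype.val h) n
    have hθ := restrict_irr_of_not_dvd hp _ hk χ'.2 (Finset.mem_filter.1 hχ').2.1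
    obtain ⟨d, -, hd⟩ := Cfsg.Agent.Lib.Helper7.irr_apply_one χ'.2
    have hpd : ¬ p ∣ d := by
      have := (Finset.mem_filter.1 hχ').2.1
      rwa [charDegree_eq hd] at this
    have hcf := Cfsg.Agent.Lib.Helper7.isClassFunction_of_isCharacter
      (Cfsg.Agent.Lib.Helper7.isCharacter_of_irr χ'.2)
    obtain ⟨χ₀, -, huniq⟩ := Cfsg.Agent.S0867.result (Cfsg.pResidual p G)
      (fun n : Cfsg.pResidual p G => (χ' : G → ℂ) n) hθ (fun g n => hcf n g) d
      (by simpa using hd) (by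
        rw [hk]
        apply Nat.Coprime.pow_left
        apply Nat.Coprime.mul_right
        · exact (detOrder_coprime_pResidual hp
            (Cfsg.Agent.Lib.Helper7.isCharacter_of_irr hθ)).symm
        · exact (Nat.Prime.coprime_iff_not_dvd hp).2 hpd)
    apply Subtype.ext
    rw [huniq χ χ.2 hres (by
        rw [hk]
        exact Nat.Coprime.pow_left _ ((Nat.Prime.coprime_iff_not_dvd hp).2
          (Finset.mem_filter.1 hχ).2.2)),
      huniq χ' χ'.2 (fun _ => rfl) (by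
        rw [hk]
        exact Nat.Coprime.pow_left _ ((Nat.Prime.coprime_iff_not_dvd hp).2
          (Finset.mem_filter.1 hχ').2.2))]
  · intro θ hθ
    rw [Finset.mem_filter, Finset.mem_filter] at hθ
    obtain ⟨⟨-, hinv⟩, hpθ⟩ := hθ
    obtain ⟨d, -, hd⟩ := Cfsg.Agent.Lib.Helper7.irr_apply_one θ.2
    have hθc := Cfsg.Agent.Lib.Helper7.isCharacter_of_irr θ.2
    rw [charDegree_eq hd] at hpθ
    have hco := detOrder_coprime_pResidual hp hθc
    obtain ⟨χ₀, ⟨hχ₀, hχ₀N, hχ₀d⟩, -⟩ := Cfsg.Agent.S0867.result (Cfsg.pResidual p G)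
      (θ : Cfsg.pResidual p G → ℂ) θ.2
      (invariant_of_sup_eq_top _ _ hsup
        (Cfsg.Agent.Lib.Helper7.isClassFunction_of_isCharacter hθc) hinv) d hd (by
        rw [hk]
        apply Nat.Coprime.pow_left
        apply Nat.Coprime.mul_right
        · exact hco.symm
        · exact (Nat.Prime.coprime_iff_not_dvd hp).2 hpθ)
    have hd0 : χ₀ 1 = d := by
      have := hχ₀N 1
      rw [OneMemClass.coe_one] at this
      rw [this, hd]
    refine ⟨⟨χ₀, hχ₀⟩, ?_, ?_⟩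
    · rw [Finset.mem_filter]
      refine ⟨Finset.mem_univ _, ?_, ?_⟩
      · show ¬ p ∣ Cfsg.charDegree χ₀
        rw [charDegree_eq hd0]
        exact hpθ
      · show ¬ p ∣ Cfsg.detOrder χ₀
        rw [hχ₀d]
        exact (Nat.Prime.coprime_iff_not_dvd hp).1 hco.symm
    · apply Subtype.ext
      funext n
      exact hχ₀N n
  · intro χ hχ
    rfl

end Cfsg.Agent.S4455
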