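import Cfsg.Statements.S4456
import Cfsg.Agent.S4455
import Cfsg.Agent.Lib.Helper25.PRes2

set_option autoImplicit false
open Cfsg

namespace Cfsg.Agent.S4456

open Cfsg.Agent.Lib.Helper25

/-- Let p be a prime and G a finite group such that p divides the degree of every irreducible character of G of degree greater than one. Then G has a normal p-complement: a normal subgroup of order prime to p whose index is a power of p. -/
theorem result {G : Type*} [Group G] [Finite G] (p : ℕ) (hp : p.Prime) (hdeg : ∀ χ : Cfsg.IrrCharacter G, Cfsg.charDegree (χ : G → ℂ) ≠ 1 → p ∣ Cfsg.charDegree (χ : G → ℂ)) : ∃ N : Subgroup G, N.Normal ∧ (Nat.card N).Coprime p ∧ ∃ k : ℕ, N.index = p ^ k := by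
  classical
  have : Fact p.Prime := ⟨hp⟩
  have hNn : (Cfsg.pResidual p G).Normal := inferInstance
  obtain ⟨k, hk⟩ : ∃ k, (Cfsg.pResidual p G).index = p ^ k := by
    obtain ⟨n, hn⟩ := IsPGroup.iff_card.mp
      (Cfsg.Agent.Lib.Helper17.pResidual_quotient_isPGroup (G := G) (p := p))
    exact ⟨n, by rw [Subgroup.index_eq_card]; exact hn⟩
  refine ⟨Cfsg.pResidual p G, hNn, ?_, k, hk⟩
  have := Cfsg.Agent.Lib.Helper2.finite_irrCharacter (G := G)
  cases nonempty_fintype (Cfsg.IrrCharacter G)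
  have hfin : Finite (G →* ℂˣ) := finite_hom_units
  have hKp := not_dvd_card_coprime_order (Λ := G →* ℂˣ) hp
  have hcard : Nat.card {f : G →* ℂˣ // (orderOf f).Coprime p} =
      (Finset.univ.filter (fun χ : Cfsg.IrrCharacter G =>
      ¬ p ∣ Cfsg.charDegree (χ : G → ℂ) ∧ ¬ p ∣ Cfsg.detOrder (χ : G → ℂ))).card := by
    rw [← Fintype.card_subtype, ← Nat.card_eq_fintype_card]
    apply Nat.card_congr
    refine Equiv.ofBijective (fun f => ⟨⟨fun g => ((f : G →* ℂˣ) g : ℂ),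
      Cfsg.Agent.Lib.Helper7.isIrrCharacter_of_hom _⟩, ?_, ?_⟩) ⟨?_, ?_⟩
    · show ¬ p ∣ Cfsg.charDegree (fun g => ((f : G →* ℂˣ) g : ℂ))
      rw [charDegree_eq (d := 1) (by simp)]
      exact hp.one_lt.ne' ∘ Nat.dvd_one.1
    · show ¬ p ∣ Cfsg.detOrder (fun g => ((f : G →* ℂˣ) g : ℂ))
      rw [detOrder_hom]
      exact (Nat.Prime.coprime_iff_not_dvd hp).1 f.2.symm
    · intro f f' h
      apply Subtype.ext
      ext g
      exact congrFun (congrArg (fun z => (z.1 : G → ℂ)) h) g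
    · rintro ⟨χ, hχ1, hχ2⟩
      have hdeg1 : Cfsg.charDegree (χ : G → ℂ) = 1 := by
        by_contra hne
        exact hχ1 (hdeg χ hne)
      obtain ⟨d, -, hd⟩ := Cfsg.Agent.Lib.Helper7.irr_apply_one χ.2
      rw [charDegree_eq hd] at hdeg1
      rw [hdeg1, Nat.cast_one] at hd
      obtain ⟨f, hf⟩ := Cfsg.Agent.Lib.Helper7.exists_hom_of_linear
        (Cfsg.Agent.Lib.Helper7.isCharacter_of_irr χ.2) hd
      have hχf : (χ : G → ℂ) = fun g => (f g : ℂ) := funext hf
      rw [hχf, detOrder_hom] at hχ2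
      refine ⟨⟨f, ((Nat.Prime.coprime_iff_not_dvd hp).2 hχ2).symm⟩, ?_⟩
      apply Subtype.ext
      apply Subtype.ext
      exact hχf.symm
  have hmain := Cfsg.Agent.S4455.result (G := G) p hp
  have hA : {χ : Cfsg.IrrCharacter G | ¬ p ∣ Cfsg.charDegree (χ : G → ℂ) ∧
      ¬ p ∣ Cfsg.detOrder (χ : G → ℂ)} = ↑(Finset.univ.filter (fun χ : Cfsg.IrrCharacter G =>
      ¬ p ∣ Cfsg.charDegree (χ : G → ℂ) ∧ ¬ p ∣ Cfsg.detOrder (χ : G → ℂ))) := by
    ext χ
    simp
  rw [hA, finsum_mem_coe_finset] at hmain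
  have hone : ∀ χ ∈ Finset.univ.filter (fun χ : Cfsg.IrrCharacter G =>
      ¬ p ∣ Cfsg.charDegree (χ : G → ℂ) ∧ ¬ p ∣ Cfsg.detOrder (χ : G → ℂ)),
      (Cfsg.charDegree (χ : G → ℂ) : ℤ) ^ 2 = 1 := by
    intro χ hχ
    have hdeg1 : Cfsg.charDegree (χ : G → ℂ) = 1 := by
      by_contra hne
      exact (Finset.mem_filter.1 hχ).2.1 (hdeg χ hne)
    rw [hdeg1]
    simp
  rw [Finset.sum_congr rfl hone, Finset.sum_const, ← hcard] at hmain
  simp only [nsmul_eq_mul, mul_one] at hmain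
  apply Nat.Coprime.symm
  rw [Nat.Prime.coprime_iff_not_dvd hp]
  intro hdvd
  apply hKp
  have h1 : (p : ℤ) ∣ (Nat.card (Cfsg.pResidual p G) : ℤ) := by exact_mod_cast hdvd
  have h2 := (Int.ModEq.dvd_iff hmain).1 h1
  exact_mod_cast h2

end Cfsg.Agent.S4456
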