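import Cfsg.Statements.S0855
import Cfsg.Agent.S4456
import Cfsg.Agent.Lib.Helper25.PRes3
import Cfsg.Agent.Lib.Helper26.ProjExt3
import Cfsg.Agent.Lib.Helper25.Ito

set_option autoImplicit false
open Cfsg

namespace Cfsg.Agent.S0855

open Cfsg.Agent.Lib.Helper25

/-- For a finite group G and a prime p: every irreducible character of G has degree a power of p if and only if G has an abelian normal subgroup whose order is prime to p and whose index is a power of p. -/
theorem result {G : Type*} [Group G] [Finite G] (p : ℕ) (hp : p.Prime) : (∀ χ : Cfsg.IrrCharacter G, ∃ k : ℕ, (χ : G → ℂ) 1 = (p : ℂ) ^ k) ↔ ∃ A : Subgroup G, A.Normal ∧ (∀ a ∈ A, ∀ b ∈ A, a * b = b * a) ∧ Nat.Coprime (Nat.card A) p ∧ ∃ k : ℕ, A.index = p ^ k := by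
  classical
  cases nonempty_fintype G
  constructor
  · intro hall
    have hdeg : ∀ χ : Cfsg.IrrCharacter G, Cfsg.charDegree (χ : G → ℂ) ≠ 1 →
        p ∣ Cfsg.charDegree (χ : G → ℂ) := by
      intro χ hne
      obtain ⟨k, hk⟩ := hall χ
      have hk' : (χ : G → ℂ) 1 = ((p ^ k : ℕ) : ℂ) := by rw [hk]; push_cast; rfl
      rw [charDegree_eq hk'] at hne ⊢
      rcases Nat.eq_zero_or_pos k with rfl | hpos
      · simp at hne
      · exact dvd_pow_self p hpos.ne'
    obtain ⟨N, hNn, hNp, k, hk⟩ := Cfsg.Agent.S4456.result p hp hdeg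
    refine ⟨N, hNn, ?_, hNp, k, hk⟩
    have hlin : ∀ θ : Cfsg.IrrCharacter N, (θ : N → ℂ) 1 = 1 := by
      intro θ
      obtain ⟨χ, hχ, hconst⟩ := Cfsg.Agent.Lib.Helper26.exists_irr_over N θ.2
      obtain ⟨t, ht0, ht⟩ := Cfsg.Agent.Lib.Helper7.irr_apply_one θ.2
      obtain ⟨a, ha⟩ := Cfsg.Agent.Lib.Helper7.classInner_char_nat
        (Cfsg.Agent.Lib.Helper7.isCharacter_restrict
          (Cfsg.Agent.Lib.Helper7.isCharacter_of_irr hχ) N)
        (Cfsg.Agent.Lib.Helper7.isCharacter_of_irr θ.2)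
      have hdegree := clifford_degree N hχ θ.2 hconst (inertia N (θ : N → ℂ))
        (mem_inertia N (θ : N → ℂ))
      obtain ⟨j, hj⟩ := hall ⟨χ, hχ⟩
      rw [show χ 1 = (p : ℂ) ^ j from hj, ha, ht] at hdegree
      have hdegree' : p ^ j = a * ((inertia N (θ : N → ℂ)).index * t) := by exact_mod_cast hdegree
      have h1 : t ∣ p ^ j := ⟨a * (inertia N (θ : N → ℂ)).index, by rw [hdegree']; ring⟩
      have h2 : t ∣ Nat.card N := by
        have := Cfsg.Agent.Lib.Helper7.charDegree_dvd_card θ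
        rwa [charDegree_eq ht] at this
      have h3 : t = 1 := Nat.eq_one_of_dvd_coprimes (Nat.Coprime.pow_right j hNp) h2 h1
      rw [ht, h3, Nat.cast_one]
    intro a ha b hb
    exact congrArg Subtype.val (comm_of_forall_linear hlin ⟨a, ha⟩ ⟨b, hb⟩)
  · rintro ⟨A, hAn, hAc, -, k, hk⟩ χ
    obtain ⟨d, hd, hdvd⟩ := ito_aux _ G rfl A hAc χ χ.2
    rw [hk] at hdvd
    obtain ⟨j, -, rfl⟩ := (Nat.dvd_prime_pow hp).1 hdvd
    exact ⟨j, by rw [hd]; push_cast; rfl⟩

end Cfsg.Agent.S0855
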