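import Cfsg.Statements.S0859
import Cfsg.Agent.Lib.Helper25.AGroup2

set_option autoImplicit false
open Cfsg

namespace Cfsg.Agent.S0859

open Cfsg.Agent.Lib.Helper25

/-- Let G be a finite solvable group and N a normal subgroup such that for every prime p every Sylow p-subgroup of N is abelian. Suppose every irreducible character of G is induced from an irreducible character of some subgroup containing N whose restriction to N is irreducible. Then every irreducible character of G is induced from a character of degree 1 of some subgroup. -/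
theorem result {G : Type*} [Group G] [Fintype G] [Group.IsSolvable G] (N : Subgroup G) [N.Normal] (hab : ∀ (p : ℕ) [Fact p.Prime] (P : Sylow p N), ∀ a ∈ P, ∀ b ∈ P, a * b = b * a) (hrel : ∀ χ : G → ℂ, Cfsg.IsIrrCharacter G χ → ∃ (H : Subgroup G) (hNH : N ≤ H) (ψ : H → ℂ), Cfsg.IsIrrCharacter H ψ ∧ Cfsg.indFun H ψ = χ ∧ Cfsg.IsIrrCharacter N (fun n : N => ψ ⟨(n : G), hNH n.2⟩)) (χ : G → ℂ) (hχ : Cfsg.IsIrrCharacter G χ) : ∃ (U : Subgroup G) (lam : U → ℂ), Cfsg.IsCharacter U lam ∧ lam 1 = 1 ∧ Cfsg.indFun U lam = χ := by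
  classical
  obtain ⟨H, hNH, ψ, hψ, hind, hres⟩ := hrel χ hχ
  have hA : AGroup N := agroup_of_sylow hab
  have hA' : AGroup (N.subgroupOf H) :=
    hA.of_injective (Subgroup.subgroupOfEquivOfLe hNH).toMonoidHom
      (Subgroup.subgroupOfEquivOfLe hNH).injective
  have hirr : Cfsg.IsIrrCharacter (N.subgroupOf H) (fun x : N.subgroupOf H => ψ x) :=
    isIrrCharacter_subgroupOf N hNH hres
  obtain ⟨U', μ, hμ⟩ := agroup_monomial_aux _ H rfl (N.subgroupOf H) inferInstance hA' ψ hψ hirr
  obtain ⟨U, hUH, rfl⟩ : ∃ U : Subgroup G, U ≤ H ∧ U' = U.subgroupOf H :=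
    ⟨U'.map H.subtype, Subgroup.map_subtype_le U',
      (Subgroup.comap_map_eq_self_of_injective H.subtype_injective U').symm⟩
  let ν : U →* ℂˣ := μ.comp (Subgroup.subgroupOfEquivOfLe hUH).symm.toMonoidHom
  refine ⟨U, fun u => (ν u : ℂ), Cfsg.Agent.Lib.Helper7.isCharacter_of_irr
    (Cfsg.Agent.Lib.Helper7.isIrrCharacter_of_hom ν), by simp, ?_⟩
  rw [← hind, hμ, ← indFun_trans U H hUH]
  congr 2

end Cfsg.Agent.S0859
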