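import Cfsg.Statements.S0860
import Cfsg.Agent.Lib.Helper2.CharPerm

set_option autoImplicit false
open Cfsg

namespace Cfsg.Agent.S0860

/-- Let a group A act on the set of irreducible characters and on the set of conjugacy classes of a finite group G in such a way that (a • χ) evaluated on the class a • C equals χ evaluated on C, for all a, χ and C. Then every element of A fixes exactly as many irreducible characters as it fixes conjugacy classes. -/
theorem result {G : Type*} [Group G] [Finite G] {A : Type*} [Group A] [MulAction A (Cfsg.IrrCharacter G)] [MulAction A (ConjClasses G)] (hcompat : ∀ (a : A) (χ : Cfsg.IrrCharacter G) (g g' : G), ConjClasses.mk g' = a • ConjClasses.mk g → ((a • χ : Cfsg.IrrCharacter G) : G → ℂ) g' = (χ : G → ℂ) g) (a : A) : Nat.card {χ : Cfsg.IrrCharacter G // a • χ = χ} = Nat.card {C : ConjClasses G // a • C = C} := by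
  classical
  let β : G → G := fun g => Quotient.out (a⁻¹ • ConjClasses.mk g)
  have hβ : ∀ g, ConjClasses.mk (β g) = a⁻¹ • ConjClasses.mk g := fun g => Quotient.out_eq _
  have hcomp : ∀ χ : Cfsg.IrrCharacter G, (χ : G → ℂ) ∘ β = ((a • χ : Cfsg.IrrCharacter G) : G → ℂ) := by
    intro χ
    funext g
    symm
    apply hcompat a χ (β g) g
    rw [hβ, smul_inv_smul]
  have h1 := Cfsg.Agent.Lib.Helper2.card_fixed_irr β
    (fun χ hχ => by
      have := hcomp ⟨χ, hχ⟩
      rw [show χ ∘ β = ((a • (⟨χ, hχ⟩ : Cfsg.IrrCharacter G) : Cfsg.IrrCharacter G) : G → ℂ) from this]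
      exact (a • (⟨χ, hχ⟩ : Cfsg.IrrCharacter G)).2)
    (fun C => a • C = C)
    (fun g => by
      rw [← ConjClasses.mk_eq_mk_iff_isConj, hβ, eq_inv_smul_iff])
  rw [← h1]
  apply Nat.card_congr
  apply Equiv.subtypeEquivRight
  intro χ
  rw [hcomp]
  exact ⟨fun h => congrArg Subtype.val h, fun h => Subtype.ext h⟩

end Cfsg.Agent.S0860
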