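import Cfsg.Statements.S0864
import Cfsg.Agent.Lib.Helper25.LinExt

set_option autoImplicit false
open Cfsg

namespace Cfsg.Agent.S0864

/-- Let N be a normal subgroup of the finite group G and λ a character of N of degree 1 invariant under conjugation by G. Suppose that for every prime p dividing the order of λ (in the group of functions under pointwise multiplication) there is a subgroup H containing N, of index prime to p and with the index of N in H a power of p, together with a character of H of degree 1 restricting to λ. Then λ is the restriction of a character of G of degree 1. -/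
theorem result {G : Type*} [Group G] [Finite G] (N : Subgroup G) [hN : N.Normal] (lam : N → ℂ) (hlam : Cfsg.IsCharacter N lam ∧ lam 1 = 1) (hinv : ∀ (g : G) (n : N), lam ⟨g * n * g⁻¹, hN.conj_mem (n : G) n.2 g⟩ = lam n) (hsyl : ∀ p : ℕ, p.Prime → p ∣ orderOf lam → ∃ (H : Subgroup G) (hNH : N ≤ H) (ν : H → ℂ), Nat.Coprime H.index p ∧ (∃ k : ℕ, N.relIndex H = p ^ k) ∧ Cfsg.IsCharacter H ν ∧ ν 1 = 1 ∧ ∀ n : N, ν ⟨(n : G), hNH n.2⟩ = lam n) : ∃ μ : G → ℂ, Cfsg.IsCharacter G μ ∧ μ 1 = 1 ∧ ∀ n : N, μ n = lam n := by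
  classical
  obtain ⟨l, hl⟩ := Cfsg.Agent.Lib.Helper7.exists_hom_of_linear hlam.1 hlam.2
  have hinv' : ∀ (g : G) (n : N), l (MulAut.conjNormal g n) = l n := by
    intro g n
    apply Units.ext
    rw [← hl, ← hl]
    exact hinv g n
  have ho : ∀ n, l n ^ orderOf lam = 1 := by
    intro n
    have := congrFun (pow_orderOf_eq_one lam) n
    simp only [Pi.pow_apply, Pi.one_apply, hl] at this
    exact Units.ext (by simpa using this)
  obtain ⟨F, hF⟩ := Cfsg.Agent.Lib.Helper25.exists_linear_extension N l hinv' (orderOf lam) ho (by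
    intro p hp hpo
    obtain ⟨H, hNH, ν, hcop, -, hν, hν1, hνN⟩ := hsyl p hp hpo
    obtain ⟨v, hv⟩ := Cfsg.Agent.Lib.Helper7.exists_hom_of_linear hν hν1
    exact ⟨H, hNH, v, hcop, fun n => Units.ext (by rw [← hv, hνN, hl])⟩)
  exact ⟨fun g => (F g : ℂ), Cfsg.Agent.Lib.Helper7.isCharacter_of_irr
    (Cfsg.Agent.Lib.Helper7.isIrrCharacter_of_hom F), by simp, fun n => by show ((F n : ℂˣ) : ℂ) = lam n; rw [hF, hl]⟩

end Cfsg.Agent.S0864
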