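import Cfsg.Statements.S0865
import Cfsg.Agent.Lib.Helper25.LinExt

set_option autoImplicit false
open Cfsg

namespace Cfsg.Agent.S0865

/-- Let N be a normal subgroup of the finite group G and λ a character of N of degree 1, invariant under conjugation by G, whose order (under pointwise multiplication) is coprime to the index of N. Then there is a character μ of G of degree 1 restricting to λ with the same order as λ, and μ is the only degree-1 character of G restricting to λ whose order is coprime to the index of N. -/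
theorem result {G : Type*} [Group G] [Finite G] (N : Subgroup G) [hN : N.Normal] (lam : N → ℂ) (hlam : Cfsg.IsCharacter N lam ∧ lam 1 = 1) (hinv : ∀ (g : G) (n : N), lam ⟨g * n * g⁻¹, hN.conj_mem (n : G) n.2 g⟩ = lam n) (hcop : Nat.Coprime N.index (orderOf lam)) : ∃ μ : G → ℂ, (Cfsg.IsCharacter G μ ∧ μ 1 = 1 ∧ (∀ n : N, μ n = lam n) ∧ orderOf μ = orderOf lam) ∧ ∀ μ' : G → ℂ, Cfsg.IsCharacter G μ' ∧ μ' 1 = 1 → (∀ n : N, μ' n = lam n) → Nat.Coprime N.index (orderOf μ') → μ' = μ := by
  classical
  obtain ⟨l, hl⟩ := Cfsg.Agent.Lib.Helper7.exists_hom_of_linear hlam.1 hlam.2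
  have hinv' : ∀ (g : G) (n : N), l (MulAut.conjNormal g n) = l n := by
    intro g n
    apply Units.ext
    rw [← hl, ← hl]
    exact hinv g n
  have ho : ∀ n, l n ^ orderOf lam = 1 := by
    intro n
    have := congrFun (pow_orderOf_eq_one lam) n
    simp only [Pi.pow_apply, Pi.one_apply, hl] at this
    exact Units.ext (by simpa using this)
  obtain ⟨F, hF, hFo⟩ := Cfsg.Agent.Lib.Helper25.exists_coprime_linear_extension N l hinv'
    (orderOf lam) ho hcop
  have hFN : ∀ n : N, ((F n : ℂˣ) : ℂ) = lam n := fun n => by rw [hF, hl]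
  refine ⟨fun g => (F g : ℂ), ⟨Cfsg.Agent.Lib.Helper7.isCharacter_of_irr
    (Cfsg.Agent.Lib.Helper7.isIrrCharacter_of_hom F), by simp, hFN, ?_⟩, ?_⟩
  · rw [orderOf_eq_orderOf_iff]
    intro j
    constructor
    · intro h
      funext n
      have := congrFun h (n : G)
      simp only [Pi.pow_apply, Pi.one_apply, hFN] at this ⊢
      exact this
    · intro h
      obtain ⟨c, hc⟩ := orderOf_dvd_of_pow_eq_one h
      funext g
      simp only [Pi.pow_apply, Pi.one_apply]
      rw [hc, pow_mul, ← Units.val_pow_eq_pow_val, hFo]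
      simp
  · intro μ' hμ' hμ'N hcop'
    obtain ⟨F', hF'⟩ := Cfsg.Agent.Lib.Helper7.exists_hom_of_linear hμ'.1 hμ'.2
    have ho' : ∀ g, F' g ^ orderOf μ' = 1 := by
      intro g
      have := congrFun (pow_orderOf_eq_one μ') g
      simp only [Pi.pow_apply, Pi.one_apply, hF'] at this
      exact Units.ext (by simpa using this)
    have := Cfsg.Agent.Lib.Helper25.linear_extension_unique N F F'
      (fun n => Units.ext (by rw [← hF', hμ'N, hFN])) (orderOf lam * orderOf μ')
      (fun g => by rw [pow_mul, hFo, one_pow]) (fun g => by rw [mul_comm, pow_mul, ho', one_pow])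
      (Nat.Coprime.mul_right hcop hcop')
    funext g
    rw [hF', this]

end Cfsg.Agent.S0865
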