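import Cfsg.Statements.S0893
import Cfsg.Agent.Lib.Helper25.Extra1

set_option autoImplicit false
open Cfsg

namespace Cfsg.Agent.S0893

open Cfsg.Agent.Lib.Helper25

/-- Let P be an extraspecial p-group of order p ^ (2 * n + 1), A an abelian subgroup of order p ^ (n + 1), and λ a character of A of degree 1 that is not identically 1 on the elements of A lying in the centre of P. Then the function induced from λ to P is an irreducible character of P and vanishes at every element outside the centre. -/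
theorem result {P : Type*} [Group P] [Fintype P] (p n : ℕ) [Fact p.Prime] (hP : Cfsg.IsExtraspecial p P) (hcard : Nat.card P = p ^ (2 * n + 1)) (A : Subgroup P) (hab : ∀ a ∈ A, ∀ b ∈ A, a * b = b * a) (hA : Nat.card A = p ^ (n + 1)) (lam : A → ℂ) (hlam : Cfsg.IsCharacter A lam ∧ lam 1 = 1) (hZ : ∃ a : A, (a : P) ∈ Subgroup.center P ∧ lam a ≠ 1) : Cfsg.IsIrrCharacter P (Cfsg.indFun A lam) ∧ ∀ x : P, x ∉ Subgroup.center P → Cfsg.indFun A lam x = 0 := by
  classical
  have hp := (Fact.out : p.Prime)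
  obtain ⟨hlc, hl1⟩ := hlam
  have hlirr : Cfsg.IsIrrCharacter A lam := Cfsg.Agent.Lib.Helper7.isIrrCharacter_of_linear hlc hl1
  set Θ := Cfsg.indFun A lam with hΘ
  have hΘc : Cfsg.IsCharacter P Θ := isCharacter_indFun A lam hlc
  have hidx : A.index = p ^ n := by
    have h2 := A.card_mul_index
    rw [hA, hcard] at h2
    have : p ^ (n + 1) * A.index = p ^ (n + 1) * p ^ n := by rw [h2]; ring
    exact Nat.eq_of_mul_eq_mul_left (pow_pos hp.pos _) this
  have hΘ1 : Θ 1 = ((p ^ n : ℕ) : ℂ) := by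
    rw [hΘ, indFun_one, hl1, hidx]; simp
  have hΘ0 : Θ ≠ 0 := by
    intro h0
    rw [h0, Pi.zero_apply] at hΘ1
    have : (p ^ n : ℕ) = 0 := by exact_mod_cast hΘ1.symm
    exact (pow_pos hp.pos n).ne' this
  obtain ⟨χ, hχ, hne⟩ := Cfsg.Agent.Lib.Helper2.IsCharacter.exists_constituent hΘc hΘ0
  have hcf := Cfsg.Agent.Lib.Helper7.isClassFunction_of_isCharacter
    (Cfsg.Agent.Lib.Helper7.isCharacter_of_irr hχ)
  have hne' : Cfsg.classInner lam (fun a : A => χ a) ≠ 0 := by
    rw [← frobenius_reciprocity A lam χ hcf]; exact hne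
  have hnl : χ 1 ≠ 1 := by
    intro h1
    have hχA : Cfsg.IsIrrCharacter A (fun a : A => χ a) :=
      Cfsg.Agent.Lib.Helper7.isIrrCharacter_of_linear
        (Cfsg.Agent.Lib.Helper7.isCharacter_restrict (Cfsg.Agent.Lib.Helper7.isCharacter_of_irr hχ) A) h1
    have h2 := Cfsg.Agent.Lib.Helper2.irr_orthonormal hlirr hχA
    by_cases he : lam = fun a : A => χ a
    · obtain ⟨a, haZ, ha1⟩ := hZ
      apply ha1
      rw [he]
      apply linear_eq_one_on_commutator (Cfsg.Agent.Lib.Helper7.isCharacter_of_irr hχ) h1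
      rw [hP.1.2.2]
      exact haZ
    · rw [if_neg he] at h2
      exact hne' h2
  have hχ1 := extraspecial_degree hP hcard hχ hnl
  have heq : Θ = χ := eq_of_constituent_of_degree_le hΘc hχ hne (a := p ^ n) (b := p ^ n) hΘ1
    (by rw [hχ1]; push_cast; rfl) le_rfl
  rw [heq]
  exact ⟨hχ, fun x hx => extraspecial_vanish hP hχ hnl hx⟩

end Cfsg.Agent.S0893
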