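import Cfsg.Statements.S0894
import Cfsg.Agent.Lib.Helper25.Extra1

set_option autoImplicit false
open Cfsg

namespace Cfsg.Agent.S0894

open Cfsg.Agent.Lib.Helper25

/-- Let P be an extraspecial p-group of order p ^ (2 * n + 1). Then every irreducible character of P has degree 1 or p ^ n, and exactly p - 1 of them have degree p ^ n. -/
theorem result {P : Type*} [Group P] [Finite P] (p n : ℕ) [Fact p.Prime] (hP : Cfsg.IsExtraspecial p P) (hcard : Nat.card P = p ^ (2 * n + 1)) : (∀ χ : Cfsg.IrrCharacter P, (χ : P → ℂ) 1 = 1 ∨ (χ : P → ℂ) 1 = (p : ℂ) ^ n) ∧ Nat.card {χ : Cfsg.IrrCharacter P // (χ : P → ℂ) 1 = (p : ℂ) ^ n} = p - 1 := by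
  classical
  cases nonempty_fintype P
  have := Cfsg.Agent.Lib.Helper2.finite_irrCharacter (G := P)
  cases nonempty_fintype (Cfsg.IrrCharacter P)
  have hp := (Fact.out : p.Prime)
  have hdeg : ∀ χ : Cfsg.IrrCharacter P, (χ : P → ℂ) 1 = 1 ∨ (χ : P → ℂ) 1 = (p : ℂ) ^ n := by
    intro χ
    by_cases h : (χ : P → ℂ) 1 = 1
    · exact Or.inl h
    · exact Or.inr (extraspecial_degree hP hcard χ.2 h)
  refine ⟨hdeg, ?_⟩
  have hn0 : n ≠ 0 := by
    rintro rfl
    have h1 : Subgroup.center P = ⊤ := by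
      apply Subgroup.eq_top_of_card_eq
      rw [hP.2, hcard]; simp
    have h2 : commutator P = ⊥ := by
      rw [commutator_eq_closure, Subgroup.closure_eq_bot_iff]
      rintro x ⟨a, b, rfl⟩
      have : a ∈ Subgroup.center P := h1 ▸ Subgroup.mem_top a
      have := Subgroup.mem_center_iff.1 this b
      rw [Set.mem_singleton_iff, commutatorElement_def, ← this]
      group
    have h3 := hP.2
    rw [← hP.1.2.2, h2, Subgroup.card_bot] at h3
    exact hp.one_lt.ne h3
  have hpn : (p : ℂ) ^ n ≠ 1 := by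
    have : p ^ n ≠ 1 := by
      intro h
      rcases Nat.pow_eq_one.1 h with h | h
      · exact hp.one_lt.ne' h
      · exact hn0 h
    exact_mod_cast this
  have hsum := Cfsg.Agent.Lib.Helper7.sum_sq_degrees (G := P)
  have hterm : ∀ χ : Cfsg.IrrCharacter P, ((χ : P → ℂ) 1) ^ 2
      = (if (χ : P → ℂ) 1 = 1 then 1 else 0) + (p : ℂ) ^ (2 * n) * (if (χ : P → ℂ) 1 = (p : ℂ) ^ n then 1 else 0) := by
    intro χ
    rcases hdeg χ with h | h
    · rw [h, if_pos rfl, if_neg hpn.symm]; simp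
    · rw [h, if_neg hpn, if_pos rfl]; ring
  simp only [hterm, Finset.sum_add_distrib, ← Finset.mul_sum, Finset.sum_boole] at hsum
  have h1 : (Finset.univ.filter (fun χ : Cfsg.IrrCharacter P => (χ : P → ℂ) 1 = 1)).card = p ^ (2 * n) := by
    have := Cfsg.Agent.S0154.result (G := P)
    rw [Nat.card_eq_fintype_card, Fintype.card_subtype] at this
    rw [this, hP.1.2.2]
    have h2 := (Subgroup.center P).card_mul_index
    rw [hP.2, hcard, pow_succ, mul_comm] at h2
    exact Nat.eq_of_mul_eq_mul_right hp.pos h2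
  rw [Nat.card_eq_fintype_card, Fintype.card_subtype]
  set k := (Finset.univ.filter (fun χ : Cfsg.IrrCharacter P => (χ : P → ℂ) 1 = (p : ℂ) ^ n)).card with hk
  rw [h1, hcard] at hsum
  have h3 : p ^ (2 * n) + p ^ (2 * n) * k = p ^ (2 * n + 1) := by exact_mod_cast hsum
  have h4 : p ^ (2 * n) * (1 + k) = p ^ (2 * n) * p := by rw [← pow_succ, ← h3]; ring
  have h5 := Nat.eq_of_mul_eq_mul_left (pow_pos hp.pos _) h4
  omega

end Cfsg.Agent.S0894
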