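import Cfsg.Statements.S0897
import Cfsg.Agent.Lib.Helper25.Dade5

set_option autoImplicit false
open Cfsg

namespace Cfsg.Agent.S0897

open Cfsg.Agent.Lib.Helper25 Cfsg.Agent.Lib

/-- Let N be a normal subgroup of the finite group G with the index of N a power of the prime p, and P a Sylow p-subgroup of G such that P ⊓ N lies in the centre of P and every character of degree 1 of P ⊓ N is the restriction of a character of degree 1 of P. Then every irreducible character of N invariant under conjugation by G is the restriction of an irreducible character of G. -/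
theorem result {G : Type*} [Group G] [Fintype G] (p : ℕ) [Fact p.Prime] (N : Subgroup G) [hN : N.Normal] (hind : ∃ k : ℕ, N.index = p ^ k) (P : Sylow p G) (hcent : ∀ x ∈ (P : Subgroup G) ⊓ N, ∀ y ∈ (P : Subgroup G), x * y = y * x) (hlin : ∀ lam : ↥((P : Subgroup G) ⊓ N) → ℂ, Cfsg.IsCharacter ↥((P : Subgroup G) ⊓ N) lam → lam 1 = 1 → ∃ μ : ↥(P : Subgroup G) → ℂ, Cfsg.IsCharacter ↥(P : Subgroup G) μ ∧ μ 1 = 1 ∧ ∀ x : ↥((P : Subgroup G) ⊓ N), μ ⟨(x : G), x.2.1⟩ = lam x) (ϑ : N → ℂ) (hϑ : Cfsg.IsIrrCharacter N ϑ) (hinv : ∀ (g : G) (n : N), ϑ ⟨g * n * g⁻¹, hN.conj_mem (n : G) n.2 g⟩ = ϑ n) : ∃ χ : G → ℂ, Cfsg.IsIrrCharacter G χ ∧ ∀ n : N, χ n = ϑ n := by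
  classical
  have hp : p.Prime := Fact.out
  obtain ⟨E, φ, hE, hsup, hφ, hφi, m, hpm, hm⟩ := dade_detection p hp N hind ϑ hϑ hinv
  obtain ⟨x, Q, ρ, hx, ho, hQ, hρ⟩ := exists_retraction_of_isElementary hp hE
  have hxN : (x : G) ∈ N := by
    obtain ⟨k, hk⟩ := hind
    apply Helper2.mem_of_pow_mem_of_coprime N (r := orderOf x) (s := p ^ k)
      (Nat.Coprime.pow_right k ho)
    · have : (x : G) ^ orderOf x = 1 := by
        rw [← Subgroup.coe_pow, pow_orderOf_eq_one, Subgroup.coe_one]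
      rw [this]
      exact N.one_mem
    · rw [← hk]
      exact N.pow_index_mem _
  have hCD : Subgroup.zpowers x ≤ N.subgroupOf E :=
    Subgroup.zpowers_le.2 (Subgroup.mem_subgroupOf.mpr hxN)
  obtain ⟨P', hP'⟩ := (hQ.map E.subtype).exists_le_sylow
  obtain ⟨g, hg⟩ := MulAction.exists_smul_eq G P' P
  have hQP : ∀ q : E, q ∈ Q → g * (q : G) * g⁻¹ ∈ (P : Subgroup G) := by
    intro q hq
    have h1 : (q : G) ∈ (P' : Subgroup G) := hP' ⟨q, hq, rfl⟩
    rw [← hg, Sylow.coe_subgroup_smul]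
    exact Subgroup.smul_mem_pointwise_smul (q : G) (MulAut.conj g) _ h1
  have hi : ∀ d ∈ N.subgroupOf E ⊓ Q, ∀ q ∈ Q, d * q = q * d := by
    intro d hd q hq
    have h1 : g * (d : G) * g⁻¹ ∈ (P : Subgroup G) ⊓ N :=
      ⟨hQP d hd.2, hN.conj_mem _ (Subgroup.mem_subgroupOf.mp hd.1) g⟩
    have h2 := hcent _ h1 _ (hQP q hq)
    apply Subtype.ext
    show (d : G) * q = q * d
    have h3 : g * ((d : G) * q) * g⁻¹ = g * ((q : G) * d) * g⁻¹ := by
      calc g * ((d : G) * q) * g⁻¹ = (g * d * g⁻¹) * (g * q * g⁻¹) := by group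
        _ = (g * q * g⁻¹) * (g * d * g⁻¹) := h2
        _ = g * ((q : G) * d) * g⁻¹ := by group
    exact mul_left_cancel (mul_right_cancel h3)
  have hii : ∀ δ : (N.subgroupOf E ⊓ Q : Subgroup E) →* ℂˣ, ∃ μ : Q →* ℂˣ,
      ∀ z : (N.subgroupOf E ⊓ Q : Subgroup E), μ ⟨z, z.2.2⟩ = δ z := by
    intro δ
    let i : (N.subgroupOf E ⊓ Q : Subgroup E) →* ((P : Subgroup G) ⊓ N : Subgroup G) :=
      { toFun := fun z => ⟨g * ((z : E) : G) * g⁻¹,
          ⟨hQP z z.2.2, hN.conj_mem _ (Subgroup.mem_subgroupOf.mp z.2.1) g⟩⟩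
        map_one' := by
          apply Subtype.ext
          simp
        map_mul' := by
          intro a b
          apply Subtype.ext
          simp only [Subgroup.coe_mul]
          group }
    have hinj : Function.Injective i := by
      intro a b hab
      have h1 : g * ((a : E) : G) * g⁻¹ = g * ((b : E) : G) * g⁻¹ := congrArg Subtype.val hab
      exact Subtype.ext (Subtype.ext (mul_left_cancel (mul_right_cancel h1)))
    obtain ⟨δA, hδA⟩ := exists_hom_extension_of_comm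
      (fun a b : ((P : Subgroup G) ⊓ N : Subgroup G) => Subtype.ext (hcent a a.2 b b.2.1)) i hinj δ
    obtain ⟨μ₀, hμc, hμ1, hμe⟩ := hlin (fun a => (δA a : ℂ))
      (isCharacter_of_irr (Helper7.isIrrCharacter_of_hom δA)) (by simp)
    obtain ⟨μ₁, hμ₁⟩ := Helper7.exists_hom_of_linear hμc hμ1
    let c : Q →* (P : Subgroup G) :=
      { toFun := fun q => ⟨g * ((q : E) : G) * g⁻¹, hQP q q.2⟩
        map_one' := by
          apply Subtype.ext
          simp
        map_mul' := by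
          intro a b
          apply Subtype.ext
          simp only [Subgroup.coe_mul]
          group }
    refine ⟨μ₁.comp c, fun z => ?_⟩
    apply Units.ext
    have h1 := hμe (i z)
    rw [hμ₁, hδA] at h1
    exact h1
  obtain ⟨hDcen, hext⟩ := extend_of_retraction (Subgroup.zpowers x) (N.subgroupOf E) Q
    (Subgroup.zpowers_le.2 hx) hCD ρ hρ hi hii
  have hcomm : IsMulCommutative (E ⊓ N : Subgroup G) := ⟨⟨fun a b => by
    apply Subtype.ext
    have := hDcen ⟨a, a.2.1⟩ (Subgroup.mem_subgroupOf.mpr a.2.2) ⟨b, b.2.1⟩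
    have h' : (a : G) * (b : G) = (b : G) * (a : G) := congrArg Subtype.val this
    exact h'⟩⟩
  obtain ⟨lG, hlG⟩ := Helper7.exists_hom_of_linear (isCharacter_of_irr hφ)
    (Helper7.irr_apply_one_of_comm hφ)
  let t : N.subgroupOf E →* (E ⊓ N : Subgroup G) :=
    { toFun := fun d => ⟨((d : E) : G), ⟨d.1.2, Subgroup.mem_subgroupOf.mp d.2⟩⟩
      map_one' := rfl
      map_mul' := fun _ _ => rfl }
  obtain ⟨F, hF⟩ := hext (lG.comp t)
  apply extends_of_detection p hp N hind ϑ hϑ hinv E hsup F hpm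
  rw [← hm]
  congr 1
  apply finsum_congr
  intro y
  have h1 := hF ⟨⟨y, y.2.1⟩, Subgroup.mem_subgroupOf.mpr y.2.2⟩
  have h2 : F ⟨(y : G), y.2.1⟩ = lG y := h1
  rw [h2, hlG]

end Cfsg.Agent.S0897
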