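import Cfsg.Statements.S0898
import Cfsg.Agent.Lib.Helper2.CharMore
import Cfsg.Agent.Lib.Helper2.CharReg
import Cfsg.Agent.Lib.Helper2.ZStar
import Cfsg.Agent.Lib.Helper2.Quat6
import Cfsg.Agent.Lib.Helper7.CharBasic

set_option autoImplicit false
open Cfsg

namespace Cfsg.Agent.S0898

open Cfsg.Agent.Lib.Helper2
open scoped ComplexConjugate

theorem inner_sum_irr {L : Type*} [Group L] [Fintype L] [Fintype (Cfsg.IrrCharacter L)]
    (a b : Cfsg.IrrCharacter L → ℂ) :
    Cfsg.classInner (∑ μ : Cfsg.IrrCharacter L, a μ • (μ : L → ℂ))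
      (∑ μ : Cfsg.IrrCharacter L, b μ • (μ : L → ℂ)) = ∑ μ, a μ * conj (b μ) := by
  classical
  rw [classInner_sum_left]
  refine Finset.sum_congr rfl fun μ _ => ?_
  rw [classInner_sum_right, Finset.sum_eq_single μ]
  · rw [classInner_smul_left, classInner_smul_right, irr_norm_one μ.2]; ring
  · intro ν _ hν
    rw [classInner_smul_left, classInner_smul_right,
      irr_orthogonal μ.2 ν.2 (fun h => hν (Subtype.ext h.symm))]; ring
  · intro h; exact absurd (Finset.mem_univ _) h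

theorem sum_normal_mul {L : Type*} [Group L] [Fintype L] (N : Subgroup L) [hN : N.Normal]
    [Fintype N] {μ : L → ℂ} (hμ : Cfsg.IsIrrCharacter L μ) (y : L) :
    ∑ h : N, μ ((h : L) * y) = (∑ h : N, μ h) * μ y / μ 1 := by
  have hc : (Nat.card L : ℂ) ≠ 0 := card_ne_zero'
  have h1 : ∑ h : N, ∑ x : L, μ (x * h * x⁻¹ * y) =
      ∑ h : N, (Nat.card L : ℂ) * μ h * μ y / μ 1 :=
    Finset.sum_congr rfl fun h _ => sum_char_conj_mul hμ h y
  rw [Finset.sum_comm] at h1
  have h2 : ∀ x : L, ∑ h : N, μ (x * h * x⁻¹ * y) = ∑ h : N, μ ((h : L) * y) := by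
    intro x
    rw [← Equiv.sum_comp (MulAut.conjNormal x : N ≃* N).toEquiv (fun h : N => μ ((h : L) * y))]
    refine Finset.sum_congr rfl fun h _ => ?_
    simp [MulAut.conjNormal_apply]
  rw [Finset.sum_congr rfl fun x _ => h2 x, Finset.sum_const, Finset.card_univ, nsmul_eq_mul,
    ← Nat.card_eq_fintype_card] at h1
  apply mul_left_cancel₀ hc
  rw [h1, Finset.sum_mul, Finset.sum_div, Finset.mul_sum]
  refine Finset.sum_congr rfl fun h _ => by ring

theorem sum_normal_sq {L : Type*} [Group L] [Fintype L] (N : Subgroup L) [hN : N.Normal]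
    [Fintype N] {μ : L → ℂ} (hμ : Cfsg.IsIrrCharacter L μ) :
    (∑ h : N, μ h) = 0 ∨ (∑ h : N, μ h) = (Nat.card N : ℂ) * μ 1 := by
  have h1 : ∑ k : N, ∑ h : N, μ ((h : L) * k) = ∑ k : N, (∑ h : N, μ h) * μ k / μ 1 :=
    Finset.sum_congr rfl fun k _ => sum_normal_mul N hμ k
  have h2 : ∀ k : N, ∑ h : N, μ ((h : L) * k) = ∑ h : N, μ h := fun k =>
    Equiv.sum_comp (Equiv.mulRight k) (fun h : N => μ h)
  rw [Finset.sum_congr rfl fun k _ => h2 k, Finset.sum_const, Finset.card_univ, nsmul_eq_mul,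
    ← Nat.card_eq_fintype_card, ← Finset.sum_div, ← Finset.mul_sum] at h1
  have hμ1 := IsIrrCharacter.apply_one_ne_zero hμ
  by_cases hS : (∑ h : N, μ h) = 0
  · left; exact hS
  · right
    rw [eq_div_iff hμ1] at h1
    exact mul_left_cancel₀ hS (by linear_combination -h1)

theorem lemmaA {L : Type*} [Group L] [Fintype L] (N : Subgroup L) [hN : N.Normal] [Fintype N]
    {ψ : L → ℂ} (hψ : Cfsg.IsCharacter L ψ)
    (ψ₀ : L → ℂ) (h0 : ∀ l, ψ₀ l = (Nat.card N : ℂ)⁻¹ * ∑ h : N, ψ (l * h))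
    (hne : ψ₀ 1 ≠ ψ 1) :
    (Nat.card L : ℝ) + ∑ l, ‖ψ₀ l‖ ^ 2 ≤ ∑ l, ‖ψ l‖ ^ 2 := by
  classical
  have := finite_irrCharacter (G := L)
  cases nonempty_fintype (Cfsg.IrrCharacter L)
  have hm : ∀ μ : Cfsg.IrrCharacter L, ∃ m : ℕ, Cfsg.classInner ψ μ = m := fun μ =>
    IsCharacter.classInner_nat hψ (IsIrrCharacter.isCharacter μ.2)
  choose m hm using hm
  have he : ∀ μ : Cfsg.IrrCharacter L, ∃ e : ℕ, e ≤ 1 ∧
      ∑ h : N, (μ : L → ℂ) h = (e : ℂ) * ((Nat.card N : ℂ) * (μ : L → ℂ) 1) := by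
    intro μ
    rcases sum_normal_sq N μ.2 with h | h
    · exact ⟨0, by norm_num, by rw [h]; simp⟩
    · exact ⟨1, le_refl _, by rw [h]; simp⟩
  choose e he1 he using he
  have hψe : ψ = ∑ μ : Cfsg.IrrCharacter L, (m μ : ℂ) • (μ : L → ℂ) := by
    conv_lhs => rw [IsCharacter.eq_sum_irr hψ]
    exact Finset.sum_congr rfl fun μ _ => by rw [hm]
  have hN0 : (Nat.card N : ℂ) ≠ 0 := card_ne_zero'
  have hψ0 : ψ₀ = ∑ μ : Cfsg.IrrCharacter L, ((m μ * e μ : ℕ) : ℂ) • (μ : L → ℂ) := by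
    ext l
    rw [h0]
    have h3 : ∀ h : N, ψ (l * h) =
        ∑ μ : Cfsg.IrrCharacter L, (m μ : ℂ) * (μ : L → ℂ) (l * h) := by
      intro h
      conv_lhs => rw [hψe]
      simp [Finset.sum_apply]
    rw [Finset.sum_congr rfl fun h _ => h3 h, Finset.sum_comm, Finset.mul_sum, Finset.sum_apply]
    refine Finset.sum_congr rfl fun μ _ => ?_
    rw [← Finset.mul_sum]
    have h1 : ∑ h : N, (μ : L → ℂ) (l * h) = ∑ h : N, (μ : L → ℂ) ((h : L) * l) := by
      refine Finset.sum_congr rfl fun h _ => ?_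
      have h4 := IsCharacter.isClassFunction (IsIrrCharacter.isCharacter μ.2) ((h : L) * l) l
      rw [← h4]; congr 1; group
    rw [h1, sum_normal_mul N μ.2 l, he μ]
    have hμ1 := IsIrrCharacter.apply_one_ne_zero μ.2
    simp only [Pi.smul_apply, smul_eq_mul]
    push_cast
    field_simp
  have hn1 : Cfsg.classInner ψ ψ = ((∑ μ, m μ ^ 2 : ℕ) : ℂ) := by
    conv_lhs => rw [hψe]
    rw [inner_sum_irr]; push_cast
    refine Finset.sum_congr rfl fun μ _ => by rw [Complex.conj_natCast]; ring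
  have hn0 : Cfsg.classInner ψ₀ ψ₀ = ((∑ μ, (m μ * e μ) ^ 2 : ℕ) : ℂ) := by
    conv_lhs => rw [hψ0]
    rw [inner_sum_irr]; push_cast
    refine Finset.sum_congr rfl fun μ _ => by
      rw [map_mul, Complex.conj_natCast, Complex.conj_natCast]; ring
  have hnorm : ∀ f : L → ℂ,
      Cfsg.classInner f f = (((Nat.card L : ℝ)⁻¹ * ∑ l, ‖f l‖ ^ 2 : ℝ) : ℂ) := by
    intro f
    rw [classInner_def]; push_cast
    congr 1
    refine Finset.sum_congr rfl fun l _ => ?_
    rw [Complex.mul_conj, Complex.normSq_eq_norm_sq]; push_cast; rfl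
  have e1 : (Nat.card L : ℝ)⁻¹ * ∑ l, ‖ψ l‖ ^ 2 = ((∑ μ, m μ ^ 2 : ℕ) : ℝ) := by
    have h5 := (hnorm ψ).symm.trans hn1
    exact_mod_cast h5
  have e0 : (Nat.card L : ℝ)⁻¹ * ∑ l, ‖ψ₀ l‖ ^ 2 = ((∑ μ, (m μ * e μ) ^ 2 : ℕ) : ℝ) := by
    have h5 := (hnorm ψ₀).symm.trans hn0
    exact_mod_cast h5
  have hex : ∃ μ, m μ ≠ 0 ∧ e μ = 0 := by
    by_contra hcon
    push Not at hcon
    apply hne
    have h10 : ψ₀ = ψ := by
      rw [hψ0]
      conv_rhs => rw [hψe]
      refine Finset.sum_congr rfl fun μ _ => ?_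
      by_cases h6 : m μ = 0
      · rw [h6]; simp
      · have h7 := hcon μ h6
        have h8 : e μ = 1 := by have := he1 μ; omega
        rw [h8, mul_one]
    rw [h10]
  have hlt : ∑ μ, (m μ * e μ) ^ 2 < ∑ μ, m μ ^ 2 := by
    apply Finset.sum_lt_sum
    · intro μ _
      apply Nat.pow_le_pow_left
      have := he1 μ
      nlinarith
    · obtain ⟨μ, h6, h7⟩ := hex
      refine ⟨μ, Finset.mem_univ _, ?_⟩
      rw [h7, mul_zero]
      positivity
  have hL : (0 : ℝ) < Nat.card L := by exact_mod_cast Nat.card_pos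
  have hlt' : ((∑ μ, (m μ * e μ) ^ 2 : ℕ) : ℝ) + 1 ≤ ((∑ μ, m μ ^ 2 : ℕ) : ℝ) := by
    exact_mod_cast hlt
  rw [← e1, ← e0] at hlt'
  have h9 := mul_le_mul_of_nonneg_left hlt' hL.le
  rw [mul_add, mul_inv_cancel_left₀ hL.ne', mul_inv_cancel_left₀ hL.ne', mul_one] at h9
  linarith

theorem claim1 {G : Type*} [Group G] [Fintype G] (H : Subgroup G) [Fintype H]
    (hZ : H ⊓ Subgroup.center G = ⊥)
    (hone : ∀ g : G, g ∉ Subgroup.center G → ∀ a b : G,
      Subgroup.centralizer ({g} : Set G) ⊓ H.map (MulAut.conj a).toMonoidHom ≠ ⊥ →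
      Subgroup.centralizer ({g} : Set G) ⊓ H.map (MulAut.conj b).toMonoidHom ≠ ⊥ →
      H.map (MulAut.conj a).toMonoidHom = H.map (MulAut.conj b).toMonoidHom)
    (χ : G → ℂ) (hχ : Cfsg.IsIrrCharacter G χ) (hker : ∃ h ∈ H, χ h ≠ χ 1) :
    (Nat.card H : ℝ) * (Cfsg.classInner (fun h : H => χ h) (fun _ => 1)).re ^ 2
      < (χ 1).re ^ 2 := by
  classical
  obtain ⟨L, hLdef⟩ : ∃ L : Subgroup G, L = Subgroup.normalizer (H : Set G) := ⟨_, rfl⟩
  have hNn : (H.subgroupOf L).Normal := by rw [hLdef]; infer_instance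
  have hmemL : ∀ g, g ∈ L ↔ ∀ h, h ∈ H ↔ g * h * g⁻¹ ∈ H := by
    intro g; rw [hLdef]; exact Subgroup.mem_normalizer_iff
  have hHL : H ≤ L := by rw [hLdef]; exact Subgroup.le_normalizer
  have hZL : Subgroup.center G ≤ L := by rw [hLdef]; exact Subgroup.center_le_normalizer _
  have hχc := IsIrrCharacter.isCharacter hχ
  have hcl := IsCharacter.isClassFunction hχc
  obtain ⟨d, hd0, hd⟩ := IsIrrCharacter.apply_one_pos hχ
  have hH0 : (Nat.card H : ℂ) ≠ 0 := card_ne_zero'
  -- the hypothesis in a usable form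
  have hone' : ∀ g : G, g ∉ Subgroup.center G → ∀ y : G, (∃ h ∈ H, h ≠ 1 ∧ g * h = h * g) →
      (∃ h ∈ H, h ≠ 1 ∧ g * (y * h * y⁻¹) = (y * h * y⁻¹) * g) → y ∈ L := by
    rintro g hg y ⟨h, hh, h1, hc⟩ ⟨k, hk, k1, kc⟩
    have e := hone g hg 1 y
      (by
        intro hbot
        have hm : h ∈ Subgroup.centralizer ({g} : Set G) ⊓ H.map (MulAut.conj 1).toMonoidHom :=
          ⟨Subgroup.mem_centralizer_singleton_iff.2 hc.symm, ⟨h, hh, by simp⟩⟩
        rw [hbot] at hm
        exact h1 (Subgroup.mem_bot.1 hm))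
      (by
        intro hbot
        have hm : y * k * y⁻¹ ∈
            Subgroup.centralizer ({g} : Set G) ⊓ H.map (MulAut.conj y).toMonoidHom :=
          ⟨Subgroup.mem_centralizer_singleton_iff.2 kc.symm, ⟨k, hk, by simp⟩⟩
        rw [hbot] at hm
        apply k1
        have h2 := Subgroup.mem_bot.1 hm
        have h3 : k = y⁻¹ * (y * k * y⁻¹) * y := by group
        rw [h3, h2]; group)
    rw [hmemL]
    intro x
    constructor
    · intro hx
      have hm : y * x * y⁻¹ ∈ H.map (MulAut.conj y).toMonoidHom := ⟨x, hx, by simp⟩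
      rw [← e] at hm
      obtain ⟨w, hw, hw2⟩ := hm
      have h4 : w = y * x * y⁻¹ := by simpa using hw2
      rw [← h4]; exact hw
    · intro hx
      have hm : y * x * y⁻¹ ∈ H.map (MulAut.conj 1).toMonoidHom := ⟨_, hx, by simp⟩
      rw [e] at hm
      obtain ⟨w, hw, hw2⟩ := hm
      have h4 : y * w * y⁻¹ = y * x * y⁻¹ := by simpa using hw2
      have h5 : w = x := mul_left_cancel (mul_right_cancel h4)
      rw [← h5]; exact hw
  have hHnc : ∀ h ∈ H, h ≠ 1 → h ∉ Subgroup.center G := by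
    intro h hh h1 hc
    have hm : h ∈ H ⊓ Subgroup.center G := ⟨hh, hc⟩
    rw [hZ] at hm
    exact h1 (Subgroup.mem_bot.1 hm)
  let D : G → Prop := fun x => x ∉ Subgroup.center G ∧ ∃ h ∈ H, h ≠ 1 ∧ x * h = h * x
  have hDL : ∀ x, D x → x ∈ L := by
    rintro x ⟨-, h, hh, h1, hc⟩
    have e1 : x * h * x⁻¹ = h := by rw [hc, mul_inv_cancel_right]
    exact hone' h (hHnc h hh h1) x ⟨h, hh, h1, rfl⟩ ⟨h, hh, h1, by rw [e1]⟩
  have hTI : ∀ x y, D x → D (y⁻¹ * x * y) → y ∈ L := by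
    rintro x y ⟨hx, h, hh, h1, hc⟩ ⟨-, k, hk, k1, kc⟩
    refine hone' x hx y ⟨h, hh, h1, hc⟩ ⟨k, hk, k1, ?_⟩
    calc x * (y * k * y⁻¹) = y * ((y⁻¹ * x * y) * k) * y⁻¹ := by group
      _ = y * (k * (y⁻¹ * x * y)) * y⁻¹ := by rw [kc]
      _ = _ := by group
  let F : G → ℝ := fun g => ‖χ g‖ ^ 2
  have hF0 : ∀ g, 0 ≤ F g := fun g => by positivity
  have hFc : ∀ g x, F (x * g * x⁻¹) = F g := fun g x => by simp only [F]; rw [hcl g x]
  have hFG : ∑ g, F g = (Nat.card G : ℝ) := by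
    have h1 := irr_norm_one hχ
    rw [classInner_def] at h1
    have h2 : ∑ g, χ g * conj (χ g) = ((∑ g, F g : ℝ) : ℂ) := by
      push_cast
      refine Finset.sum_congr rfl fun l _ => ?_
      rw [Complex.mul_conj, Complex.normSq_eq_norm_sq]
    rw [h2, inv_mul_eq_one₀ card_ne_zero'] at h1
    exact_mod_cast h1.symm
  have hcardL : (Finset.univ.filter (fun g : G => g ∈ L)).card = Nat.card L := by
    rw [Nat.card_eq_fintype_card, Fintype.card_subtype]
  -- the counting inequality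
  have hcount : (Nat.card G : ℝ) * ∑ x ∈ Finset.univ.filter D, F x ≤
      (Nat.card L : ℝ) * ((Nat.card G : ℝ) -
        ∑ z ∈ Finset.univ.filter (fun g : G => g ∈ Subgroup.center G), F z) := by
    have s1 : ∀ x : G, ∑ g, (if D (x⁻¹ * g * x) then F g else 0) =
        ∑ y ∈ Finset.univ.filter D, F y := by
      intro x
      rw [Finset.sum_filter,
        ← Equiv.sum_comp (MulAut.conj x⁻¹).toEquiv (fun y => if D y then F y else 0)]
      refine Finset.sum_congr rfl fun g _ => ?_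
      have e2 : (MulAut.conj x⁻¹).toEquiv g = x⁻¹ * g * x := by simp
      rw [e2]
      have e3 : F (x⁻¹ * g * x) = F g := by
        have := hFc g x⁻¹
        rwa [inv_inv] at this
      rw [e3]
    have s2 : ∑ x : G, ∑ g, (if D (x⁻¹ * g * x) then F g else 0) =
        (Nat.card G : ℝ) * ∑ y ∈ Finset.univ.filter D, F y := by
      rw [Finset.sum_congr rfl fun x _ => s1 x, Finset.sum_const, Finset.card_univ,
        nsmul_eq_mul, Nat.card_eq_fintype_card]
    rw [Finset.sum_comm] at s2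
    have s3 : ∀ g : G, ∑ x : G, (if D (x⁻¹ * g * x) then F g else 0) ≤
        (if g ∈ Subgroup.center G then 0 else (Nat.card L : ℝ) * F g) := by
      intro g
      rw [← Finset.sum_filter, Finset.sum_const, nsmul_eq_mul]
      split_ifs with hg
      · have e4 : Finset.univ.filter (fun x : G => D (x⁻¹ * g * x)) = ∅ := by
          apply Finset.filter_eq_empty_iff.2
          intro x _ hD
          apply hD.1
          have e5 : x⁻¹ * g * x = g := by
            rw [mul_assoc, ← (Subgroup.mem_center_iff.1 hg x), inv_mul_cancel_left]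
          rw [e5]; exact hg
        rw [e4]; simp
      · apply mul_le_mul_of_nonneg_right _ (hF0 g)
        rcases (Finset.univ.filter (fun x : G => D (x⁻¹ * g * x))).eq_empty_or_nonempty with
          h | ⟨x₀, hx₀⟩
        · rw [h]; simp
        · have hx₀' := (Finset.mem_filter.1 hx₀).2
          have e6 : (Finset.univ.filter (fun x : G => D (x⁻¹ * g * x))).card ≤
              (Finset.univ.filter (fun g : G => g ∈ L)).card := by
            apply Finset.card_le_card_of_injOn (fun x => x₀⁻¹ * x)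
            · intro x hx
              have hx' := (Finset.mem_filter.1 (Finset.mem_coe.1 hx)).2
              simp only [Finset.coe_filter, Finset.mem_univ, true_and, Set.mem_ofPred_eq]
              apply hTI (x₀⁻¹ * g * x₀) (x₀⁻¹ * x) hx₀'
              have e7 : (x₀⁻¹ * x)⁻¹ * (x₀⁻¹ * g * x₀) * (x₀⁻¹ * x) = x⁻¹ * g * x := by group
              rw [e7]; exact hx'
            · intro a _ b _ hab
              exact mul_left_cancel hab
          rw [hcardL] at e6
          exact_mod_cast e6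
    rw [← s2]
    refine le_trans (Finset.sum_le_sum fun g _ => s3 g) ?_
    rw [← hFG, mul_sub, Finset.mul_sum, Finset.mul_sum, Finset.sum_filter, ← Finset.sum_sub_distrib]
    apply le_of_eq
    refine Finset.sum_congr rfl fun g _ => ?_
    split_ifs <;> simp
  -- the averaged function
  let χ₀ : G → ℂ := fun g => (Nat.card H : ℂ)⁻¹ * ∑ h : H, χ (g * h)
  have hne : χ₀ 1 ≠ χ 1 := by
    intro heq
    obtain ⟨h, hh, hh1⟩ := hker
    apply hh1
    have hle : ∀ k : H, (χ k).re ≤ (χ 1).re := fun k =>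
      le_trans (Complex.re_le_norm _) (Cfsg.Agent.Lib.Helper7.char_norm_le hχc k)
    have hsum : ∑ k : H, ((χ 1).re - (χ k).re) = 0 := by
      have h1 : ∑ k : H, χ k = (Nat.card H : ℂ) * χ 1 := by
        rw [← heq]
        simp only [χ₀, one_mul]
        rw [mul_inv_cancel_left₀ hH0]
      have h2 := congrArg Complex.re h1
      rw [Complex.re_sum] at h2
      simp only [Complex.mul_re, Complex.natCast_re, Complex.natCast_im, zero_mul, sub_zero] at h2
      rw [Finset.sum_sub_distrib, h2, Finset.sum_const, Finset.card_univ, nsmul_eq_mul,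
        Nat.card_eq_fintype_card, sub_self]
    have h3 := (Finset.sum_eq_zero_iff_of_nonneg (fun k _ => sub_nonneg.2 (hle k))).1 hsum
      ⟨h, hh⟩ (Finset.mem_univ _)
    have h4 : (χ h).re = (χ 1).re := by
      have : (χ 1).re - (χ h).re = 0 := h3
      linarith
    have h5 : ‖χ h‖ ≤ (χ h).re := by
      rw [h4]; exact Cfsg.Agent.Lib.Helper7.char_norm_le hχc h
    have h6 : ‖χ h‖ ^ 2 = (χ h).re * (χ h).re + (χ h).im * (χ h).im := by
      rw [Complex.sq_norm, Complex.normSq_apply]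
    have h7 : ‖χ h‖ ^ 2 ≤ (χ h).re ^ 2 := pow_le_pow_left₀ (norm_nonneg _) h5 2
    have h8 : (χ h).im = 0 :=
      mul_self_eq_zero.1 (le_antisymm (by nlinarith) (mul_self_nonneg _))
    apply Complex.ext
    · exact h4
    · rw [h8, hd]; simp
  have hA : (Nat.card L : ℝ) + ∑ g ∈ Finset.univ.filter (fun g : G => g ∈ L), ‖χ₀ g‖ ^ 2 ≤
      ∑ g ∈ Finset.univ.filter (fun g : G => g ∈ L), F g := by
    haveI : Fintype (H.subgroupOf L) := Fintype.ofFinite _
    have hA1 := lemmaA (H.subgroupOf L) (IsCharacter.restrict L hχc) (fun l : L => χ₀ l)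
      (by
        intro l
        simp only [χ₀]
        rw [Nat.card_congr (Subgroup.subgroupOfEquivOfLe hHL).toEquiv]
        congr 1
        rw [← Equiv.sum_comp (Subgroup.subgroupOfEquivOfLe hHL).toEquiv
          (fun h : H => χ ((l : G) * h))]
        refine Finset.sum_congr rfl fun k _ => ?_
        simp)
      (by simpa using hne)
    rw [Finset.sum_subtype (p := fun g : G => g ∈ L)
      (Finset.univ.filter (fun g : G => g ∈ L)) (fun x => by simp) (fun g => ‖χ₀ g‖ ^ 2),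
      Finset.sum_subtype (p := fun g : G => g ∈ L)
      (Finset.univ.filter (fun g : G => g ∈ L)) (fun x => by simp) F]
    exact hA1
  -- the regular part
  have hR : ∀ l ∈ L, (∀ h ∈ H, l * h = h * l → h = 1) → χ₀ l = χ l := by
    intro l hl hfree
    have hl' : ∀ h ∈ H, l⁻¹ * h * l ∈ H := by
      intro h hh
      have h1 := (hmemL l⁻¹).1 (L.inv_mem hl) h
      rw [inv_inv] at h1
      exact h1.1 hh
    let φ : H → H := fun h => ⟨l⁻¹ * (h : G)⁻¹ * l * h, H.mul_mem (hl' _ (H.inv_mem h.2)) h.2⟩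
    have hφ : Function.Injective φ := by
      intro a b hab
      have h1 : l⁻¹ * (a : G)⁻¹ * l * a = l⁻¹ * (b : G)⁻¹ * l * b := congrArg Subtype.val hab
      have h2 : l * ((a : G) * (b : G)⁻¹) = ((a : G) * (b : G)⁻¹) * l := by
        have h3 : (a : G)⁻¹ * l * a = (b : G)⁻¹ * l * b := by
          have h4 := congrArg (fun t => l * t) h1
          simpa [mul_assoc] using h4
        calc l * ((a : G) * (b : G)⁻¹) = a * ((a : G)⁻¹ * l * a) * (b : G)⁻¹ := by group
          _ = a * ((b : G)⁻¹ * l * b) * (b : G)⁻¹ := by rw [h3]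
          _ = _ := by group
      have h5 := hfree _ (H.mul_mem a.2 (H.inv_mem b.2)) h2
      exact Subtype.ext (mul_inv_eq_one.1 h5)
    have hφb : Function.Bijective φ := Finite.injective_iff_bijective.1 hφ
    simp only [χ₀]
    rw [← Function.Bijective.sum_comp hφb (fun h : H => χ (l * h))]
    have h6 : ∀ h : H, χ (l * (φ h : G)) = χ l := by
      intro h
      have h7 : l * (φ h : G) = (h : G)⁻¹ * l * ((h : G)⁻¹)⁻¹ := by
        simp only [φ]; group
      rw [h7, hcl]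
    rw [Finset.sum_congr rfl fun h _ => h6 h, Finset.sum_const, Finset.card_univ, nsmul_eq_mul,
      ← Nat.card_eq_fintype_card, inv_mul_cancel_left₀ hH0]
  -- the part HZ
  have hcen : ∀ z ∈ Subgroup.center G, ∀ k : G, χ (z * k) = χ z * χ k / χ 1 := by
    intro z hz k
    have h1 := sum_char_conj_mul hχ z k
    have h2 : ∀ x : G, χ (x * z * x⁻¹ * k) = χ (z * k) := by
      intro x
      rw [Subgroup.mem_center_iff.1 hz x, mul_inv_cancel_right]
    rw [Finset.sum_congr rfl fun x _ => h2 x, Finset.sum_const, Finset.card_univ, nsmul_eq_mul,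
      ← Nat.card_eq_fintype_card, mul_assoc, mul_div_assoc] at h1
    exact mul_left_cancel₀ card_ne_zero' h1
  have hHZ : ∀ h ∈ H, ∀ z ∈ Subgroup.center G, χ₀ (h * z) = χ z * χ₀ 1 / χ 1 := by
    intro h hh z hz
    simp only [χ₀, one_mul]
    have h1 : ∑ k : H, χ (h * z * k) = ∑ k : H, χ (z * k) := by
      rw [← Equiv.sum_comp (Equiv.mulLeft (⟨h, hh⟩ : H)) (fun k : H => χ (z * k))]
      refine Finset.sum_congr rfl fun k _ => ?_
      simp only [Equiv.coe_mulLeft, Subgroup.coe_mul]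
      rw [Subgroup.mem_center_iff.1 hz h, mul_assoc]
    rw [h1, Finset.sum_congr rfl fun (k : H) _ => hcen z hz (k : G), ← Finset.sum_div,
      ← Finset.mul_sum]
    ring
  -- decomposition of L
  let R : G → Prop := fun g => g ∈ L ∧ g ∉ Subgroup.center G ∧ ∀ h ∈ H, g * h = h * g → h = 1
  have hdec : ∑ g ∈ Finset.univ.filter (fun g : G => g ∈ L), F g =
      ∑ g ∈ Finset.univ.filter D, F g +
        ∑ g ∈ Finset.univ.filter (fun g : G => g ∈ Subgroup.center G), F g +
        ∑ g ∈ Finset.univ.filter R, F g := by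
    simp only [Finset.sum_filter]
    rw [← Finset.sum_add_distrib, ← Finset.sum_add_distrib]
    refine Finset.sum_congr rfl fun g _ => ?_
    by_cases hz : g ∈ Subgroup.center G
    · have h1 : g ∈ L := hZL hz
      have h2 : ¬ D g := fun h => h.1 hz
      have h3 : ¬ R g := fun h => h.2.1 hz
      rw [if_pos h1, if_neg h2, if_pos hz, if_neg h3]; ring
    · by_cases hD : D g
      · have h1 : g ∈ L := hDL g hD
        have h3 : ¬ R g := by
          rintro ⟨-, -, h4⟩
          obtain ⟨-, h, hh, h1, hc⟩ := hD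
          exact h1 (h4 h hh hc)
        rw [if_pos h1, if_pos hD, if_neg hz, if_neg h3]; ring
      · by_cases hl : g ∈ L
        · have h3 : R g := ⟨hl, hz, fun h hh hc => by
            by_contra h1
            exact hD ⟨hz, h, hh, h1, hc⟩⟩
          rw [if_pos hl, if_neg hD, if_neg hz, if_pos h3]; ring
        · have h3 : ¬ R g := fun h => hl h.1
          rw [if_neg hl, if_neg hD, if_neg hz, if_neg h3]; ring
  set ZS : Finset G := Finset.univ.filter (fun g : G => g ∈ Subgroup.center G) with hZS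
  have hmemZ : ∀ z, z ∈ ZS ↔ z ∈ Subgroup.center G := fun z => by simp [hZS]
  let T : Finset G := ((Finset.univ : Finset H) ×ˢ ZS).image (fun p => (p.1 : G) * p.2)
  have hinj : ∀ p ∈ ((Finset.univ : Finset H) ×ˢ ZS), ∀ q ∈ ((Finset.univ : Finset H) ×ˢ ZS),
      (p.1 : G) * p.2 = (q.1 : G) * q.2 → p = q := by
    rintro ⟨a, z⟩ hp ⟨b, w⟩ hq hpq
    have hz : z ∈ Subgroup.center G := (hmemZ z).1 (Finset.mem_product.1 hp).2
    have hw : w ∈ Subgroup.center G := (hmemZ w).1 (Finset.mem_product.1 hq).2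
    simp only at hpq
    have h1 : (b : G)⁻¹ * a = w * z⁻¹ := by
      calc (b : G)⁻¹ * a = (b : G)⁻¹ * (a * z) * z⁻¹ := by group
        _ = (b : G)⁻¹ * (b * w) * z⁻¹ := by rw [hpq]
        _ = _ := by group
    have h2 : (b : G)⁻¹ * a ∈ H ⊓ Subgroup.center G :=
      ⟨H.mul_mem (H.inv_mem b.2) a.2, by
        rw [h1]; exact (Subgroup.center G).mul_mem hw ((Subgroup.center G).inv_mem hz)⟩
    rw [hZ] at h2
    have h3 : (b : G)⁻¹ * a = 1 := Subgroup.mem_bot.1 h2
    have h4 : (a : G) = b := (inv_mul_eq_one.1 h3).symm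
    have h5 : z = w := by rw [h4] at hpq; exact mul_left_cancel hpq
    exact Prod.ext (Subtype.ext h4) h5
  have hT : ∑ g ∈ T, ‖χ₀ g‖ ^ 2 =
      (Nat.card H : ℝ) * ((∑ z ∈ ZS, F z) * (‖χ₀ 1‖ ^ 2 / (d : ℝ) ^ 2)) := by
    rw [Finset.sum_image hinj, Finset.sum_product]
    have h1 : ∀ a : H, ∑ z ∈ ZS, ‖χ₀ ((a : G) * z)‖ ^ 2 =
        (∑ z ∈ ZS, F z) * (‖χ₀ 1‖ ^ 2 / (d : ℝ) ^ 2) := by
      intro a
      rw [Finset.sum_mul]
      refine Finset.sum_congr rfl fun z hz => ?_
      rw [hHZ a a.2 z ((hmemZ z).1 hz), hd, norm_div, norm_mul, Complex.norm_natCast]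
      simp only [F]
      ring
    rw [Finset.sum_congr rfl fun a _ => h1 a, Finset.sum_const, Finset.card_univ, nsmul_eq_mul,
      Nat.card_eq_fintype_card]
  have hlow : ∑ g ∈ Finset.univ.filter R, F g + ∑ g ∈ T, ‖χ₀ g‖ ^ 2 ≤
      ∑ g ∈ Finset.univ.filter (fun g : G => g ∈ L), ‖χ₀ g‖ ^ 2 := by
    have h1 : ∑ g ∈ Finset.univ.filter R, F g = ∑ g ∈ Finset.univ.filter R, ‖χ₀ g‖ ^ 2 := by
      refine Finset.sum_congr rfl fun g hg => ?_
      have hg' : R g := (Finset.mem_filter.1 hg).2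
      simp only [F]
      rw [hR g hg'.1 hg'.2.2]
    have hdisj : Disjoint (Finset.univ.filter R) T := by
      rw [Finset.disjoint_left]
      intro g hg hgT
      have hg' : R g := (Finset.mem_filter.1 hg).2
      obtain ⟨⟨a, z⟩, hp, hgp⟩ := Finset.mem_image.1 hgT
      have hz : z ∈ Subgroup.center G := (hmemZ z).1 (Finset.mem_product.1 hp).2
      simp only at hgp
      have h2 : g * a = a * g := by
        rw [← hgp, mul_assoc, ← Subgroup.mem_center_iff.1 hz a]
      have h3 := hg'.2.2 a a.2 h2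
      apply hg'.2.1
      rw [← hgp, h3, one_mul]; exact hz
    rw [h1, ← Finset.sum_union hdisj]
    apply Finset.sum_le_sum_of_subset_of_nonneg
    · intro g hg
      rcases Finset.mem_union.1 hg with h | h
      · exact Finset.mem_filter.2 ⟨Finset.mem_univ _, (Finset.mem_filter.1 h).2.1⟩
      · obtain ⟨⟨a, z⟩, hp, hgp⟩ := Finset.mem_image.1 h
        have hz : z ∈ Subgroup.center G := (hmemZ z).1 (Finset.mem_product.1 hp).2
        simp only at hgp
        rw [← hgp]
        exact Finset.mem_filter.2 ⟨Finset.mem_univ _, L.mul_mem (hHL a.2) (hZL hz)⟩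
    · intro g _ _; positivity
  have hB : 0 < ∑ z ∈ ZS, F z := by
    have h1 : F 1 ≤ ∑ z ∈ ZS, F z :=
      Finset.single_le_sum (fun z _ => hF0 z) ((hmemZ 1).2 (Subgroup.one_mem _))
    have h2 : 0 < F 1 := by
      simp only [F]; rw [hd, Complex.norm_natCast]; positivity
    linarith
  have hγ : (0 : ℝ) < Nat.card G := by exact_mod_cast Nat.card_pos
  have hℓ : (0 : ℝ) < Nat.card L := by exact_mod_cast Nat.card_pos
  have hdR : (0 : ℝ) < (d : ℝ) ^ 2 := by positivity
  have k0 : (Nat.card L : ℝ) + (Nat.card H : ℝ) * ((∑ z ∈ ZS, F z) * (‖χ₀ 1‖ ^ 2 / (d : ℝ) ^ 2)) ≤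
      ∑ g ∈ Finset.univ.filter D, F g + ∑ z ∈ ZS, F z := by
    rw [hT] at hlow; rw [hdec] at hA; linarith
  have k0' := mul_le_mul_of_nonneg_left k0 hγ.le
  have k1 : (Nat.card G : ℝ) * ((Nat.card H : ℝ) * (‖χ₀ 1‖ ^ 2 / (d : ℝ) ^ 2)) * (∑ z ∈ ZS, F z) ≤
      ((Nat.card G : ℝ) - Nat.card L) * (∑ z ∈ ZS, F z) := by
    nlinarith [k0', hcount]
  have k2 := le_of_mul_le_mul_right k1 hB
  have k3 : (Nat.card H : ℝ) * (‖χ₀ 1‖ ^ 2 / (d : ℝ) ^ 2) < 1 :=
    lt_of_mul_lt_mul_left (a := (Nat.card G : ℝ)) (by linarith) hγ.le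
  have k4 : (Nat.card H : ℝ) * ‖χ₀ 1‖ ^ 2 < (d : ℝ) ^ 2 := by
    rw [← mul_div_assoc, div_lt_one hdR] at k3; exact k3
  have k5 : Cfsg.classInner (fun h : H => χ h) (fun _ => 1) = χ₀ 1 := by
    rw [classInner_def]; simp [χ₀]
  rw [k5, hd, Complex.natCast_re]
  have k6 : (χ₀ 1).re ^ 2 ≤ ‖χ₀ 1‖ ^ 2 := by
    rw [Complex.sq_norm, Complex.normSq_apply]; nlinarith [mul_self_nonneg (χ₀ 1).im]
  have hHpos : (0 : ℝ) ≤ Nat.card H := by positivity
  nlinarith

theorem abel_norm {H : Type*} [Group H] [Fintype H] (hab : ∀ a b : H, a * b = b * a)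
    {ψ : H → ℂ} (hψ : Cfsg.IsCharacter H ψ) : (ψ 1).re ≤ (Cfsg.classInner ψ ψ).re := by
  classical
  have := finite_irrCharacter (G := H)
  cases nonempty_fintype (Cfsg.IrrCharacter H)
  have hm : ∀ μ : Cfsg.IrrCharacter H, ∃ m : ℕ, Cfsg.classInner ψ μ = m := fun μ =>
    IsCharacter.classInner_nat hψ (IsIrrCharacter.isCharacter μ.2)
  choose m hm using hm
  have hψe : ψ = ∑ μ : Cfsg.IrrCharacter H, (m μ : ℂ) • (μ : H → ℂ) := by
    conv_lhs => rw [IsCharacter.eq_sum_irr hψ]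
    exact Finset.sum_congr rfl fun μ _ => by rw [hm]
  have hcomm : commutator H = ⊥ := by
    rw [commutator_def, Subgroup.commutator_eq_bot_iff_le_centralizer]
    intro x _
    rw [Subgroup.mem_centralizer_iff]
    intro y _
    exact hab y x
  have hlin : ∀ μ : Cfsg.IrrCharacter H, (μ : H → ℂ) 1 = 1 := by
    intro μ
    apply IsIrrCharacter.apply_one_eq_one_of_commutator_le μ.2
    intro g hg
    rw [hcomm] at hg
    rw [Subgroup.mem_bot.1 hg]
  have h1 : ψ 1 = ((∑ μ, m μ : ℕ) : ℂ) := by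
    conv_lhs => rw [hψe]
    simp [Finset.sum_apply, hlin]
  have h2 : Cfsg.classInner ψ ψ = ((∑ μ, m μ ^ 2 : ℕ) : ℂ) := by
    conv_lhs => rw [hψe]
    rw [inner_sum_irr]; push_cast
    refine Finset.sum_congr rfl fun μ _ => by rw [Complex.conj_natCast]; ring
  rw [h1, h2, Complex.natCast_re, Complex.natCast_re]
  exact_mod_cast Finset.sum_le_sum fun μ _ => Nat.le_self_pow two_ne_zero _

theorem claim2 {G : Type*} [Group G] [Fintype G] (H : Subgroup G) [Fintype H]
    (hab : ∀ a ∈ H, ∀ b ∈ H, a * b = b * a)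
    (hZ : H ⊓ Subgroup.center G = ⊥)
    (hone : ∀ g : G, g ∉ Subgroup.center G → ∀ a b : G,
      Subgroup.centralizer ({g} : Set G) ⊓ H.map (MulAut.conj a).toMonoidHom ≠ ⊥ →
      Subgroup.centralizer ({g} : Set G) ⊓ H.map (MulAut.conj b).toMonoidHom ≠ ⊥ →
      H.map (MulAut.conj a).toMonoidHom = H.map (MulAut.conj b).toMonoidHom)
    (χ : G → ℂ) (hχ : Cfsg.IsIrrCharacter G χ) (h1 : χ 1 ≠ 1)
    (hM : ∀ M : Subgroup G, M.Normal → H ≤ M → M = ⊤) :
    (Nat.card H : ℝ) < (1 + (χ 1).re) ^ 2 := by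
  classical
  by_contra hcon
  push Not at hcon
  have := finite_irrCharacter (G := G)
  cases nonempty_fintype (Cfsg.IrrCharacter G)
  obtain ⟨d, hd0, hd⟩ := IsIrrCharacter.apply_one_pos hχ
  rw [hd, Complex.natCast_re] at hcon
  have hχc := IsIrrCharacter.isCharacter hχ
  let Φ : G → ℂ := χ * (fun g => conj (χ g))
  have hΦ : Cfsg.IsCharacter G Φ := IsCharacter.mul hχc (IsCharacter.conj hχc)
  have hm : ∀ θ : Cfsg.IrrCharacter G, ∃ m : ℕ, Cfsg.classInner Φ θ = m := fun θ =>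
    IsCharacter.classInner_nat hΦ (IsIrrCharacter.isCharacter θ.2)
  choose a ha using hm
  have hΦe : Φ = ∑ θ : Cfsg.IrrCharacter G, (a θ : ℂ) • (θ : G → ℂ) := by
    conv_lhs => rw [IsCharacter.eq_sum_irr hΦ]
    exact Finset.sum_congr rfl fun μ _ => by rw [ha]
  let one : Cfsg.IrrCharacter G := ⟨fun _ => 1, IsIrrCharacter.one⟩
  have ha1 : a one = 1 := by
    have h2 : Cfsg.classInner Φ one = 1 := by
      rw [← irr_norm_one hχ, classInner_def, classInner_def]; simp [Φ, one]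
    rw [ha] at h2; exact_mod_cast h2
  let c : Cfsg.IrrCharacter G → ℝ := fun θ =>
    (Cfsg.classInner (fun h : H => (θ : G → ℂ) h) (fun _ => 1)).re
  have hθ : ∀ θ : Cfsg.IrrCharacter G, θ ≠ one →
      (1 + (d : ℝ)) * c θ < ((θ : G → ℂ) 1).re := by
    intro θ hθ1
    have hk : ∃ h ∈ H, (θ : G → ℂ) h ≠ (θ : G → ℂ) 1 := by
      by_contra hno
      push Not at hno
      obtain ⟨M, hMn, hMm⟩ := IsCharacter.exists_ker (IsIrrCharacter.isCharacter θ.2)
      have hMt := hM M hMn (fun h hh => (hMm h).2 (hno h hh))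
      have hall : ∀ g, (θ : G → ℂ) g = (θ : G → ℂ) 1 := fun g =>
        (hMm g).1 (by rw [hMt]; trivial)
      have h3 : Cfsg.classInner (θ : G → ℂ) (one : G → ℂ) = (θ : G → ℂ) 1 := by
        rw [classInner_def]
        simp only [one, map_one, mul_one]
        rw [Finset.sum_congr rfl fun g _ => hall g, Finset.sum_const, Finset.card_univ,
          nsmul_eq_mul, ← Nat.card_eq_fintype_card, inv_mul_cancel_left₀ card_ne_zero']
      rw [irr_orthogonal θ.2 one.2 (fun h => hθ1 (Subtype.ext h))] at h3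
      exact IsIrrCharacter.apply_one_ne_zero θ.2 h3.symm
    have hc1 := claim1 H hZ hone θ θ.2 hk
    obtain ⟨t, ht0, ht⟩ := IsIrrCharacter.apply_one_pos θ.2
    rw [ht, Complex.natCast_re] at hc1 ⊢
    have h4 : ((1 + (d : ℝ)) * c θ) ^ 2 < (t : ℝ) ^ 2 := by
      rw [mul_pow]
      have h5 : (1 + (d : ℝ)) ^ 2 * c θ ^ 2 ≤ (Nat.card H : ℝ) * c θ ^ 2 :=
        mul_le_mul_of_nonneg_right hcon (sq_nonneg _)
      exact lt_of_le_of_lt h5 hc1
    exact lt_of_pow_lt_pow_left₀ 2 (by positivity) h4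
  have hX1 : Cfsg.classInner (fun h : H => Φ h) (fun _ => 1) =
      ∑ θ : Cfsg.IrrCharacter G, (a θ : ℂ) *
        Cfsg.classInner (fun h : H => (θ : G → ℂ) h) (fun _ => 1) := by
    have h2 : (fun h : H => Φ h) =
        ∑ θ : Cfsg.IrrCharacter G, (a θ : ℂ) • (fun h : H => (θ : G → ℂ) h) := by
      ext h
      conv_lhs => rw [hΦe]
      simp [Finset.sum_apply]
    rw [h2, classInner_sum_left]
    exact Finset.sum_congr rfl fun θ _ => classInner_smul_left _ _ _
  have hX2 : Cfsg.classInner (fun h : H => Φ h) (fun _ => 1) =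
      Cfsg.classInner (fun h : H => χ h) (fun h : H => χ h) := by
    rw [classInner_def, classInner_def]; simp [Φ]
  have hX3 : (d : ℝ) ≤ (Cfsg.classInner (fun h : H => χ h) (fun h : H => χ h)).re := by
    have h2 := abel_norm (H := H) (fun x y => Subtype.ext (hab x x.2 y y.2))
      (IsCharacter.restrict H hχc)
    simp only [Subgroup.coe_one] at h2
    rw [hd, Complex.natCast_re] at h2
    exact h2
  have hdeg : (d : ℝ) ^ 2 = ∑ θ : Cfsg.IrrCharacter G, (a θ : ℝ) * ((θ : G → ℂ) 1).re := by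
    have h2 : Φ 1 = ((d : ℂ)) ^ 2 := by
      simp only [Φ, Pi.mul_apply]
      rw [hd, Complex.conj_natCast]; ring
    have h3 : Φ 1 = ∑ θ : Cfsg.IrrCharacter G, (a θ : ℂ) * (θ : G → ℂ) 1 := by
      conv_lhs => rw [hΦe]
      simp [Finset.sum_apply]
    have h4 := congrArg Complex.re (h2.symm.trans h3)
    rw [Complex.re_sum] at h4
    simp only [Complex.mul_re, Complex.natCast_re, Complex.natCast_im, zero_mul, sub_zero] at h4
    rw [← h4]
    norm_cast
  have hXre : (Cfsg.classInner (fun h : H => Φ h) (fun _ => 1)).re =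
      ∑ θ : Cfsg.IrrCharacter G, (a θ : ℝ) * c θ := by
    rw [hX1, Complex.re_sum]
    simp only [Complex.mul_re, Complex.natCast_re, Complex.natCast_im, zero_mul, sub_zero, c]
  let f : Cfsg.IrrCharacter G → ℝ := fun θ =>
    (a θ : ℝ) * (((θ : G → ℂ) 1).re - (1 + (d : ℝ)) * c θ)
  have hsum : ∑ θ, f θ ≤ -(d : ℝ) := by
    have h2 : ∑ θ, f θ = (d : ℝ) ^ 2 - (1 + (d : ℝ)) * ∑ θ, (a θ : ℝ) * c θ := by
      rw [hdeg, Finset.mul_sum, ← Finset.sum_sub_distrib]
      exact Finset.sum_congr rfl fun θ _ => by simp only [f]; ring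
    rw [h2, ← hXre, hX2]
    have hdp : (0 : ℝ) < d := by exact_mod_cast hd0
    nlinarith
  have hsplit := Finset.add_sum_erase Finset.univ f (Finset.mem_univ one)
  have hcone : c one = 1 := by
    simp only [c, one]
    rw [classInner_def]
    simp only [map_one, mul_one, Finset.sum_const, Finset.card_univ, nsmul_eq_mul]
    rw [← Nat.card_eq_fintype_card, inv_mul_cancel₀ card_ne_zero']
    simp
  have hfone : f one = -(d : ℝ) := by
    simp only [f]
    rw [hcone, ha1]
    simp [one]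
  have hnonneg : ∀ θ ∈ Finset.univ.erase one, 0 ≤ f θ := fun θ hθ' =>
    mul_nonneg (Nat.cast_nonneg _) (by
      have := hθ θ (Finset.ne_of_mem_erase hθ'); linarith)
  have hzero : ∑ θ ∈ Finset.univ.erase one, f θ = 0 :=
    le_antisymm (by linarith) (Finset.sum_nonneg hnonneg)
  have hz := (Finset.sum_eq_zero_iff_of_nonneg hnonneg).1 hzero
  have ha0 : ∀ θ, θ ≠ one → a θ = 0 := by
    intro θ hθ1
    have h5 := hz θ (Finset.mem_erase.2 ⟨hθ1, Finset.mem_univ _⟩)
    have h6 := hθ θ hθ1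
    rcases mul_eq_zero.1 h5 with h7 | h7
    · exact_mod_cast h7
    · linarith
  have hd1 : (d : ℝ) ^ 2 = 1 := by
    rw [hdeg, Finset.sum_eq_single one]
    · rw [ha1]; simp [one]
    · intro θ _ hθ1; rw [ha0 θ hθ1]; simp
    · intro h; exact absurd (Finset.mem_univ _) h
  apply h1
  rw [hd]
  have hd2 : d ^ 2 = 1 := by exact_mod_cast hd1
  have hd3 : d = 1 := by nlinarith
  rw [hd3]; simp

/-- Let H be an abelian subgroup of the finite group G meeting the centre of G trivially, such that for every non-central g the centralizer of g has nontrivial intersection with at most one conjugate of H. Let χ be an irreducible character of G with χ h ≠ χ 1 for some h in H, and let c be the inner product of the restriction of χ to H with the principal character. Then χ(1)² > (order of H)·c²; and if in addition χ 1 ≠ 1 and no proper normal subgroup of G contains H, then (1 + χ 1)² > order of H (both sides read as real numbers). -/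
theorem result {G : Type*} [Group G] [Fintype G] (H : Subgroup G) [Fintype H] (hab : ∀ a ∈ H, ∀ b ∈ H, a * b = b * a) (hZ : H ⊓ Subgroup.center G = ⊥) (hone : ∀ g : G, g ∉ Subgroup.center G → ∀ a b : G, Subgroup.centralizer ({g} : Set G) ⊓ H.map (MulAut.conj a).toMonoidHom ≠ ⊥ → Subgroup.centralizer ({g} : Set G) ⊓ H.map (MulAut.conj b).toMonoidHom ≠ ⊥ → H.map (MulAut.conj a).toMonoidHom = H.map (MulAut.conj b).toMonoidHom) (χ : G → ℂ) (hχ : Cfsg.IsIrrCharacter G χ) (hker : ∃ h ∈ H, χ h ≠ χ 1) : (χ 1).re ^ 2 > (Nat.card H : ℝ) * (Cfsg.classInner (fun h : H => χ h) (fun _ => 1)).re ^ 2 ∧ (χ 1 ≠ 1 → (∀ M : Subgroup G, M.Normal → H ≤ M → M = ⊤) → (1 + (χ 1).re) ^ 2 > (Nat.card H : ℝ)) := by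
  exact ⟨claim1 H hZ hone χ hχ hker, fun h1 hM => claim2 H hab hZ hone χ hχ h1 hM⟩

end Cfsg.Agent.S0898
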