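import Cfsg.Statements.S4446
import Cfsg.Agent.Lib.Helper25.Glaub20

set_option autoImplicit false
open Cfsg

namespace Cfsg.Agent.S4446

open Cfsg.Agent.Lib.Helper25

/-- Let the finite group Γ be generated by a normal subgroup G and a cyclic subgroup S of coprime orders, C = G ⊓ C(S), and let χ be an S-invariant irreducible character of G with canonical extension χ̂ to Γ (the extension whose determinantal order is coprime to the order of S). Then there are exactly one irreducible character β of C and one sign ε such that χ̂(c s) = ε β(c) for every c ∈ C and every generator s of S; this β is a constituent of the restriction of χ to C; distinct S-invariant χ give distinct β; and every irreducible character of C arises in this way. -/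
theorem result {Γ : Type*} [Group Γ] [Fintype Γ] (G S : Subgroup Γ) [Fintype G] (hnorm : ∀ s ∈ S, ∀ g ∈ G, s * g * s⁻¹ ∈ G) (hcop : (Nat.card G).Coprime (Nat.card S)) (htop : G ⊔ S = ⊤) (hcyc : IsCyclic S) (C : Subgroup Γ) [Fintype C] (hC : C = G ⊓ Subgroup.centralizer (S : Set Γ)) (hCG : C ≤ G) : (∀ (χ : Cfsg.IrrCharacter G) (χh : Cfsg.IrrCharacter Γ), (∀ s ∈ S, ∀ g g' : G, (g' : Γ) = s * g * s⁻¹ → (χ : G → ℂ) g' = (χ : G → ℂ) g) → (∀ g : G, (χh : Γ → ℂ) g = (χ : G → ℂ) g) → (Cfsg.detOrder (χh : Γ → ℂ)).Coprime (Nat.card S) → (∃! βε : Cfsg.IrrCharacter C × ℤ, (βε.2 = 1 ∨ βε.2 = -1) ∧ ∀ c : C, ∀ s : Γ, Subgroup.zpowers s = S → (χh : Γ → ℂ) ((c : Γ) * s) = (βε.2 : ℂ) * (βε.1 : C → ℂ) c) ∧ ∀ β : Cfsg.IrrCharacter C, ∀ ε : ℤ, (ε = 1 ∨ ε = -1) → (∀ c : C, ∀ s : Γ, Subgroup.zpowers s = S → (χh : Γ → ℂ) ((c : Γ) * s) = (ε : ℂ) * (β : C → ℂ) c) → Cfsg.classInner (fun c : C => (χ : G →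 ℂ) ⟨c, hCG c.2⟩) (β : C → ℂ) ≠ 0) ∧ (∀ (χ χ' : Cfsg.IrrCharacter G) (χh χh' : Cfsg.IrrCharacter Γ), (∀ s ∈ S, ∀ g g' : G, (g' : Γ) = s * g * s⁻¹ → (χ : G → ℂ) g' = (χ : G → ℂ) g) → (∀ s ∈ S, ∀ g g' : G, (g' : Γ) = s * g * s⁻¹ → (χ' : G → ℂ) g' = (χ' : G → ℂ) g) → (∀ g : G, (χh : Γ → ℂ) g = (χ : G → ℂ) g) → (∀ g : G, (χh' : Γ → ℂ) g = (χ' : G → ℂ) g) → (Cfsg.detOrder (χh : Γ → ℂ)).Coprime (Nat.card S) → (Cfsg.detOrder (χh' : Γ → ℂ)).Coprime (Nat.card S) → ∀ β : Cfsg.IrrCharacter C, ∀ ε ε' : ℤ, (ε = 1 ∨ ε = -1) → (ε' = 1 ∨ ε' = -1) → (∀ c : C, ∀ s : Γ, Subgroup.zpowers s = S → (χh : Γ → ℂ) ((c : Γ) * s) = (ε : ℂ) * (β : C → ℂ) c) → (∀ c : C, ∀ s : Γ, Subgroup.zpowers s = S → (χh' : Γ → ℂ) ((c : Γ) * s) = (ε' : ℂ) * (β : C → ℂ) c) → χ = χ') ∧ (∀ β : Cfsg.IrrCharacter C, ∃ (χ : Cfsg.IrrCharacter G) (χh : Cfsg.IrrCharacter Γ) (ε : ℤ), (∀ s ∈ S, ∀ g g' : G, (g' : Γ) = s * g * s⁻¹ → (χ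 : G → ℂ) g' = (χ : G → ℂ) g) ∧ (∀ g : G, (χh : Γ → ℂ) g = (χ : G → ℂ) g) ∧ (Cfsg.detOrder (χh : Γ → ℂ)).Coprime (Nat.card S) ∧ (ε = 1 ∨ ε = -1) ∧ ∀ c : C, ∀ s : Γ, Subgroup.zpowers s = S → (χh : Γ → ℂ) ((c : Γ) * s) = (ε : ℂ) * (β : C → ℂ) c) := by
  classical
  have hSn := le_normalizer_of_conj_mem G S hnorm
  have hG : G.Normal := by
    rw [← Subgroup.normalizer_eq_top_iff, eq_top_iff, ← htop]
    exact sup_le Subgroup.le_normalizer hSn
  obtain ⟨s₀', hs₀'⟩ := hcyc.exists_generator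
  obtain ⟨s₀, hs₀S, hz⟩ : ∃ s₀ : Γ, s₀ ∈ S ∧ Subgroup.zpowers s₀ = S := by
    refine ⟨s₀', s₀'.2, ?_⟩
    ext x
    constructor
    · intro hx
      exact (Subgroup.zpowers_le.2 s₀'.2) hx
    · intro hx
      obtain ⟨i, hi⟩ := hs₀' ⟨x, hx⟩
      exact ⟨i, by have := congrArg Subtype.val hi; simpa using this⟩
  have ho : orderOf s₀ = Nat.card S := by rw [← Nat.card_zpowers, hz]
  have hgen : ∀ x : Γ, ∃ i : ℤ, x * s₀ ^ i ∈ G := by
    have hs₀n : s₀ ∈ Subgroup.normalizer (G : Set Γ) := hSn hs₀S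
    have h1 : (⊤ : Subgroup Γ) ≤ genSub G s₀ hs₀n := by
      rw [← htop, ← hz]
      exact sup_le (le_genSub G s₀ hs₀n) (Subgroup.zpowers_le.2 (self_mem_genSub G s₀ hs₀n))
    intro x
    exact h1 (Subgroup.mem_top x)
  have hcop' : (Nat.card G).Coprime (orderOf s₀) := ho ▸ hcop
  have hCfix : C = fixSub G s₀ := by
    rw [hC]
    ext x
    rw [mem_inf_centralizer, mem_fixSub]
    refine and_congr_right fun _ => ⟨fun h => (h s₀ hs₀S).symm, fun h s hs => ?_⟩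
    rw [← hz] at hs
    obtain ⟨i, rfl⟩ := hs
    have hc : Commute x s₀ := h
    exact (hc.zpow_right i).symm.eq
  have hs₀G : ∀ g ∈ G, s₀ * g * s₀⁻¹ ∈ G := hnorm s₀ hs₀S
  have hkey : ∀ (χ : Cfsg.IrrCharacter G) (χh : Cfsg.IrrCharacter Γ),
      (∀ g : G, (χh : Γ → ℂ) g = (χ : G → ℂ) g) →
      (Cfsg.detOrder (χh : Γ → ℂ)).Coprime (Nat.card S) →
      ∃ (β : C → ℂ) (ε : ℤ), Cfsg.IsIrrCharacter C β ∧ (ε = 1 ∨ ε = -1) ∧
        (∀ c : C, ∀ s : Γ, Subgroup.zpowers s = S → (χh : Γ → ℂ) ((c : Γ) * s) = (ε : ℂ) * β c) ∧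
        Cfsg.classInner (fun c : C => (χ : G → ℂ) ⟨c, hCG c.2⟩) β ≠ 0 := by
    intro χ χh hext hdet
    have hres : Cfsg.IsIrrCharacter G (fun g : G => (χh : Γ → ℂ) g) := by
      rw [funext hext]; exact χ.2
    obtain ⟨β, ε, hβ, hε, h1, h2⟩ := glaub_canonical G s₀ hgen hcop' C hCfix χh.2 hres (ho ▸ hdet)
    refine ⟨β, ε, hβ, hε, ?_, ?_⟩
    · intro c s hs
      obtain ⟨k, hk, rfl⟩ := exists_pow_of_zpowers_eq (hs.trans hz.symm)
      exact h1 k hk c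
    · have : (fun c : C => (χ : G → ℂ) ⟨c, hCG c.2⟩) = fun c : C => (χh : Γ → ℂ) c :=
        funext fun c => (hext ⟨c, hCG c.2⟩).symm
      rw [this]; exact h2
  have hinj : ∀ (χ χ' : Cfsg.IrrCharacter G) (χh χh' : Cfsg.IrrCharacter Γ),
      (∀ g : G, (χh : Γ → ℂ) g = (χ : G → ℂ) g) → (∀ g : G, (χh' : Γ → ℂ) g = (χ' : G → ℂ) g) →
      ∀ β : C → ℂ, Cfsg.IsIrrCharacter C β → ∀ ε ε' : ℤ, (ε = 1 ∨ ε = -1) → (ε' = 1 ∨ ε' = -1) →
      (∀ c : C, (χh : Γ → ℂ) ((c : Γ) * s₀) = (ε : ℂ) * β c) →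
      (∀ c : C, (χh' : Γ → ℂ) ((c : Γ) * s₀) = (ε' : ℂ) * β c) → χ = χ' := by
    intro χ χ' χh χh' hext hext' β hβ ε ε' hε hε' h1 h2
    by_contra hne
    have hres : Cfsg.IsIrrCharacter G (fun g : G => (χh : Γ → ℂ) g) := by
      rw [funext hext]; exact χ.2
    have hres' : Cfsg.IsIrrCharacter G (fun g : G => (χh' : Γ → ℂ) g) := by
      rw [funext hext']; exact χ'.2
    have hne' : (fun g : G => (χh : Γ → ℂ) g) ≠ fun g : G => (χh' : Γ → ℂ) g := by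
      rw [funext hext, funext hext']
      exact fun h => hne (Subtype.ext h)
    have h0 := (classInner_shift G s₀ C hCfix hcop' χh.2 χh'.2 hres hres').2 hne'
    have e1 : (fun c : C => (χh : Γ → ℂ) ((c : Γ) * s₀)) = (ε : ℂ) • β := funext h1
    have e2 : (fun c : C => (χh' : Γ → ℂ) ((c : Γ) * s₀)) = (ε' : ℂ) • β := funext h2
    rw [e1, e2, Cfsg.Agent.Lib.Helper7.classInner_smul_left,
      Cfsg.Agent.Lib.Helper7.classInner_smul_right,
      Cfsg.Agent.Lib.Helper7.classInner_irr_self hβ] at h0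
    rcases hε with rfl | rfl <;> rcases hε' with rfl | rfl <;> simp at h0
  refine ⟨?_, ?_, ?_⟩
  · intro χ χh _ hext hdet
    obtain ⟨β, ε, hβ, hε, h1, h2⟩ := hkey χ χh hext hdet
    have huniq : ∀ (β' : Cfsg.IrrCharacter C) (ε' : ℤ), (ε' = 1 ∨ ε' = -1) →
        (∀ c : C, ∀ s : Γ, Subgroup.zpowers s = S →
          (χh : Γ → ℂ) ((c : Γ) * s) = (ε' : ℂ) * (β' : C → ℂ) c) → ε' = ε ∧ (β' : C → ℂ) = β := by
      intro β' ε' hε' h'
      exact sign_unique β'.2 hβ hε' hε fun c => (h' c s₀ hz).symm.trans (h1 c s₀ hz)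
    refine ⟨⟨(⟨β, hβ⟩, ε), ⟨hε, h1⟩, ?_⟩, ?_⟩
    · rintro ⟨β', ε'⟩ ⟨hε', h'⟩
      obtain ⟨e1, e2⟩ := huniq β' ε' hε' h'
      exact Prod.ext (Subtype.ext e2) e1
    · intro β' ε' hε' h'
      obtain ⟨-, e2⟩ := huniq β' ε' hε' h'
      rw [e2]; exact h2
  · intro χ χ' χh χh' _ _ hext hext' _ _ β ε ε' hε hε' h1 h2
    exact hinj χ χ' χh χh' hext hext' β β.2 ε ε' hε hε' (fun c => h1 c s₀ hz) (fun c => h2 c s₀ hz)
  · -- existence of the canonical extension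
    have hidx : G.index ∣ Nat.card S := ho ▸ index_dvd_orderOf_of_gen G s₀ hgen
    have hcan : ∀ χ : Cfsg.IrrCharacter G, (χ : G → ℂ) ∘ conjAut G s₀ hs₀G = (χ : G → ℂ) →
        ∃ χh : Cfsg.IrrCharacter Γ, (∀ g : G, (χh : Γ → ℂ) g = (χ : G → ℂ) g) ∧
          (Cfsg.detOrder (χh : Γ → ℂ)).Coprime (Nat.card S) := by
      intro χ hi
      have hχc := Cfsg.Agent.Lib.Helper7.isCharacter_of_irr χ.2
      have hinvΓ : ∀ (x : Γ) (n : G), (χ : G → ℂ) (MulAut.conjNormal x n) = (χ : G → ℂ) n := by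
        refine invariant_of_gen G s₀ hgen
          (Cfsg.Agent.Lib.Helper7.isClassFunction_of_isCharacter hχc) ?_
        intro n
        have h1 : MulAut.conjNormal s₀ n = conjAut G s₀ hs₀G n := Subtype.ext (by
          rw [conjAut_apply]; simp)
        rw [h1]
        exact congrFun hi n
      obtain ⟨d, -, hd⟩ := Cfsg.Agent.Lib.Helper7.irr_apply_one χ.2
      have hdG : d ∣ Nat.card G := by
        have h3 := Cfsg.Agent.Lib.Helper7.charDegree_dvd_card χ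
        have h4 : Cfsg.charDegree (χ : G → ℂ) = d := by
          simp only [Cfsg.charDegree]
          rw [hd]
          simp
        rwa [h4] at h3
      have hoG := detOrder_dvd_card hχc
      have hc1 : Nat.Coprime G.index (Cfsg.detOrder (χ : G → ℂ) * d) := by
        refine Nat.Coprime.mul_right ?_ ?_
        · exact (Nat.Coprime.coprime_dvd_left hoG (Nat.Coprime.coprime_dvd_right hidx hcop)).symm
        · exact (Nat.Coprime.coprime_dvd_left hdG (Nat.Coprime.coprime_dvd_right hidx hcop)).symm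
      obtain ⟨χh, ⟨hχh, hext, hdet⟩, -⟩ := Cfsg.Agent.S0867.result G χ χ.2
        (fun g n => hinvΓ g n) d hd hc1
      exact ⟨⟨χh, hχh⟩, hext, by
        show (Cfsg.detOrder χh).Coprime (Nat.card S)
        rw [hdet]; exact Nat.Coprime.coprime_dvd_left hoG hcop⟩
    choose H hH1 hH2 using hcan
    have hdata := fun (χ : {χ : Cfsg.IrrCharacter G //
        (χ : G → ℂ) ∘ conjAut G s₀ hs₀G = (χ : G → ℂ)}) =>
      hkey χ.1 (H χ.1 χ.2) (hH1 χ.1 χ.2) (hH2 χ.1 χ.2)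
    choose B E hB hE hBE _ using hdata
    let F : {χ : Cfsg.IrrCharacter G // (χ : G → ℂ) ∘ conjAut G s₀ hs₀G = (χ : G → ℂ)} →
        Cfsg.IrrCharacter C := fun χ => ⟨B χ, hB χ⟩
    have hFinj : Function.Injective F := by
      intro χ χ' hF
      have h3 : B χ = B χ' := congrArg Subtype.val hF
      apply Subtype.ext
      refine hinj χ.1 χ'.1 (H χ.1 χ.2) (H χ'.1 χ'.2) (hH1 χ.1 χ.2) (hH1 χ'.1 χ'.2) (B χ) (hB χ)
        (E χ) (E χ') (hE χ) (hE χ') (fun c => hBE χ c s₀ hz) (fun c => ?_)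
      rw [h3]
      exact hBE χ' c s₀ hz
    have hcard : Nat.card {χ : Cfsg.IrrCharacter G //
        (χ : G → ℂ) ∘ conjAut G s₀ hs₀G = (χ : G → ℂ)} = Nat.card (Cfsg.IrrCharacter C) := by
      rw [hCfix]; exact card_irr_fixSub G s₀ hs₀G hcop'
    have : Finite (Cfsg.IrrCharacter C) := Cfsg.Agent.Lib.Helper2.finite_irrCharacter
    have hbij := hFinj.bijective_of_nat_card_le hcard.ge
    intro β
    obtain ⟨χ, hχ⟩ := hbij.2 β
    refine ⟨χ.1, H χ.1 χ.2, E χ, ?_, hH1 χ.1 χ.2, hH2 χ.1 χ.2, hE χ, ?_⟩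
    · have h1 : S ≤ stabSub G (χ.1 : G → ℂ) := by
        rw [← hz, Subgroup.zpowers_le]
        exact (mem_stabSub_iff G s₀ hs₀G _).2 χ.2
      exact invUnder_of_le_stabSub h1
    · have h3 : B χ = (β : C → ℂ) := congrArg Subtype.val hχ
      rw [← h3]
      exact hBE χ

end Cfsg.Agent.S4446
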