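import Cfsg.Statements.S4495
import Cfsg.Agent.Lib.Helper24.SelfCent

set_option autoImplicit false
open Cfsg

namespace Cfsg.Agent.S4495

/-- Let the finite group G contain an element x of prime order p with C_G(x) = ⟨x⟩, and let t be the number of conjugacy classes of elements of order p. If t ≠ p − 1 then the commutator subgroup has index at most (p − 1)/t; if t = p − 1 it has index exactly p. -/
theorem result {G : Type*} [Group G] [Finite G] (p : ℕ) (hp : p.Prime) (x : G) (hx : orderOf x = p) (hC : Subgroup.centralizer ({x} : Set G) = Subgroup.zpowers x) (t : ℕ) (ht : Nat.card {C : ConjClasses G // ∃ g ∈ C.carrier, orderOf g = p} = t) : (t ≠ p - 1 → (commutator G).index * t ≤ p - 1) ∧ (t = p - 1 → (commutator G).index = p) := by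
  have h : Cfsg.Agent.Lib.Helper24.SC.Hyp p x := ⟨hp, hx, hC⟩
  have hcl := h.card_classes
  rw [ht] at hcl
  have hp1 : 0 < p - 1 := by have := hp.two_le; omega
  constructor
  · intro hne
    have hN : ¬ Subgroup.normalizer (Subgroup.zpowers x : Set G) ≤ Subgroup.zpowers x := by
      intro hle
      rw [Subgroup.relIndex_eq_one.2 hle, mul_one] at hcl
      exact hne hcl
    have hPG := h.le_commutator_of_ne hN
    have hsup := h.sup_normalizer hPG
    have h1 : (commutator G).index =
        (commutator G).relIndex (Subgroup.normalizer (Subgroup.zpowers x : Set G)) := by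
      rw [← Subgroup.relIndex_top_right, ← hsup, Subgroup.relIndex_sup_right]
    have h2 := Subgroup.relIndex_dvd_of_le_left
      (Subgroup.normalizer (Subgroup.zpowers x : Set G)) hPG
    have he : 0 < (Subgroup.zpowers x).relIndex
        (Subgroup.normalizer (Subgroup.zpowers x : Set G)) := by
      rcases Nat.eq_zero_or_pos ((Subgroup.zpowers x).relIndex
        (Subgroup.normalizer (Subgroup.zpowers x : Set G))) with h0 | h0
      · rw [h0] at hcl; omega
      · exact h0
    rw [h1, ← hcl, mul_comm]
    exact Nat.mul_le_mul_left _ (Nat.le_of_dvd he h2)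
  · intro heq
    have he : (Subgroup.zpowers x).relIndex
        (Subgroup.normalizer (Subgroup.zpowers x : Set G)) = 1 := by
      rw [heq] at hcl
      exact Nat.eq_of_mul_eq_mul_left hp1 (by rw [hcl, mul_one])
    obtain ⟨K, hKn, hK⟩ := h.exists_complement (Subgroup.relIndex_eq_one.1 he)
    rw [h.commutator_eq_of_complement hK, h.index_of_complement hK]

end Cfsg.Agent.S4495
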