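import Cfsg.Statements.S4508
import Cfsg.Agent.Lib.Helper24.SelfCent
import Cfsg.Agent.Lib.Helper7.CharBasic
import Cfsg.Agent.Lib.Helper2.CharEigen
import Cfsg.Agent.S4495

set_option autoImplicit false
open Cfsg

namespace Cfsg.Agent.S4508

open Subgroup Module
open scoped ComplexConjugate
open Cfsg.Agent.Lib.Helper24.SC

variable {G : Type*} [Group G]

theorem geom_root {η : ℂ} {m : ℕ} (h : η ^ m = 1) :
    ∑ k ∈ Finset.range m, η ^ k = if η = 1 then (m : ℂ) else 0 := by
  split_ifs with h1
  · simp [h1]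
  · have := geom_sum_mul η m
    rw [h, sub_self] at this
    exact (mul_eq_zero.1 this).resolve_right (sub_ne_zero.2 h1)

theorem eig_data [Finite G] {V : Type*} [AddCommGroup V] [Module ℂ V]
    [FiniteDimensional ℂ V] (ρ : Representation ℂ G V) (g : G) :
    ∃ (ι : Type) (_ : Fintype ι) (b : Basis ι ℂ V) (μ : ι → ℂ),
      (∀ i, μ i ^ orderOf g = 1) ∧
      (∀ k : ℕ, ∀ i, ρ (g ^ k) (b i) = μ i ^ k • b i) ∧
      (∀ k : ℕ, ρ.character (g ^ k) = ∑ i, μ i ^ k) ∧
      Fintype.card ι = finrank ℂ V := by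
  obtain ⟨ι, hι, b, μ, -, h2, h3, -⟩ := Cfsg.Agent.Lib.Helper2.exists_rep_eigenbasis ρ g
  refine ⟨ι, hι, b, μ, h2, h3, ?_, ?_⟩
  · intro k
    exact Cfsg.Agent.Lib.Helper2.trace_of_diag b (ρ (g ^ k)) (fun i => μ i ^ k) (h3 k)
  · exact (Module.finrank_eq_card_basis b).symm

/-- Fourier inversion counting eigenvalues -/
theorem sum_pow_count {ι : Type} [Fintype ι] (μ : ι → ℂ) {m : ℕ} (hm : 0 < m)
    (h : ∀ i, μ i ^ m = 1) (ω : ℂ) (hω : ω ^ m = 1) [DecidablePred (fun i => μ i = ω)] :
    ∑ k ∈ Finset.range m, (∑ i, μ i ^ k) * (ω⁻¹) ^ k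
      = (m : ℂ) * ((Finset.univ.filter (fun i => μ i = ω)).card : ℂ) := by
  have hω0 : ω ≠ 0 := by
    intro h0
    rw [h0, zero_pow hm.ne'] at hω
    exact zero_ne_one hω
  have h1 : ∀ i, ∑ k ∈ Finset.range m, (μ i * ω⁻¹) ^ k = if μ i = ω then (m : ℂ) else 0 := by
    intro i
    rw [geom_root (by rw [mul_pow, h i, inv_pow, hω]; simp)]
    have : μ i * ω⁻¹ = 1 ↔ μ i = ω := by
      rw [mul_inv_eq_one₀ hω0]
    simp only [this]
  calc ∑ k ∈ Finset.range m, (∑ i, μ i ^ k) * (ω⁻¹) ^ k
      = ∑ k ∈ Finset.range m, ∑ i, (μ i * ω⁻¹) ^ k := by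
        refine Finset.sum_congr rfl fun k _ => ?_
        rw [Finset.sum_mul]
        refine Finset.sum_congr rfl fun i _ => ?_
        rw [mul_pow]
    _ = ∑ i, ∑ k ∈ Finset.range m, (μ i * ω⁻¹) ^ k := Finset.sum_comm
    _ = ∑ i, if μ i = ω then (m : ℂ) else 0 := Finset.sum_congr rfl fun i _ => h1 i
    _ = (m : ℂ) * ((Finset.univ.filter (fun i => μ i = ω)).card : ℂ) := by
        rw [← Finset.sum_filter, Finset.sum_const, nsmul_eq_mul, mul_comm]

/-- Parseval lower bound -/
theorem parseval_lower {ι : Type} [Fintype ι] (μ : ι → ℂ) {m : ℕ} (hm : 0 < m)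
    (h : ∀ i, μ i ^ m = 1) [DecidablePred (fun i => μ i = 1)] :
    ∃ Q : ℕ, ∑ k ∈ Finset.range m, (∑ i, μ i ^ k) * conj (∑ i, μ i ^ k) = (m : ℂ) * Q ∧
      (Finset.univ.filter (fun i => μ i = 1)).card ^ 2 + Fintype.card ι
        ≤ Q + (Finset.univ.filter (fun i => μ i = 1)).card := by
  classical
  set A := (Finset.univ.filter (fun i => μ i = 1)).card with hA
  refine ⟨∑ j, (Finset.univ.filter (fun i => μ i = μ j)).card, ?_, ?_⟩
  · have h1 : ∀ k, conj (∑ i, μ i ^ k) = ∑ j, ((μ j)⁻¹) ^ k := by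
      intro k
      rw [map_sum]
      refine Finset.sum_congr rfl fun j _ => ?_
      rw [map_pow, Cfsg.Agent.Lib.Helper7.conj_eq_inv_of_pow_eq_one hm.ne' (h j)]
    calc ∑ k ∈ Finset.range m, (∑ i, μ i ^ k) * conj (∑ i, μ i ^ k)
        = ∑ k ∈ Finset.range m, ∑ j, (∑ i, μ i ^ k) * ((μ j)⁻¹) ^ k := by
          refine Finset.sum_congr rfl fun k _ => ?_
          rw [h1, Finset.mul_sum]
      _ = ∑ j, ∑ k ∈ Finset.range m, (∑ i, μ i ^ k) * ((μ j)⁻¹) ^ k := Finset.sum_comm
      _ = ∑ j, (m : ℂ) * ((Finset.univ.filter (fun i => μ i = μ j)).card : ℂ) :=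
          Finset.sum_congr rfl fun j _ => sum_pow_count μ hm h (μ j) (h j)
      _ = _ := by
          rw [← Finset.mul_sum]
          push_cast
          rfl
  · have h2 : ∀ j, (if μ j = 1 then A else 1) ≤ (Finset.univ.filter (fun i => μ i = μ j)).card := by
      intro j
      split_ifs with hj
      · rw [hj, hA]
        apply le_of_eq
        congr!
      · exact Finset.card_pos.2 ⟨j, by simp⟩
    have h3 : ∑ j, (if μ j = 1 then A else 1) = A * A + (Fintype.card ι - A) := by
      rw [Finset.sum_ite, Finset.sum_const, Finset.sum_const, smul_eq_mul, smul_eq_mul, mul_one,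
        ← hA]
      congr 1
      rw [Finset.filter_not, Finset.card_sdiff_of_subset (Finset.filter_subset _ _), Finset.card_univ]
    have h4 : A ≤ Fintype.card ι := by
      rw [hA, ← Finset.card_univ]
      exact Finset.card_le_card (Finset.filter_subset _ _)
    have h5 := Finset.sum_le_sum (fun j (_ : j ∈ Finset.univ) => h2 j)
    rw [h3] at h5
    have : A ^ 2 = A * A := sq A
    omega

variable {p : ℕ} {x : G}

theorem pow_mem_ne_one (h : Hyp p x) {k : ℕ} (hk : k ∈ Finset.Ico 1 p) :
    x ^ k ∈ zpowers x ∧ x ^ k ≠ 1 := by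
  rw [Finset.mem_Ico] at hk
  refine ⟨Subgroup.pow_mem _ (mem_zpowers x) k, ?_⟩
  intro h1
  have := orderOf_dvd_of_pow_eq_one h1
  rw [h.hx] at this
  have := Nat.le_of_dvd (by omega) this
  omega

/-- first orthogonality + trivial intersection: double counting bound -/
theorem ti_sum_le [Fintype G] (h : Hyp p x) (F : G → ℝ) (hF0 : ∀ w, 0 ≤ F w)
    (hFc : ∀ g w, F (g * w * g⁻¹) = F w) :
    (Nat.card G : ℝ) * ∑ k ∈ Finset.Ico 1 p, F (x ^ k)
      ≤ (Nat.card (normalizer (zpowers x : Set G)) : ℝ) * ∑ w, F w := by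
  classical
  set N := normalizer (zpowers x : Set G) with hN
  let S : Finset (G × ℕ) := Finset.univ ×ˢ Finset.Ico 1 p
  let φ : G × ℕ → G := fun a => a.1 * x ^ a.2 * a.1⁻¹
  have h1 : (Nat.card G : ℝ) * ∑ k ∈ Finset.Ico 1 p, F (x ^ k) = ∑ a ∈ S, F (φ a) := by
    rw [Finset.sum_product]
    simp only [φ, hFc]
    rw [Finset.sum_const, Finset.card_univ, nsmul_eq_mul, Nat.card_eq_fintype_card]
  have hfib : ∀ w, (S.filter (fun a => φ a = w)).card ≤ Nat.card N := by
    intro w
    rcases (S.filter (fun a => φ a = w)).eq_empty_or_nonempty with he | ⟨a₀, ha₀⟩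
    · rw [he]; simp
    · rw [Finset.mem_filter, Finset.mem_product] at ha₀
      have hcN : Nat.card N = (Finset.univ.filter (fun g : G => g ∈ N)).card := by
        rw [Nat.card_eq_fintype_card, Fintype.card_subtype]
      rw [hcN]
      apply Finset.card_le_card_of_injOn (fun a => a₀.1⁻¹ * a.1)
      · intro a ha
        rw [Finset.mem_coe, Finset.mem_filter, Finset.mem_product] at ha
        rw [Finset.mem_coe, Finset.mem_filter]
        refine ⟨Finset.mem_univ _, ?_⟩
        obtain ⟨m1, m2⟩ := pow_mem_ne_one h ha.1.2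
        obtain ⟨m3, -⟩ := pow_mem_ne_one h ha₀.1.2
        refine h.mem_normalizer_of_conj m1 m2 m3 ?_
        have e1 : a.1 * x ^ a.2 * a.1⁻¹ = w := ha.2
        have e2 : a₀.1 * x ^ a₀.2 * a₀.1⁻¹ = w := ha₀.2
        calc a₀.1⁻¹ * a.1 * x ^ a.2 * (a₀.1⁻¹ * a.1)⁻¹
            = a₀.1⁻¹ * (a.1 * x ^ a.2 * a.1⁻¹) * a₀.1 := by group
          _ = a₀.1⁻¹ * (a₀.1 * x ^ a₀.2 * a₀.1⁻¹) * a₀.1 := by rw [e1, e2]
          _ = x ^ a₀.2 := by group
      · intro a ha b hb hab
        rw [Finset.mem_coe, Finset.mem_filter, Finset.mem_product] at ha hb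
        have e0 : a.1 = b.1 := mul_left_cancel hab
        have e1 : a.1 * x ^ a.2 * a.1⁻¹ = w := ha.2
        have e2 : b.1 * x ^ b.2 * b.1⁻¹ = w := hb.2
        rw [← e0, ← e1] at e2
        have e3 : x ^ b.2 = x ^ a.2 := mul_left_cancel (mul_right_cancel e2)
        have e4 : b.2 = a.2 := by
          apply pow_injOn_Iio_orderOf _ _ e3
          · rw [h.hx]; exact (Finset.mem_Ico.1 hb.1.2).2
          · rw [h.hx]; exact (Finset.mem_Ico.1 ha.1.2).2
        exact Prod.ext e0 e4.symm
  rw [h1, Finset.sum_comp F φ, Finset.mul_sum]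
  calc ∑ b ∈ S.image φ, (S.filter (fun a => φ a = b)).card • F b
      ≤ ∑ b ∈ S.image φ, (Nat.card N : ℝ) * F b := by
        refine Finset.sum_le_sum fun b _ => ?_
        rw [nsmul_eq_mul]
        exact mul_le_mul_of_nonneg_right (by exact_mod_cast hfib b) (hF0 b)
    _ ≤ ∑ b, (Nat.card N : ℝ) * F b :=
        Finset.sum_le_sum_of_subset_of_nonneg (Finset.subset_univ _)
          (fun b _ _ => mul_nonneg (Nat.cast_nonneg _) (hF0 b))

/-- all elements of a coset `n P`, `n ∈ N ∖ P`, are conjugate to `n` -/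
theorem coset_conj [Finite G] (h : Hyp p x) {n : G} (hn : n ∈ normalizer (zpowers x : Set G))
    (hnP : n ∉ zpowers x) (v : G) (hv : v ∈ zpowers x) : ∃ u : G, u * n * u⁻¹ = n * v := by
  have hn' : n⁻¹ ∈ normalizer (zpowers x : Set G) := Subgroup.inv_mem _ hn
  rw [mem_normalizer_iff] at hn'
  let φ : zpowers x → zpowers x := fun u =>
    ⟨n⁻¹ * u * n * (u : G)⁻¹, by
      have h1 := (hn' u).1 u.2
      rw [inv_inv] at h1
      exact Subgroup.mul_mem _ h1 (Subgroup.inv_mem _ u.2)⟩
  have hinj : Function.Injective φ := by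
    intro u v huv
    have h1 : n⁻¹ * u * n * (u : G)⁻¹ = n⁻¹ * v * n * (v : G)⁻¹ := congrArg Subtype.val huv
    by_contra hne
    have h2 : ((v : G)⁻¹ * u) ≠ 1 := by
      intro h3
      apply hne
      apply Subtype.ext
      have : (u : G) = v * ((v : G)⁻¹ * u) := by group
      rw [this, h3, mul_one]
    have h3 : ((v : G)⁻¹ * u) ∈ zpowers x := Subgroup.mul_mem _ (Subgroup.inv_mem _ v.2) u.2
    apply hnP
    rw [← h.centralizer_eq h3 h2, mem_centralizer_singleton_iff]
    have h4 : (u : G) * n * (u : G)⁻¹ = v * n * (v : G)⁻¹ := by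
      have e1 : (u : G) * n * (u : G)⁻¹ = n * (n⁻¹ * u * n * (u : G)⁻¹) := by group
      have e2 : (v : G) * n * (v : G)⁻¹ = n * (n⁻¹ * v * n * (v : G)⁻¹) := by group
      rw [e1, e2, h1]
    calc n * ((v : G)⁻¹ * u) = (v : G)⁻¹ * (v * n * (v : G)⁻¹) * u := by group
      _ = (v : G)⁻¹ * (u * n * (u : G)⁻¹) * u := by rw [h4]
      _ = (v : G)⁻¹ * u * n := by group
  obtain ⟨u, hu⟩ := (Finite.injective_iff_surjective.1 hinj) ⟨v, hv⟩
  refine ⟨u, ?_⟩
  have h1 : n⁻¹ * u * n * (u : G)⁻¹ = v := congrArg Subtype.val hu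
  rw [← h1]
  group

theorem centralizer_zpowers_eq (h : Hyp p x) :
    centralizer ((zpowers x : Subgroup G) : Set G) = zpowers x := by
  conv_rhs => rw [← h.hC]
  ext g
  rw [mem_centralizer_singleton_iff, mem_centralizer_iff]
  constructor
  · intro hg
    exact (hg x (mem_zpowers x)).symm
  · intro hg z hz
    exact (commute_of_mem_zpowers hz hg).symm

/-- a generator of `N / P` -/
theorem exists_gen [Finite G] (h : Hyp p x) :
    ∃ y ∈ normalizer (zpowers x : Set G), ∀ k : ℕ, y ^ k ∈ zpowers x ↔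
      (zpowers x).relIndex (normalizer (zpowers x : Set G)) ∣ k := by
  haveI : Fact (Nat.card (zpowers x)).Prime := ⟨by rw [h.card]; exact h.hp⟩
  haveI : IsCyclic (MulAut (zpowers x)) :=
    isCyclic_of_surjective (IsCyclic.mulAutMulEquiv (zpowers x)).symm
      (IsCyclic.mulAutMulEquiv (zpowers x)).symm.surjective
  set φ := (zpowers x).normalizerMonoidHom with hφ
  obtain ⟨⟨γ, hγr⟩, hγ⟩ := (inferInstance : IsCyclic φ.range).exists_generator
  obtain ⟨y, rfl⟩ := hγr
  have hord : orderOf (φ y) = (zpowers x).relIndex (normalizer (zpowers x : Set G)) := by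
    have h1 : orderOf (⟨φ y, ⟨y, rfl⟩⟩ : φ.range) = Nat.card φ.range :=
      orderOf_eq_card_of_forall_mem_zpowers hγ
    rw [← Subgroup.index_ker, normalizerMonoidHom_ker, centralizer_zpowers_eq h] at h1
    have h2 : orderOf (φ y) = orderOf (⟨φ y, ⟨y, rfl⟩⟩ : φ.range) :=
      (Subgroup.orderOf_mk _ _).symm
    rw [h2, h1]
    rfl
  refine ⟨y, y.2, fun k => ?_⟩
  rw [← hord, orderOf_dvd_iff_pow_eq_one, ← map_pow, ← MonoidHom.mem_ker,
    normalizerMonoidHom_ker, centralizer_zpowers_eq h, mem_subgroupOf]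
  rfl

theorem card_normalizer [Finite G] (h : Hyp p x) :
    Nat.card (normalizer (zpowers x : Set G))
      = (zpowers x).relIndex (normalizer (zpowers x : Set G)) * p := by
  have h1 := Subgroup.relIndex_mul_relIndex _ _ _ (bot_le : (⊥ : Subgroup G) ≤ zpowers x)
    (le_normalizer : zpowers x ≤ normalizer (zpowers x : Set G))
  rw [relIndex_bot_left, relIndex_bot_left, h.card] at h1
  rw [← h1, mul_comm]

/-- decomposition of sums over `N` -/
theorem sum_normalizer [Finite G] (h : Hyp p x) {y : G}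
    (hy : y ∈ normalizer (zpowers x : Set G))
    (hyk : ∀ k : ℕ, y ^ k ∈ zpowers x ↔ (zpowers x).relIndex (normalizer (zpowers x : Set G)) ∣ k)
    [Fintype (normalizer (zpowers x : Set G))] (f : G → ℂ) :
    ∑ n : normalizer (zpowers x : Set G), f n
      = ∑ k ∈ Finset.range ((zpowers x).relIndex (normalizer (zpowers x : Set G))),
          ∑ j ∈ Finset.range p, f (y ^ k * x ^ j) := by
  classical
  set e := (zpowers x).relIndex (normalizer (zpowers x : Set G)) with he
  let φ : ℕ × ℕ → normalizer (zpowers x : Set G) := fun a => ⟨y ^ a.1 * x ^ a.2,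
    Subgroup.mul_mem _ (Subgroup.pow_mem _ hy _)
      (Subgroup.pow_mem _ (le_normalizer (mem_zpowers x)) _)⟩
  have hinj : Set.InjOn φ (Finset.range e ×ˢ Finset.range p : Finset (ℕ × ℕ)) := by
    intro a ha b hb hab
    rw [Finset.mem_coe, Finset.mem_product, Finset.mem_range, Finset.mem_range] at ha hb
    have h1 : y ^ a.1 * x ^ a.2 = y ^ b.1 * x ^ b.2 := congrArg Subtype.val hab
    have key : ∀ (c d : ℕ) (i j : ℕ), c ≤ d → d < e → y ^ c * x ^ i = y ^ d * x ^ j → c = d := by
      intro c d i j hcd hd hh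
      have h2 : y ^ (d - c) ∈ zpowers x := by
        have : y ^ (d - c) = x ^ i * (x ^ j)⁻¹ := by
          have e1 : y ^ d = y ^ c * y ^ (d - c) := by rw [← pow_add]; congr 1; omega
          rw [e1, mul_assoc] at hh
          have := mul_left_cancel hh
          rw [this]; group
        rw [this]
        exact Subgroup.mul_mem _ (Subgroup.pow_mem _ (mem_zpowers x) _)
          (Subgroup.inv_mem _ (Subgroup.pow_mem _ (mem_zpowers x) _))
      have h3 := (hyk _).1 h2
      rcases Nat.eq_zero_or_pos (d - c) with h4 | h4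
      · omega
      · have := Nat.le_of_dvd h4 h3
        omega
    have e0 : a.1 = b.1 := by
      rcases le_total a.1 b.1 with hle | hle
      · exact key _ _ _ _ hle hb.1 h1
      · exact (key _ _ _ _ hle ha.1 h1.symm).symm
    rw [e0] at h1
    have e3 : x ^ a.2 = x ^ b.2 := mul_left_cancel h1
    have e4 : a.2 = b.2 := by
      apply pow_injOn_Iio_orderOf _ _ e3
      · rw [h.hx]; exact ha.2
      · rw [h.hx]; exact hb.2
    exact Prod.ext e0 e4
  have himg : (Finset.range e ×ˢ Finset.range p).image φ = Finset.univ := by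
    apply Finset.eq_univ_of_card
    rw [Finset.card_image_of_injOn hinj, Finset.card_product, Finset.card_range,
      Finset.card_range, ← Nat.card_eq_fintype_card, card_normalizer h]
  rw [← himg, Finset.sum_image hinj, Finset.sum_product]

theorem vanish_sum {V : Type*} [AddCommGroup V] [Module ℂ V]
    [FiniteDimensional ℂ V] (ρ : Representation ℂ G V) {ι : Type} [Fintype ι] (b : Basis ι ℂ V)
    (μ : ι → ℂ) (g : G) {m : ℕ} (hμm : ∀ i, μ i ^ m = 1)
    (hb : ∀ k : ℕ, ∀ i, ρ (g ^ k) (b i) = μ i ^ k • b i) (hμ : ∀ i, μ i ≠ 1) (n : G) :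
    ∑ j ∈ Finset.range m, ρ.character (n * g ^ j) = 0 := by
  have h0 : ∑ j ∈ Finset.range m, ρ (g ^ j) = 0 := by
    apply b.ext
    intro i
    rw [LinearMap.sum_apply]
    simp only [hb]
    rw [← Finset.sum_smul, geom_root (hμm i), if_neg (hμ i), zero_smul]
    rfl
  calc ∑ j ∈ Finset.range m, ρ.character (n * g ^ j)
      = ∑ j ∈ Finset.range m, LinearMap.trace ℂ V (ρ n * ρ (g ^ j)) := by
        refine Finset.sum_congr rfl fun j _ => ?_
        rw [← map_mul]
        rfl
    _ = LinearMap.trace ℂ V (ρ n * ∑ j ∈ Finset.range m, ρ (g ^ j)) := by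
        rw [Finset.mul_sum, map_sum]
    _ = 0 := by rw [h0, mul_zero, map_zero]

theorem det_of_diag {V : Type*} [AddCommGroup V] [Module ℂ V] {ι : Type*} [Fintype ι]
    (b : Basis ι ℂ V) (f : Module.End ℂ V) (μ : ι → ℂ) (h : ∀ i, f (b i) = μ i • b i) :
    LinearMap.det f = ∏ i, μ i := by
  classical
  rw [← LinearMap.det_toMatrix b]
  have : LinearMap.toMatrix b b f = Matrix.diagonal μ := by
    ext i j
    rw [LinearMap.toMatrix_apply, h, map_smul, Finsupp.smul_apply, Basis.repr_self,
      Matrix.diagonal_apply, Finsupp.single_apply]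
    by_cases hij : i = j
    · subst hij; simp
    · rw [if_neg hij, if_neg (fun h => hij h.symm)]; simp
  rw [this, Matrix.det_diagonal]

theorem prod_roots_even {e : ℕ} (he : Even e) (he0 : 0 < e) :
    ∏ ω ∈ Polynomial.nthRootsFinset e (1 : ℂ), ω = -1 := by
  have hprim := Complex.isPrimitiveRoot_exp e he0.ne'
  have h1 := Polynomial.X_pow_sub_one_eq_prod he0 hprim
  have h2 := congrArg (Polynomial.eval 0) h1
  rw [Polynomial.eval_prod] at h2
  simp only [Polynomial.eval_sub, Polynomial.eval_pow, Polynomial.eval_X, Polynomial.eval_one,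
    Polynomial.eval_C, zero_sub, zero_pow he0.ne'] at h2
  rw [Finset.prod_neg, hprim.card_nthRootsFinset, he.neg_one_pow, one_mul] at h2
  exact h2.symm

theorem prod_eig {ι : Type} [Fintype ι] (μ : ι → ℂ) {e t : ℕ} (he0 : 0 < e)
    (h : ∀ i, μ i ^ e = 1)
    (hmult : ∀ ω : ℂ, ω ^ e = 1 → ∀ [DecidablePred (fun i => μ i = ω)],
      (Finset.univ.filter (fun i => μ i = ω)).card = t) :
    ∏ i, μ i = (∏ ω ∈ Polynomial.nthRootsFinset e (1 : ℂ), ω) ^ t := by
  classical
  rw [← Finset.prod_fiberwise_of_maps_to (s := Finset.univ)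
    (t := Polynomial.nthRootsFinset e (1 : ℂ)) (g := μ)
    (fun i _ => (Polynomial.mem_nthRootsFinset he0 1).2 (h i)), ← Finset.prod_pow]
  refine Finset.prod_congr rfl fun ω hω => ?_
  rw [Finset.prod_congr rfl (fun i hi => (Finset.mem_filter.1 hi).2), Finset.prod_const,
    hmult ω ((Polynomial.mem_nthRootsFinset he0 1).1 hω)]

theorem even_index_of_hom [Finite G] (d : G →* ℂ) (y : G) (hy : d y = -1) :
    Even (commutator G).index := by
  let d' : G →* ℂˣ := d.toHomUnits
  have h1 : commutator G ≤ d'.ker := Abelianization.commutator_subset_ker d'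
  have h2 : d'.ker.index ∣ (commutator G).index := Subgroup.index_dvd_of_le h1
  have h3 : d' y = -1 := by
    apply Units.ext
    rw [MonoidHom.coe_toHomUnits, hy]
    rfl
  have hmem : d' y ∈ d'.range := ⟨y, rfl⟩
  have h4 : orderOf (⟨d' y, hmem⟩ : d'.range) = 2 := by
    rw [Subgroup.orderOf_mk, h3]
    apply orderOf_eq_prime
    · simp
    · intro h
      have := congrArg Units.val h
      norm_num at this
  have h5 : 2 ∣ Nat.card d'.range := by
    rw [← h4]
    exact orderOf_dvd_natCard _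
  rw [← Subgroup.index_ker] at h5
  exact even_iff_two_dvd.2 (h5.trans h2)

theorem core [Finite G] (h : Hyp p x) {n : ℕ} (ρ : Representation ℂ G (Fin n → ℂ))
    (hirr : IsIrrCharacter G ρ.character) (hdeg : n + 1 = p) (t : ℕ)
    (hte : t * (zpowers x).relIndex (normalizer (zpowers x : Set G)) = p - 1)
    (htodd : ¬ Even t) (he2 : 2 ≤ (zpowers x).relIndex (normalizer (zpowers x : Set G))) :
    Even (commutator G).index := by
  classical
  haveI : Fintype G := Fintype.ofFinite G
  set e := (zpowers x).relIndex (normalizer (zpowers x : Set G)) with he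
  have hp := h.hp
  have hχc : IsCharacter G ρ.character := Cfsg.Agent.Lib.Helper7.isCharacter_of_irr hirr
  have hχ1 : ρ.character 1 = (n : ℂ) := by rw [Representation.char_one]; simp
  have hcl : ∀ g w, ρ.character (g * w * g⁻¹) = ρ.character w := fun g w => ρ.char_conj w g
  obtain ⟨y, hyN, hyk⟩ := exists_gen h
  have hykP : ∀ k ∈ Finset.Ico 1 e, y ^ k ∉ zpowers x := by
    intro k hk hmem
    rw [Finset.mem_Ico] at hk
    have := Nat.le_of_dvd (by omega) ((hyk k).1 hmem)
    omega
  have hyP : y ∉ zpowers x := by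
    have := hykP 1 (Finset.mem_Ico.2 ⟨le_refl 1, by omega⟩)
    rwa [pow_one] at this
  have hye : y ^ e = 1 := by
    by_contra hne
    have h1 : y ^ e ∈ zpowers x := (hyk e).2 dvd_rfl
    apply hyP
    rw [← h.centralizer_eq h1 hne, mem_centralizer_singleton_iff, ← pow_succ, ← pow_succ']
  -- eigen data for x
  obtain ⟨ι, hι, b, μ, hμ, hb, hchar, hcard⟩ := eig_data ρ x
  rw [h.hx] at hμ
  have hcard' : Fintype.card ι = n := by rw [hcard]; simp
  set A := (Finset.univ.filter (fun i => μ i = 1)).card with hA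
  have hsumA : ∑ j ∈ Finset.range p, ρ.character (x ^ j) = (p : ℂ) * A := by
    have := sum_pow_count μ hp.pos hμ 1 (one_pow p)
    simp only [inv_one, one_pow, mul_one] at this
    rw [← this]
    exact Finset.sum_congr rfl fun j _ => hchar j
  obtain ⟨Q, hQ1, hQ2⟩ := parseval_lower μ hp.pos hμ
  rw [← hA, hcard'] at hQ2
  -- the bound
  have hbound : p * Q ≤ n ^ 2 + e * p := by
    have h1 := ti_sum_le h (fun w => Complex.normSq (ρ.character w))
      (fun w => Complex.normSq_nonneg _) (fun g w => by simp only [hcl])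
    have h2 : ∑ w : G, Complex.normSq (ρ.character w) = (Nat.card G : ℝ) := by
      have h3 := Cfsg.Agent.Lib.Helper7.classInner_irr_self hirr
      rw [classInner] at h3
      have hc : (Nat.card G : ℂ) ≠ 0 := by exact_mod_cast Nat.card_pos.ne'
      have h4 : ∑ g : G, ρ.character g * conj (ρ.character g) = (Nat.card G : ℂ) := by
        field_simp at h3
        exact h3
      simp only [Complex.mul_conj] at h4
      exact_mod_cast h4
    rw [h2, mul_comm (Nat.card (normalizer (zpowers x : Set G)) : ℝ)] at h1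
    have hG : (0 : ℝ) < (Nat.card G : ℝ) := by exact_mod_cast Nat.card_pos
    have h5 := le_of_mul_le_mul_left h1 hG
    rw [card_normalizer h] at h5
    have h6 : ∑ k ∈ Finset.range p, Complex.normSq (ρ.character (x ^ k)) = (p : ℝ) * Q := by
      have h7 : ∑ k ∈ Finset.range p, ρ.character (x ^ k) * conj (ρ.character (x ^ k))
          = (p : ℂ) * Q := by
        rw [← hQ1]
        exact Finset.sum_congr rfl fun k _ => by rw [hchar k]
      simp only [Complex.mul_conj] at h7
      exact_mod_cast h7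
    rw [Finset.range_eq_Ico, Finset.sum_eq_sum_Ico_succ_bot hp.pos, pow_zero, hχ1] at h6
    have h8 : Complex.normSq (n : ℂ) = (n : ℝ) ^ 2 := by
      rw [Complex.normSq_natCast, sq]
    rw [h8] at h6
    have h9 : (p : ℝ) * Q ≤ (n : ℝ) ^ 2 + ((e * p : ℕ) : ℝ) := by
      rw [← h6]
      simpa using h5
    exact_mod_cast h9
  -- eigen data for y
  obtain ⟨κ, hκ, c, ν, hν, hc, hchary, hcardy⟩ := eig_data ρ y
  have hν' : ∀ i, ν i ^ e = 1 := by
    intro i
    obtain ⟨r, hr⟩ := orderOf_dvd_of_pow_eq_one hye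
    rw [hr, pow_mul, hν i, one_pow]
  have he0 : 0 < e := by omega
  have hcoset : ∀ k ∈ Finset.Ico 1 e, ∀ j : ℕ,
      ρ.character (y ^ k * x ^ j) = ρ.character (y ^ k) := by
    intro k hk j
    obtain ⟨u, hu⟩ := coset_conj h (Subgroup.pow_mem _ hyN k) (hykP k hk) (x ^ j)
      (Subgroup.pow_mem _ (mem_zpowers x) j)
    rw [← hu, hcl]
  -- divisibility
  have hdiv : e ∣ A := by
    set B := (Finset.univ.filter (fun i => ν i = 1)).card with hB
    have hsumB : ∑ k ∈ Finset.range e, ρ.character (y ^ k) = (e : ℂ) * B := by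
      have := sum_pow_count ν he0 hν' 1 (one_pow e)
      simp only [inv_one, one_pow, mul_one] at this
      rw [← this]
      exact Finset.sum_congr rfl fun j _ => hchary j
    obtain ⟨m, hm⟩ := Cfsg.Agent.Lib.Helper7.classInner_char_nat
      (Cfsg.Agent.Lib.Helper7.isCharacter_restrict hχc (normalizer (zpowers x : Set G)))
      (Cfsg.Agent.Lib.Helper7.isCharacter_one (G := normalizer (zpowers x : Set G)))
    rw [classInner] at hm
    simp only [map_one, mul_one] at hm
    rw [sum_normalizer h hyN hyk (fun g => ρ.character g), card_normalizer h,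
      Finset.range_eq_Ico, Finset.sum_eq_sum_Ico_succ_bot he0] at hm
    simp only [pow_zero, one_mul] at hm
    rw [hsumA, ← he] at hm
    have h1 : ∑ k ∈ Finset.Ico (0 + 1) e, ∑ j ∈ Finset.range p, ρ.character (y ^ k * x ^ j)
        = (p : ℂ) * ∑ k ∈ Finset.Ico (0 + 1) e, ρ.character (y ^ k) := by
      rw [Finset.mul_sum]
      refine Finset.sum_congr rfl fun k hk => ?_
      rw [Finset.sum_congr rfl (fun j _ => hcoset k hk j), Finset.sum_const, Finset.card_range,
        nsmul_eq_mul]
    rw [h1] at hm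
    rw [Finset.range_eq_Ico, Finset.sum_eq_sum_Ico_succ_bot he0, pow_zero, hχ1] at hsumB
    set T := ∑ k ∈ Finset.Ico (0 + 1) e, ρ.character (y ^ k) with hT
    have hpc : (p : ℂ) ≠ 0 := by exact_mod_cast hp.ne_zero
    have hec : (e : ℂ) ≠ 0 := by exact_mod_cast he0.ne'
    have h2 : (A : ℂ) + T = e * m := by
      push_cast at hm
      field_simp at hm
      linear_combination hm
    have h3 : ((n : ℤ) - A : ℂ) = ((e * (B - m) : ℤ) : ℂ) := by
      push_cast
      linear_combination hsumB - h2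
    have h4 : (n : ℤ) - A = e * (B - m) := by exact_mod_cast h3
    have h5 : (e : ℤ) ∣ n := by
      refine ⟨t, ?_⟩
      have : n = t * e := by omega
      rw [this]; push_cast; ring
    have h6 : (e : ℤ) ∣ A := by
      have : (A : ℤ) = n - e * (B - m) := by linarith
      rw [this]
      exact dvd_sub h5 (dvd_mul_right _ _)
    exact_mod_cast h6
  -- A = 0
  have hA0 : A = 0 := by
    by_contra hne
    have h1 : e ≤ A := Nat.le_of_dvd (Nat.pos_of_ne_zero hne) hdiv
    have h2 : 2 * A ≤ A ^ 2 := by rw [sq]; exact Nat.mul_le_mul_right A (by omega)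
    have h3 : e + n ≤ Q := by omega
    have h4 : p * (e + n) ≤ p * Q := Nat.mul_le_mul_left p h3
    have h5 : p * (e + n) ≤ n ^ 2 + e * p := h4.trans hbound
    subst hdeg
    have h6 := hp.two_le
    nlinarith
  have hμ1 : ∀ i, μ i ≠ 1 := by
    intro i hi
    have : i ∈ Finset.univ.filter (fun i => μ i = 1) := by simp [hi]
    rw [Finset.card_eq_zero.1 (hA.symm.trans hA0)] at this
    simp at this
  have hvan : ∀ k ∈ Finset.Ico 1 e, ρ.character (y ^ k) = 0 := by
    intro k hk
    have h1 := vanish_sum ρ b μ x hμ hb hμ1 (y ^ k)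
    rw [Finset.sum_congr rfl (fun j _ => hcoset k hk j), Finset.sum_const, Finset.card_range,
      nsmul_eq_mul] at h1
    have hpc : (p : ℂ) ≠ 0 := by exact_mod_cast hp.ne_zero
    exact (mul_eq_zero.1 h1).resolve_left hpc
  have hmult : ∀ ω : ℂ, ω ^ e = 1 → ∀ [DecidablePred (fun i => ν i = ω)],
      (Finset.univ.filter (fun i => ν i = ω)).card = t := by
    intro ω hω _
    have h1 := sum_pow_count ν he0 hν' ω hω
    rw [Finset.sum_eq_single 0] at h1
    · rw [← hchary 0, pow_zero, pow_zero, hχ1, mul_one] at h1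
      have h2 : n = e * (Finset.univ.filter (fun i => ν i = ω)).card := by exact_mod_cast h1
      have h3 : n = e * t := by rw [mul_comm]; omega
      rw [h3] at h2
      exact (Nat.eq_of_mul_eq_mul_left he0 h2).symm
    · intro k hk hk0
      rw [← hchary k, hvan k (Finset.mem_Ico.2 ⟨by omega, Finset.mem_range.1 hk⟩), zero_mul]
    · intro h0
      exact absurd (Finset.mem_range.2 he0) h0
  have heven : Even e := by
    have h1 : Even (p - 1) := by
      rcases hp.eq_two_or_odd' with h2 | h2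
      · exfalso
        rw [h2] at hte
        have : e ∣ 1 := ⟨t, by rw [mul_comm]; exact hte.symm⟩
        have := Nat.le_of_dvd one_pos this
        omega
      · obtain ⟨r, hr⟩ := h2
        exact ⟨r, by omega⟩
    rw [← hte, Nat.even_mul] at h1
    exact h1.resolve_left htodd
  have hdet : LinearMap.det (ρ y) = -1 := by
    rw [det_of_diag c (ρ y) ν (fun i => by have := hc 1 i; rwa [pow_one, pow_one] at this),
      prod_eig ν he0 hν' hmult, prod_roots_even heven he0]
    exact (Nat.not_even_iff_odd.1 htodd).neg_one_pow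
  exact even_index_of_hom (LinearMap.det.comp ρ) y hdet


/-- Let the finite group G contain an element x of prime order p with C_G(x) = ⟨x⟩, and let t be the number of conjugacy classes of elements of order p. If G has an irreducible character of degree p − 1, then t is even or the commutator subgroup has even index. -/
theorem result {G : Type*} [Group G] [Finite G] (p : ℕ) (hp : p.Prime) (x : G) (hx : orderOf x = p) (hC : Subgroup.centralizer ({x} : Set G) = Subgroup.zpowers x) (t : ℕ) (ht : Nat.card {C : ConjClasses G // ∃ g ∈ C.carrier, orderOf g = p} = t) (χ : Cfsg.IrrCharacter G) (hχ : Cfsg.charDegree (χ : G → ℂ) + 1 = p) : Even t ∨ Even (commutator G).index := by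
  by_cases hte : Even t
  · exact Or.inl hte
  right
  have h : Hyp p x := ⟨hp, hx, hC⟩
  have hcc := h.card_classes
  rw [ht] at hcc
  by_cases he2 : 2 ≤ (zpowers x).relIndex (normalizer (zpowers x : Set G))
  · obtain ⟨χ, hirr⟩ := χ
    obtain ⟨n, ρ, hρ, rfl⟩ := id hirr
    refine core h ρ hirr ?_ t hcc hte he2
    rw [← hχ]
    congr 1
    simp [Cfsg.charDegree, Representation.char_one]
  · have h1 : (zpowers x).relIndex (normalizer (zpowers x : Set G)) = 1 := by
      have h2 : (zpowers x).relIndex (normalizer (zpowers x : Set G)) ≠ 0 := by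
        intro h0
        rw [h0, mul_zero] at hcc
        have := hp.two_le
        omega
      omega
    rw [h1, mul_one] at hcc
    have h3 := (Cfsg.Agent.S4495.result p hp x hx hC t ht).2 hcc
    rw [h3]
    rcases hp.eq_two_or_odd' with h2 | h2
    · rw [h2]; exact even_two
    · exfalso
      apply hte
      rw [hcc]
      obtain ⟨r, hr⟩ := h2
      exact ⟨r, by omega⟩

end Cfsg.Agent.S4508
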