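import Cfsg.Statements.S0899
import Cfsg.Agent.S0898
import Cfsg.Agent.S0185
import Cfsg.Agent.S4446
import Cfsg.Agent.S0867
import Cfsg.Agent.S4508
import Cfsg.Agent.Lib.Helper25.PRes1
import Cfsg.Agent.Lib.Helper25.Extra1
import Cfsg.Agent.Lib.Helper2.CharKer
import Cfsg.Agent.Lib.Helper7.CharBasic

set_option autoImplicit false
open Cfsg

namespace Cfsg.Agent.S0899

open Subgroup Module
open scoped Pointwise

universe u
variable {X : Type u} [Group X] [Finite X] {p : ℕ} [Fact p.Prime]

/-- every proper subgroup has normal Sylow `p`-subgroups -/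
def PropNS (p : ℕ) (X : Type u) [Group X] : Prop :=
  ∀ L : Subgroup X, L ≠ ⊤ → ∀ Q : Sylow p L, (Q : Subgroup L).Normal

theorem le_normalizer_of_proper (hprop : PropNS p X) (P : Sylow p X) {L : Subgroup X}
    (hL : L ≠ ⊤) (hPL : (P : Subgroup X) ≤ L) : L ≤ normalizer ((P : Subgroup X) : Set X) := by
  have h1 := hprop L hL (P.subtype hPL)
  rw [Sylow.coe_subtype] at h1
  exact (normal_subgroupOf_iff_le_normalizer hPL).1 h1

theorem pgroup_le_of_proper (hprop : PropNS p X) (P : Sylow p X) {L : Subgroup X}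
    (hL : L ≠ ⊤) (hPL : (P : Subgroup X) ≤ L) {R : Subgroup X} (hR : IsPGroup p R)
    (hRL : R ≤ L) : R ≤ P := by
  have h1 : R ⊓ normalizer ((P : Subgroup X) : Set X) = R ⊓ (P : Subgroup X) :=
    hR.inf_normalizer_sylow P
  have h2 : R ≤ normalizer ((P : Subgroup X) : Set X) :=
    hRL.trans (le_normalizer_of_proper hprop P hL hPL)
  rw [inf_eq_left.2 h2] at h1
  rw [h1]
  exact inf_le_right

theorem eq_top_of_normal_of_le (hprop : PropNS p X) (P : Sylow p X)
    (hP : ¬ (P : Subgroup X).Normal) {M : Subgroup X} (hM : M.Normal)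
    (hPM : (P : Subgroup X) ≤ M) : M = ⊤ := by
  by_contra hne
  apply hP
  refine ⟨fun u hu g => ?_⟩
  have hR : IsPGroup p ((P : Subgroup X).map (MulAut.conj g).toMonoidHom) := P.2.map _
  have hRM : (P : Subgroup X).map (MulAut.conj g).toMonoidHom ≤ M := by
    rintro _ ⟨v, hv, rfl⟩
    exact hM.conj_mem v (hPM hv) g
  exact pgroup_le_of_proper hprop P hne hPM hR hRM ⟨u, hu, rfl⟩

theorem sylow_abelian {n : ℕ} (ρ : Representation ℂ X (Fin n → ℂ)) (hρ : Function.Injective ρ)
    (hn : n < p) {R : Subgroup X} (hR : IsPGroup p R) : ∀ a ∈ R, ∀ b ∈ R, a * b = b * a := by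
  intro a ha b hb
  have h1 := Cfsg.Agent.S0185.result (G := R) (ρ.comp R.subtype)
    (hρ.comp Subtype.val_injective) (by
      intro q hq hqd
      obtain ⟨k, hk⟩ := IsPGroup.iff_card.1 hR
      rw [hk] at hqd
      have := (Nat.prime_dvd_prime_iff_eq hq Fact.out).1 (hq.dvd_of_dvd_pow hqd)
      rw [this]
      simpa using hn) ⟨a, ha⟩ ⟨b, hb⟩
  exact congrArg Subtype.val h1

theorem normal_pgroup_le_sylow (P : Sylow p X) {R : Subgroup X} (hR : IsPGroup p R)
    (hRn : R.Normal) : R ≤ P := by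
  obtain ⟨Q, hQ⟩ := hR.exists_le_sylow
  obtain ⟨g, rfl⟩ := MulAction.exists_smul_eq X Q P
  intro r hr
  rw [Sylow.coe_subgroup_smul, Subgroup.mem_pointwise_smul_iff_inv_smul_mem]
  apply hQ
  have := hRn.conj_mem r hr g⁻¹
  simpa using this

theorem inf_le_center (hprop : PropNS p X) (P : Sylow p X)
    (hP : ¬ (P : Subgroup X).Normal)
    (hab : ∀ a ∈ (P : Subgroup X), ∀ b ∈ (P : Subgroup X), a * b = b * a)
    {M : Subgroup X} (hM : M.Normal) (hMt : M ≠ ⊤) : (P : Subgroup X) ⊓ M ≤ center X := by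
  obtain ⟨S, hS⟩ := (IsPGroup.comap_subtype (H := (P : Subgroup X) ⊓ M) (K := M)
    (P.2.to_le inf_le_left)).exists_le_sylow
  have hSn := hprop M hMt S
  haveI := S.characteristic_of_normal hSn
  haveI := hM
  have hRn : ((S : Subgroup M).map M.subtype).Normal := inferInstance
  have hRp : IsPGroup p ((S : Subgroup M).map M.subtype) := S.2.map _
  have hRP := normal_pgroup_le_sylow P hRp hRn
  have hC : centralizer (((S : Subgroup M).map M.subtype : Subgroup X) : Set X) = ⊤ := by
    apply eq_top_of_normal_of_le hprop P hP inferInstance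
    intro u hu
    rw [mem_centralizer_iff]
    intro r hr
    exact hab r (hRP hr) u hu
  intro z hz
  have hzR : z ∈ (S : Subgroup M).map M.subtype := by
    refine ⟨⟨z, hz.2⟩, hS ?_, rfl⟩
    exact hz
  rw [mem_center_iff]
  intro g
  have hg : g ∈ centralizer (((S : Subgroup M).map M.subtype : Subgroup X) : Set X) := by
    rw [hC]; trivial
  rw [mem_centralizer_iff] at hg
  exact (hg z hzR).symm

theorem transfer_triv (P : Sylow p X)
    (hab : ∀ a ∈ (P : Subgroup X), ∀ b ∈ (P : Subgroup X), a * b = b * a) {z : X}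
    (hzP : z ∈ (P : Subgroup X)) (hzZ : z ∈ center X) (hzC : z ∈ commutator X) : z = 1 := by
  letI : CommGroup (P : Subgroup X) :=
    { (inferInstance : Group (P : Subgroup X)) with
      mul_comm := fun a b => Subtype.ext (hab a a.2 b b.2) }
  let V : X →* (P : Subgroup X) := MonoidHom.transfer (MonoidHom.id (P : Subgroup X))
  have h1 : V z = 1 := Abelianization.commutator_subset_ker V hzC
  have key : ∀ (k : ℕ) (g₀ : X), g₀⁻¹ * z ^ k * g₀ ∈ (P : Subgroup X) →
      g₀⁻¹ * z ^ k * g₀ = z ^ k := by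
    intro k g₀ _
    have := (mem_center_iff.1 (Subgroup.pow_mem _ hzZ k)) g₀
    rw [mul_assoc, ← this, inv_mul_cancel_left]
  have h2 := MonoidHom.transfer_eq_pow (A := (P : Subgroup X)) (MonoidHom.id (P : Subgroup X)) z key
  rw [show (MonoidHom.transfer (MonoidHom.id (P : Subgroup X)) : X →* (P : Subgroup X)) z = 1
    from h1] at h2
  have h3 : z ^ (P : Subgroup X).index = 1 := (congrArg Subtype.val h2).symm
  obtain ⟨k, hk⟩ := P.2 ⟨z, hzP⟩
  have h4 : z ^ p ^ k = 1 := congrArg Subtype.val hk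
  have h5 : orderOf z ∣ (P : Subgroup X).index := orderOf_dvd_of_pow_eq_one h3
  have h6 : orderOf z ∣ p ^ k := orderOf_dvd_of_pow_eq_one h4
  have hcop : Nat.Coprime (p ^ k) (P : Subgroup X).index :=
    Nat.Coprime.pow_left k ((Nat.Prime.coprime_iff_not_dvd Fact.out).2 P.not_dvd_index)
  have h7 : orderOf z = 1 := Nat.eq_one_of_dvd_coprimes hcop h6 h5
  exact orderOf_eq_one_iff.1 h7

theorem isPSolvable_of_two {K : Subgroup X} (hK : K.Normal) (h1 : (Nat.card K).Coprime p)
    (h2 : ∃ m : ℕ, K.index = p ^ m) : IsPSolvable p X := by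
  refine ⟨2, ![⊥, K, ⊤], rfl, rfl, ?_, ?_, ?_⟩
  · rw [Fin.monotone_iff_le_succ]
    intro i
    fin_cases i
    · exact bot_le
    · exact le_top
  · intro i
    fin_cases i
    · exact (inferInstance : (⊥ : Subgroup X).Normal)
    · exact hK
    · exact (inferInstance : (⊤ : Subgroup X).Normal)
  · intro i
    fin_cases i
    · right
      have : (⊥ : Subgroup X).relIndex K = Nat.card K := Subgroup.relIndex_bot_left K
      exact this ▸ h1
    · left
      obtain ⟨m, hm⟩ := h2
      exact ⟨m, by rw [← hm]; exact Subgroup.relIndex_top_right K⟩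

/-- a constituent not containing `h` in its kernel -/
theorem exists_constituent (h : X) : ∀ Ψ : X → ℂ, IsCharacter X Ψ →
    (0 ≤ (Ψ 1).re ∧ (Ψ h ≠ Ψ 1 → ∃ χ : X → ℂ, IsIrrCharacter X χ ∧ χ h ≠ χ 1 ∧
      (χ 1).re ≤ (Ψ 1).re)) := by
  apply Cfsg.Agent.Lib.Helper7.isCharacter_induction
  · exact ⟨by simp, fun h0 => absurd rfl h0⟩
  · intro χ ψ hχ hψ ih
    obtain ⟨d, hd0, hd⟩ := Cfsg.Agent.Lib.Helper7.irr_apply_one hχ
    have hd' : (χ 1).re = d := by rw [hd]; simp
    refine ⟨?_, ?_⟩
    · simp only [Pi.add_apply, Complex.add_re, hd']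
      have : (0 : ℝ) ≤ d := Nat.cast_nonneg d
      linarith [ih.1]
    · intro hne
      by_cases h1 : χ h = χ 1
      · have h2 : ψ h ≠ ψ 1 := by
          intro h3
          apply hne
          simp only [Pi.add_apply, h1, h3]
        obtain ⟨χ', a, b, c⟩ := ih.2 h2
        refine ⟨χ', a, b, ?_⟩
        simp only [Pi.add_apply, Complex.add_re, hd']
        have : (0 : ℝ) ≤ d := Nat.cast_nonneg d
        linarith
      · refine ⟨χ, hχ, h1, ?_⟩
        simp only [Pi.add_apply, Complex.add_re]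
        linarith [ih.1]

theorem conj_sylow_coe (P : Sylow p X) (a : X) :
    ∃ Q : Sylow p X, (Q : Subgroup X) = (P : Subgroup X).map (MulAut.conj a).toMonoidHom :=
  ⟨MulAut.conj a • P, rfl⟩

/-- in a proper subgroup two `p`-elements commute -/
theorem commute_of_proper {n : ℕ} (ρ : Representation ℂ X (Fin n → ℂ))
    (hρ : Function.Injective ρ) (hn : n < p) (hprop : PropNS p X) {L : Subgroup X} (hL : L ≠ ⊤)
    {R₁ R₂ : Subgroup X} (h₁ : IsPGroup p R₁) (h₂ : IsPGroup p R₂) {u v : X}
    (hu : u ∈ R₁ ⊓ L) (hv : v ∈ R₂ ⊓ L) : u * v = v * u := by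
  obtain ⟨S, hS⟩ := (IsPGroup.comap_subtype (H := R₁ ⊓ L) (K := L)
    (h₁.to_le inf_le_left)).exists_le_sylow
  obtain ⟨S', hS'⟩ := (IsPGroup.comap_subtype (H := R₂ ⊓ L) (K := L)
    (h₂.to_le inf_le_left)).exists_le_sylow
  have hSn := hprop L hL S
  have huniq := S.unique_of_normal hSn
  have hSS : S' = S := Subsingleton.elim _ _
  rw [hSS] at hS'
  have hp : IsPGroup p ((S : Subgroup L).map L.subtype) := S.2.map _
  apply sylow_abelian ρ hρ hn hp
  · exact ⟨⟨u, hu.2⟩, hS hu, rfl⟩
  · exact ⟨⟨v, hv.2⟩, hS' hv, rfl⟩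

theorem eq_one_of_pelt_mem {K : Subgroup X} (hKp : (Nat.card K).Coprime p) {c : X} (hcK : c ∈ K)
    {j : ℕ} (hc : c ^ p ^ j = 1) : c = 1 := by
  have h1 : orderOf c ∣ p ^ j := orderOf_dvd_of_pow_eq_one hc
  have h2 : orderOf c ∣ Nat.card K := by
    have := orderOf_dvd_natCard (⟨c, hcK⟩ : K)
    rwa [Subgroup.orderOf_mk] at this
  have h3 : Nat.Coprime (p ^ j) (Nat.card K) := (Nat.Coprime.pow_right j hKp).symm
  exact orderOf_eq_one_iff.1 (Nat.eq_one_of_dvd_coprimes h3 h1 h2)

theorem cent_case1 (hprop : PropNS p X) {K : Subgroup X} (hKn : K.Normal)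
    (hKp : (Nat.card K).Coprime p) {s : X} (hs : IsPGroup p (zpowers s))
    (hL : K ⊔ zpowers s ≠ ⊤) : ∀ k ∈ K, s * k = k * s := by
  intro k hk
  obtain ⟨S, hS⟩ := (IsPGroup.comap_subtype (H := zpowers s) (K := K ⊔ zpowers s)
    hs).exists_le_sylow
  have hSn := hprop _ hL S
  have hsL : s ∈ K ⊔ zpowers s := le_sup_right (a := K) (mem_zpowers s)
  have hkL : k ∈ K ⊔ zpowers s := le_sup_left (b := zpowers s) hk
  have hsS : (⟨s, hsL⟩ : ↥(K ⊔ zpowers s)) ∈ (S : Subgroup ↥(K ⊔ zpowers s)) :=
    hS (by rw [mem_comap]; exact mem_zpowers s)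
  have h1 := hSn.conj_mem _ hsS ⟨k, hkL⟩
  have h2 := Subgroup.mul_mem _ h1 (Subgroup.inv_mem _ hsS)
  obtain ⟨j, hj⟩ := S.2 ⟨_, h2⟩
  have h3 : (k * s * k⁻¹ * s⁻¹) ^ p ^ j = 1 := by
    have := congrArg (fun t : (S : Subgroup ↥(K ⊔ zpowers s)) => ((t : ↥(K ⊔ zpowers s)) : X)) hj
    simpa using this
  have h4 : k * s * k⁻¹ * s⁻¹ ∈ K := by
    have e : k * s * k⁻¹ * s⁻¹ = k * (s * k⁻¹ * s⁻¹) := by group
    rw [e]
    exact K.mul_mem hk (hKn.conj_mem _ (K.inv_mem hk) s)
  have h5 := eq_one_of_pelt_mem hKp h4 h3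
  have e : k * s = (k * s * k⁻¹ * s⁻¹) * (s * k) := by group
  rw [e, h5, one_mul]

theorem cent_case2 {n : ℕ} (ρ : Representation ℂ X (Fin n → ℂ)) (hρ : Function.Injective ρ)
    (hn : n + 1 < p) {K : Subgroup X} (hKn : K.Normal) (hKp : (Nat.card K).Coprime p)
    {k₀ : ℕ} (hidx : K.index = p ^ k₀) {s : X} (hs : IsPGroup p (zpowers s))
    (htop : K ⊔ zpowers s = ⊤) (hz : s ^ p ∈ center X) : ∀ k ∈ K, s * k = k * s := by
  classical
  haveI : Fintype X := Fintype.ofFinite X
  have hp : p.Prime := Fact.out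
  intro k hk
  by_contra hne
  have hχc : IsCharacter X ρ.character := ⟨n, ρ, rfl⟩
  have hχ1 : ρ.character 1 = n := by rw [Representation.char_one]; simp
  have hfaith : ∀ g, ρ.character g = ρ.character 1 → g = 1 := by
    intro g hg
    rw [hχ1] at hg
    have := (Cfsg.Agent.Lib.Helper2.char_eq_finrank_iff ρ g).1 (by rw [hg]; simp)
    apply hρ
    rw [this, map_one]
    rfl
  set h := k * s * k⁻¹ * s⁻¹ with hh
  have hhK : h ∈ K := by
    have e : k * s * k⁻¹ * s⁻¹ = k * (s * k⁻¹ * s⁻¹) := by group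
    rw [hh, e]
    exact K.mul_mem hk (hKn.conj_mem _ (K.inv_mem hk) s)
  have hh1 : h ≠ 1 := by
    intro e1
    apply hne
    have e : k * s = (k * s * k⁻¹ * s⁻¹) * (s * k) := by group
    rw [e, ← hh, e1, one_mul]
  obtain ⟨χ, hχ, hχne, hχd⟩ := (exists_constituent h ρ.character hχc).2
    (fun e => hh1 (hfaith h e))
  obtain ⟨d, hd0, hd⟩ := Cfsg.Agent.Lib.Helper7.irr_apply_one hχ
  rw [hχ1, hd] at hχd
  simp only [Complex.natCast_re] at hχd
  have hdn : d ≤ n := by exact_mod_cast hχd
  have hcd : charDegree χ = d := by simp [charDegree, hd]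
  have hpd : ¬ p ∣ d := fun hdvd => by
    have := Nat.le_of_dvd hd0 hdvd
    omega
  haveI := hKn
  have hθ : IsIrrCharacter K (fun x : K => χ x) :=
    Cfsg.Agent.Lib.Helper25.restrict_irr_of_not_dvd hp K hidx hχ (by rw [hcd]; exact hpd)
  have hcl := Cfsg.Agent.Lib.Helper7.isClassFunction_of_isCharacter
    (Cfsg.Agent.Lib.Helper7.isCharacter_of_irr hχ)
  -- canonical extension
  have hdetθ : (detOrder (fun x : K => χ x)).Coprime p :=
    Nat.Coprime.coprime_dvd_left
      (Cfsg.Agent.Lib.Helper25.detOrder_dvd_card (Cfsg.Agent.Lib.Helper7.isCharacter_of_irr hθ)) hKp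
  have hdp : d.Coprime p := ((Nat.Prime.coprime_iff_not_dvd hp).2 hpd).symm
  obtain ⟨χh, ⟨hχh, hext, hdet⟩, -⟩ := Cfsg.Agent.S0867.result K (fun x : K => χ x) hθ
    (fun g x => hcl x g) d (by simpa using hd)
    (by rw [hidx]; exact Nat.Coprime.pow_left _ (Nat.Coprime.mul_right hdetθ.symm hdp.symm))
  obtain ⟨a, ha⟩ := IsPGroup.iff_card.1 hs
  have hres := (Cfsg.Agent.S4446.result K (zpowers s)
    (fun t _ g hg => hKn.conj_mem g hg t)
    (by rw [ha]; exact Nat.Coprime.pow_right _ hKp) htop inferInstance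
    (K ⊓ centralizer ((zpowers s : Subgroup X) : Set X)) rfl inf_le_left).1
    ⟨fun x : K => χ x, hθ⟩ ⟨χh, hχh⟩
    (by
      intro t _ g g' hg
      change χ g' = χ g
      rw [hg]
      exact hcl g t)
    hext
    (by rw [ha, hdet]; exact Nat.Coprime.pow_right _ hdetθ)
  obtain ⟨⟨β, ε⟩, ⟨hε, hval⟩, -⟩ := hres.1
  simp only at hε hval
  set b : ℂ := (ε : ℂ) * (β : ↥(K ⊓ centralizer ((zpowers s : Subgroup X) : Set X)) → ℂ) 1 with hb
  have hb0 : b ≠ 0 := by
    have h1 := Cfsg.Agent.Lib.Helper7.irr_apply_one_ne_zero β.2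
    have h2 : (ε : ℂ) ≠ 0 := by
      rcases hε with h | h <;> rw [h] <;> norm_num
    exact mul_ne_zero h2 h1
  have hord : orderOf s = p ^ a := by rw [← Nat.card_zpowers, ha]
  have hgen : ∀ j : ℕ, j.Coprime p → χh (s ^ j) = b := by
    intro j hj
    have h1 : zpowers (s ^ j) = zpowers s := by
      apply le_antisymm
      · rw [zpowers_le]; exact Subgroup.pow_mem _ (mem_zpowers s) j
      · rw [zpowers_le]
        obtain ⟨m, hm⟩ := exists_pow_eq_self_of_coprime (x := s) (n := j)
          (by rw [hord]; exact Nat.Coprime.pow_right _ hj)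
        have h3 : (s ^ j) ^ m ∈ zpowers (s ^ j) := Subgroup.pow_mem _ (mem_zpowers (s ^ j)) m
        rwa [hm] at h3
    have h2 := hval 1 (s ^ j) h1
    simpa using h2
  have hχh1 : χh 1 = d := by
    have := hext 1
    simpa [hd] using this
  have hzval : χh (s ^ p) = χh 1 := by
    have h1 := Cfsg.Agent.Lib.Helper25.center_mul_char hχh hz s
    rw [← pow_succ, hgen (p + 1) (by simp), ] at h1
    have h2 := hgen 1 (by simp)
    rw [pow_one] at h2
    rw [h2, mul_comm] at h1
    exact (mul_right_cancel₀ hb0 h1).symm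
  obtain ⟨m, σ, hσ, rfl⟩ := id hχh
  have hm : (m : ℂ) = d := by
    rw [← hχh1, Representation.char_one]; simp
  have hm' : m = d := by exact_mod_cast hm
  obtain ⟨ι, hι, bas, μ, -, hbas, hchar, hcard⟩ := Cfsg.Agent.S4508.eig_data σ s
  have hcard' : Fintype.card ι = d := by rw [hcard]; simp [hm']
  have hσz : σ (s ^ p) = LinearMap.id :=
    (Cfsg.Agent.Lib.Helper2.char_eq_finrank_iff σ (s ^ p)).1
      (by rw [hzval, Representation.char_one])
  have hμp : ∀ i, μ i ^ p = 1 := by
    intro i
    have h1 := hbas p i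
    rw [hσz, LinearMap.id_apply] at h1
    have h2 : (μ i ^ p - 1) • bas i = 0 := by rw [sub_smul, ← h1, one_smul, sub_self]
    rcases smul_eq_zero.1 h2 with h3 | h3
    · exact sub_eq_zero.1 h3
    · exact absurd h3 (bas.ne_zero i)
  -- a missing eigenvalue
  have hprim := Complex.isPrimitiveRoot_exp p hp.ne_zero
  have hcardroots : ((Polynomial.nthRootsFinset p (1 : ℂ)).erase 1).card = p - 1 := by
    rw [Finset.card_erase_of_mem ((Polynomial.mem_nthRootsFinset hp.pos 1).2 (one_pow p)),
      hprim.card_nthRootsFinset]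
  obtain ⟨ω, hω, hωn⟩ := Finset.exists_mem_notMem_of_card_lt_card
    (s := Finset.univ.image μ) (t := (Polynomial.nthRootsFinset p (1 : ℂ)).erase 1) (by
      rw [hcardroots]
      calc (Finset.univ.image μ).card ≤ Fintype.card ι := Finset.card_image_le
        _ < p - 1 := by rw [hcard']; omega)
  rw [Finset.mem_erase, Polynomial.mem_nthRootsFinset hp.pos] at hω
  have hcount := Cfsg.Agent.S4508.sum_pow_count μ hp.pos hμp ω hω.2
  have hzero : (Finset.univ.filter (fun i => μ i = ω)).card = 0 := by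
    rw [Finset.card_eq_zero, Finset.filter_eq_empty_iff]
    intro i _ hi
    exact hωn (Finset.mem_image.2 ⟨i, Finset.mem_univ _, hi⟩)
  rw [hzero, Nat.cast_zero, mul_zero, Finset.range_eq_Ico,
    Finset.sum_eq_sum_Ico_succ_bot hp.pos] at hcount
  have hω0 : ω ≠ 0 := by
    intro h0
    have := hω.2
    rw [h0, zero_pow hp.ne_zero] at this
    exact zero_ne_one this
  have hinv1 : ω⁻¹ ≠ 1 := by
    intro h1
    exact hω.1 (inv_eq_one.1 h1)
  have hgeo := Cfsg.Agent.S4508.geom_root (η := ω⁻¹) (m := p) (by rw [inv_pow, hω.2, inv_one])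
  rw [if_neg hinv1, Finset.range_eq_Ico, Finset.sum_eq_sum_Ico_succ_bot hp.pos, pow_zero] at hgeo
  have hsum : ∑ j ∈ Finset.Ico (0 + 1) p, (∑ i, μ i ^ j) * ω⁻¹ ^ j
      = b * ∑ j ∈ Finset.Ico (0 + 1) p, ω⁻¹ ^ j := by
    rw [Finset.mul_sum]
    refine Finset.sum_congr rfl fun j hj => ?_
    rw [Finset.mem_Ico] at hj
    rw [← hchar j, hgen j]
    apply Nat.Coprime.symm
    rw [Nat.Prime.coprime_iff_not_dvd hp]
    intro hdvd
    have := Nat.le_of_dvd (by omega) hdvd
    omega
  rw [hsum, ← hchar 0, pow_zero, pow_zero, hχh1, mul_one] at hcount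
  have hbd : b = d := by
    have h1 : ∑ j ∈ Finset.Ico (0 + 1) p, ω⁻¹ ^ j = -1 := by linear_combination hgeo
    rw [h1] at hcount
    linear_combination -hcount
  have hσs : σ s = LinearMap.id :=
    (Cfsg.Agent.Lib.Helper2.char_eq_finrank_iff σ s).1 (by
      have h2 := hgen 1 (by simp)
      rw [pow_one] at h2
      rw [h2, hbd, ← hχh1, Representation.char_one])
  have hσs' : σ s = 1 := hσs
  have hσh : σ h = 1 := by
    have e1 : σ s⁻¹ = 1 := by
      have := map_mul σ s⁻¹ s
      rw [inv_mul_cancel, map_one, hσs', mul_one] at this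
      exact this.symm
    rw [hh, map_mul, map_mul, map_mul, hσs', e1, mul_one, mul_one, ← map_mul, mul_inv_cancel,
      map_one]
  apply hχne
  have e1 := hext ⟨h, hhK⟩
  have e2 := hext 1
  simp only [OneMemClass.coe_one] at e1 e2
  rw [← e1, ← e2]
  change LinearMap.trace ℂ _ (σ h) = LinearMap.trace ℂ _ (σ 1)
  rw [hσh, σ.map_one]


theorem core {n : ℕ} (ρ : Representation ℂ X (Fin n → ℂ)) (hρ : Function.Injective ρ)
    (hn : n + 1 < p) (hprop : PropNS p X) (P : Sylow p X)
    (hcard : (n + 1) ^ 2 ≤ Nat.card (P : Subgroup X)) : (P : Subgroup X).Normal := by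
  classical
  by_contra hP
  haveI : Fintype X := Fintype.ofFinite X
  have hp : p.Prime := Fact.out
  have habR : ∀ {R : Subgroup X}, IsPGroup p R → ∀ a ∈ R, ∀ b ∈ R, a * b = b * a :=
    fun hR => sylow_abelian ρ hρ (by omega) hR
  have hab := habR P.2
  have hχc : IsCharacter X ρ.character := ⟨n, ρ, rfl⟩
  have hχ1 : ρ.character 1 = n := by rw [Representation.char_one]; simp
  have hfaith : ∀ g, ρ.character g = ρ.character 1 → g = 1 := by
    intro g hg
    rw [hχ1] at hg
    have := (Cfsg.Agent.Lib.Helper2.char_eq_finrank_iff ρ g).1 (by rw [hg]; simp)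
    apply hρ
    rw [this, map_one]
    rfl
  -- X is perfect
  have hperf : commutator X = ⊤ := by
    by_contra hne
    have h1 := inf_le_center hprop P hP hab (inferInstance : (commutator X).Normal) hne
    have h2 : (P : Subgroup X) ⊓ commutator X = ⊥ := by
      rw [eq_bot_iff]
      intro z hz
      exact transfer_triv P hab hz.1 (h1 hz) hz.2
    have h3 : (P : Subgroup X) ⊔ commutator X = ⊤ := by
      apply eq_top_of_normal_of_le hprop P hP _ le_sup_left
      refine ⟨fun m hm g => ?_⟩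
      have e : g * m * g⁻¹ = (g * m * g⁻¹ * m⁻¹) * m := by group
      rw [e]
      refine mul_mem (le_sup_right (a := (P : Subgroup X)) ?_) hm
      exact Subgroup.commutator_mem_commutator (mem_top g) (mem_top m)
    have h4 : (commutator X).index = Nat.card (P : Subgroup X) := by
      have e1 : (commutator X).relIndex ((P : Subgroup X) ⊔ commutator X)
          = (commutator X).relIndex (P : Subgroup X) := relIndex_sup_right _ _
      rw [h3, relIndex_top_right, ← inf_relIndex_right, inf_comm, h2, relIndex_bot_left] at e1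
      exact e1
    have h5 : (Nat.card (commutator X)).Coprime p := by
      have e1 := (commutator X).card_mul_index
      have e2 := (P : Subgroup X).card_mul_index
      rw [h4, ← e2, mul_comm] at e1
      have e3 : Nat.card (commutator X) = (P : Subgroup X).index :=
        Nat.eq_of_mul_eq_mul_left Nat.card_pos e1
      rw [e3]
      exact ((Nat.Prime.coprime_iff_not_dvd hp).2 P.not_dvd_index).symm
    obtain ⟨k₀, hk₀⟩ := IsPGroup.iff_card.1 P.2
    have hidx : (commutator X).index = p ^ k₀ := by rw [h4, hk₀]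
    have hcentAll : ∀ (N : ℕ) (s : X), orderOf s = N → s ∈ (P : Subgroup X) →
        ∀ k ∈ commutator X, s * k = k * s := by
      intro N
      induction N using Nat.strong_induction_on with
      | _ N ih =>
        intro s hsN hsP
        have hsp : IsPGroup p (zpowers s) := P.2.to_le (by rw [zpowers_le]; exact hsP)
        by_cases hL : commutator X ⊔ zpowers s = ⊤
        · by_cases hs1 : s = 1
          · intro k _
            rw [hs1]; simp
          · have hpd : p ∣ orderOf s := by
              obtain ⟨a, ha⟩ := IsPGroup.iff_card.1 hsp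
              rw [Nat.card_zpowers] at ha
              rw [ha]
              apply dvd_pow_self
              intro h0
              rw [h0, pow_zero, orderOf_eq_one_iff] at ha
              exact hs1 ha
            have hlt : orderOf (s ^ p) < N := by
              rw [orderOf_pow_of_dvd hp.ne_zero hpd, ← hsN]
              exact Nat.div_lt_self (orderOf_pos s) hp.one_lt
            have hzc := ih _ hlt (s ^ p) rfl (Subgroup.pow_mem _ hsP p)
            have hz : s ^ p ∈ center X := by
              have hle : commutator X ⊔ zpowers s ≤ centralizer ({s ^ p} : Set X) := by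
                refine sup_le ?_ ?_
                · intro k hk
                  rw [mem_centralizer_singleton_iff]
                  exact (hzc k hk).symm
                · rw [zpowers_le, mem_centralizer_singleton_iff, ← pow_succ, ← pow_succ']
              rw [hL, top_le_iff] at hle
              rw [mem_center_iff]
              intro g
              have hg : g ∈ centralizer ({s ^ p} : Set X) := by rw [hle]; trivial
              rw [mem_centralizer_singleton_iff] at hg
              exact hg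
            exact cent_case2 ρ hρ hn inferInstance h5 hidx hsp hL hz
        · exact cent_case1 hprop inferInstance h5 hsp hL
    apply hP
    refine ⟨fun u hu g => ?_⟩
    have hg : g ∈ (P : Subgroup X) ⊔ commutator X := by rw [h3]; trivial
    have hg' : g ∈ (((P : Subgroup X) : Set X) * (commutator X : Set X)) := by
      rw [← Subgroup.mul_normal]; exact hg
    obtain ⟨a, ha, k, hk, rfl⟩ := Set.mem_mul.1 hg'
    have e1 : u * k = k * u := hcentAll _ u rfl hu k hk
    have e2 : a * k * u * (a * k)⁻¹ = a * u * a⁻¹ := by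
      calc a * k * u * (a * k)⁻¹ = a * (k * u) * k⁻¹ * a⁻¹ := by group
        _ = a * (u * k) * k⁻¹ * a⁻¹ := by rw [e1]
        _ = a * u * a⁻¹ := by group
    rw [e2]
    exact Subgroup.mul_mem _ (Subgroup.mul_mem _ ha hu) (Subgroup.inv_mem _ ha)
  have hD : (P : Subgroup X) ⊓ center X = ⊥ := by
    rw [eq_bot_iff]
    intro z hz
    exact transfer_triv P hab hz.1 hz.2 (by rw [hperf]; trivial)
  have hDc : ∀ (a u : X), u ∈ (P : Subgroup X).map (MulAut.conj a).toMonoidHom → u ∈ center X →
      u = 1 := by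
    rintro a _ ⟨w, hw, rfl⟩ hc
    have e : (MulAut.conj a).toMonoidHom w = a * w * a⁻¹ := rfl
    rw [e] at hc ⊢
    have h1 : w ∈ center X := by
      have := (inferInstance : (center X).Normal).conj_mem _ hc a⁻¹
      have e2 : a⁻¹ * (a * w * a⁻¹) * a⁻¹⁻¹ = w := by group
      rwa [e2] at this
    have h2 : w ∈ (P : Subgroup X) ⊓ center X := ⟨hw, h1⟩
    rw [hD, mem_bot] at h2
    rw [h2]; group
  have hcent : ∀ u : X, u ∉ center X → centralizer ({u} : Set X) ≠ ⊤ := by
    intro u hu htop
    apply hu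
    rw [mem_center_iff]
    intro g
    have : g ∈ centralizer ({u} : Set X) := by rw [htop]; trivial
    rw [mem_centralizer_singleton_iff] at this
    exact this
  have hone : ∀ g : X, g ∉ center X → ∀ a b : X,
      centralizer ({g} : Set X) ⊓ (P : Subgroup X).map (MulAut.conj a).toMonoidHom ≠ ⊥ →
      centralizer ({g} : Set X) ⊓ (P : Subgroup X).map (MulAut.conj b).toMonoidHom ≠ ⊥ →
      (P : Subgroup X).map (MulAut.conj a).toMonoidHom
        = (P : Subgroup X).map (MulAut.conj b).toMonoidHom := by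
    intro g hg a b ha hb
    obtain ⟨Qa, hQa⟩ := conj_sylow_coe P a
    obtain ⟨Qb, hQb⟩ := conj_sylow_coe P b
    obtain ⟨⟨u, hu⟩, hu1⟩ := Subgroup.ne_bot_iff_exists_ne_one.1 ha
    obtain ⟨⟨v, hv⟩, hv1⟩ := Subgroup.ne_bot_iff_exists_ne_one.1 hb
    have hu1' : u ≠ 1 := fun h => hu1 (Subtype.ext h)
    have hv1' : v ≠ 1 := fun h => hv1 (Subtype.ext h)
    rw [← hQa] at hu ⊢
    rw [← hQb] at hv ⊢
    have huv : u * v = v * u := commute_of_proper ρ hρ (by omega) hprop (hcent g hg) Qa.2 Qb.2
      ⟨hu.2, hu.1⟩ ⟨hv.2, hv.1⟩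
    have hunc : u ∉ center X := fun hc => hu1' (hDc a u (hQa ▸ hu.2) hc)
    have hvnc : v ∉ center X := fun hc => hv1' (hDc b v (hQb ▸ hv.2) hc)
    have hQau : (Qa : Subgroup X) ≤ centralizer ({u} : Set X) := by
      intro w hw
      rw [mem_centralizer_singleton_iff]
      exact habR Qa.2 w hw u hu.2
    have hvQa : v ∈ (Qa : Subgroup X) := by
      have h1 : IsPGroup p (zpowers v) := Qb.2.to_le (by rw [zpowers_le]; exact hv.2)
      have h2 : zpowers v ≤ centralizer ({u} : Set X) := by
        rw [zpowers_le, mem_centralizer_singleton_iff]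
        exact huv.symm
      exact pgroup_le_of_proper hprop Qa (hcent u hunc) hQau h1 h2 (mem_zpowers v)
    have hQav : (Qa : Subgroup X) ≤ centralizer ({v} : Set X) := by
      intro w hw
      rw [mem_centralizer_singleton_iff]
      exact habR Qa.2 w hw v hvQa
    have hQbv : (Qb : Subgroup X) ≤ centralizer ({v} : Set X) := by
      intro w hw
      rw [mem_centralizer_singleton_iff]
      exact habR Qb.2 w hw v hv.2
    have hle : (Qb : Subgroup X) ≤ Qa :=
      pgroup_le_of_proper hprop Qa (hcent v hvnc) hQav Qb.2 hQbv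
    exact Qb.is_maximal' Qa.2 hle
  have hPbot : (P : Subgroup X) ≠ ⊥ := by
    intro h
    apply hP
    rw [h]
    infer_instance
  obtain ⟨⟨h, hh⟩, hh1⟩ := Subgroup.ne_bot_iff_exists_ne_one.1 hPbot
  have hh1' : h ≠ 1 := fun e => hh1 (Subtype.ext e)
  obtain ⟨χ, hχ, hχh, hχd⟩ := (exists_constituent h ρ.character hχc).2
    (fun e => hh1' (hfaith h e))
  have hχ1' : χ 1 ≠ 1 := by
    intro e
    obtain ⟨f, hf⟩ := Cfsg.Agent.Lib.Helper7.exists_hom_of_linear
      (Cfsg.Agent.Lib.Helper7.isCharacter_of_irr hχ) e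
    have h1 : h ∈ f.ker := Abelianization.commutator_subset_ker f (by rw [hperf]; trivial)
    apply hχh
    rw [e, hf, MonoidHom.mem_ker.1 h1]
    rfl
  haveI : Fintype (P : Subgroup X) := Fintype.ofFinite _
  have key := (Cfsg.Agent.S0898.result (P : Subgroup X) hab hD hone χ hχ ⟨h, hh, hχh⟩).2 hχ1'
    (fun M hM hPM => eq_top_of_normal_of_le hprop P hP hM hPM)
  obtain ⟨d, hd0, hd⟩ := Cfsg.Agent.Lib.Helper7.irr_apply_one hχ
  rw [hχ1] at hχd
  rw [hd] at hχd key
  simp only [Complex.natCast_re] at hχd key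
  have hdn : d ≤ n := by exact_mod_cast hχd
  have h1 : (1 + d) ^ 2 ≤ (n + 1) ^ 2 := Nat.pow_le_pow_left (by omega) 2
  have h2 : ((1 + d) ^ 2 : ℕ) ≤ Nat.card (P : Subgroup X) := h1.trans hcard
  have h3 : ((1 : ℝ) + d) ^ 2 ≤ (Nat.card (P : Subgroup X) : ℝ) := by exact_mod_cast h2
  linarith

theorem transport {A B : Type*} [Group A] [Group B] (e : A ≃* B)
    (hB : ∀ Q : Sylow p B, (Q : Subgroup B).Normal) (Q : Sylow p A) :
    (Q : Subgroup A).Normal := by
  have h1 : ((Q : Subgroup A).comap e.symm.toMonoidHom).Normal :=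
    hB (Q.comapOfInjective e.symm.toMonoidHom e.symm.injective (by
      intro a _
      exact ⟨e a, by simp⟩))
  have h2 := h1.comap e.toMonoidHom
  rw [Subgroup.comap_comap] at h2
  have h3 : e.symm.toMonoidHom.comp e.toMonoidHom = MonoidHom.id A := by
    ext a; simp
  rw [h3, Subgroup.comap_id] at h2
  exact h2

theorem main {G : Type u} [Group G] [Finite G] (n : ℕ) (ρ : Representation ℂ G (Fin n → ℂ))
    (hρ : Function.Injective ρ) (hn : n + 1 < p)
    (h : (n + 1) ^ 2 ≤ p ∨ (∀ K : Subgroup G, ¬ p ^ 2 ∣ Nat.card K →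
      ∀ Q : Sylow p K, (Q : Subgroup K).Normal)) :
    ∀ (N : ℕ) (K : Subgroup G), Nat.card K = N → ∀ Q : Sylow p K, (Q : Subgroup K).Normal := by
  have hp : p.Prime := Fact.out
  intro N
  induction N using Nat.strong_induction_on with
  | _ N ih =>
    intro K hK Q
    have hprop : PropNS p K := by
      intro L hL
      have hlt : Nat.card (L.map K.subtype) < N := by
        rw [← hK, Nat.card_congr (L.equivMapOfInjective K.subtype K.subtype_injective).symm.toEquiv]
        have h1 : Nat.card L ≤ Nat.card K := Subgroup.card_le_card_group L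
        rcases h1.lt_or_eq with h2 | h2
        · exact h2
        · exact absurd (Subgroup.eq_top_of_card_eq L h2) hL
      exact transport (L.equivMapOfInjective K.subtype K.subtype_injective)
        (ih _ hlt (L.map K.subtype) rfl)
    by_cases hQ : (Q : Subgroup K) = ⊥
    · rw [hQ]; infer_instance
    have hcardQ := Q.card_eq_multiplicity
    rcases h with h | h
    · refine core (ρ.comp K.subtype) (hρ.comp Subtype.val_injective) hn hprop Q ?_
      refine h.trans ?_
      rw [hcardQ]
      have hk : (Nat.card K).factorization p ≠ 0 := by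
        intro h0
        apply hQ
        rw [h0, pow_zero] at hcardQ
        exact (Subgroup.card_eq_one).1 hcardQ
      calc p = p ^ 1 := (pow_one p).symm
        _ ≤ p ^ (Nat.card K).factorization p := Nat.pow_le_pow_right hp.pos (by omega)
    · by_cases h2 : p ^ 2 ∣ Nat.card K
      · refine core (ρ.comp K.subtype) (hρ.comp Subtype.val_injective) hn hprop Q ?_
        have h3 : 2 ≤ (Nat.card K).factorization p :=
          (hp.pow_dvd_iff_le_factorization Nat.card_pos.ne').1 h2
        rw [hcardQ]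
        calc (n + 1) ^ 2 ≤ p ^ 2 := Nat.pow_le_pow_left hn.le 2
          _ ≤ p ^ (Nat.card K).factorization p := Nat.pow_le_pow_right hp.pos h3
      · exact h K h2 Q

/-- Let G be a finite group with a faithful complex representation of degree n (on Fin n → ℂ) and p a prime. Suppose either that (n + 1) ^ 2 ≤ p, or that n + 1 < p and every subgroup of G whose order is not divisible by p ^ 2 has a normal Sylow p-subgroup. Then every Sylow p-subgroup of G is normal. -/
theorem result {G : Type*} [Group G] [Finite G] (n : ℕ) (ρ : Representation ℂ G (Fin n → ℂ)) (hρ : Function.Injective ρ) (p : ℕ) [Fact p.Prime] (h : (n + 1) ^ 2 ≤ p ∨ (n + 1 < p ∧ ∀ K : Subgroup G, ¬ p ^ 2 ∣ Nat.card K → ∀ Q : Sylow p K, (Q : Subgroup K).Normal)) (P : Sylow p G) : (P : Subgroup G).Normal := by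
  have hp : p.Prime := Fact.out
  have hn : n + 1 < p := by
    rcases h with h | h
    · have := hp.two_le
      by_contra hlt
      nlinarith
    · exact h.1
  have h' : (n + 1) ^ 2 ≤ p ∨ (∀ K : Subgroup G, ¬ p ^ 2 ∣ Nat.card K →
      ∀ Q : Sylow p K, (Q : Subgroup K).Normal) := h.imp id (fun h => h.2)
  exact transport Subgroup.topEquiv.symm (main n ρ hρ hn h' _ ⊤ rfl) P

end Cfsg.Agent.S0899
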