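import Cfsg.Statements.S0900
import Cfsg.Agent.Lib.Helper25.Ramified

set_option autoImplicit false
open Cfsg

namespace Cfsg.Agent.S0900

/-- Let N be a normal subgroup of the finite group G, χ an irreducible character of G and ϑ an irreducible character of N having nonzero inner product with the restriction of χ. Consider: (a) the restriction of χ to N is e • ϑ for a natural number e with e ^ 2 equal to the index of N; (b) χ vanishes outside N and ϑ is invariant under conjugation by G; (c) ϑ is invariant and every irreducible character of G having nonzero inner product with the function induced from ϑ equals χ. Then (a) ↔ (b) and (a) ↔ (c). -/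
theorem result {G : Type*} [Group G] [Fintype G] (N : Subgroup G) [hN : N.Normal] [Fintype N] (χ : G → ℂ) (hχ : Cfsg.IsIrrCharacter G χ) (ϑ : N → ℂ) (hϑ : Cfsg.IsIrrCharacter N ϑ) (hcon : Cfsg.classInner (fun n : N => χ n) ϑ ≠ 0) : ((∃ e : ℕ, (fun n : N => χ n) = (e : ℂ) • ϑ ∧ e ^ 2 = N.index) ↔ ((∀ g : G, g ∉ N → χ g = 0) ∧ ∀ (g : G) (n : N), ϑ ⟨g * n * g⁻¹, hN.conj_mem (n : G) n.2 g⟩ = ϑ n)) ∧ ((∃ e : ℕ, (fun n : N => χ n) = (e : ℂ) • ϑ ∧ e ^ 2 = N.index) ↔ (∀ (g : G) (n : N), ϑ ⟨g * n * g⁻¹, hN.conj_mem (n : G) n.2 g⟩ = ϑ n ∧ ∀ ψ : G → ℂ, Cfsg.IsIrrCharacter G ψ → Cfsg.classInner (Cfsg.indFun N ϑ) ψ ≠ 0 → ψ = χ)) := by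
  classical
  have hχc := Cfsg.Agent.Lib.Helper7.isCharacter_of_irr hχ
  have hϑc := Cfsg.Agent.Lib.Helper7.isCharacter_of_irr hϑ
  have hcf := Cfsg.Agent.Lib.Helper7.isClassFunction_of_isCharacter hχc
  obtain ⟨e, he⟩ := Cfsg.Agent.Lib.Helper7.classInner_char_nat
    (Cfsg.Agent.Lib.Helper7.isCharacter_restrict hχc N) hϑc
  obtain ⟨d, hd0, hd⟩ := Cfsg.Agent.Lib.Helper7.irr_apply_one hϑ
  have hd0' : (d : ℂ) ≠ 0 := by exact_mod_cast hd0.ne'
  have hidx : N.index ≠ 0 := N.index_ne_zero_of_finite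
  have A_inv : ∀ e' : ℕ, (fun n : N => χ n) = (e' : ℂ) • ϑ → e' ^ 2 = N.index →
      ∀ (g : G) (n : N), ϑ ⟨g * n * g⁻¹, hN.conj_mem (n : G) n.2 g⟩ = ϑ n := by
    intro e' h1 h2 g n
    have e'0 : (e' : ℂ) ≠ 0 := by
      intro h0
      have : e' = 0 := by exact_mod_cast h0
      rw [this] at h2
      exact hidx (by rw [← h2]; norm_num)
    have h3 := congrFun h1 ⟨g * n * g⁻¹, hN.conj_mem (n : G) n.2 g⟩
    have h4 := congrFun h1 n
    simp only [Pi.smul_apply, smul_eq_mul] at h3 h4
    rw [hcf] at h3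
    exact mul_left_cancel₀ e'0 (h3.symm.trans h4)
  have inv_res : (∀ (g : G) (n : N), ϑ ⟨g * n * g⁻¹, hN.conj_mem (n : G) n.2 g⟩ = ϑ n) →
      (fun n : N => χ n) = (e : ℂ) • ϑ := by
    intro hinv
    have := Cfsg.Agent.Lib.Helper25.restrict_eq_smul_of_invariant N hχ hϑ hcon
      (fun g => funext (hinv g))
    rwa [he] at this
  have res_norm : ∀ e' : ℕ, (fun n : N => χ n) = (e' : ℂ) • ϑ →
      Cfsg.classInner (fun n : N => χ n) (fun n : N => χ n) = (e' : ℂ) ^ 2 := by
    intro e' h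
    rw [h, Cfsg.Agent.Lib.Helper7.classInner_smul_left, Cfsg.Agent.Lib.Helper7.classInner_smul_right,
      Cfsg.Agent.Lib.Helper7.classInner_irr_self hϑ]
    simp
    ring
  have res_e : ∀ e' : ℕ, (fun n : N => χ n) = (e' : ℂ) • ϑ → e' = e := by
    intro e' h
    have h1 := he
    rw [h, Cfsg.Agent.Lib.Helper7.classInner_smul_left,
      Cfsg.Agent.Lib.Helper7.classInner_irr_self hϑ, mul_one] at h1
    exact_mod_cast h1
  have hfχ : Cfsg.classInner (Cfsg.indFun N ϑ) χ = e := by
    rw [Cfsg.Agent.Lib.Helper25.frobenius_reciprocity N ϑ χ hcf,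
      ← Cfsg.Agent.Lib.Helper7.classInner_conj_symm, he, map_natCast]
  have hInd := Cfsg.Agent.Lib.Helper25.isCharacter_indFun N ϑ hϑc
  constructor
  · constructor
    · rintro ⟨e', h1, h2⟩
      refine ⟨(Cfsg.Agent.Lib.Helper25.vanish_off_iff N hχ).mpr ?_, A_inv e' h1 h2⟩
      rw [res_norm e' h1]
      exact_mod_cast h2
    · rintro ⟨hv, hinv⟩
      refine ⟨e, inv_res hinv, ?_⟩
      have := (Cfsg.Agent.Lib.Helper25.vanish_off_iff N hχ).mp hv
      rw [res_norm e (inv_res hinv)] at this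
      exact_mod_cast this
  · constructor
    · rintro ⟨e', h1, h2⟩ g n
      refine ⟨A_inv e' h1 h2 g n, ?_⟩
      intro ψ hψ hne
      have hee := res_e e' h1
      subst hee
      have hχ1 : χ 1 = (e' : ℂ) * d := by
        have := congrFun h1 1
        simp only [Pi.smul_apply, smul_eq_mul, OneMemClass.coe_one] at this
        rw [this, hd]
      have hdeg : Cfsg.indFun N ϑ 1 = Cfsg.classInner (Cfsg.indFun N ϑ) χ * χ 1 := by
        rw [Cfsg.Agent.Lib.Helper25.indFun_one, hfχ, hχ1, hd, ← h2]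
        push_cast
        ring
      have hf := Cfsg.Agent.Lib.Helper25.eq_smul_of_degree hInd hχ hdeg
      rw [hf, Cfsg.Agent.Lib.Helper7.classInner_smul_left,
        Cfsg.Agent.Lib.Helper7.classInner_irr hχ hψ] at hne
      by_contra hcon2
      rw [if_neg (fun h => hcon2 h.symm), mul_zero] at hne
      exact hne rfl
    · intro hC
      have hinv := fun g n => (hC g n).1
      have huniq := (hC 1 1).2
      refine ⟨e, inv_res hinv, ?_⟩
      have hf : Cfsg.indFun N ϑ - (e : ℂ) • χ = 0 := by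
        apply Cfsg.Agent.Lib.Helper7.eq_zero_of_classInner_irr_eq_zero
        · intro a b
          simp only [Pi.sub_apply, Pi.smul_apply]
          rw [Cfsg.Agent.Lib.Helper25.indFun_isClassFunction N ϑ a b, hcf a b]
        · intro ψ hψ
          rw [Cfsg.Agent.Lib.Helper7.classInner_sub_left,
            Cfsg.Agent.Lib.Helper7.classInner_smul_left,
            Cfsg.Agent.Lib.Helper7.classInner_irr hχ hψ]
          by_cases hψχ : χ = ψ
          · subst hψχ
            rw [hfχ, if_pos rfl, mul_one, sub_self]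
          · rw [if_neg hψχ, mul_zero, sub_zero]
            by_contra hne
            exact hψχ (huniq ψ hψ hne).symm
      have h1 := congrFun hf 1
      have h2 := congrFun (inv_res hinv) 1
      simp only [Pi.sub_apply, Pi.smul_apply, smul_eq_mul, Pi.zero_apply,
        OneMemClass.coe_one] at h1 h2
      rw [Cfsg.Agent.Lib.Helper25.indFun_one, h2, hd] at h1
      have h3 : ((e ^ 2 : ℕ) : ℂ) = (N.index : ℂ) := by
        apply mul_right_cancel₀ hd0'
        push_cast
        linear_combination -h1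
      exact_mod_cast h3

end Cfsg.Agent.S0900
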