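import Cfsg.Statements.S0901
import Cfsg.Agent.Lib.Helper7.BlockRes

set_option autoImplicit false
open Cfsg

namespace Cfsg.Agent.S0901

open Cfsg.Agent.Lib.Helper7

theorem natCast_mem_iff {p : ℕ} {M : Ideal Cfsg.AlgInt} (hM : Cfsg.IsPModular p M) (n : ℕ) :
    (n : Cfsg.AlgInt) ∈ M ↔ p ∣ n := by
  haveI := hM.2.1.isPrime
  rw [← memLocalIdeal_natCast_iff hM n, ← memLocalIdeal_coe_iff (M := M) (n : AlgInt)]
  simp

theorem part1 (p : ℕ) (M : Ideal Cfsg.AlgInt) (hM : Cfsg.IsPModular p M)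
    (ε₁ ε₂ : Cfsg.AlgInt) (h₁ : ∃ m : ℕ, ¬ p ∣ m ∧ (ε₁ : ℂ) ^ m = 1)
    (h₂ : ∃ m : ℕ, ¬ p ∣ m ∧ (ε₂ : ℂ) ^ m = 1) (h : ε₁ - ε₂ ∈ M) : ε₁ = ε₂ := by
  haveI := hM.2.1.isPrime
  obtain ⟨m₁, hm₁, e₁⟩ := h₁
  obtain ⟨m₂, hm₂, e₂⟩ := h₂
  have e₁' : ε₁ ^ m₁ = 1 := Subtype.ext (by simpa using e₁)
  have e₂' : ε₂ ^ m₂ = 1 := Subtype.ext (by simpa using e₂)
  set m := m₁ * m₂ with hm
  have hpm : ¬ p ∣ m := fun hd => (hM.1.dvd_mul.1 hd).elim hm₁ hm₂
  have hmpos : 0 < m := Nat.pos_of_ne_zero (fun h0 => hpm (h0 ▸ dvd_zero p))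
  have f₁ : ε₁ ^ m = 1 := by rw [hm, pow_mul, e₁', one_pow]
  have f₂ : ε₂ ^ m = 1 := by rw [hm, mul_comm, pow_mul, e₂', one_pow]
  by_contra hne
  set δ := ε₂ * ε₁ ^ (m - 1) with hδ
  have hε : ε₁ * ε₁ ^ (m - 1) = 1 := by
    rw [← pow_succ', Nat.sub_add_cancel hmpos, f₁]
  have hδm : δ ^ m = 1 := by
    rw [hδ, mul_pow, f₂, one_mul, ← pow_mul, mul_comm, pow_mul, f₁, one_pow]
  have hδ1 : δ - 1 ∈ M := by
    have : δ - 1 = -((ε₁ - ε₂) * ε₁ ^ (m - 1)) := by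
      rw [hδ, sub_mul, hε]; ring
    rw [this]
    exact M.neg_mem (M.mul_mem_right _ h)
  have hδne : δ - 1 ≠ 0 := by
    intro h0
    apply hne
    have h1 : δ = 1 := sub_eq_zero.1 h0
    have h2 : ε₂ = δ * ε₁ := by
      calc ε₂ = ε₂ * (ε₁ * ε₁ ^ (m - 1)) := by rw [hε, mul_one]
        _ = δ * ε₁ := by rw [hδ]; ring
    rw [h2, h1, one_mul]
  have hsum : ∑ i ∈ Finset.range m, δ ^ i = 0 := by
    have := mul_geom_sum δ m
    rw [hδm, sub_self] at this
    exact (mul_eq_zero.1 this).resolve_left hδne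
  have hq : (Ideal.Quotient.mk M) δ = 1 := by
    rw [← map_one (Ideal.Quotient.mk M), Ideal.Quotient.eq]
    exact hδ1
  have h3 := congrArg (Ideal.Quotient.mk M) hsum
  rw [map_sum, map_zero] at h3
  simp only [map_pow, hq, one_pow, Finset.sum_const, Finset.card_range, nsmul_eq_mul, mul_one] at h3
  have h4 : (Ideal.Quotient.mk M) (m : AlgInt) = 0 := by simpa using h3
  rw [Ideal.Quotient.eq_zero_iff_mem, natCast_mem_iff hM] at h4
  exact hpm h4

theorem part2 (p : ℕ) (M : Ideal Cfsg.AlgInt) (hM : Cfsg.IsPModular p M)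
    (a : Cfsg.AlgInt) (ha : a ∉ M) :
    ∃ ε : Cfsg.AlgInt, (∃ m : ℕ, ¬ p ∣ m ∧ (ε : ℂ) ^ m = 1) ∧ a - ε ∈ M := by
  haveI := hM.2.1.isPrime
  haveI : Fact p.Prime := ⟨hM.1⟩
  haveI := hM.2.1
  letI : Field (AlgInt ⧸ M) := Ideal.Quotient.field M
  haveI hchar : CharP (AlgInt ⧸ M) p := by
    rw [CharP.charP_iff_prime_eq_zero hM.1]
    have : (Ideal.Quotient.mk M) (p : AlgInt) = 0 := Ideal.Quotient.eq_zero_iff_mem.2 hM.2.2
    simpa using this
  letI : Algebra (ZMod p) (AlgInt ⧸ M) := ZMod.algebra _ p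
  set ā : AlgInt ⧸ M := Ideal.Quotient.mk M a with hā
  have hā0 : ā ≠ 0 := fun h => ha (Ideal.Quotient.eq_zero_iff_mem.1 h)
  -- ā is integral over ZMod p
  have hintZ : IsIntegral ℤ a := by
    have := a.2
    exact (isIntegral_algebraMap_iff (A := AlgInt) (B := ℂ) Subtype.val_injective).1 this
  have hintZ' : IsIntegral ℤ ā := hintZ.map (Ideal.Quotient.mkₐ ℤ M)
  haveI : IsScalarTower ℤ (ZMod p) (AlgInt ⧸ M) :=
    IsScalarTower.of_algebraMap_eq' (Subsingleton.elim _ _)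
  have hint : IsIntegral (ZMod p) ā := hintZ'.tower_top
  -- finite order
  have hfin : Finite (Algebra.adjoin (ZMod p) {ā}) := by
    haveI : Module.Finite (ZMod p) (Algebra.adjoin (ZMod p) {ā}) :=
      Module.Finite.iff_fg.2 hint.fg_adjoin_singleton
    exact Module.finite_of_finite (ZMod p)
  have hnotinj : ¬ Function.Injective
      (fun k : ℕ => (⟨ā ^ k, pow_mem (Algebra.self_mem_adjoin_singleton _ _) k⟩ :
        Algebra.adjoin (ZMod p) {ā})) := not_injective_infinite_finite _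
  have hford : IsOfFinOrder ā := by
    rw [isOfFinOrder_iff_pow_eq_one]
    simp only [Function.Injective, not_forall] at hnotinj
    obtain ⟨i, j, hij, hne⟩ := hnotinj
    have hij' : ā ^ i = ā ^ j := congrArg Subtype.val hij
    rcases Nat.lt_or_gt_of_ne hne with hlt | hlt
    · refine ⟨j - i, Nat.sub_pos_of_lt hlt, ?_⟩
      have : ā ^ i * ā ^ (j - i) = ā ^ i * 1 := by
        rw [← pow_add, Nat.add_sub_cancel' hlt.le, mul_one, hij']
      exact mul_left_cancel₀ (pow_ne_zero _ hā0) this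
    · refine ⟨i - j, Nat.sub_pos_of_lt hlt, ?_⟩
      have : ā ^ j * ā ^ (i - j) = ā ^ j * 1 := by
        rw [← pow_add, Nat.add_sub_cancel' hlt.le, mul_one, hij']
      exact mul_left_cancel₀ (pow_ne_zero _ hā0) this
  set n := orderOf ā with hn
  have hnpos : 0 < n := hford.orderOf_pos
  have hpn : ¬ p ∣ n := by
    rintro ⟨k, hk⟩
    have hkpos : 0 < k := by
      rcases Nat.eq_zero_or_pos k with h0 | h0
      · rw [h0, mul_zero] at hk; omega
      · exact h0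
    have h1 : (ā ^ k) ^ p = 1 := by rw [← pow_mul, mul_comm, ← hk]; exact pow_orderOf_eq_one ā
    have h2 : (ā ^ k - 1) ^ p = 0 := by rw [sub_pow_char, h1, one_pow, sub_self]
    have h3 : ā ^ k = 1 := sub_eq_zero.1 (pow_eq_zero_iff hM.1.ne_zero |>.1 h2)
    have h4 := orderOf_le_of_pow_eq_one hkpos h3
    have h5 : k < n := by
      rw [hk]
      have := hM.1.two_le
      nlinarith
    omega
  have han : a ^ n - 1 ∈ M := by
    rw [← Ideal.Quotient.eq_zero_iff_mem, map_sub, map_pow, map_one, ← hā, hn, pow_orderOf_eq_one,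
      sub_self]
  -- factor over ℂ
  have hprim := Complex.isPrimitiveRoot_exp n hnpos.ne'
  have hfac := Polynomial.X_pow_sub_one_eq_prod hnpos hprim
  have hev := congrArg (Polynomial.eval (a : ℂ)) hfac
  simp only [Polynomial.eval_sub, Polynomial.eval_pow, Polynomial.eval_X, Polynomial.eval_one,
    Polynomial.eval_prod, Polynomial.eval_C] at hev
  have hmemI : MemLocalIdeal M (∏ ζ ∈ Polynomial.nthRootsFinset n (1 : ℂ), ((a : ℂ) - ζ)) := by
    rw [← hev]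
    have := (memLocalIdeal_coe_iff (M := M) (a ^ n - 1)).2 han
    simpa using this
  have hroot : ∀ ζ ∈ Polynomial.nthRootsFinset n (1 : ℂ), ζ ^ n = 1 := by
    intro ζ hζ
    exact (Polynomial.mem_nthRootsFinset hnpos (1 : ℂ)).1 hζ
  have hrootint : ∀ ζ ∈ Polynomial.nthRootsFinset n (1 : ℂ), IsIntegral ℤ ζ := by
    intro ζ hζ
    exact IsIntegral.of_pow hnpos (by rw [hroot ζ hζ]; exact isIntegral_one)
  by_contra hcon
  apply not_memLocalIdeal_prod (M := M) _ _ _ _ hmemI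
  · intro ζ hζ
    exact memLocalRing_sub (memLocalRing_coe a) (memLocalRing_of_isIntegral (hrootint ζ hζ))
  · intro ζ hζ hmem
    apply hcon
    refine ⟨⟨ζ, hrootint ζ hζ⟩, ⟨n, hpn, hroot ζ hζ⟩, ?_⟩
    rw [← memLocalIdeal_coe_iff]
    simpa using hmem

/-- Let M be a maximal ideal of the ring of algebraic integers containing the prime p, and let U be the set of complex roots of unity of order prime to p. Then reduction modulo M is injective on U, and every algebraic integer not in M is congruent modulo M to an element of U (so U maps bijectively onto the nonzero residues). -/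
theorem result (p : ℕ) [Fact p.Prime] (M : Ideal Cfsg.AlgInt) (hM : Cfsg.IsPModular p M) : (∀ ε₁ ε₂ : Cfsg.AlgInt, (∃ m : ℕ, ¬ p ∣ m ∧ (ε₁ : ℂ) ^ m = 1) → (∃ m : ℕ, ¬ p ∣ m ∧ (ε₂ : ℂ) ^ m = 1) → ε₁ - ε₂ ∈ M → ε₁ = ε₂) ∧ (∀ a : Cfsg.AlgInt, a ∉ M → ∃ ε : Cfsg.AlgInt, (∃ m : ℕ, ¬ p ∣ m ∧ (ε : ℂ) ^ m = 1) ∧ a - ε ∈ M) := by
  exact ⟨part1 p M hM, part2 p M hM⟩

end Cfsg.Agent.S0901
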