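import Cfsg.Statements.S0903


set_option autoImplicit false
open Cfsg

namespace Cfsg.Agent.S0903

/-- Let P be a p-subgroup of the finite group G, let c centralize P and let g, h ∈ G. The number of pairs (x, y) with x conjugate to g, y conjugate to h and x * y = c is congruent modulo p to the number of such pairs in which x and y both centralize P. (This is why the Brauer map on class sums is multiplicative.) -/
theorem result {G : Type*} [Group G] [Finite G] (p : ℕ) [Fact p.Prime] (P : Subgroup G) (hP : IsPGroup p P) (c : G) (hc : c ∈ Subgroup.centralizer (P : Set G)) (g h : G) : Nat.card {xy : G × G // IsConj g xy.1 ∧ IsConj h xy.2 ∧ xy.1 * xy.2 = c} ≡ Nat.card {xy : G × G // IsConj g xy.1 ∧ IsConj h xy.2 ∧ xy.1 * xy.2 = c ∧ xy.1 ∈ Subgroup.centralizer (P : Set G) ∧ xy.2 ∈ Subgroup.centralizer (P : Set G)} [MOD p] := by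
  classical
  let X := {xy : G × G // IsConj g xy.1 ∧ IsConj h xy.2 ∧ xy.1 * xy.2 = c}
  have hcc : ∀ a : P, (a : G) * c * (a : G)⁻¹ = c := by
    intro a
    have := (Subgroup.mem_centralizer_iff.1 hc) a a.2
    rw [this]; group
  letI : MulAction P X :=
    { smul := fun a x => ⟨((a : G) * x.1.1 * (a : G)⁻¹, (a : G) * x.1.2 * (a : G)⁻¹),
        x.2.1.trans (isConj_iff.2 ⟨a, rfl⟩), x.2.2.1.trans (isConj_iff.2 ⟨a, rfl⟩), by
          have h3 := x.2.2.2
          calc (a : G) * x.1.1 * (a : G)⁻¹ * ((a : G) * x.1.2 * (a : G)⁻¹)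
              = (a : G) * (x.1.1 * x.1.2) * (a : G)⁻¹ := by group
            _ = c := by rw [h3, hcc]⟩
      one_smul := fun x => Subtype.ext (Prod.ext (by simp [HSMul.hSMul]) (by simp [HSMul.hSMul]))
      mul_smul := fun a b x => Subtype.ext (Prod.ext
        (by simp [HSMul.hSMul, mul_assoc]) (by simp [HSMul.hSMul, mul_assoc])) }
  have hsm : ∀ (a : P) (x : X), (a • x).1 = ((a : G) * x.1.1 * (a : G)⁻¹, (a : G) * x.1.2 * (a : G)⁻¹) :=
    fun a x => rfl
  have h1 := hP.card_modEq_card_fixedPoints X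
  refine h1.trans ?_
  apply congrArg (· % p)
  refine Nat.card_congr
    { toFun := fun x => ⟨x.1.1, x.1.2.1, x.1.2.2.1, x.1.2.2.2, ?_, ?_⟩
      invFun := fun y => ⟨⟨y.1, y.2.1, y.2.2.1, y.2.2.2.1⟩, ?_⟩
      left_inv := fun x => rfl
      right_inv := fun y => rfl }
  · rw [Subgroup.mem_centralizer_iff]
    intro a ha
    have h2 := congrArg (fun z : X => z.1.1) (x.2 ⟨a, ha⟩)
    have h3 : a * x.1.1.1 * a⁻¹ = x.1.1.1 := h2
    calc a * x.1.1.1 = a * x.1.1.1 * a⁻¹ * a := by group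
      _ = x.1.1.1 * a := by rw [h3]
  · rw [Subgroup.mem_centralizer_iff]
    intro a ha
    have h2 := congrArg (fun z : X => z.1.2) (x.2 ⟨a, ha⟩)
    have h3 : a * x.1.1.2 * a⁻¹ = x.1.1.2 := h2
    calc a * x.1.1.2 = a * x.1.1.2 * a⁻¹ * a := by group
      _ = x.1.1.2 * a := by rw [h3]
  · intro a
    apply Subtype.ext
    rw [hsm]
    have h4 := (Subgroup.mem_centralizer_iff.1 y.2.2.2.2.1) a a.2
    have h5 := (Subgroup.mem_centralizer_iff.1 y.2.2.2.2.2) a a.2
    apply Prod.ext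
    · show (a : G) * y.1.1 * (a : G)⁻¹ = y.1.1
      rw [h4]; group
    · show (a : G) * y.1.2 * (a : G)⁻¹ = y.1.2
      rw [h5]; group

end Cfsg.Agent.S0903
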