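import Cfsg.Statements.S0905
import Cfsg.Agent.Lib.Helper1.Fitting

set_option autoImplicit false
open Cfsg

namespace Cfsg.Agent.S0905

open MonoidAlgebra

variable {G : Type*} [Group G]

lemma coeff_cs [Finite G] (F : Type*) [Semiring F] (K : Set G) (y : G) [Decidable (y ∈ K)] :
    (∑ᶠ x ∈ K, single x (1:F) : MonoidAlgebra F G).coeff y = if y ∈ K then 1 else 0 := by
  classical
  rw [finsum_mem_eq_finite_toFinset_sum _ (Set.toFinite K), coeff_sum, Finsupp.finsetSum_apply]
  simp [coeff_single, Finsupp.single_apply]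

/-- conjugation action of a subgroup on a stable subset -/
def act (P : Subgroup G) (X : Set G) (hX : ∀ u ∈ P, ∀ x ∈ X, u * x * u⁻¹ ∈ X) : MulAction P X where
  smul u x := ⟨u * x * u⁻¹, hX u u.2 x x.2⟩
  one_smul x := by
    apply Subtype.ext
    show ((1 : P) : G) * x * ((1 : P) : G)⁻¹ = x
    simp
  mul_smul u v x := by
    apply Subtype.ext
    show ((u * v : P) : G) * x * ((u * v : P) : G)⁻¹ = (u : G) * ((v : G) * x * (v : G)⁻¹) * (u : G)⁻¹
    simp [mul_assoc]

lemma dvd_card_of_no_fixed [Finite G] {p : ℕ} [Fact p.Prime] (P : Subgroup G) (hP : IsPGroup p P)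
    (X : Set G) (hX : ∀ u ∈ P, ∀ x ∈ X, u * x * u⁻¹ ∈ X)
    (hfix : ∀ x ∈ X, ∃ u ∈ P, u * x * u⁻¹ ≠ x) : p ∣ Nat.card X := by
  letI := act P X hX
  have h := hP.card_modEq_card_fixedPoints X
  have h0 : IsEmpty (MulAction.fixedPoints P X) := by
    constructor
    rintro ⟨x, hx⟩
    obtain ⟨u, hu, hne⟩ := hfix x x.2
    apply hne
    have := hx ⟨u, hu⟩
    exact congrArg Subtype.val this
  have h1 : Nat.card (MulAction.fixedPoints P X) = 0 := Nat.card_of_isEmpty
  rw [h1] at h
  exact Nat.modEq_zero_iff_dvd.mp h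

lemma cs_mul_fixed [Finite G] {p : ℕ} [Fact p.Prime] (F : Type*) [Field F] [CharP F p]
    (P : Subgroup G) [hPn : P.Normal] (hP : IsPGroup p P) (K : Set G)
    (hK : ∀ g x, x ∈ K → g * x * g⁻¹ ∈ K)
    (hfix : ∀ x ∈ K, x ∉ Subgroup.centralizer (P : Set G))
    (w : MonoidAlgebra F G) (hw : ∀ v ∈ P, ∀ z, w.coeff (v * z) = w.coeff z) :
    (∑ᶠ x ∈ K, single x (1:F) : MonoidAlgebra F G) * w = 0 := by
  classical
  ext y
  rw [finsum_mem_eq_finite_toFinset_sum _ (Set.toFinite K), Finset.sum_mul, coeff_sum,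
    Finsupp.finsetSum_apply]
  simp only [coeff_single_mul_apply, one_mul]
  have := Finset.sum_comp (s := (Set.toFinite K).toFinset) (f := fun b : F => b)
    (g := fun x : G => w.coeff (x⁻¹ * y))
  rw [this]
  apply Finset.sum_eq_zero
  intro b _
  have hdvd : p ∣ Nat.card ({x : G | x ∈ K ∧ w.coeff (x⁻¹ * y) = b} : Set G) := by
    apply dvd_card_of_no_fixed P hP
    · rintro u hu x ⟨hx, hxb⟩
      refine ⟨hK u x hx, ?_⟩
      rw [← hxb]
      have : (u * x * u⁻¹)⁻¹ * y = (u * (x⁻¹ * u⁻¹ * x⁻¹⁻¹)) * (x⁻¹ * y) := by group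
      rw [this]
      exact hw _ (P.mul_mem hu (hPn.conj_mem _ (P.inv_mem hu) _)) _
    · rintro x ⟨hx, -⟩
      by_contra hcon
      push Not at hcon
      apply hfix x hx
      rw [Subgroup.mem_centralizer_iff]
      intro u hu
      have := hcon u hu
      rw [mul_inv_eq_iff_eq_mul] at this
      exact this
  have hcard : ((Set.toFinite K).toFinset.filter (fun x => w.coeff (x⁻¹ * y) = b)).card
      = Nat.card ({x : G | x ∈ K ∧ w.coeff (x⁻¹ * y) = b} : Set G) := by
    rw [Nat.card_coe_set_eq, Set.ncard_eq_toFinset_card _ (Set.toFinite _)]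
    congr 1
    ext x
    simp
  rw [hcard, nsmul_eq_mul, (CharP.cast_eq_zero_iff F p _).2 hdvd, zero_mul]

lemma finMA [Finite G] (F : Type*) [Field F] [Finite F] : Finite (MonoidAlgebra F G) := by
  classical
  haveI := Fintype.ofFinite G
  haveI := Fintype.ofFinite F
  exact Finite.of_equiv (G →₀ F) (coeffEquiv (R := F) (M := G)).symm

/-- left multiplication action of a subgroup on a stable additive subgroup -/
noncomputable def actL (F : Type*) [Field F] (P : Subgroup G) (W : Submodule F (MonoidAlgebra F G))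
    (hW : ∀ u ∈ P, ∀ w ∈ W, single u (1:F) * w ∈ W) : MulAction P W where
  smul u w := ⟨single (u : G) (1:F) * w, hW u u.2 w w.2⟩
  one_smul w := by
    apply Subtype.ext
    show single ((1 : P) : G) (1:F) * (w : MonoidAlgebra F G) = w
    rw [Subgroup.coe_one, ← one_def, one_mul]
  mul_smul u v w := by
    apply Subtype.ext
    show single ((u * v : P) : G) (1:F) * (w : MonoidAlgebra F G)
      = single (u : G) (1:F) * (single (v : G) (1:F) * (w : MonoidAlgebra F G))
    rw [← mul_assoc, single_mul_single, one_mul, Subgroup.coe_mul]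

lemma exists_fixed [Finite G] {p : ℕ} [Fact p.Prime] (F : Type*) [Field F] [Finite F] [CharP F p]
    (P : Subgroup G) (hP : IsPGroup p P) (W : Submodule F (MonoidAlgebra F G))
    (hW : ∀ u ∈ P, ∀ w ∈ W, single u (1:F) * w ∈ W) (hne : W ≠ ⊥) :
    ∃ w ∈ W, w ≠ 0 ∧ ∀ u ∈ P, single u (1:F) * w = w := by
  letI := actL F P W hW
  haveI : Finite (MonoidAlgebra F G) := finMA F
  obtain ⟨w0, hw0, hw0ne⟩ := (Submodule.ne_bot_iff W).1 hne
  have hdvd : p ∣ Nat.card W := by
    have h1 : addOrderOf (⟨w0, hw0⟩ : W) = p := by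
      apply addOrderOf_eq_prime
      · apply Subtype.ext
        show p • w0 = 0
        rw [← Nat.cast_smul_eq_nsmul F, CharP.cast_eq_zero, zero_smul]
      · intro h
        exact hw0ne (congrArg Subtype.val h)
    rw [← h1]
    exact addOrderOf_dvd_natCard _
  have h0 : (0 : W) ∈ MulAction.fixedPoints P W := by
    intro u
    apply Subtype.ext
    show single (u : G) (1:F) * ((0 : W) : MonoidAlgebra F G) = ((0 : W) : MonoidAlgebra F G)
    simp
  obtain ⟨b, hb, hb0⟩ := hP.exists_fixed_point_of_prime_dvd_card_of_fixed_point W hdvd h0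
  refine ⟨b, b.2, fun h => hb0 (Subtype.ext h.symm), fun u hu => ?_⟩
  exact congrArg Subtype.val (hb ⟨u, hu⟩)

theorem nilp_fin [Finite G] {p : ℕ} [Fact p.Prime] (F : Type*) [Field F] [Finite F] [CharP F p]
    (P : Subgroup G) [hPn : P.Normal] (hP : IsPGroup p P) (K : Set G)
    (hK : ∀ g x, x ∈ K → g * x * g⁻¹ ∈ K)
    (hfix : ∀ x ∈ K, x ∉ Subgroup.centralizer (P : Set G)) :
    IsNilpotent (∑ᶠ x ∈ K, single x (1:F) : MonoidAlgebra F G) := by
  classical
  haveI : Finite (MonoidAlgebra F G) := finMA F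
  set a : MonoidAlgebra F G := ∑ᶠ x ∈ K, single x (1:F) with ha
  have hcomm : ∀ g : G, single g (1:F) * a = a * single g (1:F) := by
    intro g
    ext y
    rw [coeff_single_mul_apply, coeff_mul_single_apply, ha, coeff_cs, coeff_cs, one_mul, mul_one]
    have : g⁻¹ * y ∈ K ↔ y * g⁻¹ ∈ K := by
      constructor
      · intro h
        have := hK g _ h
        simpa [mul_assoc] using this
      · intro h
        have := hK g⁻¹ _ h
        simpa [mul_assoc] using this
    simp only [this]
  let T : Module.End F (MonoidAlgebra F G) := LinearMap.mulLeft F a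
  obtain ⟨n, hn, hn1⟩ := (T.eventually_disjoint_ker_pow_range_pow.and
    (Filter.eventually_ge_atTop 1)).exists
  have hT : T ^ n = LinearMap.mulLeft F (a ^ n) := LinearMap.pow_mulLeft F _ a n
  by_contra hnil
  have hne : LinearMap.range (T ^ n) ≠ ⊥ := by
    intro h
    apply hnil
    refine ⟨n, ?_⟩
    have : a ^ n ∈ LinearMap.range (T ^ n) := ⟨1, by rw [hT]; simp⟩
    rw [h] at this
    simpa using this
  have hcommn : ∀ g : G, single g (1:F) * a ^ n = a ^ n * single g (1:F) := by
    intro g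
    exact ((show Commute (single g (1:F)) a from hcomm g).pow_right n)
  obtain ⟨w, hwW, hw0, hwfix⟩ := exists_fixed F P hP (LinearMap.range (T ^ n)) (by
    rintro u hu _ ⟨b, rfl⟩
    refine ⟨single u (1:F) * b, ?_⟩
    rw [hT]
    simp only [LinearMap.mulLeft_apply]
    rw [← mul_assoc, ← mul_assoc, hcommn]) hne
  have haw : a * w = 0 := by
    apply cs_mul_fixed F P hP K hK hfix
    intro v hv z
    have := hwfix v⁻¹ (P.inv_mem hv)
    have h2 := congrArg (fun t => t.coeff z) this
    simp only [coeff_single_mul_apply, one_mul, inv_inv] at h2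
    exact h2
  have hker : w ∈ LinearMap.ker (T ^ n) := by
    rw [LinearMap.mem_ker]
    apply Module.End.pow_map_zero_of_le hn1
    simpa [T] using haw
  exact hw0 ((Submodule.mem_bot F).1 (hn.le_bot ⟨hker, hwW⟩))

/-- Let F be a field of characteristic p and let g be an element of the finite group G no conjugate of which centralizes O_p(G). Then the class sum of g is a nilpotent element of the group algebra F[G]. -/
theorem result {G : Type*} [Group G] [Finite G] (p : ℕ) [Fact p.Prime] (F : Type*) [Field F] [CharP F p] (g : G) (hg : ∀ x : G, IsConj g x → x ∉ Subgroup.centralizer (Cfsg.pCore p G : Set G)) : IsNilpotent (∑ᶠ x ∈ ConjClasses.carrier (ConjClasses.mk g), MonoidAlgebra.single x (1 : F) : MonoidAlgebra F G) := by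
  classical
  haveI : (Cfsg.pCore p G).Normal := Cfsg.Agent.Lib.Helper1.pCore_normal p
  have hP : IsPGroup p (Cfsg.pCore p G) := Cfsg.Agent.Lib.Helper1.pCore_isPGroup p
  have h0 := nilp_fin (p := p) (ZMod p) (Cfsg.pCore p G) hP
    (ConjClasses.carrier (ConjClasses.mk g)) (by
      intro t x hx
      rw [ConjClasses.mem_carrier_iff_mk_eq, ConjClasses.mk_eq_mk_iff_isConj] at hx ⊢
      exact (isConj_iff.2 ⟨t⁻¹, by group⟩ : IsConj (t * x * t⁻¹) x).trans hx) (by
      intro x hx
      rw [ConjClasses.mem_carrier_iff_mk_eq, ConjClasses.mk_eq_mk_iff_isConj] at hx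
      exact hg x hx.symm)
  have h1 := h0.map (mapRingHom G (ZMod.castHom (dvd_refl p) F))
  have h2 := (mapRingHom G (ZMod.castHom (dvd_refl p) F)).toAddMonoidHom.map_finsum_mem
    (fun x : G => single x (1 : ZMod p)) (Set.toFinite (ConjClasses.carrier (ConjClasses.mk g)))
  simp only [RingHom.toAddMonoidHom_eq_coe, AddMonoidHom.coe_coe, mapRingHom_single, map_one] at h2
  rw [h2] at h1
  exact h1

end Cfsg.Agent.S0905
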