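import Cfsg.Statements.S0911
import Cfsg.Agent.Lib.Helper7.BlockMinMax

set_option autoImplicit false
open Cfsg

namespace Cfsg.Agent.S0911

/-- The min–max Theorem for defect classes. Let B be a block of the finite group G relative to a maximal ideal M of the algebraic integers containing the prime p, let g represent a defect class of B and let D be a Sylow p-subgroup of the centralizer of g (viewed in G). For any h: (a) if the idempotent coefficient of B at h is a local integer outside the local ideal, then some conjugate of D contains a Sylow p-subgroup of the centralizer of h; (b) if the central character of some member of B at h is outside the local ideal, then some conjugate of D is contained in a Sylow p-subgroup of the centralizer of h. -/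
theorem result {G : Type*} [Group G] [Finite G] (p : ℕ) [Fact p.Prime] (M : Ideal Cfsg.AlgInt) (hM : Cfsg.IsPModular p M) (B : Set (Cfsg.IrrCharacter G)) (hB : Cfsg.IsPBlock M B) (g : G) (hg : Cfsg.IsDefectClass M B g) (D : Sylow p (Subgroup.centralizer ({g} : Set G))) (h : G) : (Cfsg.MemLocalRing M (Cfsg.blockCoeff B h) → ¬ Cfsg.MemLocalIdeal M (Cfsg.blockCoeff B h) → ∃ (x : G) (Q : Sylow p (Subgroup.centralizer ({h} : Set G))), (Q : Subgroup (Subgroup.centralizer ({h} : Set G))).map (Subgroup.centralizer ({h} : Set G)).subtype ≤ ((D : Subgroup (Subgroup.centralizer ({g} : Set G))).map (Subgroup.centralizer ({g} : Set G)).subtype).map (MulAut.conj x).toMonoidHom) ∧ ((∃ χ ∈ B, ¬ Cfsg.MemLocalIdeal M (Cfsg.centralChar (χ : G → ℂ) h)) → ∃ (x : G) (Q : Sylow p (Subgroup.centralizer ({h} : Set G))), ((D : Subgroup (Subgroup.centralizer ({g} : Set G))).map (Subgroup.centralizer ({g} : Set G)).subtype).map (MulAut.conj x).toMonoidHom ≤ (Q : Subgroup (Subgroup.centralizer ({h} : Set G))).map (Subgroup.centralizer ({h} : Set G)).subtype) := by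
  open Cfsg.Agent.Lib.Helper7 in
  classical
  haveI := hM.2.1.isPrime
  obtain ⟨χ0, hχ0⟩ := isPBlock_nonempty hB
  constructor
  · intro _ hh2
    obtain ⟨Q0⟩ : Nonempty (Sylow p (Subgroup.centralizer ({h} : Set G))) := inferInstance
    obtain ⟨t, ht⟩ := minmax_le hM hB (h := g) (k := h) ⟨χ0, hχ0, hg.2.2 χ0 hχ0⟩ hh2
      ((Q0 : Subgroup (Subgroup.centralizer ({h} : Set G))).map
        (Subgroup.centralizer ({h} : Set G)).subtype) (Q0.2.map _) (map_subtype_le _ _)
    obtain ⟨c, _, hc⟩ := exists_conj_sylow_map_ge _ D _ (isPGroup_map_conj (Q0.2.map _) t) ht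
    refine ⟨t⁻¹ * c, Q0, ?_⟩
    intro q hq
    have h1 : t * q * t⁻¹ ∈ ((Q0 : Subgroup (Subgroup.centralizer ({h} : Set G))).map
        (Subgroup.centralizer ({h} : Set G)).subtype).map (MulAut.conj t).toMonoidHom := by
      rw [mem_map_conj]
      simpa [mul_assoc] using hq
    have h2 := hc h1
    rw [mem_map_conj] at h2 ⊢
    convert h2 using 1
    group
  · intro hh
    obtain ⟨t, ht⟩ := minmax_le hM hB (h := h) (k := g) hh hg.2.1
      ((D : Subgroup (Subgroup.centralizer ({g} : Set G))).map
        (Subgroup.centralizer ({g} : Set G)).subtype) (D.2.map _) (map_subtype_le _ _)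
    obtain ⟨Q, hQ⟩ := exists_sylow_map_ge _ _ (isPGroup_map_conj (D.2.map _) t) ht
    exact ⟨t, Q, hQ⟩

end Cfsg.Agent.S0911
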