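import Cfsg.Statements.S0912
import Cfsg.Agent.Lib.Helper7.BlockNormal

set_option autoImplicit false
open Cfsg

namespace Cfsg.Agent.S0912

/-- Let B be a block of the finite group G relative to a maximal ideal M of the algebraic integers containing the prime p. Every defect group of B contains the largest normal p-subgroup O_p(G). -/
theorem result {G : Type*} [Group G] [Finite G] (p : ℕ) [Fact p.Prime] (M : Ideal Cfsg.AlgInt) (hM : Cfsg.IsPModular p M) (B : Set (Cfsg.IrrCharacter G)) (hB : Cfsg.IsPBlock M B) (D : Subgroup G) (hD : Cfsg.IsDefectGroup p M B D) : Cfsg.pCore p G ≤ D := by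
  apply sSup_le
  rintro N ⟨hN1, hN2⟩
  exact Cfsg.Agent.Lib.Helper7.normal_le_defectGroup hM hB hD N hN2

end Cfsg.Agent.S0912
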