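import Cfsg.Statements.S0914
import Cfsg.Agent.Lib.Helper7.BlockDefect

set_option autoImplicit false
open Cfsg

namespace Cfsg.Agent.S0914

/-- Let χ be an irreducible character of the finite group G, p a prime and M a maximal ideal of the algebraic integers containing p. Then p does not divide the integer (Nat.card G) / χ(1) if and only if the block of χ relative to M consists of χ alone. -/
theorem result {G : Type*} [Group G] [Finite G] (p : ℕ) [Fact p.Prime] (M : Ideal Cfsg.AlgInt) (hM : Cfsg.IsPModular p M) (χ : Cfsg.IrrCharacter G) : ¬ p ∣ Nat.card G / Cfsg.charDegree (χ : G → ℂ) ↔ Cfsg.blockOf M (χ : G → ℂ) = {χ} := by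
  exact ⟨Cfsg.Agent.Lib.Helper7.blockOf_eq_singleton_of_not_dvd hM χ,
    Cfsg.Agent.Lib.Helper7.not_dvd_of_blockOf_eq_singleton hM χ⟩

end Cfsg.Agent.S0914
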