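import Cfsg.Statements.S0915
import Cfsg.Agent.Lib.Helper7.BlockPCons2

set_option autoImplicit false
open Cfsg

namespace Cfsg.Agent.S0915

/-- Let G be a finite p-solvable group with trivial largest normal subgroup of order prime to p. Then any two irreducible characters of G lie in the same block relative to every maximal ideal M of the algebraic integers containing p: G has a single p-block. -/
theorem result {G : Type*} [Group G] [Finite G] (p : ℕ) [Fact p.Prime] (M : Ideal Cfsg.AlgInt) (hM : Cfsg.IsPModular p M) (hsolv : Cfsg.IsPSolvable p G) (hcore : Cfsg.pPrimeCore p G = ⊥) (χ ψ : Cfsg.IrrCharacter G) : Cfsg.SameBlock M (χ : G → ℂ) (ψ : G → ℂ) := by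
  classical
  cases nonempty_fintype G
  haveI := Cfsg.Agent.Lib.Helper7.IsPModular.isPrime hM
  have hcons := Cfsg.Agent.Lib.Helper7.isPConstrained_of_isPSolvable hsolv
  obtain ⟨P0⟩ : Nonempty (Sylow p ↥(Cfsg.pPrimePCore p G)) := inferInstance
  have hQS : ¬ p ∣ ((P0 : Subgroup ↥(Cfsg.pPrimePCore p G)).map
      (Cfsg.pPrimePCore p G).subtype).relIndex (Cfsg.pPrimePCore p G) := by
    have h1 : ((P0 : Subgroup ↥(Cfsg.pPrimePCore p G)).map
      (Cfsg.pPrimePCore p G).subtype).subgroupOf (Cfsg.pPrimePCore p G) = P0 :=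
      Subgroup.comap_map_eq_self_of_injective (Subgroup.subtype_injective _) _
    unfold Subgroup.relIndex
    rw [h1]
    exact P0.not_dvd_index
  haveI : Fintype (Cfsg.pPrimeCore p G) := Fintype.ofFinite _
  haveI hsub : Subsingleton (Cfsg.pPrimeCore p G) := by
    rw [hcore]; infer_instance
  obtain ⟨B, hB, hmem, hd⟩ := Cfsg.Agent.Lib.Helper7.fong_pconstrained hM (Cfsg.pPrimeCore p G) rfl
    (Subgroup.map_subtype_le _) (P0.2.map _) hQS (hcons P0)
    ⟨fun _ => 1, Cfsg.Agent.Lib.Helper7.isIrrCharacter_one⟩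
    (fun g => Subtype.ext (funext fun n => rfl))
  have key : ∀ φ : Cfsg.IrrCharacter G, φ ∈ B := by
    intro φ
    rw [hmem]
    unfold Cfsg.classInner
    rw [Fintype.sum_subsingleton _ (1 : Cfsg.pPrimeCore p G)]
    have h1 : Nat.card (Cfsg.pPrimeCore p G) = 1 := Nat.card_of_subsingleton 1
    simp [h1, Cfsg.Agent.Lib.Helper7.irr_apply_one_ne_zero φ.2]
  exact Cfsg.Agent.Lib.Helper7.sameBlock_of_mem hB (key χ) (key ψ)

end Cfsg.Agent.S0915
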