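import Cfsg.Statements.S0916
import Cfsg.Agent.Lib.Helper7.BlockFMT

set_option autoImplicit false
open Cfsg

namespace Cfsg.Agent.S0916

/-- Let P be a p-subgroup of the finite group G, C its centralizer and N its normalizer. Say that a conjugacy class (of G, or of N) has defect group P when P is a Sylow p-subgroup of the centralizer (in G, respectively in N) of some element of the class. Then: (i) if the class of g in G has defect group P, the elements of that class lying in C form a single N-class, again with defect group P; (ii) every N-class with defect group P arises this way from exactly one G-class with defect group P. -/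
theorem result {G : Type*} [Group G] [Finite G] (p : ℕ) [Fact p.Prime] (P : Subgroup G) (hP : IsPGroup p P) : (∀ g : G, (∃ S : Sylow p (Subgroup.centralizer ({g} : Set G)), (S : Subgroup (Subgroup.centralizer ({g} : Set G))).map (Subgroup.centralizer ({g} : Set G)).subtype = P) → (∃ c : G, IsConj g c ∧ c ∈ Subgroup.centralizer (P : Set G)) ∧ (∀ c₁ c₂ : G, IsConj g c₁ → IsConj g c₂ → c₁ ∈ Subgroup.centralizer (P : Set G) → c₂ ∈ Subgroup.centralizer (P : Set G) → ∃ n ∈ Subgroup.normalizer (P : Set G), n * c₁ * n⁻¹ = c₂)) ∧ (∀ c : G, c ∈ Subgroup.centralizer (P : Set G) → (∃ S : Sylow p (Subgroup.centralizer ({c} : Set G) ⊓ Subgroup.normalizer (P : Set G) : Subgroup G), (S : Subgroup ↥(Subgroup.centralizer ({c} : Set G) ⊓ Subgroup.normalizer (P : Set G))).map (Subgroup.centralizer ({c} : Set G) ⊓ Subgroup.normalizer (P : Set G)).subtype = P) → ∃ S : Sylow p (Subgroup.centralizer ({c} : Set G)), (S : Subgroup (Subgroup.centralizer ({c} : Set G))).map (Subgroup.centralizer ({c} : Set G)).subtype = P) := by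
  constructor
  · rintro g ⟨S, hS⟩
    have hgC : g ∈ Subgroup.centralizer (P : Set G) := by
      rw [Subgroup.mem_centralizer_iff]
      intro d hd
      have h1 : d ∈ Subgroup.centralizer ({g} : Set G) := by
        have : d ∈ (S : Subgroup (Subgroup.centralizer ({g} : Set G))).map
            (Subgroup.centralizer ({g} : Set G)).subtype := hS ▸ hd
        exact Cfsg.Agent.Lib.Helper7.map_subtype_le _ _ this
      rw [Subgroup.mem_centralizer_singleton_iff] at h1
      exact h1
    refine ⟨⟨g, IsConj.refl g, hgC⟩, ?_⟩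
    intro c₁ c₂ h1 h2 hc1 hc2
    obtain ⟨n₁, hn₁, e₁⟩ := Cfsg.Agent.Lib.Helper7.exists_normalizer_conj hP S hS hc1 h1
    obtain ⟨n₂, hn₂, e₂⟩ := Cfsg.Agent.Lib.Helper7.exists_normalizer_conj hP S hS hc2 h2
    refine ⟨n₂ * n₁⁻¹, Subgroup.mul_mem _ hn₂ (Subgroup.inv_mem _ hn₁), ?_⟩
    rw [← e₁, ← e₂]
    group
  · rintro c hc ⟨S, hS⟩
    have hPc : P ≤ Subgroup.centralizer ({c} : Set G) := by
      intro d hd
      rw [Subgroup.mem_centralizer_singleton_iff]
      exact Subgroup.mem_centralizer_iff.1 hc d hd
    obtain ⟨T, hT⟩ := Cfsg.Agent.Lib.Helper7.exists_sylow_map_ge _ P hP hPc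
    refine ⟨T, ?_⟩
    by_contra hne
    obtain ⟨v, hvQ, hvN, hvD⟩ := Cfsg.Agent.Lib.Helper9.normalizer_growth (T.2.map _) hT (Ne.symm hne)
    have hvC : v ∈ Subgroup.centralizer ({c} : Set G) := Cfsg.Agent.Lib.Helper7.map_subtype_le _ _ hvQ
    have hp2 : IsPGroup p (((T : Subgroup (Subgroup.centralizer ({c} : Set G))).map
        (Subgroup.centralizer ({c} : Set G)).subtype).subgroupOf
        (Subgroup.centralizer ({c} : Set G) ⊓ Subgroup.normalizer (P : Set G))) :=
      (T.2.map _).comap_subtype
    have hSle : (S : Subgroup ↥(Subgroup.centralizer ({c} : Set G) ⊓ Subgroup.normalizer (P : Set G)))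
        ≤ ((T : Subgroup (Subgroup.centralizer ({c} : Set G))).map
        (Subgroup.centralizer ({c} : Set G)).subtype).subgroupOf
        (Subgroup.centralizer ({c} : Set G) ⊓ Subgroup.normalizer (P : Set G)) := by
      intro s hs
      rw [Subgroup.mem_subgroupOf]
      exact hT (hS.le ⟨s, hs, rfl⟩)
    have hmax := S.is_maximal' hp2 hSle
    have hv2 : (⟨v, hvC, hvN⟩ : ↥(Subgroup.centralizer ({c} : Set G) ⊓ Subgroup.normalizer (P : Set G)))
        ∈ ((T : Subgroup (Subgroup.centralizer ({c} : Set G))).map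
        (Subgroup.centralizer ({c} : Set G)).subtype).subgroupOf
        (Subgroup.centralizer ({c} : Set G) ⊓ Subgroup.normalizer (P : Set G)) :=
      Subgroup.mem_subgroupOf.2 hvQ
    rw [hmax] at hv2
    exact hvD (hS.le ⟨_, hv2, rfl⟩)

end Cfsg.Agent.S0916
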