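import Cfsg.Statements.S0918
import Cfsg.Agent.Lib.Helper7.BlockBrauer

set_option autoImplicit false
open Cfsg

namespace Cfsg.Agent.S0918

/-- Let P be a p-subgroup of the finite group G and H a subgroup with P·C_G(P) ≤ H ≤ N_G(P); let b be a block of H and B a block of G relative to a maximal ideal M of the algebraic integers containing p. Then b induces B if and only if, for every g ∈ G, every ξ ∈ b and every χ ∈ B, the central character of χ at g is congruent modulo the local ideal at M to the sum of ξ h / ξ 1 over the elements h of H conjugate in G to g and centralizing P. -/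
theorem result {G : Type*} [Group G] [Finite G] (p : ℕ) [Fact p.Prime] (M : Ideal Cfsg.AlgInt) (hM : Cfsg.IsPModular p M) (P H : Subgroup G) (hP : IsPGroup p P) (hPH : P ≤ H) (hCH : Subgroup.centralizer (P : Set G) ≤ H) (hHN : H ≤ Subgroup.normalizer (P : Set G)) (b : Set (Cfsg.IrrCharacter H)) (hb : Cfsg.IsPBlock M b) (B : Set (Cfsg.IrrCharacter G)) (hB : Cfsg.IsPBlock M B) : Cfsg.IsInducedBlock M H b B ↔ ∀ ξ ∈ b, ∀ χ ∈ B, ∀ g : G, Cfsg.MemLocalIdeal M (Cfsg.brauerCentralChar P H (ξ : H → ℂ) g - Cfsg.centralChar (χ : G → ℂ) g) := by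
  open Cfsg.Agent.Lib.Helper7 in
  classical
  haveI := hM.2.1.isPrime
  haveI := Fintype.ofFinite G
  haveI : Fintype H := Fintype.ofFinite H
  have key : ∀ (ξ : Cfsg.IrrCharacter H) (g : G), MemLocalIdeal M
      (Cfsg.inducedCentralChar H (ξ : H → ℂ) g - Cfsg.brauerCentralChar P H (ξ : H → ℂ) g) := by
    intro ξ g
    have hc : IsClassFunction G (fun x => if IsConj g x then (1 : ℂ) else 0) :=
      isClassFunction_indicator g
    have hcS : ∀ x, MemLocalRing M ((fun x => if IsConj g x then (1 : ℂ) else 0) x) := by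
      intro x; simp only; split_ifs; exacts [memLocalRing_one, memLocalRing_zero]
    rw [inducedCentralChar_eq_Om, brauerCentralChar_eq_Om]
    exact Om_resH_sub_brH hM hP hPH hHN hc hcS ξ
  constructor
  · intro hind ξ hξ χ hχ g
    have := memLocalIdeal_sub (hind.2.2 ξ hξ χ hχ g) (key ξ g)
    convert this using 1
    ring
  · intro h
    refine ⟨hb, hB, ?_⟩
    intro ξ hξ χ hχ g
    have := memLocalIdeal_add (h ξ hξ χ hχ g) (key ξ g)
    convert this using 1
    ring

end Cfsg.Agent.S0918
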