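import Cfsg.Statements.S0926
import Cfsg.Agent.Lib.Helper7.BlockHeight

set_option autoImplicit false
open Cfsg

namespace Cfsg.Agent.S0926

/-- Let B be a block of the finite group G with defect group D (relative to a maximal ideal M of the algebraic integers containing p), let χ ∈ B have height zero, and let x be a p-element. Then some conjugate of x lies in D if and only if χ does not vanish on the whole p-section of x (the elements whose p-part is conjugate to x). -/
theorem result {G : Type*} [Group G] [Finite G] (p : ℕ) [Fact p.Prime] (M : Ideal Cfsg.AlgInt) (hM : Cfsg.IsPModular p M) (B : Set (Cfsg.IrrCharacter G)) (hB : Cfsg.IsPBlock M B) (D : Subgroup G) (hD : Cfsg.IsDefectGroup p M B D) (χ : Cfsg.IrrCharacter G) (hχ : χ ∈ B) (h0 : Cfsg.blockHeight p B (χ : G → ℂ) = 0) (x : G) (hx : ∃ k : ℕ, orderOf x = p ^ k) : (∃ g : G, g * x * g⁻¹ ∈ D) ↔ ∃ u : G, (∃ z : G, Cfsg.IsPPart p u z ∧ IsConj x z) ∧ (χ : G → ℂ) u ≠ 0 := by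
  open Cfsg.Agent.Lib.Helper7 in
  classical
  haveI := hM.2.1.isPrime
  constructor
  · rintro ⟨g, hg⟩
    obtain ⟨y, hy, P, rfl⟩ := hD
    obtain ⟨x', hx', hx'g⟩ := hg
    have hxy : Commute (g * x * g⁻¹) y := by
      have := x'.2
      rw [Subgroup.mem_centralizer_singleton_iff] at this
      rw [← hx'g]
      exact this
    have hxp : ∃ k : ℕ, orderOf (g * x * g⁻¹) = p ^ k := by
      obtain ⟨k, hk⟩ := hx
      exact ⟨k, by rw [← hk]; exact (MulAut.conj g).orderOf_eq x⟩
    refine ⟨g * x * g⁻¹ * y, ⟨g * x * g⁻¹, ⟨y, rfl, hxy, hxp, regular_of_blockCoeff hM hB hy.2.1⟩,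
      isConj_iff.2 ⟨g, rfl⟩⟩, ?_⟩
    exact ne_zero_of_not_memLocalIdeal
      (not_memLocalIdeal_height_zero_mul hM hB hy hχ h0 hxy hxp)
  · rintro ⟨u, ⟨z, hz, hxz⟩, hu⟩
    by_contra hcon
    apply hu
    apply char_eq_zero_of_pPart_not_mem hM hB hχ hz
    intro D' hD' hzD'
    apply hcon
    obtain ⟨t, ht⟩ := defectGroup_le_conj hM hB hD hD'
    have h1 := ht hzD'
    rw [mem_map_conj] at h1
    obtain ⟨s, rfl⟩ := isConj_iff.1 hxz
    refine ⟨t⁻¹ * s, ?_⟩
    convert h1 using 1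
    group

end Cfsg.Agent.S0926
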