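import Cfsg.Statements.S0932
import Cfsg.Agent.Lib.Helper7.BlockFR

set_option autoImplicit false
open Cfsg

namespace Cfsg.Agent.S0932

/-- Let H be a subgroup of the finite group G and ξ a character of H. For every g ∈ G, the sum of ξ h / ξ 1 over the elements h ∈ H that are conjugate in G to g equals the central character at g of the character of G induced from ξ (class size times value divided by degree). -/
theorem result {G : Type*} [Group G] [Fintype G] (H : Subgroup G) (ξ : H → ℂ) (hξ : Cfsg.IsCharacter H ξ) (g : G) : Cfsg.inducedCentralChar H ξ g = Cfsg.centralChar (Cfsg.indFun H ξ) g := by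
  classical
  haveI : Fintype H := Fintype.ofFinite _
  have hc := Cfsg.Agent.Lib.Helper7.isClassFunction_indicator g
  have h1 := Cfsg.Agent.Lib.Helper7.sum_indFun_mul H ξ hc
  have h2 := Cfsg.Agent.Lib.Helper7.sum_isConj_mul g
    (Cfsg.Agent.Lib.Helper25.indFun_isClassFunction H ξ)
  have h3 := Cfsg.Agent.Lib.Helper25.indFun_one H ξ
  have hi : (H.index : ℂ) ≠ 0 := by exact_mod_cast H.index_ne_zero_of_finite
  have e1 : ∑ x, Cfsg.indFun H ξ x * (if IsConj g x then (1 : ℂ) else 0)
      = ∑ x, (if IsConj g x then (1 : ℂ) else 0) * Cfsg.indFun H ξ x :=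
    Finset.sum_congr rfl (fun _ _ => mul_comm _ _)
  rw [e1, h2] at h1
  rw [Cfsg.centralChar, h1, h3, Cfsg.inducedCentralChar,
    Cfsg.Agent.Lib.Helper7.finsum_mem_eq_sum_indicator, mul_div_mul_left _ _ hi, Finset.sum_div]
  apply Finset.sum_congr rfl
  intro h _
  by_cases hh : IsConj g (h : G)
  · rw [Set.indicator_of_mem (by exact hh), if_pos hh, mul_one]
  · rw [Set.indicator_of_notMem (by exact hh), if_neg hh, mul_zero, zero_div]

end Cfsg.Agent.S0932
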