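import Cfsg.Statements.S0946
import Cfsg.Agent.Lib.Helper2.Homo2

set_option autoImplicit false
open Cfsg

namespace Cfsg.Agent.S0946

open Cfsg.Agent.Lib.Helper2

/-- Let P be a Sylow 2-subgroup of the finite group G isomorphic to Z/2^m × Z/2^m with m ≥ 1. Then either P has a normal complement in G, or all involutions of G are conjugate. -/
theorem result {G : Type*} [Group G] [Finite G] (P : Sylow 2 G) (m : ℕ) (hm : 1 ≤ m) (e : (P : Subgroup G) ≃* Multiplicative (ZMod (2 ^ m) × ZMod (2 ^ m))) : (∃ N : Subgroup G, N.Normal ∧ Subgroup.IsComplement' N (P : Subgroup G)) ∨ ∀ s t : G, orderOf s = 2 → orderOf t = 2 → IsConj s t := by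
  have h := (rank2_of_equiv P m hm e).1
  rcases h.relIndex_eq with h1 | h3
  · left
    have hle : Subgroup.normalizer ((P : Subgroup G) : Set G)
        ≤ Subgroup.centralizer ((P : Subgroup G) : Set G) :=
      Subgroup.relIndex_eq_one.1 h1
    exact ⟨(MonoidHom.transferSylow P hle).ker, inferInstance,
      MonoidHom.ker_transferSylow_isComplement' P hle⟩
  · right
    have hF := h.freeHyp
    rw [h3] at hF
    -- all involutions of `P` are conjugate
    have key : ∀ s t : ↥(P : Subgroup G), s ≠ 1 → s * s = 1 → t ≠ 1 → t * t = 1 →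
        IsConj (s : G) (t : G) := by
      intro s t hs1 hs2 ht1 ht2
      by_contra hne
      classical
      obtain ⟨a, b, hab⟩ := h.omega
      have hsub : insert (t : G) (Subtype.val ''
          (MulAction.orbit (Subgroup.normalizer ((P : Subgroup G) : Set G)) s))
          ⊆ (({a, b, a * b} : Finset G) : Set G) := by
        intro v hv
        rcases hv with rfl | ⟨_, ⟨x, rfl⟩, rfl⟩
        · have := (hab t t.2 (by exact_mod_cast congrArg Subtype.val ht2)).resolve_left
            (fun h0 => ht1 (Subtype.ext h0))
          simpa using this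
        · have hs2' : (x • s) * (x • s) = 1 := by rw [← smul_mul', hs2, smul_one]
          have hs1' : x • s ≠ 1 := by
            intro h0
            apply hs1
            have : x⁻¹ • (x • s) = x⁻¹ • (1 : ↥(P : Subgroup G)) := by rw [h0]
            rwa [inv_smul_smul, smul_one] at this
          have := (hab (x • s : ↥(P : Subgroup G)) (x • s : ↥(P : Subgroup G)).2
            (by exact_mod_cast congrArg Subtype.val hs2')).resolve_left
            (fun h0 => hs1' (Subtype.ext h0))
          simpa using this
      have h5 := Set.ncard_le_ncard hsub (Finset.finite_toSet _)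
      rw [Set.ncard_insert_of_notMem, Set.ncard_image_of_injective _ Subtype.val_injective,
        hF.ncard_orbit_elt hs1, Set.ncard_coe_finset] at h5
      · have h4 : ({a, b, a * b} : Finset G).card ≤ 3 := Finset.card_le_three
        omega
      · rintro ⟨_, ⟨x, rfl⟩, hx⟩
        apply hne
        rw [isConj_iff]
        refine ⟨x, ?_⟩
        rw [← hx]
        rfl
    intro s t hs ht
    have hconj : ∀ s : G, orderOf s = 2 → ∃ s' : ↥(P : Subgroup G), s' ≠ 1 ∧ s' * s' = 1 ∧
        IsConj s (s' : G) := by
      intro s hs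
      obtain ⟨g, hg⟩ := Cfsg.Agent.Lib.Helper14.exists_conj_mem_sylow P (Subgroup.zpowers s)
        (Cfsg.Agent.Lib.Helper14.isPGroup_zpowers (k := 1) (by
          rw [pow_one, ← hs, pow_orderOf_eq_one]))
      have hss : s * s = 1 := by rw [← pow_two, ← hs, pow_orderOf_eq_one]
      have hs1 : s ≠ 1 := by
        rintro rfl
        rw [orderOf_one] at hs
        omega
      refine ⟨⟨g * s * g⁻¹, hg s (Subgroup.mem_zpowers s)⟩, ?_, ?_, isConj_iff.2 ⟨g, rfl⟩⟩
      · intro h0
        apply hs1
        have h1 : g * s * g⁻¹ = 1 := congrArg Subtype.val h0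
        have : s = g⁻¹ * (g * s * g⁻¹) * g := by group
        rw [this, h1]; group
      · apply Subtype.ext
        show g * s * g⁻¹ * (g * s * g⁻¹) = 1
        calc g * s * g⁻¹ * (g * s * g⁻¹) = g * (s * s) * g⁻¹ := by group
          _ = 1 := by rw [hss]; group
    obtain ⟨s', hs1, hs2, hsc⟩ := hconj s hs
    obtain ⟨t', ht1, ht2, htc⟩ := hconj t ht
    exact hsc.trans ((key s' t' hs1 hs2 ht1 ht2).trans htc.symm)

end Cfsg.Agent.S0946
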