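import Cfsg.Statements.S0948
import Cfsg.Agent.Lib.Helper24.KleinBlock

set_option autoImplicit false
open Cfsg

namespace Cfsg.Agent.S0948

open Cfsg.Agent.Lib.Helper7 Cfsg.Agent.Lib.Helper24


/-- Let the finite group G have a Sylow 2-subgroup P that is a Klein four-group, suppose all involutions of G are conjugate, and fix a maximal ideal M of the algebraic integers containing 2. Then the principal block consists of exactly four irreducible characters, the principal character and ζ₂, ζ₃, ζ₄, and there is a sign ε such that for every involution z: ζ₂ z = 1, ζ₃ z = ε, ζ₄ z = -1; moreover ζ₂ 1 ≡ 1, ζ₃ 1 ≡ ε, ζ₄ 1 ≡ -1 (mod 4), and 1 + ζ₂ y + ε ζ₃ y - ζ₄ y = 0 for every y of odd order. -/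
theorem result {G : Type*} [Group G] [Finite G] (M : Ideal Cfsg.AlgInt) (hM : Cfsg.IsPModular 2 M) (P : Sylow 2 G) (hP : IsKleinFour (P : Subgroup G)) (hone : ∀ s t : G, orderOf s = 2 → orderOf t = 2 → IsConj s t) : ∃ ζ₂ ζ₃ ζ₄ : Cfsg.IrrCharacter G, ∃ ε : ℤ, (ε = 1 ∨ ε = -1) ∧ (ζ₂ : G → ℂ) ≠ (fun _ => 1) ∧ (ζ₃ : G → ℂ) ≠ (fun _ => 1) ∧ ζ₂ ≠ ζ₃ ∧ ζ₂ ≠ ζ₄ ∧ ζ₃ ≠ ζ₄ ∧ Cfsg.principalBlock M G = {χ : Cfsg.IrrCharacter G | (χ : G → ℂ) = (fun _ => 1) ∨ χ = ζ₂ ∨ χ = ζ₃ ∨ χ = ζ₄} ∧ (∀ z : G, orderOf z = 2 → (ζ₂ : G → ℂ) z = 1 ∧ (ζ₃ : G → ℂ) z = (ε : ℂ) ∧ (ζ₄ : G → ℂ) z = -1) ∧ (4 : ℤ) ∣ (Cfsg.charDegree (ζ₂ : G → ℂ) : ℤ) - 1 ∧ (4 : ℤ) ∣ (Cfsg.charDegree (ζ₃ : G → ℂ) : ℤ) - ε ∧ (4 : ℤ) ∣ (Cfsg.charDegree (ζ₄ : G → ℂ) : ℤ) + 1 ∧ ∀ y : G, Odd (orderOf y) → 1 + (ζ₂ : G → ℂ) y + (ε : ℂ) * (ζ₃ : G → ℂ) y - (ζ₄ : G → ℂ) y = 0 := by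
  classical
  haveI := hM.2.1.isPrime
  haveI := Fintype.ofFinite (Cfsg.IrrCharacter G)
  have hK : KleinHyp G := ⟨⟨P, hP.card_four, fun x => IsKleinFour.mul_self (G := (P : Subgroup G)) x⟩, hone⟩
  obtain ⟨n, hn⟩ := hK.exists_value
  set F := Finset.univ.filter (· ∈ Cfsg.principalBlock M G) with hF
  have hcard : F.card = 4 := hK.card_eq hM
  have hval : ∀ χ ∈ F, n χ = 1 ∨ n χ = -1 := fun χ hχ =>
    hK.value_eq hM hn (Finset.mem_filter.1 hχ).2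
  have hoF : oneIrr G ∈ F := by simp [hF, oneIrr_mem_principalBlock]
  have hn1 : n (oneIrr G) = 1 := hK.value_one hn
  have horth : ∀ y : G, ¬ 2 ∣ orderOf y → ∑ χ ∈ F, (n χ : ℂ) * (χ : G → ℂ) y = 0 :=
    fun y hy => hK.orth hM hn hy
  have hdeg : ∑ χ ∈ F.erase (oneIrr G), n χ * (Cfsg.charDegree (χ : G → ℂ) : ℤ) = -1 := by
    have h1 := horth 1 (by simp)
    rw [← Finset.add_sum_erase _ _ hoF, hn1] at h1
    have h2 : (oneIrr G : G → ℂ) 1 = 1 := rfl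
    rw [h2] at h1
    have h3 : ∑ χ ∈ F.erase (oneIrr G), (n χ : ℂ) * (χ : G → ℂ) 1
        = ((∑ χ ∈ F.erase (oneIrr G), n χ * (Cfsg.charDegree (χ : G → ℂ) : ℤ) : ℤ) : ℂ) := by
      push_cast
      apply Finset.sum_congr rfl
      intro χ _
      rw [charDegree_cast (isCharacter_of_irr χ.2)]
    rw [h3] at h1
    have h4 : (1 : ℤ) + ∑ χ ∈ F.erase (oneIrr G), n χ * (Cfsg.charDegree (χ : G → ℂ) : ℤ) = 0 := by
      exact_mod_cast h1
    linarith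
  have hcard' : (F.erase (oneIrr G)).card = 3 := by
    rw [Finset.card_erase_of_mem hoF, hcard]
  have hdpos : ∀ χ : Cfsg.IrrCharacter G, (1 : ℤ) ≤ (Cfsg.charDegree (χ : G → ℂ) : ℤ) := by
    intro χ
    exact_mod_cast charDegree_pos χ
  obtain ⟨ζ₄, hζ₄, hn₄⟩ : ∃ ζ ∈ F.erase (oneIrr G), n ζ = -1 := by
    by_contra hcon
    have h1 : 0 ≤ ∑ χ ∈ F.erase (oneIrr G), n χ * (Cfsg.charDegree (χ : G → ℂ) : ℤ) := by
      apply Finset.sum_nonneg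
      intro χ hχ
      rcases hval χ (Finset.mem_of_mem_erase hχ) with h | h
      · rw [h, one_mul]; linarith [hdpos χ]
      · exact absurd ⟨χ, hχ, h⟩ hcon
    linarith
  obtain ⟨ζ₂, hζ₂, hn₂⟩ : ∃ ζ ∈ F.erase (oneIrr G), n ζ = 1 := by
    by_contra hcon
    have h1 : ∑ χ ∈ F.erase (oneIrr G), n χ * (Cfsg.charDegree (χ : G → ℂ) : ℤ)
        ≤ ∑ _χ ∈ F.erase (oneIrr G), (-1 : ℤ) := by
      apply Finset.sum_le_sum
      intro χ hχ
      rcases hval χ (Finset.mem_of_mem_erase hχ) with h | h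
      · exact absurd ⟨χ, hχ, h⟩ hcon
      · rw [h]; linarith [hdpos χ]
    rw [Finset.sum_const, hcard', hdeg] at h1
    norm_num at h1
  have h24 : ζ₂ ≠ ζ₄ := by
    intro h
    rw [h, hn₄] at hn₂
    norm_num at hn₂
  have hζ₄' : ζ₄ ∈ (F.erase (oneIrr G)).erase ζ₂ := Finset.mem_erase.2 ⟨h24.symm, hζ₄⟩
  have hcard'' : (((F.erase (oneIrr G)).erase ζ₂).erase ζ₄).card = 1 := by
    rw [Finset.card_erase_of_mem hζ₄', Finset.card_erase_of_mem hζ₂, hcard']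
  obtain ⟨ζ₃, hζ₃⟩ := Finset.card_eq_one.1 hcard''
  have hζ₃m : ζ₃ ∈ ((F.erase (oneIrr G)).erase ζ₂).erase ζ₄ := by
    rw [hζ₃]; exact Finset.mem_singleton_self _
  simp only [Finset.mem_erase] at hζ₃m
  obtain ⟨h34, h32, h31, hζ₃F⟩ := hζ₃m
  have h21 : ζ₂ ≠ oneIrr G := (Finset.mem_erase.1 hζ₂).1
  have h41 : ζ₄ ≠ oneIrr G := (Finset.mem_erase.1 hζ₄).1
  have hFeq : F = {oneIrr G, ζ₂, ζ₃, ζ₄} := by
    ext χ
    simp only [Finset.mem_insert, Finset.mem_singleton]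
    constructor
    · intro hχ
      by_cases c1 : χ = oneIrr G
      · exact Or.inl c1
      by_cases c2 : χ = ζ₂
      · exact Or.inr (Or.inl c2)
      by_cases c4 : χ = ζ₄
      · exact Or.inr (Or.inr (Or.inr c4))
      have : χ ∈ ((F.erase (oneIrr G)).erase ζ₂).erase ζ₄ := by
        simp only [Finset.mem_erase]
        exact ⟨c4, c2, c1, hχ⟩
      rw [hζ₃, Finset.mem_singleton] at this
      exact Or.inr (Or.inr (Or.inl this))
    · rintro (h | h | h | h)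
      · rw [h]; exact hoF
      · rw [h]; exact Finset.mem_of_mem_erase hζ₂
      · rw [h]; exact hζ₃F
      · rw [h]; exact Finset.mem_of_mem_erase hζ₄
  have hone_iff : ∀ χ : Cfsg.IrrCharacter G, (χ : G → ℂ) = (fun _ => 1) ↔ χ = oneIrr G := by
    intro χ
    constructor
    · intro h; exact Subtype.ext h
    · intro h; rw [h]; rfl
  refine ⟨ζ₂, ζ₃, ζ₄, n ζ₃, hval ζ₃ hζ₃F, fun h => h21 ((hone_iff _).1 h),
    fun h => h31 ((hone_iff _).1 h), fun h => h32 h.symm, h24, h34, ?_, ?_, ?_, ?_, ?_, ?_⟩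
  · ext χ
    have h1 : χ ∈ Cfsg.principalBlock M G ↔ χ ∈ F := by simp [hF]
    rw [h1, hFeq]
    simp only [Finset.mem_insert, Finset.mem_singleton, Set.mem_setOf_eq, hone_iff]
  · intro z hz
    refine ⟨?_, hn ζ₃ z hz, ?_⟩
    · rw [hn ζ₂ z hz, hn₂]; simp
    · rw [hn ζ₄ z hz, hn₄]; simp
  · have := hK.mod_four hn ζ₂
    rwa [hn₂] at this
  · exact hK.mod_four hn ζ₃
  · have := hK.mod_four hn ζ₄
    rw [hn₄] at this
    simpa using this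
  · intro y hy
    have h1 := horth y (fun h => (Nat.not_even_iff_odd.2 hy) (even_iff_two_dvd.2 h))
    rw [hFeq, Finset.sum_insert (by simp [h21.symm, h31.symm, h41.symm]),
      Finset.sum_insert (by simp [h24, Ne.symm h32]), Finset.sum_insert (by simp [h34]),
      Finset.sum_singleton, hn1, hn₂, hn₄] at h1
    have h2 : (oneIrr G : G → ℂ) y = 1 := rfl
    rw [h2] at h1
    push_cast at h1
    linear_combination h1

end Cfsg.Agent.S0948
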