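import Cfsg.Statements.S0949
import Cfsg.Agent.Lib.Helper2.Homo3

set_option autoImplicit false
open Cfsg

namespace Cfsg.Agent.S0949

open Cfsg.Agent.Lib.Helper2

/-- Let the finite group G have a Sylow 2-subgroup P isomorphic to Z/2^m × Z/2^m with m ≥ 2, and suppose G has no nontrivial normal subgroup of odd order. Then P is normal in G, C_G(P) = P, and the index of P is 1 or 3. -/
theorem result {G : Type*} [Group G] [Finite G] (P : Sylow 2 G) (m : ℕ) (hm : 2 ≤ m) (e : (P : Subgroup G) ≃* Multiplicative (ZMod (2 ^ m) × ZMod (2 ^ m))) (hO : ∀ N : Subgroup G, N.Normal → Odd (Nat.card N) → N = ⊥) : (P : Subgroup G).Normal ∧ Subgroup.centralizer (P : Set G) = (P : Subgroup G) ∧ ((P : Subgroup G).index = 1 ∨ (P : Subgroup G).index = 3) := by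
  have hcoe : (P : Set G) = ((P : Subgroup G) : Set G) := rfl
  rw [hcoe]
  obtain ⟨h, hcard⟩ := rank2_of_equiv P m (by omega) e
  have hN : (P : Subgroup G).Normal := homocyclic_normal m hm _ G P rfl ⟨e⟩ hO
  haveI := hN
  haveI : (Subgroup.centralizer ((P : Subgroup G) : Set G)).Normal := Subgroup.normal_centralizer
  have hPC := h.le_centralizer
  have hC : Subgroup.centralizer ((P : Subgroup G) : Set G) = (P : Subgroup G) := by
    obtain ⟨k, hk⟩ := Cfsg.Agent.Lib.Helper24.index_pPrimeCore_of_normalizer_le (P.subtype hPC) (by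
      intro x _
      rw [Sylow.coe_subtype, Subgroup.mem_centralizer_iff]
      intro y hy
      have hy' : (y : G) ∈ (P : Subgroup G) := hy
      have hx := x.2
      rw [Subgroup.mem_centralizer_iff] at hx
      exact Subtype.ext (hx y hy'))
    have h2 := Cfsg.Agent.Lib.Helper24.SC.pPrimeCore_map_le 2
      (Subgroup.centralizer ((P : Subgroup G) : Set G))
    rw [pPrimeCore_two_eq_bot hO, le_bot_iff, Subgroup.map_eq_bot_iff_of_injective _
      (Subgroup.subtype_injective _)] at h2
    rw [h2, Subgroup.index_bot] at hk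
    exact P.is_maximal' (IsPGroup.of_card hk) hPC
  refine ⟨hN, hC, ?_⟩
  have h3 := h.relIndex_eq
  rw [Subgroup.normalizer_eq_top, Subgroup.relIndex_top_right, hC] at h3
  exact h3

end Cfsg.Agent.S0949
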