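import Cfsg.Statements.S0952
import Cfsg.Agent.Lib.Helper7.BlockPart

set_option autoImplicit false
open scoped ComplexConjugate
open Cfsg

namespace Cfsg.Agent.S0952

/-- Let χ and ψ be irreducible characters of the finite group G lying in different blocks relative to a maximal ideal M of the algebraic integers containing the prime p. Then the sum of χ x * conj (ψ x) over the elements x of order prime to p is zero. -/
theorem result {G : Type*} [Group G] [Finite G] (p : ℕ) [Fact p.Prime] (M : Ideal Cfsg.AlgInt) (hM : Cfsg.IsPModular p M) (χ ψ : Cfsg.IrrCharacter G) (h : ¬ Cfsg.SameBlock M (χ : G → ℂ) (ψ : G → ℂ)) : ∑ᶠ x ∈ {x : G | ¬ p ∣ orderOf x}, (χ : G → ℂ) x * conj ((ψ : G → ℂ) x) = 0 := by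
  open Cfsg.Agent.Lib.Helper7 in
  classical
  haveI := Fintype.ofFinite G
  haveI := hM.2.1.isPrime
  have hB : IsPBlock M (blockOf M (χ : G → ℂ)) := ⟨χ, rfl⟩
  have hχ : χ ∈ blockOf M (χ : G → ℂ) := self_mem_blockOf χ
  have hψ : ψ ∉ blockOf M (χ : G → ℂ) := h
  have h1 := blockPart_indicator hM hB (isSectionClosed_regular (G := G) hM.1) (χ : G → ℂ)
  rw [blockPart_self hχ] at h1
  have h2 := classInner_blockPart ({x : G | ¬ p ∣ orderOf x}.indicator (χ : G → ℂ)) hψ
  rw [h1, classInner] at h2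
  have hcard : (Nat.card G : ℂ)⁻¹ ≠ 0 := by
    apply inv_ne_zero
    exact_mod_cast Nat.card_pos.ne'
  have h3 := (mul_eq_zero.1 h2).resolve_left hcard
  rw [finsum_mem_eq_sum_indicator, ← h3]
  apply Finset.sum_congr rfl
  intro x _
  by_cases hx : x ∈ {x : G | ¬ p ∣ orderOf x}
  · rw [Set.indicator_of_mem hx, Set.indicator_of_mem hx]
  · rw [Set.indicator_of_notMem hx, Set.indicator_of_notMem hx, zero_mul]

end Cfsg.Agent.S0952
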