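import Cfsg.Statements.S0953
import Cfsg.Agent.Lib.Helper7.BlockRobinson2
import Cfsg.Agent.S0920
import Cfsg.Agent.Lib.Helper24.BlockSection

set_option autoImplicit false
open Cfsg

namespace Cfsg.Agent.S0953

/-- Let P be a Sylow p-subgroup of the finite group G with normalizer N, and fix a maximal ideal M of the algebraic integers containing p. The number of blocks of G having P as a defect group equals the number of conjugacy classes of N consisting of elements of order prime to p that centralize P. -/
theorem result {G : Type*} [Group G] [Finite G] (p : ℕ) [Fact p.Prime] (M : Ideal Cfsg.AlgInt) (hM : Cfsg.IsPModular p M) (P : Sylow p G) : Nat.card {B : Set (Cfsg.IrrCharacter G) // Cfsg.IsPBlock M B ∧ Cfsg.IsDefectGroup p M B (P : Subgroup G)} = Nat.card {C : ConjClasses (Subgroup.normalizer ((P : Subgroup G) : Set G)) // ∀ n : Subgroup.normalizer ((P : Subgroup G) : Set G), ConjClasses.mk n = C → ¬ p ∣ orderOf n ∧ (n : G) ∈ Subgroup.centralizer ((P : Subgroup G) : Set G)} := by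
  classical
  haveI := hM.2.1.isPrime
  set N := Subgroup.normalizer ((P : Subgroup G) : Set G) with hN
  have hPN : (P : Subgroup G) ≤ N := Subgroup.le_normalizer
  set S' : Sylow p N := P.subtype hPN with hS'
  have hS'c : (S' : Subgroup N) = (P : Subgroup G).subgroupOf N := Sylow.coe_subtype P hPN
  haveI hnorm : (S' : Subgroup N).Normal := by
    rw [hS'c]
    exact Subgroup.normal_in_normalizer
  have h1 := Cfsg.Agent.Lib.Helper7.card_blocks_normal_sylow hM S'
  obtain ⟨fmt1, fmt2⟩ := Cfsg.Agent.S0920.result p M hM (P : Subgroup G) P.2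
  -- bijection of block sets
  have h2 : Nat.card {B : Set (Cfsg.IrrCharacter G) // Cfsg.IsPBlock M B ∧
        Cfsg.IsDefectGroup p M B (P : Subgroup G)}
      = Nat.card (Cfsg.Agent.Lib.Helper7.BlD p M (S' : Subgroup N)) := by
    choose f hf huniq using fun B : {B : Set (Cfsg.IrrCharacter G) // Cfsg.IsPBlock M B ∧
        Cfsg.IsDefectGroup p M B (P : Subgroup G)} => fmt2 B.1 B.2.1 B.2.2
    apply Nat.card_congr
    refine Equiv.ofBijective (fun B => ⟨f B, (hf B).1, by rw [hS'c]; exact (hf B).2.1⟩) ⟨?_, ?_⟩
    · intro B B' hBB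
      have e : f B = f B' := congrArg Subtype.val hBB
      apply Subtype.ext
      have a1 := (hf B).2.2
      have a2 := (hf B').2.2
      rw [← e] at a2
      exact Cfsg.Agent.Lib.Helper24.induced_unique a1 a2
    · rintro ⟨b, hb1, hb2⟩
      rw [hS'c] at hb2
      obtain ⟨B, hB1, hB2, hB3⟩ := fmt1 b hb1 hb2
      refine ⟨⟨B, hB1, hB2⟩, ?_⟩
      apply Subtype.ext
      exact (huniq ⟨B, hB1, hB2⟩ b ⟨hb1, hb2, hB3⟩).symm
  rw [h2, h1]
  apply Nat.card_congr
  apply Equiv.subtypeEquivRight
  intro C
  have key : ∀ n : N, n ∈ Subgroup.centralizer ((S' : Subgroup N) : Set N)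
      ↔ (n : G) ∈ Subgroup.centralizer ((P : Subgroup G) : Set G) := by
    intro n
    rw [Subgroup.mem_centralizer_iff, Subgroup.mem_centralizer_iff]
    constructor
    · intro h s hs
      have hs' : (⟨s, hPN hs⟩ : N) ∈ ((S' : Subgroup N) : Set N) := by
        show (⟨s, hPN hs⟩ : N) ∈ (S' : Subgroup N)
        rw [hS'c, Subgroup.mem_subgroupOf]
        exact hs
      exact congrArg Subtype.val (h _ hs')
    · intro h s hs
      have hs' : (s : G) ∈ (P : Subgroup G) := by
        have : s ∈ (S' : Subgroup N) := hs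
        rw [hS'c, Subgroup.mem_subgroupOf] at this
        exact this
      exact Subtype.ext (h _ hs')
  constructor
  · intro h n hn
    exact ⟨(h n hn).1, (key n).1 (h n hn).2⟩
  · intro h n hn
    exact ⟨(h n hn).1, (key n).2 (h n hn).2⟩

end Cfsg.Agent.S0953
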