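-- Statement S0956: Green's theorem on defect groups as Sylow intersections.
import Cfsg.Statements.S0956
import Cfsg.Agent.Lib.Lead.GreenAlg
import Cfsg.Agent.Lib.Helper26.BPDef
import Cfsg.Agent.Lib.Helper17.Syl
import Cfsg.Agent.Lib.Helper7.BlockHeight

set_option autoImplicit false
open Cfsg

namespace Cfsg.Agent.S0956

open Cfsg.Agent.Lib.Helper7 Cfsg.Agent.Lib.Helper26.BP Cfsg.Agent.Lib.Lead.Green

/-- Let D be a defect group of a block of the finite group G (relative to a maximal ideal M of the algebraic integers containing the prime p) and P a Sylow p-subgroup containing D. Then there is an element x of order prime to p such that D is a Sylow p-subgroup of the centralizer of x and D = P ∩ x P x⁻¹. -/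
theorem result {G : Type*} [Group G] [Finite G] (p : ℕ) [Fact p.Prime] (M : Ideal Cfsg.AlgInt) (hM : Cfsg.IsPModular p M) (B : Set (Cfsg.IrrCharacter G)) (hB : Cfsg.IsPBlock M B) (D : Subgroup G) (hD : Cfsg.IsDefectGroup p M B D) (P : Sylow p G) (hDP : D ≤ P) : ∃ x : G, ¬ p ∣ orderOf x ∧ (∃ S : Sylow p (Subgroup.centralizer ({x} : Set G)), (S : Subgroup (Subgroup.centralizer ({x} : Set G))).map (Subgroup.centralizer ({x} : Set G)).subtype = D) ∧ (P : Subgroup G) ⊓ (P : Subgroup G).map (MulAut.conj x).toMonoidHom = D := by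
  classical
  haveI := Fintype.ofFinite G
  haveI := hM.2.1.isPrime
  haveI := resField_charP hM
  have hp : p.Prime := Fact.out
  obtain ⟨hDp, hbr, hmax⟩ := (isDefectGroup_iff hM hB D).1 hD
  have hεinv : Inv ⊤ (bl M B) := bl_inv B
  have hidem : br D (bl M B) * br D (bl M B) = br D (bl M B) := by
    rw [← br_mul hp hDp (hεinv.mono le_top) (hεinv.mono le_top), bl_idem hB]
  have hfN : Inv (Subgroup.normalizer (D : Set G)) (br D (bl M B)) := by
    intro x hx
    rw [cj_br, cjS_eq_self_iff.2 hx, hεinv x (Subgroup.mem_top x)]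
  have hS'p : IsPGroup p ((P : Subgroup G) ⊓ Subgroup.normalizer (D : Set G) : Subgroup G) :=
    P.2.to_le inf_le_left
  have hne := mul_sg_ne_zero hS'p hidem hbr (hfN.mono inf_le_right)
  obtain ⟨g, hg⟩ := exists_apply_ne_zero hne
  rw [mul_sg_apply] at hg
  -- the coset as a finset
  let X : Finset G := Finset.univ.filter
    (fun x => g⁻¹ * x ∈ ((P : Subgroup G) ⊓ Subgroup.normalizer (D : Set G) : Subgroup G))
  have hsum : ∑ x ∈ X, br D (bl M B) x ≠ 0 := by
    intro h0
    apply hg
    have key : ∀ F : G → resField M, ∑ x ∈ X, F x = ∑ h : G, if h ∈ ((P : Subgroup G) ⊓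
        Subgroup.normalizer (D : Set G) : Subgroup G) then F (g * h) else 0 := by
      intro F
      show ∑ x ∈ Finset.univ.filter (fun x => g⁻¹ * x ∈ ((P : Subgroup G) ⊓
        Subgroup.normalizer (D : Set G) : Subgroup G)), F x = _
      rw [Finset.sum_filter]
      symm
      apply Fintype.sum_equiv (Equiv.mulLeft g)
      intro h
      simp
    have e := key (br D (bl M B))
    rw [← e, h0]
  have hCN : Subgroup.centralizer (D : Set G) ≤ Subgroup.normalizer (D : Set G) :=
    Subgroup.centralizer_le_normalizer _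
  have hbrC : ∀ x, br D (bl M B) x ≠ 0 → x ∈ Subgroup.centralizer (D : Set G) ∧ bl M B x ≠ 0 := by
    intro x hx
    by_cases hxc : x ∈ Subgroup.centralizer (D : Set G)
    · rw [br, tr_of_mem _ hxc] at hx
      exact ⟨hxc, hx⟩
    · rw [br, tr_of_not_mem _ hxc] at hx
      exact absurd rfl hx
  have hgN : g ∈ Subgroup.normalizer (D : Set G) := by
    obtain ⟨x, hxX, hx⟩ := Finset.exists_ne_zero_of_sum_ne_zero hsum
    have h1 := hCN (hbrC x hx).1
    have h2 : g⁻¹ * x ∈ Subgroup.normalizer (D : Set G) := (Finset.mem_filter.1 hxX).2.2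
    have : g = x * (g⁻¹ * x)⁻¹ := by group
    rw [this]
    exact Subgroup.mul_mem _ h1 (Subgroup.inv_mem _ h2)
  -- the group R
  let R : Subgroup G := ((P : Subgroup G) ⊓ cjS g (P : Subgroup G)) ⊓ Subgroup.normalizer (D : Set G)
  have hRp : IsPGroup p R := P.2.to_le (inf_le_left.trans inf_le_left)
  have hfix := sum_fixed (k := resField M) hp hRp (conjPerm' R) X (by
      intro q x hx
      rw [conjPerm'_apply]
      have hq := q.2
      have hqP : (q : G) ∈ (P : Subgroup G) := hq.1.1
      have hqg : g⁻¹ * (q : G) * g ∈ (P : Subgroup G) := mem_cjS.1 hq.1.2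
      have hqN : (q : G) ∈ Subgroup.normalizer (D : Set G) := hq.2
      have hx' := (Finset.mem_filter.1 hx).2
      refine Finset.mem_filter.2 ⟨Finset.mem_univ _, ?_⟩
      have e : g⁻¹ * ((q : G) * x * (q : G)⁻¹) = (g⁻¹ * (q : G) * g) * (g⁻¹ * x) * (q : G)⁻¹ := by group
      rw [e]
      refine Subgroup.mul_mem _ (Subgroup.mul_mem _ ⟨hqg, ?_⟩ hx') (Subgroup.inv_mem _ ⟨hqP, hqN⟩)
      exact Subgroup.mul_mem _ (Subgroup.mul_mem _ (Subgroup.inv_mem _ hgN) hqN) hgN)
    (br D (bl M B)) (by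
      intro q x
      rw [conjPerm'_apply]
      have := (hfN.apply' (Subgroup.inv_mem _ q.2.2) x)
      simpa using this)
  rw [hfix] at hsum
  obtain ⟨x, hxX, hx⟩ := Finset.exists_ne_zero_of_sum_ne_zero hsum
  rw [Finset.mem_filter] at hxX
  have hxR : x ∈ Subgroup.centralizer (R : Set G) := (conjPerm'_fixed_iff R x).1 hxX.2
  have hxS : g⁻¹ * x ∈ ((P : Subgroup G) ⊓ Subgroup.normalizer (D : Set G) : Subgroup G) :=
    (Finset.mem_filter.1 hxX.1).2
  obtain ⟨hxD, hεx⟩ := hbrC x hx
  -- R = D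
  have hDg : D ≤ cjS g (P : Subgroup G) := by
    rw [← cjS_eq_self_iff.2 hgN]
    exact cjS_mono hDP
  have hDR : D ≤ R := le_inf (le_inf hDP hDg) Subgroup.le_normalizer
  have hRD : R = D := by
    symm
    apply Subgroup.eq_of_le_of_card_ge hDR
    exact hmax R hRp (br_ne_zero_iff.2 ⟨x, hxR, hεx⟩)
  have hQD : (P : Subgroup G) ⊓ cjS g (P : Subgroup G) = D := by
    by_contra hcon
    have hlt : D < (P : Subgroup G) ⊓ cjS g (P : Subgroup G) :=
      lt_of_le_of_ne (le_inf hDP hDg) (Ne.symm hcon)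
    obtain ⟨y, hy, hyN, hyD⟩ := Cfsg.Agent.Lib.Helper17.pgroup_normalizer_grow
      (P.2.to_le inf_le_left) hlt
    apply hyD
    rw [← hRD]
    exact ⟨hy, hyN⟩
  have hcj : cjS x (P : Subgroup G) = cjS g (P : Subgroup G) := by
    have : x = g * (g⁻¹ * x) := by group
    rw [this, cjS_mul, cjS_eq_self_of_mem hxS.1]
  refine ⟨x, regular_of_blockCoeff hM hB ((bl_apply_ne_zero_iff hB x).1 hεx), ?_, ?_⟩
  · have hDx : D ≤ Subgroup.centralizer ({x} : Set G) := by
      intro d hd
      rw [Subgroup.mem_centralizer_singleton_iff]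
      exact ((Subgroup.mem_centralizer_iff.1 hxD) d hd)
    obtain ⟨S, hS⟩ := exists_sylow_map_ge (p := p) _ D hDp hDx
    refine ⟨S, ?_⟩
    symm
    apply Subgroup.eq_of_le_of_card_ge hS
    apply hmax _ (S.isPGroup'.map _)
    apply br_ne_zero_iff.2
    refine ⟨x, ?_, hεx⟩
    rw [Subgroup.mem_centralizer_iff]
    rintro _ ⟨d, _, rfl⟩
    have := d.2
    rw [Subgroup.mem_centralizer_singleton_iff] at this
    exact this
  · show (P : Subgroup G) ⊓ cjS x (P : Subgroup G) = D
    rw [hcj, hQD]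

end Cfsg.Agent.S0956
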