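import Cfsg.Statements.S0957
import Cfsg.Agent.Lib.Helper7.BlockRobinson

set_option autoImplicit false
open Cfsg

namespace Cfsg.Agent.S0957

/-- Let P be a Sylow p-subgroup of the finite group G, let g, h ∈ G and let p ^ d be the order of a Sylow p-subgroup of the centralizer of g. Then the number of pairs (y, z) with y conjugate to g, z conjugate to h and z * y⁻¹ ∈ P is divisible by the order of P divided by p ^ d. -/
theorem result {G : Type*} [Group G] [Finite G] (p : ℕ) [Fact p.Prime] (P : Sylow p G) (g h : G) (S : Sylow p (Subgroup.centralizer ({g} : Set G))) : Nat.card P / Nat.card S ∣ Nat.card {yz : G × G // IsConj g yz.1 ∧ IsConj h yz.2 ∧ yz.2 * yz.1⁻¹ ∈ (P : Subgroup G)} := by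
  classical
  open Cfsg.Agent.Lib.Helper7 in
  obtain ⟨M, hM⟩ := exists_isPModular (Fact.out : p.Prime)
  open Cfsg.Agent.Lib.Helper7 in
  haveI := hM.2.1.isPrime
  haveI := Fintype.ofFinite G
  haveI : Fintype (Cfsg.IrrCharacter G) := Fintype.ofFinite _
  haveI : Fintype (P : Subgroup G) := Fintype.ofFinite _
  have hp : p.Prime := hM.1
  choose m hm using fun ψ : Cfsg.IrrCharacter G =>
    Cfsg.Agent.Lib.Helper24.exists_trivial_mult (P : Subgroup G) ψ
  obtain ⟨a, ha⟩ : ∃ a, a = (Nat.card G).factorization p := ⟨_, rfl⟩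
  obtain ⟨d, hd⟩ : ∃ d, d = (Nat.card (Subgroup.centralizer ({g} : Set G))).factorization p :=
    ⟨_, rfl⟩
  have hPa : Nat.card (P : Subgroup G) = p ^ a := by rw [ha]; exact P.card_eq_multiplicity
  have hSd : Nat.card (S : Subgroup (Subgroup.centralizer ({g} : Set G))) = p ^ d := by
    rw [hd]; exact S.card_eq_multiplicity
  have hidx0 : (Subgroup.centralizer ({g} : Set G)).index ≠ 0 := Subgroup.index_ne_zero_of_finite
  have hC0 : Nat.card (Subgroup.centralizer ({g} : Set G)) ≠ 0 := Nat.card_pos.ne'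
  have hadd : a = d + (Subgroup.centralizer ({g} : Set G)).index.factorization p := by
    rw [ha, hd, ← (Subgroup.centralizer ({g} : Set G)).card_mul_index,
      Nat.factorization_mul hC0 hidx0, Finsupp.add_apply]
  have hda : d ≤ a := by omega
  have hquot : Nat.card P / Nat.card S = p ^ (a - d) := by
    have e1 : Nat.card P = p ^ a := hPa
    have e2 : Nat.card S = p ^ d := hSd
    rw [e1, e2, Nat.pow_div hda hp.pos]
  rw [hquot]
  set n := Nat.card {yz : G × G // IsConj g yz.1 ∧ IsConj h yz.2 ∧ yz.2 * yz.1⁻¹ ∈ (P : Subgroup G)}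
    with hn
  by_cases h0 : n = 0
  · rw [h0]; exact dvd_zero _
  apply (Nat.Prime.pow_dvd_iff_le_factorization hp h0).2
  have hpc : (p : ℂ) ≠ 0 := by exact_mod_cast hp.ne_zero
  have hG : (Nat.card G : ℂ) ≠ 0 := by exact_mod_cast Nat.card_pos.ne'
  have h1 : Cfsg.MemLocalRing M ((n : ℂ) / ((p ^ (a - d) : ℕ) : ℂ)) := by
    rw [hn, Cfsg.Agent.Lib.Helper7.card_pairs_eq_sum_irr (P : Subgroup G) g h m hm, Finset.sum_div]
    apply Cfsg.Agent.Lib.Helper7.memLocalRing_sum
    intro χ _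
    have hχ1 : (χ : G → ℂ) 1 ≠ 0 := Cfsg.Agent.Lib.Helper7.irr_apply_one_ne_zero χ.2
    have e : Cfsg.centralChar (χ : G → ℂ) g⁻¹ * Cfsg.centralChar (χ : G → ℂ) h
          * ((χ : G → ℂ) 1 * (Nat.card (P : Subgroup G) : ℂ) * (m χ : ℂ) / (Nat.card G : ℂ))
          / ((p ^ (a - d) : ℕ) : ℂ)
        = (((Subgroup.centralizer ({g} : Set G)).index * p ^ d : ℕ) : ℂ) / (Nat.card G : ℂ)
          * ((χ : G → ℂ) g⁻¹ * Cfsg.centralChar (χ : G → ℂ) h * (m χ : ℂ)) := by
      rw [hPa]
      have : ((p ^ a : ℕ) : ℂ) = (p : ℂ) ^ (a - d) * (p : ℂ) ^ d := by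
        rw [← pow_add, Nat.sub_add_cancel hda]; push_cast; rfl
      rw [this]
      conv_lhs => rw [Cfsg.centralChar, Cfsg.Agent.Lib.Helper7.centralizer_singleton_inv]
      push_cast
      field_simp
    rw [e]
    apply Cfsg.Agent.Lib.Helper7.memLocalRing_mul
    · rw [Cfsg.Agent.Lib.Helper7.memLocalRing_div_iff hM
        (mul_ne_zero hidx0 (pow_ne_zero _ hp.ne_zero)) Nat.card_pos.ne',
        Nat.factorization_mul hidx0 (pow_ne_zero _ hp.ne_zero), Finsupp.add_apply,
        Nat.Prime.factorization_pow hp, Finsupp.single_eq_same, ← ha]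
      omega
    · exact Cfsg.Agent.Lib.Helper7.memLocalRing_mul (Cfsg.Agent.Lib.Helper7.memLocalRing_mul
        (Cfsg.Agent.Lib.Helper7.memLocalRing_of_isIntegral
          (Cfsg.Agent.Lib.Helper7.char_isIntegral (Cfsg.Agent.Lib.Helper7.isCharacter_of_irr χ.2) _))
        (Cfsg.Agent.Lib.Helper7.memLocalRing_centralChar _ _))
        (Cfsg.Agent.Lib.Helper7.memLocalRing_natCast _)
  rw [Cfsg.Agent.Lib.Helper7.memLocalRing_div_iff hM h0 (pow_ne_zero _ hp.ne_zero),
    Nat.Prime.factorization_pow hp, Finsupp.single_eq_same] at h1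
  exact h1

end Cfsg.Agent.S0957
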