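import Cfsg.Statements.S0959
import Cfsg.Agent.Lib.Helper7.BlockInduced

set_option autoImplicit false
open Cfsg

namespace Cfsg.Agent.S0959

/-- Let B be a block of the finite group G with defect group D (relative to a maximal ideal M of the algebraic integers containing the prime p), and let P be a p-subgroup. Then there is an element g whose idempotent coefficient for B is a local integer outside the local ideal at M and which has a conjugate centralizing P, if and only if some conjugate of P is contained in D. -/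
theorem result {G : Type*} [Group G] [Finite G] (p : ℕ) [Fact p.Prime] (M : Ideal Cfsg.AlgInt) (hM : Cfsg.IsPModular p M) (B : Set (Cfsg.IrrCharacter G)) (hB : Cfsg.IsPBlock M B) (D : Subgroup G) (hD : Cfsg.IsDefectGroup p M B D) (P : Subgroup G) (hP : IsPGroup p P) : (∃ g : G, Cfsg.MemLocalRing M (Cfsg.blockCoeff B g) ∧ ¬ Cfsg.MemLocalIdeal M (Cfsg.blockCoeff B g) ∧ ∃ c : G, IsConj g c ∧ c ∈ Subgroup.centralizer (P : Set G)) ↔ ∃ x : G, P.map (MulAut.conj x).toMonoidHom ≤ D := by
  open Cfsg.Agent.Lib.Helper7 in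
  classical
  haveI := hM.2.1.isPrime
  constructor
  · rintro ⟨g, _, hg2, c, hgc, hc⟩
    have hc2 : ¬ Cfsg.MemLocalIdeal M (Cfsg.blockCoeff B c) := by
      obtain ⟨s, rfl⟩ := isConj_iff.1 hgc
      rwa [isClassFunction_blockCoeff B]
    obtain ⟨D', hD', hPD'⟩ := exists_defectGroup_ge_of_blockCoeff hM hB hc2 P hP (by
      intro u hu
      rw [Subgroup.mem_centralizer_singleton_iff]
      exact (Subgroup.mem_centralizer_iff.1 hc u hu))
    obtain ⟨t, ht⟩ := defectGroup_le_conj hM hB hD hD'
    refine ⟨t⁻¹, ?_⟩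
    intro u hu
    rw [mem_map_conj] at hu
    have := ht (hPD' hu)
    rw [mem_map_conj] at this
    simpa [mul_assoc] using this
  · rintro ⟨x, hx⟩
    obtain ⟨g0, hg0, Q, rfl⟩ := hD
    refine ⟨g0, hg0.1, hg0.2.1, x⁻¹ * g0 * x, isConj_iff.2 ⟨x⁻¹, by simp⟩, ?_⟩
    rw [Subgroup.mem_centralizer_iff]
    intro u hu
    have h1 : x * u * x⁻¹ ∈ P.map (MulAut.conj x).toMonoidHom := by
      rw [mem_map_conj]; simpa [mul_assoc] using hu
    have h2 := map_subtype_le _ _ (hx h1)
    rw [Subgroup.mem_centralizer_singleton_iff] at h2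
    have e1 : u * (x⁻¹ * g0 * x) = x⁻¹ * (x * u * x⁻¹ * g0) * x := by group
    have e2 : x⁻¹ * g0 * x * u = x⁻¹ * (g0 * (x * u * x⁻¹)) * x := by group
    rw [e1, e2, h2]

end Cfsg.Agent.S0959
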