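import Cfsg.Statements.S0962
import Cfsg.Agent.Lib.Helper24.MinMax

set_option autoImplicit false
open Cfsg

namespace Cfsg.Agent.S0962

open Cfsg.Agent.Lib.Helper7 Cfsg.Agent.Lib.Helper24


/-- Fix a maximal ideal M of the algebraic integers containing the prime p and a natural number d. The number of blocks of the finite group G of defect at least d is at most the number of conjugacy classes of p-regular elements of G of defect at least d, where the defect of a class is the exponent of p in the order of the centralizer of any of its elements. -/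
theorem result {G : Type*} [Group G] [Finite G] (p : ℕ) [Fact p.Prime] (M : Ideal Cfsg.AlgInt) (hM : Cfsg.IsPModular p M) (d : ℕ) : Nat.card {B : Set (Cfsg.IrrCharacter G) // Cfsg.IsPBlock M B ∧ d ≤ Cfsg.blockDefect p B} ≤ Nat.card {C : ConjClasses G // ∃ g : G, ConjClasses.mk g = C ∧ Cfsg.IsPRegular p g ∧ d ≤ (Nat.card (Subgroup.centralizer ({g} : Set G))).factorization p} := by
  haveI := hM.2.1.isPrime
  haveI := Fintype.ofFinite G
  apply card_blocks_le hM _ _ (fun B hB => hB.1)
  intro B B' hB hB' χ hχ K hK
  have hK' : ¬ (Cfsg.IsPRegular p K.out ∧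
      d ≤ (Nat.card (Subgroup.centralizer ({K.out} : Set G))).factorization p) := by
    intro h
    exact hK ⟨K.out, Quotient.out_eq' K, h.1, h.2⟩
  by_cases hreg : p ∣ orderOf K.out
  · rw [blockCoeff_eq_zero_of_singular hM hB.1 hreg, zero_mul]; exact memLocalIdeal_zero
  · have hlt : (Nat.card (Subgroup.centralizer ({K.out} : Set G))).factorization p < d := by
      by_contra h
      exact hK' ⟨hreg, not_lt.1 h⟩
    exact memLocalIdeal_mul_left (osima hB.1 _)
      (centralChar_memLocalIdeal_of_lt hM hB'.1 (lt_of_lt_of_le hlt hB'.2) hχ)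

end Cfsg.Agent.S0962
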