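import Cfsg.Statements.S0967
import Cfsg.Agent.Lib.Helper7.BlockNormal

set_option autoImplicit false
open Cfsg

namespace Cfsg.Agent.S0967

open Cfsg.Agent.Lib.Helper7


/-- Let N be a normal subgroup of the finite group G of order prime to p and fix a maximal ideal M of the algebraic integers containing p. If χ is an irreducible character of G ⧸ N and ψ lies in the block of its inflation χ ∘ (quotient map), then ψ is itself inflated from an irreducible character ψ' of G ⧸ N lying in the block of χ. (Over a normal p'-subgroup, blocks of the quotient are whole blocks of G.) -/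
theorem result {G : Type*} [Group G] [Finite G] (p : ℕ) [Fact p.Prime] (M : Ideal Cfsg.AlgInt) (hM : Cfsg.IsPModular p M) (N : Subgroup G) [N.Normal] (hN : ¬ p ∣ Nat.card N) (χ : Cfsg.IrrCharacter (G ⧸ N)) (ψ : Cfsg.IrrCharacter G) (hψ : ψ ∈ Cfsg.blockOf M ((χ : G ⧸ N → ℂ) ∘ QuotientGroup.mk)) : ∃ ψ' : Cfsg.IrrCharacter (G ⧸ N), (ψ : G → ℂ) = (ψ' : G ⧸ N → ℂ) ∘ QuotientGroup.mk ∧ Cfsg.SameBlock M (χ : G ⧸ N → ℂ) (ψ' : G ⧸ N → ℂ) := by
  classical
  haveI := hM.2.1.isPrime
  haveI := Fintype.ofFinite G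
  haveI := Fintype.ofFinite (G ⧸ N)
  have hirr : Cfsg.IsIrrCharacter G ((χ : G ⧸ N → ℂ) ∘ QuotientGroup.mk) :=
    Cfsg.Agent.Lib.Helper25.isIrrCharacter_comp_surjective (QuotientGroup.mk' N)
      (QuotientGroup.mk'_surjective N) χ.2
  set χh : Cfsg.IrrCharacter G := ⟨_, hirr⟩ with hχh
  have hχhv : ∀ g : G, (χh : G → ℂ) g = (χ : G ⧸ N → ℂ) (QuotientGroup.mk' N g) := fun g => rfl
  have hsame : Cfsg.SameBlock M (χh : G → ℂ) (ψ : G → ℂ) := hψ
  have hcardN : ∑ g : G, (if g ∈ N then (1 : ℂ) else 0) = (Nat.card N : ℂ) := by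
    rw [Finset.sum_boole]
    congr 1
    rw [Nat.card_eq_fintype_card, Fintype.card_subtype]
  have hN0 : (Nat.card N : ℂ) ≠ 0 := by exact_mod_cast Nat.card_pos.ne'
  set c : G → ℂ := fun g => if g ∈ N then (1 : ℂ) else 0 with hc
  have hcS : Om c ∈ centralSubring (G := G) (localRing M) :=
    ⟨c, isClassFunction_indicator_normal N, fun g => by
      by_cases hg : g ∈ N
      · simp only [hc, if_pos hg]; exact memLocalRing_one
      · simp only [hc, if_neg hg]; exact memLocalRing_zero, rfl⟩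
  have h1 := centralSubring_congr hcS hsame
  have h2 : Om c χh = Nat.card N := by
    rw [Om]
    have : ∑ g, c g * (χh : G → ℂ) g = (Nat.card N : ℂ) * (χh : G → ℂ) 1 := by
      rw [← hcardN, Finset.sum_mul]
      apply Finset.sum_congr rfl
      intro g _
      by_cases hg : g ∈ N
      · have : QuotientGroup.mk' N g = 1 := (QuotientGroup.eq_one_iff _).2 hg
        simp only [hc, if_pos hg, hχhv, this, map_one]
      · simp only [hc, if_neg hg, zero_mul]
    rw [this, mul_div_cancel_right₀ _ (irr_apply_one_ne_zero χh.2)]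
  have h3 : ¬ MemLocalIdeal M (Om c ψ) := by
    apply not_memLocalIdeal_of_sub (memLocalIdeal_sub_comm h1)
    rw [h2, memLocalIdeal_natCast_iff hM]; exact hN
  have h4 : ∑ g, c g * (ψ : G → ℂ) g ≠ 0 := by
    intro h; apply h3; rw [Om, h, zero_div]; exact memLocalIdeal_zero
  have hker : ∀ u ∈ N, (ψ : G → ℂ) u = (ψ : G → ℂ) 1 :=
    fun u hu => irr_eq_one_of_sum_ne_zero ψ.2 N h4 hu
  obtain ⟨ψ', hψ'⟩ := exists_quotient_char ψ N hker
  refine ⟨ψ', funext hψ', ?_⟩
  intro y
  rw [centralChar_eq_Om, centralChar_eq_Om]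
  set c' : G → ℂ := fun g => if IsConj y (QuotientGroup.mk' N g) then (Nat.card N : ℂ)⁻¹ else 0
    with hc'
  have hpush : push (QuotientGroup.mk' N) c' = fun x => if IsConj y x then (1 : ℂ) else 0 := by
    ext z
    obtain ⟨z₀, rfl⟩ := QuotientGroup.mk'_surjective N z
    rw [push]
    have e1 : ∀ x : G, (if QuotientGroup.mk' N x = QuotientGroup.mk' N z₀ then c' x else 0)
        = (if x⁻¹ * z₀ ∈ N then (1 : ℂ) else 0)
          * (if IsConj y (QuotientGroup.mk' N z₀) then (Nat.card N : ℂ)⁻¹ else 0) := by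
      intro x
      have hiff : QuotientGroup.mk' N x = QuotientGroup.mk' N z₀ ↔ x⁻¹ * z₀ ∈ N :=
        QuotientGroup.eq
      by_cases hx : QuotientGroup.mk' N x = QuotientGroup.mk' N z₀
      · rw [if_pos hx, if_pos (hiff.1 hx), one_mul]
        simp only [hc', hx]
      · rw [if_neg hx, if_neg (fun h => hx (hiff.2 h)), zero_mul]
    simp only [e1]
    rw [← Finset.sum_mul]
    have e2 : ∑ x : G, (if x⁻¹ * z₀ ∈ N then (1 : ℂ) else 0) = (Nat.card N : ℂ) := by
      rw [← hcardN]
      exact Fintype.sum_equiv ((Equiv.inv G).trans (Equiv.mulRight z₀)) _ _ (fun x => rfl)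
    rw [e2]
    by_cases hy : IsConj y (QuotientGroup.mk' N z₀)
    · rw [if_pos hy, if_pos hy, mul_inv_cancel₀ hN0]
    · rw [if_neg hy, if_neg hy, mul_zero]
  rw [← hpush, ← Om_push _ c' χh χ hχhv, ← Om_push _ c' ψ ψ' hψ']
  refine centralSubring_congr ⟨c', ?_, ?_, rfl⟩ hsame
  · intro g x
    simp only [hc', map_mul, map_inv]
    have : IsConj y (QuotientGroup.mk' N x * QuotientGroup.mk' N g * (QuotientGroup.mk' N x)⁻¹)
        ↔ IsConj y (QuotientGroup.mk' N g) := by
      constructor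
      · intro h
        exact h.trans (isConj_iff.2 ⟨QuotientGroup.mk' N x, rfl⟩ : IsConj (QuotientGroup.mk' N g) _).symm
      · intro h
        exact h.trans (isConj_iff.2 ⟨QuotientGroup.mk' N x, rfl⟩)
    simp only [this]
  · intro g
    by_cases hg : IsConj y (QuotientGroup.mk' N g)
    · simp only [hc', if_pos hg]; exact memLocalRing_inv_natCast hM hN
    · simp only [hc', if_neg hg]; exact memLocalRing_zero

end Cfsg.Agent.S0967
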