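import Mathlib
import Cfsg.Statements.S0985

set_option autoImplicit false

open Cfsg

namespace Cfsg.Agent.S0985

theorem result {G : Type*} [Group G] [Finite G] (p k : ℕ) [Fact p.Prime] (h : ¬ Nat.card (Sylow p G) ≡ 1 [MOD p ^ k]) : ∃ P R : Sylow p G, P ≠ R ∧ ((R : Subgroup G).subgroupOf (P : Subgroup G)).index ≤ p ^ (k - 1) := by
  classical
  by_contra hcon
  push Not at hcon
  apply h
  obtain ⟨P⟩ : Nonempty (Sylow p G) := inferInstance
  have hp := (Fact.out : p.Prime)
  rcases Nat.eq_zero_or_pos k with rfl | hk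
  · simp [Nat.modEq_one]
  have hstab : ∀ R : Sylow p G,
      MulAction.stabilizer (P : Subgroup G) R = (R : Subgroup G).subgroupOf P := by
    intro R
    ext x
    rw [MulAction.mem_stabilizer_iff, Subgroup.mem_subgroupOf]
    have h1 : x • R = R ↔ (x : G) ∈ Subgroup.normalizer ((R : Subgroup G) : Set G) :=
      Sylow.smul_eq_iff_mem_normalizer
    rw [h1]
    have h2 := IsPGroup.inf_normalizer_sylow P.2 R
    constructor
    · intro hx
      have h3 : (x : G) ∈ (P : Subgroup G) ⊓ Subgroup.normalizer ((R : Subgroup G) : Set G) :=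
        ⟨x.2, hx⟩
      exact (h2.le h3).2
    · intro hx; exact Subgroup.le_normalizer hx
  have horb : ∀ R : Sylow p G, R ≠ P →
      p ^ k ∣ Nat.card (MulAction.orbit (P : Subgroup G) R) := by
    intro R hR
    have h1 : ((R : Subgroup G).subgroupOf P).index =
        Nat.card (MulAction.orbit (P : Subgroup G) R) := by
      rw [← hstab, MulAction.index_stabilizer]; rfl
    rw [← h1]
    have h2 := hcon P R hR.symm
    obtain ⟨n, hn⟩ := IsPGroup.iff_card.mp P.2
    have h3 : ((R : Subgroup G).subgroupOf P).index ∣ p ^ n := hn ▸ Subgroup.index_dvd_card _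
    obtain ⟨j, hj, hj'⟩ := (Nat.dvd_prime_pow hp).mp h3
    rw [hj'] at h2 ⊢
    apply pow_dvd_pow
    have := (Nat.pow_lt_pow_iff_right hp.one_lt).mp h2
    omega
  have hP : Nat.card (MulAction.orbit (P : Subgroup G) P) = 1 := by
    have : MulAction.orbit (P : Subgroup G) P = {P} := by
      ext R
      constructor
      · rintro ⟨x, rfl⟩
        have h1 : x • P = P ↔ (x : G) ∈ Subgroup.normalizer ((P : Subgroup G) : Set G) :=
          Sylow.smul_eq_iff_mem_normalizer
        exact h1.mpr (Subgroup.le_normalizer x.2)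
      · rintro rfl
        exact MulAction.mem_orbit_self _
    rw [this]; simp
  have := Fintype.ofFinite (MulAction.orbitRel.Quotient (P : Subgroup G) (Sylow p G))
  rw [Nat.card_congr (MulAction.selfEquivSigmaOrbits' (P : Subgroup G) (Sylow p G)), Nat.card_sigma]
  set ω₀ : MulAction.orbitRel.Quotient (P : Subgroup G) (Sylow p G) := Quotient.mk'' P with hω₀
  rw [← Finset.add_sum_erase Finset.univ _ (Finset.mem_univ ω₀)]
  have h0 : Nat.card (MulAction.orbitRel.Quotient.orbit ω₀) = 1 := by
    rw [hω₀, MulAction.orbitRel.Quotient.orbit_mk]; exact hP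
  rw [h0]
  have hd : p ^ k ∣ ∑ ω ∈ Finset.univ.erase ω₀, Nat.card (MulAction.orbitRel.Quotient.orbit ω) := by
    apply Finset.dvd_sum
    intro ω hω
    induction ω using Quotient.inductionOn' with
    | h R =>
      rw [MulAction.orbitRel.Quotient.orbit_mk]
      apply horb
      rintro rfl
      exact (Finset.mem_erase.mp hω).1 rfl
  obtain ⟨t, ht⟩ := hd
  rw [ht]
  simp [Nat.ModEq]

end Cfsg.Agent.S0985
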