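import Cfsg.Statements.S0986
import Mathlib

set_option autoImplicit false
open Cfsg

namespace Cfsg.Agent.S0986

theorem grow {G : Type*} [Group G] [Finite G] (p : ℕ) [Fact p.Prime] (D : Subgroup G) (R : Sylow p G)
    (hDR : D ≤ (R : Subgroup G)) (hne : D ≠ (R : Subgroup G)) :
    Nat.card D < Nat.card ↥(Subgroup.normalizer (D : Set G) ⊓ (R : Subgroup G)) := by
  haveI : Group.IsNilpotent (R : Subgroup G) := R.isPGroup'.isNilpotent
  have hnc := Group.normalizerCondition_of_isNilpotent (G := (R : Subgroup G))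
  have hlt : D.subgroupOf (R : Subgroup G) < ⊤ := by
    rw [lt_top_iff_ne_top]
    intro h
    rw [Subgroup.subgroupOf_eq_top] at h
    exact hne (le_antisymm hDR h)
  have h2 := hnc _ hlt
  rw [← Subgroup.subgroupOf_normalizer_eq hDR] at h2
  by_contra hcon
  push Not at hcon
  have hle : D ≤ Subgroup.normalizer (D : Set G) ⊓ (R : Subgroup G) := le_inf Subgroup.le_normalizer hDR
  have heq : D = Subgroup.normalizer (D : Set G) ⊓ (R : Subgroup G) := Subgroup.eq_of_le_of_card_ge hle hcon
  apply lt_irrefl (D.subgroupOf (R : Subgroup G))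
  calc D.subgroupOf (R : Subgroup G) < (Subgroup.normalizer (D : Set G)).subgroupOf (R : Subgroup G) := h2
    _ = (Subgroup.normalizer (D : Set G) ⊓ (R : Subgroup G)).subgroupOf (R : Subgroup G) := by
        rw [Subgroup.inf_subgroupOf_right]
    _ = D.subgroupOf (R : Subgroup G) := by rw [← heq]


/-- Let P and Q be distinct Sylow p-subgroups of a finite group G chosen so that the order of P ∩ Q is as large as possible among intersections of two distinct Sylow p-subgroups, and let N be the normalizer of P ∩ Q. Then N has more than one Sylow p-subgroup, any two distinct Sylow p-subgroups of N intersect exactly in P ∩ Q, and each Sylow p-subgroup of N lies in exactly one Sylow p-subgroup of G. -/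
theorem result {G : Type*} [Group G] [Finite G] (p : ℕ) [Fact p.Prime] (P Q : Sylow p G) (hPQ : P ≠ Q) (hmax : ∀ P' Q' : Sylow p G, P' ≠ Q' → Nat.card ↥((P' : Subgroup G) ⊓ (Q' : Subgroup G)) ≤ Nat.card ↥((P : Subgroup G) ⊓ (Q : Subgroup G))) : 1 < Nat.card (Sylow p ↥(Subgroup.normalizer (((P : Subgroup G) ⊓ (Q : Subgroup G) : Subgroup G) : Set G))) ∧ (∀ S T : Sylow p ↥(Subgroup.normalizer (((P : Subgroup G) ⊓ (Q : Subgroup G) : Subgroup G) : Set G)), S ≠ T → (S : Subgroup _) ⊓ (T : Subgroup _) = ((P : Subgroup G) ⊓ (Q : Subgroup G)).subgroupOf (Subgroup.normalizer (((P : Subgroup G) ⊓ (Q : Subgroup G) : Subgroup G) : Set G))) ∧ ∀ S : Sylow p ↥(Subgroup.normalizer (((P : Subgroup G) ⊓ (Q : Subgroup G) : Subgroup G) : Set G)), ∃! T : Sylow p G, (S : Subgroup _).map (Subgroup.normalizer (((P : Subgroup G) ⊓ (Q : Subgroup G) : Subgroup G) : Set G)).subtype ≤ (T : Subgroup G) := by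
  set D : Subgroup G := (P : Subgroup G) ⊓ (Q : Subgroup G) with hD
  set N : Subgroup G := Subgroup.normalizer (D : Set G) with hN
  have hcardPQ : Nat.card (P : Subgroup G) = Nat.card (Q : Subgroup G) := by
    rw [Sylow.card_eq_multiplicity, Sylow.card_eq_multiplicity]
  have hDP : D ≠ (P : Subgroup G) := by
    intro h
    have hle : (P : Subgroup G) ≤ (Q : Subgroup G) := h ▸ inf_le_right
    exact hPQ (Sylow.ext (Subgroup.eq_of_le_of_card_ge hle hcardPQ.ge))
  have hDQ : D ≠ (Q : Subgroup G) := by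
    intro h
    have hle : (Q : Subgroup G) ≤ (P : Subgroup G) := h ▸ inf_le_left
    exact hPQ (Sylow.ext (Subgroup.eq_of_le_of_card_ge hle hcardPQ.le)).symm
  have hgP := grow p D P inf_le_left hDP
  have hgQ := grow p D Q inf_le_right hDQ
  have hDp : IsPGroup p D := P.isPGroup'.to_le inf_le_left
  -- uniqueness principle
  have L1 : ∀ (T T' : Sylow p G) (X : Subgroup G), X ≤ (T : Subgroup G) → X ≤ (T' : Subgroup G) →
      Nat.card D < Nat.card X → T = T' := by
    intro T T' X h1 h2 h3
    by_contra hne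
    have := hmax T T' hne
    have h4 : Nat.card X ≤ Nat.card ↥((T : Subgroup G) ⊓ (T' : Subgroup G)) := Subgroup.card_le_of_le (le_inf h1 h2)
    omega
  -- every p-subgroup of N is bounded by Sylow of N
  have L2 : ∀ (S : Sylow p N) (X : Subgroup G), IsPGroup p X → X ≤ N → Nat.card X ≤ Nat.card (S : Subgroup N) := by
    intro S X hX hXN
    have hX' : IsPGroup p (X.subgroupOf N) := hX.comap_subtype
    obtain ⟨S', hS'⟩ := hX'.exists_le_sylow
    have h1 : Nat.card (X.subgroupOf N) ≤ Nat.card (S' : Subgroup N) := Subgroup.card_le_of_le hS'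
    have h2 : Nat.card (S' : Subgroup N) = Nat.card (S : Subgroup N) := by
      rw [Sylow.card_eq_multiplicity, Sylow.card_eq_multiplicity]
    have h3 : Nat.card (X.subgroupOf N) = Nat.card X := Nat.card_congr (Subgroup.subgroupOfEquivOfLe hXN).toEquiv
    omega
  have hmapcard : ∀ S : Subgroup N, Nat.card (S.map N.subtype) = Nat.card S := fun S =>
    Subgroup.card_map_of_injective N.subtype_injective
  have L3 : ∀ S : Sylow p N, Nat.card D < Nat.card ((S : Subgroup N).map N.subtype) := by
    intro S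
    rw [hmapcard]
    exact lt_of_lt_of_le hgP (L2 S _ (P.isPGroup'.to_le inf_le_right) inf_le_left)
  haveI hDn : (D.subgroupOf N).Normal := Subgroup.normal_in_normalizer
  have L4 : ∀ S : Sylow p N, D.subgroupOf N ≤ (S : Subgroup N) := fun S =>
    IsPGroup.le_sylow_of_normal (N := D.subgroupOf N) hDp.comap_subtype S
  have L5 : ∀ S : Sylow p N, ∃ T : Sylow p G, (S : Subgroup N).map N.subtype ≤ (T : Subgroup G) := fun S =>
    (S.isPGroup'.map N.subtype).exists_le_sylow
  have L6 : ∀ (S S' : Sylow p N) (T : Sylow p G), (S : Subgroup N).map N.subtype ≤ (T : Subgroup G) →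
      (S' : Subgroup N).map N.subtype ≤ (T : Subgroup G) → S = S' := by
    intro S S' T h1 h2
    have hp1 : IsPGroup p ((T : Subgroup G).subgroupOf N) := T.isPGroup'.comap_subtype
    have e1 : (S : Subgroup N) ≤ (T : Subgroup G).subgroupOf N := by
      intro x hx; exact h1 (Subgroup.mem_map_of_mem _ hx)
    have e2 : (S' : Subgroup N) ≤ (T : Subgroup G).subgroupOf N := by
      intro x hx; exact h2 (Subgroup.mem_map_of_mem _ hx)
    have f1 := S.is_maximal' hp1 e1
    have f2 := S'.is_maximal' hp1 e2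
    exact Sylow.ext (f1.symm.trans f2)
  refine ⟨?_, ?_, ?_⟩
  · by_contra hcon
    have hle1 : Nat.card (Sylow p N) ≤ 1 := not_lt.1 hcon
    haveI : Subsingleton (Sylow p N) := (Finite.card_le_one_iff_subsingleton).1 hle1
    obtain ⟨S1, hS1⟩ := ((P.isPGroup'.to_le (inf_le_right : N ⊓ (P : Subgroup G) ≤ P)).comap_subtype (K := N)).exists_le_sylow
    obtain ⟨S2, hS2⟩ := ((Q.isPGroup'.to_le (inf_le_right : N ⊓ (Q : Subgroup G) ≤ Q)).comap_subtype (K := N)).exists_le_sylow
    have hS12 : S2 = S1 := Subsingleton.elim _ _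
    rw [hS12] at hS2
    obtain ⟨T, hT⟩ := L5 S1
    have a1 : N ⊓ (P : Subgroup G) ≤ (T : Subgroup G) := by
      intro x hx
      exact hT ⟨⟨x, hx.1⟩, hS1 (show (⟨x, hx.1⟩ : N) ∈ (N ⊓ (P : Subgroup G)).subgroupOf N from hx), rfl⟩
    have a2 : N ⊓ (Q : Subgroup G) ≤ (T : Subgroup G) := by
      intro x hx
      exact hT ⟨⟨x, hx.1⟩, hS2 (show (⟨x, hx.1⟩ : N) ∈ (N ⊓ (Q : Subgroup G)).subgroupOf N from hx), rfl⟩
    have b1 : P = T := L1 P T _ inf_le_right a1 hgP
    have b2 : Q = T := L1 Q T _ inf_le_right a2 hgQ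
    exact hPQ (b1.trans b2.symm)
  · intro S T hST
    obtain ⟨S', hS'⟩ := L5 S
    obtain ⟨T', hT'⟩ := L5 T
    have hne : S' ≠ T' := by
      intro h
      exact hST (L6 S T S' hS' (h ▸ hT'))
    have h1 := hmax S' T' hne
    have hle : D.subgroupOf N ≤ (S : Subgroup N) ⊓ (T : Subgroup N) := le_inf (L4 S) (L4 T)
    symm
    apply Subgroup.eq_of_le_of_card_ge hle
    have h2 : Nat.card (D.subgroupOf N) = Nat.card D := Nat.card_congr (Subgroup.subgroupOfEquivOfLe Subgroup.le_normalizer).toEquiv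
    rw [h2, ← hmapcard]
    refine le_trans (Subgroup.card_le_of_le ?_) h1
    refine le_inf ?_ ?_
    · exact (Subgroup.map_mono inf_le_left).trans hS'
    · exact (Subgroup.map_mono inf_le_right).trans hT'
  · intro S
    obtain ⟨T, hT⟩ := L5 S
    exact ⟨T, hT, fun T' hT' => L1 T' T _ hT' hT (L3 S)⟩

end Cfsg.Agent.S0986
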