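import Cfsg.Statements.S0988
-- import your own Cfsg.Agent.* helpers here
import Mathlib
import Cfsg.Agent.S0144

set_option autoImplicit false
open Cfsg

namespace Cfsg.Agent.S0988

theorem no_transfer {G : Type*} [Group G] [Finite G] [IsSimpleGroup G] {l : ℕ} [Fact l.Prime]
    (P : Sylow l G) (h1 : Nat.card P ≠ 1) (h2 : Nat.card P ≠ Nat.card G) :
    ¬ Subgroup.normalizer ((P : Subgroup G) : Set G) ≤
      Subgroup.centralizer ((P : Subgroup G) : Set G) := by
  intro hP
  have hK := MonoidHom.ker_transferSylow_isComplement' P hP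
  have hc := hK.card_mul_card
  rcases (MonoidHom.normal_ker (MonoidHom.transferSylow P hP)).eq_bot_or_eq_top with h | h
  · rw [h, Subgroup.card_bot, one_mul] at hc
    exact h2 hc
  · rw [h, Subgroup.card_top] at hc
    apply h1
    exact Nat.eq_of_mul_eq_mul_left Nat.card_pos (by rw [hc, mul_one])

theorem sylow_card {G : Type*} [Group G] [Finite G] {l k m : ℕ} [hl : Fact l.Prime]
    (hG : Nat.card G = l ^ k * m) (hm : ¬ l ∣ m) (P : Sylow l G) : Nat.card P = l ^ k := by
  rw [P.card_eq_multiplicity, hG]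
  congr 1
  have hm0 : m ≠ 0 := fun h => hm (h ▸ dvd_zero l)
  rw [Nat.factorization_mul (pow_ne_zero _ hl.out.ne_zero) hm0, Finsupp.add_apply,
    Nat.factorization_eq_zero_of_not_dvd hm, hl.out.factorization_pow, Finsupp.single_eq_same,
    add_zero]

theorem not_solv {G : Type*} [Group G] [Finite G] [IsSimpleGroup G] {p m : ℕ} (hp : p.Prime)
    (hm : 1 < m) (hG : Nat.card G = p * m) : ¬ Group.IsSolvable G := by
  intro hs
  have hcomm : ∀ a b : G, a * b = b * a := IsSimpleGroup.comm_iff_isSolvable.mpr hs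
  haveI := Fact.mk hp
  obtain ⟨x, hx⟩ := exists_prime_orderOf_dvd_card' p (hG ▸ Dvd.intro m rfl)
  have hn : (Subgroup.zpowers x).Normal :=
    ⟨fun n hn g => by rw [hcomm g n, mul_inv_cancel_right]; exact hn⟩
  rcases hn.eq_bot_or_eq_top with h | h
  · rw [Subgroup.zpowers_eq_bot] at h
    rw [h, orderOf_one] at hx
    exact hp.one_lt.ne hx
  · have h1 : Nat.card (Subgroup.zpowers x) = Nat.card G := by rw [h, Subgroup.card_top]
    rw [Nat.card_zpowers, hx, hG] at h1
    nlinarith [hp.pos]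

theorem fix_mod {G : Type*} [Group G] (A : Subgroup G) [Finite A] {s : ℕ} [hs : Fact s.Prime]
    (x : G) (hx : x ^ s = 1) (hxA : ∀ a ∈ A, x * a * x⁻¹ ∈ A) :
    Nat.card A ≡ Nat.card (A ⊓ Subgroup.centralizer {x} : Subgroup G) [MOD s] := by
  classical
  let f : Function.End A := fun a => ⟨x * a * x⁻¹, hxA a a.2⟩
  have hf : ∀ (n : ℕ) (a : A), (((f ^ n) a : A) : G) = x ^ n * a * (x⁻¹) ^ n := by
    intro n
    induction n with
    | zero =>
      intro a
      rw [pow_zero, pow_zero, pow_zero, one_mul, mul_one]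
      rfl
    | succ n ih =>
      intro a
      rw [pow_succ']
      change x * (((f ^ n) a : A) : G) * x⁻¹ = _
      rw [ih, pow_succ', pow_succ]
      group
  have hf1 : f ^ s ^ 1 = 1 := by
    funext a
    apply Subtype.ext
    rw [pow_one, hf, hx, inv_pow, hx, inv_one, one_mul, mul_one]
    rfl
  have := Fintype.ofFinite A
  have hmod := Equiv.Perm.card_fixedPoints_modEq (f := f) (p := s) (n := 1) hf1
  rw [← Nat.card_eq_fintype_card, ← Nat.card_eq_fintype_card] at hmod
  have he : Nat.card (Function.fixedPoints f) =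
      Nat.card (A ⊓ Subgroup.centralizer {x} : Subgroup G) := by
    apply Nat.card_congr
    refine ⟨fun a => ⟨a.1.1, Subgroup.mem_inf.mpr ⟨a.1.2, ?_⟩⟩,
      fun g => ⟨⟨g.1, (Subgroup.mem_inf.mp g.2).1⟩, ?_⟩, ?_, ?_⟩
    · rw [Subgroup.mem_centralizer_singleton_iff]
      have h1 : x * a.1.1 * x⁻¹ = a.1.1 := congrArg Subtype.val a.2
      exact (mul_inv_eq_iff_eq_mul.mp h1).symm
    · have h1 := (Subgroup.mem_inf.mp g.2).2
      rw [Subgroup.mem_centralizer_singleton_iff] at h1
      apply Subtype.ext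
      change x * g.1 * x⁻¹ = g.1
      exact mul_inv_eq_iff_eq_mul.mpr h1.symm
    · intro a; rfl
    · intro g; rfl
  rwa [he] at hmod

theorem nsq {p q r : ℕ} (hp : p.Prime) (hq : q.Prime) (hr : r.Prime) (hpq : p ≠ q) (hqr : q ≠ r) :
    ¬ q ^ 2 ∣ p ^ 2 * q * r := by
  intro h
  have h1 : q * q ∣ q * (p ^ 2 * r) := by
    have e1 : q * q = q ^ 2 := by ring
    have e2 : q * (p ^ 2 * r) = p ^ 2 * q * r := by ring
    rw [e1, e2]; exact h
  have h2 := Nat.dvd_of_mul_dvd_mul_left hq.pos h1
  rcases hq.dvd_mul.mp h2 with h3 | h3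
  · exact hpq ((Nat.prime_dvd_prime_iff_eq hq hp).mp (hq.dvd_of_dvd_pow h3)).symm
  · exact hqr ((Nat.prime_dvd_prime_iff_eq hq hr).mp h3)

theorem nt1 {p s : ℕ} (hp : p.Prime) (hs : s.Prime) (hps : p < s) (h : p ^ 2 ≡ 1 [MOD s]) :
    p = 2 ∧ s = 3 := by
  have h1 : s ∣ p ^ 2 - 1 := (Nat.modEq_iff_dvd' (by nlinarith [hp.pos])).mp h.symm
  have h2 : p ^ 2 - 1 = (p - 1) * (p + 1) := by
    obtain ⟨k, rfl⟩ : ∃ k, p = k + 1 := ⟨p - 1, by have := hp.pos; omega⟩
    have e : (k + 1) ^ 2 = (k + 1 - 1) * (k + 1 + 1) + 1 := by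
      rw [Nat.add_sub_cancel]; ring
    rw [e, Nat.add_sub_cancel]
  have h2le := hp.two_le
  rcases hs.dvd_mul.mp (h2 ▸ h1) with h3 | h3
  · have := Nat.le_of_dvd (by omega) h3
    omega
  · have h4 := Nat.le_of_dvd (by omega) h3
    have h5 : s = p + 1 := by omega
    rcases hp.eq_two_or_odd with h6 | h6
    · exact ⟨h6, by omega⟩
    · rcases hs.eq_two_or_odd with h7 | h7
      · omega
      · omega

theorem nt2 {p s : ℕ} (hp : p.Prime) (hs : s.Prime) (hps : p < s) (h : p ^ 2 ≡ p [MOD s]) :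
    False := by
  have h1 : s ∣ p ^ 2 - p := (Nat.modEq_iff_dvd' (by nlinarith [hp.pos])).mp h.symm
  have h2 : p ^ 2 - p = p * (p - 1) := by
    rw [Nat.mul_sub, mul_one, pow_two]
  have h2le := hp.two_le
  rcases hs.dvd_mul.mp (h2 ▸ h1) with h3 | h3
  · have := Nat.le_of_dvd (by omega) h3
    omega
  · have := Nat.le_of_dvd (by omega) h3
    omega

theorem nt3 {t n : ℕ} (ht : t.Prime) (ht2 : t ≠ 2) (ht3 : t ≠ 3) (hn2 : n ∣ 12)
    (hn1 : n ≡ 1 [MOD t]) (h1 : n ≠ 1) (h12 : n ≠ 12) : t = 5 := by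
  have hnle : n ≤ 12 := Nat.le_of_dvd (by norm_num) hn2
  have hnpos : 0 < n := Nat.pos_of_dvd_of_pos hn2 (by norm_num)
  have hd : t ∣ n - 1 := (Nat.modEq_iff_dvd' (by omega)).mp hn1.symm
  have ht5 : 5 ≤ t := by
    by_contra hlt
    have h2le := ht.two_le
    have h4 : t = 4 := by omega
    rw [h4] at ht
    exact absurd ht (by norm_num)
  have hle := Nat.le_of_dvd (by omega) hd
  have hn6 : n = 6 := by
    interval_cases n <;> omega
  rw [hn6] at hle
  omega

theorem step34 {G : Type*} [Group G] [Finite G] [IsSimpleGroup G] {p q r : ℕ} (hp : p.Prime)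
    (hq : q.Prime) (hr : r.Prime) (hpq : p < q) (hpr : p < r) (hqr : q ≠ r)
    (hG : Nat.card G = p ^ 2 * q * r) : p = 2 ∧ (q = 3 ∨ r = 3) := by
  haveI := Fact.mk hp
  let P : Sylow p G := default
  have hpm : ¬ p ∣ q * r := by
    intro h
    rcases hp.dvd_mul.mp h with h | h
    · exact hpq.ne ((Nat.prime_dvd_prime_iff_eq hp hq).mp h)
    · exact hpr.ne ((Nat.prime_dvd_prime_iff_eq hp hr).mp h)
  have hcP : Nat.card P = p ^ 2 := sylow_card (m := q * r) (by rw [hG, mul_assoc]) hpm P
  have hp2 := hp.two_le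
  have hq2 := hq.two_le
  have hr2 := hr.two_le
  have hnot := no_transfer P (by rw [hcP]; nlinarith) (by
    rw [hcP, hG, mul_assoc]
    intro h
    have h4 : 4 ≤ q * r := by nlinarith
    have h5 : 0 < p ^ 2 := by positivity
    nlinarith)
  set N := Subgroup.normalizer ((P : Subgroup G) : Set G) with hN
  set C := Subgroup.centralizer ((P : Subgroup G) : Set G) with hC
  have hPab : ∀ a b : P, a * b = b * a := IsPGroup.commutative_of_card_eq_prime_sq hcP
  have hPC : (P : Subgroup G) ≤ C := by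
    intro a ha
    rw [hC, Subgroup.mem_centralizer_iff]
    intro b hb
    exact congrArg Subtype.val (hPab ⟨b, hb⟩ ⟨a, ha⟩)
  have hPN : (P : Subgroup G) ≤ N := Subgroup.le_normalizer
  have hrel1 : C.relIndex N ≠ 1 := by
    rw [Ne, Subgroup.relIndex_eq_one]; exact hnot
  have hdvd : C.relIndex N ∣ q * r := by
    have h1 : (P : Subgroup G).relIndex (C ⊓ N) * (C ⊓ N).relIndex N = (P : Subgroup G).relIndex N :=
      Subgroup.relIndex_mul_relIndex _ _ _ (le_inf hPC hPN) inf_le_right
    have h2 : (P : Subgroup G).relIndex N ∣ (P : Subgroup G).index :=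
      Subgroup.relIndex_dvd_index_of_le hPN
    have h3 : (P : Subgroup G).index = q * r := by
      have h4 := (P : Subgroup G).card_mul_index
      rw [hcP, hG, mul_assoc] at h4
      exact Nat.eq_of_mul_eq_mul_left (by positivity) h4
    rw [Subgroup.inf_relIndex_right] at h1
    rw [← h3]
    exact (Dvd.intro_left _ h1).trans h2
  obtain ⟨s, hs, hsd⟩ := Nat.exists_prime_and_dvd hrel1
  have hsqr : s = q ∨ s = r := by
    rcases (hs.dvd_mul).mp (hsd.trans hdvd) with h | h
    · left; exact (Nat.prime_dvd_prime_iff_eq hs hq).mp h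
    · right; exact (Nat.prime_dvd_prime_iff_eq hs hr).mp h
  have hps : p < s := by
    rcases hsqr with h | h <;> rw [h] <;> assumption
  have hs2 : ¬ s ^ 2 ∣ Nat.card G := by
    rw [hG]
    rcases hsqr with h | h
    · rw [h]; exact nsq hp hq hr hpq.ne hqr
    · rw [h]
      have e : p ^ 2 * q * r = p ^ 2 * r * q := by ring
      rw [e]
      exact nsq hp hr hq hpr.ne hqr.symm
  haveI := Fact.mk hs
  have hsN : s ∣ Nat.card N := hsd.trans (Subgroup.relIndex_dvd_card C N)
  obtain ⟨x, hx⟩ := exists_prime_orderOf_dvd_card' s hsN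
  have hxo : orderOf (x : G) = s := by rw [Subgroup.orderOf_coe, hx]
  have hxC : (x : G) ∉ C := by
    intro hxC
    apply hs2
    have h1 : Nat.card (C ⊓ N : Subgroup G) * (C ⊓ N).relIndex N = Nat.card N := by
      have := Subgroup.relIndex_mul_relIndex ⊥ (C ⊓ N) N bot_le inf_le_right
      rwa [Subgroup.relIndex_bot_left, Subgroup.relIndex_bot_left] at this
    have h2 : s ∣ Nat.card (C ⊓ N : Subgroup G) := by
      have h3 : orderOf (⟨(x : G), ⟨hxC, x.2⟩⟩ : (C ⊓ N : Subgroup G)) = s := by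
        rw [← hxo, ← Subgroup.orderOf_coe]
      rw [← h3]; exact orderOf_dvd_natCard _
    rw [Subgroup.inf_relIndex_right] at h1
    refine dvd_trans ?_ (Subgroup.card_subgroup_dvd_card N)
    rw [← h1, pow_two]
    exact Nat.mul_dvd_mul h2 hsd
  have hxs : (x : G) ^ s = 1 := by rw [← hxo]; exact pow_orderOf_eq_one _
  have hxP : ∀ a ∈ (P : Subgroup G), (x : G) * a * (x : G)⁻¹ ∈ (P : Subgroup G) :=
    fun a ha => (Subgroup.mem_normalizer_iff.mp x.2 a).mp ha
  have hmod := fix_mod (P : Subgroup G) (x : G) hxs hxP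
  have hFd : Nat.card ((P : Subgroup G) ⊓ Subgroup.centralizer {(x : G)} : Subgroup G) ∣ p ^ 2 :=
    hcP ▸ Subgroup.card_dvd_of_le inf_le_left
  obtain ⟨j, hj, hFj⟩ := (Nat.dvd_prime_pow hp).mp hFd
  have hcP' : Nat.card (P : Subgroup G) = p ^ 2 := hcP
  rw [hcP', hFj] at hmod
  have hj3 : j = 0 ∨ j = 1 ∨ j = 2 := by omega
  rcases hj3 with rfl | rfl | rfl
  · rw [pow_zero] at hmod
    obtain ⟨h2, h3⟩ := nt1 hp hs hps hmod
    refine ⟨h2, ?_⟩
    rcases hsqr with h | h
    · left; rw [← h, h3]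
    · right; rw [← h, h3]
  · rw [pow_one] at hmod
    exact (nt2 hp hs hps hmod).elim
  · exfalso
    apply hxC
    have hFP : ((P : Subgroup G) ⊓ Subgroup.centralizer {(x : G)} : Subgroup G) = P :=
      Subgroup.eq_of_le_of_card_ge inf_le_left (by rw [hFj, hcP'])
    rw [hC, Subgroup.mem_centralizer_iff]
    intro b hb
    have hb2 : b ∈ ((P : Subgroup G) ⊓ Subgroup.centralizer {(x : G)} : Subgroup G) := by
      rw [hFP]; exact hb
    have hb3 := (Subgroup.mem_inf.mp hb2).2
    rw [Subgroup.mem_centralizer_singleton_iff] at hb3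
    exact hb3

theorem final {G : Type*} [Group G] [Finite G] [IsSimpleGroup G] {t : ℕ} (ht : t.Prime)
    (ht2 : t ≠ 2) (ht3 : t ≠ 3) (hG : Nat.card G = 12 * t) : t = 5 := by
  haveI := Fact.mk ht
  let T : Sylow t G := default
  have h12 : ¬ t ∣ 12 := by
    intro h
    have h1 : t ∣ 2 * (2 * 3) := h
    rcases ht.dvd_mul.mp h1 with h | h
    · exact ht2 ((Nat.prime_dvd_prime_iff_eq ht Nat.prime_two).mp h)
    · rcases ht.dvd_mul.mp h with h | h
      · exact ht2 ((Nat.prime_dvd_prime_iff_eq ht Nat.prime_two).mp h)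
      · exact ht3 ((Nat.prime_dvd_prime_iff_eq ht Nat.prime_three).mp h)
  have hcT : Nat.card T = t := by
    have := sylow_card (l := t) (k := 1) (m := 12) (by rw [hG, pow_one, mul_comm]) h12 T
    rwa [pow_one] at this
  have hcT' : Nat.card (T : Subgroup G) = t := hcT
  have htl := ht.two_le
  have hidx : (T : Subgroup G).index = 12 := by
    have h4 := (T : Subgroup G).card_mul_index
    rw [hcT', hG, mul_comm 12 t] at h4
    exact Nat.eq_of_mul_eq_mul_left ht.pos h4
  have hn1 : Nat.card (Sylow t G) ≡ 1 [MOD t] := card_sylow_modEq_one t G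
  have hn2 : Nat.card (Sylow t G) ∣ 12 := hidx ▸ T.card_dvd_index
  have hn3 : Nat.card (Sylow t G) = (Subgroup.normalizer ((T : Subgroup G) : Set G)).index :=
    T.card_eq_index_normalizer
  have hT1 : Nat.card T ≠ 1 := by rw [hcT]; omega
  have hT2 : Nat.card T ≠ Nat.card G := by rw [hcT, hG]; omega
  refine nt3 ht ht2 ht3 hn2 hn1 ?_ ?_
  · intro h
    rw [h] at hn3
    have h5 : Subgroup.normalizer ((T : Subgroup G) : Set G) = ⊤ := Subgroup.index_eq_one.mp hn3.symm
    have hnorm : (T : Subgroup G).Normal := Subgroup.normalizer_eq_top_iff.mp h5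
    rcases hnorm.eq_bot_or_eq_top with h | h
    · apply hT1
      change Nat.card (T : Subgroup G) = 1
      rw [h, Subgroup.card_bot]
    · apply hT2
      change Nat.card (T : Subgroup G) = _
      rw [h, Subgroup.card_top]
  · intro h
    rw [h] at hn3
    have hcN : Nat.card (Subgroup.normalizer ((T : Subgroup G) : Set G)) = t := by
      have h4 := (Subgroup.normalizer ((T : Subgroup G) : Set G)).card_mul_index
      rw [← hn3, hG, mul_comm 12 t] at h4
      exact Nat.eq_of_mul_eq_mul_right (by norm_num) h4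
    have hNT : (T : Subgroup G) = Subgroup.normalizer ((T : Subgroup G) : Set G) :=
      Subgroup.eq_of_le_of_card_ge Subgroup.le_normalizer (by rw [hcN, hcT'])
    apply no_transfer T hT1 hT2
    rw [← hNT]
    haveI : IsCyclic (T : Subgroup G) := isCyclic_of_prime_card hcT'
    intro a ha
    rw [Subgroup.mem_centralizer_iff]
    intro b hb
    exact congrArg Subtype.val
      ((IsCyclic.isMulCommutative (α := (T : Subgroup G))).is_comm.comm ⟨b, hb⟩ ⟨a, ha⟩)

/-- If a finite simple group has order p^2 * q * r with p, q and r prime, then its order is 60. -/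
theorem result {G : Type*} [Group G] [Finite G] [IsSimpleGroup G] (p q r : ℕ) (hp : p.Prime) (hq : q.Prime) (hr : r.Prime) (hG : Nat.card G = p ^ 2 * q * r) : Nat.card G = 60 := by
  have hp2 := hp.two_le
  have hq2 := hq.two_le
  have hr2 := hr.two_le
  have hns : ¬ Group.IsSolvable G :=
    not_solv hp (m := p * q * r) (by nlinarith [Nat.mul_le_mul hp2 hq2]) (by rw [hG]; ring)
  have hqr : q ≠ r := by
    rintro rfl
    exact hns (Cfsg.Agent.S0144.result p q 2 2 hp hq (by rw [hG]; ring))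
  have hpq : p ≠ q := by
    rintro rfl
    exact hns (Cfsg.Agent.S0144.result p r 3 1 hp hr (by rw [hG]; ring))
  have hpr : p ≠ r := by
    rintro rfl
    exact hns (Cfsg.Agent.S0144.result p q 3 1 hp hq (by rw [hG]; ring))
  have hpos : 0 < p ^ 2 := by positivity
  have hne1 : Nat.card G ≠ 1 := by
    rw [hG]
    have : 4 ≤ q * r := Nat.mul_le_mul hq2 hr2
    rw [mul_assoc]
    nlinarith
  have hmf : (Nat.card G).minFac = p := by
    have hmp := Nat.minFac_prime hne1
    have hmd := Nat.minFac_dvd (Nat.card G)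
    have h3 : (Nat.card G).minFac = p ∨ (Nat.card G).minFac = q ∨ (Nat.card G).minFac = r := by
      have hmd' : (Nat.card G).minFac ∣ p ^ 2 * q * r := hG ▸ hmd
      rcases hmp.dvd_mul.mp hmd' with h | h
      · rcases hmp.dvd_mul.mp h with h | h
        · left; exact (Nat.prime_dvd_prime_iff_eq hmp hp).mp (hmp.dvd_of_dvd_pow h)
        · right; left; exact (Nat.prime_dvd_prime_iff_eq hmp hq).mp h
      · right; right; exact (Nat.prime_dvd_prime_iff_eq hmp hr).mp h
    rcases h3 with h | h | h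
    · exact h
    · exfalso
      haveI := Fact.mk hq
      let Q : Sylow q G := default
      have hcQ : Nat.card Q = q := by
        have := sylow_card (l := q) (k := 1) (m := p ^ 2 * r) (by rw [hG]; ring) (by
          intro hd
          rcases hq.dvd_mul.mp hd with hd | hd
          · exact hpq ((Nat.prime_dvd_prime_iff_eq hq hp).mp (hq.dvd_of_dvd_pow hd)).symm
          · exact hqr ((Nat.prime_dvd_prime_iff_eq hq hr).mp hd)) Q
        rwa [pow_one] at this
      have hcyc : IsCyclic Q := isCyclic_of_prime_card hcQ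
      refine no_transfer Q (by rw [hcQ]; omega) ?_ (IsCyclic.normalizer_le_centralizer h hcyc)
      rw [hcQ, hG]
      intro he
      have : 4 * q ≤ p ^ 2 * q := Nat.mul_le_mul_right q (by nlinarith)
      nlinarith
    · exfalso
      haveI := Fact.mk hr
      let Q : Sylow r G := default
      have hcQ : Nat.card Q = r := by
        have := sylow_card (l := r) (k := 1) (m := p ^ 2 * q) (by rw [hG]; ring) (by
          intro hd
          rcases hr.dvd_mul.mp hd with hd | hd
          · exact hpr ((Nat.prime_dvd_prime_iff_eq hr hp).mp (hr.dvd_of_dvd_pow hd)).symm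
          · exact hqr ((Nat.prime_dvd_prime_iff_eq hr hq).mp hd).symm) Q
        rwa [pow_one] at this
      have hcyc : IsCyclic Q := isCyclic_of_prime_card hcQ
      refine no_transfer Q (by rw [hcQ]; omega) ?_ (IsCyclic.normalizer_le_centralizer h hcyc)
      rw [hcQ, hG]
      intro he
      have : 4 * q ≤ p ^ 2 * q := Nat.mul_le_mul_right q (by nlinarith)
      nlinarith
  have hpq' : p < q := lt_of_le_of_ne
    (hmf ▸ Nat.minFac_le_of_dvd hq2 (hG ▸ (Dvd.intro_left _ rfl).mul_right r)) hpq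
  have hpr' : p < r := lt_of_le_of_ne
    (hmf ▸ Nat.minFac_le_of_dvd hr2 (hG ▸ Dvd.intro_left _ rfl)) hpr
  obtain ⟨h2, h3⟩ := step34 hp hq hr hpq' hpr' hqr hG
  subst h2
  rcases h3 with rfl | rfl
  · have h5 := final hr hpr.symm hqr.symm (by rw [hG]; ring)
    rw [hG, h5]; norm_num
  · have h5 := final hq hpq.symm hqr (by rw [hG]; ring)
    rw [hG, h5]; norm_num

end Cfsg.Agent.S0988
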