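import Cfsg.Statements.S0989
import Mathlib

set_option autoImplicit false
open Cfsg

namespace Cfsg.Agent.S0989

/-- In the symmetric group on p or p + 1 letters, p a prime, the normalizer of a Sylow p-subgroup has order p * (p - 1). -/
theorem result {α : Type*} [Fintype α] [DecidableEq α] (p : ℕ) [Fact p.Prime] (hα : Fintype.card α = p ∨ Fintype.card α = p + 1) (P : Sylow p (Equiv.Perm α)) : Nat.card ↥(Subgroup.normalizer ((P : Subgroup (Equiv.Perm α)) : Set (Equiv.Perm α))) = p * (p - 1) := by
  classical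
  have hp := Fact.out (p := p.Prime)
  have h0 : ((p - 1).factorial).factorization p = 0 :=
    Nat.factorization_eq_zero_of_not_dvd (by rw [hp.dvd_factorial]; have := hp.pos; omega)
  have hpf : (p.factorial).factorization p = 1 := by
    rw [← Nat.mul_factorial_pred hp.pos.ne', Nat.factorization_mul hp.pos.ne'
      (Nat.factorial_ne_zero _), Finsupp.add_apply, h0, hp.factorization_self]
  have hfac : ((Fintype.card α).factorial).factorization p = 1 := by
    rcases hα with h | h
    · rw [h, hpf]
    · rw [h, Nat.factorial_succ, Nat.factorization_mul (by omega) (Nat.factorial_ne_zero _),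
        Finsupp.add_apply, hpf, Nat.factorization_eq_zero_of_not_dvd]
      intro hd
      have := (Nat.dvd_add_right (dvd_refl p)).1 hd
      exact hp.one_lt.ne' (Nat.dvd_one.1 this)
  have hP : Nat.card (P : Subgroup (Equiv.Perm α)) = p := by
    rw [Sylow.card_eq_multiplicity, Nat.card_eq_fintype_card, Fintype.card_perm, hfac, pow_one]
  haveI hcyc : IsCyclic (P : Subgroup (Equiv.Perm α)) := isCyclic_of_prime_card hP
  have hct : ∀ τ : Equiv.Perm α, τ ∈ (P : Subgroup (Equiv.Perm α)) → τ ≠ 1 → τ.cycleType = {p} := by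
    intro τ hτ h1
    have ho : orderOf τ = p := by
      have := orderOf_dvd_natCard (⟨τ, hτ⟩ : (P : Subgroup (Equiv.Perm α)))
      rw [hP, Nat.dvd_prime hp, Subgroup.orderOf_mk] at this
      rcases this with h | h
      · exact absurd (orderOf_eq_one_iff.1 h) h1
      · exact h
    obtain ⟨n, hn⟩ := Equiv.Perm.cycleType_prime_order (σ := τ) (by rw [ho]; exact hp)
    have h1 := Equiv.Perm.sum_cycleType τ
    have h2 : τ.support.card ≤ Fintype.card α := Finset.card_le_univ _
    rw [hn, Multiset.sum_replicate, ho] at h1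
    simp only [smul_eq_mul] at h1
    have hn0 : n = 0 := by
      rcases n with _ | n
      · rfl
      · exfalso
        have := hp.two_le
        have h3 : Fintype.card α ≤ p + 1 := by omega
        nlinarith
    rw [hn0, ho] at hn
    simpa using hn
  obtain ⟨c, hc⟩ := exists_prime_orderOf_dvd_card' (G := (P : Subgroup (Equiv.Perm α))) p
    (by rw [hP])
  have hc1 : c ≠ 1 := by
    intro h
    rw [h, orderOf_one] at hc
    exact hp.one_lt.ne hc
  have hgen : ∀ d : (P : Subgroup (Equiv.Perm α)), d ≠ 1 → ∀ x : (P : Subgroup (Equiv.Perm α)),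
      ∃ k : ℤ, d ^ k = x := by
    intro d hd x
    have := zpowers_eq_top_of_prime_card (G := (P : Subgroup (Equiv.Perm α))) hP hd
    have hx : x ∈ Subgroup.zpowers d := by rw [this]; trivial
    exact Subgroup.mem_zpowers_iff.1 hx
  set σ : Equiv.Perm α := (c : Equiv.Perm α) with hσ
  have hσ1 : σ ≠ 1 := fun h => hc1 (Subtype.ext h)
  have hσct := hct σ c.2 hσ1
  -- centralizer
  have h3 := Equiv.Perm.nat_card_centralizer σ
  rw [hσct] at h3
  have h3' : Nat.card (Subgroup.centralizer {σ}) = p := by
    rw [h3]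
    rcases hα with h | h <;> simp [h]
  have hinj : Function.Injective (fun g : Subgroup.centralizer
      ((P : Subgroup (Equiv.Perm α)) : Set (Equiv.Perm α)) =>
      (⟨(g : Equiv.Perm α), by
        rw [Subgroup.mem_centralizer_singleton_iff]
        exact ((Subgroup.mem_centralizer_iff.mp g.2) c c.2).symm⟩ : Subgroup.centralizer {σ})) := by
    intro g g' h
    apply Subtype.ext
    exact congrArg (fun x : Subgroup.centralizer {σ} => (x : Equiv.Perm α)) h
  have h4 := Nat.card_le_card_of_injective _ hinj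
  have h5 : Nat.card (P : Subgroup (Equiv.Perm α)) ≤
      Nat.card (Subgroup.centralizer ((P : Subgroup (Equiv.Perm α)) : Set (Equiv.Perm α))) :=
    Subgroup.card_le_of_le (Subgroup.le_centralizer _)
  have hC : Nat.card (Subgroup.centralizer ((P : Subgroup (Equiv.Perm α)) :
      Set (Equiv.Perm α))) = p := by omega
  have key := Subgroup.card_dvd_of_injective _
    (QuotientGroup.kerLift_injective (P : Subgroup (Equiv.Perm α)).normalizerMonoidHom)
  rw [Subgroup.normalizerMonoidHom_ker, hcyc.card_mulAut, hP, Nat.totient_prime hp] at key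
  -- lower bound
  have hex : ∀ τ : {τ : (P : Subgroup (Equiv.Perm α)) // τ ≠ 1},
      ∃ g : Subgroup.normalizer ((P : Subgroup (Equiv.Perm α)) : Set (Equiv.Perm α)),
        (g : Equiv.Perm α) * σ * (g : Equiv.Perm α)⁻¹ = (τ.1 : Equiv.Perm α) := by
    intro τ
    have hτ1 : ((τ.1 : (P : Subgroup (Equiv.Perm α))) : Equiv.Perm α) ≠ 1 :=
      fun h => τ.2 (Subtype.ext h)
    have h1 : IsConj σ (τ.1 : Equiv.Perm α) := by
      rw [Equiv.Perm.isConj_iff_cycleType_eq, hσct, hct _ τ.1.2 hτ1]
    obtain ⟨g, hg⟩ := isConj_iff.1 h1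
    have hpow : ∀ k : ℤ, g * σ ^ k * g⁻¹ = (τ.1 : Equiv.Perm α) ^ k := by
      intro k
      rw [← hg, conj_zpow]
    refine ⟨⟨g, ?_⟩, hg⟩
    rw [Subgroup.mem_normalizer_iff]
    intro x
    constructor
    · intro hx
      obtain ⟨k, hk⟩ := hgen c hc1 ⟨x, hx⟩
      have hk' : σ ^ k = x := by
        have := congrArg (fun z : (P : Subgroup (Equiv.Perm α)) => (z : Equiv.Perm α)) hk
        simpa using this
      rw [← hk', hpow]
      exact Subgroup.zpow_mem _ τ.1.2 k
    · intro hx
      obtain ⟨k, hk⟩ := hgen τ.1 τ.2 ⟨_, hx⟩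
      have hk' : (τ.1 : Equiv.Perm α) ^ k = g * x * g⁻¹ := by
        have := congrArg (fun z : (P : Subgroup (Equiv.Perm α)) => (z : Equiv.Perm α)) hk
        simpa using this
      rw [← hpow] at hk'
      have : σ ^ k = x := by
        have := congrArg (fun z => g⁻¹ * z * g) hk'
        simpa [mul_assoc] using this
      rw [← this]
      exact Subgroup.zpow_mem _ c.2 k
  choose gg hgg using hex
  have hinj2 : Function.Injective (fun τ : {τ : (P : Subgroup (Equiv.Perm α)) // τ ≠ 1} =>
      (QuotientGroup.mk (gg τ) : Subgroup.normalizer ((P : Subgroup (Equiv.Perm α)) :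
        Set (Equiv.Perm α)) ⧸ (Subgroup.centralizer ((P : Subgroup (Equiv.Perm α)) :
        Set (Equiv.Perm α))).subgroupOf (Subgroup.normalizer ((P : Subgroup (Equiv.Perm α)) :
        Set (Equiv.Perm α))))) := by
    intro τ τ' h
    rw [QuotientGroup.eq, Subgroup.mem_subgroupOf] at h
    have h1 := (Subgroup.mem_centralizer_iff.mp h) c c.2
    apply Subtype.ext
    apply Subtype.ext
    rw [← hgg τ, ← hgg τ']
    simp only [Subgroup.coe_mul, Subgroup.coe_inv] at h1
    have h2 : (gg τ : Equiv.Perm α) * (σ * ((gg τ : Equiv.Perm α)⁻¹ * (gg τ' : Equiv.Perm α))) *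
      (gg τ' : Equiv.Perm α)⁻¹ = (gg τ : Equiv.Perm α) * (((gg τ : Equiv.Perm α)⁻¹ *
      (gg τ' : Equiv.Perm α)) * σ) * (gg τ' : Equiv.Perm α)⁻¹ := by rw [h1]
    simpa [mul_assoc] using h2
  have h6 := Nat.card_le_card_of_injective _ hinj2
  have h7 : Nat.card {τ : (P : Subgroup (Equiv.Perm α)) // τ ≠ 1} = p - 1 := by
    have := Nat.card_eq_fintype_card (α := {τ : (P : Subgroup (Equiv.Perm α)) // τ ≠ 1})
    rw [this, Fintype.card_subtype_compl, Fintype.card_subtype_eq, ← Nat.card_eq_fintype_card, hP]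
  have h8 : Nat.card (Subgroup.normalizer ((P : Subgroup (Equiv.Perm α)) :
        Set (Equiv.Perm α)) ⧸ (Subgroup.centralizer ((P : Subgroup (Equiv.Perm α)) :
        Set (Equiv.Perm α))).subgroupOf (Subgroup.normalizer ((P : Subgroup (Equiv.Perm α)) :
        Set (Equiv.Perm α)))) = p - 1 := by
    apply le_antisymm
    · exact Nat.le_of_dvd (by have := hp.two_le; omega) key
    · rw [← h7]; exact h6
  have h9 := Subgroup.relIndex_mul_relIndex ⊥ _ _ bot_le
    (Subgroup.centralizer_le_normalizer ((P : Subgroup (Equiv.Perm α)) : Set (Equiv.Perm α)))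
  rw [Subgroup.relIndex_bot_left, Subgroup.relIndex_bot_left, hC, Subgroup.relIndex,
    Subgroup.index, h8] at h9
  exact h9.symm

end Cfsg.Agent.S0989
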