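import Cfsg.Statements.S0991

set_option autoImplicit false

open Cfsg

namespace Cfsg.Agent.S0991

theorem result {G : Type*} [Group G] [Finite G] [IsSimpleGroup G] (hG : ¬ IsMulCommutative G) (H : Subgroup G) (hH : H ≠ ⊤) : ∃ f : G →* ↥(alternatingGroup (Fin H.index)), Function.Injective f := by
  classical
  have e : (G ⧸ H) ≃ Fin H.index := Finite.equivFinOfCardEq rfl
  let φ : G →* Equiv.Perm (Fin H.index) :=
    (e.permCongrHom.toMonoidHom).comp (MulAction.toPermHom G (G ⧸ H))
  have hker : φ.ker = ⊥ := by
    rcases (inferInstance : φ.ker.Normal).eq_bot_or_eq_top with h | h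
    · exact h
    · exfalso; apply hH
      rw [eq_top_iff]; intro g _
      have hg : g ∈ φ.ker := h ▸ Subgroup.mem_top g
      rw [MonoidHom.mem_ker] at hg
      have h2 : MulAction.toPermHom G (G ⧸ H) g = 1 := by
        apply e.permCongrHom.injective
        rw [map_one]
        exact hg
      have h3 := congrArg (fun σ => σ ((1 : G) : G ⧸ H)) h2
      simp only [MulAction.toPermHom_apply, MulAction.toPerm_apply, Equiv.Perm.coe_one, id_eq] at h3
      have h4 : ((g * 1 : G) : G ⧸ H) = ((1 : G) : G ⧸ H) := h3
      rw [eq_comm, QuotientGroup.eq] at h4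
      simpa using h4
  have hinj : Function.Injective φ := (MonoidHom.ker_eq_bot_iff φ).mp hker
  have hsign : ∀ g, Equiv.Perm.sign (φ g) = 1 := by
    let ψ := Equiv.Perm.sign.comp φ
    rcases (inferInstance : ψ.ker.Normal).eq_bot_or_eq_top with h | h
    · exfalso; apply hG
      have hψ : Function.Injective ψ := (MonoidHom.ker_eq_bot_iff ψ).mp h
      exact ⟨⟨fun a b => hψ (by rw [map_mul, map_mul, mul_comm])⟩⟩
    · intro g
      have : g ∈ ψ.ker := h ▸ Subgroup.mem_top g
      exact this
  refine ⟨φ.codRestrict _ (fun g => Equiv.Perm.mem_alternatingGroup.mpr (hsign g)), ?_⟩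
  intro a b hab
  apply hinj
  exact congrArg Subtype.val hab

end Cfsg.Agent.S0991
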