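import Cfsg.Statements.S0992
import Mathlib

set_option autoImplicit false
open Cfsg

namespace Cfsg.Agent.S0992

section aux

theorem isKleinFour_of' {G : Type*} [Group G] (h4 : Nat.card G = 4) (h : ∀ x : G, x * x = 1) :
    IsKleinFour G := by
  refine ⟨h4, ?_⟩
  have h1 : Monoid.exponent G ∣ 2 :=
    Monoid.exponent_dvd_of_forall_pow_eq_one (fun x => by rw [pow_two]; exact h x)
  rcases (Nat.dvd_prime Nat.prime_two).1 h1 with h2 | h2
  · exfalso
    rw [Monoid.exp_eq_one_iff] at h2
    have := Nat.card_eq_one_iff_unique.2 ⟨h2, ⟨1⟩⟩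
    omega
  · exact h2

theorem card_mulAut_dvd {T : Type*} [Group T] [Finite T] (h4 : Nat.card T = 4) :
    Nat.card (MulAut T) ∣ 6 := by
  classical
  haveI : Fintype T := Fintype.ofFinite T
  have hinj : Function.Injective (MulAction.toPermHom (MulAut T) T) := by
    intro f g hfg
    ext x
    have := congrArg (fun σ : Equiv.Perm T => σ x) hfg
    simpa using this
  have hle : (MulAction.toPermHom (MulAut T) T).range ≤
      MulAction.stabilizer (Equiv.Perm T) (1 : T) := by
    rintro _ ⟨f, rfl⟩
    rw [MulAction.mem_stabilizer_iff]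
    simp
  have h1 := MulAction.index_stabilizer_of_transitive (Equiv.Perm T) (1 : T)
  have h2 := (MulAction.stabilizer (Equiv.Perm T) (1 : T)).card_mul_index
  rw [h1, h4, Nat.card_eq_fintype_card (α := Equiv.Perm T), Fintype.card_perm,
    ← Nat.card_eq_fintype_card, h4] at h2
  have h3 : Nat.card (MulAction.stabilizer (Equiv.Perm T) (1 : T)) = 6 := by
    have : (4 : ℕ).factorial = 24 := rfl
    omega
  rw [← h3, Nat.card_congr (MonoidHom.ofInjective hinj).toEquiv]
  exact Subgroup.card_dvd_of_le hle

end aux

/-- Let G be a non-abelian finite simple group of even order not divisible by 8, and T a Sylow 2-subgroup. Then T is a Klein four-group and the centralizer of T has index 3 in the normalizer of T. -/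
theorem result {G : Type*} [Group G] [Finite G] [IsSimpleGroup G] (hG : ¬ IsMulCommutative G) (h2 : Even (Nat.card G)) (h8 : ¬ 8 ∣ Nat.card G) (T : Sylow 2 G) : IsKleinFour ↥(T : Subgroup G) ∧ (Subgroup.centralizer ((T : Subgroup G) : Set G)).relIndex (Subgroup.normalizer ((T : Subgroup G) : Set G)) = 3 := by
  classical
  haveI : Fact (Nat.Prime 2) := ⟨Nat.prime_two⟩
  have hcT := Sylow.card_eq_multiplicity T
  set k := (Nat.card G).factorization 2 with hk
  have hk1 : 1 ≤ k := Nat.Prime.factorization_pos_of_dvd Nat.prime_two Nat.card_pos.ne' h2.two_dvd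
  have hk2 : k ≤ 2 := by
    by_contra h
    apply h8
    exact (pow_dvd_pow 2 (by omega : 3 ≤ k)).trans (Nat.ordProj_dvd _ 2)
  have hcomm : IsMulCommutative (T : Subgroup G) := by
    rcases (show k = 1 ∨ k = 2 by omega) with h | h
    · rw [h, pow_one] at hcT
      haveI := isCyclic_of_prime_card hcT
      exact IsCyclic.isMulCommutative
    · rw [h] at hcT
      exact IsPGroup.isMulCommutative_of_card_eq_prime_sq hcT
  have hTC : (T : Subgroup G) ≤ Subgroup.centralizer ((T : Subgroup G) : Set G) :=
    Subgroup.le_centralizer _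
  have hCN := Subgroup.centralizer_le_normalizer ((T : Subgroup G) : Set G)
  set r := (Subgroup.centralizer ((T : Subgroup G) : Set G)).relIndex
    (Subgroup.normalizer ((T : Subgroup G) : Set G)) with hr
  have hodd : ¬ 2 ∣ r := by
    intro h
    have h1 := Subgroup.relIndex_mul_relIndex _ _ _ hTC hCN
    have h3 := Subgroup.relIndex_mul_index (hTC.trans hCN)
    apply Sylow.not_dvd_index T
    rw [← h3, ← h1]
    exact Dvd.dvd.mul_right (Dvd.dvd.mul_left h _) _
  have hr1 : r ≠ 1 := by
    intro h
    have hNC : Subgroup.normalizer ((T : Subgroup G) : Set G) ≤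
        Subgroup.centralizer ((T : Subgroup G) : Set G) := Subgroup.relIndex_eq_one.1 h
    have hc := MonoidHom.ker_transferSylow_isComplement' T hNC
    have hcc := hc.card_mul_card
    rcases (MonoidHom.normal_ker (MonoidHom.transferSylow T hNC)).eq_bot_or_eq_top with h' | h'
    · rw [h', Subgroup.card_bot, one_mul] at hcc
      have htop : (T : Subgroup G) = ⊤ := Subgroup.eq_top_of_card_eq _ hcc
      apply hG
      refine ⟨⟨fun a b => ?_⟩⟩
      have ha : a ∈ (T : Subgroup G) := htop ▸ Subgroup.mem_top a
      have hb : b ∈ (T : Subgroup G) := htop ▸ Subgroup.mem_top b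
      exact congrArg Subtype.val (hcomm.is_comm.comm (⟨a, ha⟩ : (T : Subgroup G)) ⟨b, hb⟩)
    · rw [h', Subgroup.card_top] at hcc
      have : Nat.card (T : Subgroup G) = 1 := by
        have hpos : 0 < Nat.card G := Nat.card_pos
        exact Nat.eq_of_mul_eq_mul_left hpos (by rw [hcc, mul_one])
      rw [hcT] at this
      have h3 : 2 ^ 1 ≤ 2 ^ k := Nat.pow_le_pow_right (by norm_num) hk1
      omega
  have key := Subgroup.card_dvd_of_injective _
    (QuotientGroup.kerLift_injective (T : Subgroup G).normalizerMonoidHom)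
  rw [Subgroup.normalizerMonoidHom_ker, ← Subgroup.index, ← Subgroup.relIndex, ← hr] at key
  have hncyc : ¬ IsCyclic (T : Subgroup G) := by
    intro hcyc
    rw [hcyc.card_mulAut, hcT] at key
    rcases (show k = 1 ∨ k = 2 by omega) with h | h
    · rw [h, show Nat.totient (2 ^ 1) = 1 from by decide] at key
      exact hr1 (Nat.dvd_one.1 key)
    · rw [h, show Nat.totient (2 ^ 2) = 2 from by decide] at key
      rcases (Nat.dvd_prime Nat.prime_two).1 key with h' | h'
      · exact hr1 h'
      · exact hodd (h' ▸ dvd_rfl)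
  have hk' : k = 2 := by
    rcases (show k = 1 ∨ k = 2 by omega) with h | h
    · rw [h, pow_one] at hcT
      exact absurd (isCyclic_of_prime_card hcT) hncyc
    · exact h
  have hc4 : Nat.card (T : Subgroup G) = 4 := by rw [hcT, hk']; norm_num
  refine ⟨isKleinFour_of' hc4 ?_, ?_⟩
  · intro x
    have h1 := orderOf_dvd_natCard x
    rw [hc4] at h1
    have h3 : orderOf x ≠ 4 := fun h => hncyc (isCyclic_of_orderOf_eq_card x (by rw [h, hc4]))
    have h4 : orderOf x ≤ 4 := Nat.le_of_dvd (by norm_num) h1
    have h5 : orderOf x ∣ 2 := by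
      generalize orderOf x = o at *
      interval_cases o <;> omega
    rw [← pow_two]
    exact orderOf_dvd_iff_pow_eq_one.1 h5
  · have h6 := key.trans (card_mulAut_dvd hc4)
    have h7 : r ≤ 6 := Nat.le_of_dvd (by norm_num) h6
    generalize r = r' at *
    interval_cases r' <;> omega

end Cfsg.Agent.S0992
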