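import Cfsg.Statements.S0995
import Mathlib

set_option autoImplicit false
open Cfsg

namespace Cfsg.Agent.S0995

section aux

theorem card_fib {α β : Type*} [Finite α] [Finite β] (f : α → β) (k : ℕ)
    (h : ∀ b, Nat.card {a // f a = b} = k) : Nat.card α = Nat.card β * k := by
  classical
  haveI := Fintype.ofFinite β
  rw [Nat.card_congr (Equiv.sigmaFiberEquiv f).symm, Nat.card_sigma]
  simp [h]

theorem card_conj_mul {G : Type*} [Group G] [Finite G] (x : G) :
    Nat.card {u : G // IsConj x u} * Nat.card (Subgroup.centralizer ({x} : Set G)) =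
      Nat.card G := by
  classical
  haveI := Fintype.ofFinite G
  rw [Subgroup.nat_card_centralizer_nat_card_stabilizer]
  have h := MulAction.card_orbit_mul_card_stabilizer_eq_card_group (ConjAct G) x
  have e : Nat.card {u : G // IsConj x u} = Fintype.card (MulAction.orbit (ConjAct G) x) := by
    rw [← Nat.card_eq_fintype_card]
    apply Nat.card_congr
    apply Equiv.subtypeEquivRight
    intro u
    rw [ConjAct.mem_orbit_conjAct, isConj_comm]
  rw [e, Nat.card_eq_fintype_card, h, Nat.card_eq_fintype_card]
  rfl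

/-- a cyclic self-centralising subgroup of prime order is a Sylow subgroup -/
theorem sylow_eq {G : Type*} [Group G] [Finite G] (p : ℕ) [Fact p.Prime] (z : G)
    (hz : orderOf z = p) (hC : Subgroup.centralizer ({z} : Set G) = Subgroup.zpowers z)
    (Q : Sylow p G) (hQ : Subgroup.zpowers z ≤ (Q : Subgroup G)) :
    (Q : Subgroup G) = Subgroup.zpowers z := by
  have hp := (Fact.out : p.Prime)
  have hzQ : z ∈ (Q : Subgroup G) := hQ (Subgroup.mem_zpowers z)
  haveI : Nontrivial (Q : Subgroup G) := by
    refine ⟨⟨⟨z, hzQ⟩, 1, ?_⟩⟩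
    intro h
    have : z = 1 := congrArg Subtype.val h
    rw [this, orderOf_one] at hz
    exact hp.one_lt.ne hz
  haveI := Q.2.center_nontrivial
  obtain ⟨c, hc⟩ := exists_ne (1 : Subgroup.center (Q : Subgroup G))
  have hc1 : ((c : (Q : Subgroup G)) : G) ≠ 1 := by
    intro h
    apply hc
    apply Subtype.ext
    apply Subtype.ext
    exact h
  have hcomm : ∀ x : (Q : Subgroup G), (x : G) * ((c : (Q : Subgroup G)) : G) =
      ((c : (Q : Subgroup G)) : G) * x := by
    intro x
    have := Subgroup.mem_center_iff.1 c.2 x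
    exact congrArg Subtype.val this
  have hcz : ((c : (Q : Subgroup G)) : G) ∈ Subgroup.zpowers z := by
    rw [← hC]
    apply Subgroup.mem_centralizer_singleton_iff.2
    exact (hcomm ⟨z, hzQ⟩).symm
  have hzc : Subgroup.zpowers ((c : (Q : Subgroup G)) : G) = Subgroup.zpowers z := by
    apply Subgroup.eq_of_le_of_card_ge (Subgroup.zpowers_le.2 hcz)
    rw [Nat.card_zpowers, Nat.card_zpowers, hz]
    have h1 : orderOf ((c : (Q : Subgroup G)) : G) ∣ p := by
      have := Subgroup.orderOf_dvd_natCard _ hcz
      rwa [Nat.card_zpowers, hz] at this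
    rcases (Nat.dvd_prime hp).1 h1 with h | h
    · exact absurd (orderOf_eq_one_iff.1 h) hc1
    · exact h.ge
  apply le_antisymm _ hQ
  intro x hx
  rw [← hC]
  apply Subgroup.mem_centralizer_singleton_iff.2
  have hzm : z ∈ Subgroup.zpowers ((c : (Q : Subgroup G)) : G) := by
    rw [hzc]; exact Subgroup.mem_zpowers z
  obtain ⟨k, hk⟩ := Subgroup.mem_zpowers_iff.1 hzm
  rw [← hk]
  exact ((Commute.zpow_right (show Commute x ((c : (Q : Subgroup G)) : G) from
    hcomm ⟨x, hx⟩) k)).eq

theorem orderOf_isConj {G : Type*} [Group G] {a b : G} (h : IsConj a b) :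
    orderOf a = orderOf b := by
  obtain ⟨c, hc⟩ := isConj_iff.1 h
  rw [← hc]
  exact ((MulAut.conj c).orderOf_eq a).symm

end aux

/-- Let G be a finite perfect group containing an element z of prime order p whose centralizer is the cyclic group it generates. Let t be the number of conjugacy classes of elements of order p. Then t divides p - 1, the number of Sylow p-subgroups has the form 1 + n * p, and |G| * t = (p - 1) * p * (1 + n * p). -/
theorem result {G : Type*} [Group G] [Finite G] (hperf : commutator G = ⊤) (p : ℕ) [Fact p.Prime] (z : G) (hz : orderOf z = p) (hC : Subgroup.centralizer ({z} : Set G) = Subgroup.zpowers z) : ∃ n t : ℕ, t = Nat.card {c : ConjClasses G // ∃ g : G, ConjClasses.mk g = c ∧ orderOf g = p} ∧ t ∣ p - 1 ∧ Nat.card (Sylow p G) = 1 + n * p ∧ Nat.card G * t = (p - 1) * p * (1 + n * p) := by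
  classical
  have hp := (Fact.out : p.Prime)
  obtain ⟨Q, hQ⟩ := (IsPGroup.of_card (n := 1) (by rw [Nat.card_zpowers, hz, pow_one]) :
    IsPGroup p (Subgroup.zpowers z)).exists_le_sylow
  have hQz := sylow_eq p z hz hC Q hQ
  have hQc : Nat.card (Q : Subgroup G) = p := by rw [hQz, Nat.card_zpowers, hz]
  have hfac : p ^ (Nat.card G).factorization p = p := by
    have := Sylow.card_eq_multiplicity Q
    rw [hQc] at this
    exact this.symm
  have hPc : ∀ P : Sylow p G, Nat.card (P : Subgroup G) = p := fun P => by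
    rw [Sylow.card_eq_multiplicity P, hfac]
  -- order of nontrivial elements
  have hord : ∀ (H : Subgroup G), Nat.card H = p → ∀ x ∈ H, x ≠ 1 → orderOf x = p := by
    intro H hH x hx hx1
    have h1 : orderOf x ∣ p := by
      have := Subgroup.orderOf_dvd_natCard _ hx
      rwa [hH] at this
    rcases (Nat.dvd_prime hp).1 h1 with h | h
    · exact absurd (orderOf_eq_one_iff.1 h) hx1
    · exact h
  have hgen : ∀ (H : Subgroup G), Nat.card H = p → ∀ x ∈ H, orderOf x = p →
      Subgroup.zpowers x = H := by
    intro H hH x hx hxo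
    apply Subgroup.eq_of_le_of_card_ge (Subgroup.zpowers_le.2 hx)
    rw [Nat.card_zpowers, hxo, hH]
  let A := {g : G // orderOf g = p}
  let T := {c : ConjClasses G // ∃ g : G, ConjClasses.mk g = c ∧ orderOf g = p}
  let S : A → Sylow p G := fun g => Sylow.ofCard (Subgroup.zpowers g.1)
    (by rw [Nat.card_zpowers, g.2, hfac])
  have hS : ∀ g : A, ((S g : Sylow p G) : Subgroup G) = Subgroup.zpowers g.1 := fun g => rfl
  -- count 1
  have hA1 : Nat.card A = Nat.card (Sylow p G) * (p - 1) := by
    apply card_fib S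
    intro P
    have e : {a : A // S a = P} ≃ (((P : Subgroup G) : Set G) \ {1} : Set G) :=
      { toFun := fun a => ⟨a.1.1, by
          have h1 : a.1.1 ∈ (P : Subgroup G) := by
            have h0 : a.1.1 ∈ ((S a.1 : Sylow p G) : Subgroup G) := by
              rw [hS]; exact Subgroup.mem_zpowers _
            have h00 := a.2
            rwa [h00] at h0
          refine ⟨h1, ?_⟩
          intro h
          have h2 : a.1.1 = 1 := h
          have h3 := a.1.2
          rw [h2, orderOf_one] at h3
          exact hp.one_lt.ne h3⟩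
        invFun := fun x => ⟨⟨x.1, hord _ (hPc P) x.1 x.2.1 x.2.2⟩, by
          apply Sylow.ext
          rw [hS]
          exact hgen _ (hPc P) x.1 x.2.1 (hord _ (hPc P) x.1 x.2.1 x.2.2)⟩
        left_inv := fun a => rfl
        right_inv := fun x => rfl }
    rw [Nat.card_congr e, Nat.card_coe_set_eq, Set.ncard_sdiff_singleton_of_mem (one_mem _)]
    congr 1
    exact hPc P
  -- conjugate into zpowers z
  have hconj : ∀ g : G, orderOf g = p → ∃ w, IsConj g w ∧ w ∈ Subgroup.zpowers z := by
    intro g hg
    obtain ⟨h, hh⟩ := MulAction.exists_smul_eq G (S ⟨g, hg⟩) Q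
    refine ⟨h * g * h⁻¹, isConj_iff.2 ⟨h, rfl⟩, ?_⟩
    rw [← hQz, ← hh, Sylow.coe_subgroup_smul, hS]
    have := Subgroup.smul_mem_pointwise_smul g (MulAut.conj h) (Subgroup.zpowers g)
      (Subgroup.mem_zpowers g)
    simpa [MulAut.smul_def] using this
  have hcw : ∀ w ∈ Subgroup.zpowers z, orderOf w = p →
      Nat.card (Subgroup.centralizer ({w} : Set G)) = p := by
    intro w hw hwo
    have h1 : Subgroup.zpowers w = Subgroup.zpowers z :=
      hgen _ (by rw [Nat.card_zpowers, hz]) w hw hwo
    have h2 : Subgroup.centralizer ({w} : Set G) = Subgroup.zpowers z := by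
      apply le_antisymm
      · intro x hx
        rw [← hC]
        apply Subgroup.mem_centralizer_singleton_iff.2
        have hx' := Subgroup.mem_centralizer_singleton_iff.1 hx
        have hzm : z ∈ Subgroup.zpowers w := by
          rw [h1]; exact Subgroup.mem_zpowers z
        obtain ⟨k, hk⟩ := Subgroup.mem_zpowers_iff.1 hzm
        rw [← hk]
        exact ((Commute.zpow_right (show Commute x w from hx') k)).eq
      · rw [← h1]
        intro x hx
        apply Subgroup.mem_centralizer_singleton_iff.2
        obtain ⟨k, hk⟩ := Subgroup.mem_zpowers_iff.1 hx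
        rw [← hk]
        exact ((Commute.zpow_left (Commute.refl w) k)).eq
    rw [h2, Nat.card_zpowers, hz]
  have hcls : ∀ g : G, orderOf g = p → Nat.card {u : G // IsConj g u} * p = Nat.card G := by
    intro g hg
    obtain ⟨w, hgw, hw⟩ := hconj g hg
    have hwo : orderOf w = p := by rw [← orderOf_isConj hgw, hg]
    have h1 := card_conj_mul w
    rw [hcw w hw hwo] at h1
    rw [← h1]
    congr 1
    apply Nat.card_congr
    apply Equiv.subtypeEquivRight
    intro u
    exact ⟨fun h => hgw.symm.trans h, fun h => hgw.trans h⟩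
  let F : A → T := fun a => ⟨ConjClasses.mk a.1, a.1, rfl, a.2⟩
  have hA2 : Nat.card A = Nat.card T * (Nat.card G / p) := by
    apply card_fib F
    intro c
    obtain ⟨g, hg, hgo⟩ := c.2
    have e : {a : A // F a = c} ≃ {u : G // IsConj g u} :=
      { toFun := fun a => ⟨a.1.1, by
          have h1 : ConjClasses.mk a.1.1 = c.1 := congrArg Subtype.val a.2
          rw [← hg] at h1
          exact (ConjClasses.mk_eq_mk_iff_isConj.1 h1).symm⟩
        invFun := fun u => ⟨⟨u.1, by rw [← orderOf_isConj u.2, hgo]⟩, by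
          apply Subtype.ext
          show ConjClasses.mk u.1 = c.1
          rw [← hg]
          exact (ConjClasses.mk_eq_mk_iff_isConj.2 u.2).symm⟩
        left_inv := fun a => rfl
        right_inv := fun x => rfl }
    rw [Nat.card_congr e, ← hcls g hgo, Nat.mul_div_cancel _ hp.pos]
  -- Sylow number
  have hmod := card_sylow_modEq_one p G
  have hnpos : 0 < Nat.card (Sylow p G) := Nat.card_pos
  obtain ⟨n, hn⟩ : ∃ n, Nat.card (Sylow p G) = 1 + n * p := by
    have h1 : p ∣ Nat.card (Sylow p G) - 1 := (Nat.modEq_iff_dvd' hnpos).1 hmod.symm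
    obtain ⟨n, hn⟩ := h1
    exact ⟨n, by rw [mul_comm n p, ← hn]; omega⟩
  have hpG : p ∣ Nat.card G := by
    rw [← hz]; exact orderOf_dvd_natCard z
  obtain ⟨m, hm⟩ := hpG
  have hmain : Nat.card G * Nat.card T = (p - 1) * p * Nat.card (Sylow p G) := by
    have h1 : Nat.card T * (Nat.card G / p) = Nat.card (Sylow p G) * (p - 1) := by
      rw [← hA2, hA1]
    rw [hm, Nat.mul_div_cancel_left _ hp.pos] at h1
    rw [hm]
    calc p * m * Nat.card T = p * (Nat.card T * m) := by ring
      _ = p * (Nat.card (Sylow p G) * (p - 1)) := by rw [h1]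
      _ = _ := by ring
  refine ⟨n, Nat.card T, rfl, ?_, hn, by rw [← hn]; exact hmain⟩
  -- divisibility
  have h1 : Nat.card (Sylow p G) = (Subgroup.normalizer ((Q : Subgroup G) : Set G)).index :=
    Sylow.card_eq_index_normalizer Q
  have h2 := Subgroup.card_mul_index (Subgroup.normalizer ((Q : Subgroup G) : Set G))
  have h3 : p ∣ Nat.card (Subgroup.normalizer ((Q : Subgroup G) : Set G)) := by
    have := Subgroup.card_dvd_of_le (Subgroup.le_normalizer (H := (Q : Subgroup G)))
    rwa [hQc] at this
  obtain ⟨e, he⟩ := h3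
  refine ⟨e, ?_⟩
  rw [← h2, ← h1, he] at hmain
  have h4 : (p * Nat.card (Sylow p G)) * (Nat.card T * e) = (p * Nat.card (Sylow p G)) * (p - 1) := by
    calc _ = p * e * Nat.card (Sylow p G) * Nat.card T := by ring
      _ = _ := by rw [hmain]; ring
  exact (Nat.eq_of_mul_eq_mul_left (Nat.mul_pos hp.pos hnpos) h4).symm

end Cfsg.Agent.S0995
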