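import Cfsg.Statements.S1001
import Cfsg.Agent.S0904
import Cfsg.Agent.Lib.Helper2.CharBurn

set_option autoImplicit false
open Cfsg

namespace Cfsg.Agent.S1001

/-- In a finite simple group whose order has the form p * 3^a * 2^b with p prime, the centralizer of any element of order p is the cyclic group it generates. -/
theorem result {G : Type*} [Group G] [Finite G] [IsSimpleGroup G] (p a b : ℕ) (hp : p.Prime) (hG : Nat.card G = p * 3 ^ a * 2 ^ b) (x : G) (hx : orderOf x = p) : Subgroup.centralizer ({x} : Set G) = Subgroup.zpowers x := by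
  classical
  have hx1 : x ≠ 1 := by
    rintro rfl
    rw [orderOf_one] at hx
    exact hp.one_lt.ne hx
  by_cases hab : ∀ x y : G, x * y = y * x
  · have hn : (Subgroup.zpowers x).Normal :=
      ⟨fun n hn g => by rw [hab g n, mul_inv_cancel_right]; exact hn⟩
    have htop : Subgroup.zpowers x = ⊤ := by
      rcases hn.eq_bot_or_eq_top with h | h
      · exact absurd (Subgroup.zpowers_eq_bot.1 h) hx1
      · exact h
    rw [htop]
    ext y
    simp only [Subgroup.mem_top, iff_true]
    rw [Subgroup.mem_centralizer_singleton_iff]
    exact hab y x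
  · have hns : ¬ Group.IsSolvable G := fun h => hab (IsSimpleGroup.comm_iff_isSolvable.2 h)
    have hp2 : p ≠ 2 := by
      rintro rfl
      apply hns
      exact Cfsg.Agent.Lib.Helper2.burnside_paqb 3 2 a (b + 1) Nat.prime_three Nat.prime_two
        (by rw [hG]; ring)
    have hp3 : p ≠ 3 := by
      rintro rfl
      apply hns
      exact Cfsg.Agent.Lib.Helper2.burnside_paqb 3 2 (a + 1) b Nat.prime_three Nat.prime_two
        (by rw [hG]; ring)
    haveI : Fact p.Prime := ⟨hp⟩
    have hcard : Nat.card G = 3 ^ a * 2 ^ b * p := by rw [hG]; ring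
    have hfac : (Nat.card G).factorization p = 1 := by
      rw [hcard, Nat.factorization_mul
        (mul_ne_zero (pow_ne_zero _ (by norm_num)) (pow_ne_zero _ (by norm_num))) hp.ne_zero,
        Nat.factorization_mul (pow_ne_zero _ (by norm_num)) (pow_ne_zero _ (by norm_num))]
      simp [Nat.Prime.factorization_pow Nat.prime_three, Nat.Prime.factorization_pow Nat.prime_two,
        Nat.Prime.factorization hp, Finsupp.single_apply, hp2.symm, hp3.symm]
    have hcz : Nat.card (Subgroup.zpowers x) = p ^ (Nat.card G).factorization p := by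
      rw [hfac, pow_one, Nat.card_zpowers, hx]
    have hS := Cfsg.Agent.S0904.result 3 2 p a b Nat.prime_three Nat.prime_two (by norm_num)
      hp3.symm hp2.symm hcard (Sylow.ofCard (Subgroup.zpowers x) hcz)
    rw [Sylow.coe_ofCard] at hS
    rw [← hS]
    ext c
    rw [Subgroup.mem_centralizer_singleton_iff, Subgroup.mem_centralizer_iff]
    constructor
    · intro h y hy
      obtain ⟨k, rfl⟩ := Subgroup.mem_zpowers_iff.1 hy
      have hc : Commute c x := h
      exact ((hc.zpow_right k).eq).symm
    · intro h
      exact (h x (Subgroup.mem_zpowers x)).symm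

end Cfsg.Agent.S1001
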