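import Cfsg.Statements.S1002
import Cfsg.Agent.Lib.Helper22.BrauerDeg

set_option autoImplicit false
open Cfsg

namespace Cfsg.Agent.S1002

set_option synthInstance.maxSize 1000 in
set_option synthInstance.maxHeartbeats 400000 in

/-- No finite simple group has order 1004913 = 3^3 * 7 * 13 * 409. -/
theorem result {G : Type*} [Group G] [Finite G] [IsSimpleGroup G] : Nat.card G ≠ 1004913 := by
  intro h
  haveI : Fact (Nat.Prime 409) := ⟨by norm_num⟩
  exact Cfsg.Agent.Lib.Helper22.brauer_kill (p := 409) 2457 h (by norm_num) (by norm_num)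
    (by decide +kernel)

end Cfsg.Agent.S1002
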