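import Cfsg.Statements.S1003
import Mathlib
import Cfsg.Agent.Lib.Helper15.S168e

set_option autoImplicit false
open Cfsg

namespace Cfsg.Agent.S1003

open Cfsg.Agent.Lib.Helper15.S168

/-- A simple group of order 168 has exactly 21 Sylow 2-subgroups, 28 Sylow 3-subgroups and 8 Sylow 7-subgroups. -/
theorem result {G : Type*} [Group G] [Finite G] [IsSimpleGroup G] (h : Nat.card G = 168) : Nat.card (Sylow 2 G) = 21 ∧ Nat.card (Sylow 3 G) = 28 ∧ Nat.card (Sylow 7 G) = 8 := by
  obtain ⟨κ, φ, hφ, hκ⟩ := exists_param h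
  have : Fact (Nat.Prime 2) := ⟨by norm_num⟩
  have : Fact (Nat.Prime 3) := ⟨by norm_num⟩
  refine ⟨?_, ?_, card_sylow7 h⟩
  · let T : Sylow 2 G := Sylow.ofCard (F.range.comap φ) (by
      rw [card_comap κ φ hφ hκ, cardT, sylow_card' 2 3 21 (by rw [h]; norm_num) (by norm_num)]
      norm_num)
    have hT : (T : Subgroup G) = F.range.comap φ := Sylow.coe_ofCard _ _
    have h1 : Nat.card (Sylow 2 G) = (Subgroup.normalizer ((T : Subgroup G) : Set G)).index :=
      T.card_eq_index_normalizer
    have h2 := (Subgroup.normalizer ((T : Subgroup G) : Set G)).card_mul_index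
    rw [← h1, hT, card_normalizer_comap κ φ hφ hκ, cardNT, h] at h2
    omega
  · let T : Sylow 3 G := Sylow.ofCard (F3.range.comap φ) (by
      rw [card_comap κ φ hφ hκ, cardQ, sylow_card' 3 1 56 (by rw [h]; norm_num) (by norm_num)]
      norm_num)
    have hT : (T : Subgroup G) = F3.range.comap φ := Sylow.coe_ofCard _ _
    have h1 : Nat.card (Sylow 3 G) = (Subgroup.normalizer ((T : Subgroup G) : Set G)).index :=
      T.card_eq_index_normalizer
    have h2 := (Subgroup.normalizer ((T : Subgroup G) : Set G)).card_mul_index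
    rw [← h1, hT, card_normalizer_comap κ φ hφ hκ, cardNQ, h] at h2
    omega

end Cfsg.Agent.S1003
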