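import Cfsg.Statements.S1004
import Mathlib
import Cfsg.Agent.Lib.Helper15.S168e
import Cfsg.Agent.S1003

set_option autoImplicit false
open Cfsg

namespace Cfsg.Agent.S1004

open Cfsg.Agent.Lib.Helper15.S168

theorem F_in : ∀ d : DihedralGroup 4, ∃ i : Idx, E i = Ffun d := by decide +kernel

/-- Let G be a simple group of order 168 and T a Sylow 2-subgroup. Then T is dihedral of order 8, T is its own normalizer, and T is the centralizer of any non-identity element of T that commutes with every element of T. -/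
theorem result {G : Type*} [Group G] [Finite G] [IsSimpleGroup G] (h : Nat.card G = 168) (T : Sylow 2 G) : Nonempty (↥(T : Subgroup G) ≃* DihedralGroup 4) ∧ Subgroup.normalizer ((T : Subgroup G) : Set G) = T ∧ ∀ z : G, z ∈ (T : Subgroup G) → z ≠ 1 → (∀ t ∈ (T : Subgroup G), t * z = z * t) → Subgroup.centralizer ({z} : Set G) = T := by
  obtain ⟨κ, φ, hφ, hκ⟩ := exists_param h
  have : Fact (Nat.Prime 2) := ⟨by norm_num⟩
  have hTc : Nat.card (T : Subgroup G) = 8 := by
    rw [T.card_eq_multiplicity, sylow_card' 2 3 21 (by rw [h]; norm_num) (by norm_num)]; norm_num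
  refine ⟨?_, ?_, ?_⟩
  · let T1 : Sylow 2 G := Sylow.ofCard (F.range.comap φ) (by
      rw [card_comap κ φ hφ hκ, cardT, sylow_card' 2 3 21 (by rw [h]; norm_num) (by norm_num)]
      norm_num)
    have hT1 : (T1 : Subgroup G) = F.range.comap φ := Sylow.coe_ofCard _ _
    obtain ⟨g, hg⟩ := MulAction.exists_smul_eq G T1 T
    have e0 : (T1 : Subgroup G) ≃* (T : Subgroup G) := hg ▸ Sylow.equivSMul T1 g
    have e1 : (F.range.comap φ : Subgroup G) ≃* F.range :=
      MulEquiv.ofBijective (φ.subgroupComap F.range) ⟨by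
        intro x y hxy
        have h1 : φ x = φ y := congrArg Subtype.val hxy
        exact Subtype.ext (hφ h1), by
        rintro ⟨σ, d, rfl⟩
        obtain ⟨i, hi⟩ := F_in d
        have h2 : φ (κ.symm i) = F d := by rw [hκ, κ.apply_symm_apply, hi]; rfl
        exact ⟨⟨κ.symm i, by rw [Subgroup.mem_comap, h2]; exact ⟨d, rfl⟩⟩, Subtype.ext h2⟩⟩
    have e2 : DihedralGroup 4 ≃* F.range := MonoidHom.ofInjective F_inj
    exact ⟨e0.symm.trans ((MulEquiv.subgroupCongr hT1).trans (e1.trans e2.symm))⟩
  · have h1 : Nat.card (Sylow 2 G) = (Subgroup.normalizer ((T : Subgroup G) : Set G)).index :=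
      T.card_eq_index_normalizer
    have h2 := (Subgroup.normalizer ((T : Subgroup G) : Set G)).card_mul_index
    rw [← h1, (Cfsg.Agent.S1003.result h).1, h] at h2
    exact (Subgroup.eq_of_le_of_card_ge Subgroup.le_normalizer (by rw [hTc]; omega)).symm
  · intro z hz hz1 hcomm
    have hle : (T : Subgroup G) ≤ Subgroup.centralizer ({z} : Set G) := by
      intro t ht
      rw [Subgroup.mem_centralizer_singleton_iff]
      exact hcomm t ht
    have hne : E (κ z) ≠ 1 := by
      intro h0
      apply hz1
      apply hφ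
      rw [hκ, h0, map_one]
    have hc := cent_le (κ z) hne
    rw [← card_centralizer κ φ hφ hκ z] at hc
    exact (Subgroup.eq_of_le_of_card_ge hle (by rw [hTc]; exact hc)).symm

end Cfsg.Agent.S1004
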