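import Cfsg.Statements.S1005
import Mathlib
import Cfsg.Agent.Lib.Helper15.S168d

set_option autoImplicit false
open Cfsg

namespace Cfsg.Agent.S1005

open Cfsg.Agent.Lib.Helper15.S168

/-- In a simple group of order 168 every element has order 1, 2, 3, 4 or 7; there are exactly 21 elements of order 2, and any two of them are conjugate. -/
theorem result {G : Type*} [Group G] [Finite G] [IsSimpleGroup G] (h : Nat.card G = 168) : (∀ g : G, orderOf g = 1 ∨ orderOf g = 2 ∨ orderOf g = 3 ∨ orderOf g = 4 ∨ orderOf g = 7) ∧ Nat.card {g : G // orderOf g = 2} = 21 ∧ ∀ s t : G, orderOf s = 2 → orderOf t = 2 → IsConj s t := by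
  obtain ⟨κ, φ, hφ, hκ⟩ := exists_param h
  refine ⟨fun g => ?_, ?_, fun s t hs ht => ?_⟩
  · rw [orderOf_eq κ φ hφ hκ g]
    rcases orders (κ g) with h1 | h1 | h1 | h1 | h1
    · exact Or.inl ((ordP_iff _ _ (by norm_num)).mpr h1)
    · exact Or.inr (Or.inl ((ordP_iff _ _ (by norm_num)).mpr h1))
    · exact Or.inr (Or.inr (Or.inl ((ordP_iff _ _ (by norm_num)).mpr h1)))
    · exact Or.inr (Or.inr (Or.inr (Or.inl ((ordP_iff _ _ (by norm_num)).mpr h1))))
    · exact Or.inr (Or.inr (Or.inr (Or.inr ((ordP_iff _ _ (by norm_num)).mpr h1))))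
  · rw [card_order κ φ hφ hκ 2 (by norm_num), count2]
  · have key : ∀ s : G, orderOf s = 2 → IsConj s (κ.symm (some 0, 0, 0)) := by
      intro s hs
      rw [isConj_iff' κ φ hφ hκ, κ.apply_symm_apply]
      exact conj2 _ ((ordP_iff _ _ (by norm_num)).mp (by rw [← orderOf_eq κ φ hφ hκ]; exact hs))
    exact (key s hs).trans (key t ht).symm

end Cfsg.Agent.S1005
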