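import Cfsg.Statements.S1006
import Mathlib
import Cfsg.Agent.Lib.Helper15.S168d

set_option autoImplicit false
open Cfsg

namespace Cfsg.Agent.S1006

open Cfsg.Agent.Lib.Helper15.S168

theorem class_card {G : Type*} [Group G] [Finite G] (x : G) :
    Nat.card {g : G // IsConj x g} * Nat.card (Subgroup.centralizer ({x} : Set G)) = Nat.card G := by
  have h1 := (MulAction.stabilizer (ConjAct G) x).card_mul_index
  rw [MulAction.index_stabilizer, ← Subgroup.nat_card_centralizer_nat_card_stabilizer] at h1
  have h2 : (MulAction.orbit (ConjAct G) x).ncard = Nat.card {g : G // IsConj x g} := by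
    rw [← Nat.card_coe_set_eq]
    exact Nat.card_congr (Equiv.subtypeEquivRight fun g => by
      rw [ConjAct.mem_orbit_conjAct, isConj_comm])
  rw [h2] at h1
  have h3 : Nat.card (ConjAct G) = Nat.card G := rfl
  rw [← h3, ← h1, mul_comm]

/-- In a simple group of order 168 there are 56 elements of order 3, all conjugate; 42 elements of order 4, all conjugate; and 48 elements of order 7 falling into two conjugacy classes of size 24, an element of order 7 not being conjugate to its inverse. -/
theorem result {G : Type*} [Group G] [Finite G] [IsSimpleGroup G] (h : Nat.card G = 168) : Nat.card {g : G // orderOf g = 3} = 56 ∧ (∀ s t : G, orderOf s = 3 → orderOf t = 3 → IsConj s t) ∧ Nat.card {g : G // orderOf g = 4} = 42 ∧ (∀ s t : G, orderOf s = 4 → orderOf t = 4 → IsConj s t) ∧ Nat.card {g : G // orderOf g = 7} = 48 ∧ ∀ x : G, orderOf x = 7 → Nat.card {g : G // IsConj x g} = 24 ∧ ¬ IsConj x x⁻¹ := by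
  obtain ⟨κ, φ, hφ, hκ⟩ := exists_param h
  have hord : ∀ (s : G) (n : ℕ), 0 < n → orderOf s = n → ordP (E (κ s)) n := by
    intro s n hn hs
    exact (ordP_iff _ _ hn).mp (by rw [← orderOf_eq κ φ hφ hκ]; exact hs)
  refine ⟨?_, fun s t hs ht => ?_, ?_, fun s t hs ht => ?_, ?_, fun x hx => ⟨?_, ?_⟩⟩
  · rw [card_order κ φ hφ hκ 3 (by norm_num), count3]
  · have key : ∀ s : G, orderOf s = 3 → IsConj s (κ.symm (none, 0, 1)) := by
      intro s hs
      rw [isConj_iff' κ φ hφ hκ, κ.apply_symm_apply]
      exact conj3 _ (hord s 3 (by norm_num) hs)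
    exact (key s hs).trans (key t ht).symm
  · rw [card_order κ φ hφ hκ 4 (by norm_num), count4]
  · have key : ∀ s : G, orderOf s = 4 → IsConj s (κ.symm (some 3, 0, 0)) := by
      intro s hs
      rw [isConj_iff' κ φ hφ hκ, κ.apply_symm_apply]
      exact conj4 _ (hord s 4 (by norm_num) hs)
    exact (key s hs).trans (key t ht).symm
  · rw [card_order κ φ hφ hκ 7 (by norm_num), count7]
  · have h1 := class_card x
    rw [card_centralizer κ φ hφ hκ x, cent7 _ (hord x 7 (by norm_num) hx), h] at h1
    omega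
  · rw [isConj_iff' κ φ hφ hκ]
    rintro ⟨c, hc⟩
    have h2 : E (κ x⁻¹) = (E (κ x))⁻¹ := by rw [← hκ, ← hκ, map_inv]
    rw [h2] at hc
    exact nconj7 _ (hord x 7 (by norm_num) hx) c hc

end Cfsg.Agent.S1006
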