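import Cfsg.Statements.S1007
import Mathlib
import Cfsg.Agent.Lib.Helper17.Core
import Cfsg.Agent.Lib.Helper17.Syl
import Cfsg.Agent.Lib.Helper12.PermEmbed
import Cfsg.Agent.S1004
import Cfsg.Agent.S1005
import Cfsg.Agent.S1012

set_option autoImplicit false
open Cfsg

namespace Cfsg.Agent.S1007

open Cfsg.Agent.Lib.Helper17 DihedralGroup

abbrev D4 := DihedralGroup 4

def P1 (x : D4) : Prop := x = 1 ∨ x = r 2 ∨ x = sr 0 ∨ x = sr 2
def P2 (x : D4) : Prop := x = 1 ∨ x = r 2 ∨ x = sr 1 ∨ x = sr 3

instance : DecidablePred P1 := fun x => by unfold P1; infer_instance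
instance : DecidablePred P2 := fun x => by unfold P2; infer_instance

def A1 : Subgroup D4 where
  carrier := {x | P1 x}
  mul_mem' := by
    intro a b ha hb
    exact (by decide : ∀ a b : D4, P1 a → P1 b → P1 (a * b)) a b ha hb
  one_mem' := by show P1 1; decide
  inv_mem' := by
    intro a ha
    exact (by decide : ∀ a : D4, P1 a → P1 a⁻¹) a ha

def A2 : Subgroup D4 where
  carrier := {x | P2 x}
  mul_mem' := by
    intro a b ha hb
    exact (by decide : ∀ a b : D4, P2 a → P2 b → P2 (a * b)) a b ha hb
  one_mem' := by show P2 1; decide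
  inv_mem' := by
    intro a ha
    exact (by decide : ∀ a : D4, P2 a → P2 a⁻¹) a ha

theorem card_A1 : Nat.card A1 = 4 := by
  have : Nat.card A1 = Nat.card {x : D4 // P1 x} := rfl
  rw [this, Nat.card_eq_fintype_card]
  decide

theorem card_A2 : Nat.card A2 = 4 := by
  have : Nat.card A2 = Nat.card {x : D4 // P2 x} := rfl
  rw [this, Nat.card_eq_fintype_card]
  decide

theorem sq_A1 : ∀ x ∈ A1, x * x = 1 := fun x hx =>
  (by decide : ∀ x : D4, P1 x → x * x = 1) x hx

theorem sq_A2 : ∀ x ∈ A2, x * x = 1 := fun x hx =>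
  (by decide : ∀ x : D4, P2 x → x * x = 1) x hx

theorem classify (A : Subgroup D4) (hc : Nat.card A = 4) (h2 : ∀ x ∈ A, x * x = 1)
    (hcomm : ∀ x ∈ A, ∀ y ∈ A, x * y = y * x) : A = A1 ∨ A = A2 := by
  by_cases h1 : ∃ x ∈ A, x = sr 0 ∨ x = sr 2
  · left
    obtain ⟨x, hx, hx'⟩ := h1
    apply Subgroup.eq_of_le_of_card_ge
    · intro y hy
      exact (by decide : ∀ x y : D4, (x = sr 0 ∨ x = sr 2) → y * y = 1 → x * y = y * x → P1 y)
        x y hx' (h2 y hy) (hcomm x hx y hy)
    · rw [card_A1, hc]
  · by_cases h1' : ∃ x ∈ A, x = sr 1 ∨ x = sr 3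
    · right
      obtain ⟨x, hx, hx'⟩ := h1'
      apply Subgroup.eq_of_le_of_card_ge
      · intro y hy
        exact (by decide : ∀ x y : D4, (x = sr 1 ∨ x = sr 3) → y * y = 1 → x * y = y * x → P2 y)
          x y hx' (h2 y hy) (hcomm x hx y hy)
      · rw [card_A2, hc]
    · exfalso
      have hle : A ≤ Subgroup.zpowers (r 2 : D4) := by
        intro y hy
        have := (by decide : ∀ y : D4, y * y = 1 → y = 1 ∨ y = r 2 ∨ (y = sr 0 ∨ y = sr 2) ∨
          (y = sr 1 ∨ y = sr 3)) y (h2 y hy)
        rcases this with rfl | rfl | h | h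
        · exact one_mem _
        · exact Subgroup.mem_zpowers _
        · exact absurd ⟨y, hy, h⟩ h1
        · exact absurd ⟨y, hy, h⟩ h1'
      have := Subgroup.card_le_of_le hle
      rw [hc, Nat.card_zpowers] at this
      have h3 : orderOf (r 2 : D4) ≤ 2 := orderOf_le_of_pow_eq_one (by norm_num) (by decide)
      omega

theorem klein_map {G : Type*} [Group G] (f : D4 →* G) (hf : Function.Injective f) (A : Subgroup D4)
    (hc : Nat.card A = 4) (h2 : ∀ x ∈ A, x * x = 1) : IsKleinFour ↥(A.map f) := by
  have hcard : Nat.card ↥(A.map f) = 4 := by rw [Subgroup.card_map_of_injective hf, hc]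
  have hd : Monoid.exponent ↥(A.map f) ∣ 2 := by
    apply Monoid.exponent_dvd_of_forall_pow_eq_one
    rintro ⟨_, x, hx, rfl⟩
    apply Subtype.ext
    show (f x) ^ 2 = 1
    rw [← map_pow, pow_two, h2 x hx, map_one]
  rcases (Nat.dvd_prime Nat.prime_two).mp hd with h | h
  · exfalso
    rw [Monoid.exp_eq_one_iff] at h
    have := Nat.card_of_subsingleton (1 : ↥(A.map f))
    omega
  · exact ⟨hcard, h⟩

theorem classifyG {G : Type*} [Group G] (f : D4 →* G) (hf : Function.Injective f) (U : Subgroup G)
    (hU : U ≤ f.range) (hK : IsKleinFour U) : U = A1.map f ∨ U = A2.map f := by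
  have hmap : (U.comap f).map f = U := Subgroup.map_comap_eq_self hU
  have hc : Nat.card (U.comap f) = 4 := by
    rw [← Subgroup.card_map_of_injective hf, hmap]; exact IsKleinFour.card_four
  have h2 : ∀ x ∈ U.comap f, x * x = 1 := by
    intro x hx
    apply hf
    rw [map_mul, map_one]
    have := IsKleinFour.mul_self (⟨f x, hx⟩ : U)
    exact congrArg Subtype.val this
  have hcomm : ∀ x ∈ U.comap f, ∀ y ∈ U.comap f, x * y = y * x := by
    intro x hx y hy
    apply hf
    rw [map_mul, map_mul]
    have := mul_comm_of_exponent_two (IsKleinFour.exponent_two (G := U)) (⟨f x, hx⟩ : U) ⟨f y, hy⟩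
    exact congrArg Subtype.val this
  rcases classify _ hc h2 hcomm with h | h
  · left; rw [← hmap, h]
  · right; rw [← hmap, h]

theorem le_norm_of_card {G : Type*} [Group G] [Finite G] {U K : Subgroup G} (hUK : U ≤ K)
    (hU : Nat.card U = 4) (hK : Nat.card K = 8) : K ≤ Subgroup.normalizer (U : Set G) := by
  have h1 : (U.subgroupOf K).index = 2 := by
    have := Subgroup.card_mul_index (U.subgroupOf K)
    rw [Nat.card_congr (Subgroup.subgroupOfEquivOfLe hUK).toEquiv, hU, hK] at this
    omega
  have h2 : (U.subgroupOf K).Normal := Subgroup.normal_of_index_eq_two h1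
  exact (Subgroup.normal_subgroupOf_iff_le_normalizer hUK).mp h2

theorem cent_conj {G : Type*} [Group G] (z c : G) :
    Subgroup.centralizer ({c * z * c⁻¹} : Set G) =
      (Subgroup.centralizer ({z} : Set G)).map (MulAut.conj c).toMonoidHom := by
  ext x
  rw [mem_map_conj, Subgroup.mem_centralizer_singleton_iff, Subgroup.mem_centralizer_singleton_iff]
  constructor
  · intro h
    exact (calc z * (c⁻¹ * x * c) = c⁻¹ * ((c * z * c⁻¹) * x) * c := by group
      _ = c⁻¹ * (x * (c * z * c⁻¹)) * c := by rw [h]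
      _ = c⁻¹ * x * c * z := by group).symm
  · intro h
    exact (calc c * z * c⁻¹ * x = c * (z * (c⁻¹ * x * c)) * c⁻¹ := by group
      _ = c * ((c⁻¹ * x * c) * z) * c⁻¹ := by rw [h]
      _ = x * (c * z * c⁻¹) := by group).symm

/-- data attached to a Sylow 2-subgroup -/
theorem sylow_data {G : Type*} [Group G] [Finite G] [IsSimpleGroup G] (h : Nat.card G = 168)
    (T : Sylow 2 G) : ∃ f : D4 →* G, Function.Injective f ∧ f.range = (T : Subgroup G) ∧
      Nat.card (T : Subgroup G) = 8 ∧ Subgroup.centralizer ({f (r 2)} : Set G) = T := by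
  obtain ⟨⟨e⟩, -, hz⟩ := Cfsg.Agent.S1004.result h T
  let f : D4 →* G := (T : Subgroup G).subtype.comp e.symm.toMonoidHom
  have hf : Function.Injective f := fun a b hab => e.symm.injective (Subtype.ext hab)
  have hr : f.range = (T : Subgroup G) := by
    ext x
    constructor
    · rintro ⟨d, rfl⟩
      exact (e.symm d).2
    · intro hx
      exact ⟨e ⟨x, hx⟩, by simp [f]⟩
  refine ⟨f, hf, hr, ?_, ?_⟩
  · rw [Nat.card_congr e.toEquiv, DihedralGroup.nat_card]
  · apply hz (f (r 2)) (e.symm (r 2)).2
    · intro h1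
      have : (r 2 : D4) = 1 := hf (by rw [h1, map_one])
      exact absurd this (by decide)
    · intro t ht
      rw [← hr] at ht
      obtain ⟨d, rfl⟩ := ht
      rw [← map_mul, ← map_mul, (by decide : ∀ d : D4, d * r 2 = r 2 * d) d]

/-- Let G be a simple group of order 168 and T a Sylow 2-subgroup. Then T contains exactly two subgroups that are Klein four-groups; they are not conjugate in G; and the normalizer of every Klein four-subgroup of G is isomorphic to the symmetric group of degree 4. -/
theorem result {G : Type*} [Group G] [Finite G] [IsSimpleGroup G] (h : Nat.card G = 168) (T : Sylow 2 G) : Nat.card {U : Subgroup G // U ≤ (T : Subgroup G) ∧ IsKleinFour ↥U} = 2 ∧ (∀ U W : Subgroup G, U ≤ (T : Subgroup G) → W ≤ (T : Subgroup G) → IsKleinFour ↥U → IsKleinFour ↥W → U ≠ W → ∀ g : G, U.map (MulAut.conj g).toMonoidHom ≠ W) ∧ ∀ U : Subgroup G, IsKleinFour ↥U → Nonempty (↥(Subgroup.normalizer (U : Set G)) ≃* Equiv.Perm (Fin 4)) := by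
  haveI : Fact (Nat.Prime 2) := ⟨Nat.prime_two⟩
  obtain ⟨f, hf, hr, hT8, hCz⟩ := sylow_data h T
  have hNT : Subgroup.normalizer ((T : Subgroup G) : Set G) = T := (Cfsg.Agent.S1004.result h T).2.1
  have hK1 := klein_map f hf A1 card_A1 sq_A1
  have hK2 := klein_map f hf A2 card_A2 sq_A2
  have hle : ∀ A : Subgroup D4, A.map f ≤ (T : Subgroup G) := by
    intro A
    rw [← hr]
    rintro _ ⟨x, -, rfl⟩
    exact ⟨x, rfl⟩
  have hne : A1.map f ≠ A2.map f := by
    intro h12
    have h3 : A1 = A2 := Subgroup.map_injective hf h12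
    have h4 : (sr 0 : D4) ∈ A2 := h3 ▸ (show P1 (sr 0) by decide)
    exact absurd (show P2 (sr 0) from h4) (by decide)
  refine ⟨?_, ?_, ?_⟩
  · rw [Nat.card_eq_two_iff]
    refine ⟨⟨A1.map f, hle _, hK1⟩, ⟨A2.map f, hle _, hK2⟩, ?_, ?_⟩
    · intro h12; exact hne (congrArg Subtype.val h12)
    · apply Set.eq_univ_of_forall
      rintro ⟨U, hUT, hUK⟩
      simp only [Set.mem_insert_iff, Set.mem_singleton_iff]
      rcases classifyG f hf U (hUT.trans_eq hr.symm) hUK with h' | h'
      · left; exact Subtype.ext h'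
      · right; exact Subtype.ext h'
  · intro U W hU hW hUK hWK hUW g hg
    have hTU := le_norm_of_card hU hUK.card_four hT8
    have hTW := le_norm_of_card hW hWK.card_four hT8
    have hTgW : (T : Subgroup G).map (MulAut.conj g).toMonoidHom ≤
        Subgroup.normalizer (W : Set G) := by
      rw [← hg, normalizer_map_conj]
      exact Subgroup.map_mono hTU
    have hs1 : IsSyl 2 (T : Subgroup G) (Subgroup.normalizer (W : Set G)) :=
      (isSyl_top T).of_le hTW le_top
    have hs2 : IsSyl 2 ((T : Subgroup G).map (MulAut.conj g).toMonoidHom)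
        (Subgroup.normalizer (W : Set G)) :=
      hs1.of_card_le hTgW (T.2.map _) (by rw [card_map_conj])
    obtain ⟨m, hm, hmT⟩ := hs2.conj hs1
    rw [map_conj_map_conj] at hmT
    have hmg : m * g ∈ Subgroup.normalizer ((T : Subgroup G) : Set G) :=
      mem_normalizer_iff_map_conj.mpr hmT.symm
    rw [hNT] at hmg
    have h1 : U.map (MulAut.conj (m * g)).toMonoidHom = U :=
      map_conj_eq_of_mem_normalizer (hTU hmg)
    rw [← map_conj_map_conj, hg, map_conj_eq_of_mem_normalizer hm] at h1
    exact hUW h1.symm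
  · intro U hUK
    have hU4 : Nat.card U = 4 := hUK.card_four
    have hUp : IsPGroup 2 U := IsPGroup.of_card (n := 2) (by rw [hU4]; norm_num)
    obtain ⟨T', hUT'⟩ := hUp.exists_le_sylow
    obtain ⟨f', hf', hr', hT8', hCz'⟩ := sylow_data h T'
    have hT'N := le_norm_of_card hUT' hU4 hT8'
    -- a noncentral involution of `T'` in `U`
    obtain ⟨d, hdU, hd2, hd1, hdr⟩ : ∃ d : D4, f' d ∈ U ∧ d * d = 1 ∧ d ≠ 1 ∧ r 1 * d ≠ d * r 1 := by
      rcases classifyG f' hf' U (hUT'.trans_eq hr'.symm) hUK with h' | h'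
      · exact ⟨sr 0, by rw [h']; exact ⟨sr 0, (show P1 (sr 0) by decide), rfl⟩, by decide, by decide,
          by decide⟩
      · exact ⟨sr 1, by rw [h']; exact ⟨sr 1, (show P2 (sr 1) by decide), rfl⟩, by decide, by decide,
          by decide⟩
    set s := f' d with hs
    have hs1 : s ≠ 1 := fun h1 => hd1 (hf' (by rw [← hs, h1, map_one]))
    have hs2 : orderOf s = 2 := orderOf_eq_prime (by rw [pow_two, hs, ← map_mul, hd2, map_one]) hs1
    have hz2 : orderOf (f' (r 2)) = 2 := orderOf_eq_prime
      (by rw [← map_pow, (by decide : (r 2 : D4) ^ 2 = 1), map_one])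
      (fun h1 => absurd (hf' (by rw [h1, map_one]) : (r 2 : D4) = 1) (by decide))
    obtain ⟨c, hc⟩ := isConj_iff.mp ((Cfsg.Agent.S1005.result h).2.2 _ _ hz2 hs2)
    have hCs : Subgroup.centralizer ({s} : Set G) =
        (T' : Subgroup G).map (MulAut.conj c).toMonoidHom := by
      rw [← hc, cent_conj, hCz']
    have hCs8 : Nat.card (Subgroup.centralizer ({s} : Set G)) = 8 := by
      rw [hCs, card_map_conj, hT8']
    have hUC : U ≤ Subgroup.centralizer ({s} : Set G) := by
      intro u hu
      rw [Subgroup.mem_centralizer_singleton_iff]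
      have := mul_comm_of_exponent_two (IsKleinFour.exponent_two (G := U)) (⟨u, hu⟩ : U) ⟨s, hdU⟩
      exact congrArg Subtype.val this
    have hCN := le_norm_of_card hUC hU4 hCs8
    have hne8 : Nat.card (Subgroup.normalizer (U : Set G)) ≠ 8 := by
      intro h8
      have e1 : (T' : Subgroup G) = Subgroup.normalizer (U : Set G) :=
        Subgroup.eq_of_le_of_card_ge hT'N (by rw [h8, hT8'])
      have e2 : Subgroup.centralizer ({s} : Set G) = Subgroup.normalizer (U : Set G) :=
        Subgroup.eq_of_le_of_card_ge hCN (by rw [h8, hCs8])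
      have h3 : f' (r 1) ∈ Subgroup.centralizer ({s} : Set G) := by
        rw [e2, ← e1, ← hr']; exact ⟨_, rfl⟩
      rw [Subgroup.mem_centralizer_singleton_iff, hs, ← map_mul, ← map_mul] at h3
      exact hdr (hf' h3)
    have hNtop : Subgroup.normalizer (U : Set G) ≠ ⊤ := by
      intro htop
      have hn : U.Normal := Subgroup.normalizer_eq_top_iff.mp htop
      rcases hn.eq_bot_or_eq_top with h' | h'
      · rw [h', Subgroup.card_bot] at hU4; omega
      · rw [h', Subgroup.card_top, h] at hU4; omega
    have hfac := Cfsg.Agent.Lib.Helper12.card_dvd_factorial_index_of_simple _ hNtop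
    have himc := Subgroup.index_mul_card (Subgroup.normalizer (U : Set G))
    obtain ⟨k, hk⟩ : 8 ∣ Nat.card (Subgroup.normalizer (U : Set G)) := by
      rw [← hT8']; exact Subgroup.card_dvd_of_le hT'N
    rw [h] at hfac himc
    have h24 : Nat.card (Subgroup.normalizer (U : Set G)) = 24 := by
      generalize (Subgroup.normalizer (U : Set G)).index = i at hfac himc
      rw [hk] at himc hne8 ⊢
      have hik : i * k = 21 := by
        have h8 : 8 * (i * k) = 168 := by rw [← himc]; ring
        omega
      have hk21 : k ∣ 21 := ⟨i, by rw [← hik, mul_comm]⟩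
      have hkle : k ≤ 21 := Nat.le_of_dvd (by norm_num) hk21
      clear hk21 hk
      interval_cases k
      all_goals first
        | omega
        | (exfalso
           have hi : i = 3 := by omega
           subst hi
           exact absurd hfac (by decide))
        | (exfalso
           have hi : i = 1 := by omega
           subst hi
           exact absurd hfac (by decide))
    apply Cfsg.Agent.S1012.result h24
    intro x hx
    rw [← Subgroup.orderOf_coe] at hx
    rcases (Cfsg.Agent.S1005.result h).1 (x : G) with h' | h' | h' | h' | h' <;> omega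

end Cfsg.Agent.S1007
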