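import Cfsg.Statements.S1008
import Mathlib
import Cfsg.Agent.Lib.Helper17.Core
import Cfsg.Agent.Lib.Helper17.Syl
import Cfsg.Agent.Lib.Helper12.PermEmbed
import Cfsg.Agent.S1003
import Cfsg.Agent.S1004
import Cfsg.Agent.S1005
import Cfsg.Agent.S1007
import Cfsg.Agent.S1012

set_option autoImplicit false
open Cfsg

namespace Cfsg.Agent.S1008

open Cfsg.Agent.Lib.Helper17

section
variable {G : Type*} [Group G] [Finite G] [IsSimpleGroup G]

theorem norm_ne_top (h : Nat.card G = 168) {V : Subgroup G} (h1 : Nat.card V ≠ 1)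
    (h2 : Nat.card V ≠ 168) : Subgroup.normalizer (V : Set G) ≠ ⊤ := by
  intro htop
  have hn : V.Normal := Subgroup.normalizer_eq_top_iff.mp htop
  rcases hn.eq_bot_or_eq_top with h' | h'
  · exact h1 (by rw [h', Subgroup.card_bot])
  · exact h2 (by rw [h', Subgroup.card_top, h])

theorem eq_of_coatom {M K : Subgroup G} (hM : IsCoatom M) (hK : K ≠ ⊤) (hMK : M ≤ K) : K = M :=
  (hM.le_iff_eq hK).mp hMK

omit [Finite G] [IsSimpleGroup G] in
theorem le_normalizer_map_subtype {M : Subgroup G} (V₀ : Subgroup M) [V₀.Normal] :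
    M ≤ Subgroup.normalizer ((V₀.map M.subtype : Subgroup G) : Set G) := by
  have h : ((V₀.map M.subtype).subgroupOf M).Normal := by
    rw [Subgroup.subgroupOf, Subgroup.comap_map_eq_self_of_injective M.subtype_injective]
    infer_instance
  exact (Subgroup.normal_subgroupOf_iff_le_normalizer (Subgroup.map_subtype_le _)).mp h

theorem coatom_of_card (h : Nat.card G = 168) {K : Subgroup G} (hK : Nat.card K = 24) :
    IsCoatom K := by
  refine ⟨fun h' => by rw [h', Subgroup.card_top, h] at hK; omega, fun L hL => ?_⟩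
  have h1 : Nat.card K ∣ Nat.card L := Subgroup.card_dvd_of_le hL.le
  have h2 : Nat.card L ∣ 168 := h ▸ Subgroup.card_subgroup_dvd_card L
  have h3 : Nat.card L ≠ 24 := fun h' =>
    hL.ne (Subgroup.eq_of_le_of_card_ge hL.le (by rw [h', hK]))
  rw [hK] at h1
  obtain ⟨j, hj⟩ := h1
  apply Subgroup.eq_top_of_card_eq
  rw [h]
  rw [hj] at h2 h3 ⊢
  have h7 : j ∣ 7 := Nat.dvd_of_mul_dvd_mul_left (by norm_num : 0 < 24) (by simpa using h2)
  rcases (Nat.dvd_prime (by norm_num : Nat.Prime 7)).mp h7 with rfl | rfl <;> omega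

theorem card_norm_klein (h : Nat.card G = 168) (T : Sylow 2 G) (U : Subgroup G) (hU : IsKleinFour U) :
    Nat.card (Subgroup.normalizer (U : Set G)) = 24 := by
  obtain ⟨e⟩ := (Cfsg.Agent.S1007.result h T).2.2 U hU
  rw [Nat.card_congr e.toEquiv, Nat.card_perm, Nat.card_fin]
  rfl

theorem exists_klein (h : Nat.card G = 168) (T : Sylow 2 G) : ∃ U₁ U₂ : Subgroup G,
    U₁ ≤ (T : Subgroup G) ∧ U₂ ≤ (T : Subgroup G) ∧ IsKleinFour U₁ ∧ IsKleinFour U₂ ∧ U₁ ≠ U₂ ∧
    ∀ U : Subgroup G, U ≤ (T : Subgroup G) → IsKleinFour U → U = U₁ ∨ U = U₂ := by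
  obtain ⟨⟨U₁, h1, k1⟩, ⟨U₂, h2, k2⟩, hne, huniv⟩ :=
    Nat.card_eq_two_iff.mp (Cfsg.Agent.S1007.result h T).1
  refine ⟨U₁, U₂, h1, h2, k1, k2, fun h' => hne (Subtype.ext h'), fun U hU kU => ?_⟩
  have : (⟨U, hU, kU⟩ : {U : Subgroup G // U ≤ (T : Subgroup G) ∧ IsKleinFour ↥U}) ∈
      ({⟨U₁, h1, k1⟩, ⟨U₂, h2, k2⟩} : Set _) := by rw [huniv]; trivial
  simp only [Set.mem_insert_iff, Set.mem_singleton_iff, Subtype.mk.injEq] at this
  exact this

theorem card_sylow2 (h : Nat.card G = 168) (T : Sylow 2 G) : Nat.card (T : Subgroup G) = 8 := by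
  obtain ⟨⟨e⟩, -, -⟩ := Cfsg.Agent.S1004.result h T
  rw [Nat.card_congr e.toEquiv, DihedralGroup.nat_card]

/-- a 2-subgroup lies in a subgroup of order 24 -/
theorem two_group_le (h : Nat.card G = 168) (V : Subgroup G) (hV : IsPGroup 2 V) :
    ∃ K : Subgroup G, Nat.card K = 24 ∧ V ≤ K := by
  haveI : Fact (Nat.Prime 2) := ⟨Nat.prime_two⟩
  obtain ⟨T, hT⟩ := hV.exists_le_sylow
  obtain ⟨U₁, -, h1, -, k1, -⟩ := exists_klein h T
  exact ⟨_, card_norm_klein h T U₁ k1,
    hT.trans (Cfsg.Agent.S1007.le_norm_of_card h1 k1.card_four (card_sylow2 h T))⟩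

end

theorem sylow_card_prime {H : Type*} [Group H] [Finite H] {q : ℕ} [Fact q.Prime] (R : Sylow q H)
    (h1 : q ∣ Nat.card H) (h2 : ¬ q ^ 2 ∣ Nat.card H) : Nat.card R = q := by
  obtain ⟨k, hk⟩ := R.2.exists_card_eq
  have h3 : Nat.card R ∣ Nat.card H := Subgroup.card_subgroup_dvd_card _
  rcases Nat.lt_or_ge k 2 with h | h
  · interval_cases k
    · exfalso
      rw [pow_zero] at hk
      exact R.ne_bot_of_dvd_card h1 (Subgroup.card_eq_one.mp hk)
    · rw [hk, pow_one]
  · exfalso
    exact h2 ((pow_dvd_pow q h).trans (hk ▸ h3))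

theorem sylow_arith {H : Type*} [Group H] [Finite H] {q : ℕ} [Fact q.Prime] (R : Sylow q H) :
    (Subgroup.normalizer ((R : Subgroup H) : Set H)).index % q = 1 % q ∧
    (Subgroup.normalizer ((R : Subgroup H) : Set H)).index *
      Nat.card (Subgroup.normalizer ((R : Subgroup H) : Set H)) = Nat.card H ∧
    Nat.card R ∣ Nat.card (Subgroup.normalizer ((R : Subgroup H) : Set H)) := by
  refine ⟨?_, Subgroup.index_mul_card _, Subgroup.card_dvd_of_le Subgroup.le_normalizer⟩
  have h1 := R.card_eq_index_normalizer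
  have h2 : Nat.card (Sylow q H) % q = 1 % q := card_sylow_modEq_one q H
  rw [h1] at h2
  exact h2

theorem burnside12 {H : Type*} [Group H] [Finite H] (hH : Nat.card H = 12) (Q : Sylow 3 H)
    (hQ : Nat.card Q = 3) (hN : Nat.card (Subgroup.normalizer ((Q : Subgroup H) : Set H)) = 3) :
    ∃ V₀ : Subgroup H, V₀.Normal ∧ Nat.card V₀ = 4 := by
  haveI : Fact (Nat.Prime 3) := ⟨by norm_num⟩
  have hNQ : (Q : Subgroup H) = Subgroup.normalizer ((Q : Subgroup H) : Set H) :=
    Subgroup.eq_of_le_of_card_ge Subgroup.le_normalizer (by rw [hN]; exact hQ.ge)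
  have hcyc : IsCyclic (Q : Subgroup H) := isCyclic_of_prime_card hQ
  have hle : Subgroup.normalizer ((Q : Subgroup H) : Set H) ≤
      Subgroup.centralizer ((Q : Subgroup H) : Set H) := by
    rw [← hNQ]
    intro a ha
    rw [Subgroup.mem_centralizer_iff]
    intro b hb
    obtain ⟨g, hg⟩ := IsCyclic.exists_generator (α := (Q : Subgroup H))
    obtain ⟨i, hi⟩ := hg ⟨a, ha⟩
    obtain ⟨j, hj⟩ := hg ⟨b, hb⟩
    have : (⟨b, hb⟩ : (Q : Subgroup H)) * ⟨a, ha⟩ = ⟨a, ha⟩ * ⟨b, hb⟩ := by
      rw [← hi, ← hj]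
      simp only
      rw [← zpow_add, ← zpow_add, add_comm]
    exact congrArg Subtype.val this
  have hc := MonoidHom.ker_transferSylow_isComplement' Q hle
  have hcard := hc.card_mul_card
  refine ⟨(MonoidHom.transferSylow Q hle).ker, MonoidHom.normal_ker _, ?_⟩
  rw [hH] at hcard
  have hQ' : Nat.card (Q : Subgroup H) = 3 := hQ
  rw [hQ'] at hcard
  omega

section
variable {G : Type*} [Group G] [Finite G] [IsSimpleGroup G]

theorem isSyl_of_card (h : Nat.card G = 168) (p : ℕ) [Fact p.Prime] (hp : ¬ p ^ 2 ∣ 168)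
    {Q : Subgroup G} (hQ : Nat.card Q = p) : IsSyl p Q ⊤ := by
  apply isSyl_of_not_dvd_relIndex le_top (IsPGroup.of_card (n := 1) (by rw [hQ, pow_one]))
  rw [Subgroup.relIndex_top_right]
  intro hd
  apply hp
  rw [← h, ← Q.card_mul_index, hQ, pow_two]
  exact Nat.mul_dvd_mul_left p hd

theorem card_norm3 (h : Nat.card G = 168) {Q : Subgroup G} (hQ : Nat.card Q = 3) :
    Nat.card (Subgroup.normalizer (Q : Set G)) = 6 := by
  haveI : Fact (Nat.Prime 3) := ⟨by norm_num⟩
  obtain ⟨Q', rfl⟩ := (isSyl_of_card h 3 (by norm_num) hQ).exists_sylow_top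
  have h1 := Q'.card_eq_index_normalizer
  rw [(Cfsg.Agent.S1003.result h).2.1] at h1
  have h2 := Subgroup.index_mul_card (Subgroup.normalizer ((Q' : Subgroup G) : Set G))
  rw [h] at h2
  have h3 : (Subgroup.normalizer ((Q' : Subgroup G) : Set G)).index = 28 := h1.symm
  rw [h3] at h2
  omega

theorem card_norm7 (h : Nat.card G = 168) {Q : Subgroup G} (hQ : Nat.card Q = 7) :
    Nat.card (Subgroup.normalizer (Q : Set G)) = 21 := by
  haveI : Fact (Nat.Prime 7) := ⟨by norm_num⟩
  obtain ⟨Q', rfl⟩ := (isSyl_of_card h 7 (by norm_num) hQ).exists_sylow_top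
  have h1 := Q'.card_eq_index_normalizer
  rw [(Cfsg.Agent.S1003.result h).2.2] at h1
  have h2 := Subgroup.index_mul_card (Subgroup.normalizer ((Q' : Subgroup G) : Set G))
  rw [h] at h2
  have h3 : (Subgroup.normalizer ((Q' : Subgroup G) : Set G)).index = 8 := h1.symm
  rw [h3] at h2
  omega

theorem norm3_le (h : Nat.card G = 168) {Q : Subgroup G} (hQ : Nat.card Q = 3) :
    ∃ K : Subgroup G, Nat.card K = 24 ∧ Subgroup.normalizer (Q : Set G) ≤ K := by
  haveI : Fact (Nat.Prime 3) := ⟨by norm_num⟩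
  haveI : Fact (Nat.Prime 2) := ⟨Nat.prime_two⟩
  obtain ⟨T⟩ : Nonempty (Sylow 2 G) := inferInstance
  obtain ⟨U₁, -, -, -, k1, -⟩ := exists_klein h T
  obtain ⟨e⟩ := (Cfsg.Agent.S1007.result h T).2.2 U₁ k1
  have hK24 := card_norm_klein h T U₁ k1
  set K₀ := Subgroup.normalizer (U₁ : Set G) with hK₀
  let φ : Equiv.Perm (Fin 4) →* G := K₀.subtype.comp e.symm.toMonoidHom
  have hφ : Function.Injective φ := fun a b hab => e.symm.injective (Subtype.ext hab)
  have hφK : ∀ σ, φ σ ∈ K₀ := fun σ => (e.symm σ).2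
  let c : Equiv.Perm (Fin 4) := Equiv.swap 0 1 * Equiv.swap 1 2
  let τ : Equiv.Perm (Fin 4) := Equiv.swap 0 1
  have hy3 : orderOf (φ c) = 3 := orderOf_eq_prime
    (by rw [← map_pow, (by decide : c ^ 3 = 1), map_one])
    (fun h1 => absurd (hφ (by rw [h1, map_one]) : c = 1) (by decide))
  have ht2 : orderOf (φ τ) = 2 := orderOf_eq_prime
    (by rw [← map_pow, (by decide : τ ^ 2 = 1), map_one])
    (fun h1 => absurd (hφ (by rw [h1, map_one]) : τ = 1) (by decide))
  have hinv : φ τ * φ c * (φ τ)⁻¹ = (φ c)⁻¹ := by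
    rw [← map_inv, ← map_inv, ← map_mul, ← map_mul, (by decide : τ * c * τ⁻¹ = c⁻¹)]
  set Q₁ := Subgroup.zpowers (φ c) with hQ₁
  have hQ₁3 : Nat.card Q₁ = 3 := by rw [hQ₁, Nat.card_zpowers, hy3]
  have hN6 := card_norm3 h hQ₁3
  have hyN : φ c ∈ Subgroup.normalizer (Q₁ : Set G) :=
    Subgroup.le_normalizer (Subgroup.mem_zpowers _)
  have htN : φ τ ∈ Subgroup.normalizer (Q₁ : Set G) := by
    rw [mem_normalizer_iff_map_conj, hQ₁, MonoidHom.map_zpowers]
    show Subgroup.zpowers (φ τ * φ c * (φ τ)⁻¹) = _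
    rw [hinv, Subgroup.zpowers_inv]
  have hle : Subgroup.normalizer (Q₁ : Set G) ≤ K₀ := by
    have h6 : 6 ≤ Nat.card (Subgroup.normalizer (Q₁ : Set G) ⊓ K₀ : Subgroup G) := by
      have d3 : 3 ∣ Nat.card (Subgroup.normalizer (Q₁ : Set G) ⊓ K₀ : Subgroup G) := by
        rw [← hy3]
        exact Subgroup.orderOf_dvd_natCard _ ⟨hyN, hφK c⟩
      have d2 : 2 ∣ Nat.card (Subgroup.normalizer (Q₁ : Set G) ⊓ K₀ : Subgroup G) := by
        rw [← ht2]
        exact Subgroup.orderOf_dvd_natCard _ ⟨htN, hφK τ⟩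
      have hpos : 0 < Nat.card (Subgroup.normalizer (Q₁ : Set G) ⊓ K₀ : Subgroup G) :=
        Nat.card_pos
      omega
    have heq : (Subgroup.normalizer (Q₁ : Set G) ⊓ K₀ : Subgroup G) =
        Subgroup.normalizer (Q₁ : Set G) :=
      Subgroup.eq_of_le_of_card_ge inf_le_left (by rw [hN6]; exact h6)
    rw [← heq]
    exact inf_le_right
  obtain ⟨m, -, hm⟩ := (isSyl_of_card h 3 (by norm_num) hQ₁3).conj
    (isSyl_of_card h 3 (by norm_num) hQ)
  refine ⟨K₀.map (MulAut.conj m).toMonoidHom, by rw [card_map_conj, hK24], ?_⟩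
  rw [hm, normalizer_map_conj]
  exact Subgroup.map_mono hle

end

section
variable {G : Type*} [Group G] [Finite G] [IsSimpleGroup G]

theorem card_coatom (h : Nat.card G = 168) {M : Subgroup G} (hM : IsCoatom M) :
    Nat.card M = 24 ∨ (Nat.card M = 21 ∧ ∃ P : Subgroup G, Nat.card P = 7 ∧
      M = Subgroup.normalizer (P : Set G)) := by
  haveI : Fact (Nat.Prime 2) := ⟨Nat.prime_two⟩
  haveI : Fact (Nat.Prime 3) := ⟨by norm_num⟩
  haveI : Fact (Nat.Prime 7) := ⟨by norm_num⟩
  have hfac := Cfsg.Agent.Lib.Helper12.card_dvd_factorial_index_of_simple M hM.1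
  have himc := M.index_mul_card
  rw [h] at hfac himc
  have hi7 : 7 ≤ M.index :=
    ((by norm_num : Nat.Prime 7).dvd_factorial).mp (dvd_trans (by norm_num) hfac)
  have hm24 : Nat.card M ≤ 24 := by nlinarith
  have hmpos : 0 < Nat.card M := Nat.card_pos
  have hmd : Nat.card M ∣ 168 := ⟨M.index, by rw [← himc, mul_comm]⟩
  by_cases h7 : 7 ∣ Nat.card M
  · right
    obtain ⟨P₀⟩ : Nonempty (Sylow 7 M) := inferInstance
    have hP₀ : Nat.card P₀ = 7 := sylow_card_prime P₀ h7
      (fun h49 => by have := Nat.le_of_dvd hmpos h49; omega)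
    obtain ⟨a1, a2, a3⟩ := sylow_arith P₀
    rw [hP₀] at a3
    obtain ⟨c, hc⟩ := a3
    have hidx : (Subgroup.normalizer ((P₀ : Subgroup M) : Set M)).index = 1 := by
      generalize (Subgroup.normalizer ((P₀ : Subgroup M) : Set M)).index = i at a1 a2
      rw [hc] at a2
      have hcpos : 0 < c := by
        rcases Nat.eq_zero_or_pos c with rfl | h'
        · simp at a2; omega
        · exact h'
      have : i * 7 ≤ 24 := by nlinarith
      omega
    haveI hn : (P₀ : Subgroup M).Normal :=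
      Subgroup.normalizer_eq_top_iff.mp (Subgroup.index_eq_one.mp hidx)
    have hP7 : Nat.card ((P₀ : Subgroup M).map M.subtype) = 7 := by
      rw [Subgroup.card_map_of_injective M.subtype_injective]; exact hP₀
    have hle := le_normalizer_map_subtype (P₀ : Subgroup M)
    have heq := eq_of_coatom hM (norm_ne_top h (by rw [hP7]; norm_num) (by rw [hP7]; norm_num)) hle
    exact ⟨by rw [← heq]; exact card_norm7 h hP7, _, hP7, heq.symm⟩
  · left
    have hm24d : Nat.card M ∣ 24 := by
      have hcop : Nat.Coprime (Nat.card M) 7 :=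
        ((Nat.Prime.coprime_iff_not_dvd (by norm_num)).mpr h7).symm
      exact hcop.dvd_of_dvd_mul_left (by simpa using hmd)
    by_cases h3 : 3 ∣ Nat.card M
    · by_contra hne
      obtain ⟨Q₀⟩ : Nonempty (Sylow 3 M) := inferInstance
      have hQ₀ : Nat.card Q₀ = 3 := sylow_card_prime Q₀ h3
        (fun h9 => by
          have : 9 ∣ 24 := dvd_trans h9 hm24d
          omega)
      obtain ⟨a1, a2, a3⟩ := sylow_arith Q₀
      rw [hQ₀] at a3
      obtain ⟨c, hc⟩ := a3
      by_cases hidx : (Subgroup.normalizer ((Q₀ : Subgroup M) : Set M)).index = 1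
      · haveI hn : (Q₀ : Subgroup M).Normal :=
          Subgroup.normalizer_eq_top_iff.mp (Subgroup.index_eq_one.mp hidx)
        have hQ3 : Nat.card ((Q₀ : Subgroup M).map M.subtype) = 3 := by
          rw [Subgroup.card_map_of_injective M.subtype_injective]; exact hQ₀
        have hle := le_normalizer_map_subtype (Q₀ : Subgroup M)
        obtain ⟨K, hK, hNK⟩ := norm3_le h hQ3
        have := eq_of_coatom hM (coatom_of_card h hK).1 (hle.trans hNK)
        exact hne (by rw [← this, hK])
      · -- index 4, order 12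
        have hkey : Nat.card M = 12 ∧
            Nat.card (Subgroup.normalizer ((Q₀ : Subgroup M) : Set M)) = 3 := by
          generalize (Subgroup.normalizer ((Q₀ : Subgroup M) : Set M)).index = i at a1 a2 hidx
          rw [hc] at a2 ⊢
          generalize Nat.card M = m at *
          have hm : m ≤ 24 := hm24
          have hi8 : i ≤ 8 := by
            rcases Nat.eq_zero_or_pos c with rfl | h'
            · simp at a2; omega
            · nlinarith
          have hc8 : c ≤ 8 := by
            rcases Nat.eq_zero_or_pos i with rfl | h'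
            · simp at a2; omega
            · nlinarith
          interval_cases i <;> interval_cases c <;> omega
        obtain ⟨V₀, hV₀n, hV₀⟩ := burnside12 hkey.1 Q₀ hQ₀ hkey.2
        have hV4 : Nat.card (V₀.map M.subtype) = 4 := by
          rw [Subgroup.card_map_of_injective M.subtype_injective]; exact hV₀
        have hle := le_normalizer_map_subtype V₀
        have heq := eq_of_coatom hM (norm_ne_top h (by rw [hV4]; norm_num) (by rw [hV4]; norm_num))
          hle
        obtain ⟨T, hT⟩ := (IsPGroup.of_card (p := 2) (n := 2)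
          (by rw [hV4]; norm_num) : IsPGroup 2 (V₀.map M.subtype)).exists_le_sylow
        have hTN := Cfsg.Agent.S1007.le_norm_of_card hT hV4 (card_sylow2 h T)
        rw [heq] at hTN
        have := Subgroup.card_dvd_of_le hTN
        rw [card_sylow2 h T, hkey.1] at this
        omega
    · have hm8 : Nat.card M ∣ 2 ^ 3 := by
        have hcop : Nat.Coprime (Nat.card M) 3 :=
          ((Nat.Prime.coprime_iff_not_dvd (by norm_num)).mpr h3).symm
        exact hcop.dvd_of_dvd_mul_left (by simpa using hm24d)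
      obtain ⟨k, -, hk⟩ := (Nat.dvd_prime_pow Nat.prime_two).mp hm8
      obtain ⟨K, hK, hMK⟩ := two_group_le h M (IsPGroup.of_card hk)
      have := eq_of_coatom hM (coatom_of_card h hK).1 hMK
      rw [← this, hK]

end

def PV (σ : Equiv.Perm (Fin 4)) : Prop := σ * σ = 1 ∧ Equiv.Perm.sign σ = 1

instance : DecidablePred PV := fun σ => by unfold PV; infer_instance

def V4 : Subgroup (Equiv.Perm (Fin 4)) where
  carrier := {σ | PV σ}
  mul_mem' := by
    intro a b ha hb
    exact (by decide +kernel : ∀ a b : Equiv.Perm (Fin 4), PV a → PV b → PV (a * b)) a b ha hb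
  one_mem' := by show PV 1; decide +kernel
  inv_mem' := by
    intro a ha
    exact (by decide +kernel : ∀ a : Equiv.Perm (Fin 4), PV a → PV a⁻¹) a ha

theorem V4_normal : V4.Normal :=
  ⟨fun n hn g => (by decide +kernel : ∀ n g : Equiv.Perm (Fin 4), PV n → PV (g * n * g⁻¹)) n g hn⟩

theorem card_V4 : Nat.card V4 = 4 := by
  have : Nat.card V4 = Nat.card {x : Equiv.Perm (Fin 4) // PV x} := rfl
  rw [this, Nat.card_eq_fintype_card]
  decide +kernel

theorem sq_V4 : ∀ x ∈ V4, x * x = 1 := fun _ hx => hx.1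

theorem klein_map' {H G : Type*} [Group H] [Group G] (f : H →* G) (hf : Function.Injective f)
    (A : Subgroup H) (hc : Nat.card A = 4) (h2 : ∀ x ∈ A, x * x = 1) : IsKleinFour ↥(A.map f) := by
  have hcard : Nat.card ↥(A.map f) = 4 := by rw [Subgroup.card_map_of_injective hf, hc]
  have hd : Monoid.exponent ↥(A.map f) ∣ 2 := by
    apply Monoid.exponent_dvd_of_forall_pow_eq_one
    rintro ⟨_, x, hx, rfl⟩
    apply Subtype.ext
    show (f x) ^ 2 = 1
    rw [← map_pow, pow_two, h2 x hx, map_one]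
  rcases (Nat.dvd_prime Nat.prime_two).mp hd with h | h
  · exfalso
    rw [Monoid.exp_eq_one_iff] at h
    have := Nat.card_of_subsingleton (1 : ↥(A.map f))
    omega
  · exact ⟨hcard, h⟩

theorem sq_of_klein {G : Type*} [Group G] {U : Subgroup G} (k : IsKleinFour U) :
    ∀ x ∈ U, x * x = 1 := fun x hx =>
  congrArg Subtype.val (IsKleinFour.mul_self (⟨x, hx⟩ : U))

/-- In a simple group of order 168 every maximal subgroup is either isomorphic to the symmetric group of degree 4 or non-abelian of order 21; the maximal subgroups of order 21 form one conjugacy class and those isomorphic to the symmetric group of degree 4 form exactly two conjugacy classes. -/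
theorem result {G : Type*} [Group G] [Finite G] [IsSimpleGroup G] (h : Nat.card G = 168) : (∀ M : Subgroup G, IsCoatom M → Nonempty (↥M ≃* Equiv.Perm (Fin 4)) ∨ (Nat.card ↥M = 21 ∧ ¬ IsMulCommutative ↥M)) ∧ (∀ M M' : Subgroup G, IsCoatom M → IsCoatom M' → Nat.card ↥M = 21 → Nat.card ↥M' = 21 → ∃ g : G, M' = M.map (MulAut.conj g).toMonoidHom) ∧ ∃ M₁ M₂ : Subgroup G, IsCoatom M₁ ∧ IsCoatom M₂ ∧ Nonempty (↥M₁ ≃* Equiv.Perm (Fin 4)) ∧ Nonempty (↥M₂ ≃* Equiv.Perm (Fin 4)) ∧ (∀ g : G, M₂ ≠ M₁.map (MulAut.conj g).toMonoidHom) ∧ ∀ M : Subgroup G, IsCoatom M → Nonempty (↥M ≃* Equiv.Perm (Fin 4)) → ∃ g : G, M = M₁.map (MulAut.conj g).toMonoidHom ∨ M = M₂.map (MulAut.conj g).toMonoidHom := by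
  haveI : Fact (Nat.Prime 2) := ⟨Nat.prime_two⟩
  haveI : Fact (Nat.Prime 3) := ⟨by norm_num⟩
  haveI : Fact (Nat.Prime 7) := ⟨by norm_num⟩
  have horders := (Cfsg.Agent.S1005.result h).1
  have hiso24 : ∀ K : Subgroup G, Nat.card K = 24 → Nonempty (K ≃* Equiv.Perm (Fin 4)) := by
    intro K hK
    apply Cfsg.Agent.S1012.result hK
    intro x hx
    rw [← Subgroup.orderOf_coe] at hx
    rcases horders (x : G) with h' | h' | h' | h' | h' <;> omega
  refine ⟨?_, ?_, ?_⟩
  · intro M hM
    rcases card_coatom h hM with h24 | ⟨h21, -⟩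
    · left; exact hiso24 M h24
    · right
      refine ⟨h21, fun hc => ?_⟩
      obtain ⟨x, hx⟩ := exists_prime_orderOf_dvd_card' (G := M) 3 (by rw [h21]; norm_num)
      obtain ⟨y, hy⟩ := exists_prime_orderOf_dvd_card' (G := M) 7 (by rw [h21]; norm_num)
      have hcomm : Commute x y := hc.is_comm.comm x y
      have h1 := hcomm.orderOf_mul_eq_mul_orderOf_of_coprime (by rw [hx, hy]; norm_num)
      rw [hx, hy, ← Subgroup.orderOf_coe] at h1
      rcases horders ((x * y : M) : G) with h' | h' | h' | h' | h' <;> omega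
  · intro M M' hM hM' h21 h21'
    rcases card_coatom h hM with h24 | ⟨-, P, hP, rfl⟩
    · omega
    rcases card_coatom h hM' with h24 | ⟨-, P', hP', rfl⟩
    · omega
    obtain ⟨m, -, hm⟩ := (isSyl_of_card h 7 (by norm_num) hP).conj
      (isSyl_of_card h 7 (by norm_num) hP')
    exact ⟨m, by rw [hm, normalizer_map_conj]⟩
  · obtain ⟨T⟩ : Nonempty (Sylow 2 G) := inferInstance
    obtain ⟨U₁, U₂, h1, h2, k1, k2, hne, hall⟩ := exists_klein h T
    have c1 := card_norm_klein h T U₁ k1
    have c2 := card_norm_klein h T U₂ k2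
    have hT8 := card_sylow2 h T
    have hTN1 := Cfsg.Agent.S1007.le_norm_of_card h1 k1.card_four hT8
    have hTN2 := Cfsg.Agent.S1007.le_norm_of_card h2 k2.card_four hT8
    refine ⟨Subgroup.normalizer (U₁ : Set G), Subgroup.normalizer (U₂ : Set G),
      coatom_of_card h c1, coatom_of_card h c2, hiso24 _ c1, hiso24 _ c2, ?_, ?_⟩
    · intro g hg
      rw [← normalizer_map_conj] at hg
      obtain ⟨W, hW⟩ : ∃ W, W = U₁.map (MulAut.conj g).toMonoidHom := ⟨_, rfl⟩
      rw [← hW] at hg
      have kW : IsKleinFour W := by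
        rw [hW]
        exact klein_map' _ (MulAut.conj g).injective U₁ k1.card_four (sq_of_klein k1)
      have hs : IsSyl 2 (T : Subgroup G) (Subgroup.normalizer (U₂ : Set G)) :=
        (isSyl_top T).of_le hTN2 le_top
      have hWle : W ≤ Subgroup.normalizer (U₂ : Set G) := by rw [hg]; exact Subgroup.le_normalizer
      obtain ⟨m, hm, hWm⟩ := hs.exists_conj_ge hWle
        (IsPGroup.of_card (n := 2) (by rw [kW.card_four]; norm_num))
      have hWT : W ≤ (T : Subgroup G) := by
        rw [le_map_conj_iff] at hWm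
        rw [hg] at hm
        rwa [map_conj_eq_of_mem_normalizer (Subgroup.inv_mem _ hm)] at hWm
      rcases hall W hWT kW with hW1 | hW2
      · rw [hW1] at hg
        have hsup : U₁ ⊔ U₂ = (T : Subgroup G) := by
          apply Subgroup.eq_of_le_of_card_ge (sup_le h1 h2)
          have d2 : Nat.card (U₁ ⊔ U₂ : Subgroup G) ≠ 4 := by
            intro h4
            have e1 : U₁ = U₁ ⊔ U₂ :=
              Subgroup.eq_of_le_of_card_ge le_sup_left (by rw [h4, k1.card_four])
            have h21 : U₂ ≤ U₁ := by rw [e1]; exact le_sup_right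
            exact hne (Subgroup.eq_of_le_of_card_ge h21 (by rw [k1.card_four, k2.card_four])).symm
          have d1 : Nat.card U₁ ∣ Nat.card (U₁ ⊔ U₂ : Subgroup G) :=
            Subgroup.card_dvd_of_le le_sup_left
          rw [k1.card_four] at d1
          rw [hT8]
          obtain ⟨j, hj⟩ := d1
          have : 0 < Nat.card (U₁ ⊔ U₂ : Subgroup G) := Nat.card_pos
          omega
        have hNT : Subgroup.normalizer (U₁ : Set G) ≤
            Subgroup.normalizer ((T : Subgroup G) : Set G) := by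
          intro x hx
          have hx2 : x ∈ Subgroup.normalizer (U₂ : Set G) := by rw [hg]; exact hx
          rw [mem_normalizer_iff_map_conj, ← hsup, Subgroup.map_sup,
            map_conj_eq_of_mem_normalizer hx, map_conj_eq_of_mem_normalizer hx2]
        rw [(Cfsg.Agent.S1004.result h T).2.1] at hNT
        have := Subgroup.card_le_of_le hNT
        rw [c1, hT8] at this
        omega
      · exact (Cfsg.Agent.S1007.result h T).2.1 U₁ U₂ h1 h2 k1 k2 hne g (hW.symm.trans hW2)
    · rintro M hM ⟨e⟩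
      let φ : Equiv.Perm (Fin 4) →* G := M.subtype.comp e.symm.toMonoidHom
      have hφ : Function.Injective φ := fun a b hab => e.symm.injective (Subtype.ext hab)
      obtain ⟨V, hV⟩ : ∃ V, V = V4.map φ := ⟨_, rfl⟩
      have kV : IsKleinFour V := by
        rw [hV]; exact klein_map' φ hφ V4 card_V4 sq_V4
      have hMV : M ≤ Subgroup.normalizer (V : Set G) := by
        have h' : V = (V4.map e.symm.toMonoidHom).map M.subtype := by
          rw [hV, Subgroup.map_map]
        haveI : (V4.map e.symm.toMonoidHom).Normal := V4_normal.map _ e.symm.surjective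
        rw [h']; exact le_normalizer_map_subtype _
      have heq := eq_of_coatom hM
        (norm_ne_top h (by rw [kV.card_four]; norm_num) (by rw [kV.card_four]; norm_num)) hMV
      obtain ⟨c, -, hc⟩ := (isSyl_top T).exists_conj_ge le_top
        (IsPGroup.of_card (n := 2) (by rw [kV.card_four]; norm_num) : IsPGroup 2 V)
      rw [le_map_conj_iff] at hc
      have kV' := klein_map' (MulAut.conj c⁻¹).toMonoidHom (MulAut.conj c⁻¹).injective V kV.card_four
        (sq_of_klein kV)
      have hback : V = (V.map (MulAut.conj c⁻¹).toMonoidHom).map (MulAut.conj c).toMonoidHom := by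
        rw [map_conj_map_conj, mul_inv_cancel, map_conj_one]
      refine ⟨c, ?_⟩
      rcases hall _ hc kV' with h' | h'
      · left
        rw [h'] at hback
        rw [← heq, hback, normalizer_map_conj]
      · right
        rw [h'] at hback
        rw [← heq, hback, normalizer_map_conj]

end Cfsg.Agent.S1008
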