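import Cfsg.Statements.S1009
import Cfsg.Agent.Lib.Helper17.Syl

set_option autoImplicit false

open Cfsg Cfsg.Agent.Lib.Helper17

namespace Cfsg.Agent.S1009

theorem result {G : Type*} [Group G] [Finite G] (p : ℕ) [Fact p.Prime] (hab : ∀ P : Sylow p G, IsMulCommutative ↥(P : Subgroup G)) : ∃ P Q : Sylow p G, (P : Subgroup G) ⊓ (Q : Subgroup G) = ⨅ R : Sylow p G, (R : Subgroup G) := by
  classical
  obtain ⟨⟨P, Q⟩, hmin⟩ := Finite.exists_min (fun x : Sylow p G × Sylow p G => Nat.card ↥((x.1 : Subgroup G) ⊓ (x.2 : Subgroup G)))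
  refine ⟨P, Q, le_antisymm (le_iInf fun R => ?_) ?_⟩
  swap
  · exact le_inf (iInf_le _ P) (iInf_le _ Q)
  set D := (P : Subgroup G) ⊓ (Q : Subgroup G) with hD
  have hcomm : ∀ S : Sylow p G, D ≤ S → (S : Subgroup G) ≤ Subgroup.normalizer (D : Set G) := by
    intro S hDS
    apply le_normalizer_of_conj_mem
    intro k hk x hx
    have h1 : k * x = x * k := by
      have := (hab S).is_comm.comm (⟨k, hk⟩ : (S : Subgroup G)) ⟨x, hDS hx⟩
      exact congrArg Subtype.val this
    rw [h1, mul_inv_cancel_right]; exact hx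
  have hPN := hcomm P inf_le_left
  have hQN := hcomm Q inf_le_right
  set N := Subgroup.normalizer (D : Set G) with hN
  have hPsyl : IsSyl p (P : Subgroup G) N := (isSyl_top P).of_le hPN le_top
  obtain ⟨m, hm, hle⟩ := hPsyl.exists_conj_ge (A := (R : Subgroup G) ⊓ N) inf_le_right
    (R.2.to_le inf_le_left)
  let R' : Sylow p G := (m⁻¹ : G) • R
  have hR' : (R' : Subgroup G) = (R : Subgroup G).map (MulAut.conj m⁻¹).toMonoidHom := rfl
  have h1 : (R' : Subgroup G) ⊓ Q ≤ D := by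
    rintro x ⟨hx1, hx2⟩
    refine ⟨?_, hx2⟩
    have hx1' : x ∈ (R : Subgroup G).map (MulAut.conj m⁻¹).toMonoidHom := hx1
    rw [mem_map_conj] at hx1'
    have hxN : x ∈ N := hQN hx2
    have h2 : m * x * m⁻¹ ∈ (R : Subgroup G) ⊓ N :=
      ⟨(by simpa using hx1' : m * x * m⁻¹ ∈ (R : Subgroup G)), N.mul_mem (N.mul_mem hm hxN) (N.inv_mem hm)⟩
    have h3 := hle h2
    rw [mem_map_conj] at h3
    exact (by simpa [mul_assoc] using h3 : x ∈ (P : Subgroup G))
  have h2 : (R' : Subgroup G) ⊓ Q = D := by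
    apply Subgroup.eq_of_le_of_card_ge h1
    exact hmin (R', Q)
  intro d hd
  have hd' : m⁻¹ * d * m ∈ D := by
    have := conj_mem_of_le_normalizer (le_refl N) (N.inv_mem hm) hd
    simpa using this
  have h3 : m⁻¹ * d * m ∈ (R' : Subgroup G) := by
    rw [← h2] at hd'
    exact hd'.1
  rw [hR', mem_map_conj] at h3
  exact (by simpa [mul_assoc] using h3 : d ∈ (R : Subgroup G))

end Cfsg.Agent.S1009
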