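import Cfsg.Statements.S1013
-- import your own Cfsg.Agent.* helpers here
import Mathlib

set_option autoImplicit false
open Cfsg

namespace Cfsg.Agent.S1013

theorem trans_of_normal {α : Type*} [Finite α] {H : Type*} [Group H] [MulAction H α]
    [FaithfulSMul H α] [MulAction.IsPretransitive H α] (hp : (Nat.card α).Prime)
    (N : Subgroup H) [N.Normal] (hN : N ≠ ⊥) : MulAction.IsPretransitive N α := by
  haveI : MulAction.IsPreprimitive H α := MulAction.IsPreprimitive.of_prime_card hp
  apply MulAction.IsQuasiPreprimitive.isPretransitive_of_normal (G := H)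
  intro h
  apply hN
  rw [eq_bot_iff]
  intro n hn
  rw [Subgroup.mem_bot]
  apply FaithfulSMul.eq_of_smul_eq_smul (α := α)
  intro a
  have h1 : a ∈ MulAction.fixedPoints N α := by rw [h]; trivial
  have h2 := h1 ⟨n, hn⟩
  rw [one_smul]; exact h2

theorem card_dvd_of_trans (α : Type*) (H : Type*) [Group H] [MulAction H α]
    [MulAction.IsPretransitive H α] [Nonempty α] : Nat.card α ∣ Nat.card H := by
  obtain ⟨a⟩ := ‹Nonempty α›
  rw [← MulAction.index_stabilizer_of_transitive H a]
  exact Subgroup.index_dvd_card _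

/-- Let G be a transitive permutation group of prime degree p having more than one Sylow p-subgroup, and suppose a Sylow p-subgroup P has prime index in its normalizer. Then G is simple. -/
theorem result {α : Type*} [Fintype α] [DecidableEq α] {p : ℕ} [Fact p.Prime] (hα : Fintype.card α = p) (G : Subgroup (Equiv.Perm α)) [MulAction.IsPretransitive ↥G α] (P : Sylow p ↥G) (hn : 1 < Nat.card (Sylow p ↥G)) (ht : (((P : Subgroup ↥G).subgroupOf (Subgroup.normalizer ((P : Subgroup ↥G) : Set ↥G))).index).Prime) : IsSimpleGroup ↥G := by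
  classical
  have hpp : p.Prime := Fact.out
  have hcα : Nat.card α = p := by rw [Nat.card_eq_fintype_card, hα]
  have hcαp : (Nat.card α).Prime := hcα ▸ hpp
  haveI : Nonempty α := by
    apply Fintype.card_pos_iff.mp; rw [hα]; exact hpp.pos
  have hGdvd : Nat.card G ∣ p.factorial := by
    have := Subgroup.card_subgroup_dvd_card G
    rwa [Nat.card_eq_fintype_card (α := Equiv.Perm α), Fintype.card_perm, hα] at this
  have hp2 : ¬ p ^ 2 ∣ Nat.card G := by
    intro h
    have h1 : p ^ 2 ∣ p.factorial := h.trans hGdvd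
    rw [← Nat.mul_factorial_pred hpp.ne_zero, pow_two] at h1
    have h2 : p ∣ (p - 1).factorial := Nat.dvd_of_mul_dvd_mul_left hpp.pos h1
    have h3 := hpp.dvd_factorial.mp h2
    have := hpp.pos
    omega
  have hpG : p ∣ Nat.card G := hcα ▸ card_dvd_of_trans α G
  have hcardS : ∀ Q : Sylow p G, Nat.card Q = p := by
    intro Q
    obtain ⟨k, hk⟩ := IsPGroup.iff_card.mp Q.2
    have h1 : p ∣ Nat.card Q := Q.dvd_card_of_dvd_card hpG
    have h2 : Nat.card Q ∣ Nat.card G := Subgroup.card_subgroup_dvd_card _
    rcases k with _ | _ | k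
    · rw [hk, pow_zero] at h1
      exact absurd (Nat.dvd_one.mp h1) hpp.one_lt.ne'
    · rw [hk]; simp
    · exfalso
      apply hp2
      refine dvd_trans ?_ h2
      rw [hk]
      exact pow_dvd_pow p (by omega)
  haveI : Nontrivial G := by
    rw [← Finite.one_lt_card_iff_nontrivial]
    exact lt_of_lt_of_le hpp.one_lt (Nat.le_of_dvd Nat.card_pos hpG)
  refine ⟨fun N hN => ?_⟩
  by_contra hcon
  push Not at hcon
  obtain ⟨hNb, hNt⟩ := hcon
  haveI := hN
  haveI hNtr : MulAction.IsPretransitive N α := trans_of_normal hcαp N hNb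
  have hpN : p ∣ Nat.card N := hcα ▸ card_dvd_of_trans α N
  have hPN : (P : Subgroup G) ≤ N := by
    obtain ⟨x, hx⟩ := exists_prime_orderOf_dvd_card' p hpN
    have hz : IsPGroup p (Subgroup.zpowers (x : G)) :=
      IsPGroup.of_card (n := 1) (by rw [Nat.card_zpowers, Subgroup.orderOf_coe, hx, pow_one])
    obtain ⟨Q, hQ⟩ := hz.exists_le_sylow
    have hQe : Subgroup.zpowers (x : G) = Q :=
      Subgroup.eq_of_le_of_card_ge hQ (by
        rw [hcardS Q, Nat.card_zpowers, Subgroup.orderOf_coe, hx])
    have hQN : (Q : Subgroup G) ≤ N := by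
      rw [← hQe, Subgroup.zpowers_le]; exact x.2
    obtain ⟨g, hg⟩ := MulAction.exists_smul_eq G Q P
    rw [← hg, Sylow.coe_subgroup_smul]
    intro y hy
    rw [Subgroup.mem_pointwise_smul_iff_inv_smul_mem] at hy
    have h1 := hQN hy
    have h2 := hN.conj_mem _ h1 g
    simpa [MulAut.smul_def, MulAut.conj_inv_apply, mul_assoc] using h2
  have hfr := Sylow.normalizer_sup_eq_top' P hPN
  set M := Subgroup.normalizer ((P : Subgroup G) : Set G) with hM
  have hPM : (P : Subgroup G) ≤ M := Subgroup.le_normalizer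
  have hmul : (P : Subgroup G).relIndex (M ⊓ N) * (M ⊓ N).relIndex M = (P : Subgroup G).relIndex M :=
    Subgroup.relIndex_mul_relIndex _ _ _ (le_inf hPM hPN) inf_le_left
  have ht' : ((P : Subgroup G).relIndex M).Prime := ht
  have hcase : (P : Subgroup G).relIndex (M ⊓ N) = 1 ∨ (M ⊓ N).relIndex M = 1 := by
    rcases ht'.eq_one_or_self_of_dvd _ ⟨_, hmul.symm⟩ with h | h
    · exact Or.inl h
    · right
      rw [h] at hmul
      exact Nat.eq_of_mul_eq_mul_left ht'.pos (by rw [hmul, mul_one])
  rcases hcase with h1 | h1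
  · rw [Subgroup.relIndex_eq_one] at h1
    let P' : Sylow p N := P.subtype hPN
    have hP'c : (P' : Subgroup N) = (P : Subgroup G).subgroupOf N := Sylow.coe_subtype P hPN
    haveI : IsCyclic (P : Subgroup G) := isCyclic_of_prime_card (hcardS P)
    have hP' : Subgroup.normalizer ((P' : Subgroup N) : Set N) ≤
        Subgroup.centralizer ((P' : Subgroup N) : Set N) := by
      rw [hP'c, ← Subgroup.subgroupOf_normalizer_eq hPN]
      intro y hy
      rw [Subgroup.mem_subgroupOf] at hy
      have hyP : (y : G) ∈ (P : Subgroup G) := h1 ⟨hy, y.2⟩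
      rw [Subgroup.mem_centralizer_iff]
      intro z hz
      have hzP : (z : G) ∈ (P : Subgroup G) := hz
      have hc := (IsCyclic.isMulCommutative (α := (P : Subgroup G))).is_comm.comm ⟨(z : G), hzP⟩ ⟨(y : G), hyP⟩
      apply Subtype.ext
      have hc2 : (z : G) * (y : G) = (y : G) * (z : G) := congrArg Subtype.val hc
      exact hc2
    have hK := MonoidHom.ker_transferSylow_isComplement' P' hP'
    set K := (MonoidHom.transferSylow P' hP').ker with hKdef
    have hcK := hK.card_mul_card
    have hcP' : Nat.card (P' : Subgroup N) = p := by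
      rw [hP'c, Nat.card_congr (Subgroup.subgroupOfEquivOfLe hPN).toEquiv]
      exact hcardS P
    rw [hcP'] at hcK
    have hKb : K = ⊥ := by
      by_contra hKb
      haveI : MulAction.IsPretransitive K α := trans_of_normal hcαp K hKb
      have hpK : p ∣ Nat.card K := hcα ▸ card_dvd_of_trans α K
      apply hp2
      refine dvd_trans ?_ (Subgroup.card_subgroup_dvd_card N)
      rw [← hcK, pow_two]
      exact Nat.mul_dvd_mul_right hpK p
    rw [hKb, Subgroup.card_bot, one_mul] at hcK
    have hPNe : (P : Subgroup G) = N :=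
      Subgroup.eq_of_le_of_card_ge hPN (by rw [← hcK]; exact (hcardS P).ge)
    have hMt : M = ⊤ := by
      rw [hM, hPNe]
      exact Subgroup.normalizer_eq_top N
    have hn2 := Sylow.card_eq_index_normalizer P
    have hn3 : Nat.card (Sylow p G) = M.index := hn2
    rw [hn3, hMt, Subgroup.index_top] at hn
    exact lt_irrefl _ hn
  · rw [Subgroup.relIndex_eq_one] at h1
    apply hNt
    rw [← hfr]
    exact (sup_eq_right.mpr (h1.trans inf_le_right)).symm

end Cfsg.Agent.S1013
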