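import Cfsg.Statements.S1014
import Cfsg.Agent.Lib.Helper22.BrauerDeg

set_option autoImplicit false
open Cfsg

namespace Cfsg.Agent.S1014

set_option synthInstance.maxSize 1000 in
set_option synthInstance.maxHeartbeats 400000 in

/-- No finite simple group has order 1104 = 2^4 * 3 * 23. -/
theorem result {G : Type*} [Group G] [Finite G] [IsSimpleGroup G] : Nat.card G ≠ 1104 := by
  intro h
  haveI : Fact (Nat.Prime 23) := ⟨by norm_num⟩
  exact Cfsg.Agent.Lib.Helper22.brauer_kill (p := 23) 48 h (by norm_num) (by norm_num)
    (by decide +kernel)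

end Cfsg.Agent.S1014
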