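import Cfsg.Statements.S1015
import Cfsg.Agent.Lib.Helper22.BrauerDeg2
import Cfsg.Agent.S0904

set_option autoImplicit false
open Cfsg

namespace Cfsg.Agent.S1015

/-- No finite simple group has order 1200 = 2^4 * 3 * 5^2. -/
theorem result {G : Type*} [Group G] [Finite G] [IsSimpleGroup G] : Nat.card G ≠ 1200 := by
  intro h
  haveI : Fact (Nat.Prime 3) := ⟨by norm_num⟩
  obtain ⟨P⟩ : Nonempty (Sylow 3 G) := inferInstance
  have hC := Cfsg.Agent.S0904.result 2 5 3 4 2 Nat.prime_two Nat.prime_five (by norm_num)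
    (by norm_num) (by norm_num) (by rw [h]; norm_num) P
  obtain ⟨k, m, hkm, hk, hm, hm1, -⟩ :=
    Cfsg.Agent.Lib.Helper22.sylow_data_self_centralizing (p := 3) 400 h (by norm_num) (by norm_num)
      P hC
  have hm6 : m ≤ 3 - 1 := Nat.le_of_dvd (by norm_num) hm
  interval_cases m <;> omega

end Cfsg.Agent.S1015
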