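import Cfsg.Statements.S1017
import Cfsg.Agent.Lib.Helper22.BrauerDeg2
import Cfsg.Agent.S0904

set_option autoImplicit false
open Cfsg

namespace Cfsg.Agent.S1017

/-- No finite simple group has order 2016 = 2^5 * 3^2 * 7. -/
theorem result {G : Type*} [Group G] [Finite G] [IsSimpleGroup G] : Nat.card G ≠ 2016 := by
  intro h
  haveI : Fact (Nat.Prime 7) := ⟨by norm_num⟩
  obtain ⟨P⟩ : Nonempty (Sylow 7 G) := inferInstance
  have hC := Cfsg.Agent.S0904.result 2 3 7 5 2 Nat.prime_two Nat.prime_three (by norm_num)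
    (by norm_num) (by norm_num) (by rw [h]; norm_num) P
  obtain ⟨k, m, hkm, hk, hm, hm1, -⟩ :=
    Cfsg.Agent.Lib.Helper22.sylow_data_self_centralizing (p := 7) 288 h (by norm_num) (by norm_num)
      P hC
  have hm6 : m ≤ 7 - 1 := Nat.le_of_dvd (by norm_num) hm
  interval_cases m <;> omega

end Cfsg.Agent.S1017
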