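import Cfsg.Statements.S1018
import Mathlib

set_option autoImplicit false
open Cfsg

namespace Cfsg.Agent.S1018

section
variable {G : Type*} [Group G] [Finite G] {p : ℕ} [Fact p.Prime]

theorem smul_mk_iff {H : Subgroup G} (t g : G) :
    t • (QuotientGroup.mk g : G ⧸ H) = QuotientGroup.mk g ↔ g⁻¹ * t * g ∈ H := by
  rw [MulAction.Quotient.smul_mk, eq_comm, QuotientGroup.eq, smul_eq_mul, mul_assoc]

theorem mem_of_normalizer (R : Sylow p G) (y : G) (hy : orderOf y = p)
    (hn : y ∈ Subgroup.normalizer ((R : Subgroup G) : Set G)) : y ∈ (R : Subgroup G) := by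
  have h1 : IsPGroup p (Subgroup.zpowers y) := by
    apply IsPGroup.of_card (n := 1)
    rw [Nat.card_zpowers, hy, pow_one]
  have h2 : Subgroup.zpowers y ≤ Subgroup.normalizer ((R : Subgroup G) : Set G) := by
    rw [Subgroup.zpowers_le]; exact hn
  have h3 := h1.to_sup_of_normal_right' R.isPGroup' h2
  have h4 := R.is_maximal' h3 le_sup_right
  rw [← h4]
  exact (le_sup_left : Subgroup.zpowers y ≤ _) (Subgroup.mem_zpowers y)

theorem eq_zpowers (R : Sylow p G) (hR : Nat.card (R : Subgroup G) = p) (y : G) (hy : orderOf y = p)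
    (hm : y ∈ (R : Subgroup G)) : Subgroup.zpowers y = (R : Subgroup G) := by
  apply Subgroup.eq_of_le_of_card_ge
  · rw [Subgroup.zpowers_le]; exact hm
  · rw [Nat.card_zpowers, hy, hR]

theorem fix_unique (P : Sylow p G) (hP : Nat.card ↥(P : Subgroup G) = p) (y : G) (hy : orderOf y = p)
    (a b : G ⧸ Subgroup.normalizer ((P : Subgroup G) : Set G)) (ha : y • a = a) (hb : y • b = b) : a = b := by
  induction a using QuotientGroup.induction_on with | H g =>
  induction b using QuotientGroup.induction_on with | H h =>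
  rw [smul_mk_iff] at ha hb
  have key : ∀ g : G, g⁻¹ * y * g ∈ Subgroup.normalizer ((P : Subgroup G) : Set G) →
      Subgroup.zpowers y = ((g • P : Sylow p G) : Subgroup G) := by
    intro g hg
    have ho : orderOf (g⁻¹ * y * g) = p := by
      have : orderOf ((MulAut.conj g⁻¹) y) = orderOf y := MulEquiv.orderOf_eq _ _
      rw [← hy]
      simpa [MulAut.conj_apply] using this
    have hm := mem_of_normalizer P _ ho hg
    apply eq_zpowers _ _ y hy
    · rw [Sylow.smul_def, Sylow.pointwise_smul_def, Subgroup.mem_pointwise_smul_iff_inv_smul_mem]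
      simpa [MulAut.smul_def, MulAut.conj_inv_apply] using hm
    · have h1 := Sylow.card_eq_multiplicity (g • P)
      have h2 := Sylow.card_eq_multiplicity P
      rw [h1, ← h2, hP]
  have e : g • P = h • P := Sylow.ext ((key g ha).symm.trans (key h hb))
  rw [QuotientGroup.eq]
  apply Sylow.smul_eq_iff_mem_normalizer.1
  rw [mul_smul, ← e, ← mul_smul, inv_mul_cancel, one_smul]

end


/-- Let P be a Sylow p-subgroup of order p of a finite group G, and consider the action of G on the left cosets of the normalizer N of P. Then every element of order p fixes exactly one coset, and an element of N that does not centralize P fixes at most as many cosets as there are orbits of P. -/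
theorem result {G : Type*} [Group G] [Finite G] (p : ℕ) [Fact p.Prime] (P : Sylow p G) (hP : Nat.card ↥(P : Subgroup G) = p) : (∀ y : G, orderOf y = p → Nat.card (MulAction.fixedBy (G ⧸ Subgroup.normalizer ((P : Subgroup G) : Set G)) y) = 1) ∧ ∀ x : G, x ∈ Subgroup.normalizer ((P : Subgroup G) : Set G) → x ∉ Subgroup.centralizer ((P : Subgroup G) : Set G) → Nat.card (MulAction.fixedBy (G ⧸ Subgroup.normalizer ((P : Subgroup G) : Set G)) x) ≤ Nat.card (MulAction.orbitRel.Quotient ↥(P : Subgroup G) (G ⧸ Subgroup.normalizer ((P : Subgroup G) : Set G))) := by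
  have hpp : p.Prime := Fact.out
  refine ⟨?_, ?_⟩
  · intro y hy
    rw [Nat.card_eq_one_iff_unique]
    refine ⟨⟨?_⟩, ?_⟩
    · rintro ⟨a, ha⟩ ⟨b, hb⟩
      exact Subtype.ext (fix_unique P hP y hy a b ha hb)
    · have h1 : IsPGroup p (Subgroup.zpowers y) := by
        apply IsPGroup.of_card (n := 1)
        rw [Nat.card_zpowers, hy, pow_one]
      obtain ⟨R, hR⟩ := h1.exists_le_sylow
      obtain ⟨g, hg⟩ := MulAction.exists_smul_eq G P R
      refine ⟨⟨(QuotientGroup.mk g : G ⧸ _), ?_⟩⟩
      rw [MulAction.mem_fixedBy, smul_mk_iff]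
      apply Subgroup.le_normalizer
      have hy' : y ∈ ((g • P : Sylow p G) : Subgroup G) := hg ▸ hR (Subgroup.mem_zpowers y)
      rw [Sylow.smul_def, Sylow.pointwise_smul_def, Subgroup.mem_pointwise_smul_iff_inv_smul_mem] at hy'
      simpa [MulAut.smul_def, MulAut.conj_inv_apply] using hy'
  · intro x hxN hxC
    let f : MulAction.fixedBy (G ⧸ Subgroup.normalizer ((P : Subgroup G) : Set G)) x →
        MulAction.orbitRel.Quotient ↥(P : Subgroup G) (G ⧸ Subgroup.normalizer ((P : Subgroup G) : Set G)) :=
      fun w => Quotient.mk'' w.1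
    apply Nat.card_le_card_of_injective f
    rintro ⟨w, hw⟩ ⟨w', hw'⟩ hff
    apply Subtype.ext
    show w = w'
    have hrel : (MulAction.orbitRel ↥(P : Subgroup G) _) w w' := Quotient.eq''.1 hff
    rw [MulAction.orbitRel_apply] at hrel
    obtain ⟨⟨a, haP⟩, ha⟩ := hrel
    have ha' : a • w' = w := ha
    rw [MulAction.mem_fixedBy] at hw hw'
    -- c = a⁻¹ x a x⁻¹ fixes w'
    have hxa : x * a * x⁻¹ ∈ (P : Subgroup G) := (Subgroup.mem_normalizer_iff.1 hxN a).1 haP
    have hcP : a⁻¹ * (x * a * x⁻¹) ∈ (P : Subgroup G) := mul_mem (inv_mem haP) hxa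
    have hcfix : (a⁻¹ * (x * a * x⁻¹)) • w' = w' := by
      have h1 : x⁻¹ • w' = w' := by rw [inv_smul_eq_iff, hw']
      rw [mul_smul, mul_smul, mul_smul, h1, ha', hw, ← ha', inv_smul_smul]
    by_cases hc : a⁻¹ * (x * a * x⁻¹) = 1
    · -- x commutes with a
      by_cases ha1 : a = 1
      · rw [← ha', ha1, one_smul]
      · exfalso
        apply hxC
        rw [Subgroup.mem_centralizer_iff]
        intro b hb
        have hcomm : x * a = a * x := by
          have : x * a * x⁻¹ = a := by
            have := congrArg (fun t => a * t) hc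
            simpa using this
          calc x * a = (x * a * x⁻¹) * x := by group
            _ = a * x := by rw [this]
        have hb' : (⟨b, hb⟩ : (P : Subgroup G)) ∈ Subgroup.zpowers (⟨a, haP⟩ : (P : Subgroup G)) :=
          mem_zpowers_of_prime_card hP (by intro h; exact ha1 (congrArg Subtype.val h))
        obtain ⟨k, hk⟩ := Subgroup.mem_zpowers_iff.1 hb'
        have hk' : a ^ k = b := by
          have := congrArg Subtype.val hk
          simpa using this
        rw [← hk']
        exact ((Commute.zpow_right (show Commute x a from hcomm) k).eq).symm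
    · -- c has order p, fixes w' and base point
      have ho : orderOf (a⁻¹ * (x * a * x⁻¹)) = p := by
        have h1 : orderOf (a⁻¹ * (x * a * x⁻¹)) ∣ p := by
          have := orderOf_dvd_natCard (⟨_, hcP⟩ : (P : Subgroup G))
          rw [hP, Subgroup.orderOf_mk] at this
          exact this
        rcases (Nat.dvd_prime hpp).1 h1 with h | h
        · exact absurd (orderOf_eq_one_iff.1 h) hc
        · exact h
      have hbase : ∀ z ∈ (P : Subgroup G), z • (QuotientGroup.mk 1 : G ⧸ Subgroup.normalizer ((P : Subgroup G) : Set G)) = QuotientGroup.mk 1 := by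
        intro z hz
        rw [smul_mk_iff]
        simpa using Subgroup.le_normalizer hz
      have hw1 : w' = QuotientGroup.mk 1 := fix_unique P hP _ ho _ _ hcfix (hbase _ hcP)
      rw [← ha', hw1, hbase a haP]

end Cfsg.Agent.S1018
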