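import Mathlib
import Cfsg.Statements.S1019

set_option autoImplicit false

open Cfsg

namespace Cfsg.Agent.S1019

theorem fiber_card {G : Type*} [Group G] (x y : G) (h : IsConj x y) :
    Nat.card {g : G // g⁻¹ * x * g = y} = Nat.card (Subgroup.centralizer ({x} : Set G)) := by
  obtain ⟨c, hc⟩ := isConj_iff.mp h
  apply Nat.card_congr
  refine (Equiv.mulRight c).subtypeEquiv ?_
  intro g
  rw [Subgroup.mem_centralizer_singleton_iff]
  subst hc
  simp only [Equiv.coe_mulRight]
  constructor
  · intro h
    calc g * c * x = g * (c * x * c⁻¹) * c := by group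
      _ = g * (g⁻¹ * x * g) * c := by rw [h]
      _ = x * (g * c) := by group
  · intro h
    calc g⁻¹ * x * g = g⁻¹ * (x * (g * c)) * c⁻¹ := by group
      _ = g⁻¹ * (g * c * x) * c⁻¹ := by rw [h]
      _ = c * x * c⁻¹ := by group

theorem key {G : Type*} [Group G] [Finite G] (x : G) (P : G → Prop) :
    Nat.card {g : G // P (g⁻¹ * x * g)} =
      Nat.card {y : G // IsConj x y ∧ P y} * Nat.card (Subgroup.centralizer ({x} : Set G)) := by
  classical
  have := Fintype.ofFinite G
  let f : {g : G // P (g⁻¹ * x * g)} → {y : G // IsConj x y ∧ P y} :=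
    fun g => ⟨g.1⁻¹ * x * g.1, ⟨isConj_iff.mpr ⟨g.1⁻¹, by simp⟩, g.2⟩⟩
  rw [← Nat.card_congr (Equiv.sigmaFiberEquiv f), Nat.card_sigma]
  have hfib : ∀ y, Nat.card {a // f a = y} = Nat.card (Subgroup.centralizer ({x} : Set G)) := by
    intro y
    rw [← fiber_card x y.1 y.2.1]
    apply Nat.card_congr
    exact {
      toFun := fun a => ⟨a.1.1, congrArg Subtype.val a.2⟩
      invFun := fun g => ⟨⟨g.1, by rw [g.2]; exact y.2.2⟩, Subtype.ext g.2⟩
      left_inv := fun a => rfl
      right_inv := fun g => rfl }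
  simp only [hfib, Finset.sum_const, Finset.card_univ, smul_eq_mul, Nat.card_eq_fintype_card]

theorem result {G : Type*} [Group G] [Finite G] (H : Subgroup G) (x : G) (hx : x ∈ H) : Nat.card (MulAction.fixedBy (G ⧸ H) x) * Nat.card {g : G // IsConj x g} = H.index * Nat.card {g : G // IsConj x g ∧ g ∈ H} := by
  classical
  have h1 : Nat.card {g : G // g⁻¹ * x * g ∈ H} =
      Nat.card H * Nat.card (MulAction.fixedBy (G ⧸ H) x) := by
    have e := QuotientGroup.preimageMkEquivSubgroupProdSet H (MulAction.fixedBy (G ⧸ H) x)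
    rw [← Nat.card_prod, ← Nat.card_congr e]
    apply Nat.card_congr
    apply Equiv.subtypeEquivRight
    intro g
    simp only [Set.mem_preimage, MulAction.mem_fixedBy]
    have : x • (g : G ⧸ H) = ((x * g : G) : G ⧸ H) := rfl
    rw [this, eq_comm, QuotientGroup.eq, mul_assoc]
  have h2 := key x (fun y => y ∈ H)
  have h3 := key x (fun _ => True)
  have h4 : Nat.card {g : G // True} = Nat.card G := Nat.card_congr (Equiv.subtypeUnivEquiv (fun _ => trivial))
  have h5 : Nat.card {y : G // IsConj x y ∧ True} = Nat.card {y : G // IsConj x y} :=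
    Nat.card_congr (Equiv.subtypeEquivRight (fun y => by simp))
  rw [h4, h5] at h3
  have h6 := H.index_mul_card
  have hpos : 0 < Nat.card H * Nat.card (Subgroup.centralizer ({x} : Set G)) :=
    Nat.mul_pos Nat.card_pos Nat.card_pos
  apply Nat.eq_of_mul_eq_mul_right hpos
  calc Nat.card (MulAction.fixedBy (G ⧸ H) x) * Nat.card {g : G // IsConj x g} *
        (Nat.card H * Nat.card (Subgroup.centralizer ({x} : Set G)))
      = (Nat.card H * Nat.card (MulAction.fixedBy (G ⧸ H) x)) *
        (Nat.card {g : G // IsConj x g} * Nat.card (Subgroup.centralizer ({x} : Set G))) := by ring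
    _ = (Nat.card {y : G // IsConj x y ∧ y ∈ H} * Nat.card (Subgroup.centralizer ({x} : Set G))) *
        (H.index * Nat.card H) := by rw [← h1, ← h3, h2, h6]
    _ = _ := by ring

end Cfsg.Agent.S1019
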