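import Cfsg.Statements.S1056
import Cfsg.Agent.Lib.Helper8.Simple

set_option autoImplicit false
open Cfsg

namespace Cfsg.Agent.S1056

/-- B₂(F) is simple for every field `F` other than the field with two elements. -/
theorem result {F : Type*} [Field F] (hF : ∃ a : F, a ≠ 0 ∧ a ≠ 1) : IsSimpleGroup ↥(Cfsg.Lie.chevB2.group F) ∧ ¬ IsMulCommutative ↥(Cfsg.Lie.chevB2.group F) := by
  exact Cfsg.Agent.Lib.Helper8.group_simple (D := Cfsg.Lie.chevB2) (by simp [Cfsg.Agent.Lib.Helper8.allData]) (fun _ => hF)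

end Cfsg.Agent.S1056
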