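import Cfsg.Statements.S1060
import Cfsg.Agent.Lib.Helper8.DiagCard2
import Cfsg.Agent.Lib.Helper8.WeylLev2

set_option autoImplicit false
open Cfsg

namespace Cfsg.Agent.S1060

/-- `gcd(2, q-1) · |B₂(q)| = q⁴ (q² - 1)(q⁴ - 1)`. -/
theorem result {F : Type*} [Field F] [Fintype F] {q : ℕ} (hq : Fintype.card F = q) : Nat.gcd 2 (q - 1) * Nat.card ↥(Cfsg.Lie.chevB2.group F) = q ^ 4 * (q ^ 2 - 1) * (q ^ 4 - 1) := by
  subst hq
  have h := Cfsg.Agent.Lib.Helper8.card_group_of_diag (D := Cfsg.Lie.chevB2) (by simp [Cfsg.Agent.Lib.Helper8.allData])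
    (F := F) Cfsg.Agent.Lib.Helper8.card_diag_B2
  have e1 : Cfsg.Agent.Lib.Helper8.degsOf Cfsg.Lie.chevB2 = [2, 4] := rfl
  have e2 : Cfsg.Lie.chevB2.nroots / 2 = 4 := rfl
  rw [e1, e2] at h
  simpa [mul_assoc] using h

end Cfsg.Agent.S1060
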