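import Cfsg.Statements.S1058
import Cfsg.Agent.S1060
import Cfsg.Agent.Lib.Helper8.FieldMap
import Cfsg.Agent.Lib.Helper21.S6Out

set_option autoImplicit false
open Cfsg

namespace Cfsg.Agent.S1058

open Cfsg.Lie Cfsg.Agent.Lib.Helper8 Cfsg.Agent.Lib.Helper21.CoxA Cfsg.Agent.Lib.Helper21.S6Out

lemma hB2 : chevB2 ∈ allData := by simp [allData]

abbrev xx (r : ℕ) : Matrix chevB2.Idx chevB2.Idx (ZMod 2) := chevB2.x (ZMod 2) r 1

/-- five involutions satisfying the braid relations of type `A₅` -/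
def mm : Fin 5 → Matrix chevB2.Idx chevB2.Idx (ZMod 2) :=
  ![xx 7, xx 0, xx 2 * xx 7 * xx 2, xx 3, xx 4]

set_option maxRecDepth 100000 in
lemma mm_rel : ∀ i j : Fin 5, (mm i * mm j) ^ (CoxeterMatrix.A 5 i j) = 1 := by decide +kernel

set_option maxRecDepth 100000 in
lemma mm_ne : mm 0 * mm 1 ≠ 1 := by decide +kernel

def gg : Fin 5 → GL chevB2.Idx (ZMod 2) :=
  ![xG hB2 (ZMod 2) 7 1, xG hB2 (ZMod 2) 0 1,
    xG hB2 (ZMod 2) 2 1 * xG hB2 (ZMod 2) 7 1 * xG hB2 (ZMod 2) 2 1,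
    xG hB2 (ZMod 2) 3 1, xG hB2 (ZMod 2) 4 1]

lemma gg_coe : ∀ i : Fin 5, ((gg i : GL chevB2.Idx (ZMod 2)) :
    Matrix chevB2.Idx chevB2.Idx (ZMod 2)) = mm i := by
  intro i
  fin_cases i <;> rfl

lemma gg_mem : ∀ i : Fin 5, gg i ∈ chevB2.group (ZMod 2) := by
  intro i
  fin_cases i
  · exact xG_mem_group hB2 7 1
  · exact xG_mem_group hB2 0 1
  · exact Subgroup.mul_mem _ (Subgroup.mul_mem _ (xG_mem_group hB2 2 1) (xG_mem_group hB2 7 1))
      (xG_mem_group hB2 2 1)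
  · exact xG_mem_group hB2 3 1
  · exact xG_mem_group hB2 4 1

lemma gg_rel (i j : Fin 5) : (gg i * gg j) ^ (CoxeterMatrix.A 5 i j) = 1 := by
  apply Units.ext
  rw [Units.val_pow_eq_pow_val, Units.val_mul, gg_coe, gg_coe]
  exact mm_rel i j

lemma gg_ne : gg 0 * gg 1 ≠ 1 := by
  intro h
  apply mm_ne
  have := congrArg Units.val h
  rwa [Units.val_mul, gg_coe, gg_coe] at this

/-- B₂(2) ≅ S₆. -/
theorem result {F : Type*} [Field F] [Fintype F] (hF : Fintype.card F = 2) :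
    Nonempty (↥(Cfsg.Lie.chevB2.group F) ≃* Equiv.Perm (Fin 6)) := by
  obtain ⟨φ⟩ : Nonempty (ZMod 2 ≃+* F) := ⟨ZMod.ringEquivOfPrime F Nat.prime_two hF⟩
  obtain ⟨f, hf⟩ : ∃ f : ZMod 2 →+* F, f = φ.toRingHom := ⟨_, rfl⟩
  have hle : (chevB2.group (ZMod 2)).map (glMap chevB2 f) ≤ chevB2.group F := by
    rw [map_group hB2 f, Subgroup.closure_le]
    rintro _ ⟨r, t, _, rfl⟩
    exact xG_mem_group hB2 r t
  have hmem : ∀ i : Fin 5, glMap chevB2 f (gg i) ∈ chevB2.group F :=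
    fun i => hle (Subgroup.mem_map_of_mem _ (gg_mem i))
  obtain ⟨k, hk⟩ : ∃ k : Fin 5 → ↥(chevB2.group F), ∀ i, (k i : GL chevB2.Idx F) =
      glMap chevB2 f (gg i) := ⟨fun i => ⟨_, hmem i⟩, fun _ => rfl⟩
  have hlift : (CoxeterMatrix.A 5).IsLiftable k := by
    intro i j
    apply Subtype.ext
    rw [Subgroup.coe_pow, Subgroup.coe_mul, hk, hk, ← map_mul, ← map_pow, gg_rel, map_one]
    rfl
  obtain ⟨Φ, hΦ⟩ : ∃ Φ : Equiv.Perm (Fin 6) →* ↥(chevB2.group F),
      Φ = (permSystem 5).lift ⟨k, hlift⟩ := ⟨_, rfl⟩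
  have hΦ0 : Φ (Equiv.swap 0 1) = k 0 := by
    have h := (permSystem 5).lift_apply_simple hlift 0
    rw [permSystem_simple] at h
    rw [hΦ]
    exact h
  have hΦ1 : Φ (Equiv.swap 1 2) = k 1 := by
    have h := (permSystem 5).lift_apply_simple hlift 1
    rw [permSystem_simple] at h
    rw [hΦ]
    exact h
  have hinj : Function.Injective Φ := by
    rw [← MonoidHom.ker_eq_bot_iff]
    by_contra hne
    have h1 := alt_le_of_normal (Ω := Fin 6) (by simp) Φ.ker hne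
    have h2 : (Equiv.swap 0 1 * Equiv.swap 1 2 : Equiv.Perm (Fin 6)) ∈
        alternatingGroup (Fin 6) := by
      rw [Equiv.Perm.mem_alternatingGroup, map_mul, Equiv.Perm.sign_swap (by decide),
        Equiv.Perm.sign_swap (by decide)]
      decide
    have h3 : Φ (Equiv.swap 0 1 * Equiv.swap 1 2) = 1 := h1 h2
    rw [map_mul, hΦ0, hΦ1] at h3
    have h4 := congrArg Subtype.val h3
    rw [Subgroup.coe_mul, hk, hk, ← map_mul] at h4
    apply gg_ne
    apply glMap_injective (D := chevB2) f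
    rw [h4, map_one]
    rfl
  have hcard : Nat.card ↥(chevB2.group F) = 720 := by
    have h := Cfsg.Agent.S1060.result (F := F) hF
    norm_num at h
    omega
  have hbij : Function.Bijective Φ := by
    refine (Nat.bijective_iff_injective_and_card Φ).mpr ⟨hinj, ?_⟩
    rw [hcard, Nat.card_eq_fintype_card, Fintype.card_perm, Fintype.card_fin]
    rfl
  exact ⟨(MulEquiv.ofBijective Φ hbij).symm⟩

end Cfsg.Agent.S1058
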