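import Cfsg.Statements.S1066
import Cfsg.Agent.Lib.Helper8.TwE6c

set_option autoImplicit false
open Cfsg

namespace Cfsg.Agent.S1066

/-- `gcd(3, q+1) · |²E₆(q)| = q³⁶ (q² - 1)(q⁵ + 1)(q⁶ - 1)(q⁸ - 1)(q⁹ + 1)(q¹² - 1)`, the group being realised inside E₆ over the field with `q²` elements. -/
theorem result {K : Type*} [Field K] [Fintype K] {q : ℕ} (hq : IsPrimePow q) (hK : Fintype.card K = q ^ 2) :
    Nat.gcd 3 (q + 1) * Nat.card ↥(Cfsg.Lie.twistedE6 K q) =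
      q ^ 36 * (q ^ 2 - 1) * (q ^ 5 + 1) * (q ^ 6 - 1) * (q ^ 8 - 1) * (q ^ 9 + 1) * (q ^ 12 - 1) := by
  open Cfsg.Agent.Lib.Helper8 in
  obtain ⟨φ, hφ, e, hc⟩ := setup_E6 hq hK
  have hH := Cfsg.Agent.Lib.Helper8.card_H_E6 hq.one_lt hK hφ
  rw [e, Cfsg.Agent.Lib.Helper8.card_twG Cfsg.Agent.Lib.Helper8.hE6 Cfsg.Agent.Lib.Helper8.twS_E6 φ hc
    Cfsg.Agent.Lib.Helper8.levWOK_E6]
  have e1 : Cfsg.Agent.Lib.Helper8.w0BlE6.flatten.length = 36 := by decide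
  have e2 : Cfsg.Agent.Lib.Helper8.blE6.length = 4 := rfl
  rw [e1, e2]
  generalize Nat.card ↥(Cfsg.Lie.chevE6.diagonalSubgroup K ⊓ Cfsg.Agent.Lib.Helper8.twG Cfsg.Agent.Lib.Helper8.hE6 φ
    Cfsg.Agent.Lib.Helper8.blE6) = N at hH ⊢
  have hm : ∀ m, (Cfsg.Agent.Lib.Helper8.levTwE6 m).map (fun B => q ^ (Cfsg.Agent.Lib.Helper8.exB
      Cfsg.Agent.Lib.Helper8.blE6 B).flatten.length) =
      ((Cfsg.Agent.Lib.Helper8.levTwE6 m).map (fun B => (Cfsg.Agent.Lib.Helper8.exB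
      Cfsg.Agent.Lib.Helper8.blE6 B).flatten.length)).map (fun k => q ^ k) := by
    intro m
    rw [List.map_map]
    rfl
  have l0 : (Cfsg.Agent.Lib.Helper8.levTwE6 0).map (fun B => (Cfsg.Agent.Lib.Helper8.exB
      Cfsg.Agent.Lib.Helper8.blE6 B).flatten.length) = [0, 1] := by decide +kernel
  have l1 : (Cfsg.Agent.Lib.Helper8.levTwE6 1).map (fun B => (Cfsg.Agent.Lib.Helper8.exB
      Cfsg.Agent.Lib.Helper8.blE6 B).flatten.length) = [0, 1, 2] := by decide +kernel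
  have l2 : (Cfsg.Agent.Lib.Helper8.levTwE6 2).map (fun B => (Cfsg.Agent.Lib.Helper8.exB
      Cfsg.Agent.Lib.Helper8.blE6 B).flatten.length) = [0, 2, 3, 4, 5, 6, 7, 9] := by decide +kernel
  have l3 : (Cfsg.Agent.Lib.Helper8.levTwE6 3).map (fun B => (Cfsg.Agent.Lib.Helper8.exB
      Cfsg.Agent.Lib.Helper8.blE6 B).flatten.length) =
      [0, 2, 4, 5, 6, 7, 8, 9, 9, 10, 11, 11, 13, 13, 15, 14, 16, 15, 17, 18, 19, 20, 22, 24] := by decide +kernel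
  simp only [Finset.prod_range_succ, Finset.prod_range_zero, hm, l0, l1, l2, l3, List.map_cons, List.map_nil,
    List.sum_cons, List.sum_nil]
  have h2 : q ^ 2 - 1 = (q - 1) * (q + 1) := by
    obtain ⟨m, rfl⟩ : ∃ m, q = m + 1 := ⟨q - 1, by have := hq.one_lt; omega⟩
    rw [Nat.add_sub_cancel]
    exact Nat.sub_eq_of_eq_add (by ring)
  have h6 : q ^ 6 - 1 = (q - 1) * (q ^ 5 + q ^ 4 + q ^ 3 + q ^ 2 + q + 1) := by
    obtain ⟨m, rfl⟩ : ∃ m, q = m + 1 := ⟨q - 1, by have := hq.one_lt; omega⟩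
    rw [Nat.add_sub_cancel]
    exact Nat.sub_eq_of_eq_add (by ring)
  have h8 : q ^ 8 - 1 = (q - 1) * (q ^ 7 + q ^ 6 + q ^ 5 + q ^ 4 + q ^ 3 + q ^ 2 + q + 1) := by
    obtain ⟨m, rfl⟩ : ∃ m, q = m + 1 := ⟨q - 1, by have := hq.one_lt; omega⟩
    rw [Nat.add_sub_cancel]
    exact Nat.sub_eq_of_eq_add (by ring)
  have h12 : q ^ 12 - 1 = (q - 1) * (q ^ 11 + q ^ 10 + q ^ 9 + q ^ 8 + q ^ 7 + q ^ 6 + q ^ 5 + q ^ 4 + q ^ 3 + q ^ 2 +
      q + 1) := by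
    obtain ⟨m, rfl⟩ : ∃ m, q = m + 1 := ⟨q - 1, by have := hq.one_lt; omega⟩
    rw [Nat.add_sub_cancel]
    exact Nat.sub_eq_of_eq_add (by ring)
  rw [h2] at hH
  rw [h2, h6, h8, h12]
  generalize q - 1 = r at hH ⊢
  generalize Nat.gcd 3 (q + 1) = g at hH ⊢
  have : ∀ X : ℕ, g * (q ^ 36 * N * X) = q ^ 36 * (g * N) * X := fun X => by ring
  rw [this, hH]
  ring

end Cfsg.Agent.S1066
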