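import Cfsg.Statements.S1067
import Cfsg.Agent.Lib.Helper8.TwD4

set_option autoImplicit false
open Cfsg

namespace Cfsg.Agent.S1067

/-- `|³D₄(q)| = q¹² (q² - 1)(q⁶ - 1)(q⁸ + q⁴ + 1)`, the group being realised inside D₄ over the field with `q³` elements. -/
theorem result {K : Type*} [Field K] [Fintype K] {q : ℕ} (hq : IsPrimePow q) (hK : Fintype.card K = q ^ 3) :
    Nat.card ↥(Cfsg.Lie.twistedD4 K q) = q ^ 12 * (q ^ 2 - 1) * (q ^ 6 - 1) * (q ^ 8 + q ^ 4 + 1) := by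
  open Cfsg.Agent.Lib.Helper8 in
  obtain ⟨φ, hφ, e, hc⟩ := setup_D4 hq hK
  rw [e, Cfsg.Agent.Lib.Helper8.card_twG Cfsg.Agent.Lib.Helper8.hD4 Cfsg.Agent.Lib.Helper8.twS_D4 φ hc
    Cfsg.Agent.Lib.Helper8.levWOK_D4, Cfsg.Agent.Lib.Helper8.card_H_D4 hq.one_lt hK hφ]
  have e1 : Cfsg.Agent.Lib.Helper8.w0BlD4.flatten.length = 12 := by decide
  have e2 : Cfsg.Agent.Lib.Helper8.blD4.length = 2 := rfl
  rw [e1, e2]
  simp only [Finset.prod_range_succ, Finset.prod_range_zero, Cfsg.Agent.Lib.Helper8.levTwD4,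
    Cfsg.Agent.Lib.Helper8.exB, Cfsg.Agent.Lib.Helper8.blD4]
  simp
  obtain ⟨m, rfl⟩ : ∃ m, q = m + 1 := ⟨q - 1, by have := hq.one_lt; omega⟩
  have h1 : (m + 1) ^ 3 - 1 = m * ((m + 1) ^ 2 + (m + 1) + 1) := Nat.sub_eq_of_eq_add (by ring)
  have h2 : (m + 1) ^ 2 - 1 = m * (m + 2) := Nat.sub_eq_of_eq_add (by ring)
  have h3 : (m + 1) ^ 6 - 1 = m * ((m + 1) ^ 2 + (m + 1) + 1) * ((m + 1) ^ 3 + 1) := Nat.sub_eq_of_eq_add (by ring)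
  rw [h1, h2, h3, Nat.add_sub_cancel]
  ring

end Cfsg.Agent.S1067
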