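import Cfsg.Statements.S1068
import Cfsg.Agent.Lib.Helper8.RF7

set_option autoImplicit false
open Cfsg

namespace Cfsg.Agent.S1068

/-- `|²F₄(q)| = q¹² (q - 1)(q³ + 1)(q⁴ - 1)(q⁶ + 1)` for `q = 2^(2m+1)` (θ = 2^m-th power map), every `m ≥ 0`. -/
theorem result {K : Type*} [Field K] [Fintype K] {m : ℕ} (hK : Fintype.card K = 2 ^ (2 * m + 1)) :
    Nat.card ↥(Cfsg.Lie.twistedF4 K (2 ^ m)) =
      (2 ^ (2 * m + 1)) ^ 12 * (2 ^ (2 * m + 1) - 1) * ((2 ^ (2 * m + 1)) ^ 3 + 1) * ((2 ^ (2 * m + 1)) ^ 4 - 1) * ((2 ^ (2 * m + 1)) ^ 6 + 1) := by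
  obtain ⟨hc, φ, he, hφ, hG⟩ := Cfsg.Agent.Lib.Helper8.setup_reeF hK
  rw [hG, Cfsg.Agent.Lib.Helper8.card_reeF Cfsg.Agent.Lib.Helper8.F4_isoR1_inj φ hφ, hK]
  obtain ⟨k, hk⟩ : ∃ k, 2 ^ (2 * m + 1) = k + 1 := ⟨2 ^ (2 * m + 1) - 1, by
    have : 0 < 2 ^ (2 * m + 1) := by positivity
    omega⟩
  rw [hk]
  have e1 : k + 1 - 1 = k := by omega
  have e2 : (k + 1) ^ 4 - 1 = k * (k + 2) * ((k + 1) ^ 2 + 1) := by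
    have : (k + 1) ^ 4 = k * (k + 2) * ((k + 1) ^ 2 + 1) + 1 := by ring
    omega
  rw [e1, e2]
  ring

end Cfsg.Agent.S1068
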