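import Cfsg.Statements.S1070
import Cfsg.Agent.Lib.Helper8.Tw21

set_option autoImplicit false
open Cfsg

namespace Cfsg.Agent.S1070

/-- ²E₆(q) is simple for every `q`. -/
theorem result {K : Type*} [Field K] [Fintype K] {q : ℕ} (hq : IsPrimePow q) (hK : Fintype.card K = q ^ 2) :
    IsSimpleGroup ↥(Cfsg.Lie.twistedE6 K q) ∧ ¬ IsMulCommutative ↥(Cfsg.Lie.twistedE6 K q) := by
  open Cfsg.Agent.Lib.Helper8 in
  obtain ⟨φ, hφ, e, -⟩ := setup_E6 hq hK
  rw [e]
  exact Cfsg.Agent.Lib.Helper8.twG_simple Cfsg.Agent.Lib.Helper8.hE6 Cfsg.Agent.Lib.Helper8.twS_E6 φ (by decide)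
    (by decide +kernel)
    (by
      intro i hi
      have hi' : i + 1 < 4 := hi
      have : i = 0 ∨ i = 1 ∨ i = 2 := by omega
      rcases this with rfl | rfl | rfl <;> decide +kernel)
    (Cfsg.Agent.Lib.Helper8.perfect_E6 hq.one_lt hK hφ)

end Cfsg.Agent.S1070
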