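import Cfsg.Statements.S1071
import Cfsg.Agent.Lib.Helper8.Tw21

set_option autoImplicit false
open Cfsg

namespace Cfsg.Agent.S1071

/-- ³D₄(q) is simple for every `q`. -/
theorem result {K : Type*} [Field K] [Fintype K] {q : ℕ} (hq : IsPrimePow q) (hK : Fintype.card K = q ^ 3) :
    IsSimpleGroup ↥(Cfsg.Lie.twistedD4 K q) ∧ ¬ IsMulCommutative ↥(Cfsg.Lie.twistedD4 K q) := by
  open Cfsg.Agent.Lib.Helper8 in
  obtain ⟨φ, hφ, e, -⟩ := setup_D4 hq hK
  rw [e]
  exact Cfsg.Agent.Lib.Helper8.twG_simple Cfsg.Agent.Lib.Helper8.hD4 Cfsg.Agent.Lib.Helper8.twS_D4 φ (by decide)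
    (by decide +kernel)
    (by
      intro i hi
      have hi' : i + 1 < 2 := hi
      have : i = 0 := by omega
      subst this
      decide +kernel)
    (Cfsg.Agent.Lib.Helper8.perfect_D4 hq.one_lt hK hφ)

end Cfsg.Agent.S1071
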