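import Cfsg.Statements.S1072
import Cfsg.Agent.Lib.Helper8.RF12

set_option autoImplicit false
open Cfsg

namespace Cfsg.Agent.S1072

/-- ²F₄(2^(2m+1)) is simple for `m ≥ 1`. -/
theorem result {K : Type*} [Field K] [Fintype K] {m : ℕ} (hm : 1 ≤ m) (hK : Fintype.card K = 2 ^ (2 * m + 1)) :
    IsSimpleGroup ↥(Cfsg.Lie.twistedF4 K (2 ^ m)) ∧ ¬ IsMulCommutative ↥(Cfsg.Lie.twistedF4 K (2 ^ m)) := by
  classical
  obtain ⟨hc, φ, he, hφ, hG⟩ := Cfsg.Agent.Lib.Helper8.setup_reeF hK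
  rw [hG]
  apply Cfsg.Agent.Lib.Helper8.reeF_simple Cfsg.Agent.Lib.Helper8.F4_isoR1_inj φ hφ
  have h1 : 1 < Fintype.card Kˣ := by
    rw [Fintype.card_units, hK]
    have : 2 ^ 3 ≤ 2 ^ (2 * m + 1) := Nat.pow_le_pow_right (by norm_num) (by omega)
    omega
  have := Fintype.one_lt_card_iff_nontrivial.mp h1
  exact exists_ne (1 : Kˣ)

end Cfsg.Agent.S1072
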