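import Cfsg.Statements.S1081
import Cfsg.Agent.Lib.Helper8.GraphAut2

set_option autoImplicit false
open Cfsg

namespace Cfsg.Agent.S1081

/-- Graph automorphisms: for E₆ with ρ = (p₁ p₆)(p₃ p₅) and for D₄ with ρ the 3-cycle on the outer nodes there is a group automorphism sending `x_p(t) ↦ x_{ρ(p)}(t)` and `x_{-p}(t) ↦ x_{-ρ(p)}(t)` for every fundamental root `p`. -/
theorem result {F : Type*} [Field F] (p : Cfsg.Lie.ChevalleyDatum × List ℕ)
    (hp : p ∈ [(Cfsg.Lie.chevE6, [5, 1, 4, 3, 2, 0]), (Cfsg.Lie.chevD4, [2, 1, 3, 0]), (Cfsg.Lie.chevD4, [3, 1, 0, 2])]) :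
    ∃ α : ↥(p.1.group F) ≃* ↥(p.1.group F), ∀ (g : ↥(p.1.group F)) (i : ℕ) (t : F), i < p.1.rank →
      (((g : GL p.1.Idx F) : Matrix p.1.Idx p.1.Idx F) = p.1.x F (p.1.simple i) t →
        ((α g : GL p.1.Idx F) : Matrix p.1.Idx p.1.Idx F) = p.1.x F (p.1.simple (p.2.getD i 0)) t) ∧
      (((g : GL p.1.Idx F) : Matrix p.1.Idx p.1.Idx F) = p.1.x F (p.1.neg (p.1.simple i)) t →
        ((α g : GL p.1.Idx F) : Matrix p.1.Idx p.1.Idx F) = p.1.x F (p.1.neg (p.1.simple (p.2.getD i 0))) t) := by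
  have key : ∀ (D : Cfsg.Lie.ChevalleyDatum) (hD : D ∈ Lib.Helper8.allData) (tab tab' : List (ℕ × ℤ))
      (h : Lib.Helper8.GOk D tab tab') (π : List ℕ),
      (∀ i < D.rank, D.simple i < D.nroots ∧ D.neg (D.simple i) < D.nroots ∧
        Lib.Helper8.gRho D.rank tab (D.simple i) = D.simple (π.getD i 0) ∧
        Lib.Helper8.gEps D.rank tab (D.simple i) = 1 ∧
        Lib.Helper8.gRho D.rank tab (D.neg (D.simple i)) = D.neg (D.simple (π.getD i 0)) ∧
        Lib.Helper8.gEps D.rank tab (D.neg (D.simple i)) = 1) →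
      ∃ α : ↥(D.group F) ≃* ↥(D.group F), ∀ (g : ↥(D.group F)) (i : ℕ) (t : F), i < D.rank →
      (((g : GL D.Idx F) : Matrix D.Idx D.Idx F) = D.x F (D.simple i) t →
        ((α g : GL D.Idx F) : Matrix D.Idx D.Idx F) = D.x F (D.simple (π.getD i 0)) t) ∧
      (((g : GL D.Idx F) : Matrix D.Idx D.Idx F) = D.x F (D.neg (D.simple i)) t →
        ((α g : GL D.Idx F) : Matrix D.Idx D.Idx F) = D.x F (D.neg (D.simple (π.getD i 0))) t) := by
    intro D hD tab tab' h π hπ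
    refine ⟨Lib.Helper8.graphAut hD h, fun g i t hi => ?_⟩
    obtain ⟨h1, h2, h3, h4, h5, h6⟩ := hπ i hi
    exact ⟨Lib.Helper8.graphAut_x hD h g h1 t h3 h4, Lib.Helper8.graphAut_x hD h g h2 t h5 h6⟩
  simp only [List.mem_cons, List.not_mem_nil, or_false] at hp
  rcases hp with rfl | rfl | rfl
  · exact key _ (by simp [Lib.Helper8.allData]) _ _ Lib.Helper8.gOk_E6 _ (by decide +kernel)
  · exact key _ (by simp [Lib.Helper8.allData]) _ _ Lib.Helper8.gOk_D4a _ (by decide +kernel)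
  · exact key _ (by simp [Lib.Helper8.allData]) _ _ Lib.Helper8.gOk_D4b _ (by decide +kernel)

end Cfsg.Agent.S1081
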