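import Cfsg.Statements.S1090
import Cfsg.Agent.Lib.Helper8.RF7

set_option autoImplicit false
open Cfsg

namespace Cfsg.Agent.S1090

/-- |U¹| = |G¹ ∩ U| = (2 ^ (2 * m + 1)) ^ 12 for ²F₄(2^(2m+1)). -/
theorem result {K : Type*} [Field K] [Fintype K] {m : ℕ} (hK : Fintype.card K = 2 ^ (2 * m + 1)) :
    Nat.card ↥(Cfsg.Lie.chevF4.posUnipotent K ⊓ Cfsg.Lie.twistedF4 K (2 ^ m)) = (2 ^ (2 * m + 1)) ^ 12 := by
  obtain ⟨hc, φ, he, hφ, hG⟩ := Cfsg.Agent.Lib.Helper8.setup_reeF hK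
  rw [hG, Cfsg.Agent.Lib.Helper8.card_posU_reeF Cfsg.Agent.Lib.Helper8.F4_isoR1_inj φ hφ, hK]

end Cfsg.Agent.S1090
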