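import Cfsg.Statements.S1091
import Cfsg.Agent.Lib.Helper8.Ree12

set_option autoImplicit false
open Cfsg

namespace Cfsg.Agent.S1091

/-- ²G₂(3^(2m+1)) has a (B,N)-pair: B¹ = G¹ ∩ B and N¹ = G¹ ∩ N, intersections with the ambient Chevalley group's B = UH and N. -/
theorem result {K : Type*} [Field K] [Fintype K] {m : ℕ} (hK : Fintype.card K = 3 ^ (2 * m + 1)) :
    ∃ P : Cfsg.BNPair ↥(Cfsg.Lie.twistedG2 K (3 ^ m)),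
      P.B = (Cfsg.Lie.chevG2.borelSubgroup K ⊓ Cfsg.Lie.twistedG2 K (3 ^ m)).subgroupOf (Cfsg.Lie.twistedG2 K (3 ^ m)) ∧
      P.N = (Cfsg.Lie.chevG2.monomialSubgroup K ⊓ Cfsg.Lie.twistedG2 K (3 ^ m)).subgroupOf (Cfsg.Lie.twistedG2 K (3 ^ m)) := by
  obtain ⟨hc, φ, he, hφ, hG, hH⟩ := Cfsg.Agent.Lib.Helper8.setup_ree' hK
  obtain ⟨h0, hh0, hn⟩ := Cfsg.Agent.Lib.Helper8.exists_nstar φ Cfsg.Agent.Lib.Helper8.G2_isoR1_inj hφ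
  rw [hG]
  exact ⟨Cfsg.Agent.Lib.Helper8.bnPairRee φ Cfsg.Agent.Lib.Helper8.G2_isoR1_inj hφ hh0 hn, rfl, rfl⟩

end Cfsg.Agent.S1091
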