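import Cfsg.Statements.S1098
import Cfsg.Agent.Lib.Helper8.IsoE

set_option autoImplicit false
open Cfsg

namespace Cfsg.Agent.S1098

/-- Graph automorphisms in characteristic 2 (K perfect): for B₂ (a short, b long) `x_a(t) ↦ x_b(t²)`, `x_b(t) ↦ x_a(t)`, and for F₄ (p₁, p₂ short, p₃, p₄ long) `x_{p₁}(t) ↦ x_{p₄}(t²)`, `x_{p₂}(t) ↦ x_{p₃}(t²)`, `x_{p₃}(t) ↦ x_{p₂}(t)`, `x_{p₄}(t) ↦ x_{p₁}(t)`, likewise on the negatives, extend to an automorphism of the group. -/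
theorem result {K : Type*} [Field K] [CharP K 2] (hperf : ∀ x : K, ∃ y : K, y ^ 2 = x)
    (p : Cfsg.Lie.ChevalleyDatum × List (ℕ × ℕ))
    (hp : p ∈ [(Cfsg.Lie.chevB2, [(1, 2), (0, 1)]), (Cfsg.Lie.chevF4, [(3, 2), (2, 2), (1, 1), (0, 1)])]) :
    ∃ α : ↥(p.1.group K) ≃* ↥(p.1.group K), ∀ (g : ↥(p.1.group K)) (i : ℕ) (t : K), i < p.1.rank →
      (((g : GL p.1.Idx K) : Matrix p.1.Idx p.1.Idx K) = p.1.x K (p.1.simple i) t →
        ((α g : GL p.1.Idx K) : Matrix p.1.Idx p.1.Idx K) = p.1.x K (p.1.simple (p.2.getD i (0, 1)).1) (t ^ (p.2.getD i (0, 1)).2)) ∧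
      (((g : GL p.1.Idx K) : Matrix p.1.Idx p.1.Idx K) = p.1.x K (p.1.neg (p.1.simple i)) t →
        ((α g : GL p.1.Idx K) : Matrix p.1.Idx p.1.Idx K) = p.1.x K (p.1.neg (p.1.simple (p.2.getD i (0, 1)).1)) (t ^ (p.2.getD i (0, 1)).2)) := by
  classical
  have h2 : (2 : K) = 0 := by
    have := CharP.cast_eq_zero K 2
    exact_mod_cast this
  have hneg : (-1 : K) = 1 := by linear_combination (-1 : K) * h2
  simp only [List.mem_cons, List.not_mem_nil, or_false] at hp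
  rcases hp with rfl | rfl
  · have hD : Cfsg.Lie.chevB2 ∈ Cfsg.Agent.Lib.Helper8.allData := by simp [Cfsg.Agent.Lib.Helper8.allData]
    have hc : CharP K Cfsg.Agent.Lib.Helper8.isoB2.c := (inferInstance : CharP K 2)
    have hinj := Cfsg.Agent.Lib.Helper8.isoR1_injective' (F := K) hD Cfsg.Agent.Lib.Helper8.isoOK_B2
      Cfsg.Agent.Lib.Helper8.isoW_B2 (by decide)
    have hperf' : ∀ r < Cfsg.Lie.chevB2.nroots, ∀ u : K, ∃ t : K, t ^ Cfsg.Agent.Lib.Helper8.isoB2.lamF r = u := by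
      intro r hr u
      have h8 : r < 8 := hr
      have : Cfsg.Agent.Lib.Helper8.isoB2.lamF r = 1 ∨ Cfsg.Agent.Lib.Helper8.isoB2.lamF r = 2 := by
        interval_cases r <;> decide
      rcases this with h | h
      · exact ⟨u, by rw [h, pow_one]⟩
      · rw [h]; exact hperf u
    obtain ⟨α, hα⟩ := Cfsg.Agent.Lib.Helper8.exists_isogeny_equiv hD Cfsg.Agent.Lib.Helper8.isoOK_B2 hinj
      Cfsg.Agent.Lib.Helper8.isoR_B2 (fun r => by rw [hneg, one_pow]) hperf'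
    refine ⟨α, fun g i t hi => ?_⟩
    have hi2 : i < 2 := hi
    interval_cases i
    · exact ⟨fun hg => hα 5 (by decide) g t hg, fun hg => hα 2 (by decide) g t hg⟩
    · exact ⟨fun hg => hα 4 (by decide) g t hg, fun hg => hα 3 (by decide) g t hg⟩
  · have hD : Cfsg.Lie.chevF4 ∈ Cfsg.Agent.Lib.Helper8.allData := by simp [Cfsg.Agent.Lib.Helper8.allData]
    have hc : CharP K Cfsg.Agent.Lib.Helper8.isoF4.c := (inferInstance : CharP K 2)
    have hinj := Cfsg.Agent.Lib.Helper8.isoR1_injective (F := K) hD Cfsg.Agent.Lib.Helper8.isoOK_F4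
      (Cfsg.Agent.Lib.Helper8.group_simple hD (by
        rintro (h | h) <;> exact absurd (congrArg Cfsg.Lie.ChevalleyDatum.rank h) (by decide))).1
      Cfsg.Agent.Lib.Helper8.isoW_F4
    have hl : ∀ r < 48, Cfsg.Agent.Lib.Helper8.isoF4.lamF r = 1 ∨ Cfsg.Agent.Lib.Helper8.isoF4.lamF r = 2 := by
      decide +kernel
    have hperf' : ∀ r < Cfsg.Lie.chevF4.nroots, ∀ u : K, ∃ t : K, t ^ Cfsg.Agent.Lib.Helper8.isoF4.lamF r = u := by
      intro r hr u
      rcases hl r hr with h | h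
      · exact ⟨u, by rw [h, pow_one]⟩
      · rw [h]; exact hperf u
    obtain ⟨α, hα⟩ := Cfsg.Agent.Lib.Helper8.exists_isogeny_equiv hD Cfsg.Agent.Lib.Helper8.isoOK_F4 hinj
      Cfsg.Agent.Lib.Helper8.isoR_F4 (fun r => by rw [hneg, one_pow]) hperf'
    refine ⟨α, fun g i t hi => ?_⟩
    have hi4 : i < 4 := hi
    interval_cases i
    · exact ⟨fun hg => hα 33 (by decide) g t hg, fun hg => hα 14 (by decide) g t hg⟩
    · exact ⟨fun hg => hα 27 (by decide) g t hg, fun hg => hα 20 (by decide) g t hg⟩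
    · exact ⟨fun hg => hα 25 (by decide) g t hg, fun hg => hα 22 (by decide) g t hg⟩
    · exact ⟨fun hg => hα 24 (by decide) g t hg, fun hg => hα 23 (by decide) g t hg⟩

end Cfsg.Agent.S1098
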