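import Cfsg.Statements.S1099
import Cfsg.Agent.Lib.Helper8.IsoD

set_option autoImplicit false
open Cfsg

namespace Cfsg.Agent.S1099

/-- Graph automorphism of G₂ in characteristic 3 (K perfect): `x_a(t) ↦ x_b(t³)`, `x_b(t) ↦ x_a(t)`, `x_{-a}(t) ↦ x_{-b}(t³)`, `x_{-b}(t) ↦ x_{-a}(t)` extend to an automorphism of the group. -/
theorem result {K : Type*} [Field K] [CharP K 3] (hperf : ∀ x : K, ∃ y : K, y ^ 3 = x) :
    ∃ α : ↥(Cfsg.Lie.chevG2.group K) ≃* ↥(Cfsg.Lie.chevG2.group K), ∀ (g : ↥(Cfsg.Lie.chevG2.group K)) (t : K),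
      (((g : GL Cfsg.Lie.chevG2.Idx K) : Matrix _ _ K) = Cfsg.Lie.chevG2.x K Cfsg.Lie.g2a t →
        ((α g : GL Cfsg.Lie.chevG2.Idx K) : Matrix _ _ K) = Cfsg.Lie.chevG2.x K Cfsg.Lie.g2b (t ^ 3)) ∧
      (((g : GL Cfsg.Lie.chevG2.Idx K) : Matrix _ _ K) = Cfsg.Lie.chevG2.x K Cfsg.Lie.g2b t →
        ((α g : GL Cfsg.Lie.chevG2.Idx K) : Matrix _ _ K) = Cfsg.Lie.chevG2.x K Cfsg.Lie.g2a t) ∧
      (((g : GL Cfsg.Lie.chevG2.Idx K) : Matrix _ _ K) = Cfsg.Lie.chevG2.x K Cfsg.Lie.g2ma t →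
        ((α g : GL Cfsg.Lie.chevG2.Idx K) : Matrix _ _ K) = Cfsg.Lie.chevG2.x K Cfsg.Lie.g2mb (t ^ 3)) ∧
      (((g : GL Cfsg.Lie.chevG2.Idx K) : Matrix _ _ K) = Cfsg.Lie.chevG2.x K Cfsg.Lie.g2mb t →
        ((α g : GL Cfsg.Lie.chevG2.Idx K) : Matrix _ _ K) = Cfsg.Lie.chevG2.x K Cfsg.Lie.g2ma t) := by
  classical
  have hD : Cfsg.Lie.chevG2 ∈ Cfsg.Agent.Lib.Helper8.allData := by simp [Cfsg.Agent.Lib.Helper8.allData]
  have hc : CharP K Cfsg.Agent.Lib.Helper8.isoG2.c := (inferInstance : CharP K 3)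
  have hs : IsSimpleGroup ↥(Cfsg.Lie.chevG2.group K) :=
    (Cfsg.Agent.Lib.Helper8.group_simple (F := K) hD (fun _ => ⟨-1, by simp, by
      intro h
      have h2 : (2 : K) = 0 := by linear_combination -h
      have h3 : ((2 : ℕ) : K) = 0 := by exact_mod_cast h2
      rw [CharP.cast_eq_zero_iff K 3] at h3
      omega⟩)).1
  have hinj := Cfsg.Agent.Lib.Helper8.isoR1_injective (F := K) hD Cfsg.Agent.Lib.Helper8.isoOK_G2 hs
    Cfsg.Agent.Lib.Helper8.isoW_G2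
  have hperf' : ∀ r < Cfsg.Lie.chevG2.nroots, ∀ u : K, ∃ t : K, t ^ Cfsg.Agent.Lib.Helper8.isoG2.lamF r = u := by
    intro r hr u
    have h12 : r < 12 := hr
    have : Cfsg.Agent.Lib.Helper8.isoG2.lamF r = 1 ∨ Cfsg.Agent.Lib.Helper8.isoG2.lamF r = 3 := by
      interval_cases r <;> decide
    rcases this with h | h
    · exact ⟨u, by rw [h, pow_one]⟩
    · rw [h]; exact hperf u
  let τ := Cfsg.Agent.Lib.Helper8.isoTau hD Cfsg.Agent.Lib.Helper8.isoOK_G2 hinj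
  have key : ∀ (r : ℕ) (hr : r < Cfsg.Lie.chevG2.nroots) (g : ↥(Cfsg.Lie.chevG2.group K)) (t : K),
      ((g : GL Cfsg.Lie.chevG2.Idx K) : Matrix _ _ K) = Cfsg.Lie.chevG2.x K r t →
      ((τ g : GL Cfsg.Lie.chevG2.Idx K) : Matrix _ _ K) =
        Cfsg.Lie.chevG2.x K (Cfsg.Agent.Lib.Helper8.isoG2.rho Cfsg.Lie.chevG2.rank r)
          (t ^ Cfsg.Agent.Lib.Helper8.isoG2.lamF r) := by
    intro r hr g t hg
    have : g = Cfsg.Agent.Lib.Helper8.xS hD r t := Subtype.ext (Units.ext hg)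
    have h2 : τ g = Cfsg.Agent.Lib.Helper8.xS hD (Cfsg.Agent.Lib.Helper8.isoG2.rho Cfsg.Lie.chevG2.rank r)
          (t ^ Cfsg.Agent.Lib.Helper8.isoG2.lamF r) := by
      rw [this]; exact Cfsg.Agent.Lib.Helper8.isoTau_x hD Cfsg.Agent.Lib.Helper8.isoOK_G2 hinj hr t
    rw [h2]
    rfl
  refine ⟨MulEquiv.ofBijective τ ⟨Cfsg.Agent.Lib.Helper8.isoTau_injective hD _ hinj hs,
    Cfsg.Agent.Lib.Helper8.isoTau_surjective hD _ hinj hperf'⟩, fun g t => ⟨?_, ?_, ?_, ?_⟩⟩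
  · intro hg
    exact key 7 (by decide) g t hg
  · intro hg
    have := key 6 (by decide) g t hg
    rw [show Cfsg.Agent.Lib.Helper8.isoG2.lamF 6 = 1 from rfl, pow_one] at this
    exact this
  · intro hg
    exact key 4 (by decide) g t hg
  · intro hg
    have := key 5 (by decide) g t hg
    rw [show Cfsg.Agent.Lib.Helper8.isoG2.lamF 5 = 1 from rfl, pow_one] at this
    exact this

end Cfsg.Agent.S1099
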