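import Cfsg.Statements.S1105
import Cfsg.Agent.Lib.Helper8.Tw15

set_option autoImplicit false
open Cfsg

namespace Cfsg.Agent.S1105

/-- The normal core of `B¹ = G¹ ∩ B` in ²E₆(q) is trivial. -/
theorem result {K : Type*} [Field K] [Fintype K] {q : ℕ} (hq : IsPrimePow q) (hK : Fintype.card K = q ^ 2) :
    ((Cfsg.Lie.chevE6.borelSubgroup K ⊓ Cfsg.Lie.twistedE6 K q).subgroupOf (Cfsg.Lie.twistedE6 K q)).normalCore = ⊥ := by
  open Cfsg.Agent.Lib.Helper8 in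
  obtain ⟨φ, hφ, e, -⟩ := setup_E6 hq hK
  rw [e]
  exact Cfsg.Agent.Lib.Helper8.borel_core_tw Cfsg.Agent.Lib.Helper8.hE6 Cfsg.Agent.Lib.Helper8.twS_E6 φ

end Cfsg.Agent.S1105
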