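import Cfsg.Statements.S1113
import Cfsg.Agent.Lib.Helper8.RF10

set_option autoImplicit false
open Cfsg

namespace Cfsg.Agent.S1113

/-- The normal core of `B¹ = G¹ ∩ B` in ²F₄(2^(2m+1)) is trivial. -/
theorem result {K : Type*} [Field K] [Fintype K] {m : ℕ} (hK : Fintype.card K = 2 ^ (2 * m + 1)) :
    ((Cfsg.Lie.chevF4.borelSubgroup K ⊓ Cfsg.Lie.twistedF4 K (2 ^ m)).subgroupOf (Cfsg.Lie.twistedF4 K (2 ^ m))).normalCore = ⊥ := by
  obtain ⟨hc, φ, he, hφ, hG⟩ := Cfsg.Agent.Lib.Helper8.setup_reeF hK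
  rw [hG]
  exact Cfsg.Agent.Lib.Helper8.borel_core_reeF Cfsg.Agent.Lib.Helper8.F4_isoR1_inj φ hφ

end Cfsg.Agent.S1113
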