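import Cfsg.Statements.S1115
import Cfsg.Agent.Lib.Helper8.Ree13

set_option autoImplicit false
open Cfsg

namespace Cfsg.Agent.S1115

/-- `N¹/H¹ ≅ W¹`: a surjective homomorphism from `N¹ = G¹ ∩ N` onto the group of order 2 with kernel `H¹`. -/
theorem result {K : Type*} [Field K] [Fintype K] {m : ℕ} (hK : Fintype.card K = 3 ^ (2 * m + 1)) :
    ∃ φ : ↥(Cfsg.Lie.chevG2.monomialSubgroup K ⊓ Cfsg.Lie.twistedG2 K (3 ^ m)) →* Multiplicative (ZMod 2), Function.Surjective φ ∧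
      φ.ker = (Cfsg.Lie.chevG2.diagonalSubgroup K ⊓ Cfsg.Lie.twistedG2 K (3 ^ m)).subgroupOf (Cfsg.Lie.chevG2.monomialSubgroup K ⊓ Cfsg.Lie.twistedG2 K (3 ^ m)) := by
  obtain ⟨hc, φ, he, hφ, hG, hH⟩ := Cfsg.Agent.Lib.Helper8.setup_ree' hK
  obtain ⟨h0, hh0, hn⟩ := Cfsg.Agent.Lib.Helper8.exists_nstar φ Cfsg.Agent.Lib.Helper8.G2_isoR1_inj hφ
  rw [hG]
  exact Cfsg.Agent.Lib.Helper8.exists_hom_N1 φ Cfsg.Agent.Lib.Helper8.G2_isoR1_inj hφ hh0 hn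

end Cfsg.Agent.S1115
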