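import Cfsg.Statements.S1116
import Cfsg.Agent.Lib.Helper8.Ree16

set_option autoImplicit false
open Cfsg

namespace Cfsg.Agent.S1116

/-- ²G₂(3^(2m+1)) (m ≥ 1) equals its derived subgroup. -/
theorem result {K : Type*} [Field K] [Fintype K] {m : ℕ} (hK : Fintype.card K = 3 ^ (2 * m + 1)) (hm : 1 ≤ m) : commutator ↥(Cfsg.Lie.twistedG2 K (3 ^ m)) = ⊤ := by
  obtain ⟨hc, φ, he, hφ, hG, hH⟩ := Cfsg.Agent.Lib.Helper8.setup_ree' hK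
  obtain ⟨h0, hh0, hn⟩ := Cfsg.Agent.Lib.Helper8.exists_nstar φ Cfsg.Agent.Lib.Helper8.G2_isoR1_inj hφ
  rw [hG]
  exact Cfsg.Agent.Lib.Helper8.reeG_perfect φ Cfsg.Agent.Lib.Helper8.G2_isoR1_inj hφ hh0 hn
    (by rw [hK]; exact Cfsg.Agent.Lib.Helper8.three_pow_mod4 m)
    (Cfsg.Agent.Lib.Helper8.exists_unit_ree φ (by rw [hK]; exact Cfsg.Agent.Lib.Helper8.three_lt_pow hm) hφ)

end Cfsg.Agent.S1116
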