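import Cfsg.Statements.S1118
import Cfsg.Agent.Lib.Helper9.RankOne2

set_option autoImplicit false
open Cfsg

namespace Cfsg.Agent.S1118

open Cfsg.Agent.Lib.Helper9 MulAction


/-- In the rank-one set-up (`G` finite and doubly transitive on `Ω`, `t` an involution moving `a`, `Q` normal in `G_a` with `G_a = Q D`, `Q ⊓ D = 1` for the two-point stabiliser `D = G_a ⊓ G_{t • a}`, `|Q|` even, `|D|` odd), the normaliser of a subset of `Q` containing a non-identity element lies in `G_a`; consequently `N_G(Q) = N_G(G_a) = G_a`. -/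
theorem result {G Ω : Type*} [Group G] [Finite G] [MulAction G Ω] {a : Ω} {t : G} {Q : Subgroup G}
    (hS : Cfsg.IsRankOneSetup G Ω a t Q) :
    (∀ X : Set G, X ⊆ (Q : Set G) → (∃ x ∈ X, x ≠ 1) → Subgroup.normalizer X ≤ MulAction.stabilizer G a) ∧
      Subgroup.normalizer (Q : Set G) = MulAction.stabilizer G a ∧
      Subgroup.normalizer (MulAction.stabilizer G a : Set G) = MulAction.stabilizer G a := by
  have part1 : ∀ X : Set G, X ⊆ (Q : Set G) → (∃ x ∈ X, x ≠ 1) →
      Subgroup.normalizer X ≤ MulAction.stabilizer G a := by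
    rintro X hX ⟨x, hx, hx1⟩ g hg
    rw [Subgroup.mem_set_normalizer_iff] at hg
    rw [mem_stabilizer_iff]
    by_contra hne
    have h1 : g * x * g⁻¹ ∈ Q := hX ((hg x).1 hx)
    have h2 := RO.semireg hS h1 hne (by
      rw [mul_smul, mul_smul, inv_smul_smul, RO.Q_fix hS (hX hx)])
    apply hx1
    have : x = g⁻¹ * (g * x * g⁻¹) * g := by group
    rw [this, h2]; group
  obtain ⟨s, hsQ, hs1, hss⟩ := RO.exists_invol hS
  refine ⟨part1, le_antisymm (part1 _ subset_rfl ⟨s, hsQ, hs1⟩) (RO.Ga_le_normalizer hS),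
    le_antisymm ?_ Subgroup.le_normalizer⟩
  intro g hg
  rw [Subgroup.mem_normalizer_iff] at hg
  have h1 : g * s * g⁻¹ ∈ stabilizer G a := (hg s).1 (hS.le hsQ)
  rw [mem_stabilizer_iff]
  refine RO.invol_fix_unique hS (u := g * s * g⁻¹) ?_ ?_ ?_ (mem_stabilizer_iff.1 h1)
  · intro h
    apply hs1
    have : s = g⁻¹ * (g * s * g⁻¹) * g := by group
    rw [this, h]; group
  · calc g * s * g⁻¹ * (g * s * g⁻¹) = g * (s * s) * g⁻¹ := by group
      _ = 1 := by rw [hss]; group
  · rw [mul_smul, mul_smul, inv_smul_smul, RO.Q_fix hS hsQ]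

end Cfsg.Agent.S1118
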