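import Cfsg.Statements.S1119
import Cfsg.Agent.Lib.Helper9.RankOne2

set_option autoImplicit false
open Cfsg

namespace Cfsg.Agent.S1119

open Cfsg.Agent.Lib.Helper9 MulAction


/-- In the rank-one set-up (`G` finite and doubly transitive on `Ω`, `t` an involution moving `a`, `Q` normal in `G_a` with `G_a = Q D`, `Q ⊓ D = 1` for the two-point stabiliser `D = G_a ⊓ G_{t • a}`, `|Q|` even, `|D|` odd): `Q` acts regularly on `Ω` minus `a`; hence `|Ω| = |Q| + 1`, `|G| = |Q| |D| (|Q| + 1)`, some Sylow 2-subgroup of `G` lies in `Q`, and each `g ∉ G_a` is uniquely `x t y` with `x ∈ G_a`, `y ∈ Q` (canonical form). -/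
theorem result {G Ω : Type*} [Group G] [Finite G] [MulAction G Ω] {a : Ω} {t : G} {Q : Subgroup G}
    (hS : Cfsg.IsRankOneSetup G Ω a t Q) :
    (∀ b c : Ω, b ≠ a → c ≠ a → ∃! x : Q, (x : G) • b = c) ∧
      Nat.card Ω = Nat.card Q + 1 ∧
      Nat.card G = Nat.card Q * Nat.card ↥(MulAction.stabilizer G a ⊓ MulAction.stabilizer G (t • a)) * (Nat.card Q + 1) ∧
      (∃ P : Sylow 2 G, (P : Subgroup G) ≤ Q) ∧
      ∀ g : G, g ∉ MulAction.stabilizer G a → ∃! p : G × G, p.1 ∈ MulAction.stabilizer G a ∧ p.2 ∈ Q ∧ g = p.1 * t * p.2 := by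
  refine ⟨?_, RO.card_Omega hS, RO.card_G hS, ?_, ?_⟩
  · intro b c hb hc
    obtain ⟨x, hx, h⟩ := RO.Q_trans hS hb hc
    refine ⟨⟨x, hx⟩, h, ?_⟩
    rintro ⟨y, hy⟩ h'
    exact Subtype.ext (RO.Q_unique hS hb hy hx (h'.trans h.symm))
  · obtain ⟨P₀⟩ : Nonempty (Sylow 2 Q) := inferInstance
    have hc : Nat.card ((P₀ : Subgroup Q).map Q.subtype) = 2 ^ (Nat.card G).factorization 2 := by
      rw [Subgroup.card_map_of_injective Q.subtype_injective, P₀.card_eq_multiplicity, RO.card_G hS]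
      congr 1
      have hQ0 : Nat.card Q ≠ 0 := Nat.card_pos.ne'
      have hD0 : Nat.card ↥(stabilizer G a ⊓ stabilizer G (t • a)) ≠ 0 := Nat.card_pos.ne'
      rw [Nat.factorization_mul (mul_ne_zero hQ0 hD0) (by omega), Nat.factorization_mul hQ0 hD0]
      have h1 : (Nat.card ↥(stabilizer G a ⊓ stabilizer G (t • a))).factorization 2 = 0 := by
        apply Nat.factorization_eq_zero_of_not_dvd
        intro h
        exact (Nat.not_even_iff_odd.2 hS.odd_card) (even_iff_two_dvd.2 h)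
      have h2 : (Nat.card Q + 1).factorization 2 = 0 := by
        apply Nat.factorization_eq_zero_of_not_dvd
        obtain ⟨k, hk⟩ := hS.even_card
        omega
      simp only [Finsupp.coe_add, Pi.add_apply, h1, h2, add_zero]
    refine ⟨Sylow.ofCard _ hc, ?_⟩
    rw [Sylow.coe_ofCard]
    exact Subgroup.map_subtype_le _
  · intro g hg
    have hne : g⁻¹ • a ≠ a := by
      intro h
      apply hg
      rw [mem_stabilizer_iff]
      conv_lhs => rw [← h]
      rw [smul_inv_smul]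
    obtain ⟨y, hy, hyb⟩ := RO.Q_trans_b hS hne
    refine ⟨(g * y * t, y⁻¹), ⟨?_, Q.inv_mem hy, ?_⟩, ?_⟩
    · rw [mem_stabilizer_iff, mul_smul, mul_smul, hyb, smul_inv_smul]
    · show g = g * y * t * t * y⁻¹
      rw [mul_assoc (g * y), hS.mul_self, mul_one, mul_inv_cancel_right]
    · rintro ⟨x', y'⟩ ⟨h1, h2, h3⟩
      have h1' : x' ∈ stabilizer G a := h1
      have h2' : y' ∈ Q := h2
      have h3' : g = x' * t * y' := h3
      have h4 : y'⁻¹ • (t • a) = g⁻¹ • a := by
        rw [h3', mul_inv_rev, mul_inv_rev, rankOne_t_inv hS, mul_smul, mul_smul,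
          mem_stabilizer_iff.1 (Subgroup.inv_mem _ h1')]
      have h5 : y'⁻¹ = y := RO.Q_unique hS (RO.b_ne hS) (Q.inv_mem h2') hy (h4.trans hyb.symm)
      have h6 : y' = y⁻¹ := by rw [← h5, inv_inv]
      subst h6
      have h7 : x' = g * y * t := by
        rw [h3', mul_assoc (x' * t), inv_mul_cancel, mul_one, mul_assoc, hS.mul_self, mul_one]
      rw [h7]

end Cfsg.Agent.S1119
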