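import Cfsg.Statements.S1120
import Cfsg.Agent.Lib.Helper9.RankOne4
import Cfsg.Agent.Lib.Helper9.Gen2
import Cfsg.Agent.Lib.Helper10.PCore
import Cfsg.Agent.Lib.Helper9.Basic

set_option autoImplicit false
open Cfsg

namespace Cfsg.Agent.S1120

open Cfsg.Agent.Lib.Helper9 MulAction


/-- In the rank-one set-up (`G` finite and doubly transitive on `Ω`, `t` an involution moving `a`, `Q` normal in `G_a` with `G_a = Q D`, `Q ⊓ D = 1` for the two-point stabiliser `D = G_a ⊓ G_{t • a}`, `|Q|` even, `|D|` odd), if `G` has 2-rank at least 2 then `O_{2'}(G)` equals the normal core of `G_a`. -/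
theorem result {G Ω : Type*} [Group G] [Finite G] [MulAction G Ω] {a : Ω} {t : G} {Q : Subgroup G}
    (hS : Cfsg.IsRankOneSetup G Ω a t Q)
    (h2 : ∃ x y : G, x ≠ 1 ∧ y ≠ 1 ∧ x ≠ y ∧ x * x = 1 ∧ y * y = 1 ∧ x * y = y * x) :
    Cfsg.pPrimeCore 2 G = (MulAction.stabilizer G a).normalCore := by
  obtain ⟨x, y, hx1, hy1, hxy, hxx, hyy, hcomm⟩ := h2
  apply le_antisymm
  · -- O(G) fixes a point
    set W := Cfsg.pPrimeCore 2 G with hW
    haveI hWn : W.Normal := (Cfsg.Agent.Lib.Helper10.pPrimeCore_mem 2 G).1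
    have hWodd : (Nat.card W).Coprime 2 := (Cfsg.Agent.Lib.Helper10.pPrimeCore_mem 2 G).2
    obtain ⟨c, hc⟩ := RO.invol_fix_exists hS hxx
    have hyc : y • c = c := RO.comm_fix hS hx1 hxx hc hcomm.symm
    have hxy1 : x * y ≠ 1 := by
      intro h
      apply hxy
      calc x = x * (y * y) := by rw [hyy, mul_one]
        _ = (x * y) * y := by group
        _ = y := by rw [h, one_mul]
    have hxyxy : x * y * (x * y) = 1 := by
      calc x * y * (x * y) = x * (y * x) * y := by group
        _ = x * (x * y) * y := by rw [hcomm]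
        _ = (x * x) * (y * y) := by group
        _ = 1 := by rw [hxx, hyy, one_mul]
    have hxyc : (x * y) • c = c := by rw [mul_smul, hyc, hc]
    set A : Subgroup G := Subgroup.zpowers x ⊔ Subgroup.zpowers y with hA
    have hn : Subgroup.zpowers y ≤ Subgroup.normalizer ((Subgroup.zpowers x : Subgroup G) : Set G) := by
      rw [Subgroup.zpowers_le, ← map_conj_eq_iff_mem_normalizer, MonoidHom.map_zpowers]
      congr 1
      show y * x * y⁻¹ = x
      rw [← hcomm]; group
    have hAcard : Nat.card A ∣ 2 * 2 := by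
      have := sup_card_dvd hn
      rwa [Nat.card_zpowers, Nat.card_zpowers, orderOf_two_of hxx hx1, orderOf_two_of hyy hy1] at this
    have hWc : W ≤ stabilizer G c := by
      apply gen_general Nat.prime_two A W (stabilizer G c) _ _ _ x y
        (Subgroup.mem_sup_left (Subgroup.mem_zpowers x)) (Subgroup.mem_sup_right (Subgroup.mem_zpowers y))
        hcomm
      · rw [pow_two, hxx]; exact Subgroup.one_mem _
      · rw [pow_two, hyy]; exact Subgroup.one_mem _
      · intro h
        have := Nat.Coprime.eq_one_of_dvd hWodd.symm h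
        omega
      · intro w hw
        obtain ⟨-, hw2⟩ := Subgroup.mem_inf.1 hw
        rw [Subgroup.mem_centralizer_singleton_iff] at hw2
        exact mem_stabilizer_iff.2 (RO.comm_fix hS hx1 hxx hc hw2)
      · intro i hi w hw
        obtain ⟨-, hw2⟩ := Subgroup.mem_inf.1 hw
        rw [Subgroup.mem_centralizer_singleton_iff] at hw2
        interval_cases i
        · rw [pow_zero, one_mul] at hw2
          exact mem_stabilizer_iff.2 (RO.comm_fix hS hy1 hyy hyc hw2)
        · rw [pow_one] at hw2
          exact mem_stabilizer_iff.2 (RO.comm_fix hS hxy1 hxyxy hxyc hw2)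
      · rw [Subgroup.normalizer_eq_top]; exact le_top
      · exact Nat.Coprime.coprime_dvd_left hAcard (Nat.Coprime.mul_left hWodd.symm hWodd.symm)
      · exact sup_solvable hn inferInstance inferInstance
    rw [Subgroup.normal_le_normalCore]
    intro w hw
    obtain ⟨g, hg⟩ := RO.trans hS a c
    have h1 : g * w * g⁻¹ ∈ W := hWn.conj_mem w hw g
    have h2 := mem_stabilizer_iff.1 (hWc h1)
    rw [mem_stabilizer_iff]
    rw [← hg, mul_smul, mul_smul, inv_smul_smul] at h2
    exact smul_left_cancel g h2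
  · apply Cfsg.Agent.Lib.Helper10.le_pPrimeCore inferInstance
    have hle : (stabilizer G a).normalCore ≤ stabilizer G a ⊓ stabilizer G (t • a) := by
      intro w hw
      refine Subgroup.mem_inf.2 ⟨Subgroup.normalCore_le _ hw, ?_⟩
      have h1 : t⁻¹ * w * t⁻¹⁻¹ ∈ (stabilizer G a).normalCore :=
        (Subgroup.normalCore_normal _).conj_mem w hw t⁻¹
      have h2 := mem_stabilizer_iff.1 (Subgroup.normalCore_le _ h1)
      rw [inv_inv, mul_smul, mul_smul, inv_smul_eq_iff] at h2
      exact mem_stabilizer_iff.2 h2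
    have h1 := Subgroup.card_dvd_of_le hle
    have h2 : (Nat.card ↥(stabilizer G a ⊓ stabilizer G (t • a))).Coprime 2 :=
      Nat.Coprime.symm (Nat.coprime_two_left.2 hS.odd_card)
    exact Nat.Coprime.coprime_dvd_left h1 h2

end Cfsg.Agent.S1120
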