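import Cfsg.Statements.S1121
import Cfsg.Agent.Lib.Helper9.RankOne3

set_option autoImplicit false
open Cfsg

namespace Cfsg.Agent.S1121

open Cfsg.Agent.Lib.Helper9 MulAction


/-- In the rank-one set-up (`G` finite and doubly transitive on `Ω`, `t` an involution moving `a`, `Q` normal in `G_a` with `G_a = Q D`, `Q ⊓ D = 1` for the two-point stabiliser `D = G_a ⊓ G_{t • a}`, `|Q|` even, `|D|` odd): if `s` is an involution of `G_a` and `u` an involution outside `G_a`, then `s u` has odd order; and any two involutions of `G` are conjugate. -/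
theorem result {G Ω : Type*} [Group G] [Finite G] [MulAction G Ω] {a : Ω} {t : G} {Q : Subgroup G}
    (hS : Cfsg.IsRankOneSetup G Ω a t Q) :
    (∀ s u : G, s ∈ MulAction.stabilizer G a → s ≠ 1 → s * s = 1 → u ∉ MulAction.stabilizer G a → u ≠ 1 → u * u = 1 → Odd (orderOf (s * u))) ∧
      ∀ u v : G, u ≠ 1 → u * u = 1 → v ≠ 1 → v * v = 1 → ∃ g : G, g * u * g⁻¹ = v := by
  constructor
  · intro s u hs hs1 hss hu hu1 huu
    exact RO.odd_order_mul hS hs1 hss hu1 huu (mem_stabilizer_iff.1 hs)
      (fun h => hu (mem_stabilizer_iff.2 h))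
  · intro u v hu1 huu hv1 hvv
    exact RO.invol_conj hS hu1 huu hv1 hvv

end Cfsg.Agent.S1121
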