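import Cfsg.Statements.S1123
import Cfsg.Agent.Lib.Helper9.RankOne4

set_option autoImplicit false
open Cfsg

namespace Cfsg.Agent.S1123

open Cfsg.Agent.Lib.Helper9 MulAction


/-- In the rank-one set-up (`G` finite and doubly transitive on `Ω`, `t` an involution moving `a`, `Q` normal in `G_a` with `G_a = Q D`, `Q ⊓ D = 1` for the two-point stabiliser `D = G_a ⊓ G_{t • a}`, `|Q|` even, `|D|` odd), there is a unique pair `(s, r)` with `s` an involution of `G_a`, `r ∈ Q` and `t s t = r⁻¹ t r`. -/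
theorem result {G Ω : Type*} [Group G] [Finite G] [MulAction G Ω] {a : Ω} {t : G} {Q : Subgroup G}
    (hS : Cfsg.IsRankOneSetup G Ω a t Q) :
    ∃! p : G × G, p.1 ∈ Cfsg.involutionsIn (MulAction.stabilizer G a : Set G) ∧ p.2 ∈ Q ∧
      t * p.1 * t = p.2⁻¹ * t * p.2 := by
  have htt := hS.mul_self
  obtain ⟨c₀, hc₀⟩ := RO.invol_fix_exists hS htt
  have hc₀a : c₀ ≠ a := by
    rintro rfl
    exact RO.b_ne hS hc₀
  obtain ⟨r, hr, hrb⟩ := RO.Q_trans_b hS hc₀a
  refine ⟨(t * r⁻¹ * t * r * t, r), ⟨⟨?_, ?_, ?_⟩, hr, ?_⟩, ?_⟩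
  · show t * r⁻¹ * t * r * t ∈ stabilizer G a
    rw [mem_stabilizer_iff, mul_smul, mul_smul, mul_smul, mul_smul, hrb, hc₀, ← hrb, inv_smul_smul,
      RO.tb hS]
  · intro h
    replace h : t * r⁻¹ * t * r * t = 1 := h
    apply hS.ne_one
    calc t = r * t * (t * r⁻¹ * t * r * t) * t * r⁻¹ := by
          calc t = r * (t * t) * r⁻¹ * t * r * (t * t) * r⁻¹ := by rw [htt]; group
            _ = _ := by group
      _ = 1 := by rw [h, mul_one, mul_assoc r, htt, mul_one, mul_inv_cancel]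
  · calc t * r⁻¹ * t * r * t * (t * r⁻¹ * t * r * t) = t * r⁻¹ * t * r * (t * t) * r⁻¹ * t * r * t := by group
      _ = t * r⁻¹ * t * r * 1 * r⁻¹ * t * r * t := by rw [htt]
      _ = t * r⁻¹ * (t * t) * r * t := by group
      _ = t * r⁻¹ * 1 * r * t := by rw [htt]
      _ = t * t := by group
      _ = 1 := htt
  · show t * (t * r⁻¹ * t * r * t) * t = r⁻¹ * t * r
    calc t * (t * r⁻¹ * t * r * t) * t = (t * t) * r⁻¹ * t * r * (t * t) := by group
      _ = _ := by rw [htt, one_mul, mul_one]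
  · rintro ⟨s', r'⟩ ⟨⟨h1, h2, h3⟩, h4, h5⟩
    have h1' : s' ∈ stabilizer G a := h1
    have h4' : r' ∈ Q := h4
    have h5' : t * s' * t = r'⁻¹ * t * r' := h5
    have h6 : t • (r' • (t • a)) = r' • (t • a) := by
      have : (r'⁻¹ * t * r') • (t • a) = t • a := by
        rw [← h5', mul_smul, RO.tb hS, mul_smul, mem_stabilizer_iff.1 h1']
      rw [mul_smul, mul_smul, inv_smul_eq_iff] at this
      exact this
    have h7 : r' • (t • a) = c₀ := RO.invol_fix_unique hS hS.ne_one htt h6 hc₀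
    have h8 : r' = r := RO.Q_unique hS (RO.b_ne hS) h4' hr (h7.trans hrb.symm)
    subst h8
    have h9 : s' = t * r'⁻¹ * t * r' * t := by
      calc s' = (t * t) * s' * (t * t) := by rw [htt, one_mul, mul_one]
        _ = t * (t * s' * t) * t := by group
        _ = _ := by rw [h5']; group
    rw [h9]

end Cfsg.Agent.S1123
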