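import Cfsg.Statements.S1124
import Cfsg.Agent.Lib.Helper9.Invol
import Cfsg.Agent.Lib.Helper9.Basic

set_option autoImplicit false
open scoped Pointwise
open Cfsg

namespace Cfsg.Agent.S1124

open Cfsg.Agent.Lib.Helper9


/-- Let `t` be an element of order 2 of a finite group normalising a subgroup `X` of odd order, `Y = C_X(t)` and `Z` the set of elements of `X` inverted by `t`. Then `(y, z) ↦ y z` is a bijection `Y × Z → X`, so `|X| = |Y| |Z|`, and the subgroup generated by `Z` is normal in `X`. -/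
theorem result {M : Type*} [Group M] [Finite M]
    (t : M) (ht : orderOf t = 2) (X : Subgroup M) (hodd : Odd (Nat.card X))
    (hnorm : ∀ x ∈ X, t * x * t⁻¹ ∈ X) :
    (∀ x ∈ X, ∃! p : M × M, p.1 ∈ X ⊓ Subgroup.centralizer {t} ∧ p.2 ∈ Cfsg.invertedBy X t ∧ x = p.1 * p.2) ∧
      Nat.card X = Nat.card ↥(X ⊓ Subgroup.centralizer {t}) * Nat.card (Cfsg.invertedBy X t) ∧
      ∀ x ∈ X, MulAut.conj x • Subgroup.closure (Cfsg.invertedBy X t) = Subgroup.closure (Cfsg.invertedBy X t) := by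
  have htt : t * t = 1 := mul_self_of_orderOf_two ht
  have hti : t⁻¹ = t := inv_eq_self_of_mul_self htt
  obtain ⟨m, hm⟩ := hodd
  have hpow : ∀ z ∈ X, (z * z) ^ (m + 1) = z := by
    intro z hz
    have h1 : z ^ (2 * m + 1) = 1 := by
      have := pow_card_eq_one' (G := X) (x := ⟨z, hz⟩)
      rw [hm] at this
      exact congrArg Subtype.val this
    rw [← pow_two, ← pow_mul, show 2 * (m + 1) = (2 * m + 1) + 1 by ring, pow_succ, h1, one_mul]
  have part1 : ∀ x ∈ X, ∃! p : M × M, p.1 ∈ X ⊓ Subgroup.centralizer {t} ∧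
      p.2 ∈ Cfsg.invertedBy X t ∧ x = p.1 * p.2 := by
    intro x hx
    set v := x⁻¹ * (t * x * t⁻¹) with hv
    have hvX : v ∈ X := X.mul_mem (X.inv_mem hx) (hnorm x hx)
    have hvt : t * v * t⁻¹ = v⁻¹ := by
      rw [hv, hti, mul_inv_rev, inv_inv, mul_inv_rev, mul_inv_rev, hti]
      calc t * (x⁻¹ * (t * x * t)) * t = t * x⁻¹ * t * x * (t * t) := by group
        _ = _ := by rw [htt, mul_one]; group
    set z₀ := v ^ (m + 1) with hz₀
    have hz₀X : z₀ ∈ X := X.pow_mem hvX _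
    have hz₀t : t * z₀ * t⁻¹ = z₀⁻¹ := by rw [hz₀, ← conj_pow, hvt, inv_pow]
    have hz₀2 : z₀ * z₀ = v := by
      have h1 := hpow v hvX
      rw [hz₀, ← pow_add]
      rw [← pow_two, ← pow_mul] at h1
      rw [← two_mul]; exact h1
    refine ⟨(x * z₀, z₀⁻¹), ⟨Subgroup.mem_inf.2 ⟨X.mul_mem hx hz₀X, ?_⟩, ⟨X.inv_mem hz₀X, ?_⟩, ?_⟩, ?_⟩
    · rw [Subgroup.mem_centralizer_singleton_iff]
      have h1 : t * (x * z₀) * t⁻¹ = x * z₀ := by
        calc t * (x * z₀) * t⁻¹ = x * (x⁻¹ * (t * x * t⁻¹)) * (t * z₀ * t⁻¹) := by group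
          _ = x * (z₀ * z₀) * z₀⁻¹ := by rw [← hv, hz₀t, hz₀2]
          _ = x * z₀ := by group
      calc x * z₀ * t = (t * (x * z₀) * t⁻¹) * t := by rw [h1]
        _ = t * (x * z₀) := by group
    · show t * z₀⁻¹ * t⁻¹ = z₀⁻¹⁻¹
      have : t * z₀⁻¹ * t⁻¹ = (t * z₀ * t⁻¹)⁻¹ := by group
      rw [this, hz₀t]
    · show x = x * z₀ * z₀⁻¹
      group
    · rintro ⟨y', z'⟩ ⟨h1, ⟨h2, h3⟩, h4⟩
      obtain ⟨h1a, h1b⟩ := Subgroup.mem_inf.1 h1
      replace h1b : y' * t = t * y' := Subgroup.mem_centralizer_singleton_iff.1 h1b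
      replace h2 : z' ∈ X := h2
      replace h3 : t * z' * t⁻¹ = z'⁻¹ := h3
      replace h4 : x = y' * z' := h4
      have h5 : v = z'⁻¹ * z'⁻¹ := by
        rw [hv, h4]
        calc (y' * z')⁻¹ * (t * (y' * z') * t⁻¹) = z'⁻¹ * y'⁻¹ * (t * y') * t⁻¹ * (t * z' * t⁻¹) := by group
          _ = z'⁻¹ * y'⁻¹ * (y' * t) * t⁻¹ * z'⁻¹ := by rw [h1b, h3]
          _ = _ := by group
      have h6 : z'⁻¹ = z₀ := by
        rw [hz₀, h5]; exact (hpow _ (X.inv_mem h2)).symm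
      have h7 : z' = z₀⁻¹ := by rw [← h6, inv_inv]
      subst h7
      have h8 : y' = x * z₀ := by rw [h4]; group
      rw [h8]
  refine ⟨part1, ?_, ?_⟩
  · rw [← Nat.card_prod]
    apply Nat.card_congr
    symm
    refine Equiv.ofBijective (fun p => ⟨(p.1 : M) * (p.2 : M),
      X.mul_mem (Subgroup.mem_inf.1 p.1.2).1 p.2.2.1⟩) ⟨?_, ?_⟩
    · rintro ⟨⟨y, hy⟩, ⟨z, hz⟩⟩ ⟨⟨y', hy'⟩, ⟨z', hz'⟩⟩ h
      have h1 : y * z = y' * z' := congrArg Subtype.val h
      obtain ⟨p, -, hp⟩ := part1 (y * z) (X.mul_mem (Subgroup.mem_inf.1 hy).1 hz.1)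
      have e1 := hp (y, z) ⟨hy, hz, rfl⟩
      have e2 := hp (y', z') ⟨hy', hz', h1⟩
      have e3 : (y, z) = (y', z') := e1.trans e2.symm
      obtain ⟨rfl, rfl⟩ := Prod.mk.inj e3
      rfl
    · rintro ⟨x, hx⟩
      obtain ⟨⟨y, z⟩, ⟨hy, hz, h⟩, -⟩ := part1 x hx
      exact ⟨(⟨y, hy⟩, ⟨z, hz⟩), Subtype.ext h.symm⟩
  · have hle : X ≤ Subgroup.normalizer ((Subgroup.closure (Cfsg.invertedBy X t) : Subgroup M) : Set M) := by
      intro x hx
      obtain ⟨⟨y, z⟩, ⟨hy, hz, h⟩, -⟩ := part1 x hx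
      replace h : x = y * z := h
      rw [h]
      apply Subgroup.mul_mem
      · apply Subgroup.normalizer_le_normalizer_closure
        obtain ⟨hyX, hyc⟩ := Subgroup.mem_inf.1 hy
        replace hyc : y * t = t * y := Subgroup.mem_centralizer_singleton_iff.1 hyc
        have hyc' : y⁻¹ * t = t * y⁻¹ := by
          calc y⁻¹ * t = y⁻¹ * (t * y) * y⁻¹ := by group
            _ = y⁻¹ * (y * t) * y⁻¹ := by rw [hyc]
            _ = _ := by group
        have key : ∀ w : M, w ∈ X → w * t = t * w → ∀ h ∈ Cfsg.invertedBy X t,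
            w * h * w⁻¹ ∈ Cfsg.invertedBy X t := by
          rintro w hw hwt h ⟨h1, h2⟩
          refine ⟨X.mul_mem (X.mul_mem hw h1) (X.inv_mem hw), ?_⟩
          replace h2 : t * h * t⁻¹ = h⁻¹ := h2
          show t * (w * h * w⁻¹) * t⁻¹ = (w * h * w⁻¹)⁻¹
          have hw' : t * w * t⁻¹ = w := by rw [← hwt]; group
          calc t * (w * h * w⁻¹) * t⁻¹ = (t * w * t⁻¹) * (t * h * t⁻¹) * (t * w * t⁻¹)⁻¹ := by group
            _ = w * h⁻¹ * w⁻¹ := by rw [hw', h2]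
            _ = _ := by group
        rw [Subgroup.mem_set_normalizer_iff]
        intro h
        constructor
        · exact key y hyX hyc h
        · intro hh
          have := key y⁻¹ (X.inv_mem hyX) hyc' _ hh
          simpa [mul_assoc] using this
      · exact Subgroup.le_normalizer (Subgroup.subset_closure hz)
    intro x hx
    rw [← map_conj_eq_smul]
    exact (map_conj_eq_iff_mem_normalizer _ x).2 (hle hx)

end Cfsg.Agent.S1124
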