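import Cfsg.Statements.S1125
import Cfsg.Agent.Lib.Helper9.RankOne5

set_option autoImplicit false
open Cfsg

namespace Cfsg.Agent.S1125

open Cfsg.Agent.Lib.Helper9 MulAction


/-- In the rank-one set-up (`G` finite and doubly transitive on `Ω`, `t` an involution moving `a`, `Q` normal in `G_a` with `G_a = Q D`, `Q ⊓ D = 1` for the two-point stabiliser `D = G_a ⊓ G_{t • a}`, `|Q|` even, `|D|` odd), let `X ⊆ D` fix at least three points of `Ω`. Then `C_G(X)` is doubly transitive on the fixed-point set of `X`, `|C_Q(X)|` is even, and `C_{G_a}(X) = C_Q(X) C_D(X)`. -/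
theorem result {G Ω : Type*} [Group G] [Finite G] [MulAction G Ω] {a : Ω} {t : G} {Q : Subgroup G}
    (hS : Cfsg.IsRankOneSetup G Ω a t Q)
    (X : Set G) (hX : X ⊆ ((MulAction.stabilizer G a ⊓ MulAction.stabilizer G (t • a)) : Set G))
    (h3 : ∃ b c d : Ω, b ≠ c ∧ b ≠ d ∧ c ≠ d ∧ ∀ x ∈ X, x • b = b ∧ x • c = c ∧ x • d = d) :
    (∀ b₁ b₂ c₁ c₂ : Ω, (∀ x ∈ X, x • b₁ = b₁ ∧ x • b₂ = b₂ ∧ x • c₁ = c₁ ∧ x • c₂ = c₂) →
        b₁ ≠ b₂ → c₁ ≠ c₂ → ∃ g ∈ Subgroup.centralizer X, g • b₁ = c₁ ∧ g • b₂ = c₂) ∧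
      Even (Nat.card ↥(Subgroup.centralizer X ⊓ Q)) ∧
      (Subgroup.centralizer X ⊓ Q) ⊔ (Subgroup.centralizer X ⊓ (MulAction.stabilizer G a ⊓ MulAction.stabilizer G (t • a))) = Subgroup.centralizer X ⊓ MulAction.stabilizer G a := by
  have ha : ∀ x ∈ X, x • a = a := fun x hx => mem_stabilizer_iff.1 (Subgroup.mem_inf.1 (hX hx)).1
  have hb : ∀ x ∈ X, x • (t • a) = t • a :=
    fun x hx => mem_stabilizer_iff.1 (Subgroup.mem_inf.1 (hX hx)).2
  refine ⟨?_, ?_, ?_⟩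
  · intro b₁ b₂ c₁ c₂ hfix hbne hcne
    exact RO.cent_two_trans hS X h3 (fun x hx => (hfix x hx).1) (fun x hx => (hfix x hx).2.1)
      (fun x hx => (hfix x hx).2.2.1) (fun x hx => (hfix x hx).2.2.2) hbne hcne
  · obtain ⟨u, huc, huu, hua⟩ := RO.exists_cent_swap hS X hX h3
    have hu1 : u ≠ 1 := by
      rintro rfl
      rw [one_smul] at hua
      exact RO.b_ne hS hua.symm
    obtain ⟨c₀, hc₀⟩ := RO.invol_fix_exists hS huu
    have hc₀X : ∀ x ∈ X, x • c₀ = c₀ := by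
      intro x hx
      rw [Subgroup.mem_centralizer_iff] at huc
      exact RO.comm_fix hS hu1 huu hc₀ (huc x hx)
    obtain ⟨g, hg, hgc⟩ := RO.cent_trans hS X h3 hc₀X ha
    have hs1 : g * u * g⁻¹ ≠ 1 := by
      intro h
      apply hu1
      calc u = g⁻¹ * (g * u * g⁻¹) * g := by group
        _ = 1 := by rw [h]; group
    have hss : g * u * g⁻¹ * (g * u * g⁻¹) = 1 := by
      calc g * u * g⁻¹ * (g * u * g⁻¹) = g * (u * u) * g⁻¹ := by group
        _ = 1 := by rw [huu]; group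
    have hsa : g * u * g⁻¹ ∈ stabilizer G a := by
      rw [mem_stabilizer_iff, ← hgc, mul_smul, mul_smul, inv_smul_smul, hc₀]
    have hmem : g * u * g⁻¹ ∈ Subgroup.centralizer X ⊓ Q :=
      Subgroup.mem_inf.2 ⟨Subgroup.mul_mem _ (Subgroup.mul_mem _ hg huc) (Subgroup.inv_mem _ hg),
        RO.invol_mem_Q hS hsa hss⟩
    have h2 : orderOf (⟨g * u * g⁻¹, hmem⟩ : ↥(Subgroup.centralizer X ⊓ Q)) = 2 := by
      rw [Subgroup.orderOf_mk]; exact orderOf_two_of hss hs1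
    rw [even_iff_two_dvd, ← h2]
    exact orderOf_dvd_natCard _
  · apply le_antisymm
    · rw [sup_le_iff]
      exact ⟨inf_le_inf_left _ hS.le, inf_le_inf_left _ inf_le_left⟩
    · intro g hg
      obtain ⟨hgc, hga⟩ := Subgroup.mem_inf.1 hg
      have hgb : g • (t • a) ≠ (1 : G) • a := by
        rw [one_smul]
        intro h
        apply RO.b_ne hS
        exact smul_left_cancel g (h.trans (mem_stabilizer_iff.1 hga).symm)
      obtain ⟨q, hq, h1, h2⟩ := RO.cent_trans_at hS X 1 (by simpa using ha) hb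
        (RO.cent_smul_fixed hgc hb) (by rw [one_smul]; exact RO.b_ne hS) hgb
      rw [one_mul, inv_one, mul_one] at h1 h2
      have : g = q * (q⁻¹ * g) := by group
      rw [this]
      apply Subgroup.mul_mem_sup (Subgroup.mem_inf.2 ⟨h1, hq⟩)
      refine Subgroup.mem_inf.2 ⟨Subgroup.mul_mem _ (Subgroup.inv_mem _ h1) hgc, Subgroup.mem_inf.2 ⟨?_, ?_⟩⟩
      · exact Subgroup.mul_mem _ (Subgroup.inv_mem _ (hS.le hq)) hga
      · rw [mem_stabilizer_iff, mul_smul, ← h2, inv_smul_smul]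

end Cfsg.Agent.S1125
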