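import Cfsg.Statements.S1127
import Cfsg.Agent.Lib.Helper9.RankOne5
import Cfsg.Agent.S1123

set_option autoImplicit false
open Cfsg

namespace Cfsg.Agent.S1127

open Cfsg.Agent.Lib.Helper9 MulAction

theorem pair_unique {G Ω : Type*} [Group G] [Finite G] [MulAction G Ω] {a : Ω} {t : G} {Q : Subgroup G}
    (hS : Cfsg.IsRankOneSetup G Ω a t Q) {s r s' r' : G}
    (hs : s ∈ Cfsg.involutionsIn (MulAction.stabilizer G a : Set G)) (hr : r ∈ Q)
    (h : t * s * t = r⁻¹ * t * r)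
    (hs' : s' ∈ Cfsg.involutionsIn (MulAction.stabilizer G a : Set G)) (hr' : r' ∈ Q)
    (h' : t * s' * t = r'⁻¹ * t * r') : s = s' ∧ r = r' := by
  have := (Cfsg.Agent.S1123.result hS).unique (y₁ := (s, r)) (y₂ := (s', r')) ⟨hs, hr, h⟩ ⟨hs', hr', h'⟩
  exact Prod.mk.inj this

theorem conj_invol {G Ω : Type*} [Group G] [MulAction G Ω] {a : Ω} {s d : G}
    (hs : s ∈ Cfsg.involutionsIn (MulAction.stabilizer G a : Set G)) (hd : d ∈ stabilizer G a) :
    d * s * d⁻¹ ∈ Cfsg.involutionsIn (MulAction.stabilizer G a : Set G) := by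
  obtain ⟨h1, h2, h3⟩ := hs
  refine ⟨Subgroup.mul_mem _ (Subgroup.mul_mem _ hd h1) (Subgroup.inv_mem _ hd), ?_, ?_⟩
  · intro h
    apply h2
    calc s = d⁻¹ * (d * s * d⁻¹) * d := by group
      _ = 1 := by rw [h]; group
  · calc d * s * d⁻¹ * (d * s * d⁻¹) = d * (s * s) * d⁻¹ := by group
      _ = 1 := by rw [h3]; group

theorem part1 {G Ω : Type*} [Group G] [Finite G] [MulAction G Ω] {a : Ω} {t : G} {Q : Subgroup G}
    (hS : Cfsg.IsRankOneSetup G Ω a t Q) (s r : G)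
    (hs : s ∈ Cfsg.involutionsIn (MulAction.stabilizer G a : Set G)) (hr : r ∈ Q)
    (h : t * s * t = r⁻¹ * t * r) :
    (MulAction.stabilizer G a ⊓ MulAction.stabilizer G (t • a)) ⊓ Subgroup.centralizer {t} = (MulAction.stabilizer G a ⊓ MulAction.stabilizer G (t • a)) ⊓ Subgroup.centralizer {s} := by
  have htt := hS.mul_self
  ext d
  rw [Subgroup.mem_inf (p' := Subgroup.centralizer {t}), Subgroup.mem_inf (p' := Subgroup.centralizer {s}),
    Subgroup.mem_centralizer_singleton_iff, Subgroup.mem_centralizer_singleton_iff]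
  constructor
  · rintro ⟨hd, hdt⟩
    refine ⟨hd, ?_⟩
    have hda := (Subgroup.mem_inf.1 hd).1
    have hdt' : d * t * d⁻¹ = t := by rw [hdt]; group
    have e1 : t * (d * s * d⁻¹) * t = (d * r * d⁻¹)⁻¹ * t * (d * r * d⁻¹) := by
      calc t * (d * s * d⁻¹) * t = (d * t * d⁻¹) * (d * s * d⁻¹) * (d * t * d⁻¹) := by rw [hdt']
        _ = d * (t * s * t) * d⁻¹ := by group
        _ = d * (r⁻¹ * t * r) * d⁻¹ := by rw [h]
        _ = (d * r * d⁻¹)⁻¹ * (d * t * d⁻¹) * (d * r * d⁻¹) := by group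
        _ = _ := by rw [hdt']
    have := (pair_unique hS (conj_invol hs hda) (hS.conj_mem d hda r hr) e1 hs hr h).1
    calc d * s = (d * s * d⁻¹) * d := by group
      _ = s * d := by rw [this]
  · rintro ⟨hd, hds⟩
    refine ⟨hd, ?_⟩
    have hda := (Subgroup.mem_inf.1 hd).1
    have hdb := (Subgroup.mem_inf.1 hd).2
    have hds' : d * s * d⁻¹ = s := by rw [hds]; group
    set u := d * t * d⁻¹ with hu
    have huu : u * u = 1 := by
      calc u * u = d * (t * t) * d⁻¹ := by rw [hu]; group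
        _ = 1 := by rw [htt]; group
    have hua : u • a = t • a := by
      rw [hu, mul_smul, mul_smul, mem_stabilizer_iff.1 (Subgroup.inv_mem _ hda), mem_stabilizer_iff.1 hdb]
    have hS' := RO.of_swap hS huu hua
    obtain ⟨k, hk, hku⟩ := RO.swap_conj_t hS huu hua
    have hka := (Subgroup.mem_inf.1 hk.1).1
    have e1 : u * s * u = (d * r * d⁻¹)⁻¹ * u * (d * r * d⁻¹) := by
      calc u * s * u = u * (d * s * d⁻¹) * u := by rw [hds']
        _ = d * (t * s * t) * d⁻¹ := by rw [hu]; group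
        _ = d * (r⁻¹ * t * r) * d⁻¹ := by rw [h]
        _ = _ := by rw [hu]; group
    have e2 : u * (k⁻¹ * s * k⁻¹⁻¹) * u = (k⁻¹ * r * k⁻¹⁻¹)⁻¹ * u * (k⁻¹ * r * k⁻¹⁻¹) := by
      calc u * (k⁻¹ * s * k⁻¹⁻¹) * u = k⁻¹ * (t * s * t) * k := by rw [← hku]; group
        _ = k⁻¹ * (r⁻¹ * t * r) * k := by rw [h]
        _ = _ := by rw [← hku]; group
    have e3 := (pair_unique hS' hs (hS.conj_mem d hda r hr) e1
      (conj_invol hs (Subgroup.inv_mem _ hka)) (hS.conj_mem k⁻¹ (Subgroup.inv_mem _ hka) r hr) e2).1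
    have h1K : (1 : G) ∈ Cfsg.invertedBy (stabilizer G a ⊓ stabilizer G (t • a)) t :=
      ⟨Subgroup.one_mem _, by simp⟩
    have e4 : k = 1 := RO.K_inj hS hs hk h1K (by
      rw [inv_inv] at e3
      rw [← e3]; simp)
    rw [e4] at hku
    have e5 : d * t * d⁻¹ = t := by rw [← hu, ← hku]; simp
    calc d * t = (d * t * d⁻¹) * d := by group
      _ = t * d := by rw [e5]


/-- In the rank-one set-up (`G` finite and doubly transitive on `Ω`, `t` an involution moving `a`, `Q` normal in `G_a` with `G_a = Q D`, `Q ⊓ D = 1` for the two-point stabiliser `D = G_a ⊓ G_{t • a}`, `|Q|` even, `|D|` odd): if `s` is an involution of `G_a` and `r ∈ Q` satisfy `t s t = r⁻¹ t r`, then `C_D(t) = C_D(s)`; moreover `C_D(t) ⊓ C_D(K) = C_D(I ∩ G_a)`, where `K` is the set of elements of `D` inverted by `t` and `I ∩ G_a` the set of involutions of `G_a`. -/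
theorem result {G Ω : Type*} [Group G] [Finite G] [MulAction G Ω] {a : Ω} {t : G} {Q : Subgroup G}
    (hS : Cfsg.IsRankOneSetup G Ω a t Q) :
    (∀ s r : G, s ∈ Cfsg.involutionsIn (MulAction.stabilizer G a : Set G) → r ∈ Q → t * s * t = r⁻¹ * t * r →
        (MulAction.stabilizer G a ⊓ MulAction.stabilizer G (t • a)) ⊓ Subgroup.centralizer {t} = (MulAction.stabilizer G a ⊓ MulAction.stabilizer G (t • a)) ⊓ Subgroup.centralizer {s}) ∧
      (MulAction.stabilizer G a ⊓ MulAction.stabilizer G (t • a)) ⊓ Subgroup.centralizer {t} ⊓ Subgroup.centralizer (Cfsg.invertedBy (MulAction.stabilizer G a ⊓ MulAction.stabilizer G (t • a)) t) =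
        (MulAction.stabilizer G a ⊓ MulAction.stabilizer G (t • a)) ⊓ Subgroup.centralizer (Cfsg.involutionsIn (MulAction.stabilizer G a : Set G)) := by
  refine ⟨part1 hS, ?_⟩
  have htt := hS.mul_self
  obtain ⟨⟨s₀, r₀⟩, ⟨hs₀, hr₀, h₀⟩, -⟩ := Cfsg.Agent.S1123.result hS
  replace hs₀ : s₀ ∈ Cfsg.involutionsIn (MulAction.stabilizer G a : Set G) := hs₀
  replace hr₀ : r₀ ∈ Q := hr₀
  replace h₀ : t * s₀ * t = r₀⁻¹ * t * r₀ := h₀
  have hp := part1 hS s₀ r₀ hs₀ hr₀ h₀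
  ext d
  constructor
  · intro hd
    obtain ⟨hd1, hdK⟩ := Subgroup.mem_inf.1 hd
    have hd2 := hd1
    rw [hp] at hd2
    obtain ⟨hdD, hds⟩ := Subgroup.mem_inf.1 hd2
    rw [Subgroup.mem_centralizer_singleton_iff] at hds
    refine Subgroup.mem_inf.2 ⟨hdD, ?_⟩
    rw [Subgroup.mem_centralizer_iff] at hdK ⊢
    intro s' hs'
    obtain ⟨k, hk, rfl⟩ := RO.K_trans hS hs₀ hs'
    have h1 := hdK k hk
    have h2 : k⁻¹ * d = d * k⁻¹ := by
      calc k⁻¹ * d = k⁻¹ * (d * k) * k⁻¹ := by group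
        _ = k⁻¹ * (k * d) * k⁻¹ := by rw [h1]
        _ = _ := by group
    calc k⁻¹ * s₀ * k * d = k⁻¹ * s₀ * (k * d) := by group
      _ = k⁻¹ * (s₀ * d) * k := by rw [h1]; group
      _ = (k⁻¹ * d) * s₀ * k := by rw [← hds]; group
      _ = _ := by rw [h2]; group
  · intro hd
    obtain ⟨hdD, hdJ⟩ := Subgroup.mem_inf.1 hd
    rw [Subgroup.mem_centralizer_iff] at hdJ
    have hd2 : d ∈ (MulAction.stabilizer G a ⊓ MulAction.stabilizer G (t • a)) ⊓ Subgroup.centralizer {s₀} :=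
      Subgroup.mem_inf.2 ⟨hdD, Subgroup.mem_centralizer_singleton_iff.2 (hdJ s₀ hs₀).symm⟩
    rw [← hp] at hd2
    refine Subgroup.mem_inf.2 ⟨hd2, ?_⟩
    have hdt := Subgroup.mem_centralizer_singleton_iff.1 (Subgroup.mem_inf.1 hd2).2
    rw [Subgroup.mem_centralizer_iff]
    intro k hk
    have hk' := (RO.mem_K_iff htt).1 hk
    have hdt' : t * d = d * t := hdt.symm
    have hdt'' : d⁻¹ * t = t * d⁻¹ := by
      calc d⁻¹ * t = d⁻¹ * (t * d) * d⁻¹ := by group
        _ = d⁻¹ * (d * t) * d⁻¹ := by rw [hdt']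
        _ = _ := by group
    have hkd : d * k * d⁻¹ ∈ Cfsg.invertedBy (stabilizer G a ⊓ stabilizer G (t • a)) t := by
      rw [RO.mem_K_iff htt]
      refine ⟨Subgroup.mul_mem _ (Subgroup.mul_mem _ hdD hk'.1) (Subgroup.inv_mem _ hdD), ?_⟩
      calc t * (d * k * d⁻¹) * t = (t * d) * k * (d⁻¹ * t) := by group
        _ = d * (t * k * t) * d⁻¹ := by rw [hdt', hdt'']; group
        _ = _ := by rw [hk'.2]; group
    have hka := (Subgroup.mem_inf.1 hk'.1).1
    have hJ : k⁻¹ * s₀ * k ∈ Cfsg.involutionsIn (MulAction.stabilizer G a : Set G) := by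
      have := conj_invol hs₀ (Subgroup.inv_mem _ hka)
      rwa [inv_inv] at this
    have e1 := hdJ _ hJ
    have e0 := hdJ _ hs₀
    have e2 : (d * k * d⁻¹)⁻¹ * s₀ * (d * k * d⁻¹) = k⁻¹ * s₀ * k := by
      have e0' : d⁻¹ * s₀ * d = s₀ := by rw [mul_assoc, e0]; group
      calc (d * k * d⁻¹)⁻¹ * s₀ * (d * k * d⁻¹) = d * k⁻¹ * (d⁻¹ * s₀ * d) * k * d⁻¹ := by group
        _ = d * (k⁻¹ * s₀ * k) * d⁻¹ := by rw [e0']; group
        _ = (k⁻¹ * s₀ * k * d) * d⁻¹ := by rw [e1]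
        _ = _ := by group
    have e3 := RO.K_inj hS hs₀ hkd hk e2
    calc k * d = (d * k * d⁻¹) * d := by rw [e3]
      _ = d * k := by group

end Cfsg.Agent.S1127
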