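import Cfsg.Statements.S1128
import Cfsg.Agent.Lib.Helper9.RankOne5

set_option autoImplicit false
open Cfsg

namespace Cfsg.Agent.S1128

open Cfsg.Agent.Lib.Helper9 MulAction

/-- version without faithfulness / rank hypotheses -/
theorem fpf {G Ω : Type*} [Group G] [Finite G] [MulAction G Ω] {a : Ω} {t : G} {Q : Subgroup G}
    (hS : Cfsg.IsRankOneSetup G Ω a t Q)
    (x : G) (hx : x ∈ Cfsg.invertedBy (MulAction.stabilizer G a ⊓ MulAction.stabilizer G (t • a)) t) (hx1 : x ≠ 1) :
    Q ⊓ Subgroup.centralizer {x} = ⊥ := by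
  have htt := hS.mul_self
  rw [eq_bot_iff]
  intro q hq
  obtain ⟨hqQ, hqx⟩ := Subgroup.mem_inf.1 hq
  rw [Subgroup.mem_centralizer_singleton_iff] at hqx
  rw [Subgroup.mem_bot]
  by_contra hq1
  obtain ⟨hxD, hxt⟩ := (RO.mem_K_iff htt).1 hx
  have hxa := mem_stabilizer_iff.1 (Subgroup.mem_inf.1 hxD).1
  have hxb := mem_stabilizer_iff.1 (Subgroup.mem_inf.1 hxD).2
  have h3 : ∃ b c d : Ω, b ≠ c ∧ b ≠ d ∧ c ≠ d ∧ ∀ y ∈ ({x} : Set G), y • b = b ∧ y • c = c ∧ y • d = d := by
    refine ⟨a, t • a, q • (t • a), (RO.b_ne hS).symm, (RO.Q_smul_ne hS hqQ (RO.b_ne hS)).symm, ?_, ?_⟩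
    · intro h
      exact hq1 (RO.semireg hS hqQ (RO.b_ne hS) h.symm)
    · intro y hy
      rw [Set.mem_singleton_iff] at hy
      subst hy
      exact ⟨hxa, hxb, by rw [← mul_smul, ← hqx, mul_smul, hxb]⟩
  obtain ⟨u, huc, huu, hua⟩ := RO.exists_cent_swap hS {x} (by
    intro y hy
    rw [Set.mem_singleton_iff] at hy
    subst hy
    exact hxD) h3
  rw [Subgroup.mem_centralizer_iff] at huc
  have hux : x * u = u * x := huc x rfl
  have hub : u • (t • a) = a := by rw [← hua, ← mul_smul, huu, one_smul]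
  have hD : t * u ∈ stabilizer G a ⊓ stabilizer G (t • a) := by
    refine Subgroup.mem_inf.2 ⟨?_, ?_⟩
    · rw [mem_stabilizer_iff, mul_smul, hua, RO.tb hS]
    · rw [mem_stabilizer_iff, mul_smul, hub]
  set d := t * u with hd
  have h1 : d * x = x⁻¹ * d := by
    calc d * x = t * (u * x) := by rw [hd]; group
      _ = t * (x * u) := by rw [hux]
      _ = (t * x * t) * (t * t)⁻¹ * (t * u) := by group
      _ = x⁻¹ * d := by rw [hxt, htt, inv_one, mul_one]
  have h1' : d * x⁻¹ = x * d := by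
    calc d * x⁻¹ = x * (x⁻¹ * d) * x⁻¹ := by group
      _ = x * (d * x) * x⁻¹ := by rw [h1]
      _ = x * d := by group
  have h2 : Commute (d * d) x := by
    show d * d * x = x * (d * d)
    calc d * d * x = d * (d * x) := by group
      _ = (d * x⁻¹) * d := by rw [h1]; group
      _ = x * (d * d) := by rw [h1']; group
  obtain ⟨m, hm⟩ := hS.odd_card
  have h3 : d ^ (2 * m + 1) = 1 := by
    have := pow_card_eq_one' (G := ↥(stabilizer G a ⊓ stabilizer G (t • a))) (x := ⟨d, hD⟩)
    rw [hm] at this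
    exact congrArg Subtype.val this
  have h4 : (d * d) ^ (m + 1) = d := by
    rw [← pow_two, ← pow_mul, show 2 * (m + 1) = (2 * m + 1) + 1 by ring, pow_succ, h3, one_mul]
  have h5 : d * x = x * d := by
    have := (h2.pow_left (m + 1)).eq
    rwa [h4] at this
  have h6 : x * x = 1 := by
    have : x⁻¹ = x := mul_right_cancel (h1.symm.trans h5)
    calc x * x = x⁻¹ * x := by rw [this]
      _ = 1 := inv_mul_cancel x
  exact hx1 (RO.D_odd_elt hS hxD h6)


/-- In the rank-one set-up (`G` finite and doubly transitive on `Ω`, `t` an involution moving `a`, `Q` normal in `G_a` with `G_a = Q D`, `Q ⊓ D = 1` for the two-point stabiliser `D = G_a ⊓ G_{t • a}`, `|Q|` even, `|D|` odd), with the action faithful and `G` containing two distinct commuting involutions: every non-identity element of `D` inverted by `t` acts fixed-point-freely on `Q`. -/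
theorem result {G Ω : Type*} [Group G] [Finite G] [MulAction G Ω] [FaithfulSMul G Ω] {a : Ω} {t : G} {Q : Subgroup G}
    (hS : Cfsg.IsRankOneSetup G Ω a t Q)
    (h2 : ∃ x y : G, x ≠ 1 ∧ y ≠ 1 ∧ x ≠ y ∧ x * x = 1 ∧ y * y = 1 ∧ x * y = y * x)
    (x : G) (hx : x ∈ Cfsg.invertedBy (MulAction.stabilizer G a ⊓ MulAction.stabilizer G (t • a)) t) (hx1 : x ≠ 1) :
    Q ⊓ Subgroup.centralizer {x} = ⊥ := by
  exact fpf hS x hx hx1

end Cfsg.Agent.S1128
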