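import Cfsg.Statements.S1134
import Cfsg.Agent.Lib.Helper9.RankOne5

set_option autoImplicit false
open Cfsg

namespace Cfsg.Agent.S1134

open Cfsg.Agent.Lib.Helper9 MulAction


/-- In the rank-one set-up (`G` finite and doubly transitive on `Ω`, `t` an involution moving `a`, `Q` normal in `G_a` with `G_a = Q D`, `Q ⊓ D = 1` for the two-point stabiliser `D = G_a ⊓ G_{t • a}`, `|Q|` even, `|D|` odd), with the action faithful and `G` containing two distinct commuting involutions, with `V = C_D(t)`: subsets of `V` conjugate in `G` are conjugate in `V`. -/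
theorem result {G Ω : Type*} [Group G] [Finite G] [MulAction G Ω] [FaithfulSMul G Ω] {a : Ω} {t : G} {Q : Subgroup G}
    (hS : Cfsg.IsRankOneSetup G Ω a t Q)
    (h2 : ∃ x y : G, x ≠ 1 ∧ y ≠ 1 ∧ x ≠ y ∧ x * x = 1 ∧ y * y = 1 ∧ x * y = y * x)
    (X : Set G) (hX : X ⊆ (((MulAction.stabilizer G a ⊓ MulAction.stabilizer G (t • a)) ⊓ Subgroup.centralizer {t} : Subgroup G) : Set G)) (g : G)
    (hY : (fun x => g * x * g⁻¹) '' X ⊆ (((MulAction.stabilizer G a ⊓ MulAction.stabilizer G (t • a)) ⊓ Subgroup.centralizer {t} : Subgroup G) : Set G)) :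
    ∃ v ∈ (MulAction.stabilizer G a ⊓ MulAction.stabilizer G (t • a)) ⊓ Subgroup.centralizer {t}, (fun x => v * x * v⁻¹) '' X = (fun x => g * x * g⁻¹) '' X := by
  have htt := hS.mul_self
  obtain ⟨c₀, hc₀⟩ := RO.invol_fix_exists hS htt
  have hc₀a : c₀ ≠ a := by
    rintro rfl
    exact RO.b_ne hS hc₀
  have hc₀b : c₀ ≠ t • a := by
    intro h
    rw [h, RO.tb hS] at hc₀
    exact RO.b_ne hS hc₀.symm
  -- elements of V fix a, b, c₀
  have hV : ∀ x ∈ (MulAction.stabilizer G a ⊓ MulAction.stabilizer G (t • a)) ⊓ Subgroup.centralizer {t},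
      x • a = a ∧ x • (t • a) = t • a ∧ x • c₀ = c₀ := by
    intro x hx
    obtain ⟨hxD, hxt⟩ := Subgroup.mem_inf.1 hx
    rw [Subgroup.mem_centralizer_singleton_iff] at hxt
    exact ⟨mem_stabilizer_iff.1 (Subgroup.mem_inf.1 hxD).1, mem_stabilizer_iff.1 (Subgroup.mem_inf.1 hxD).2,
      RO.comm_fix hS hS.ne_one htt hc₀ hxt⟩
  have h3 : ∃ b c d : Ω, b ≠ c ∧ b ≠ d ∧ c ≠ d ∧ ∀ x ∈ X, x • b = b ∧ x • c = c ∧ x • d = d :=
    ⟨a, t • a, c₀, (RO.b_ne hS).symm, hc₀a.symm, hc₀b.symm, fun x hx => hV x (hX hx)⟩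
  have hY : ∀ x ∈ X, g * x * g⁻¹ ∈ (MulAction.stabilizer G a ⊓ MulAction.stabilizer G (t • a)) ⊓ Subgroup.centralizer {t} :=
    fun x hx => hY ⟨x, hx, rfl⟩
  have hfix : ∀ e : Ω, (∀ x ∈ X, (g * x * g⁻¹) • e = e) → ∀ x ∈ X, x • (g⁻¹ • e) = g⁻¹ • e := by
    intro e he x hx
    have := he x hx
    rw [mul_smul, mul_smul] at this
    rw [eq_inv_smul_iff]; exact this
  obtain ⟨h, hh, hha, hhb⟩ := RO.cent_two_trans hS X h3 (fun x hx => (hV x (hX hx)).1)
    (fun x hx => (hV x (hX hx)).2.1) (hfix a fun x hx => (hV _ (hY x hx)).1)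
    (hfix (t • a) fun x hx => (hV _ (hY x hx)).2.1) (RO.b_ne hS).symm
    (fun h' => RO.b_ne hS (smul_left_cancel g⁻¹ h').symm)
  set d := g * h with hd
  have hdD : d ∈ stabilizer G a ⊓ stabilizer G (t • a) := by
    refine Subgroup.mem_inf.2 ⟨?_, ?_⟩
    · rw [mem_stabilizer_iff, hd, mul_smul, hha, smul_inv_smul]
    · rw [mem_stabilizer_iff, hd, mul_smul, hhb, smul_inv_smul]
  have hhc := Subgroup.mem_centralizer_iff.1 hh
  have hdx : ∀ x ∈ X, d * x * d⁻¹ = g * x * g⁻¹ := by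
    intro x hx
    calc d * x * d⁻¹ = g * (h * x) * h⁻¹ * g⁻¹ := by rw [hd]; group
      _ = g * (x * h) * h⁻¹ * g⁻¹ := by rw [hhc x hx]
      _ = _ := by group
  set u := d⁻¹ * t * d with hu
  have huu : u * u = 1 := by
    calc u * u = d⁻¹ * (t * t) * d := by rw [hu]; group
      _ = 1 := by rw [htt]; group
  have hua : u • a = t • a := by
    rw [hu, mul_smul, mul_smul, mem_stabilizer_iff.1 (Subgroup.mem_inf.1 hdD).1,
      mem_stabilizer_iff.1 (Subgroup.inv_mem _ (Subgroup.mem_inf.1 hdD).2)]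
  have hXt : ∀ x ∈ X, x * t = t * x := fun x hx =>
    Subgroup.mem_centralizer_singleton_iff.1 (Subgroup.mem_inf.1 (hX hx)).2
  have hXu : ∀ x ∈ X, x * u = u * x := by
    intro x hx
    have h1 := Subgroup.mem_centralizer_singleton_iff.1 (Subgroup.mem_inf.1 (hY x hx)).2
    rw [← hdx x hx] at h1
    calc x * u = d⁻¹ * (d * x * d⁻¹ * t) * d := by rw [hu]; group
      _ = d⁻¹ * (t * (d * x * d⁻¹)) * d := by rw [h1]
      _ = u * x := by rw [hu]; group
  obtain ⟨n, hnD, hn⟩ := RO.swap_conj_t' hS huu hua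
  set e := (t * u) ^ n with he
  have hXe : ∀ x ∈ X, x * e = e * x := by
    intro x hx
    have : Commute x (t * u) := (show Commute x t from hXt x hx).mul_right (hXu x hx)
    exact (this.pow_right n).eq
  -- v = d * e⁻¹
  refine ⟨d * e⁻¹, Subgroup.mem_inf.2 ⟨Subgroup.mul_mem _ hdD (Subgroup.inv_mem _ hnD), ?_⟩, ?_⟩
  · rw [Subgroup.mem_centralizer_singleton_iff]
    have h1 : d * u * d⁻¹ = t := by rw [hu]; group
    have h2 : d * e⁻¹ * t * (d * e⁻¹)⁻¹ = t := by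
      calc d * e⁻¹ * t * (d * e⁻¹)⁻¹ = d * (e⁻¹ * t * e) * d⁻¹ := by group
        _ = t := by rw [hn, h1]
    calc d * e⁻¹ * t = (d * e⁻¹ * t * (d * e⁻¹)⁻¹) * (d * e⁻¹) := by group
      _ = t * (d * e⁻¹) := by rw [h2]
  · apply Set.image_congr
    intro x hx
    rw [← hdx x hx]
    calc d * e⁻¹ * x * (d * e⁻¹)⁻¹ = d * e⁻¹ * (x * e) * d⁻¹ := by group
      _ = d * e⁻¹ * (e * x) * d⁻¹ := by rw [hXe x hx]
      _ = d * x * d⁻¹ := by group

end Cfsg.Agent.S1134
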