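import Cfsg.Statements.S1140
import Mathlib

set_option autoImplicit false
open Cfsg

namespace Cfsg.Agent.S1140

/-- For a finite field `F` of characteristic 2, the automorphisms of `F`, viewed as additive maps `F → F`, are linearly independent over `F` (acting on values) every additive endomorphism of `F` is an `F`-linear combination of them, and every biadditive map `F → F → F` is an `F`-combination of the maps `(x, y) ↦ σ(x) τ(y)`. -/
theorem result {F : Type*} [Field F] [Fintype F] [CharP F 2] :
    LinearIndependent F (fun σ : F ≃+* F => ((σ : F →+* F) : F → F)) ∧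
      (∀ f : F →+ F, ∃ (s : Finset (F ≃+* F)) (c : (F ≃+* F) → F), ∀ x : F, f x = ∑ σ ∈ s, c σ * σ x) ∧
      ∀ B : F →+ F →+ F, ∃ (s : Finset ((F ≃+* F) × (F ≃+* F))) (c : (F ≃+* F) × (F ≃+* F) → F),
        ∀ x y : F, B x y = ∑ p ∈ s, c p * (p.1 x * p.2 y) := by
  classical
  letI : Algebra (ZMod 2) F := ZMod.algebra F 2
  haveI : Finite (F ≃+* F) := Finite.of_injective (fun σ => (σ : F → F)) DFunLike.coe_injective
  letI : Fintype (F ≃+* F) := Fintype.ofFinite _
  have hLI : LinearIndependent F (fun σ : F ≃+* F => ((σ : F →+* F) : F → F)) := by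
    have h := linearIndependent_monoidHom F F
    exact h.comp (fun σ : F ≃+* F => ((σ : F →+* F) : F →* F)) (by
      intro a b hab
      ext x
      exact DFunLike.congr_fun hab x)
  let v : (F ≃+* F) → (F →ₗ[ZMod 2] F) := fun σ => AddMonoidHom.toZModLinearMap 2 ((σ : F →+* F) : F →+ F)
  let Φ : (F →ₗ[ZMod 2] F) →ₗ[F] (F → F) :=
    { toFun := fun f => f, map_add' := fun _ _ => rfl, map_smul' := fun _ _ => rfl }
  have hv : LinearIndependent F v := LinearIndependent.of_comp Φ hLI
  have hcard : Fintype.card (F ≃+* F) = Module.finrank F (F →ₗ[ZMod 2] F) := by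
    apply le_antisymm hv.fintype_card_le_finrank
    rw [Module.finrank_linearMap_self, ← IsGalois.card_aut_eq_finrank (ZMod 2) F,
      ← Nat.card_eq_fintype_card]
    exact Nat.card_le_card_of_injective (fun σ : F ≃ₐ[ZMod 2] F => σ.toRingEquiv) (by
      intro a b h
      ext x
      exact DFunLike.congr_fun h x)
  let b := basisOfLinearIndependentOfCardEqFinrank' v hv hcard
  have hb : ∀ σ, b σ = v σ := fun σ => by
    show (basisOfLinearIndependentOfCardEqFinrank' v hv hcard) σ = v σ
    rw [coe_basisOfLinearIndependentOfCardEqFinrank']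
  have h2 : ∀ (f : F →+ F) (x : F), f x = ∑ σ, b.repr (f.toZModLinearMap 2) σ * σ x := by
    intro f x
    have h := congrArg (fun g => g x) (b.sum_repr (f.toZModLinearMap 2))
    simp only [LinearMap.sum_apply, LinearMap.smul_apply, hb] at h
    exact h.symm
  refine ⟨hLI, fun f => ⟨Finset.univ, fun σ => b.repr (f.toZModLinearMap 2) σ, h2 f⟩, ?_⟩
  intro B
  let g : (F ≃+* F) → (F →+ F) := fun τ => AddMonoidHom.mk' (fun x => b.repr ((B x).toZModLinearMap 2) τ) (by
    intro x y
    have : (B (x + y)).toZModLinearMap 2 = (B x).toZModLinearMap 2 + (B y).toZModLinearMap 2 := by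
      ext z
      simp
    rw [this, map_add]
    rfl)
  refine ⟨Finset.univ, fun p => b.repr ((g p.2).toZModLinearMap 2) p.1, ?_⟩
  intro x y
  rw [Fintype.sum_prod_type_right, h2 (B x) y]
  apply Finset.sum_congr rfl
  intro τ _
  have h3 : b.repr ((B x).toZModLinearMap 2) τ = g τ x := rfl
  rw [h3, h2 (g τ) x, Finset.sum_mul]
  apply Finset.sum_congr rfl
  intro σ _
  ring

end Cfsg.Agent.S1140
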