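import Cfsg.Statements.S1152
import Cfsg.Agent.Lib.Helper8.Ree25

set_option autoImplicit false
open Cfsg

namespace Cfsg.Agent.S1152

/-- In the small Ree group ²G₂(q), q = 3^(2m+1), realised as G¹ inside the Chevalley group G₂ over the field with q elements (θ the 3^m-th power map), with H¹ = G¹ ∩ H and U¹ = G¹ ∩ U the intersections with the ambient diagonal and positive unipotent subgroups: for an involution `a ∈ H¹`, the centraliser of `a` in `G¹` is isomorphic to `Z₂ × PSL₂(q)`; and the Sylow 2-subgroups of `G¹` are elementary abelian of order 8. -/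
theorem result {K : Type*} [Field K] [Fintype K] {m : ℕ} (hK : Fintype.card K = 3 ^ (2 * m + 1))
    (a : ↥(Cfsg.Lie.twistedG2 K (3 ^ m))) (haH : (a : GL Cfsg.Lie.chevG2.Idx K) ∈ Cfsg.Lie.chevG2.diagonalSubgroup K) (ha1 : a ≠ 1) (ha2 : a * a = 1) :
    Nonempty (↥(Subgroup.centralizer {a}) ≃* Multiplicative (ZMod 2) × Matrix.ProjectiveSpecialLinearGroup (Fin 2) K) ∧
      ∀ S : Sylow 2 ↥(Cfsg.Lie.twistedG2 K (3 ^ m)), Nat.card S = 8 ∧ ∀ x ∈ S, x * x = 1 := by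
  obtain ⟨hc, φ, he, hφ, hG, hH⟩ := Cfsg.Agent.Lib.Helper8.setup_ree' hK
  obtain ⟨h0, hh0, hn⟩ := Cfsg.Agent.Lib.Helper8.exists_nstar φ Cfsg.Agent.Lib.Helper8.G2_isoR1_inj hφ
  revert a
  rw [hG]
  intro a haH ha1 ha2
  have ha : (a : GL Cfsg.Lie.chevG2.Idx K) = Cfsg.Agent.Lib.Helper8.hR φ (-1) :=
    Cfsg.Agent.Lib.Helper8.inv_unique φ Cfsg.Agent.Lib.Helper8.G2_isoR1_inj hφ hh0 hn hH
      (Subgroup.mem_inf.mpr ⟨haH, a.2⟩) (fun h => ha1 (Subtype.ext h)) (congrArg Subtype.val ha2)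
  exact ⟨Cfsg.Agent.Lib.Helper8.ree_cen_iso φ Cfsg.Agent.Lib.Helper8.G2_isoR1_inj hφ hh0 hn
      (by rw [hK]; exact Cfsg.Agent.Lib.Helper8.three_pow_mod4 m) hH a ha,
    Cfsg.Agent.Lib.Helper8.ree_sylow2 φ Cfsg.Agent.Lib.Helper8.G2_isoR1_inj hφ hh0 hn
      (by rw [hK]; exact Cfsg.Agent.Lib.Helper8.three_pow_mod8 m) hH⟩

end Cfsg.Agent.S1152
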