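import Cfsg.Statements.S1160
import Cfsg.Agent.Lib.Helper9.GenAb
import Cfsg.Agent.S0126
import Cfsg.Agent.Lib.Helper10.Fitting

set_option autoImplicit false
open Cfsg

namespace Cfsg.Agent.S1160

open Cfsg.Agent.Lib.Helper9

section
variable {P E : Type*} [Group P] [AddCommGroup E] [DistribMulAction P E]

/-- norm operator -/
def Nm (p : ℕ) (z : P) (e : E) : E := ∑ i ∈ Finset.range p, z ^ i • e

theorem smul_Nm {p : ℕ} {z : P} (hz : z ^ p = 1) (e : E) : z • Nm p z e = Nm p z e := by
  unfold Nm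
  rw [Finset.smul_sum]
  have h1 : ∑ i ∈ Finset.range p, z • z ^ i • e = ∑ i ∈ Finset.range p, z ^ (i + 1) • e := by
    apply Finset.sum_congr rfl
    intro i _
    rw [smul_smul, pow_succ']
  rw [h1]
  have h2 := Finset.sum_range_succ (fun j => z ^ j • e) p
  have h3 := Finset.sum_range_succ' (fun j => z ^ j • e) p
  rw [h2] at h3
  simp only [hz, pow_zero] at h3
  exact (add_right_cancel h3).symm

theorem Nm_of_fixed {p : ℕ} {z : P} {e : E} (h : z • e = e) : Nm p z e = p • e := by
  unfold Nm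
  have : ∀ i : ℕ, z ^ i • e = e := by
    intro i
    induction i with
    | zero => simp
    | succ n ih => rw [pow_succ, mul_smul, h, ih]
  simp [this]

theorem Nm_add (p : ℕ) (z : P) (e f : E) : Nm p z (e + f) = Nm p z e + Nm p z f := by
  unfold Nm
  simp [smul_add, Finset.sum_add_distrib]

theorem smul_Nm_comm {p : ℕ} {z g : P} (h : g * z = z * g) (e : E) :
    g • Nm p z e = Nm p z (g • e) := by
  unfold Nm
  rw [Finset.smul_sum]
  apply Finset.sum_congr rfl
  intro i _
  rw [smul_smul, smul_smul]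
  have : Commute g (z ^ i) := Commute.pow_right h i
  rw [this.eq]

theorem pow_smul_of_fixed {z : P} {e : E} (h : z • e = e) (x : P) (hx : x ∈ Subgroup.zpowers z) :
    x • e = e := by
  have : Subgroup.zpowers z ≤ MulAction.stabilizer P e := by
    rw [Subgroup.zpowers_le]; exact h
  exact this hx

theorem mem_zpowers_swap {p : ℕ} [Fact p.Prime] {u x : P} (hu : u ^ p = 1)
    (hx : x ∈ Subgroup.zpowers u) (hx1 : x ≠ 1) : u ∈ Subgroup.zpowers x := by
  have hu1 : u ≠ 1 := by
    rintro rfl
    rw [Subgroup.zpowers_one_eq_bot, Subgroup.mem_bot] at hx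
    exact hx1 hx
  have hcard : Nat.card (Subgroup.zpowers u) = p := by
    rw [Nat.card_zpowers, orderOf_eq_prime hu hu1]
  have h := mem_zpowers_of_prime_card (G := Subgroup.zpowers u) hcard
    (g := ⟨x, hx⟩) (g' := ⟨u, Subgroup.mem_zpowers u⟩) (fun h => hx1 (congrArg Subtype.val h))
  obtain ⟨k, hk⟩ := Subgroup.mem_zpowers_iff.1 h
  rw [Subgroup.mem_zpowers_iff]
  exact ⟨k, by simpa using congrArg Subtype.val hk⟩

theorem Nm_zero (p : ℕ) (z : P) : Nm p z (0 : E) = 0 := by
  unfold Nm; simp

theorem Nm_nsmul (p : ℕ) (z : P) (n : ℕ) (e : E) : Nm p z (n • e) = n • Nm p z e := by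
  induction n with
  | zero => simp [Nm_zero]
  | succ n ih => rw [succ_nsmul, Nm_add, ih, succ_nsmul]

theorem smul_nsmul' (g : P) (n : ℕ) (e : E) : g • (n • e) = n • (g • e) :=
  (DistribSMul.toAddMonoidHom E g).map_nsmul n e

theorem cancel_eq {p : ℕ} (hcancel : ∀ x : E, p • x = 0 → x = 0) {x y : E} (h : p • x = p • y) :
    x = y := by
  have : p • (x - y) = 0 := by rw [nsmul_sub, h, sub_self]
  exact sub_eq_zero.1 (hcancel _ this)

theorem central_fpf [Finite P] [FaithfulSMul P E] {p : ℕ} (hcancel : ∀ x : E, p • x = 0 → x = 0)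
    (hconst : ∀ a b : E, a ≠ 0 → b ≠ 0 →
      Nat.card (MulAction.stabilizer P a) = Nat.card (MulAction.stabilizer P b))
    {z : P} (hzc : ∀ g : P, g * z = z * g) (hzp : z ^ p = 1) (hz1 : z ≠ 1) (c : E)
    (hc : z • c = c) : c = 0 := by
  by_contra hc0
  obtain ⟨a, ha⟩ : ∃ a : E, z • a ≠ a := by
    by_contra hcon
    push Not at hcon
    exact hz1 (FaithfulSMul.eq_of_smul_eq_smul (α := E) (fun a => by rw [hcon a, one_smul]))
  obtain ⟨a', ha'⟩ : ∃ a' : E, a' + Nm p z a = p • a := ⟨p • a - Nm p z a, by abel⟩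
  have hNa' : Nm p z a' = 0 := by
    have h1 := congrArg (Nm p z) ha'
    rw [Nm_add, Nm_nsmul, Nm_of_fixed (smul_Nm hzp a)] at h1
    exact add_eq_right.1 h1
  have ha'0 : a' ≠ 0 := by
    intro h0
    rw [h0, zero_add] at ha'
    apply ha
    apply cancel_eq hcancel
    rw [← smul_nsmul', ← ha', smul_Nm hzp]
  have hw0 : c + a' ≠ 0 := by
    intro h0
    have h1 := congrArg (Nm p z) h0
    rw [Nm_add, hNa', add_zero, Nm_of_fixed hc, Nm_zero] at h1
    exact hc0 (hcancel _ h1)
  have hle : MulAction.stabilizer P (c + a') ≤ MulAction.stabilizer P c := by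
    intro g hg
    rw [MulAction.mem_stabilizer_iff] at hg ⊢
    have h1 := congrArg (Nm p z) hg
    rw [← smul_Nm_comm (hzc g), Nm_add, hNa', add_zero, Nm_of_fixed hc, smul_nsmul'] at h1
    exact cancel_eq hcancel h1
  have heq : MulAction.stabilizer P (c + a') = MulAction.stabilizer P c :=
    Subgroup.eq_of_le_of_card_ge hle (hconst _ _ hc0 hw0).le
  have hzw : z • (c + a') = c + a' := by
    have : z ∈ MulAction.stabilizer P (c + a') := by rw [heq]; exact hc
    exact this
  rw [smul_add, hc] at hzw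
  have hza' : z • a' = a' := add_left_cancel hzw
  rw [Nm_of_fixed hza'] at hNa'
  exact ha'0 (hcancel _ hNa')

theorem no_rank_two [Finite P] [Finite E] [FaithfulSMul P E] {p : ℕ} [Fact p.Prime] (hp2 : p ≠ 2)
    (hP : IsPGroup p P) (hcancel : ∀ x : E, p • x = 0 → x = 0)
    (hconst : ∀ a b : E, a ≠ 0 → b ≠ 0 →
      Nat.card (MulAction.stabilizer P a) = Nat.card (MulAction.stabilizer P b))
    (Y : Subgroup P) (hYn : Y.Normal) (hYel : Cfsg.IsElementaryAbelian p Y)
    (hYcard : Nat.card Y = p ^ 2) : False := by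
  have hp : p.Prime := Fact.out
  haveI : Group.IsNilpotent P := hP.isNilpotent
  have hYne : Y ≠ ⊥ := by
    intro h
    rw [h, Subgroup.card_bot] at hYcard
    have : 1 < p ^ 2 := Nat.one_lt_pow (by norm_num) hp.one_lt
    omega
  obtain ⟨z, hz, hz1⟩ := (Subgroup.bot_or_exists_ne_one _).resolve_left
    (Cfsg.Agent.Lib.Helper10.normal_inf_center_ne_bot Y hYn hYne)
  have hzY : z ∈ Y := hz.1
  have hzc : ∀ g : P, g * z = z * g := fun g => (Subgroup.mem_center_iff.1 hz.2 g)
  have hpow : ∀ u ∈ Y, u ^ p = 1 := hYel.2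
  have hcomm : ∀ u ∈ Y, ∀ v ∈ Y, u * v = v * u := fun u hu v hv =>
    congrArg Subtype.val (hYel.1.is_comm.comm (⟨u, hu⟩ : Y) ⟨v, hv⟩)
  have hL1 : ∀ c : E, z • c = c → c = 0 := central_fpf hcancel hconst hzc (hpow z hzY) hz1
  have hfix2 : ∀ u ∈ Y, ∀ v ∈ Y, u ≠ 1 → v ∉ Subgroup.zpowers u → ∀ e : E, u • e = e → v • e = e →
      e = 0 := by
    intro u hu v hv hu1 hvu e hue hve
    have hLY : Subgroup.zpowers u ⊔ Subgroup.zpowers v ≤ Y :=
      sup_le (by rw [Subgroup.zpowers_le]; exact hu) (by rw [Subgroup.zpowers_le]; exact hv)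
    have hlt : Subgroup.zpowers u < Subgroup.zpowers u ⊔ Subgroup.zpowers v := by
      refine lt_of_le_of_ne le_sup_left (fun h => hvu ?_)
      rw [h]
      exact (le_sup_right : Subgroup.zpowers v ≤ _) (Subgroup.mem_zpowers v)
    have hc1 : p < Nat.card (Subgroup.zpowers u ⊔ Subgroup.zpowers v : Subgroup P) := by
      have h1 : Nat.card (Subgroup.zpowers u) = p := by
        rw [Nat.card_zpowers, orderOf_eq_prime (hpow u hu) hu1]
      rw [← h1]
      by_contra hcon
      push Not at hcon
      exact hlt.ne (Subgroup.eq_of_le_of_card_ge hlt.le hcon)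
    have hc2 : Nat.card (Subgroup.zpowers u ⊔ Subgroup.zpowers v : Subgroup P) ∣ p ^ 2 := by
      rw [← hYcard]; exact Subgroup.card_dvd_of_le hLY
    obtain ⟨j, hj, hj'⟩ := (Nat.dvd_prime_pow hp).1 hc2
    have hj2 : j = 2 := by
      rw [hj'] at hc1
      have : p ^ 1 < p ^ j := by rwa [pow_one]
      have := (Nat.pow_lt_pow_iff_right hp.one_lt).1 this
      omega
    have hLeq : Subgroup.zpowers u ⊔ Subgroup.zpowers v = Y :=
      Subgroup.eq_of_le_of_card_ge hLY (by rw [hYcard, hj', hj2])
    have hstab : Subgroup.zpowers u ⊔ Subgroup.zpowers v ≤ MulAction.stabilizer P e :=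
      sup_le (by rw [Subgroup.zpowers_le]; exact hue) (by rw [Subgroup.zpowers_le]; exact hve)
    rw [hLeq] at hstab
    exact hL1 e (hstab hzY)
  have hpE : ¬ p ∣ Nat.card E := by
    intro h
    obtain ⟨x, hx⟩ := exists_prime_addOrderOf_dvd_card' p h
    have h1 : p • x = 0 := by rw [← hx]; exact addOrderOf_nsmul_eq_zero x
    have h2 := hcancel x h1
    rw [h2, addOrderOf_zero] at hx
    exact hp.one_lt.ne hx
  -- generation
  have hgen : ∀ u ∈ Y, ∀ H : AddSubgroup E, (∀ i < p, ∀ v : E, (z ^ i * u) • v = v → v ∈ H) →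
      ∀ v : E, v ∈ H := by
    intro u hu H hH v
    refine abelian_gen hp hpE (DistribMulAction.toAddMonoidEnd P E z)
      (DistribMulAction.toAddMonoidEnd P E u) ?_ ?_ ?_ H ?_ ?_ v
    · change _ * _ = _ * _
      rw [← map_mul, ← map_mul, hcomm z hzY u hu]
    · rw [← map_pow, hpow z hzY, map_one]
    · rw [← map_pow, hpow u hu, map_one]
    · intro v hv
      rw [hL1 v hv]; exact H.zero_mem
    · intro i hi v hv
      rw [← map_pow, ← map_mul] at hv
      exact hH i hi v hv
  -- y outside zpowers z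
  obtain ⟨y, hyY, hyz⟩ : ∃ y ∈ Y, y ∉ Subgroup.zpowers z := by
    by_contra hcon
    push Not at hcon
    have h1 : Nat.card Y ≤ Nat.card (Subgroup.zpowers z) := Subgroup.card_le_of_le hcon
    rw [hYcard, Nat.card_zpowers, orderOf_eq_prime (hpow z hzY) hz1] at h1
    have : p ^ 1 < p ^ 2 := (Nat.pow_lt_pow_iff_right hp.one_lt).2 (by norm_num)
    rw [pow_one] at this
    omega
  have hout : ∀ u ∈ Y, u ∉ Subgroup.zpowers z → ∀ i : ℕ, z ^ i * u ∉ Subgroup.zpowers z := by
    intro u _ huz i h
    apply huz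
    have : u = (z ^ i)⁻¹ * (z ^ i * u) := by group
    rw [this]
    exact Subgroup.mul_mem _ (Subgroup.inv_mem _ (Subgroup.pow_mem _ (Subgroup.mem_zpowers z) i)) h
  have hEne : ∃ e : E, e ≠ 0 := by
    by_contra hcon
    push Not at hcon
    exact hz1 (FaithfulSMul.eq_of_smul_eq_smul (α := E) (fun a => by rw [hcon a, smul_zero, smul_zero]))
  -- claim 1
  obtain ⟨u, huY, huz, a, ha0, hua⟩ : ∃ u ∈ Y, u ∉ Subgroup.zpowers z ∧ ∃ a : E, a ≠ 0 ∧ u • a = a := by
    by_contra hcon
    push Not at hcon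
    obtain ⟨e, he⟩ := hEne
    apply he
    have := hgen y hyY ⊥ (fun i _ v hv => by
      rw [AddSubgroup.mem_bot]
      by_contra hv0
      exact hcon (z ^ i * y) (Y.mul_mem (Y.pow_mem hzY i) hyY) (hout y hyY hyz i) v hv0 hv) e
    exact (AddSubgroup.mem_bot).1 this
  have hu1 : u ≠ 1 := fun h => huz (h ▸ Subgroup.one_mem _)
  -- claim 2
  obtain ⟨u', hu'Y, hu'u, b, hb0, hub⟩ : ∃ u' ∈ Y, u' ∉ Subgroup.zpowers u ∧
      ∃ b : E, b ≠ 0 ∧ u' • b = b := by
    by_contra hcon
    push Not at hcon
    apply hu1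
    apply FaithfulSMul.eq_of_smul_eq_smul (α := E)
    intro e
    rw [one_smul]
    let H : AddSubgroup E :=
      { carrier := {v | u • v = v}
        add_mem' := by
          intro v w hv hw
          change u • (v + w) = v + w
          rw [smul_add, hv, hw]
        zero_mem' := smul_zero u
        neg_mem' := by
          intro v hv
          change u • (-v) = -v
          rw [smul_neg, hv] }
    have := hgen u huY H (fun i hi v hv => by
      by_cases hi0 : i = 0
      · subst hi0
        rw [pow_zero, one_mul] at hv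
        exact hv
      · have hnot : z ^ i * u ∉ Subgroup.zpowers u := by
          intro h
          have hzi : z ^ i ∈ Subgroup.zpowers u := by
            have e1 : z ^ i = (z ^ i * u) * u⁻¹ := by group
            rw [e1]
            exact Subgroup.mul_mem _ h (Subgroup.inv_mem _ (Subgroup.mem_zpowers u))
          have hzi1 : z ^ i ≠ 1 := by
            intro h1
            have hd := orderOf_dvd_of_pow_eq_one h1
            rw [orderOf_eq_prime (hpow z hzY) hz1] at hd
            exact hi0 (Nat.eq_zero_of_dvd_of_lt hd hi)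
          have h2 := mem_zpowers_swap (hpow u huY) hzi hzi1
          apply huz
          have h3 : Subgroup.zpowers (z ^ i) ≤ Subgroup.zpowers z := by
            rw [Subgroup.zpowers_le]
            exact Subgroup.pow_mem _ (Subgroup.mem_zpowers z) i
          exact h3 h2
        have hv0 : v = 0 := by
          by_contra hv0
          exact hcon _ (Y.mul_mem (Y.pow_mem hzY i) huY) hnot v hv0 hv
        rw [hv0]; exact H.zero_mem) e
    exact this
  have hu'1 : u' ≠ 1 := fun h => hu'u (h ▸ Subgroup.one_mem _)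
  have huu' : u ∉ Subgroup.zpowers u' := by
    intro h
    exact hu'u (mem_zpowers_swap (hpow u' hu'Y) h hu1)
  -- F1, F2
  have F1 : ∀ s ∈ Y, s ≠ 1 → ∀ v ∈ Y, v ∉ Subgroup.zpowers s → ∀ e : E, v • e = e → Nm p s e = 0 := by
    intro s hs hs1 v hv hvs e he
    apply hfix2 s hs v hv hs1 hvs _ (smul_Nm (hpow s hs) e)
    rw [smul_Nm_comm (hcomm v hv s hs), he]
  have F2 : ∀ s ∈ Y, ∀ v ∈ Subgroup.zpowers s, v ≠ 1 → ∀ e : E, v • e = e → Nm p s e = p • e := by
    intro s hs v hv hv1 e he
    exact Nm_of_fixed (pow_smul_of_fixed he s (mem_zpowers_swap (hpow s hs) hv hv1))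
  have hab : a ≠ b := by
    rintro rfl
    exact ha0 (hfix2 u huY u' hu'Y hu1 hu'u a hua hub)
  -- claim 3
  have hstab : ∀ g : P, g • (a + b) = a + b → g • a = a := by
    intro g hg
    rw [smul_add] at hg
    have hvY : g * u * g⁻¹ ∈ Y := hYn.conj_mem u huY g
    have hv'Y : g * u' * g⁻¹ ∈ Y := hYn.conj_mem u' hu'Y g
    have hva : (g * u * g⁻¹) • (g • a) = g • a := by
      rw [smul_smul, inv_mul_cancel_right, mul_smul, hua]
    have hvb : (g * u' * g⁻¹) • (g • b) = g • b := by
      rw [smul_smul, inv_mul_cancel_right, mul_smul, hub]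
    have hv1 : g * u * g⁻¹ ≠ 1 := by
      intro h
      apply hu1
      have : u = g⁻¹ * (g * u * g⁻¹) * g := by group
      rw [this, h]; group
    have hv'1 : g * u' * g⁻¹ ≠ 1 := by
      intro h
      apply hu'1
      have : u' = g⁻¹ * (g * u' * g⁻¹) * g := by group
      rw [this, h]; group
    have hN := congrArg (Nm p u) hg
    rw [Nm_add, Nm_add, Nm_of_fixed hua, F1 u huY hu1 u' hu'Y hu'u b hub, add_zero] at hN
    by_cases hcase : g * u * g⁻¹ ∈ Subgroup.zpowers u
    · have hv'not : g * u' * g⁻¹ ∉ Subgroup.zpowers u := by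
        intro h
        -- then u' in zpowers u after conjugating back
        have h1 : u ∈ Subgroup.zpowers (g * u * g⁻¹) := mem_zpowers_swap (hpow u huY) hcase hv1
        have h2 : Subgroup.zpowers u ≤ Subgroup.zpowers (g * u * g⁻¹) := by
          rw [Subgroup.zpowers_le]; exact h1
        obtain ⟨k, hk⟩ := Subgroup.mem_zpowers_iff.1 (h2 h)
        apply hu'u
        rw [Subgroup.mem_zpowers_iff]
        refine ⟨k, ?_⟩
        have e1 : (g * u * g⁻¹) ^ k = g * u ^ k * g⁻¹ := by
          rw [← conj_zpow]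
        rw [e1] at hk
        have : u ^ k = g⁻¹ * (g * u ^ k * g⁻¹) * g := by group
        rw [this, hk]; group
      rw [F2 u huY _ hcase hv1 _ hva, F1 u huY hu1 _ hv'Y hv'not _ hvb, add_zero] at hN
      exact cancel_eq hcancel hN
    · exfalso
      rw [F1 u huY hu1 _ hvY hcase _ hva, zero_add] at hN
      have hv'in : g * u' * g⁻¹ ∈ Subgroup.zpowers u := by
        by_contra hnot
        rw [F1 u huY hu1 _ hv'Y hnot _ hvb] at hN
        exact ha0 (hcancel a hN.symm)
      rw [F2 u huY _ hv'in hv'1 _ hvb] at hN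
      have hgb : g • b = a := cancel_eq hcancel hN
      have hga : g • a = b := by
        rw [hgb] at hg
        have : g • a + a = b + a := by rw [hg, add_comm]
        exact add_right_cancel this
      have hodd : ∀ n : ℕ, g ^ (2 * n + 1) • a = b := by
        intro n
        induction n with
        | zero => simpa using hga
        | succ n ih =>
          have : 2 * (n + 1) + 1 = (2 * n + 1) + 1 + 1 := by ring
          rw [this, pow_succ', pow_succ', mul_smul, mul_smul, ih, hgb, hga]
      obtain ⟨k, hk⟩ := hP g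
      have hpk : Odd (p ^ k) := (hp.odd_of_ne_two hp2).pow
      obtain ⟨n, hn⟩ := hpk
      have := hodd n
      rw [← hn, hk, one_smul] at this
      exact hab this
  have hw0 : a + b ≠ 0 := by
    intro h
    have hb' : b = -a := (neg_eq_of_add_eq_zero_right h).symm
    apply hb0
    apply hfix2 u huY u' hu'Y hu1 hu'u b _ hub
    rw [hb', smul_neg, hua]
  have hle : MulAction.stabilizer P (a + b) ≤ MulAction.stabilizer P a := fun g hg => hstab g hg
  have heq : MulAction.stabilizer P (a + b) = MulAction.stabilizer P a :=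
    Subgroup.eq_of_le_of_card_ge hle (hconst _ _ ha0 hw0).le
  have huw : u • (a + b) = a + b := by
    have : u ∈ MulAction.stabilizer P (a + b) := by rw [heq]; exact hua
    exact this
  rw [smul_add, hua] at huw
  exact hb0 (hfix2 u huY u' hu'Y hu1 hu'u b (add_left_cancel huw) hub)

end

/-- Let `p ≠ 2` be prime and `P` a finite `p`-group acting faithfully by additive automorphisms on a finite elementary abelian `q`-group `E` (`q` prime), such that `|P_a|` is the same for all `a ≠ 0`. Then `P` is cyclic and every non-identity element of `P` fixes only `0`. -/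
theorem result {P E : Type*} [Group P] [Finite P]
    [AddCommGroup E] [Finite E] [DistribMulAction P E] [FaithfulSMul P E]
    {p q : ℕ} [Fact p.Prime] (hp2 : p ≠ 2) (hP : IsPGroup p P) (hq : q.Prime) (hE : ∀ e : E, q • e = 0)
    (hconst : ∀ a b : E, a ≠ 0 → b ≠ 0 →
      Nat.card (MulAction.stabilizer P a) = Nat.card (MulAction.stabilizer P b)) :
    IsCyclic P ∧ ∀ g : P, g ≠ 1 → ∀ a : E, g • a = a → a = 0 := by
  have hp : p.Prime := Fact.out
  -- trivial-group criterion
  have htriv : (∀ g : P, ∀ e : E, g • e = e) → IsCyclic P ∧ ∀ g : P, g ≠ 1 → ∀ a : E, g • a = a → a = 0 := by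
    intro h
    have h1 : ∀ g : P, g = 1 := fun g =>
      FaithfulSMul.eq_of_smul_eq_smul (α := E) (fun a => by rw [h g a, one_smul])
    haveI : Subsingleton P := ⟨fun a b => by rw [h1 a, h1 b]⟩
    exact ⟨inferInstance, fun g hg => absurd (h1 g) hg⟩
  by_cases hqp : q = p
  · subst hqp
    apply htriv
    by_cases hE0 : ∀ e : E, e = 0
    · intro g e
      rw [hE0 e, smul_zero]
    push Not at hE0
    obtain ⟨e₀, he₀⟩ := hE0
    have hdvd : q ∣ Nat.card E := by
      have h1 : addOrderOf e₀ = q := addOrderOf_eq_prime (hE e₀) he₀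
      rw [← h1]; exact addOrderOf_dvd_natCard e₀
    have hmod := hP.card_modEq_card_fixedPoints E
    have hdvd2 : q ∣ Nat.card (MulAction.fixedPoints P E) :=
      (Nat.modEq_zero_iff_dvd).1 (hmod.symm.trans ((Nat.modEq_zero_iff_dvd).2 hdvd))
    have hgt : 1 < Nat.card (MulAction.fixedPoints P E) := by
      have hpos : 0 < Nat.card (MulAction.fixedPoints P E) := by
        haveI : Nonempty (MulAction.fixedPoints P E) := ⟨⟨0, fun g => smul_zero g⟩⟩
        exact Nat.card_pos
      exact lt_of_lt_of_le hp.one_lt (Nat.le_of_dvd hpos hdvd2)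
    obtain ⟨x, y, hxy⟩ := Finite.one_lt_card_iff_nontrivial.1 hgt
    obtain ⟨a, ha0, hafix⟩ : ∃ a : E, a ≠ 0 ∧ ∀ g : P, g • a = a := by
      by_cases hx0 : (x : E) = 0
      · refine ⟨y, fun hy0 => hxy (Subtype.ext (by rw [hx0, hy0])), y.2⟩
      · exact ⟨x, hx0, x.2⟩
    have htop : MulAction.stabilizer P a = ⊤ := by
      rw [eq_top_iff]; intro g _; exact hafix g
    intro g e
    by_cases he0 : e = 0
    · rw [he0, smul_zero]
    have h1 := hconst e a he0 ha0
    rw [htop, Subgroup.card_top] at h1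
    have h2 : MulAction.stabilizer P e = ⊤ := Subgroup.eq_top_of_card_eq _ h1
    have : g ∈ MulAction.stabilizer P e := by rw [h2]; trivial
    exact this
  · have hcancel : ∀ x : E, p • x = 0 → x = 0 := by
      intro x hx
      have hcop : Nat.Coprime p q := (Nat.coprime_primes hp hq).2 (fun h => hqp h.symm)
      have hd1 : addOrderOf x ∣ p := addOrderOf_dvd_of_nsmul_eq_zero hx
      have hd2 : addOrderOf x ∣ q := addOrderOf_dvd_of_nsmul_eq_zero (hE x)
      have hd3 : addOrderOf x ∣ 1 := by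
        have := Nat.dvd_gcd hd1 hd2
        rwa [hcop.gcd_eq_one] at this
      exact AddMonoid.addOrderOf_eq_one_iff.1 (Nat.dvd_one.1 hd3)
    have hcyc : IsCyclic P := by
      by_contra hnc
      obtain ⟨Y, hYn, hYel, hYcard⟩ := Cfsg.Agent.S0126.result hp2 hP hnc
      exact no_rank_two hp2 hP hcancel hconst Y hYn hYel hYcard
    refine ⟨hcyc, ?_⟩
    intro g hg a hga
    have hcommP : ∀ x y : P, x * y = y * x := by
      intro x y
      obtain ⟨c, hc⟩ := hcyc
      obtain ⟨m, rfl⟩ := Subgroup.mem_zpowers_iff.1 (hc x)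
      obtain ⟨n, rfl⟩ := Subgroup.mem_zpowers_iff.1 (hc y)
      rw [← zpow_add, ← zpow_add, add_comm]
    obtain ⟨k, hk⟩ := (IsPGroup.iff_orderOf.1 hP) g
    have hk0 : k ≠ 0 := by
      rintro rfl
      rw [pow_zero, orderOf_eq_one_iff] at hk
      exact hg hk
    obtain ⟨m, rfl⟩ : ∃ m, k = m + 1 := ⟨k - 1, by omega⟩
    have hzp : (g ^ p ^ m) ^ p = 1 := by
      rw [← pow_mul, ← pow_succ, ← hk, pow_orderOf_eq_one]
    have hz1 : g ^ p ^ m ≠ 1 := by
      intro h
      have hd := orderOf_dvd_of_pow_eq_one h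
      rw [hk] at hd
      have := Nat.le_of_dvd (pow_pos hp.pos m) hd
      have h2 : p ^ m < p ^ (m + 1) := (Nat.pow_lt_pow_iff_right hp.one_lt).2 (Nat.lt_succ_self m)
      omega
    apply central_fpf hcancel hconst (fun x => hcommP x _) hzp hz1 a
    exact pow_smul_of_fixed hga _ (Subgroup.pow_mem _ (Subgroup.mem_zpowers g) _)

end Cfsg.Agent.S1160
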