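import Cfsg.Statements.S1163
-- import your own Cfsg.Agent.* helpers here
import Cfsg.Agent.Lib.Helper29.SzLie

set_option autoImplicit false
open Cfsg

namespace Cfsg.Agent.S1163

theorem abstract_quot {G Ω : Type*} [Group G] [MulAction G Ω] (a : Ω)
    (h2 : ∀ x y z t : Ω, x ≠ y → z ≠ t → ∃ g : G, g • x = z ∧ g • y = t)
    (S : Subgroup G) (hreg : ∀ x y : Ω, x ≠ a → y ≠ a → ∃! s : S, (s : G) • x = y) :
    MulAction.IsMultiplyPretransitive G (G ⧸ MulAction.stabilizer G a) 2 ∧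
    ∀ x y : G ⧸ MulAction.stabilizer G a, x ≠ QuotientGroup.mk 1 → y ≠ QuotientGroup.mk 1 →
      ∃! s : S, (s : G) • x = y := by
  have hφ := MulAction.injective_ofQuotientStabilizer G a
  have h1 : MulAction.ofQuotientStabilizer G a (QuotientGroup.mk 1) = a := by
    rw [MulAction.ofQuotientStabilizer_mk, one_smul]
  constructor
  · rw [MulAction.is_two_pretransitive_iff]
    intro x y z t hxy hzt
    obtain ⟨g, e1, e2⟩ := h2 _ _ _ _ (hφ.ne hxy) (hφ.ne hzt)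
    exact ⟨g, hφ (by rw [MulAction.ofQuotientStabilizer_smul, e1]),
      hφ (by rw [MulAction.ofQuotientStabilizer_smul, e2])⟩
  · intro x y hx hy
    obtain ⟨s, hs, hs'⟩ := hreg (MulAction.ofQuotientStabilizer G a x)
      (MulAction.ofQuotientStabilizer G a y) (fun h => hx (hφ (h.trans h1.symm)))
      (fun h => hy (hφ (h.trans h1.symm)))
    refine ⟨s, hφ (by rw [MulAction.ofQuotientStabilizer_smul, hs]), fun s' h' => hs' s' ?_⟩
    show (s' : G) • _ = _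
    rw [← MulAction.ofQuotientStabilizer_smul, h']

/-- For the Suzuki group Sz(q), q = 2^(2m+1) ≥ 8, realised as the elements g of Sp₄(F) with g* = g^θ (θ the 2^(m+1)-th power map, so that θ² is squaring): `|Sz(q)| = q² (q - 1) (q² + 1)`, and there is a Sylow 2-subgroup `S` whose normaliser `H` has order `q²(q-1)` and index `q² + 1`, the action of `Sz(q)` on the cosets of `H` is doubly transitive, and `S` acts regularly on the cosets other than `H` itself. -/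
theorem result {F : Type*} [Field F] [Fintype F] {m : ℕ} (hm : 1 ≤ m) (hF : Fintype.card F = 2 ^ (2 * m + 1)) :
    Nat.card ↥(Cfsg.Lie.Sz F (2 ^ (m + 1))) = (2 ^ (2 * m + 1)) ^ 2 * (2 ^ (2 * m + 1) - 1) * ((2 ^ (2 * m + 1)) ^ 2 + 1) ∧
    ∃ S : Sylow 2 ↥(Cfsg.Lie.Sz F (2 ^ (m + 1))),
      Nat.card (Subgroup.normalizer ((S : Subgroup ↥(Cfsg.Lie.Sz F (2 ^ (m + 1)))) : Set ↥(Cfsg.Lie.Sz F (2 ^ (m + 1))))) = (2 ^ (2 * m + 1)) ^ 2 * (2 ^ (2 * m + 1) - 1) ∧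
      (Subgroup.normalizer ((S : Subgroup ↥(Cfsg.Lie.Sz F (2 ^ (m + 1)))) : Set ↥(Cfsg.Lie.Sz F (2 ^ (m + 1))))).index = (2 ^ (2 * m + 1)) ^ 2 + 1 ∧
      MulAction.IsMultiplyPretransitive ↥(Cfsg.Lie.Sz F (2 ^ (m + 1))) (↥(Cfsg.Lie.Sz F (2 ^ (m + 1))) ⧸ Subgroup.normalizer ((S : Subgroup ↥(Cfsg.Lie.Sz F (2 ^ (m + 1)))) : Set ↥(Cfsg.Lie.Sz F (2 ^ (m + 1))))) 2 ∧
      ∀ x y : ↥(Cfsg.Lie.Sz F (2 ^ (m + 1))) ⧸ Subgroup.normalizer ((S : Subgroup ↥(Cfsg.Lie.Sz F (2 ^ (m + 1)))) : Set ↥(Cfsg.Lie.Sz F (2 ^ (m + 1)))),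
        x ≠ (QuotientGroup.mk 1) → y ≠ (QuotientGroup.mk 1) → ∃! s : ↥(S : Subgroup ↥(Cfsg.Lie.Sz F (2 ^ (m + 1)))), (s : ↥(Cfsg.Lie.Sz F (2 ^ (m + 1)))) • x = y := by
  have hG := Cfsg.Agent.Lib.Helper29.Sz.good_of_card hF
  have hex := Cfsg.Agent.Lib.Helper29.Sz.exists_ne_zero_one hm hF
  let e := (Cfsg.Agent.Lib.Helper29.Sz.lieEquiv hG hex).symm
  let _ : MulAction (Cfsg.Lie.Sz F (2 ^ (m + 1))) (Cfsg.suzukiOvoid F m) :=
    MulAction.compHom _ e.toMonoidHom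
  have hsm : ∀ (g : Cfsg.Lie.Sz F (2 ^ (m + 1))) (x : Cfsg.suzukiOvoid F m), g • x = e g • x :=
    fun _ _ => rfl
  have hcardG : Nat.card ↥(Cfsg.Lie.Sz F (2 ^ (m + 1))) =
      (2 ^ (2 * m + 1)) ^ 2 * (2 ^ (2 * m + 1) - 1) * ((2 ^ (2 * m + 1)) ^ 2 + 1) := by
    rw [Nat.card_congr e.toEquiv, Cfsg.Agent.Lib.Helper29.Sz.card_Sz hG hex, hF]
    ring
  refine ⟨hcardG, ?_⟩
  obtain ⟨Q, hQ⟩ := Cfsg.Agent.Lib.Helper29.Sz.exists_sylow_eq hG hex (n := 2 * m + 1) (by omega) hF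
  let S : Sylow 2 (Cfsg.Lie.Sz F (2 ^ (m + 1))) := Q.comapOfInjective e.toMonoidHom e.injective
    (fun x _ => ⟨e.symm x, e.apply_symm_apply x⟩)
  have hS : (S : Subgroup (Cfsg.Lie.Sz F (2 ^ (m + 1)))) =
      (Cfsg.Agent.Lib.Helper29.Sz.Usub hG hex).comap e.toMonoidHom := by
    rw [← hQ]; rfl
  let a₀ : Cfsg.suzukiOvoid F m := ⟨_, Cfsg.Agent.Lib.Helper29.Sz.infty_mem m⟩
  have hN : Subgroup.normalizer ((S : Subgroup ↥(Cfsg.Lie.Sz F (2 ^ (m + 1)))) :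
      Set ↥(Cfsg.Lie.Sz F (2 ^ (m + 1)))) = MulAction.stabilizer (Cfsg.Lie.Sz F (2 ^ (m + 1))) a₀ := by
    rw [hS, ← Subgroup.comap_normalizer_eq_of_surjective _ e.surjective,
      Cfsg.Agent.Lib.Helper29.Sz.normalizer_Usub]
    rfl
  refine ⟨S, ?_⟩
  rw [hN]
  have hcardN : Nat.card (MulAction.stabilizer (Cfsg.Lie.Sz F (2 ^ (m + 1))) a₀) =
      (2 ^ (2 * m + 1)) ^ 2 * (2 ^ (2 * m + 1) - 1) := by
    rw [← hF, ← Cfsg.Agent.Lib.Helper29.Sz.card_stab_infty hG hex]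
    refine Nat.card_congr ⟨fun g => ⟨e g.1, congrArg Subtype.val g.2⟩,
      fun h => ⟨e.symm h.1, ?_⟩, ?_, ?_⟩
    · rw [MulAction.mem_stabilizer_iff, hsm, e.apply_symm_apply]
      exact Subtype.ext h.2
    · intro g
      exact Subtype.ext (e.symm_apply_apply g.1)
    · intro h
      exact Subtype.ext (e.apply_symm_apply h.1)
  have hidx : (MulAction.stabilizer (Cfsg.Lie.Sz F (2 ^ (m + 1))) a₀).index =
      (2 ^ (2 * m + 1)) ^ 2 + 1 := by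
    have h1 := Subgroup.card_mul_index (MulAction.stabilizer (Cfsg.Lie.Sz F (2 ^ (m + 1))) a₀)
    rw [hcardN, hcardG] at h1
    refine Nat.eq_of_mul_eq_mul_left ?_ h1
    have : 2 ≤ 2 ^ (2 * m + 1) := by
      calc 2 = 2 ^ 1 := rfl
        _ ≤ 2 ^ (2 * m + 1) := Nat.pow_le_pow_right (by norm_num) (by omega)
    have h2 : 0 < 2 ^ (2 * m + 1) - 1 := by omega
    positivity
  refine ⟨hcardN, hidx, ?_⟩
  apply abstract_quot a₀
  · intro x y z t hxy hzt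
    obtain ⟨g, h1, h2⟩ := (MulAction.is_two_pretransitive_iff (G := Cfsg.Sz F m)
      (α := Cfsg.suzukiOvoid F m)).1 (Cfsg.Agent.Lib.Helper29.Sz.two_transitive hG) hxy hzt
    exact ⟨e.symm g, by rw [hsm, e.apply_symm_apply, h1], by rw [hsm, e.apply_symm_apply, h2]⟩
  · intro x y hx hy
    rcases Cfsg.Agent.Lib.Helper29.Sz.mem_ovoid_cases m x.2 with h | ⟨x1, x2, hx'⟩
    · exact absurd (Subtype.ext h) hx
    rcases Cfsg.Agent.Lib.Helper29.Sz.mem_ovoid_cases m y.2 with h | ⟨y1, y2, hy'⟩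
    · exact absurd (Subtype.ext h) hy
    let t : Cfsg.Sz F m := ⟨Cfsg.Agent.Lib.Helper29.Sz.T m (x1 + y1)
        (x2 + y2 + Cfsg.Agent.Lib.Helper29.Sz.sg m (x1 + y1) * x1),
      Cfsg.Agent.Lib.Helper29.Sz.T_mem hG _ _⟩
    refine ⟨⟨e.symm t, ?_⟩, ?_, ?_⟩
    · rw [hS]
      show e (e.symm t) ∈ Cfsg.Agent.Lib.Helper29.Sz.Usub hG hex
      rw [e.apply_symm_apply]
      exact ⟨_, _, rfl⟩
    · show e.symm t • x = y
      rw [hsm, e.apply_symm_apply]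
      apply Subtype.ext
      show t.1 • x.1 = y.1
      rw [hx', hy']
      show Cfsg.Agent.Lib.Helper29.Sz.T m _ _ • _ = _
      rw [Cfsg.Agent.Lib.Helper29.Sz.T_ppt hG]
      congr 1
      · linear_combination x1 * hG.two
      · linear_combination (x2 + Cfsg.Agent.Lib.Helper29.Sz.sg m (x1 + y1) * x1) * hG.two
    · rintro ⟨s, hs⟩ hsx
      have hs' : e s ∈ Cfsg.Agent.Lib.Helper29.Sz.Usub hG hex := by
        rw [hS] at hs; exact hs
      obtain ⟨a, b, hab⟩ := hs'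
      have hsx' : (e s).1 • x.1 = y.1 := congrArg Subtype.val hsx
      rw [hab, hx', hy', Cfsg.Agent.Lib.Helper29.Sz.T_ppt hG] at hsx'
      obtain ⟨e1, e2⟩ := Cfsg.Agent.Lib.Helper29.Sz.ppt_inj m hsx'
      have ha : a = x1 + y1 := by linear_combination e1 - x1 * hG.two
      subst ha
      have hb : b = x2 + y2 + Cfsg.Agent.Lib.Helper29.Sz.sg m (x1 + y1) * x1 := by
        linear_combination e2 - (x2 + Cfsg.Agent.Lib.Helper29.Sz.sg m (x1 + y1) * x1) * hG.two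
      subst hb
      apply Subtype.ext
      show s = e.symm t
      rw [MulEquiv.eq_symm_apply]
      exact Subtype.ext hab

end Cfsg.Agent.S1163
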