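import Cfsg.Statements.S1166
import Cfsg.Agent.Lib.Helper9.RankOne

set_option autoImplicit false
open Cfsg

namespace Cfsg.Agent.S1166

/-- In the rank-one set-up (`G` finite and doubly transitive on `Ω`, `t` an involution moving `a`, `Q` normal in `G_a` with `G_a = Q D`, `Q ⊓ D = 1` for the two-point stabiliser `D = G_a ⊓ G_{t • a}`, `|Q|` even, `|D|` odd), with `t x t = g_x h_x t f_x` and `t y t = g_y h_y t f_y` (`g, f ∈ Q`, `h ∈ D`) for `x, y ∈ Q ∖ 1` with `x y ≠ 1`: then `z = f_x g_y ≠ 1`, and if `t z t = g_z h_z t f_z` and `t (x y) t = g' h' t f'` then `f' = (t h_y t)⁻¹ f_z (t h_y t) f_y` and `h' = h_x h_z h_y` (H6). -/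
theorem result {G Ω : Type*} [Group G] [Finite G] [MulAction G Ω] {a : Ω} {t : G} {Q : Subgroup G}
    (hS : Cfsg.IsRankOneSetup G Ω a t Q)
    (x y gx hx fx gy hy fy : G) (hxQ : x ∈ Q) (hx1 : x ≠ 1) (hyQ : y ∈ Q) (hy1 : y ≠ 1) (hxy : x * y ≠ 1)
    (hgx : gx ∈ Q) (hhx : hx ∈ (MulAction.stabilizer G a ⊓ MulAction.stabilizer G (t • a))) (hfx : fx ∈ Q) (ex : t * x * t = gx * hx * t * fx)
    (hgy : gy ∈ Q) (hhy : hy ∈ (MulAction.stabilizer G a ⊓ MulAction.stabilizer G (t • a))) (hfy : fy ∈ Q) (ey : t * y * t = gy * hy * t * fy) :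
    fx * gy ≠ 1 ∧
      ∀ gz hz fz g' h' f' : G, gz ∈ Q → hz ∈ (MulAction.stabilizer G a ⊓ MulAction.stabilizer G (t • a)) → fz ∈ Q → t * (fx * gy) * t = gz * hz * t * fz →
        g' ∈ Q → h' ∈ (MulAction.stabilizer G a ⊓ MulAction.stabilizer G (t • a)) → f' ∈ Q → t * (x * y) * t = g' * h' * t * f' →
          f' = (t * hy * t)⁻¹ * fz * (t * hy * t) * fy ∧ h' = hx * hz * hy := by
  have hti := Cfsg.Agent.Lib.Helper9.rankOne_t_inv hS
  have htt := hS.mul_self
  have htt' := Cfsg.Agent.Lib.Helper9.rankOne_tt hS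
  have hDa : ∀ d ∈ (MulAction.stabilizer G a ⊓ MulAction.stabilizer G (t • a)),
      d ∈ MulAction.stabilizer G a := fun d hd => (Subgroup.mem_inf.1 hd).1
  have hprod : t * (x * y) * t = gx * hx * t * (fx * gy) * hy * t * fy := by
    have : t * (x * y) * t = (t * x * t) * (t * y * t) := by simp [mul_assoc, htt']
    rw [this, ex, ey]; simp [mul_assoc]
  constructor
  · intro hz
    rw [hz, mul_one] at hprod
    have hmem : t * (x * y) * t ∈ MulAction.stabilizer G a := by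
      rw [hprod]
      have e : gx * hx * t * hy * t * fy = gx * hx * (t * hy * t) * fy := by simp [mul_assoc]
      rw [e]
      exact Subgroup.mul_mem _ (Subgroup.mul_mem _ (Subgroup.mul_mem _ (hS.le hgx) (hDa _ hhx))
        (hDa _ (Cfsg.Agent.Lib.Helper9.rankOne_conj_D hS hhy))) (hS.le hfy)
    have h2 : x * y ∈ Q ⊓ MulAction.stabilizer G (t • a) := by
      refine Subgroup.mem_inf.2 ⟨Q.mul_mem hxQ hyQ, ?_⟩
      rw [MulAction.mem_stabilizer_iff] at hmem ⊢
      have h3 : t • ((t * (x * y) * t) • a) = t • a := by rw [hmem]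
      rw [← mul_smul, mul_assoc t (x * y) t, htt', mul_smul] at h3
      exact h3
    rw [hS.inf_eq_bot, Subgroup.mem_bot] at h2
    exact hxy h2
  · intro gz hz fz g' h' f' hgz hhz hfz ez hg' hh' hf' e
    have hc' := Cfsg.Agent.Lib.Helper9.rankOne_conj_D hS hhy
    have e' : g' * h' * t * f' = (gx * (hx * gz * hx⁻¹)) * (hx * hz * hy) * t
        * (((t * hy * t)⁻¹ * fz * (t * hy * t)⁻¹⁻¹) * fy) := by
      rw [← e, hprod]
      have h1 : t * (fx * gy) = gz * hz * t * fz * t := by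
        calc t * (fx * gy) = t * (fx * gy) * t * t := by rw [mul_assoc _ t t, htt, mul_one]
          _ = gz * hz * t * fz * t := by rw [ez]
      calc gx * hx * t * (fx * gy) * hy * t * fy = gx * hx * (t * (fx * gy)) * hy * t * fy := by
            simp [mul_assoc]
        _ = gx * hx * (gz * hz * t * fz * t) * hy * t * fy := by rw [h1]
        _ = _ := by simp [mul_assoc, hti, htt, htt']
    obtain ⟨-, h2, h3⟩ := Cfsg.Agent.Lib.Helper9.rankOne_unique hS hg' hh' hf'
      (Q.mul_mem hgx (hS.conj_mem _ (hDa _ hhx) _ hgz))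
      (Subgroup.mul_mem _ (Subgroup.mul_mem _ hhx hhz) hhy)
      (Q.mul_mem (hS.conj_mem _ (hDa _ (Subgroup.inv_mem _ hc')) _ hfz) hfy) e'
    refine ⟨?_, h2⟩
    rw [h3, inv_inv]

end Cfsg.Agent.S1166
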