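import Cfsg.Statements.S1168
import Cfsg.Agent.S1140
import Mathlib

set_option autoImplicit false
open Cfsg

namespace Cfsg.Agent.S1168

/-- For a finite field `F` of characteristic 2: if `q : F → F` is quadratic over the prime field, i.e. `(x, y) ↦ q (x + y) + q x + q y` is additive in each variable, then `q x = Σ c_{σ,τ} σ(x) τ(x)` for some coefficients indexed by pairs of field automorphisms. -/
theorem result {F : Type*} [Field F] [Fintype F] [CharP F 2]
    (q : F → F)
    (hq : ∀ x y z : F, q (x + y + z) + q (x + y) + q (x + z) + q (y + z) + q x + q y + q z = 0) :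
    ∃ (s : Finset ((F ≃+* F) × (F ≃+* F))) (c : (F ≃+* F) × (F ≃+* F) → F),
      ∀ x : F, q x = ∑ p ∈ s, c p * (p.1 x * p.2 x) := by
  classical
  letI : Algebra (ZMod 2) F := ZMod.algebra F 2
  have htwo : (2 : F) = 0 := CharTwo.two_eq_zero
  have hq0 : q 0 = 0 := by
    have := hq 0 0 0
    simp only [add_zero] at this
    linear_combination this - 3 * q 0 * htwo
  have hsymm : ∀ x y, q (x + y) + q x + q y = q (y + x) + q y + q x := by
    intro x y
    rw [add_comm x y]; ring
  have hleft : ∀ x y z, q (x + y + z) + q (x + y) + q z =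
      (q (x + z) + q x + q z) + (q (y + z) + q y + q z) := by
    intro x y z
    linear_combination (hq x y z) - (q (x + z) + q (y + z) + q x + q y + q z) * htwo
  let BB : F →+ F →+ F := AddMonoidHom.mk' (fun x => AddMonoidHom.mk' (fun y => q (x + y) + q x + q y) (by
      intro y z
      show q (x + (y + z)) + q x + q (y + z) = (q (x + y) + q x + q y) + (q (x + z) + q x + q z)
      rw [hsymm x (y + z), hleft y z x, hsymm y x, hsymm z x])) (by
    intro x y
    ext z
    exact hleft x y z)
  let BL : LinearMap.BilinMap (ZMod 2) F F :=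
    ((AddMonoidHom.toZModLinearMapEquiv 2 (M := F) (M₁ := F)).toAddMonoidHom.comp BB).toZModLinearMap 2
  have hz2 : ∀ a : ZMod 2, a = 0 ∨ a = 1 := by decide
  let Q : QuadraticMap (ZMod 2) F F :=
    { toFun := q
      toFun_smul := by
        intro a x
        rcases hz2 a with rfl | rfl
        · simp [hq0]
        · simp
      exists_companion' := ⟨BL, fun x y => by
        show q (x + y) = q x + q y + (q (x + y) + q x + q y)
        linear_combination (-(q x + q y)) * htwo⟩ }
  obtain ⟨C, hC⟩ := LinearMap.BilinMap.toQuadraticMap_surjective Q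
  have hCx : ∀ x, C x x = q x := fun x => DFunLike.congr_fun hC x
  let C' : F →+ F →+ F := AddMonoidHom.mk' (fun x => (C x).toAddMonoidHom) (by
    intro x y
    ext z
    simp)
  obtain ⟨s, c, h⟩ := (Cfsg.Agent.S1140.result (F := F)).2.2 C'
  exact ⟨s, c, fun x => by rw [← hCx x]; exact h x x⟩

end Cfsg.Agent.S1168
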