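import Cfsg.Statements.S1176
import Cfsg.Agent.Lib.Helper9.Isolated

set_option autoImplicit false
open Cfsg

namespace Cfsg.Agent.S1176

open scoped commutatorElement in
theorem comm_calc {G : Type*} [Group G] {x y : G} (hxx : x * x = 1) (hyy : y * y = 1) :
    ⁅⁅x, y⁆, x⁆ = (x * y) ^ 4 := by
  have hxi := Cfsg.Agent.Lib.Helper9.inv_eq_self_of_mul_self hxx
  have hyi := Cfsg.Agent.Lib.Helper9.inv_eq_self_of_mul_self hyy
  have e1 : ⁅x, y⁆ = (x * y) ^ 2 := by
    rw [commutatorElement_def, hxi, hyi, pow_two]; simp [mul_assoc]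
  have e2 : ⁅(x * y) ^ 2, x⁆ = (x * y) ^ 4 := by
    rw [commutatorElement_def, hxi]
    have h5 := Cfsg.Agent.Lib.Helper9.conj_left_pow hxx hyy 2
    have h6 : x * ((x * y) ^ 2)⁻¹ * x = (x * y) ^ 2 := by
      rw [← h5]
      calc x * (x * (x * y) ^ 2 * x) * x = (x * x) * (x * y) ^ 2 * (x * x) := by simp [mul_assoc]
        _ = (x * y) ^ 2 := by rw [hxx]; simp
    calc (x * y) ^ 2 * x * ((x * y) ^ 2)⁻¹ * x = (x * y) ^ 2 * (x * ((x * y) ^ 2)⁻¹ * x) := by
          simp [mul_assoc]
      _ = (x * y) ^ 4 := by rw [h6, ← pow_add]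
  rw [e1, e2]


/-- Let x₀ be an involution of the finite group G and D its conjugacy class. Assume (a) for each x ∈ D the subgroup W(x) generated by the members of D commuting with x is a 2-group of nilpotency class at most 2, and (b) the product of two distinct commuting members of D again lies in D. Then for all x, y ∈ D, if xy has even order greater than 2, its order is 4. -/
theorem result {G : Type*} [Group G] [Finite G] (x₀ : G) (hx₀ : orderOf x₀ = 2) (ha : ∀ x : G, IsConj x₀ x → IsPGroup 2 ↥(Subgroup.closure {y : G | IsConj x₀ y ∧ Commute y x}) ∧ ⁅⁅Subgroup.closure {y : G | IsConj x₀ y ∧ Commute y x}, Subgroup.closure {y : G | IsConj x₀ y ∧ Commute y x}⁆, Subgroup.closure {y : G | IsConj x₀ y ∧ Commute y x}⁆ = ⊥) (hb : ∀ x y : G, IsConj x₀ x → IsConj x₀ y → x ≠ y → Commute x y → IsConj x₀ (x * y)) (x y : G) (hx : IsConj x₀ x) (hy : IsConj x₀ y) (heven : Even (orderOf (x * y))) (hgt : 2 < orderOf (x * y)) : orderOf (x * y) = 4 := by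
  have hconj2 : ∀ a : G, IsConj x₀ a → a * a = 1 := by
    intro a ha
    obtain ⟨c, hc⟩ := isConj_iff.1 ha
    rw [← hc]
    exact Cfsg.Agent.Lib.Helper9.conj_mul_self (Cfsg.Agent.Lib.Helper9.mul_self_of_orderOf_two hx₀) c
  have hxx := hconj2 x hx
  have hyy := hconj2 y hy
  obtain ⟨k, hk⟩ := heven
  have hk2 : orderOf (x * y) = 2 * k := by omega
  have hk0 : 0 < k := by omega
  obtain ⟨h1, h2, h3, h4⟩ := Cfsg.Agent.Lib.Helper9.even_central hxx hyy hk2 hk0
  set w := (x * y) ^ k with hw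
  obtain ⟨u, -, hu⟩ := Cfsg.Agent.Lib.Helper9.reflection_conj hxx hyy k
  rw [← hw] at hu
  have hxw : IsConj x₀ (x * w) := by
    rcases hu with hu | hu
    · exact hx.trans (isConj_iff.2 ⟨u, hu.symm⟩)
    · exact hy.trans (isConj_iff.2 ⟨u, hu.symm⟩)
  have hne : x ≠ x * w := by
    intro h
    exact h1 (mul_left_cancel (h.symm.trans (mul_one x).symm))
  have hcomm : Commute x (x * w) := by
    change x * (x * w) = x * w * x
    rw [mul_assoc x w x, ← h3]
  have hwD : IsConj x₀ w := by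
    have := hb x (x * w) hx hxw hne hcomm
    rwa [← mul_assoc, hxx, one_mul] at this
  obtain ⟨-, hcl⟩ := ha w hwD
  set W := Subgroup.closure {y : G | IsConj x₀ y ∧ Commute y w} with hW
  have hxW : x ∈ W := Subgroup.subset_closure ⟨hx, h3⟩
  have hyW : y ∈ W := Subgroup.subset_closure ⟨hy, h4⟩
  have hmem := Subgroup.commutator_mem_commutator (Subgroup.commutator_mem_commutator hxW hyW) hxW
  rw [hcl, Subgroup.mem_bot, comm_calc hxx hyy] at hmem
  have hd : orderOf (x * y) ∣ 4 := orderOf_dvd_of_pow_eq_one hmem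
  have hle : orderOf (x * y) ≤ 4 := Nat.le_of_dvd (by norm_num) hd
  interval_cases h : orderOf (x * y)
  · omega
  · rfl

end Cfsg.Agent.S1176
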