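import Cfsg.Statements.S1177
import Cfsg.Agent.Lib.Helper9.Basic

set_option autoImplicit false
open Cfsg

namespace Cfsg.Agent.S1177

/-- Let A be a nontrivial elementary abelian 2-subgroup of a finite group G which is a T.I. set (each conjugate of A meets A trivially or equals A) and which does not commute elementwise with any conjugate of A other than A itself. Then for every a ∈ A, a ≠ 1, every conjugate of A contained in C_G(a) is equal to A (A is weakly closed in C_G(a)). -/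
theorem result {G : Type*} [Group G] [Finite G] (A : Subgroup G) (hA : Cfsg.IsElementaryAbelian 2 A) (hA1 : A ≠ ⊥) (hTI : ∀ g : G, A.map (MulAut.conj g).toMonoidHom ⊓ A = ⊥ ∨ A.map (MulAut.conj g).toMonoidHom = A) (hb : ∀ g : G, (∀ a ∈ A, ∀ b ∈ A.map (MulAut.conj g).toMonoidHom, a * b = b * a) → A.map (MulAut.conj g).toMonoidHom = A) (a : G) (ha : a ∈ A) (ha1 : a ≠ 1) (g : G) (hg : A.map (MulAut.conj g).toMonoidHom ≤ Subgroup.centralizer ({a} : Set G)) : A.map (MulAut.conj g).toMonoidHom = A := by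
  have hcommA : ∀ x ∈ A, ∀ y ∈ A, x * y = y * x := by
    intro x hx y hy
    have := hA.1.is_comm.comm (⟨x, hx⟩ : A) ⟨y, hy⟩
    exact congrArg Subtype.val this
  have hsq : ∀ x ∈ A, x * x = 1 := by
    intro x hx; rw [← pow_two]; exact hA.2 x hx
  have hinvA : ∀ x ∈ A, x⁻¹ = x := fun x hx => inv_eq_of_mul_eq_one_left (hsq x hx)
  set B := A.map (MulAut.conj g).toMonoidHom with hB
  have hmemB : ∀ x, x ∈ B ↔ g⁻¹ * x * g ∈ A := fun x => Cfsg.Agent.Lib.Helper9.mem_map_conj_iff A g x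
  rcases hTI g with hAB | hAB
  swap
  · exact hAB
  -- element form of TI for A
  have TIA : ∀ h x : G, x ∈ A → x ≠ 1 → h * x * h⁻¹ ∈ A → ∀ y ∈ A, h * y * h⁻¹ ∈ A := by
    intro h x hx hx1 hxh y hy
    rcases hTI h with h1 | h1
    · exfalso
      have : h * x * h⁻¹ ∈ A.map (MulAut.conj h).toMonoidHom ⊓ A :=
        ⟨Cfsg.Agent.Lib.Helper9.conj_mem_map_conj A h hx, hxh⟩
      rw [h1, Subgroup.mem_bot] at this
      apply hx1
      have e : x = h⁻¹ * (h * x * h⁻¹) * h := by simp [mul_assoc]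
      rw [e, this]; simp
    · rw [← h1]; exact Cfsg.Agent.Lib.Helper9.conj_mem_map_conj A h hy
  have TIB : ∀ h x : G, x ∈ B → x ≠ 1 → h * x * h⁻¹ ∈ B → ∀ y ∈ B, h * y * h⁻¹ ∈ B := by
    intro h x hx hx1 hxh y hy
    rw [hmemB] at hx hxh hy ⊢
    have h1 : g⁻¹ * x * g ≠ 1 := by
      intro h2
      apply hx1
      have e : x = g * (g⁻¹ * x * g) * g⁻¹ := by simp [mul_assoc]
      rw [e, h2]; simp
    have h3 := TIA (g⁻¹ * h * g) (g⁻¹ * x * g) hx h1 (by
      have e : g⁻¹ * h * g * (g⁻¹ * x * g) * (g⁻¹ * h * g)⁻¹ = g⁻¹ * (h * x * h⁻¹) * g := by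
        simp [mul_assoc]
      rw [e]; exact hxh) (g⁻¹ * y * g) hy
    have e : g⁻¹ * h * g * (g⁻¹ * y * g) * (g⁻¹ * h * g)⁻¹ = g⁻¹ * (h * y * h⁻¹) * g := by
      simp [mul_assoc]
    rw [e] at h3; exact h3
  have hcommB : ∀ x ∈ B, ∀ y ∈ B, x * y = y * x := by
    intro x hx y hy
    rw [hmemB] at hx hy
    have := hcommA _ hx _ hy
    have e1 : g⁻¹ * x * g * (g⁻¹ * y * g) = g⁻¹ * (x * y) * g := by simp [mul_assoc]
    have e2 : g⁻¹ * y * g * (g⁻¹ * x * g) = g⁻¹ * (y * x) * g := by simp [mul_assoc]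
    rw [e1, e2] at this
    exact mul_left_cancel (mul_right_cancel this)
  have hsqB : ∀ x ∈ B, x * x = 1 := by
    intro x hx
    rw [hmemB] at hx
    have := hsq _ hx
    have e1 : g⁻¹ * x * g * (g⁻¹ * x * g) = g⁻¹ * (x * x) * g := by simp [mul_assoc]
    rw [e1] at this
    have e2 : x * x = g * (g⁻¹ * (x * x) * g) * g⁻¹ := by simp [mul_assoc]
    rw [e2, this]; simp
  have hinvB : ∀ x ∈ B, x⁻¹ = x := fun x hx => inv_eq_of_mul_eq_one_left (hsqB x hx)
  -- Step 1: B normalizes A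
  have step1 : ∀ b ∈ B, ∀ x ∈ A, b * x * b⁻¹ ∈ A := by
    intro b hb' x hx
    have hba : b * a = a * b := (Subgroup.mem_centralizer_singleton_iff.1 (hg hb'))
    apply TIA b a ha ha1 _ x hx
    rw [hba]; simpa using ha
  have hbot : ∀ w, w ∈ B → w ∈ A → w = 1 := by
    intro w h1 h2
    have : w ∈ B ⊓ A := ⟨h1, h2⟩
    rwa [hAB, Subgroup.mem_bot] at this
  -- Step 2/3 : every x in A normalizes B
  have step3 : ∀ x ∈ A, ∀ b ∈ B, x * b * x⁻¹ ∈ B := by
    intro x hx
    have hcent : ∀ b ∈ B, ∀ b' ∈ B, b' * (x * b * x⁻¹) = (x * b * x⁻¹) * b' := by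
      intro b hb' b' hb''
      by_cases hb1 : b = 1
      · subst hb1; simp
      obtain ⟨c, hc⟩ : ∃ c, c = x * b * x⁻¹ * b⁻¹ := ⟨_, rfl⟩
      have hx' : b * x⁻¹ * b⁻¹ ∈ A := step1 b hb' _ (A.inv_mem hx)
      have hcA : c ∈ A := by
        have e : c = x * (b * x⁻¹ * b⁻¹) := by rw [hc]; simp [mul_assoc]
        rw [e]; exact A.mul_mem hx hx'
      have hcb : c * b * c⁻¹ = b := by
        have h1 : b * c * b⁻¹ = c := by
          have e : b * c * b⁻¹ = (b * x * b⁻¹) * (b * (b * x⁻¹ * b⁻¹) * b⁻¹) := by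
            rw [hc]; simp [mul_assoc]
          have e2 : b * (b * x⁻¹ * b⁻¹) * b⁻¹ = x := by
            rw [hinvB b hb', hinvA x hx]
            calc b * (b * x * b) * b = (b * b) * x * (b * b) := by simp [mul_assoc]
              _ = x := by rw [hsqB b hb']; simp
          rw [e, e2, hcommA _ (step1 b hb' x hx) _ hx, hc, hinvA x hx]
          simp [mul_assoc]
        have h2 : b * c = c * b := by
          calc b * c = b * c * b⁻¹ * b := by simp
            _ = c * b := by rw [h1]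
        rw [← h2]; simp
      have hcN : ∀ y ∈ B, c * y * c⁻¹ ∈ B := TIB c b hb' hb1 (by rw [hcb]; exact hb')
      have hcy : ∀ y ∈ B, c * y = y * c := by
        intro y hy
        have h1 : c * y * c⁻¹ * y⁻¹ = 1 := by
          apply hbot
          · exact B.mul_mem (hcN y hy) (B.inv_mem hy)
          · have e : c * y * c⁻¹ * y⁻¹ = c * (y * c⁻¹ * y⁻¹) := by simp [mul_assoc]
            rw [e]; exact A.mul_mem hcA (step1 y hy _ (A.inv_mem hcA))
        calc c * y = c * y * c⁻¹ * y⁻¹ * (y * c) := by simp [mul_assoc]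
          _ = y * c := by rw [h1, one_mul]
      have e : x * b * x⁻¹ = c * b := by rw [hc]; simp
      calc b' * (x * b * x⁻¹) = b' * (c * b) := by rw [e]
        _ = (b' * c) * b := by rw [mul_assoc]
        _ = (c * b') * b := by rw [hcy b' hb'']
        _ = c * (b' * b) := by rw [mul_assoc]
        _ = c * (b * b') := by rw [hcommB b' hb'' b hb']
        _ = (c * b) * b' := by rw [mul_assoc]
        _ = x * b * x⁻¹ * b' := by rw [e]
    have h2 : A.map (MulAut.conj (g⁻¹ * x * g)).toMonoidHom = A := by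
      apply hb
      intro a' ha' e he
      rw [Cfsg.Agent.Lib.Helper9.mem_map_conj_iff] at he
      -- e = g⁻¹ (x (g a'' g⁻¹) x⁻¹) g
      set a'' := (g⁻¹ * x * g)⁻¹ * e * (g⁻¹ * x * g) with ha''
      have hb1 : g * a'' * g⁻¹ ∈ B := Cfsg.Agent.Lib.Helper9.conj_mem_map_conj A g he
      have hb2 : g * a' * g⁻¹ ∈ B := Cfsg.Agent.Lib.Helper9.conj_mem_map_conj A g ha'
      have h3 := hcent _ hb1 _ hb2
      have e1 : x * (g * a'' * g⁻¹) * x⁻¹ = g * e * g⁻¹ := by rw [ha'']; simp [mul_assoc]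
      rw [e1] at h3
      have e2 : g * a' * g⁻¹ * (g * e * g⁻¹) = g * (a' * e) * g⁻¹ := by simp [mul_assoc]
      have e3 : g * e * g⁻¹ * (g * a' * g⁻¹) = g * (e * a') * g⁻¹ := by simp [mul_assoc]
      rw [e2, e3] at h3
      exact mul_left_cancel (mul_right_cancel h3)
    intro b hb'
    rw [hmemB] at hb' ⊢
    have h3 : (g⁻¹ * x * g) * (g⁻¹ * b * g) * (g⁻¹ * x * g)⁻¹ ∈ A := by
      rw [← h2]; exact Cfsg.Agent.Lib.Helper9.conj_mem_map_conj A _ hb'
    have e : (g⁻¹ * x * g) * (g⁻¹ * b * g) * (g⁻¹ * x * g)⁻¹ = g⁻¹ * (x * b * x⁻¹) * g := by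
      simp [mul_assoc]
    rw [e] at h3; exact h3
  apply hb
  intro x hx b hb'
  have h1 : x * b * x⁻¹ * b⁻¹ = 1 := by
    apply hbot
    · exact B.mul_mem (step3 x hx b hb') (B.inv_mem hb')
    · have e : x * b * x⁻¹ * b⁻¹ = x * (b * x⁻¹ * b⁻¹) := by simp [mul_assoc]
      rw [e]; exact A.mul_mem hx (step1 b hb' _ (A.inv_mem hx))
  calc x * b = x * b * x⁻¹ * b⁻¹ * (b * x) := by simp [mul_assoc]
    _ = b * x := by rw [h1, one_mul]

end Cfsg.Agent.S1177
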