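import Cfsg.Statements.S1178
import Cfsg.Agent.Lib.Helper9.Basic

set_option autoImplicit false
open Cfsg

namespace Cfsg.Agent.S1178

/-- Let A be a subgroup of a Sylow 2-subgroup S of the finite group G which is weakly closed in S. If a conjugate g A g⁻¹ commutes elementwise with A, then g A g⁻¹ = A. -/
theorem result {G : Type*} [Group G] [Finite G] (S : Sylow 2 G) (A : Subgroup G) (hW : Cfsg.IsWeaklyClosed A (S : Subgroup G)) (g : G) (hc : ∀ a ∈ A, ∀ b ∈ A.map (MulAut.conj g).toMonoidHom, a * b = b * a) : A.map (MulAut.conj g).toMonoidHom = A := by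
  haveI : Fact (Nat.Prime 2) := ⟨Nat.prime_two⟩
  set B := A.map (MulAut.conj g).toMonoidHom with hB
  have hA2 : IsPGroup 2 A := S.isPGroup'.to_le hW.1
  have hB2 : IsPGroup 2 B := hA2.map _
  have hnorm : A ≤ Subgroup.normalizer (B : Set G) := by
    intro a ha
    rw [Subgroup.mem_normalizer_iff]
    intro b
    constructor
    · intro hb
      have : a * b * a⁻¹ = b := by rw [hc a ha b hb]; simp
      rw [this]; exact hb
    · intro hb
      have h1 := hc a ha _ hb
      have : a * b * a⁻¹ = b := by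
        have h2 : a * (a * b * a⁻¹) * a⁻¹ = a * b * a⁻¹ := by rw [h1]; simp
        have h3 : a * (a * b * a⁻¹) * a⁻¹ = a * (b) * a⁻¹ := h2
        have h4 := mul_right_cancel h3
        exact mul_left_cancel h4
      rw [this] at hb; exact hb
  have hAB : IsPGroup 2 (A ⊔ B : Subgroup G) := hA2.to_sup_of_normal_right' hB2 hnorm
  obtain ⟨h, hh⟩ := Cfsg.Agent.Lib.Helper9.exists_conj_le_sylow (A ⊔ B) hAB S
  have e1 : A.map (MulAut.conj h).toMonoidHom = A := by
    apply hW.2
    rw [Cfsg.Agent.Lib.Helper9.map_conj_le_iff]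
    intro x hx
    exact hh x (Subgroup.mem_sup_left hx)
  have e2 : A.map (MulAut.conj (h * g)).toMonoidHom = A := by
    apply hW.2
    rw [Cfsg.Agent.Lib.Helper9.map_conj_mul, Cfsg.Agent.Lib.Helper9.map_conj_le_iff]
    intro x hx
    exact hh x (Subgroup.mem_sup_right hx)
  rw [Cfsg.Agent.Lib.Helper9.map_conj_mul] at e2
  have e3 : B.map (MulAut.conj h).toMonoidHom = A.map (MulAut.conj h).toMonoidHom := by
    rw [e1]; exact e2
  exact Subgroup.map_injective (MulAut.conj h).injective e3

end Cfsg.Agent.S1178
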