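import Cfsg.Statements.S1181
import Cfsg.Agent.Lib.Helper9.Isolated

set_option autoImplicit false
open Cfsg

namespace Cfsg.Agent.S1181

/-- Let z be an isolated involution of the finite group G and N a normal subgroup with z ∉ N. Then the centralizer of zN in G/N is the image of C_G(z), and zN is an isolated involution of G/N. -/
theorem result {G : Type*} [Group G] [Finite G] (z : G) (hz : Cfsg.IsIsolatedInvolution z) (N : Subgroup G) [N.Normal] (hzN : z ∉ N) : Subgroup.centralizer ({(QuotientGroup.mk z : G ⧸ N)} : Set (G ⧸ N)) = (Subgroup.centralizer ({z} : Set G)).map (QuotientGroup.mk' N) ∧ Cfsg.IsIsolatedInvolution (QuotientGroup.mk z : G ⧸ N) := by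
  have hzz : z * z = 1 := Cfsg.Agent.Lib.Helper9.mul_self_of_orderOf_two hz.1
  have hzi : z⁻¹ = z := Cfsg.Agent.Lib.Helper9.inv_eq_self_of_mul_self hzz
  have hbar : (QuotientGroup.mk z : G ⧸ N) * QuotientGroup.mk z = 1 := by
    rw [← QuotientGroup.mk_mul, hzz]; rfl
  have hbar1 : (QuotientGroup.mk z : G ⧸ N) ≠ 1 := by
    intro h; exact hzN ((QuotientGroup.eq_one_iff z).1 h)
  constructor
  · apply le_antisymm
    · intro gbar hg
      obtain ⟨g, rfl⟩ := QuotientGroup.mk'_surjective N gbar
      rw [Subgroup.mem_centralizer_singleton_iff] at hg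
      obtain ⟨j, -, hj⟩ := Cfsg.Agent.Lib.Helper9.iso_conj_pow hz g
      set t := g * z * g⁻¹ with ht
      have hrN : z * t ∈ N := by
        rw [← QuotientGroup.eq_one_iff]
        have hg' : (QuotientGroup.mk g : G ⧸ N) * QuotientGroup.mk z
            = QuotientGroup.mk z * QuotientGroup.mk g := hg
        rw [ht]
        simp only [QuotientGroup.mk_mul, QuotientGroup.mk_inv]
        rw [hg', mul_assoc, mul_inv_cancel, mul_one, hbar]
      set u := (z * t) ^ j with hu
      have huN : u ∈ N := N.pow_mem hrN j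
      refine ⟨u⁻¹ * g, ?_, ?_⟩
      · rw [SetLike.mem_coe, Subgroup.mem_centralizer_singleton_iff]
        have h1 : g * z = t * g := by rw [ht]; simp
        have h2 : u⁻¹ * t = z * u⁻¹ := by rw [← hj]; simp [mul_assoc]
        rw [mul_assoc, h1, ← mul_assoc, h2, mul_assoc]
      · have : (QuotientGroup.mk' N) u = 1 := by
          rw [← MonoidHom.mem_ker, QuotientGroup.ker_mk']; exact huN
        rw [map_mul, map_inv, this, inv_one, one_mul]
    · rintro _ ⟨c, hc, rfl⟩
      rw [SetLike.mem_coe, Subgroup.mem_centralizer_singleton_iff] at hc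
      rw [Subgroup.mem_centralizer_singleton_iff]
      change (QuotientGroup.mk c : G ⧸ N) * QuotientGroup.mk z = QuotientGroup.mk z * QuotientGroup.mk c
      rw [← QuotientGroup.mk_mul, ← QuotientGroup.mk_mul, hc]
  · refine ⟨Cfsg.Agent.Lib.Helper9.orderOf_two_of hbar hbar1, ?_⟩
    intro gbar hg
    obtain ⟨g, rfl⟩ := QuotientGroup.mk'_surjective N gbar
    obtain ⟨m, hm⟩ := Cfsg.Agent.Lib.Helper9.iso_odd hz g
    set zb : G ⧸ N := QuotientGroup.mk z with hzb
    set tb : G ⧸ N := (QuotientGroup.mk' N) g * zb * ((QuotientGroup.mk' N) g)⁻¹ with htb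
    have htt : tb * tb = 1 := Cfsg.Agent.Lib.Helper9.conj_mul_self hbar _
    have hcomm : zb * tb = tb * zb := hg
    have hr2 : (zb * tb) ^ 2 = 1 := by
      rw [pow_two]
      calc zb * tb * (zb * tb) = zb * (tb * zb) * tb := by simp [mul_assoc]
        _ = zb * (zb * tb) * tb := by rw [hcomm]
        _ = (zb * zb) * (tb * tb) := by simp [mul_assoc]
        _ = 1 := by rw [hbar, htt, one_mul]
    have hrm : (zb * tb) ^ (2 * m + 1) = 1 := by
      have e : zb * tb = (QuotientGroup.mk' N) (z * (g * z * g⁻¹)) := by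
        simp [hzb, htb]
      rw [e, ← map_pow, ← hm, pow_orderOf_eq_one, map_one]
    rw [pow_succ, pow_mul, hr2, one_pow, one_mul] at hrm
    have : tb = zb⁻¹ := eq_inv_of_mul_eq_one_right hrm
    rw [this, Cfsg.Agent.Lib.Helper9.inv_eq_self_of_mul_self hbar]

end Cfsg.Agent.S1181
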