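import Cfsg.Statements.S1182
import Cfsg.Agent.Lib.Helper9.Isolated

set_option autoImplicit false
open Cfsg

namespace Cfsg.Agent.S1182

/-- Let z be an isolated involution of the finite group G and H a subgroup normalized by z. If x, y ∈ H both commute with z and y = h x h⁻¹ for some h ∈ H, then y = c x c⁻¹ for some c ∈ H commuting with z. -/
theorem result {G : Type*} [Group G] [Finite G] (z : G) (hz : Cfsg.IsIsolatedInvolution z) (H : Subgroup G) (hzH : z ∈ Subgroup.normalizer (H : Set G)) (x y : G) (hx : x ∈ H) (hy : y ∈ H) (hxz : Commute x z) (hyz : Commute y z) (h : G) (hh : h ∈ H) (hconj : h * x * h⁻¹ = y) : ∃ c ∈ H, Commute c z ∧ c * x * c⁻¹ = y := by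
  have hzz : z * z = 1 := Cfsg.Agent.Lib.Helper9.mul_self_of_orderOf_two hz.1
  have hzi : z⁻¹ = z := Cfsg.Agent.Lib.Helper9.inv_eq_self_of_mul_self hzz
  obtain ⟨j, -, hj⟩ := Cfsg.Agent.Lib.Helper9.iso_conj_pow hz h
  set t := h * z * h⁻¹ with ht
  have hty : t * y = y * t := by
    rw [← hconj, ht]
    have hxz' : x * z = z * x := hxz
    calc h * z * h⁻¹ * (h * x * h⁻¹) = h * (z * x) * h⁻¹ := by simp [mul_assoc]
      _ = h * (x * z) * h⁻¹ := by rw [hxz']
      _ = h * x * h⁻¹ * (h * z * h⁻¹) := by simp [mul_assoc]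
  have hyz' : y * z = z * y := hyz
  have hry : Commute (z * t) y := by
    change z * t * y = y * (z * t)
    rw [mul_assoc, hty, ← mul_assoc, ← hyz', mul_assoc]
  have hrH : z * t ∈ H := by
    have h1 : z * h * z⁻¹ ∈ H := ((Subgroup.mem_normalizer_iff.1 hzH) h).1 hh
    have e : z * t = (z * h * z⁻¹) * h⁻¹ := by rw [ht, hzi]; simp [mul_assoc]
    rw [e]; exact H.mul_mem h1 (H.inv_mem hh)
  set u := (z * t) ^ j with hu
  have huH : u ∈ H := H.pow_mem hrH j
  have huy : Commute u y := hry.pow_left j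
  refine ⟨u⁻¹ * h, H.mul_mem (H.inv_mem huH) hh, ?_, ?_⟩
  · change u⁻¹ * h * z = z * (u⁻¹ * h)
    have h1 : h * z = t * h := by rw [ht]; simp
    have h2 : u⁻¹ * t = z * u⁻¹ := by rw [← hj]; simp [mul_assoc]
    rw [mul_assoc, h1, ← mul_assoc, h2, mul_assoc]
  · have huy' : u * y = y * u := huy
    calc u⁻¹ * h * x * (u⁻¹ * h)⁻¹ = u⁻¹ * (h * x * h⁻¹) * u := by simp [mul_assoc]
      _ = u⁻¹ * (y * u) := by rw [hconj, mul_assoc]
      _ = u⁻¹ * (u * y) := by rw [huy']
      _ = y := by simp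

end Cfsg.Agent.S1182
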