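import Cfsg.Statements.S1185
import Cfsg.Agent.Lib.Helper9.Isolated

set_option autoImplicit false
open Cfsg

namespace Cfsg.Agent.S1185

/-- Let z be an isolated involution of the finite group G with centralizer C. Then for every g ∈ G there is exactly one element k in the coset gC that has odd order and is inverted by z. -/
theorem result {G : Type*} [Group G] [Finite G] (z : G) (hz : Cfsg.IsIsolatedInvolution z) (g : G) : ∃! k : G, (Odd (orderOf k) ∧ z * k * z⁻¹ = k⁻¹) ∧ g⁻¹ * k ∈ Subgroup.centralizer ({z} : Set G) := by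
  have hzz : z * z = 1 := Cfsg.Agent.Lib.Helper9.mul_self_of_orderOf_two hz.1
  have hzi : z⁻¹ = z := Cfsg.Agent.Lib.Helper9.inv_eq_self_of_mul_self hzz
  have htt : (g * z * g⁻¹) * (g * z * g⁻¹) = 1 := Cfsg.Agent.Lib.Helper9.conj_mul_self hzz g
  obtain ⟨j, hj1, hj⟩ := Cfsg.Agent.Lib.Helper9.iso_conj_pow hz g
  -- general fact used for uniqueness
  have key : ∀ k : G, z * k * z⁻¹ = k⁻¹ → g⁻¹ * k ∈ Subgroup.centralizer ({z} : Set G) →
      k ^ 2 = g * z * g⁻¹ * z := by
    intro k hk hc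
    rw [Subgroup.mem_centralizer_singleton_iff] at hc
    have h1 : k * z * k⁻¹ = g * z * g⁻¹ := by
      calc k * z * k⁻¹ = g * (g⁻¹ * k * z) * k⁻¹ := by simp [mul_assoc]
        _ = g * (z * (g⁻¹ * k)) * k⁻¹ := by rw [hc]
        _ = g * z * g⁻¹ := by simp [mul_assoc]
    have h2 : z * k⁻¹ = k * z := by
      have : z * k⁻¹ * z⁻¹ = k := by
        have h3 : (z * k * z⁻¹)⁻¹ = k := by rw [hk, inv_inv]
        rw [mul_inv_rev, mul_inv_rev, inv_inv, ← mul_assoc] at h3
        exact h3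
      calc z * k⁻¹ = z * k⁻¹ * z⁻¹ * z := by simp
        _ = k * z := by rw [this]
    rw [← h1, pow_two]
    calc k * k = k * (k * z) * z := by rw [mul_assoc, mul_assoc, hzz, mul_one]
      _ = k * (z * k⁻¹) * z := by rw [h2]
      _ = k * z * k⁻¹ * z := by simp [mul_assoc]
  refine ⟨(z * (g * z * g⁻¹)) ^ j, ⟨⟨?_, ?_⟩, ?_⟩, ?_⟩
  · have hd : orderOf ((z * (g * z * g⁻¹)) ^ j) ∣ orderOf (z * (g * z * g⁻¹)) := orderOf_pow_dvd j
    have hodd : Odd (orderOf (z * (g * z * g⁻¹))) := ⟨j, hj1⟩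
    exact Odd.of_dvd_nat hodd hd
  · rw [hzi]; exact Cfsg.Agent.Lib.Helper9.conj_left_pow hzz htt j
  · rw [Subgroup.mem_centralizer_singleton_iff]
    set u := (z * (g * z * g⁻¹)) ^ j with hu
    have : u * z = g * z * g⁻¹ * u := by rw [← hj]; simp
    calc g⁻¹ * u * z = g⁻¹ * (u * z) := by rw [mul_assoc]
      _ = g⁻¹ * (g * z * g⁻¹ * u) := by rw [this]
      _ = z * (g⁻¹ * u) := by simp [mul_assoc]
  · rintro k ⟨⟨hodd, hk⟩, hc⟩
    set u := (z * (g * z * g⁻¹)) ^ j with hu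
    have hu2 : u ^ 2 = g * z * g⁻¹ * z := by
      apply key u
      · rw [hzi]; exact Cfsg.Agent.Lib.Helper9.conj_left_pow hzz htt j
      · rw [Subgroup.mem_centralizer_singleton_iff]
        have : u * z = g * z * g⁻¹ * u := by rw [← hj]; simp
        calc g⁻¹ * u * z = g⁻¹ * (u * z) := by rw [mul_assoc]
          _ = g⁻¹ * (g * z * g⁻¹ * u) := by rw [this]
          _ = z * (g⁻¹ * u) := by simp [mul_assoc]
    have hk2 : k ^ 2 = u ^ 2 := by rw [hu2]; exact key k hk hc
    have huodd : Odd (orderOf u) := by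
      have hd : orderOf u ∣ orderOf (z * (g * z * g⁻¹)) := orderOf_pow_dvd j
      exact Odd.of_dvd_nat ⟨j, hj1⟩ hd
    have ho1 : orderOf (k ^ 2) = orderOf k :=
      Nat.Coprime.orderOf_pow (Nat.Coprime.symm (Nat.coprime_two_left.2 hodd))
    have ho2 : orderOf (u ^ 2) = orderOf u :=
      Nat.Coprime.orderOf_pow (Nat.Coprime.symm (Nat.coprime_two_left.2 huodd))
    have ho : orderOf k = orderOf u := by rw [← ho1, ← ho2, hk2]
    obtain ⟨m, hm⟩ := hodd
    have e1 : k = (k ^ 2) ^ (m + 1) := by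
      rw [← pow_mul]
      have : 2 * (m + 1) = orderOf k + 1 := by omega
      rw [this, pow_succ, pow_orderOf_eq_one, one_mul]
    have e2 : u = (u ^ 2) ^ (m + 1) := by
      rw [← pow_mul]
      have : 2 * (m + 1) = orderOf u + 1 := by omega
      rw [this, pow_succ, pow_orderOf_eq_one, one_mul]
    rw [e1, e2, hk2]

end Cfsg.Agent.S1185
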