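import Cfsg.Statements.S1242
import Cfsg.Agent.Lib.Helper9.Transfer

set_option autoImplicit false
open Cfsg

namespace Cfsg.Agent.S1242

/-- Split the order of an element into its `p`-part and `p'`-part. -/
theorem order_split {A : Type*} [Group A] [Finite A] (p : ℕ) [hp : Fact p.Prime] (x : A) :
    ∃ k m : ℕ, Nat.Coprime m p ∧ orderOf (x ^ m) = p ^ k ∧ Nat.Coprime (orderOf (x ^ (p ^ k))) p := by
  have hpos : orderOf x ≠ 0 := (orderOf_pos x).ne'
  obtain ⟨k, m, hm, hkm⟩ := Nat.exists_eq_pow_mul_and_not_dvd hpos p hp.1.ne_one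
  have hcop : Nat.Coprime m p := ((Nat.Prime.coprime_iff_not_dvd hp.1).2 hm).symm
  refine ⟨k, m, hcop, ?_, ?_⟩
  · rw [orderOf_pow_of_dvd (by rintro rfl; simp at hm) (by rw [hkm]; exact Dvd.intro_left _ rfl), hkm]
    have hm0 : 0 < m := Nat.pos_of_ne_zero (by rintro rfl; simp at hm)
    exact Nat.mul_div_cancel _ hm0
  · rw [orderOf_pow_of_dvd (pow_ne_zero _ hp.1.ne_zero) (by rw [hkm]; exact Dvd.intro _ rfl), hkm]
    rw [Nat.mul_div_cancel_left _ (pow_pos hp.1.pos _)]
    exact hcop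


/-- Let G be a finite group, p a prime and H a subgroup of index prime to p such that any two elements of H of p-power order that are conjugate in G are conjugate in H. Then (O^p(G)·G') ∩ H = O^p(H)·H', where O^p denotes the subgroup generated by the elements of order prime to p. -/
theorem result {G : Type*} [Group G] [Finite G] {p : ℕ} [Fact p.Prime] (H : Subgroup G) (hidx : Nat.Coprime p H.index) (hfus : ∀ g ∈ H, (∃ k : ℕ, orderOf g = p ^ k) → ∀ a : G, a * g * a⁻¹ ∈ H → ∃ h ∈ H, h * g * h⁻¹ = a * g * a⁻¹) : (Cfsg.pResidual p G ⊔ commutator G) ⊓ H = (Cfsg.pResidual p ↥H ⊔ commutator ↥H).map H.subtype := by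
  set K' : Subgroup H := Cfsg.pResidual p ↥H ⊔ commutator ↥H with hK'
  haveI hKn : K'.Normal := Subgroup.Normal.of_commutator_le _ le_sup_right
  haveI hcomm : IsMulCommutative (H ⧸ K') :=
    Subgroup.Normal.quotient_commutative_iff_commutator_le.mpr le_sup_right
  letI cg : CommGroup (H ⧸ K') :=
    { (inferInstance : Group (H ⧸ K')) with
      mul_comm := fun a b => hcomm.is_comm.comm a b }
  let ϕ : H →* (H ⧸ K') := QuotientGroup.mk' K'
  have hker : ∀ x : H, ϕ x = 1 ↔ x ∈ K' := by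
    intro x
    exact QuotientGroup.eq_one_iff x
  have hp' : ∀ x : H, Nat.Coprime (orderOf x) p → ϕ x = 1 := by
    intro x hx
    rw [hker]
    exact Subgroup.mem_sup_left (Subgroup.subset_closure hx)
  -- H/K' is a p-group
  have hpgrp : ∀ y : H ⧸ K', ∃ k : ℕ, y ^ (p ^ k) = 1 := by
    intro y
    obtain ⟨x, rfl⟩ := QuotientGroup.mk'_surjective K' y
    obtain ⟨k, m, _, _, h3⟩ := order_split p x
    exact ⟨k, by rw [← map_pow]; exact hp' _ h3⟩
  let V : G →* (H ⧸ K') := MonoidHom.transfer ϕ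
  have hVres : Cfsg.pResidual p G ≤ V.ker := by
    unfold Cfsg.pResidual
    rw [Subgroup.closure_le]
    intro y hy
    have hy' : Nat.Coprime (orderOf y) p := hy
    obtain ⟨k, hk⟩ := hpgrp (V y)
    have h1 : V y ^ orderOf y = 1 := by rw [← map_pow, pow_orderOf_eq_one, map_one]
    exact Cfsg.Agent.Lib.Helper9.eq_one_of_pow_eq_one_of_coprime _ (Nat.Coprime.pow_right k hy') h1 hk
  have hVcomm : commutator G ≤ V.ker := Abelianization.commutator_subset_ker V
  apply le_antisymm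
  · rintro x ⟨hx1, hxH⟩
    have hVx : V x = 1 := (sup_le hVres hVcomm) hx1
    refine ⟨⟨x, hxH⟩, ?_, rfl⟩
    obtain ⟨k, m, hm, h2, h3⟩ := order_split p (⟨x, hxH⟩ : H)
    have hgH : x ^ m ∈ H := H.pow_mem hxH m
    have hgord : orderOf (x ^ m) = p ^ k := by
      have : ((⟨x, hxH⟩ : H) ^ m : H) = ⟨x ^ m, hgH⟩ := rfl
      rw [this] at h2
      rw [← h2]; exact (Subgroup.orderOf_mk _ _).symm
    have hV : V (x ^ m) = ϕ ⟨x ^ m, hgH⟩ ^ H.index := by
      apply Cfsg.Agent.Lib.Helper9.transfer_eq_pow_of_conj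
      intro j a h
      have hjH : (x ^ m) ^ j ∈ H := H.pow_mem hgH j
      have hjord : ∃ i : ℕ, orderOf ((x ^ m) ^ j) = p ^ i := by
        have hd : orderOf ((x ^ m) ^ j) ∣ p ^ k := by
          rw [← hgord]; exact orderOf_pow_dvd j
        obtain ⟨i, _, hi⟩ := (Nat.dvd_prime_pow (Fact.out : p.Prime)).1 hd
        exact ⟨i, hi⟩
      obtain ⟨h', hh', he⟩ := hfus _ hjH hjord a⁻¹ (by simpa using h)
      have e1 : (⟨a⁻¹ * (x ^ m) ^ j * a, h⟩ : H)
          = (⟨h', hh'⟩ : H) * (⟨x ^ m, hgH⟩ : H) ^ j * (⟨h', hh'⟩ : H)⁻¹ := by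
        ext
        simp only [Subgroup.coe_mul, Subgroup.coe_pow, Subgroup.coe_inv]
        rw [he]; simp
      rw [e1, map_mul, map_mul, map_inv, map_pow, mul_comm, ← mul_assoc, inv_mul_cancel, one_mul]
    have h4 : ϕ ⟨x ^ m, hgH⟩ ^ H.index = 1 := by
      rw [← hV, map_pow, hVx, one_pow]
    have h5 : ϕ ⟨x ^ m, hgH⟩ ^ (p ^ k) = 1 := by
      rw [← map_pow]
      have : (⟨x ^ m, hgH⟩ : H) ^ (p ^ k) = 1 := by
        ext; simp [← hgord, pow_orderOf_eq_one]
      rw [this, map_one]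
    have h6 : ϕ ⟨x ^ m, hgH⟩ = 1 :=
      Cfsg.Agent.Lib.Helper9.eq_one_of_pow_eq_one_of_coprime _ (Nat.Coprime.pow_left k hidx) h5 h4
    have h7 : ϕ ⟨x, hxH⟩ ^ m = 1 := by rw [← map_pow]; exact h6
    have h8 : ϕ ⟨x, hxH⟩ ^ (p ^ k) = 1 := by rw [← map_pow]; exact hp' _ h3
    have h9 := Cfsg.Agent.Lib.Helper9.eq_one_of_pow_eq_one_of_coprime _ (Nat.Coprime.pow_right k hm) h7 h8
    exact (hker _).1 h9
  · apply le_inf
    · rw [Subgroup.map_sup]
      apply sup_le_sup
      · unfold Cfsg.pResidual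
        rw [MonoidHom.map_closure]
        apply Subgroup.closure_mono
        rintro _ ⟨y, hy, rfl⟩
        have hy' : Nat.Coprime (orderOf y) p := hy
        change Nat.Coprime (orderOf (y : G)) p
        rwa [Subgroup.orderOf_coe]
      · rw [Subgroup.map_subtype_commutator]
        exact Subgroup.commutator_mono le_top le_top
    · exact Subgroup.map_subtype_le _

end Cfsg.Agent.S1242
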