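import Cfsg.Statements.S1183
import Cfsg.Agent.Lib.Helper9.Isolated
import Cfsg.Agent.Lib.Helper17.Core
import Cfsg.Agent.S1182
import Cfsg.Agent.S1185
import Cfsg.Agent.S1242

set_option autoImplicit false
open Cfsg

namespace Cfsg.Agent.S1183

open Cfsg.Agent.Lib.Helper9 Cfsg.Agent.Lib.Helper17 in
/-- If `O^p(C) C' = C` for a finite group `C` then `O^p(C) = C`. -/
theorem pResidual_eq_top_of_sup {C : Type*} [Group C] [Finite C] (p : ℕ) [Fact p.Prime]
    (h : Cfsg.pResidual p C ⊔ commutator C = ⊤) : Cfsg.pResidual p C = ⊤ := by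
  by_contra hne
  set R := Cfsg.pResidual p C with hR
  have hpg : IsPGroup p (C ⧸ R) := pResidual_quotient_isPGroup
  haveI : Group.IsNilpotent (C ⧸ R) := hpg.isNilpotent
  haveI : Nontrivial (C ⧸ R) := by
    by_contra hnt
    rw [not_nontrivial_iff_subsingleton] at hnt
    apply hne
    rw [eq_top_iff]
    intro x _
    rw [← QuotientGroup.eq_one_iff]
    exact Subsingleton.elim _ _
  have hlt := Group.IsSolvable.commutator_lt_top_of_nontrivial (C ⧸ R)
  apply hlt.ne
  have h1 : (commutator C).map (QuotientGroup.mk' R) = commutator (C ⧸ R) := by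
    rw [commutator_def, commutator_def, Subgroup.map_commutator,
      ← MonoidHom.range_eq_map, MonoidHom.range_eq_top.2 (QuotientGroup.mk'_surjective R)]
  have h2 : (R ⊔ commutator C).map (QuotientGroup.mk' R) = ⊤ := by
    rw [h, ← MonoidHom.range_eq_map, MonoidHom.range_eq_top.2 (QuotientGroup.mk'_surjective R)]
  rw [Subgroup.map_sup, h1] at h2
  have h3 : R.map (QuotientGroup.mk' R) = ⊥ := by
    rw [Subgroup.map_eq_bot_iff, QuotientGroup.ker_mk']
  rw [h3, bot_sup_eq] at h2
  exact h2


/-- Let z be an isolated involution of the finite group G and C = C_G(z). Then the subgroup of G generated by its elements of odd order is all of G if and only if the subgroup of C generated by its elements of odd order is all of C. -/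
theorem result {G : Type*} [Group G] [Finite G] (z : G) (hz : Cfsg.IsIsolatedInvolution z) : Cfsg.pResidual 2 G = ⊤ ↔ Cfsg.pResidual 2 ↥(Subgroup.centralizer ({z} : Set G)) = ⊤ := by
  haveI : Fact (Nat.Prime 2) := ⟨Nat.prime_two⟩
  have hzz : z * z = 1 := Cfsg.Agent.Lib.Helper9.mul_self_of_orderOf_two hz.1
  have hzi : z⁻¹ = z := Cfsg.Agent.Lib.Helper9.inv_eq_self_of_mul_self hzz
  set C := Subgroup.centralizer ({z} : Set G) with hC
  constructor
  · intro hG
    -- C contains a Sylow 2-subgroup
    have hz2 : IsPGroup 2 (Subgroup.zpowers z) := by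
      rw [IsPGroup.iff_card]
      exact ⟨1, by rw [Nat.card_zpowers, hz.1, pow_one]⟩
    obtain ⟨S, hS⟩ := hz2.exists_le_sylow
    have hzS : z ∈ S := hS (Subgroup.mem_zpowers z)
    have hSC : (S : Subgroup G) ≤ C := by
      intro s hs
      rw [hC, Subgroup.mem_centralizer_singleton_iff]
      have h1 : z * (s * z * s⁻¹) ∈ (S : Subgroup G) :=
        Subgroup.mul_mem _ hzS (Subgroup.mul_mem _ (Subgroup.mul_mem _ hs hzS) (Subgroup.inv_mem _ hs))
      obtain ⟨m, hm⟩ := Cfsg.Agent.Lib.Helper9.iso_odd hz s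
      obtain ⟨k, hk⟩ := (IsPGroup.iff_orderOf.1 S.isPGroup') ⟨_, h1⟩
      rw [Subgroup.orderOf_mk] at hk
      have h2 : z * (s * z * s⁻¹) = 1 := by
        rw [← orderOf_eq_one_iff]
        rcases Nat.eq_zero_or_pos k with rfl | hkpos
        · simpa using hk
        · exfalso
          have : 2 ∣ orderOf (z * (s * z * s⁻¹)) := by rw [hk]; exact dvd_pow_self 2 hkpos.ne'
          omega
      have h3 : s * z * s⁻¹ = z := by
        have := eq_inv_of_mul_eq_one_right h2
        rw [this, hzi]
      calc s * z = s * z * s⁻¹ * s := by simp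
        _ = z * s := by rw [h3]
    have hidx : Nat.Coprime 2 C.index := by
      rw [Nat.Prime.coprime_iff_not_dvd Nat.prime_two]
      intro hd
      exact S.not_dvd_index (hd.trans (Subgroup.index_dvd_of_le hSC))
    have hfus : ∀ g ∈ C, (∃ k : ℕ, orderOf g = 2 ^ k) → ∀ a : G, a * g * a⁻¹ ∈ C →
        ∃ h ∈ C, h * g * h⁻¹ = a * g * a⁻¹ := by
      intro g hg _ a ha
      rw [hC, Subgroup.mem_centralizer_singleton_iff] at hg ha
      obtain ⟨c, -, hc1, hc2⟩ := Cfsg.Agent.S1182.result z hz ⊤ (by rw [Subgroup.mem_normalizer_iff]; simp) g (a * g * a⁻¹)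
        (Subgroup.mem_top _) (Subgroup.mem_top _) hg ha a (Subgroup.mem_top _) rfl
      refine ⟨c, ?_, hc2⟩
      rw [hC, Subgroup.mem_centralizer_singleton_iff]
      exact hc1
    have key := Cfsg.Agent.S1242.result (p := 2) C hidx hfus
    rw [hG, top_sup_eq, top_inf_eq] at key
    apply pResidual_eq_top_of_sup 2
    apply Subgroup.map_injective C.subtype_injective
    rw [← key, ← MonoidHom.range_eq_map, Subgroup.range_subtype]
  · intro hCtop
    have hCle : C ≤ Cfsg.pResidual 2 G := by
      have h1 : (Cfsg.pResidual 2 ↥C).map C.subtype ≤ Cfsg.pResidual 2 G := by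
        rw [Cfsg.Agent.Lib.Helper17.pResidual_map_subtype_le_iff]
        intro g _ hg
        exact Cfsg.Agent.Lib.Helper17.mem_pResidual_of_coprime hg
      rw [hCtop, ← MonoidHom.range_eq_map, Subgroup.range_subtype] at h1
      exact h1
    rw [eq_top_iff]
    intro g _
    obtain ⟨k, ⟨⟨hodd, -⟩, hk⟩, -⟩ := Cfsg.Agent.S1185.result z hz g
    have hkR : k ∈ Cfsg.pResidual 2 G :=
      Cfsg.Agent.Lib.Helper17.mem_pResidual_of_coprime (Nat.Coprime.symm (Nat.coprime_two_left.2 hodd))
    have : g = k * (g⁻¹ * k)⁻¹ := by simp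
    rw [this]
    exact Subgroup.mul_mem _ hkR (Subgroup.inv_mem _ (hCle hk))

end Cfsg.Agent.S1183
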