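import Cfsg.Statements.S1184
import Cfsg.Agent.Lib.Helper9.Isolated

set_option autoImplicit false
open Cfsg

namespace Cfsg.Agent.S1184

/-- Let z be an isolated involution of the finite group G. If s and t are distinct conjugates of z, then st does not commute with z. -/
theorem result {G : Type*} [Group G] [Finite G] (z : G) (hz : Cfsg.IsIsolatedInvolution z) (g h : G) (hne : g * z * g⁻¹ ≠ h * z * h⁻¹) : ¬ Commute (g * z * g⁻¹ * (h * z * h⁻¹)) z := by
  intro hcomm
  have hzz : z * z = 1 := Cfsg.Agent.Lib.Helper9.mul_self_of_orderOf_two hz.1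
  set s := g * z * g⁻¹ with hs
  set t := h * z * h⁻¹ with ht
  have hss : s * s = 1 := Cfsg.Agent.Lib.Helper9.conj_mul_self hzz g
  have htt : t * t = 1 := Cfsg.Agent.Lib.Helper9.conj_mul_self hzz h
  set r := s * t with hr
  have hrodd : Odd (orderOf r) := Cfsg.Agent.Lib.Helper9.iso_odd' hz g h
  have hsr : s * r * s = r⁻¹ := by
    have := Cfsg.Agent.Lib.Helper9.conj_left_pow hss htt 1
    rw [pow_one] at this
    exact this
  have hzi : z⁻¹ = z := Cfsg.Agent.Lib.Helper9.inv_eq_self_of_mul_self hzz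
  have hsi : s⁻¹ = s := Cfsg.Agent.Lib.Helper9.inv_eq_self_of_mul_self hss
  have hrz : r * z = z * r := hcomm
  have hinv : (z * s) * r * (z * s)⁻¹ = r⁻¹ := by
    rw [mul_inv_rev, hzi, hsi]
    calc z * s * r * (s * z) = z * (s * r * s) * z := by simp [mul_assoc]
      _ = z * r⁻¹ * z := by rw [hsr]
      _ = r⁻¹ := by
        have : z * r⁻¹ = r⁻¹ * z := by
          calc z * r⁻¹ = r⁻¹ * (r * z) * r⁻¹ := by simp [mul_assoc]
            _ = r⁻¹ * (z * r) * r⁻¹ := by rw [hrz]
            _ = r⁻¹ * z := by simp [mul_assoc]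
        rw [this, mul_assoc, hzz, mul_one]
  have hpow : ∀ j : ℕ, (z * s) ^ j * r * ((z * s) ^ j)⁻¹ = r ∨ (z * s) ^ j * r * ((z * s) ^ j)⁻¹ = r⁻¹ := by
    intro j
    induction j with
    | zero => left; simp
    | succ j ih =>
      have e : (z * s) ^ (j + 1) * r * ((z * s) ^ (j + 1))⁻¹
          = (z * s) * ((z * s) ^ j * r * ((z * s) ^ j)⁻¹) * (z * s)⁻¹ := by
        rw [pow_succ']; simp [mul_assoc]
      rcases ih with ih | ih
      · right; rw [e, ih, hinv]
      · left
        rw [e, ih]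
        have : (z * s) * r⁻¹ * (z * s)⁻¹ = ((z * s) * r * (z * s)⁻¹)⁻¹ := by simp [mul_assoc]
        rw [this, hinv, inv_inv]
  obtain ⟨j, -, hj⟩ := Cfsg.Agent.Lib.Helper9.iso_conj_pow hz g
  rw [← hs] at hj
  set u := (z * s) ^ j with hu
  have hsu : s * (u * r * u⁻¹) = (u * r * u⁻¹) * s := by
    rw [← hj]
    calc u * z * u⁻¹ * (u * r * u⁻¹) = u * (z * r) * u⁻¹ := by simp [mul_assoc]
      _ = u * (r * z) * u⁻¹ := by rw [hrz]
      _ = u * r * u⁻¹ * (u * z * u⁻¹) := by simp [mul_assoc]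
  have hsr' : s * r = r * s := by
    rcases hpow j with h1 | h1
    · rw [h1] at hsu; exact hsu
    · rw [h1] at hsu
      calc s * r = r * (r⁻¹ * s) * r := by simp [mul_assoc]
        _ = r * (s * r⁻¹) * r := by rw [hsu]
        _ = r * s := by simp [mul_assoc]
  have hr2 : r ^ 2 = 1 := by
    have h1 : r = r⁻¹ := by
      rw [← hsr, hsr', mul_assoc, hss, mul_one]
    rw [pow_two]
    nth_rewrite 2 [h1]
    simp
  have hr1 : r = 1 := by
    obtain ⟨m, hm⟩ := hrodd
    have h2 : r ^ (2 * m + 1) = 1 := by rw [← hm, pow_orderOf_eq_one]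
    rw [pow_succ, pow_mul, hr2, one_pow, one_mul] at h2
    exact h2
  apply hne
  have : s = t⁻¹ := eq_inv_of_mul_eq_one_left hr1
  rw [this, Cfsg.Agent.Lib.Helper9.inv_eq_self_of_mul_self htt]

end Cfsg.Agent.S1184
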