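import Cfsg.Statements.S1186
import Cfsg.Agent.Lib.Helper9.Isolated
import Cfsg.Agent.S1184
import Cfsg.Agent.S1185

set_option autoImplicit false
open Cfsg

namespace Cfsg.Agent.S1186

open Cfsg.Agent.Lib.Helper9

section
variable {G : Type*} [Group G] [Finite G] {z : G}

def Om (z t : G) : Prop := ∃ g : G, g * z * g⁻¹ = t

theorem orderOf_conj_eq0 (g t : G) : orderOf (g * t * g⁻¹) = orderOf t := by
  have : g * t * g⁻¹ = MulAut.conj g t := by simp [MulAut.conj_apply]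
  rw [this, MulEquiv.orderOf_eq]

theorem om_sq (hz : Cfsg.IsIsolatedInvolution z) {t : G} (ht : Om z t) : t * t = 1 := by
  obtain ⟨g, rfl⟩ := ht
  exact conj_mul_self (mul_self_of_orderOf_two hz.1) g

theorem om_conj {t : G} (ht : Om z t) (c : G) : Om z (c * t * c⁻¹) := by
  obtain ⟨g, rfl⟩ := ht
  exact ⟨c * g, by simp [mul_assoc]⟩

theorem mid_exists (hz : Cfsg.IsIsolatedInvolution z) {t t' : G} (ht : Om z t) (ht' : Om z t') :
    ∃ m, Om z m ∧ m * t * m⁻¹ = t' := by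
  have htt := om_sq hz ht
  have htt' := om_sq hz ht'
  obtain ⟨a, rfl⟩ := ht
  obtain ⟨b, rfl⟩ := ht'
  obtain ⟨j, hj⟩ := iso_odd' hz a b
  have hconj := odd_conj htt htt' hj
  obtain ⟨t, ht⟩ : ∃ t, t = a * z * a⁻¹ := ⟨_, rfl⟩
  obtain ⟨t', ht'⟩ : ∃ t', t' = b * z * b⁻¹ := ⟨_, rfl⟩
  rw [← ht] at hj hconj htt
  rw [← ht'] at hj hconj htt'
  rw [← ht, ← ht']
  refine ⟨(t * t') ^ j * t, ?_, ?_⟩
  · -- (t t')^j t = t (t t')^(j+1)
    have h1 : (t * t') ^ j * t = t * (t * t') ^ (j + 1) := by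
      have h2 := conj_left_pow htt htt' (j + 1)
      have h3 : ((t * t') ^ (j + 1))⁻¹ = (t * t') ^ j := by
        apply inv_eq_of_mul_eq_one_left
        rw [← pow_add]
        have : j + (j + 1) = 2 * j + 1 := by ring
        rw [this, ← hj, pow_orderOf_eq_one]
      rw [h3] at h2
      rw [← h2, mul_assoc, htt, mul_one]
    rw [h1]
    obtain ⟨u, -, hu⟩ := reflection_conj htt htt' (j + 1)
    rcases hu with hu | hu
    · rw [hu, ht]; exact om_conj ⟨a, rfl⟩ u
    · rw [hu, ht']; exact om_conj ⟨b, rfl⟩ u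
  · calc (t * t') ^ j * t * t * ((t * t') ^ j * t)⁻¹
        = (t * t') ^ j * t * ((t * t') ^ j)⁻¹ := by simp [mul_assoc]
      _ = t' := hconj

theorem mid_unique (hz : Cfsg.IsIsolatedInvolution z) {t m m' : G} (ht : Om z t) (hm : Om z m)
    (hm' : Om z m') (h : m * t * m⁻¹ = m' * t * m'⁻¹) : m = m' := by
  have hmm := om_sq hz hm
  obtain ⟨a, rfl⟩ := ht
  obtain ⟨g, rfl⟩ := hm
  obtain ⟨g', rfl⟩ := hm'
  by_contra hne
  have hiso := iso_conj hz a
  have e1 : g * a⁻¹ * (a * z * a⁻¹) * (g * a⁻¹)⁻¹ = g * z * g⁻¹ := by simp [mul_assoc]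
  have e2 : g' * a⁻¹ * (a * z * a⁻¹) * (g' * a⁻¹)⁻¹ = g' * z * g'⁻¹ := by simp [mul_assoc]
  have h1 := Cfsg.Agent.S1184.result (a * z * a⁻¹) hiso (g * a⁻¹) (g' * a⁻¹) (by rw [e1, e2]; exact hne)
  rw [e1, e2] at h1
  apply h1
  obtain ⟨t, ht⟩ : ∃ t, t = a * z * a⁻¹ := ⟨_, rfl⟩
  obtain ⟨m, hm⟩ : ∃ m, m = g * z * g⁻¹ := ⟨_, rfl⟩
  obtain ⟨m', hm'⟩ : ∃ m', m' = g' * z * g'⁻¹ := ⟨_, rfl⟩
  rw [← ht, ← hm, ← hm'] at h ⊢
  rw [← hm] at hmm
  have hmi := inv_eq_self_of_mul_self hmm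
  change m * m' * t = t * (m * m')
  have h2 : m' * t = m * t * m⁻¹ * m' := by rw [h]; simp
  rw [mul_assoc, h2, hmi]
  calc m * (m * t * m * m') = (m * m) * t * (m * m') := by simp [mul_assoc]
    _ = t * (m * m') := by rw [hmm, one_mul]

theorem card_K (hz : Cfsg.IsIsolatedInvolution z) (a : G) (ha : Commute a z) :
    Nat.card {k : G // Odd (orderOf k) ∧ z * k * z⁻¹ = k⁻¹ ∧ Commute k a}
      = Nat.card {t : G // Om z t ∧ Commute t a} := by
  have haz : a * z = z * a := ha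
  have inj : ∀ k k' : G, Odd (orderOf k) → z * k * z⁻¹ = k⁻¹ → Odd (orderOf k') → z * k' * z⁻¹ = k'⁻¹ →
      k * z * k⁻¹ = k' * z * k'⁻¹ → k = k' := by
    intro k k' h1 h2 h1' h2' h
    obtain ⟨k₀, -, huniq⟩ := Cfsg.Agent.S1185.result z hz k
    have e1 := huniq k ⟨⟨h1, h2⟩, by simp⟩
    have e2 := huniq k' ⟨⟨h1', h2'⟩, by
      rw [Subgroup.mem_centralizer_singleton_iff]
      calc k⁻¹ * k' * z = k⁻¹ * (k' * z * k'⁻¹) * k' := by simp [mul_assoc]
        _ = k⁻¹ * (k * z * k⁻¹) * k' := by rw [h]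
        _ = z * (k⁻¹ * k') := by simp [mul_assoc]⟩
    rw [e1, e2]
  apply Nat.card_eq_of_bijective (fun k : {k : G // Odd (orderOf k) ∧ z * k * z⁻¹ = k⁻¹ ∧ Commute k a} =>
    (⟨k.1 * z * k.1⁻¹, ⟨k.1, rfl⟩, by
      have hk : k.1 * a = a * k.1 := k.2.2.2
      have hk' : k.1⁻¹ * a = a * k.1⁻¹ := by
        calc k.1⁻¹ * a = k.1⁻¹ * (a * k.1) * k.1⁻¹ := by simp [mul_assoc]
          _ = k.1⁻¹ * (k.1 * a) * k.1⁻¹ := by rw [hk]
          _ = a * k.1⁻¹ := by simp [mul_assoc]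
      change k.1 * z * k.1⁻¹ * a = a * (k.1 * z * k.1⁻¹)
      rw [mul_assoc, hk', ← mul_assoc, mul_assoc k.1, ← haz, ← mul_assoc, hk]
      simp [mul_assoc]⟩ : {t : G // Om z t ∧ Commute t a}))
  constructor
  · intro k k' h
    have h' : k.1 * z * k.1⁻¹ = k'.1 * z * k'.1⁻¹ := congrArg Subtype.val h
    exact Subtype.ext (inj _ _ k.2.1 k.2.2.1 k'.2.1 k'.2.2.1 h')
  · rintro ⟨t, ⟨g, rfl⟩, hta⟩
    obtain ⟨k, ⟨⟨h1, h2⟩, h3⟩, -⟩ := Cfsg.Agent.S1185.result z hz g
    rw [Subgroup.mem_centralizer_singleton_iff] at h3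
    have hk : k * z * k⁻¹ = g * z * g⁻¹ := by
      calc k * z * k⁻¹ = g * (g⁻¹ * k * z) * k⁻¹ := by simp [mul_assoc]
        _ = g * (z * (g⁻¹ * k)) * k⁻¹ := by rw [h3]
        _ = g * z * g⁻¹ := by simp [mul_assoc]
    have hcomm : Commute k a := by
      have hta' : g * z * g⁻¹ * a = a * (g * z * g⁻¹) := hta
      have h4 : a * k * a⁻¹ = k := by
        apply inj
        · rw [orderOf_conj_eq0]; exact h1
        · have hza : z * a = a * z := haz.symm
          have hza' : a⁻¹ * z⁻¹ = z⁻¹ * a⁻¹ := by rw [← mul_inv_rev, ← mul_inv_rev, hza]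
          calc z * (a * k * a⁻¹) * z⁻¹ = (z * a) * k * (a⁻¹ * z⁻¹) := by simp [mul_assoc]
            _ = (a * z) * k * (z⁻¹ * a⁻¹) := by rw [hza, hza']
            _ = a * (z * k * z⁻¹) * a⁻¹ := by simp [mul_assoc]
            _ = (a * k * a⁻¹)⁻¹ := by rw [h2]; simp [mul_assoc]
        · exact h1
        · exact h2
        · have hza' : a⁻¹ * z = z * a⁻¹ := by
            calc a⁻¹ * z = a⁻¹ * (z * a) * a⁻¹ := by simp [mul_assoc]
              _ = a⁻¹ * (a * z) * a⁻¹ := by rw [haz]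
              _ = z * a⁻¹ := by simp [mul_assoc]
          calc a * k * a⁻¹ * z * (a * k * a⁻¹)⁻¹ = a * k * (a⁻¹ * z) * a * k⁻¹ * a⁻¹ := by simp [mul_assoc]
            _ = a * k * (z * a⁻¹) * a * k⁻¹ * a⁻¹ := by rw [hza']
            _ = a * (k * z * k⁻¹) * a⁻¹ := by simp [mul_assoc]
            _ = a * (g * z * g⁻¹) * a⁻¹ := by rw [hk]
            _ = g * z * g⁻¹ * a * a⁻¹ := by rw [hta']
            _ = k * z * k⁻¹ := by rw [hk]; simp
      change k * a = a * k
      calc k * a = a * k * a⁻¹ * a := by rw [h4]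
        _ = a * k := by simp
    exact ⟨⟨k, h1, h2, hcomm⟩, Subtype.ext hk⟩

theorem card_G (hz : Cfsg.IsIsolatedInvolution z) :
    Nat.card G = Nat.card (Subgroup.centralizer ({z} : Set G)) *
      Nat.card {k : G // Odd (orderOf k) ∧ z * k * z⁻¹ = k⁻¹ ∧ Commute k (1 : G)} := by
  rw [← Nat.card_prod]
  symm
  apply Nat.card_eq_of_bijective (fun p : (Subgroup.centralizer ({z} : Set G)) ×
    {k : G // Odd (orderOf k) ∧ z * k * z⁻¹ = k⁻¹ ∧ Commute k (1 : G)} => p.2.1 * p.1.1)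
  constructor
  · rintro ⟨c, k⟩ ⟨c', k'⟩ h
    have h' : k.1 * c.1 = k'.1 * c'.1 := h
    obtain ⟨k₀, -, huniq⟩ := Cfsg.Agent.S1185.result z hz (k.1 * c.1)
    have e1 := huniq k.1 ⟨⟨k.2.1, k.2.2.1⟩, by
      have : (k.1 * c.1)⁻¹ * k.1 = c.1⁻¹ := by simp
      rw [this]; exact Subgroup.inv_mem _ c.2⟩
    have e2 := huniq k'.1 ⟨⟨k'.2.1, k'.2.2.1⟩, by
      have : (k.1 * c.1)⁻¹ * k'.1 = c'.1⁻¹ := by rw [h']; simp
      rw [this]; exact Subgroup.inv_mem _ c'.2⟩
    have hk : k.1 = k'.1 := by rw [e1, e2]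
    have hc : c.1 = c'.1 := by
      rw [hk] at h'; exact mul_left_cancel h'
    exact Prod.ext (Subtype.ext hc) (Subtype.ext hk)
  · intro g
    obtain ⟨k, ⟨⟨h1, h2⟩, h3⟩, -⟩ := Cfsg.Agent.S1185.result z hz g
    refine ⟨(⟨(g⁻¹ * k)⁻¹, Subgroup.inv_mem _ h3⟩, ⟨k, h1, h2, Commute.one_right k⟩), ?_⟩
    simp

end


/-- Let z be an isolated involution of the finite group G, C = C_G(z), K the set of elements of odd order inverted by z, and s an involution of C. Then |G| = |C| · |C_K(sz)| · |C_K(s)|. -/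
theorem result {G : Type*} [Group G] [Finite G] (z : G) (hz : Cfsg.IsIsolatedInvolution z) (s : G) (hs : orderOf s = 2) (hsz : Commute s z) : Nat.card G = Nat.card (Subgroup.centralizer ({z} : Set G)) * Nat.card {k : G // Odd (orderOf k) ∧ z * k * z⁻¹ = k⁻¹ ∧ Commute k (s * z)} * Nat.card {k : G // Odd (orderOf k) ∧ z * k * z⁻¹ = k⁻¹ ∧ Commute k s} := by
  have hzz : z * z = 1 := Cfsg.Agent.Lib.Helper9.mul_self_of_orderOf_two hz.1
  have hss : s * s = 1 := Cfsg.Agent.Lib.Helper9.mul_self_of_orderOf_two hs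
  have hsi : s⁻¹ = s := Cfsg.Agent.Lib.Helper9.inv_eq_self_of_mul_self hss
  have hsz' : s * z = z * s := hsz
  rw [card_G hz, card_K hz 1 (Commute.one_left z), card_K hz s hsz,
    card_K hz (s * z) (by change s * z * z = z * (s * z); rw [← mul_assoc, hsz'])]
  rw [mul_assoc]
  congr 1
  -- the projection from the sigma type
  have hfib : ∀ m : {m : G // Om z m ∧ Commute m s},
      Nat.card {t : G // Om z t ∧ Commute t (s * m.1)} = Nat.card {t : G // Om z t ∧ Commute t (s * z)} := by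
    rintro ⟨m, ⟨g, rfl⟩, hms⟩
    have hms' : g * z * g⁻¹ * s = s * (g * z * g⁻¹) := hms
    obtain ⟨c, hc, hcz⟩ := Cfsg.Agent.Lib.Helper9.iso_conj_in hz (Subgroup.centralizer ({s} : Set G))
      (Subgroup.mem_centralizer_singleton_iff.2 hsz'.symm) g (Subgroup.mem_centralizer_singleton_iff.2 hms')
    rw [Subgroup.mem_centralizer_singleton_iff] at hc
    have hcs : c * s * c⁻¹ = s := by rw [hc]; simp
    have hcsz : c * (s * z) * c⁻¹ = s * (g * z * g⁻¹) := by
      calc c * (s * z) * c⁻¹ = (c * s * c⁻¹) * (c * z * c⁻¹) := by simp [mul_assoc]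
        _ = s * (g * z * g⁻¹) := by rw [hcs, hcz]
    symm
    apply Nat.card_congr
    refine ⟨fun t => ⟨c * t.1 * c⁻¹, om_conj t.2.1 c, ?_⟩, fun t => ⟨c⁻¹ * t.1 * c, ?_, ?_⟩, ?_, ?_⟩
    · have ht : t.1 * (s * z) = s * z * t.1 := t.2.2
      change c * t.1 * c⁻¹ * (s * (g * z * g⁻¹)) = s * (g * z * g⁻¹) * (c * t.1 * c⁻¹)
      rw [← hcsz]
      calc c * t.1 * c⁻¹ * (c * (s * z) * c⁻¹) = c * (t.1 * (s * z)) * c⁻¹ := by simp [mul_assoc]
        _ = c * (s * z * t.1) * c⁻¹ := by rw [ht]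
        _ = c * (s * z) * c⁻¹ * (c * t.1 * c⁻¹) := by simp [mul_assoc]
    · have := om_conj t.2.1 c⁻¹
      rwa [inv_inv] at this
    · have ht : t.1 * (c * (s * z) * c⁻¹) = c * (s * z) * c⁻¹ * t.1 := by
        rw [hcsz]; exact t.2.2
      change c⁻¹ * t.1 * c * (s * z) = s * z * (c⁻¹ * t.1 * c)
      calc c⁻¹ * t.1 * c * (s * z) = c⁻¹ * (t.1 * (c * (s * z) * c⁻¹)) * c := by simp [mul_assoc]
        _ = c⁻¹ * (c * (s * z) * c⁻¹ * t.1) * c := by rw [ht]
        _ = s * z * (c⁻¹ * t.1 * c) := by simp [mul_assoc]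
    · intro t; ext; simp [mul_assoc]
    · intro t; ext; simp [mul_assoc]
  have hsig : Nat.card (Σ m : {m : G // Om z m ∧ Commute m s}, {t : G // Om z t ∧ Commute t (s * m.1)})
      = Nat.card {t : G // Om z t ∧ Commute t (1 : G)} := by
    apply Nat.card_eq_of_bijective (fun p : (Σ m : {m : G // Om z m ∧ Commute m s},
      {t : G // Om z t ∧ Commute t (s * m.1)}) =>
      (⟨p.2.1, p.2.2.1, Commute.one_right _⟩ : {t : G // Om z t ∧ Commute t (1 : G)}))
    have hrel : ∀ m t : G, Commute t (s * m) → m * t * m⁻¹ = s * t * s := by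
      intro m t h
      have h' : t * (s * m) = s * m * t := h
      calc m * t * m⁻¹ = s * (s * m * t) * m⁻¹ := by
            rw [← mul_assoc, ← mul_assoc, hss, one_mul]
        _ = s * (t * (s * m)) * m⁻¹ := by rw [h']
        _ = s * t * s := by simp [mul_assoc]
    constructor
    · rintro ⟨⟨m, hm, hms⟩, ⟨t, ht, htm⟩⟩ ⟨⟨m', hm', hms'⟩, ⟨t', ht', htm'⟩⟩ h
      have htt : t = t' := congrArg Subtype.val h
      subst htt
      have hmm : m = m' := mid_unique hz ht hm hm' (by rw [hrel m t htm, hrel m' t htm'])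
      subst hmm
      rfl
    · rintro ⟨t, ht, -⟩
      have hst : Om z (s * t * s) := by
        have := om_conj ht s
        rwa [hsi] at this
      obtain ⟨m, hm, hmt⟩ := mid_exists hz ht hst
      have hmm := om_sq hz hm
      have hmi := Cfsg.Agent.Lib.Helper9.inv_eq_self_of_mul_self hmm
      have hms : Commute m s := by
        have hm2 : Om z (s * m * s) := by
          have := om_conj hm s
          rwa [hsi] at this
        have h1 : s * m * s = m := by
          apply mid_unique hz ht hm2 hm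
          rw [hmt]
          have h2 : m * (s * t * s) * m⁻¹ = t := by
            rw [← hmt, hmi]
            calc m * (m * t * m) * m = (m * m) * t * (m * m) := by simp [mul_assoc]
              _ = t := by rw [hmm]; simp
          have h3 : (s * m * s)⁻¹ = s * m⁻¹ * s := by
            rw [mul_inv_rev, mul_inv_rev, hsi, mul_assoc]
          rw [h3]
          calc s * m * s * t * (s * m⁻¹ * s) = s * (m * (s * t * s) * m⁻¹) * s := by simp [mul_assoc]
            _ = s * t * s := by rw [h2]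
        change m * s = s * m
        calc m * s = s * m * s * s := by rw [h1]
          _ = s * m := by rw [mul_assoc, hss, mul_one]
      have htm : Commute t (s * m) := by
        change t * (s * m) = s * m * t
        have h4 : m * t = s * t * s * m := by rw [← hmt]; simp
        rw [mul_assoc s m t, h4]
        calc t * (s * m) = (s * s) * t * (s * m) := by rw [hss, one_mul]
          _ = s * (s * t * s * m) := by simp [mul_assoc]
      exact ⟨⟨⟨m, hm, hms⟩, ⟨t, ht, htm⟩⟩, rfl⟩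
  haveI : Fintype {m : G // Om z m ∧ Commute m s} := Fintype.ofFinite _
  rw [← hsig, Nat.card_sigma]
  rw [Finset.sum_congr rfl (fun m _ => hfib m), Finset.sum_const, Finset.card_univ, smul_eq_mul,
    Nat.card_eq_fintype_card (α := {m : G // Om z m ∧ Commute m s}), mul_comm]

end Cfsg.Agent.S1186
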