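import Cfsg.Statements.S1187
import Cfsg.Agent.Lib.Helper9.ZStar

set_option autoImplicit false
open Cfsg

namespace Cfsg.Agent.S1187

open Cfsg.Agent.Lib.Helper9

theorem iso_restrict {G : Type*} [Group G] {z : G} (hz : Cfsg.IsIsolatedInvolution z)
    (H : Subgroup G) (hzH : z ∈ H) : Cfsg.IsIsolatedInvolution (⟨z, hzH⟩ : H) := by
  refine ⟨by rw [Subgroup.orderOf_mk]; exact hz.1, ?_⟩
  intro g hg
  apply Subtype.ext
  have h1 : Commute z ((g : G) * z * (g : G)⁻¹) := by
    have := congrArg Subtype.val hg.eq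
    exact this
  exact hz.2 g h1


/-- Let z be an isolated involution of the finite group G and p a prime. If Q is a p-subgroup normalized by z that is maximal among p-subgroups normalized by z, then Q is a Sylow p-subgroup of G. -/
theorem result {G : Type*} [Group G] [Finite G] (z : G) (hz : Cfsg.IsIsolatedInvolution z) {p : ℕ} [Fact p.Prime] (Q : Subgroup G) (hQ : IsPGroup p Q) (hzQ : z ∈ Subgroup.normalizer (Q : Set G)) (hmax : ∀ R : Subgroup G, IsPGroup p R → z ∈ Subgroup.normalizer (R : Set G) → Q ≤ R → R = Q) : ∃ P : Sylow p G, (P : Subgroup G) = Q := by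
  by_cases hp2 : p = 2
  · subst hp2
    -- z ∈ Q
    have hn : Subgroup.zpowers z ≤ Subgroup.normalizer (Q : Set G) := by
      rw [Subgroup.zpowers_le]; exact hzQ
    have hR : IsPGroup 2 ↥(Q ⊔ Subgroup.zpowers z) := by
      have hz2 : IsPGroup 2 (Subgroup.zpowers z) := by
        apply IsPGroup.of_card (n := 1)
        rw [Nat.card_zpowers, hz.1, pow_one]
      exact hQ.to_sup_of_normal_left' hz2 hn
    have h1 := hmax _ hR (Subgroup.le_normalizer (le_sup_right (a := Q) (Subgroup.mem_zpowers z)))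
      le_sup_left
    have hzQ' : z ∈ Q := by
      rw [← h1]; exact le_sup_right (a := Q) (Subgroup.mem_zpowers z)
    obtain ⟨P, hP⟩ := hQ.exists_le_sylow
    exact ⟨P, hmax P P.isPGroup' (Subgroup.le_normalizer (hP hzQ')) hP⟩
  · set N := Subgroup.normalizer (Q : Set G) with hN
    have hz' := iso_restrict hz N hzQ
    obtain ⟨P1, hP1⟩ := iso_invariant_sylow hz' p hp2
    set R : Subgroup G := (P1 : Subgroup N).map N.subtype with hR
    have hRp : IsPGroup p R := P1.isPGroup'.map _
    have hQN : Q ≤ N := Subgroup.le_normalizer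
    haveI : (Q.subgroupOf N).Normal := Subgroup.normal_in_normalizer
    have hQ1 : Q.subgroupOf N ≤ P1 := by
      have : IsPGroup p (Q.subgroupOf N) := hQ.of_equiv (Subgroup.subgroupOfEquivOfLe hQN).symm
      exact this.le_sylow_of_normal P1
    have hQR : Q ≤ R := by
      intro x hx
      exact ⟨⟨x, hQN hx⟩, hQ1 (Subgroup.mem_subgroupOf.mpr hx), rfl⟩
    have hzR : z ∈ Subgroup.normalizer (R : Set G) := by
      rw [Subgroup.mem_normalizer_iff]
      intro x
      rw [Subgroup.mem_normalizer_iff] at hP1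
      constructor
      · rintro ⟨y, hy, rfl⟩
        exact ⟨_, (hP1 y).mp hy, rfl⟩
      · rintro ⟨y, hy, hyx⟩
        have hxN : x ∈ N := by
          have h1 : z * x * z⁻¹ ∈ N := by rw [← hyx]; exact y.2
          have := N.mul_mem (N.mul_mem (N.inv_mem hzQ) h1) hzQ
          simpa [mul_assoc] using this
        refine ⟨⟨x, hxN⟩, (hP1 ⟨x, hxN⟩).mpr ?_, rfl⟩
        have : (⟨z, hzQ⟩ : N) * ⟨x, hxN⟩ * (⟨z, hzQ⟩ : N)⁻¹ = y := Subtype.ext hyx.symm
        rw [this]; exact hy
    have hRQ : R = Q := hmax R hRp hzR hQR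
    -- Q is Sylow in N, hence in G
    obtain ⟨n, hn⟩ := IsPGroup.iff_card.mp hQ
    have hnot : ¬ p ^ (n + 1) ∣ Nat.card G := by
      intro hdvd
      have h1 := Sylow.prime_dvd_card_quotient_normalizer hdvd hn
      have h2 : (P1 : Subgroup N) = Q.subgroupOf N := by
        apply le_antisymm _ hQ1
        intro x hx
        rw [Subgroup.mem_subgroupOf, ← hRQ]
        exact ⟨x, hx, rfl⟩
      have h3 := P1.not_dvd_index
      rw [h2] at h3
      exact h3 h1
    have hidx : ¬ p ∣ Q.index := by
      intro ⟨k, hk⟩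
      apply hnot
      rw [← Subgroup.card_mul_index Q, hn, hk, pow_succ, ← mul_assoc]
      exact Dvd.intro _ rfl
    exact ⟨hQ.toSylow hidx, rfl⟩

end Cfsg.Agent.S1187
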