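import Cfsg.Statements.S1227
import Cfsg.Agent.Lib.Helper9.EAC2

set_option autoImplicit false
open Cfsg

namespace Cfsg.Agent.S1227

open Cfsg.Agent.Lib.Helper9 in
theorem stab_eq {G : Type*} [Group G] (N : Subgroup G) (u : G) :
    MulAction.stabilizer G (QuotientGroup.mk 1 : G ⧸ N) ⊓ MulAction.stabilizer G (QuotientGroup.mk u : G ⧸ N)
      = N ⊓ N.map (MulAut.conj u).toMonoidHom := by
  ext d
  rw [Subgroup.mem_inf, Subgroup.mem_inf, MulAction.mem_stabilizer_iff, MulAction.mem_stabilizer_iff,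
    smul_mk_one_eq_iff, smul_mk_eq_iff, mem_map_conj_iff]


/-- Let G be a finite group with a Sylow 2-subgroup T that is neither cyclic nor normal, such that the centralizer of every involution is an elementary abelian 2-group; put H = N_G(T), let u be an involution outside H and D = H ∩ uHu⁻¹. Then u inverts every element of D, |H| = |T|·(|T| − 1), and D is a complement to T in H. -/
theorem result {G : Type*} [Group G] [Finite G] (T : Sylow 2 G) (hnc : ¬ IsCyclic (T : Subgroup G)) (hnn : ¬ (T : Subgroup G).Normal) (hC : ∀ t : G, orderOf t = 2 → IsMulCommutative (Subgroup.centralizer ({t} : Set G)) ∧ ∀ c ∈ Subgroup.centralizer ({t} : Set G), c ^ 2 = 1) (u : G) (hu : orderOf u = 2) (huH : u ∉ Subgroup.normalizer ((T : Subgroup G) : Set G)) : (∀ d ∈ Subgroup.normalizer ((T : Subgroup G) : Set G) ⊓ (Subgroup.normalizer ((T : Subgroup G) : Set G)).map (MulAut.conj u).toMonoidHom, u * d * u⁻¹ = d⁻¹) ∧ Nat.card (Subgroup.normalizer ((T : Subgroup G) : Set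 G)) = Nat.card T * (Nat.card T - 1) ∧ Subgroup.IsComplement' ((Subgroup.normalizer ((T : Subgroup G) : Set G) ⊓ (Subgroup.normalizer ((T : Subgroup G) : Set G)).map (MulAut.conj u).toMonoidHom).subgroupOf (Subgroup.normalizer ((T : Subgroup G) : Set G))) ((T : Subgroup G).subgroupOf (Subgroup.normalizer ((T : Subgroup G) : Set G))) := by
  have hH := Cfsg.Agent.Lib.Helper9.eac_stronglyEmbedded hC T hnc hnn
  have hT := Cfsg.Agent.Lib.Helper9.eac_ne_bot T hnc
  set N := Subgroup.normalizer ((T : Subgroup G) : Set G) with hN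
  set x : G ⧸ N := QuotientGroup.mk 1 with hx
  set y : G ⧸ N := QuotientGroup.mk u with hy
  have hxy : x ≠ y := by
    intro h
    rw [hx, hy, QuotientGroup.eq] at h
    apply huH; simpa using h
  have hux : u • x = y := Cfsg.Agent.Lib.Helper9.smul_mk_one u
  obtain ⟨hcard, hinv⟩ := Cfsg.Agent.Lib.Helper9.eac_count T hC hH hxy hu hux
  have hst := stab_eq N u
  rw [← hx, ← hy] at hst
  set D := N ⊓ N.map (MulAut.conj u).toMonoidHom with hD
  have hDfix : ∀ d ∈ D, d • x = x ∧ d • y = y := by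
    intro d hd
    rw [← hst] at hd
    exact Subgroup.mem_inf.1 hd
  have hcompl : Subgroup.IsComplement' (D.subgroupOf N) ((T : Subgroup G).subgroupOf N) := by
    apply Subgroup.isComplement'_of_disjoint_and_mul_eq_univ
    · rw [Subgroup.disjoint_def]
      intro d hd1 hd2
      rw [Subgroup.mem_subgroupOf] at hd1 hd2
      obtain ⟨h1, h2⟩ := hDfix _ hd1
      have hodd := Cfsg.Agent.Lib.Helper9.se_odd_of_fix_two hH hxy h1 h2
      have hsq := Cfsg.Agent.Lib.Helper9.eac_sq hC T hT _ hd2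
      ext
      exact Cfsg.Agent.Lib.Helper9.eq_one_of_odd_of_pow_two_pow hodd (k := 1) (by rw [pow_one, pow_two]; exact hsq)
    · rw [Set.eq_univ_iff_forall]
      intro h
      obtain ⟨t₀, ht₀T, ht₀, -⟩ := Cfsg.Agent.Lib.Helper9.eac_exists_central T hT
      have ht₀N : t₀ ∈ N := Subgroup.le_normalizer ht₀T
      have h1 : orderOf ((h : G) * t₀ * (h : G)⁻¹) = 2 := by
        rw [Cfsg.Agent.Lib.Helper9.orderOf_conj_eq]; exact ht₀
      have h2 : ((h : G) * t₀ * (h : G)⁻¹) • x = x :=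
        (Cfsg.Agent.Lib.Helper9.smul_mk_one_eq_iff _).2 (N.mul_mem (N.mul_mem h.2 ht₀N) (N.inv_mem h.2))
      have h3 : t₀ • x = x := (Cfsg.Agent.Lib.Helper9.smul_mk_one_eq_iff _).2 ht₀N
      obtain ⟨d, hdx, hdy, hd⟩ := Cfsg.Agent.Lib.Helper9.se_trans hH hxy ht₀ h1 h3 h2
      have hdD : d ∈ D := by rw [← hst]; exact Subgroup.mem_inf.2 ⟨hdx, hdy⟩
      have hdN : d ∈ N := (Subgroup.mem_inf.1 hdD).1
      have hc : d⁻¹ * (h : G) ∈ (T : Subgroup G) := by
        rw [← Cfsg.Agent.Lib.Helper9.eac_centralizer hC T ht₀T (Cfsg.Agent.Lib.Helper9.ne_one_of_orderOf_two ht₀),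
          Subgroup.mem_centralizer_singleton_iff]
        calc d⁻¹ * (h : G) * t₀ = d⁻¹ * ((h : G) * t₀ * (h : G)⁻¹) * (h : G) := by simp [mul_assoc]
          _ = d⁻¹ * (d * t₀ * d⁻¹) * (h : G) := by rw [hd]
          _ = t₀ * (d⁻¹ * (h : G)) := by simp [mul_assoc]
      refine ⟨⟨d, hdN⟩, ?_, ⟨d⁻¹ * (h : G), N.mul_mem (N.inv_mem hdN) h.2⟩, ?_, ?_⟩
      · rw [SetLike.mem_coe, Subgroup.mem_subgroupOf]; exact hdD
      · rw [SetLike.mem_coe, Subgroup.mem_subgroupOf]; exact hc
      · ext; simp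
  refine ⟨?_, ?_, hcompl⟩
  · intro d hd
    obtain ⟨h1, h2⟩ := hDfix d hd
    exact hinv d h1 h2
  · have h1 := hcompl.card_mul_card
    have h2 : Nat.card (D.subgroupOf N) = Nat.card D :=
      Nat.card_congr (Subgroup.subgroupOfEquivOfLe inf_le_left).toEquiv
    have h3 : Nat.card ((T : Subgroup G).subgroupOf N) = Nat.card T :=
      Nat.card_congr (Subgroup.subgroupOfEquivOfLe Subgroup.le_normalizer).toEquiv
    rw [h2, h3, ← hst, hcard, Cfsg.Agent.Lib.Helper9.eac_card_invol T hC] at h1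
    rw [← h1, mul_comm]

end Cfsg.Agent.S1227
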