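import Cfsg.Statements.S1228
import Cfsg.Agent.Lib.Helper9.EAC2
import Cfsg.Agent.S1227

set_option autoImplicit false
open Cfsg

namespace Cfsg.Agent.S1228

theorem card_ge_four {G : Type*} [Group G] [Finite G] (T : Sylow 2 G)
    (hnc : ¬ IsCyclic (T : Subgroup G)) : 4 ≤ Nat.card T := by
  haveI : Fact (Nat.Prime 2) := ⟨Nat.prime_two⟩
  obtain ⟨k, hk⟩ := IsPGroup.iff_card.1 T.isPGroup'
  have hk' : Nat.card T = 2 ^ k := hk
  rcases k with _ | _ | k
  · exfalso; apply hnc
    have h1 : Nat.card (T : Subgroup G) = 1 := by simpa using hk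
    haveI : Subsingleton (T : Subgroup G) := (Nat.card_eq_one_iff_unique.1 h1).1
    infer_instance
  · exfalso; apply hnc
    exact isCyclic_of_prime_card (p := 2) (by simpa using hk)
  · rw [hk']
    have : 2 ^ (k + 1 + 1) = 4 * 2 ^ k := by ring
    rw [this]
    exact Nat.le_mul_of_pos_right 4 (pow_pos two_pos k)


/-- Let G be a finite group with a Sylow 2-subgroup T that is neither cyclic nor normal, such that the centralizer of every involution is an elementary abelian 2-group; put H = N_G(T), let u be an involution outside H and D = H ∩ uHu⁻¹. Then N_G(D) = D ⊔ ⟨u⟩, and a coset gH is fixed by every element of D exactly when gH = H or gH = uH. -/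
theorem result {G : Type*} [Group G] [Finite G] (T : Sylow 2 G) (hnc : ¬ IsCyclic (T : Subgroup G)) (hnn : ¬ (T : Subgroup G).Normal) (hC : ∀ t : G, orderOf t = 2 → IsMulCommutative (Subgroup.centralizer ({t} : Set G)) ∧ ∀ c ∈ Subgroup.centralizer ({t} : Set G), c ^ 2 = 1) (u : G) (hu : orderOf u = 2) (huH : u ∉ Subgroup.normalizer ((T : Subgroup G) : Set G)) : Subgroup.normalizer ((Subgroup.normalizer ((T : Subgroup G) : Set G) ⊓ (Subgroup.normalizer ((T : Subgroup G) : Set G)).map (MulAut.conj u).toMonoidHom : Subgroup G) : Set G) = (Subgroup.normalizer ((T : Subgroup G) : Set G) ⊓ (Subgroup.normalizer ((T : Subgroup G) : Set G)).map (MulAut.conj u).toMonoidHom) ⊔ Subgroup.zpowers u ∧ ∀ g : G, ((∀ d ∈ Subgroup.normalizer ((T : Subgroup G) : Set G) ⊓ (Subgroup.normalizer ((T : Subgroup G) : Set G)).map (MulAut.conj u).toMonoidHom, d • (QuotientGroup.mk g : G ⧸ Subgroup.normalizer ((T : Subgroup G) : Set G)) = QuotientGroup.mk g) ↔ (QuotientGroup.mk g : G ⧸ Subgroup.normalizer ((T : Subgroup G) : Set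 G)) = QuotientGroup.mk 1 ∨ (QuotientGroup.mk g : G ⧸ Subgroup.normalizer ((T : Subgroup G) : Set G)) = QuotientGroup.mk u) := by
  have hH := Cfsg.Agent.Lib.Helper9.eac_stronglyEmbedded hC T hnc hnn
  have hT := Cfsg.Agent.Lib.Helper9.eac_ne_bot T hnc
  set N := Subgroup.normalizer ((T : Subgroup G) : Set G) with hN
  set x : G ⧸ N := QuotientGroup.mk 1 with hx
  set y : G ⧸ N := QuotientGroup.mk u with hy
  have hxy : x ≠ y := by
    intro h
    rw [hx, hy, QuotientGroup.eq] at h
    apply huH; simpa using h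
  have hux : u • x = y := Cfsg.Agent.Lib.Helper9.smul_mk_one u
  have huu := Cfsg.Agent.Lib.Helper9.mul_self_of_orderOf_two hu
  have hui := Cfsg.Agent.Lib.Helper9.inv_eq_self_of_mul_self huu
  have huy : u • y = x := by rw [← hux, ← mul_smul, huu, one_smul]
  obtain ⟨hcard, hinv⟩ := Cfsg.Agent.Lib.Helper9.eac_count T hC hH hxy hu hux
  have hst := Cfsg.Agent.S1227.stab_eq N u
  rw [← hx, ← hy] at hst
  set D := N ⊓ N.map (MulAut.conj u).toMonoidHom with hD
  have hDfix : ∀ d, d ∈ D ↔ d • x = x ∧ d • y = y := by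
    intro d
    rw [← hst]
    exact Subgroup.mem_inf
  have hDne : ∃ d ∈ D, d ≠ 1 := by
    have h1 : Nat.card D = Nat.card T - 1 := by
      rw [← hst, hcard, Cfsg.Agent.Lib.Helper9.eac_card_invol T hC]
    have h2 := card_ge_four T hnc
    have h3 : 1 < Nat.card D := by omega
    have h4 : D ≠ ⊥ := (Subgroup.one_lt_card_iff_ne_bot D).1 h3
    exact (Subgroup.ne_bot_iff_exists_ne_one.1 h4).elim fun d hd => ⟨d.1, d.2, fun h => hd (Subtype.ext h)⟩
  have hfix : ∀ w : G ⧸ N, (∀ d ∈ D, d • w = w) ↔ (w = x ∨ w = y) := by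
    intro w
    constructor
    · intro hw
      obtain ⟨d, hdD, hd1⟩ := hDne
      by_contra hcon
      push Not at hcon
      obtain ⟨h1, h2⟩ := (hDfix d).1 hdD
      exact hd1 (Cfsg.Agent.Lib.Helper9.eac_three T hC hT hH hxy (Ne.symm hcon.1) (Ne.symm hcon.2) h1 h2 (hw d hdD))
    · rintro (rfl | rfl) d hd
      · exact ((hDfix d).1 hd).1
      · exact ((hDfix d).1 hd).2
  refine ⟨?_, fun g => hfix _⟩
  have huN : u ∈ Subgroup.normalizer (D : Set G) := by
    rw [Subgroup.mem_normalizer_iff]
    intro d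
    constructor
    · intro hd
      rw [hinv d ((hDfix d).1 hd).1 ((hDfix d).1 hd).2]
      exact D.inv_mem hd
    · intro hd
      have h1 := hinv _ ((hDfix _).1 hd).1 ((hDfix _).1 hd).2
      have h2 : u * (u * d * u⁻¹) * u⁻¹ = d := by
        rw [hui]
        calc u * (u * d * u) * u = (u * u) * d * (u * u) := by simp [mul_assoc]
          _ = d := by rw [huu]; simp
      rw [h2] at h1
      rw [h1]; exact D.inv_mem hd
  have hcase : ∀ n ∈ Subgroup.normalizer (D : Set G), n • x = x → n ∈ D := by
    intro n hn hnx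
    have hfy : ∀ d ∈ D, d • (n • y) = n • y := by
      intro d hd
      have h1 : n⁻¹ * d * n ∈ D := by
        have := (Subgroup.mem_normalizer_iff.1 (Subgroup.inv_mem _ hn) d).1 hd
        simpa using this
      have h2 := ((hDfix _).1 h1).2
      calc d • (n • y) = n • ((n⁻¹ * d * n) • y) := by simp [← mul_smul, mul_assoc]
        _ = n • y := by rw [h2]
    rcases (hfix _).1 hfy with h | h
    · exfalso
      rw [← hnx] at h
      exact hxy (MulAction.injective n h).symm
    · exact (hDfix n).2 ⟨hnx, h⟩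
  apply le_antisymm
  · intro n hn
    have hfx : ∀ d ∈ D, d • (n • x) = n • x := by
      intro d hd
      have h1 : n⁻¹ * d * n ∈ D := by
        have := (Subgroup.mem_normalizer_iff.1 (Subgroup.inv_mem _ hn) d).1 hd
        simpa using this
      have h2 := ((hDfix _).1 h1).1
      calc d • (n • x) = n • ((n⁻¹ * d * n) • x) := by simp [← mul_smul, mul_assoc]
        _ = n • x := by rw [h2]
    rcases (hfix _).1 hfx with h | h
    · exact Subgroup.mem_sup_left (hcase n hn h)
    · have h1 : u * n ∈ D := by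
        apply hcase _ (Subgroup.mul_mem _ huN hn)
        rw [mul_smul, h, huy]
      have e : n = (u * n) * ((u * n)⁻¹ * u * (u * n)) := by
        have : (u * n)⁻¹ * u * (u * n) = n⁻¹ * u * n := by
          rw [mul_inv_rev, hui]
          calc n⁻¹ * u * u * (u * n) = n⁻¹ * (u * u) * (u * n) := by simp [mul_assoc]
            _ = n⁻¹ * u * n := by rw [huu]; simp [mul_assoc]
        rw [this]
        calc n = (u * u) * n := by rw [huu, one_mul]
          _ = u * n * (n⁻¹ * u * n) := by simp [mul_assoc]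
      have h2 : u⁻¹ * (u * n) = n := by simp
      rw [← h2]
      exact Subgroup.mul_mem _ (Subgroup.inv_mem _ (Subgroup.mem_sup_right (Subgroup.mem_zpowers u)))
        (Subgroup.mem_sup_left h1)
  · exact sup_le Subgroup.le_normalizer (by rw [Subgroup.zpowers_le]; exact huN)

end Cfsg.Agent.S1228
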