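import Cfsg.Statements.S1229
import Cfsg.Agent.Lib.Helper9.EAC2
import Cfsg.Agent.S1228

set_option autoImplicit false
open Cfsg

namespace Cfsg.Agent.S1229

open Cfsg.Agent.Lib.Helper9

section
variable {G : Type*} [Group G] [Finite G] (T : Sylow 2 G)

local notation "𝓗" => Subgroup.normalizer ((T : Subgroup G) : Set G)

/-- `T` is transitive on the points other than the base point. -/
theorem trans0 (hnc : ¬ IsCyclic (T : Subgroup G)) (hnn : ¬ (T : Subgroup G).Normal) (hC : EACHyp G)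
    (y w : G ⧸ 𝓗) (hy : y ≠ QuotientGroup.mk 1) (hw : w ≠ QuotientGroup.mk 1) :
    ∃ t ∈ T, t • y = w := by
  have hH := eac_stronglyEmbedded hC T hnc hnn
  have hT := eac_ne_bot T hnc
  obtain ⟨x₀, hx₀⟩ : ∃ x₀ : G ⧸ 𝓗, x₀ = QuotientGroup.mk 1 := ⟨_, rfl⟩
  rw [← hx₀] at hy hw
  have hfixN : ∀ g : G, g • x₀ = x₀ ↔ g ∈ 𝓗 := by
    intro g; rw [hx₀]; exact smul_mk_one_eq_iff g
  obtain ⟨u', hu', hux', -⟩ := se_swap hH (Ne.symm hw)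
  obtain ⟨hcard, -⟩ := eac_count T hC hH (Ne.symm hw) hu' hux'
  -- a nontrivial element d' fixing x₀ and w
  have hex : ∃ d' : G, d' • x₀ = x₀ ∧ d' • w = w ∧ d' ≠ 1 := by
    rw [eac_card_invol T hC] at hcard
    have h2 := Cfsg.Agent.S1228.card_ge_four T hnc
    have h3 : 1 < Nat.card ↥(MulAction.stabilizer G x₀ ⊓ MulAction.stabilizer G w) := by omega
    have h4 := (Subgroup.one_lt_card_iff_ne_bot _).1 h3
    obtain ⟨d, hd⟩ := Subgroup.ne_bot_iff_exists_ne_one.1 h4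
    exact ⟨d.1, (Subgroup.mem_inf.1 d.2).1, (Subgroup.mem_inf.1 d.2).2, fun h => hd (Subtype.ext h)⟩
  obtain ⟨d', hd'x, hd'w, hd'1⟩ := hex
  have hd'odd := se_odd_of_fix_two hH (Ne.symm hw) hd'x hd'w
  obtain ⟨t₀, ht₀T, ht₀, -⟩ := eac_exists_central T hT
  have ht₀N : t₀ ∈ 𝓗 := Subgroup.le_normalizer ht₀T
  have hd'N : d' ∈ 𝓗 := (hfixN d').1 hd'x
  have h1 : orderOf (d' * t₀ * d'⁻¹) = 2 := by rw [orderOf_conj_eq]; exact ht₀
  have h2 : (d' * t₀ * d'⁻¹) • x₀ = x₀ :=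
    (hfixN _).2 (Subgroup.mul_mem _ (Subgroup.mul_mem _ hd'N ht₀N) (Subgroup.inv_mem _ hd'N))
  have h3 : t₀ • x₀ = x₀ := (hfixN _).2 ht₀N
  obtain ⟨d, hdx, hdy, hd⟩ := se_trans hH (Ne.symm hy) ht₀ h1 h3 h2
  have hdN : d ∈ 𝓗 := (hfixN d).1 hdx
  have hc : d⁻¹ * d' ∈ (T : Subgroup G) := by
    rw [← eac_centralizer hC T ht₀T (ne_one_of_orderOf_two ht₀), Subgroup.mem_centralizer_singleton_iff]
    calc d⁻¹ * d' * t₀ = d⁻¹ * (d' * t₀ * d'⁻¹) * d' := by simp [mul_assoc]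
      _ = d⁻¹ * (d * t₀ * d⁻¹) * d' := by rw [hd]
      _ = t₀ * (d⁻¹ * d') := by simp [mul_assoc]
  have hd1 : d ≠ 1 := by
    rintro rfl
    apply hd'1
    have h4 : d' ∈ (T : Subgroup G) := by simpa using hc
    exact eq_one_of_odd_of_pow_two_pow hd'odd (k := 1) (by rw [pow_one, pow_two]; exact eac_sq hC T hT _ h4)
  have hnormT : ∀ τ ∈ (T : Subgroup G), d⁻¹ * τ * d ∈ (T : Subgroup G) := by
    intro τ hτ
    have := (Subgroup.mem_normalizer_iff.1 (Subgroup.inv_mem _ hdN) τ).1 hτ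
    simpa using this
  let φ : ↥(T : Subgroup G) → ↥(T : Subgroup G) := fun τ =>
    ⟨d⁻¹ * τ.1 * d * τ.1⁻¹, Subgroup.mul_mem _ (hnormT _ τ.2) (Subgroup.inv_mem _ τ.2)⟩
  have hφ : Function.Injective φ := by
    intro τ σ h
    have h4 : d⁻¹ * τ.1 * d * τ.1⁻¹ = d⁻¹ * σ.1 * d * σ.1⁻¹ := congrArg Subtype.val h
    by_contra hne
    have hs : σ.1⁻¹ * τ.1 ∈ (T : Subgroup G) := Subgroup.mul_mem _ (Subgroup.inv_mem _ σ.2) τ.2
    have hs1 : σ.1⁻¹ * τ.1 ≠ 1 := by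
      intro h5
      exact hne (Subtype.ext (inv_mul_eq_one.1 h5).symm)
    have hso := eac_orderOf hC T hs hs1
    apply hd1
    apply eac_free T hC hH (Ne.symm hy) hso hdx hdy
    -- d commutes with σ⁻¹ τ
    have h5 : d⁻¹ * (σ.1⁻¹ * τ.1) * d = σ.1⁻¹ * τ.1 := by
      have h6 : (d⁻¹ * σ.1 * d)⁻¹ * (d⁻¹ * τ.1 * d) = σ.1⁻¹ * τ.1 := by
        have h7 : d⁻¹ * τ.1 * d = d⁻¹ * σ.1 * d * σ.1⁻¹ * τ.1 := by
          rw [← h4]; simp
        rw [h7]; simp [mul_assoc]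
      calc d⁻¹ * (σ.1⁻¹ * τ.1) * d = (d⁻¹ * σ.1 * d)⁻¹ * (d⁻¹ * τ.1 * d) := by simp [mul_assoc]
        _ = σ.1⁻¹ * τ.1 := h6
    calc d * (σ.1⁻¹ * τ.1) = d * (d⁻¹ * (σ.1⁻¹ * τ.1) * d) := by rw [h5]
      _ = σ.1⁻¹ * τ.1 * d := by simp [mul_assoc]
  have hφs : Function.Surjective φ := Finite.injective_iff_surjective.1 hφ
  obtain ⟨τ, hτ⟩ := hφs ⟨d⁻¹ * d', hc⟩
  have hτ' : d⁻¹ * τ.1 * d * τ.1⁻¹ = d⁻¹ * d' := congrArg Subtype.val hτ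
  have hconj : τ.1 * d * τ.1⁻¹ = d' := by
    have : d * (d⁻¹ * τ.1 * d * τ.1⁻¹) = d * (d⁻¹ * d') := by rw [hτ']
    simpa [mul_assoc] using this
  refine ⟨τ.1, τ.2, ?_⟩
  have hτx : τ.1 • x₀ = x₀ := (hfixN _).2 (Subgroup.le_normalizer τ.2)
  have hfix : d' • (τ.1 • y) = τ.1 • y := by
    rw [← hconj, ← mul_smul]
    simp only [inv_mul_cancel_right]
    rw [mul_smul, hdy]
  by_contra hne
  apply hd'1
  have hne2 : x₀ ≠ τ.1 • y := by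
    intro h
    rw [← hτx] at h
    exact hy (MulAction.injective τ.1 h).symm
  exact eac_three T hC hT hH (Ne.symm hw) hne2 (Ne.symm hne) hd'x hd'w hfix

/-- involutions fixing `x` are transitive on the other points -/
theorem trans1 (hnc : ¬ IsCyclic (T : Subgroup G)) (hnn : ¬ (T : Subgroup G).Normal) (hC : EACHyp G)
    (x y w : G ⧸ 𝓗) (hy : y ≠ x) (hw : w ≠ x) (hyw : y ≠ w) :
    ∃ τ : G, orderOf τ = 2 ∧ τ • x = x ∧ τ • y = w := by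
  obtain ⟨a, ha⟩ := MulAction.exists_smul_eq G (QuotientGroup.mk 1 : G ⧸ 𝓗) x
  have hy' : a⁻¹ • y ≠ QuotientGroup.mk 1 := by
    intro h; apply hy; rw [← ha, ← h, smul_inv_smul]
  have hw' : a⁻¹ • w ≠ QuotientGroup.mk 1 := by
    intro h; apply hw; rw [← ha, ← h, smul_inv_smul]
  obtain ⟨t, htT, ht⟩ := trans0 T hnc hnn hC _ _ hy' hw'
  have ht1 : t ≠ 1 := by
    rintro rfl
    rw [one_smul] at ht
    exact hyw (MulAction.injective a⁻¹ ht)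
  refine ⟨a * t * a⁻¹, by rw [orderOf_conj_eq]; exact eac_orderOf hC T htT ht1, ?_, ?_⟩
  · rw [← ha, mul_smul, mul_smul, inv_smul_smul,
      (smul_mk_one_eq_iff t).2 (Subgroup.le_normalizer htT)]
  · rw [mul_smul, mul_smul, ht, smul_inv_smul]

theorem trans2 (hnc : ¬ IsCyclic (T : Subgroup G)) (hnn : ¬ (T : Subgroup G).Normal) (hC : EACHyp G)
    (x y w w' : G ⧸ 𝓗) (hxy : x ≠ y) (hwx : w ≠ x) (hwy : w ≠ y) (hwx' : w' ≠ x) (hwy' : w' ≠ y) :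
    ∃ g : G, g • x = x ∧ g • y = y ∧ g • w = w' := by
  have hH := eac_stronglyEmbedded hC T hnc hnn
  obtain ⟨τ, hτ, hτx, hτy⟩ := trans1 T hnc hnn hC x y w (Ne.symm hxy) hwx (Ne.symm hwy)
  obtain ⟨τ', hτ', hτx', hτy'⟩ := trans1 T hnc hnn hC x y w' (Ne.symm hxy) hwx' (Ne.symm hwy')
  obtain ⟨d, hdx, hdy, hd⟩ := se_trans hH hxy hτ hτ' hτx hτx'
  refine ⟨d, hdx, hdy, ?_⟩
  have : d * τ = τ' * d := by rw [← hd]; simp
  rw [← hτy, ← mul_smul, this, mul_smul, hdy, hτy']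

end


/-- Let G be a finite group with a Sylow 2-subgroup T that is neither cyclic nor normal, such that the centralizer of every involution is an elementary abelian 2-group; put H = N_G(T) and X = G/H. Then G is triply transitive on X, an element fixing three distinct points of X is the identity, and T acts regularly on X minus the point H. -/
theorem result {G : Type*} [Group G] [Finite G] (T : Sylow 2 G) (hnc : ¬ IsCyclic (T : Subgroup G)) (hnn : ¬ (T : Subgroup G).Normal) (hC : ∀ t : G, orderOf t = 2 → IsMulCommutative (Subgroup.centralizer ({t} : Set G)) ∧ ∀ c ∈ Subgroup.centralizer ({t} : Set G), c ^ 2 = 1) : (∀ x₁ x₂ x₃ y₁ y₂ y₃ : G ⧸ Subgroup.normalizer ((T : Subgroup G) : Set G), x₁ ≠ x₂ → x₁ ≠ x₃ → x₂ ≠ x₃ → y₁ ≠ y₂ → y₁ ≠ y₃ → y₂ ≠ y₃ → ∃ g : G, g • x₁ = y₁ ∧ g • x₂ = y₂ ∧ g • x₃ = y₃) ∧ (∀ g : G, ∀ x₁ x₂ x₃ : G ⧸ Subgroup.normalizer ((T : Subgroup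 G) : Set G), x₁ ≠ x₂ → x₁ ≠ x₃ → x₂ ≠ x₃ → g • x₁ = x₁ → g • x₂ = x₂ → g • x₃ = x₃ → g = 1) ∧ (∀ x y : G ⧸ Subgroup.normalizer ((T : Subgroup G) : Set G), x ≠ QuotientGroup.mk 1 → y ≠ QuotientGroup.mk 1 → ∃! t : G, t ∈ T ∧ t • x = y) := by
  have hH := Cfsg.Agent.Lib.Helper9.eac_stronglyEmbedded hC T hnc hnn
  have hT := Cfsg.Agent.Lib.Helper9.eac_ne_bot T hnc
  refine ⟨?_, ?_, ?_⟩
  · intro x₁ x₂ x₃ y₁ y₂ y₃ hx12 hx13 hx23 hy12 hy13 hy23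
    obtain ⟨g₁, hg₁⟩ := MulAction.exists_smul_eq G x₁ y₁
    have h2 : g₁ • x₂ ≠ y₁ := by
      rw [← hg₁]; intro h; exact hx12 (MulAction.injective g₁ h).symm
    have hex2 : ∃ g₂ : G, g₂ • y₁ = y₁ ∧ g₂ • (g₁ • x₂) = y₂ := by
      by_cases h : g₁ • x₂ = y₂
      · exact ⟨1, one_smul _ _, by rw [one_smul]; exact h⟩
      · obtain ⟨τ, -, h3, h4⟩ := trans1 T hnc hnn hC y₁ (g₁ • x₂) y₂ h2 (Ne.symm hy12) h
        exact ⟨τ, h3, h4⟩
    obtain ⟨g₂, hg₂1, hg₂2⟩ := hex2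
    have h31 : g₂ • g₁ • x₃ ≠ y₁ := by
      intro h
      rw [← hg₂1, ← hg₁] at h
      exact hx13 (MulAction.injective g₁ (MulAction.injective g₂ h)).symm
    have h32 : g₂ • g₁ • x₃ ≠ y₂ := by
      intro h
      rw [← hg₂2] at h
      exact hx23 (MulAction.injective g₁ (MulAction.injective g₂ h)).symm
    obtain ⟨g₃, hg₃1, hg₃2, hg₃3⟩ := trans2 T hnc hnn hC y₁ y₂ (g₂ • g₁ • x₃) y₃ hy12 h31 h32
      (Ne.symm hy13) (Ne.symm hy23)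
    refine ⟨g₃ * g₂ * g₁, ?_, ?_, ?_⟩
    · rw [mul_smul, mul_smul, hg₁, hg₂1, hg₃1]
    · rw [mul_smul, mul_smul, hg₂2, hg₃2]
    · rw [mul_smul, mul_smul, hg₃3]
  · intro g x₁ x₂ x₃ h12 h13 h23 h1 h2 h3
    exact Cfsg.Agent.Lib.Helper9.eac_three T hC hT hH h12 h13 h23 h1 h2 h3
  · intro x y hx hy
    obtain ⟨t, htT, ht⟩ := trans0 T hnc hnn hC x y hx hy
    refine ⟨t, ⟨htT, ht⟩, ?_⟩
    rintro t' ⟨ht'T, ht'⟩
    by_contra hne
    have hs : t⁻¹ * t' ∈ (T : Subgroup G) := Subgroup.mul_mem _ (Subgroup.inv_mem _ htT) ht'T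
    have hs1 : t⁻¹ * t' ≠ 1 := fun h => hne (inv_mul_eq_one.1 h).symm
    have hso := Cfsg.Agent.Lib.Helper9.eac_orderOf hC T hs hs1
    have h1 : (t⁻¹ * t') • x = x := by rw [mul_smul, ht', ← ht, inv_smul_smul]
    have h2 : (t⁻¹ * t') • (QuotientGroup.mk 1 : G ⧸ Subgroup.normalizer ((T : Subgroup G) : Set G))
        = QuotientGroup.mk 1 :=
      (Cfsg.Agent.Lib.Helper9.smul_mk_one_eq_iff _).2 (Subgroup.le_normalizer hs)
    exact hx (Cfsg.Agent.Lib.Helper9.se_fix_unique hH hso h1 h2)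

end Cfsg.Agent.S1229
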