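import Cfsg.Statements.S1231
import Cfsg.Agent.Lib.Helper26.SylIn
import Cfsg.Agent.Lib.Helper9.Basic

set_option autoImplicit false
open Cfsg

namespace Cfsg.Agent.S1231

open Cfsg.Agent.Lib.Helper26

variable {G : Type*} [Group G]

def Big (p k : ℕ) (X : Subgroup G) : Prop :=
  ∃ A : Subgroup G, A ≤ X ∧ IsMulCommutative A ∧ (∀ a ∈ A, a ^ p = 1) ∧ p ^ k < Nat.card A

theorem big_of_inj {K : Type*} [Group K] {p k : ℕ} (h : ¬ PRankLE p k K) (f : K →* G)
    (hf : Function.Injective f) (X : Subgroup G) (hX : f.range ≤ X) : Big p k X := by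
  unfold PRankLE at h
  push Not at h
  obtain ⟨A, hc, hp, hcard⟩ := h
  refine ⟨A.map f, ?_, ?_, ?_, ?_⟩
  · exact (Subgroup.map_le_range f A).trans hX
  · exact Subgroup.map_isMulCommutative A f
  · rintro _ ⟨a, ha, rfl⟩
    rw [← map_pow, hp a ha, map_one]
  · rw [Subgroup.card_map_of_injective hf]; exact hcard

theorem big_of_not {p k : ℕ} {X : Subgroup G} (h : ¬ PRankLE p k ↥X) : Big p k X :=
  big_of_inj h X.subtype X.subtype_injective X (by simp)

theorem not_of_big {p k : ℕ} {X : Subgroup G} (h : Big p k X) : ¬ PRankLE p k ↥X := by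
  obtain ⟨A, hAX, hc, hp, hcard⟩ := h
  intro hle
  have := hle (A.subgroupOf X) inferInstance
    (fun a ha => Subtype.ext (by simpa using hp a (Subgroup.mem_subgroupOf.1 ha)))
  rw [Nat.card_congr (Subgroup.subgroupOfEquivOfLe hAX).toEquiv] at this
  omega

theorem Big.mono {p k : ℕ} {X Y : Subgroup G} (h : Big p k X) (hXY : X ≤ Y) : Big p k Y := by
  obtain ⟨A, hAX, hc, hp, hcard⟩ := h
  exact ⟨A, hAX.trans hXY, hc, hp, hcard⟩

theorem Big.cj {p k : ℕ} {X : Subgroup G} (h : Big p k X) (g : G) : Big p k (cj g X) := by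
  obtain ⟨A, hAX, hc, hp, hcard⟩ := h
  refine ⟨Cfsg.Agent.Lib.Helper26.cj g A, cj_mono hAX, Subgroup.map_isMulCommutative A _, ?_, ?_⟩
  · rintro _ ⟨a, ha, rfl⟩
    rw [← map_pow, hp a ha, map_one]
  · rw [card_cj]; exact hcard

theorem cj_of_mem {H : Subgroup G} {h : G} (hh : h ∈ H) : cj h H = H := by
  ext x
  rw [mem_cj]
  constructor
  · intro hx
    have : x = h * (h⁻¹ * x * h) * h⁻¹ := by group
    rw [this]
    exact H.mul_mem (H.mul_mem hh hx) (H.inv_mem hh)
  · intro hx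
    exact H.mul_mem (H.mul_mem (H.inv_mem hh) hx) hh

theorem le_cj_iff {A B : Subgroup G} {g : G} : A ≤ cj g B ↔ cj g⁻¹ A ≤ B := by
  constructor
  · intro h
    have := cj_mono (g := g⁻¹) h
    rwa [cj_inv_cj] at this
  · intro h
    have := cj_mono (g := g) h
    rwa [cj_cj_inv] at this

/-- normalizer growth: a `p`-subgroup `U` maximal among the `p`-subgroups of `I ≥ N(U)` is maximal. -/
theorem max_of_normalizer_le [Finite G] {p : ℕ} [Fact p.Prime] {U I : Subgroup G}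
    (hmax : ∀ Q : Subgroup G, IsPGroup p Q → U ≤ Q → Q ≤ I → Q = U)
    (hN : Subgroup.normalizer (U : Set G) ≤ I) :
    ∀ Q : Subgroup G, IsPGroup p Q → U ≤ Q → Q = U := by
  intro Q hQ hUQ
  by_contra hne
  have hnil : Group.IsNilpotent Q := hQ.isNilpotent
  have hnc := Group.normalizerCondition_of_isNilpotent (G := Q)
  have hlt : U.subgroupOf Q < ⊤ := by
    rw [lt_top_iff_ne_top]
    intro h
    rw [Subgroup.subgroupOf_eq_top] at h
    exact hne (le_antisymm h hUQ)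
  have h2 := hnc _ hlt
  obtain ⟨x, hx, hxU⟩ := SetLike.exists_of_lt h2
  have hxN : (x : G) ∈ Subgroup.normalizer (U : Set G) := by
    rw [Subgroup.mem_normalizer_iff] at hx ⊢
    intro y
    constructor
    · intro hy
      have := (hx ⟨y, hUQ hy⟩).1 (Subgroup.mem_subgroupOf.2 hy)
      exact Subgroup.mem_subgroupOf.1 this
    · intro hy
      have hyQ : y ∈ Q := by
        have : y = (x:G)⁻¹ * ((x:G) * y * (x:G)⁻¹) * x := by group
        rw [this]
        exact Q.mul_mem (Q.mul_mem (Q.inv_mem x.2) (hUQ hy)) x.2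
      have := (hx ⟨y, hyQ⟩).2 (Subgroup.mem_subgroupOf.2 hy)
      exact Subgroup.mem_subgroupOf.1 this
  have hle : U ⊔ Subgroup.zpowers (x : G) ≤ Q :=
    sup_le hUQ (by rw [Subgroup.zpowers_le]; exact x.2)
  have h3 := hmax (U ⊔ Subgroup.zpowers (x : G)) (hQ.to_le hle) le_sup_left
    (sup_le (Subgroup.le_normalizer.trans hN) (by rw [Subgroup.zpowers_le]; exact hN hxN))
  apply hxU
  rw [Subgroup.mem_subgroupOf, ← h3]
  exact (le_sup_right : Subgroup.zpowers (x : G) ≤ _) (Subgroup.mem_zpowers _)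

theorem eq_of_max {p : ℕ} {U P0 : Subgroup G}
    (hmax : ∀ Q : Subgroup G, IsPGroup p Q → U ≤ Q → Q = U) (hP0 : IsPGroup p P0) {x : G}
    (h : cj x U ≤ P0) : cj x U = P0 := by
  have h1 : U ≤ cj x⁻¹ P0 := by
    rw [le_cj_iff, inv_inv]; exact h
  have h2 := hmax _ (hP0.map _) h1
  rw [← h2, cj_cj_inv]

/-- Let H be a subgroup of the finite group G, p a prime, k ≥ 1, and P a Sylow p-subgroup of H whose p-rank is at least k. Then N_G(X) ≤ H for every subgroup X of P of p-rank at least k if and only if H ∩ gHg⁻¹ has p-rank less than k for every g ∉ H. -/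
theorem result {G : Type*} [Group G] [Finite G] {p : ℕ} [Fact p.Prime] (k : ℕ) (hk : 1 ≤ k) (H : Subgroup G) (P : Sylow p ↥H) (hP : ¬ Cfsg.PRankLE p (k - 1) ↥(P : Subgroup ↥H)) : (∀ X : Subgroup G, X ≤ (P : Subgroup ↥H).map H.subtype → ¬ Cfsg.PRankLE p (k - 1) ↥X → Subgroup.normalizer (X : Set G) ≤ H) ↔ (∀ g : G, g ∉ H → Cfsg.PRankLE p (k - 1) ↥(H ⊓ H.map (MulAut.conj g).toMonoidHom)) := by
  have hP0H : (P : Subgroup ↥H).map H.subtype ≤ H := Subgroup.map_subtype_le _
  obtain ⟨P0, hP0def⟩ : ∃ P0 : Subgroup G, P0 = (P : Subgroup ↥H).map H.subtype := ⟨_, rfl⟩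
  rw [← hP0def] at hP0H ⊢
  have hP0big : Big p (k - 1) P0 := by
    refine big_of_inj hP (H.subtype.comp (P : Subgroup ↥H).subtype)
      (H.subtype_injective.comp (P : Subgroup ↥H).subtype_injective) P0 ?_
    rintro _ ⟨x, rfl⟩
    rw [hP0def]
    exact ⟨x.1, x.2, rfl⟩
  have hP0p : IsPGroup p P0 := by
    rw [hP0def]; exact P.isPGroup'.map _
  have hSyl : SylIn p P0 H := by
    refine ⟨P, ?_⟩
    rw [hP0def]
    ext x
    rw [Subgroup.mem_subgroupOf]
    constructor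
    · intro hx; exact ⟨x, hx, rfl⟩
    · rintro ⟨y, hy, hxy⟩
      have : y = x := Subtype.ext hxy
      rw [← this]; exact hy
  constructor
  · intro hyp g hg
    by_contra hbig
    have hbig := big_of_not hbig
    change Big p (k-1) (H ⊓ cj g H) at hbig
    -- step 1
    have s1 : ∀ X : Subgroup G, X ≤ H → IsPGroup p X → Big p (k-1) X →
        Subgroup.normalizer (X : Set G) ≤ H := by
      intro X hXH hXp hXb
      obtain ⟨h, hh, hle⟩ := hSyl.exists_conj_le hXH hXp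
      have := hyp (cj h X) hle (not_of_big (hXb.cj h))
      rw [normalizer_cj] at this
      have h2 : Subgroup.normalizer (X : Set G) ≤ cj h⁻¹ H := by
        rw [le_cj_iff, inv_inv]; exact this
      rwa [cj_of_mem (H.inv_mem hh)] at h2
    have s2 : ∀ X : Subgroup G, X ≤ cj g H → IsPGroup p X → Big p (k-1) X →
        Subgroup.normalizer (X : Set G) ≤ cj g H := by
      intro X hXH hXp hXb
      have := s1 (cj g⁻¹ X) (le_cj_iff.1 hXH) (hXp.map _) (hXb.cj _)
      rw [normalizer_cj, ← le_cj_iff] at this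
      exact this
    obtain ⟨A, hAI, hAc, hAp, hAcard⟩ := hbig
    have hApg : IsPGroup p A := by
      intro a
      exact ⟨1, by rw [pow_one]; exact Subtype.ext (by simpa using hAp a a.2)⟩
    -- maximal p-subgroup of I containing A
    obtain ⟨U, ⟨hUp, hAU, hUI⟩, hUmax⟩ : ∃ U : Subgroup G,
        (IsPGroup p U ∧ A ≤ U ∧ U ≤ H ⊓ cj g H) ∧
        ∀ Q : Subgroup G, (IsPGroup p Q ∧ A ≤ Q ∧ Q ≤ H ⊓ cj g H) → U ≤ Q → Q = U := by
      have hfin : {U : Subgroup G | IsPGroup p U ∧ A ≤ U ∧ U ≤ H ⊓ cj g H}.Finite :=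
        Set.toFinite _
      obtain ⟨U, hU, hmax⟩ := hfin.exists_maximal ⟨A, hApg, le_rfl, hAI⟩
      exact ⟨U, hU, fun Q hQ hUQ => le_antisymm (hmax hQ hUQ) hUQ⟩
    have hUb : Big p (k-1) U := ⟨A, hAU, hAc, hAp, hAcard⟩
    have hNH := s1 U (hUI.trans inf_le_left) hUp hUb
    have hNHg := s2 U (hUI.trans inf_le_right) hUp hUb
    have hmax := max_of_normalizer_le (p := p) (U := U) (I := H ⊓ cj g H)
      (fun Q hQ hUQ hQI => hUmax Q ⟨hQ, hAU.trans hUQ, hQI⟩ hUQ) (le_inf hNH hNHg)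
    obtain ⟨h, hh, hle⟩ := hSyl.exists_conj_le (hUI.trans inf_le_left) hUp
    obtain ⟨h', hh', hle'⟩ := hSyl.exists_conj_le (le_cj_iff.1 (hUI.trans inf_le_right))
      (hUp.map _)
    rw [cj_cj] at hle'
    have e1 := eq_of_max hmax hP0p hle
    have e2 := eq_of_max hmax hP0p hle'
    have e3 : cj (h⁻¹ * (h' * g⁻¹)) U = U := by
      rw [← cj_cj, e2, ← e1, cj_inv_cj]
    have e4 : h⁻¹ * (h' * g⁻¹) ∈ H :=
      hNH ((Cfsg.Agent.Lib.Helper9.map_conj_eq_iff_mem_normalizer U _).1 e3)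
    apply hg
    have : g = (h'⁻¹ * (h * (h⁻¹ * (h' * g⁻¹))))⁻¹ := by group
    rw [this]
    exact H.inv_mem (H.mul_mem (H.inv_mem hh') (H.mul_mem hh e4))
  · intro hyp X hXP hXb g hgN
    by_contra hg
    apply not_of_big _ (hyp g hg)
    have hXb := big_of_not hXb
    apply hXb.mono
    refine le_inf (hXP.trans hP0H) ?_
    have := (Cfsg.Agent.Lib.Helper9.map_conj_eq_iff_mem_normalizer X g).2 hgN
    rw [← this]
    exact Subgroup.map_mono (hXP.trans hP0H)

end Cfsg.Agent.S1231
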