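import Cfsg.Statements.S1236
import Cfsg.Agent.Lib.Helper9.QD
import Mathlib

set_option autoImplicit false
open Cfsg

namespace Cfsg.Agent.S1236

open Subgroup

theorem exists_notMem {D : Type*} [Group D] [Finite D] (V : Subgroup D) (s : Finset D)
    (h : s.card < Nat.card V) : ∃ v ∈ V, v ∉ s := by
  by_contra hcon
  push Not at hcon
  have h0 : (V : Set D) ⊆ (s : Set D) := fun v hv => hcon v hv
  have h1 : Nat.card V ≤ s.card := by
    have := Set.ncard_le_ncard h0 (Finset.finite_toSet s)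
    rw [Set.ncard_coe_finset] at this
    exact this
  omega

def SCF (D : Type*) [Group D] : Prop :=
  ∀ V : Subgroup D, (∀ v ∈ V, v * v = 1) → Nat.card V = 4 → centralizer (V : Set D) ≤ V

theorem scf_of {D : Type*} [Group D] [Finite D] (C : D → Prop)
    (hidx : ∀ u v, ¬ C u → ¬ C v → C (u * v))
    (hfix : ∀ u c, ¬ C u → C c → u * c = c * u → c * c = 1)
    (huniq : ∀ c w, C c → C w → c * c = 1 → w * w = 1 → c ≠ 1 → w ≠ 1 → c = w) : SCF D := by
  classical
  intro V hV2 hV4
  have h1 : ∃ u ∈ V, ¬ C u := by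
    by_contra hcon
    push Not at hcon
    obtain ⟨v1, hv1, hn1⟩ := exists_notMem V {1} (by rw [hV4]; simp)
    obtain ⟨v2, hv2, hn2⟩ := exists_notMem V {1, v1} (by
      rw [hV4]; exact lt_of_le_of_lt (Finset.card_le_two) (by norm_num))
    simp only [Finset.mem_singleton, Finset.mem_insert, not_or] at hn1 hn2
    exact hn2.2 (huniq v2 v1 (hcon _ hv2) (hcon _ hv1) (hV2 _ hv2) (hV2 _ hv1) hn2.1 hn1)
  obtain ⟨u, hu, hCu⟩ := h1
  have h2 : ∃ w ∈ V, C w ∧ w ≠ 1 := by
    obtain ⟨v, hv, hn⟩ := exists_notMem V {1, u} (by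
      rw [hV4]; exact lt_of_le_of_lt (Finset.card_le_two) (by norm_num))
    simp only [Finset.mem_singleton, Finset.mem_insert, not_or] at hn
    by_cases hCv : C v
    · exact ⟨v, hv, hCv, hn.1⟩
    · refine ⟨v * u, mul_mem hv hu, hidx _ _ hCv hCu, ?_⟩
      intro h
      apply hn.2
      calc v = v * (u * u) := by rw [hV2 u hu, mul_one]
        _ = (v * u) * u := by group
        _ = u := by rw [h, one_mul]
  obtain ⟨w, hw, hCw, hw1⟩ := h2
  intro z hz
  have hzu : u * z = z * u := mem_centralizer_iff.mp hz u hu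
  by_cases hCz : C z
  · have h3 := hfix u z hCu hCz hzu
    by_cases hz1 : z = 1
    · rw [hz1]; exact one_mem _
    · rw [huniq z w hCz hCw h3 (hV2 w hw) hz1 hw1]; exact hw
  · have hC := hidx z u hCz hCu
    have h3 := hfix u (z * u) hCu hC (by rw [← mul_assoc, hzu])
    have hzz : z = (z * u) * u := by
      calc z = z * (u * u) := by rw [hV2 u hu, mul_one]
        _ = _ := by group
    by_cases hz1 : z * u = 1
    · rw [hzz, hz1, one_mul]; exact hu
    · rw [hzz, huniq (z * u) w hC hCw h3 (hV2 w hw) hz1 hw1]; exact mul_mem hw hu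

theorem scf_equiv {D D' : Type*} [Group D] [Group D'] (e : D' ≃* D) (h : SCF D) : SCF D' := by
  intro V hV2 hV4 z hz
  have h1 := h (V.map e.toMonoidHom) (by
    rintro _ ⟨v, hv, rfl⟩
    show e v * e v = 1
    rw [← map_mul, hV2 v hv, map_one]) (by
    rw [card_map_of_injective e.injective, hV4])
  have h2 : e z ∈ centralizer ((V.map e.toMonoidHom : Subgroup D) : Set D) := by
    rw [mem_centralizer_iff]
    rintro _ ⟨v, hv, rfl⟩
    show e v * e z = e z * e v
    rw [← map_mul, ← map_mul, mem_centralizer_iff.mp hz v hv]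
  obtain ⟨v, hv, hvz⟩ := h1 h2
  have : v = z := e.injective hvz
  rw [← this]; exact hv

theorem zmod_uniq {N : ℕ} [NeZero N] (j k : ZMod N) (hj : j + j = 0) (hk : k + k = 0) (hj0 : j ≠ 0)
    (hk0 : k ≠ 0) : j = k := by
  have key : ∀ i : ZMod N, i + i = 0 → i ≠ 0 → i.val + i.val = N := by
    intro i hi hi0
    have hv : (i.val + i.val) % N = 0 := by
      have := congrArg ZMod.val hi
      rw [ZMod.val_add, ZMod.val_zero] at this
      exact this
    have hlt : i.val < N := ZMod.val_lt i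
    have hpos : 0 < i.val := Nat.pos_of_ne_zero (fun h => hi0 ((ZMod.val_eq_zero i).1 h))
    obtain ⟨c, hc⟩ := Nat.dvd_of_mod_eq_zero hv
    have hc2 : c < 2 := by
      by_contra hcon
      push Not at hcon
      have : N * 2 ≤ N * c := Nat.mul_le_mul_left _ hcon
      omega
    interval_cases c
    · omega
    · omega
  apply ZMod.val_injective
  have h1 := key j hj hj0
  have h2 := key k hk hk0
  omega

theorem scf_dihedral (m : ℕ) [NeZero m] : SCF (DihedralGroup m) := by
  apply scf_of (fun x => ∃ i, x = DihedralGroup.r i)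
  · intro u v hu hv
    rcases u with i | i
    · exact absurd ⟨i, rfl⟩ hu
    rcases v with j | j
    · exact absurd ⟨j, rfl⟩ hv
    exact ⟨j - i, rfl⟩
  · rintro u c hu ⟨j, rfl⟩ h
    rcases u with i | i
    · exact absurd ⟨i, rfl⟩ hu
    rw [DihedralGroup.sr_mul_r, DihedralGroup.r_mul_sr] at h
    have h1 : i + j = i - j := by injection h
    rw [DihedralGroup.r_mul_r, DihedralGroup.one_def]
    congr 1
    linear_combination h1
  · rintro c w ⟨j, rfl⟩ ⟨k, rfl⟩ hc hw hc1 hw1
    rw [DihedralGroup.r_mul_r, DihedralGroup.one_def] at hc hw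
    congr 1
    apply zmod_uniq
    · injection hc
    · injection hw
    · rintro rfl; exact hc1 rfl
    · rintro rfl; exact hw1 rfl

theorem scf_qd {S : Type*} [Group S] [Finite S] (hS : Cfsg.IsQuasiDihedral S) : SCF S := by
  obtain ⟨m, _, ⟨Q⟩⟩ := Cfsg.Agent.Lib.Helper9.exists_qdc hS
  haveI : NeZero (8 * 2 ^ m) := ⟨by positivity⟩
  have ha0 : Q.a 0 = 1 := by
    have := Q.aa 0 0
    rw [add_zero] at this
    exact mul_eq_left.mp this
  apply scf_of (fun x => ∃ i, x = Q.a i)
  · intro u v hu hv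
    rcases Q.cases u with ⟨i, rfl⟩ | ⟨i, rfl⟩
    · exact absurd ⟨i, rfl⟩ hu
    rcases Q.cases v with ⟨j, rfl⟩ | ⟨j, rfl⟩
    · exact absurd ⟨j, rfl⟩ hv
    exact ⟨_, Q.bb i j⟩
  · rintro u c hu ⟨j, rfl⟩ h
    rcases Q.cases u with ⟨i, rfl⟩ | ⟨i, rfl⟩
    · exact absurd ⟨i, rfl⟩ hu
    rw [Q.ba, Q.ab] at h
    have h1 := Q.b_inj h
    have h8 : (8 : ZMod (8 * 2 ^ m)) * ((2 ^ m : ℕ) : ZMod (8 * 2 ^ m)) = 0 := by
      have : ((8 * 2 ^ m : ℕ) : ZMod (8 * 2 ^ m)) = 0 := ZMod.natCast_self _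
      rw [Nat.cast_mul] at this
      exact_mod_cast this
    rw [Q.aa, ← ha0]
    congr 1
    have h4 : 4 * j = 0 := by
      linear_combination (-2 : ZMod (8 * 2 ^ m)) * h1 + j * h8
    linear_combination (-1 : ZMod (8 * 2 ^ m)) * h1 + ((2 ^ m : ℕ) : ZMod (8 * 2 ^ m)) * h4
  · rintro c w ⟨j, rfl⟩ ⟨k, rfl⟩ hc hw hc1 hw1
    rw [Q.aa, ← ha0] at hc hw
    congr 1
    apply zmod_uniq
    · exact Q.a_inj hc
    · exact Q.a_inj hw
    · rintro rfl; exact hc1 ha0
    · rintro rfl; exact hw1 ha0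

/-- Let R be a finite group, t a central involution of R such that R ⧸ ⟨t⟩ is dihedral (of order ≥ 4) or quasi-dihedral, and A ≤ R an elementary abelian subgroup of order 8 containing t. Then C_R(A) = A. -/
theorem result {R : Type*} [Group R] [Finite R] (t : R) (ht : orderOf t = 2) (htz : t ∈ Subgroup.center R) [(Subgroup.zpowers t).Normal] (hq : (∃ m : ℕ, 2 ≤ m ∧ Nonempty (R ⧸ Subgroup.zpowers t ≃* DihedralGroup m)) ∨ Cfsg.IsQuasiDihedral (R ⧸ Subgroup.zpowers t)) (A : Subgroup R) (hA : Cfsg.IsElementaryAbelian 2 A) (hA8 : Nat.card A = 8) (htA : t ∈ A) : Subgroup.centralizer (A : Set R) = A := by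
  classical
  have hscf : SCF (R ⧸ Subgroup.zpowers t) := by
    rcases hq with ⟨m, hm, ⟨e⟩⟩ | hq
    · haveI : NeZero m := ⟨by omega⟩
      exact scf_equiv e (scf_dihedral m)
    · exact scf_qd hq
  obtain ⟨hAc, hA2⟩ := hA
  have hZA : Subgroup.zpowers t ≤ A := by
    rw [Subgroup.zpowers_le]; exact htA
  have hcomap : (A.map (QuotientGroup.mk' (Subgroup.zpowers t))).comap (QuotientGroup.mk' (Subgroup.zpowers t)) = A := by
    rw [Subgroup.comap_map_eq, QuotientGroup.ker_mk', sup_eq_left]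
    exact hZA
  have hcard : Nat.card (A.map (QuotientGroup.mk' (Subgroup.zpowers t))) = 4 := by
    have h1 := Subgroup.index_comap_of_surjective (A.map (QuotientGroup.mk' (Subgroup.zpowers t)))
      (QuotientGroup.mk'_surjective (Subgroup.zpowers t))
    rw [hcomap] at h1
    have h2 := A.card_mul_index
    have h3 := (A.map (QuotientGroup.mk' (Subgroup.zpowers t))).card_mul_index
    have h4 := Subgroup.card_eq_card_quotient_mul_card_subgroup (Subgroup.zpowers t)
    rw [Nat.card_zpowers, ht] at h4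
    rw [hA8] at h2
    rw [← h1] at h3
    have hpos : 0 < A.index := Nat.pos_of_ne_zero (Subgroup.index_ne_zero_of_finite)
    have : Nat.card (A.map (QuotientGroup.mk' (Subgroup.zpowers t))) * A.index * 2 = 4 * A.index * 2 := by
      rw [h3, ← h4, ← h2]; ring
    have h5 : Nat.card (A.map (QuotientGroup.mk' (Subgroup.zpowers t))) * A.index = 4 * A.index := by omega
    exact Nat.eq_of_mul_eq_mul_right hpos h5
  apply le_antisymm
  · intro z hz
    have h1 := hscf (A.map (QuotientGroup.mk' (Subgroup.zpowers t))) (by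
      rintro _ ⟨a, ha, rfl⟩
      rw [← map_mul, ← sq, hA2 a ha, map_one]) hcard
    have h2 : QuotientGroup.mk' (Subgroup.zpowers t) z ∈ Subgroup.centralizer
        ((A.map (QuotientGroup.mk' (Subgroup.zpowers t)) : Subgroup _) : Set _) := by
      rw [Subgroup.mem_centralizer_iff]
      rintro _ ⟨a, ha, rfl⟩
      rw [← map_mul, ← map_mul, Subgroup.mem_centralizer_iff.mp hz a ha]
    have h3 : z ∈ (A.map (QuotientGroup.mk' (Subgroup.zpowers t))).comap (QuotientGroup.mk' (Subgroup.zpowers t)) :=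
      h1 h2
    rwa [hcomap] at h3
  · intro z hz
    rw [Subgroup.mem_centralizer_iff]
    intro a ha
    have := hAc.is_comm.comm ⟨a, ha⟩ ⟨z, hz⟩
    exact congrArg Subtype.val this

end Cfsg.Agent.S1236
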