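import Cfsg.Statements.S1239
import Cfsg.Agent.Lib.Helper9.WRF12
import Cfsg.Agent.Lib.Helper9.QDF6
import Cfsg.Agent.Lib.Helper9.ZStar
import Cfsg.Agent.Lib.Helper1.ZStarApps

set_option autoImplicit false
open Cfsg

namespace Cfsg.Agent.S1239

open Cfsg.Agent.Lib.Helper9

theorem sup_normal_of_comm {X : Type*} [Group X] (O Z : Subgroup X) (hO : O.Normal)
    (h : ∀ x ∈ Z, ∀ g : X, x * g * x⁻¹ * g⁻¹ ∈ O) : (O ⊔ Z).Normal := by
  constructor
  intro n hn g
  have h1 : (O ⊔ Z).map (MulAut.conj g).toMonoidHom ≤ O ⊔ Z := by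
    rw [Subgroup.map_sup]
    apply sup_le
    · rintro _ ⟨y, hy, rfl⟩
      exact Subgroup.mem_sup_left (hO.conj_mem y hy g)
    · rintro _ ⟨y, hy, rfl⟩
      show g * y * g⁻¹ ∈ O ⊔ Z
      have e : g * y * g⁻¹ = (y * g * y⁻¹ * g⁻¹)⁻¹ * y := by group
      rw [e]
      exact Subgroup.mul_mem_sup (O.inv_mem (h y hy g)) hy
  exact h1 (conj_mem_map_conj _ g hn)


/-- Let X be a finite group whose Sylow 2-subgroup S is quasi-dihedral or wreathed, and suppose some involution of S is isolated in X. Then the product of the largest normal odd-order subgroup O(X) with the centre of S is normal in X. -/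
theorem result {X : Type*} [Group X] [Finite X] (S : Sylow 2 X) (hS : Cfsg.IsQuasiDihedral (S : Subgroup X) ∨ Cfsg.IsWreathed (S : Subgroup X)) (z : X) (hzS : z ∈ S) (hz : Cfsg.IsIsolatedInvolution z) : (Cfsg.oddCore X ⊔ (Subgroup.center (S : Subgroup X)).map (S : Subgroup X).subtype).Normal := by
  have hwc := Cfsg.Agent.Lib.Helper1.isolated_weakly_closed z hz S hzS
  have hzc : ∀ s ∈ (S : Subgroup X), s * z = z * s := by
    intro s hs
    have h1 := hwc s (Subgroup.mul_mem _ (Subgroup.mul_mem _ hs hzS) (Subgroup.inv_mem _ hs))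
    exact comm_of_conj_eq' h1
  have hzZ : z ∈ (Subgroup.center (S : Subgroup X)).map (S : Subgroup X).subtype := by
    refine ⟨⟨z, hzS⟩, ?_, rfl⟩
    rw [SetLike.mem_coe, Subgroup.mem_center_iff]
    intro r
    exact Subtype.ext (hzc r r.2)
  have hz1 : z ≠ 1 := by
    intro h
    have := hz.1
    rw [h, orderOf_one] at this
    omega
  apply sup_normal_of_comm _ _ oddCore_normal
  rcases hS with hS | hS
  · obtain ⟨m, -, ⟨c⟩⟩ := exists_qdc hS
    haveI : NeZero (2 ^ m) := ⟨by positivity⟩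
    intro x hx g
    rw [c.mem_center_map_iff S] at hx hzZ
    have hzz : z = c.A (4 * ((2 ^ m : ℕ) : ZMod (8 * 2 ^ m))) := by
      rcases hzZ with h | h
      · exact absurd h hz1
      · exact h
    rcases hx with rfl | rfl
    · simp
    · rw [← hzz]; exact iso_zstar hz g
  · obtain ⟨m, -, ⟨c⟩⟩ := exists_wrc hS
    haveI : NeZero (2 ^ (m + 1)) := ⟨by positivity⟩
    have hη : 2 * ((2 ^ m : ℕ) : ZMod (2 * 2 ^ (m + 1))) =
        ((2 ^ (m + 1) : ℕ) : ZMod (2 * 2 ^ (m + 1))) := by push_cast; ring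
    rw [c.GZ_eq] at hzZ ⊢
    have hzz : z = c.gu ((2 ^ (m + 1) : ℕ) : ZMod (2 * 2 ^ (m + 1)))
        ((2 ^ (m + 1) : ℕ) : ZMod (2 * 2 ^ (m + 1))) :=
      c.GZ_invol hzZ hz1 ((orderOf_eq_two_iff' z).1 hz.1).2
    have hUF : c.UFix S := by
      intro n hn
      rw [← hzz]
      apply hwc
      rw [hzz]
      exact c.GU_le ((Subgroup.mem_normalizer_iff.mp hn _).mp (c.gu_mem_GU _ _))
    apply gen_zstar S c.GZ c.GZ_le
    · rintro _ ⟨k, rfl⟩ s hs
      exact (c.gdiag_central k hs).symm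
    · intro x hx g hg
      have h2 := c.central_rigid S hη 0 hUF (x := x) (g := g⁻¹) (c.GZ_le hx)
        (by rw [inv_inv]; exact hg) (Or.inl hx)
      rw [inv_inv] at h2
      exact h2.symm

end Cfsg.Agent.S1239
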