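import Cfsg.Statements.S1241
import Cfsg.Agent.Lib.Helper9.Transfer

set_option autoImplicit false
open Cfsg

namespace Cfsg.Agent.S1241

/-- Let G be a finite group, p a prime, H a subgroup of index prime to p, K a subgroup of H normal in H with H/K commutative, and g ∈ H ∖ K an element of p-power order such that for all integers m and all a ∈ G with a g^m a⁻¹ ∈ H one has a g^m a⁻¹ ∈ g^m K. Then g ∉ G'. -/
theorem result {G : Type*} [Group G] [Finite G] {p : ℕ} [Fact p.Prime] (H K : Subgroup G) (hHK : K ≤ H) (hKn : (K.subgroupOf H).Normal) (hab : ∀ x ∈ H, ∀ y ∈ H, x * y * x⁻¹ * y⁻¹ ∈ K) (hidx : Nat.Coprime p H.index) (g : G) (hgH : g ∈ H) (hgK : g ∉ K) (hgp : ∃ k : ℕ, orderOf g = p ^ k) (hctrl : ∀ (m : ℤ) (a : G), a * g ^ m * a⁻¹ ∈ H → (a * g ^ m * a⁻¹) * (g ^ m)⁻¹ ∈ K) : g ∉ commutator G := by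
  haveI := hKn
  letI cg : CommGroup (H ⧸ K.subgroupOf H) :=
    { (inferInstance : Group (H ⧸ K.subgroupOf H)) with
      mul_comm := by
        intro a b
        induction a using QuotientGroup.induction_on with
        | H x =>
        induction b using QuotientGroup.induction_on with
        | H y =>
        rw [← QuotientGroup.mk_mul, ← QuotientGroup.mk_mul, QuotientGroup.eq,
          Subgroup.mem_subgroupOf]
        have := hab (y : G)⁻¹ (H.inv_mem y.2) (x : G)⁻¹ (H.inv_mem x.2)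
        simpa [mul_assoc] using this }
  let ϕ : H →* (H ⧸ K.subgroupOf H) := QuotientGroup.mk' (K.subgroupOf H)
  have hV : MonoidHom.transfer ϕ g = ϕ ⟨g, hgH⟩ ^ H.index := by
    apply Cfsg.Agent.Lib.Helper9.transfer_eq_pow_of_conj
    intro k a h
    rw [← map_pow]
    change (QuotientGroup.mk _ : H ⧸ K.subgroupOf H) = QuotientGroup.mk _
    rw [eq_comm, QuotientGroup.eq, Subgroup.mem_subgroupOf]
    have h1 := hctrl (k : ℤ) a⁻¹ (by simpa using h)
    have h2 : (a⁻¹ * g ^ k * a) * (g ^ k)⁻¹ ∈ K := by simpa using h1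
    -- conjugate by g^k inside H
    have h3 : (⟨(a⁻¹ * g ^ k * a) * (g ^ k)⁻¹, hHK h2⟩ : H) ∈ K.subgroupOf H := by
      rw [Subgroup.mem_subgroupOf]; exact h2
    have h4 := hKn.conj_mem _ h3 (⟨g ^ k, H.pow_mem hgH k⟩ : H)⁻¹
    rw [Subgroup.mem_subgroupOf] at h4
    simpa [mul_assoc] using h4
  intro hgc
  have h1 : MonoidHom.transfer ϕ g = 1 := by
    have := Abelianization.commutator_subset_ker (MonoidHom.transfer ϕ) hgc
    exact this
  obtain ⟨k, hk⟩ := hgp
  have h2 : ϕ ⟨g, hgH⟩ ^ (p ^ k) = 1 := by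
    rw [← map_pow]
    have : (⟨g, hgH⟩ : H) ^ (p ^ k) = 1 := by
      ext; simp [← hk, pow_orderOf_eq_one]
    rw [this, map_one]
  have h3 : ϕ ⟨g, hgH⟩ = 1 :=
    Cfsg.Agent.Lib.Helper9.eq_one_of_pow_eq_one_of_coprime _ (Nat.Coprime.pow_left k hidx) h2
      (by rw [← hV, h1])
  apply hgK
  have h4 : (⟨g, hgH⟩ : H) ∈ K.subgroupOf H := by
    rw [← QuotientGroup.ker_mk' (K.subgroupOf H)]; exact h3
  simpa [Subgroup.mem_subgroupOf] using h4

end Cfsg.Agent.S1241
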