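import Cfsg.Statements.S1243
import Cfsg.Agent.Lib.Helper9.Basic

set_option autoImplicit false
open Cfsg

namespace Cfsg.Agent.S1243

open Cfsg.Agent.Lib.Helper9 in
theorem joint_pgroup {G : Type*} [Group G] [Finite G] {p : ℕ} [Fact p.Prime] (C W₁ W₂ : Subgroup G)
    (h₁ : W₁ ≤ C) (h₂ : W₂ ≤ C) (hp₁ : IsPGroup p W₁) (hp₂ : IsPGroup p W₂) :
    ∃ c ∈ C, ∃ U : Subgroup G, IsPGroup p U ∧ W₁ ≤ U ∧ ∀ x ∈ W₂, c * x * c⁻¹ ∈ U := by
  have hq₁ : IsPGroup p (W₁.subgroupOf C) := hp₁.comap_subtype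
  have hq₂ : IsPGroup p (W₂.subgroupOf C) := hp₂.comap_subtype
  obtain ⟨P, hP⟩ := hq₁.exists_le_sylow
  obtain ⟨c, hc⟩ := exists_conj_le_sylow (W₂.subgroupOf C) hq₂ P
  refine ⟨c, c.2, (P : Subgroup C).map C.subtype, P.isPGroup'.map _, ?_, ?_⟩
  · intro x hx
    exact ⟨⟨x, h₁ hx⟩, hP (by simpa [Subgroup.mem_subgroupOf] using hx), rfl⟩
  · intro x hx
    exact ⟨c * ⟨x, h₂ hx⟩ * c⁻¹, hc ⟨x, h₂ hx⟩ (by simpa [Subgroup.mem_subgroupOf] using hx), rfl⟩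


/-- Let T be a Sylow p-subgroup of the finite group G and W ≤ T a subgroup weakly closed in T. If d and g d g⁻¹ both centralize W, then g d g⁻¹ = h d h⁻¹ for some h ∈ N_G(W). -/
theorem result {G : Type*} [Group G] [Finite G] {p : ℕ} [Fact p.Prime] (T : Sylow p G) (W : Subgroup G) (hW : Cfsg.IsWeaklyClosed W (T : Subgroup G)) (d g : G) (hd : d ∈ Subgroup.centralizer (W : Set G)) (hgd : g * d * g⁻¹ ∈ Subgroup.centralizer (W : Set G)) : ∃ h ∈ Subgroup.normalizer (W : Set G), h * d * h⁻¹ = g * d * g⁻¹ := by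
  have hWp : IsPGroup p W := T.isPGroup'.to_le hW.1
  set W' := W.map (MulAut.conj g⁻¹).toMonoidHom with hW'
  have hW'p : IsPGroup p W' := hWp.map _
  have h₁ : W ≤ Subgroup.centralizer ({d} : Set G) := by
    intro w hw
    rw [Subgroup.mem_centralizer_singleton_iff]
    exact ((Subgroup.mem_centralizer_iff.1 hd) w hw)
  have h₂ : W' ≤ Subgroup.centralizer ({d} : Set G) := by
    intro w hw
    rw [Cfsg.Agent.Lib.Helper9.mem_map_conj_iff] at hw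
    rw [Subgroup.mem_centralizer_singleton_iff]
    have := (Subgroup.mem_centralizer_iff.1 hgd) _ hw
    simp only [inv_inv] at this
    have e : g * (w * d) * g⁻¹ = g * (d * w) * g⁻¹ := by
      calc g * (w * d) * g⁻¹ = (g * w * g⁻¹) * (g * d * g⁻¹) := by simp [mul_assoc]
        _ = (g * d * g⁻¹) * (g * w * g⁻¹) := this
        _ = g * (d * w) * g⁻¹ := by simp [mul_assoc]
    exact mul_left_cancel (mul_right_cancel e)
  obtain ⟨c, hc, U, hU, hWU, hcU⟩ := joint_pgroup _ W W' h₁ h₂ hWp hW'p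
  obtain ⟨x, hx⟩ := Cfsg.Agent.Lib.Helper9.exists_conj_le_sylow U hU T
  have e1 : W.map (MulAut.conj x).toMonoidHom = W := by
    apply hW.2
    rw [Cfsg.Agent.Lib.Helper9.map_conj_le_iff]
    intro y hy
    exact hx y (hWU hy)
  have e2 : W.map (MulAut.conj (x * c * g⁻¹)).toMonoidHom = W := by
    apply hW.2
    rw [Cfsg.Agent.Lib.Helper9.map_conj_le_iff]
    intro y hy
    have h3 : g⁻¹ * y * g⁻¹⁻¹ ∈ W' := Cfsg.Agent.Lib.Helper9.conj_mem_map_conj W g⁻¹ hy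
    have h4 := hx _ (hcU _ h3)
    have e : x * c * g⁻¹ * y * (x * c * g⁻¹)⁻¹ = x * (c * (g⁻¹ * y * g⁻¹⁻¹) * c⁻¹) * x⁻¹ := by
      simp [mul_assoc]
    rw [e]; exact h4
  rw [Cfsg.Agent.Lib.Helper9.map_conj_eq_iff_mem_normalizer] at e1 e2
  refine ⟨g * c⁻¹, ?_, ?_⟩
  · have h5 := Subgroup.mul_mem _ (Subgroup.inv_mem _ e2) e1
    have e : (x * c * g⁻¹)⁻¹ * x = g * c⁻¹ := by simp [mul_assoc]
    rw [e] at h5; exact h5
  · rw [Subgroup.mem_centralizer_singleton_iff] at hc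
    have : c⁻¹ * d * c = d := by
      rw [mul_assoc, ← hc]; simp
    calc g * c⁻¹ * d * (g * c⁻¹)⁻¹ = g * (c⁻¹ * d * c) * g⁻¹ := by simp [mul_assoc]
      _ = g * d * g⁻¹ := by rw [this]

end Cfsg.Agent.S1243
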