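import Cfsg.Statements.S1244
import Cfsg.Agent.S1231

set_option autoImplicit false
open Cfsg

namespace Cfsg.Agent.S1244

open Cfsg.Agent.S1231

variable {G : Type*} [Group G]

theorem comm_of {S : Subgroup G} (hS : IsMulCommutative S) {a b : G} (ha : a ∈ S) (hb : b ∈ S) :
    a * b = b * a := by
  have := hS.is_comm.comm (⟨a, ha⟩ : S) ⟨b, hb⟩
  exact congrArg Subtype.val this

def Om (S : Subgroup G) (hS : IsMulCommutative S) : Subgroup G where
  carrier := {x | x ∈ S ∧ x ^ 2 = 1}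
  mul_mem' := by
    rintro a b ⟨ha, ha2⟩ ⟨hb, hb2⟩
    refine ⟨S.mul_mem ha hb, ?_⟩
    have hc : Commute a b := comm_of hS ha hb
    rw [hc.mul_pow, ha2, hb2, one_mul]
  one_mem' := ⟨S.one_mem, one_pow 2⟩
  inv_mem' := by
    rintro a ⟨ha, ha2⟩
    exact ⟨S.inv_mem ha, by rw [inv_pow, ha2, inv_one]⟩

theorem mem_Om {S : Subgroup G} {hS : IsMulCommutative S} {x : G} :
    x ∈ Om S hS ↔ x ∈ S ∧ x ^ 2 = 1 := Iff.rfl

theorem parity {A ι : Type*} [CommGroup A] (PO PU : A → Prop) (h1 : PO 1 ∧ PU 1)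
    (hmul : ∀ a b, PO a → PO b → PO (a * b) ∧ (PU (a * b) ↔ (PU a ↔ PU b)))
    (s : Finset ι) (x : ι → A) (m : ι → ℕ)
    (h : ∀ i ∈ s, PO (x i) ∧ (PU (x i) ↔ Even (m i))) :
    PO (∏ i ∈ s, x i) ∧ (PU (∏ i ∈ s, x i) ↔ Even (∑ i ∈ s, m i)) := by
  classical
  induction s using Finset.induction_on with
  | empty => simp [h1]
  | insert a s ha ih =>
    rw [Finset.prod_insert ha, Finset.sum_insert ha]
    have ih' := ih (fun i hi => h i (Finset.mem_insert_of_mem hi))
    have ha' := h a (Finset.mem_insert_self a s)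
    have := hmul _ _ ha'.1 ih'.1
    refine ⟨this.1, ?_⟩
    rw [this.2, ha'.2, ih'.2, Nat.even_add]

/-- no subgroup of index two: every hom to a 2-group is trivial -/
theorem hom_trivial [Finite G] (hG : ∀ H : Subgroup G, H.index ≠ 2) {A : Type*} [Group A]
    (hA : IsPGroup 2 A) (f : G →* A) (g : G) : f g = 1 := by
  haveI : Fact (Nat.Prime 2) := ⟨Nat.prime_two⟩
  by_contra hne
  have hQ : IsPGroup 2 f.range := hA.to_subgroup _
  haveI : Finite f.range := Set.finite_range f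
  obtain ⟨m, hm⟩ := IsPGroup.iff_card.1 hQ
  have hm0 : m ≠ 0 := by
    rintro rfl
    rw [pow_zero, Subgroup.card_eq_one] at hm
    apply hne
    have : f g ∈ f.range := ⟨g, rfl⟩
    rw [hm] at this
    exact Subgroup.mem_bot.1 this
  obtain ⟨K, hK⟩ := Sylow.exists_subgroup_card_pow_prime (G := f.range) 2 (n := m - 1)
    (by rw [hm]; exact pow_dvd_pow 2 (Nat.sub_le m 1))
  have hidx : K.index = 2 := by
    have h1 := K.card_mul_index
    rw [hK, hm] at h1
    obtain ⟨n, rfl⟩ : ∃ n, m = n + 1 := ⟨m - 1, by omega⟩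
    rw [Nat.add_sub_cancel, pow_succ] at h1
    exact Nat.eq_of_mul_eq_mul_left (pow_pos (by norm_num) n) h1
  apply hG (K.comap f.rangeRestrict)
  rw [Subgroup.index_comap_of_surjective _ f.rangeRestrict_surjective, hidx]

theorem card_le_of_prankLE {p k : ℕ} {X A : Subgroup G} (h : PRankLE p k ↥X) (hAX : A ≤ X)
    (hc : IsMulCommutative A) (hp : ∀ a ∈ A, a ^ p = 1) : Nat.card A ≤ p ^ k := by
  by_contra hlt
  exact not_of_big ⟨A, hAX, hc, hp, by omega⟩ h

open scoped IsMulCommutative in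
theorem transfer_ne [Finite G] (S : Sylow 2 G) (hS : IsMulCommutative (S : Subgroup G))
    (U : Subgroup G) (hU : U ≤ Om S hS)
    (hidx : ∀ a b, a ∈ Om (S : Subgroup G) hS → b ∈ Om (S : Subgroup G) hS →
      (a * b ∈ U ↔ (a ∈ U ↔ b ∈ U)))
    (t : G) (ht : orderOf t = 2) (htS : t ∈ S)
    (hcon : ∀ n ∈ Subgroup.normalizer ((S : Subgroup G) : Set G), n * t * n⁻¹ ∉ U) :
    MonoidHom.transfer (MonoidHom.id (S : Subgroup G)) t ≠ 1 := by
  haveI : Fact (Nat.Prime 2) := ⟨Nat.prime_two⟩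
  have : Fintype (Quotient (MulAction.orbitRel (Subgroup.zpowers (t : G)) (G ⧸ (S : Subgroup G)))) :=
    Fintype.ofFinite _
  have ht2 : t ^ 2 = 1 := by rw [← ht, pow_orderOf_eq_one]
  have hodd : ¬ Even (S : Subgroup G).index := by
    have := S.not_dvd_index
    rwa [even_iff_two_dvd]
  rw [Subgroup.index_eq_sum_minimalPeriod (S : Subgroup G) t] at hodd
  rw [MonoidHom.transfer_eq_prod_quotient_orbitRel_zpowers_quot]
  have key := parity (A := (S : Subgroup G)) (fun a => (a : G) ∈ Om (S : Subgroup G) hS)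
    (fun a => (a : G) ∈ U) ⟨Subgroup.one_mem _, Subgroup.one_mem _⟩
    (fun a b ha hb => ⟨Subgroup.mul_mem _ ha hb, hidx a b ha hb⟩) Finset.univ
    (fun q : Quotient (MulAction.orbitRel (Subgroup.zpowers (t : G)) (G ⧸ (S : Subgroup G))) =>
      (MonoidHom.id (S : Subgroup G))
          ⟨q.out.out⁻¹ * t ^ Function.minimalPeriod (t • ·) q.out * q.out.out,
            QuotientGroup.out_conj_pow_minimalPeriod_mem (S : Subgroup G) t q.out⟩)
    (fun q => Function.minimalPeriod (t • ·) q.out) ?_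
  · intro h
    apply hodd
    rw [← key.2, h]
    exact U.one_mem
  · intro q _
    have hmem := QuotientGroup.out_conj_pow_minimalPeriod_mem (S : Subgroup G) t q.out
    have hdvd : Function.minimalPeriod (t • ·) q.out ∣ 2 := by
      apply Function.IsPeriodicPt.minimalPeriod_dvd
      change (t • ·)^[2] q.out = q.out
      rw [smul_iterate, ht2]
      exact one_smul _ _
    rcases (Nat.dvd_prime Nat.prime_two).1 hdvd with h1 | h2
    · simp only [MonoidHom.id_apply]
      rw [h1] at hmem ⊢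
      rw [pow_one] at hmem ⊢
      obtain ⟨n, hn, hn'⟩ := S.conj_eq_normalizer_conj_of_mem t q.out.out htS hmem
      refine ⟨⟨hmem, ?_⟩, ?_⟩
      · have : (q.out.out⁻¹ * t * q.out.out) ^ 2 = q.out.out⁻¹ * t ^ 2 * q.out.out := by
          rw [pow_two, pow_two]; group
        rw [this, ht2]; group
      · have h3 : q.out.out⁻¹ * t * q.out.out ∉ U := by
          rw [hn']
          have := hcon n⁻¹ (Subgroup.inv_mem _ hn)
          rwa [inv_inv] at this
        simp [h3]
    · simp only [MonoidHom.id_apply]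
      rw [h2]
      have : q.out.out⁻¹ * t ^ 2 * q.out.out = 1 := by rw [ht2]; group
      rw [this]
      exact ⟨Subgroup.one_mem _, by simp [U.one_mem]⟩

/-- Let G be a finite group with no subgroup of index 2 whose Sylow 2-subgroup S is commutative, and let R ≤ S be a subgroup whose 2-rank is exactly one less than the 2-rank r of S. Then every involution of S is conjugate, by an element of N_G(S), to an element of R. -/
theorem result {G : Type*} [Group G] [Finite G] (hG : ∀ H : Subgroup G, H.index ≠ 2) (S : Sylow 2 G) (hS : IsMulCommutative (S : Subgroup G)) (r : ℕ) (hr1 : 1 ≤ r) (hSr : Cfsg.PRankLE 2 r (S : Subgroup G) ∧ ¬ Cfsg.PRankLE 2 (r - 1) (S : Subgroup G)) (R : Subgroup G) (hRS : R ≤ S) (hRr : Cfsg.PRankLE 2 (r - 1) R ∧ (r = 1 ∨ ¬ Cfsg.PRankLE 2 (r - 2) R)) (t : G) (ht : orderOf t = 2) (htS : t ∈ S) : ∃ n ∈ Subgroup.normalizer ((S : Subgroup G) : Set G), n * t * n⁻¹ ∈ R := by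
  haveI : Fact (Nat.Prime 2) := ⟨Nat.prime_two⟩
  by_contra hcon
  push Not at hcon
  -- cardinalities
  have hOc : IsMulCommutative (Om (S : Subgroup G) hS) :=
    ⟨⟨fun a b => Subtype.ext (comm_of hS a.2.1 b.2.1)⟩⟩
  have hOS : Om (S : Subgroup G) hS ≤ S := fun x hx => hx.1
  have hO2 : ∀ a ∈ Om (S : Subgroup G) hS, a ^ 2 = 1 := fun a ha => ha.2
  have hOle : Nat.card (Om (S : Subgroup G) hS) ≤ 2 ^ r := card_le_of_prankLE hSr.1 hOS hOc hO2
  have hOgt : 2 ^ (r - 1) < Nat.card (Om (S : Subgroup G) hS) := by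
    obtain ⟨A, hAS, _, hA2, hAcard⟩ := big_of_not hSr.2
    exact lt_of_lt_of_le hAcard (Subgroup.card_le_of_le (fun a ha => ⟨hAS ha, hA2 a ha⟩))
  obtain ⟨U, hUdef⟩ : ∃ U : Subgroup G, U = Om (S : Subgroup G) hS ⊓ R := ⟨_, rfl⟩
  have hUO : U ≤ Om (S : Subgroup G) hS := by rw [hUdef]; exact inf_le_left
  have hUc : IsMulCommutative U :=
    ⟨⟨fun a b => Subtype.ext (comm_of hS (hUO a.2).1 (hUO b.2).1)⟩⟩
  have hUle : Nat.card U ≤ 2 ^ (r - 1) :=
    card_le_of_prankLE hRr.1 (by rw [hUdef]; exact inf_le_right) hUc (fun a ha => (hUO ha).2)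
  have hOp : IsPGroup 2 (Om (S : Subgroup G) hS) := S.isPGroup'.to_le hOS
  have hUp : IsPGroup 2 U := hOp.to_le hUO
  obtain ⟨m, hm⟩ := IsPGroup.iff_card.1 hOp
  obtain ⟨m', hm'⟩ := IsPGroup.iff_card.1 hUp
  have hmr : m = r := by
    rw [hm] at hOle hOgt
    have h1 := (Nat.pow_le_pow_iff_right (by norm_num : 1 < 2)).1 hOle
    have h2 := (Nat.pow_lt_pow_iff_right (by norm_num : 1 < 2)).1 hOgt
    omega
  have hmr' : m' = r - 1 := by
    rw [hm'] at hUle
    have h1 := (Nat.pow_le_pow_iff_right (by norm_num : 1 < 2)).1 hUle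
    rcases hRr.2 with h | h
    · omega
    · obtain ⟨A, hAR, _, hA2, hAcard⟩ := big_of_not h
      have h3 : 2 ^ (r - 2) < Nat.card U := by
        refine lt_of_lt_of_le hAcard (Subgroup.card_le_of_le (fun a ha => ?_))
        rw [hUdef]
        exact ⟨⟨hRS (hAR ha), hA2 a ha⟩, hAR ha⟩
      rw [hm'] at h3
      have h2 := (Nat.pow_lt_pow_iff_right (by norm_num : 1 < 2)).1 h3
      omega
  have hidx2 : (U.subgroupOf (Om (S : Subgroup G) hS)).index = 2 := by
    have h1 := (U.subgroupOf (Om (S : Subgroup G) hS)).card_mul_index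
    rw [Nat.card_congr (Subgroup.subgroupOfEquivOfLe hUO).toEquiv, hm, hm', hmr, hmr'] at h1
    obtain ⟨n, rfl⟩ : ∃ n, r = n + 1 := ⟨r - 1, by omega⟩
    rw [Nat.add_sub_cancel, pow_succ] at h1
    exact Nat.eq_of_mul_eq_mul_left (pow_pos (by norm_num) n) h1
  have hidx : ∀ a b, a ∈ Om (S : Subgroup G) hS → b ∈ Om (S : Subgroup G) hS →
      (a * b ∈ U ↔ (a ∈ U ↔ b ∈ U)) := by
    intro a b ha hb
    have := Subgroup.mul_mem_iff_of_index_two hidx2
      (a := (⟨a, ha⟩ : Om (S : Subgroup G) hS)) (b := ⟨b, hb⟩)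
    simpa [Subgroup.mem_subgroupOf] using this
  refine transfer_ne S hS U hUO hidx t ht htS (fun n hn hmem => hcon n hn ?_) ?_
  · rw [hUdef] at hmem; exact hmem.2
  · exact hom_trivial hG S.isPGroup' _ t

end Cfsg.Agent.S1244
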