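import Cfsg.Statements.S1248
import Cfsg.Agent.Lib.Helper6.PSU3Syl

set_option autoImplicit false
open Cfsg

namespace Cfsg.Agent.S1248

open Cfsg.Agent.Lib.Helper6.PSU3Syl

theorem aux {P : Type*} [Group P] (h1 : Nat.card P = 64) (h2 : Nat.card (Subgroup.center P) = 4)
    (h3 : ∀ x : P, x * x = 1 ↔ x ∈ Subgroup.center P) (h4 : ∀ x : P, x * x ∈ Subgroup.center P)
    (h5 : ∀ x y : P, x * y * x⁻¹ * y⁻¹ ∈ Subgroup.center P)
    (h6 : ∀ z ∈ Subgroup.center P, ∃ x y : P, z = x * y * x⁻¹ * y⁻¹) :
    Nat.card P = 64 ∧ IsKleinFour (Subgroup.center P) ∧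
    Subgroup.center P = Subgroup.closure {x : P | orderOf x = 2} ∧
    Subgroup.center P = commutator P ∧ Nat.card (P ⧸ Subgroup.center P) = 16 ∧
    ∀ x : P ⧸ Subgroup.center P, x ^ 2 = 1 := by
  refine ⟨h1, ⟨h2, ?_⟩, ?_, ?_, ?_, ?_⟩
  · apply Nat.dvd_antisymm
    · apply Monoid.exponent_dvd_of_forall_pow_eq_one
      intro z
      apply Subtype.ext
      show z.1 ^ 2 = 1
      rw [pow_two]
      exact (h3 _).mpr z.2
    · have hne : Monoid.exponent (Subgroup.center P) ≠ 1 := by
        intro hh
        rw [Monoid.exp_eq_one_iff] at hh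
        have := Nat.card_eq_one_iff_unique.mpr ⟨hh, ⟨1⟩⟩
        omega
      have hd : Monoid.exponent (Subgroup.center P) ∣ 2 := by
        apply Monoid.exponent_dvd_of_forall_pow_eq_one
        intro z
        apply Subtype.ext
        show z.1 ^ 2 = 1
        rw [pow_two]
        exact (h3 _).mpr z.2
      rcases (Nat.dvd_prime Nat.prime_two).mp hd with hh | hh
      · exact absurd hh hne
      · rw [hh]
  · apply le_antisymm
    · intro z hz
      by_cases hz1 : z = 1
      · rw [hz1]; exact one_mem _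
      · apply Subgroup.subset_closure
        show orderOf z = 2
        exact orderOf_eq_prime (by rw [pow_two]; exact (h3 _).mpr hz) hz1
    · rw [Subgroup.closure_le]
      intro x hx
      have hx' : orderOf x = 2 := hx
      apply (h3 x).mp
      rw [← pow_two, ← hx']
      exact pow_orderOf_eq_one x
  · apply le_antisymm
    · intro z hz
      obtain ⟨x, y, rfl⟩ := h6 z hz
      rw [commutator_def]
      exact Subgroup.commutator_mem_commutator (Subgroup.mem_top x) (Subgroup.mem_top y)
    · rw [commutator_def, Subgroup.commutator_le]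
      intro x _ y _
      exact h5 x y
  · have := Subgroup.card_eq_card_quotient_mul_card_subgroup (Subgroup.center P)
    rw [h1, h2] at this
    omega
  · intro x
    induction x using QuotientGroup.induction_on with
    | H x =>
      rw [← QuotientGroup.mk_pow, QuotientGroup.eq_one_iff, pow_two]
      exact h4 x

/-- Let F be a field with 16 elements and S a Sylow 2-subgroup of PSU(3) over F (the unitary group U₃(4)). Then |S| = 64; the centre Z(S) is a Klein four-group and coincides with the subgroup generated by the involutions of S and with the derived subgroup; and every element of S ⧸ Z(S) squares to the identity, S ⧸ Z(S) having order 16. -/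
theorem result {F : Type*} [Field F] [Fintype F] (hF : Fintype.card F = 16) (S : Sylow 2 (Cfsg.PSU 3 F 4)) : Nat.card S = 64 ∧ IsKleinFour (Subgroup.center (S : Subgroup (Cfsg.PSU 3 F 4))) ∧ Subgroup.center (S : Subgroup (Cfsg.PSU 3 F 4)) = Subgroup.closure {x : (S : Subgroup (Cfsg.PSU 3 F 4)) | orderOf x = 2} ∧ Subgroup.center (S : Subgroup (Cfsg.PSU 3 F 4)) = commutator (S : Subgroup (Cfsg.PSU 3 F 4)) ∧ Nat.card ((S : Subgroup (Cfsg.PSU 3 F 4)) ⧸ Subgroup.center (S : Subgroup (Cfsg.PSU 3 F 4))) = 16 ∧ ∀ x : (S : Subgroup (Cfsg.PSU 3 F 4)) ⧸ Subgroup.center (S : Subgroup (Cfsg.PSU 3 F 4)), x ^ 2 = 1 := by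
  have : Hyp F 4 := ⟨by rw [hF]; norm_num, two_eq_zero_of_card 2 (by omega) (by rw [hF]; norm_num)⟩
  obtain ⟨e⟩ := exists_equiv 2 (by norm_num) S
  obtain ⟨h1, h2, h3, h4, h5, h6⟩ := facts e
  exact aux (by rw [h1]; norm_num) h2 h3 h4 h5 h6

end Cfsg.Agent.S1248
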