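import Cfsg.Statements.S1253
import Cfsg.Agent.Lib.Helper9.ZStar
import Cfsg.Agent.S1187

set_option autoImplicit false
open Cfsg

namespace Cfsg.Agent.S1253

open Cfsg.Agent.Lib.Helper9 Cfsg.Agent.Lib.Helper26

theorem card_inverted {G : Type*} [Group G] [Finite G] (z : G) (hzz : z * z = 1) (P : Subgroup G)
    (hodd : Odd (Nat.card P)) (hzP : z ∈ Subgroup.normalizer (P : Set G)) :
    (P ⊓ Subgroup.centralizer ({z} : Set G)).relIndex P
      = Nat.card {x : G // x ∈ P ∧ z * x * z⁻¹ = x⁻¹} := by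
  have hzi : z⁻¹ = z := inv_eq_self_of_mul_self hzz
  set K := (P ⊓ Subgroup.centralizer ({z} : Set G)).subgroupOf P with hK
  have hmemK : ∀ x : P, x ∈ K ↔ (x : G) * z = z * x := by
    intro x
    rw [hK, Subgroup.mem_subgroupOf, Subgroup.mem_inf, Subgroup.mem_centralizer_singleton_iff]
    exact ⟨fun h => h.2, fun h => ⟨x.2, h⟩⟩
  let F0 : P → {x : G // x ∈ P ∧ z * x * z⁻¹ = x⁻¹} := fun x =>
    ⟨x * (z * x * z⁻¹)⁻¹, P.mul_mem x.2 (P.inv_mem ((Subgroup.mem_normalizer_iff.mp hzP x).mp x.2)), by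
      rw [hzi]
      simp only [mul_inv_rev, hzi, mul_assoc, inv_inv]
      congr 3
      rw [← mul_assoc (x : G)⁻¹, mul_assoc, hzz, mul_one]⟩
  have hwd : ∀ x y : P, (QuotientGroup.leftRel K) x y → F0 x = F0 y := by
    intro x y hxy
    rw [QuotientGroup.leftRel_apply, hmemK] at hxy
    apply Subtype.ext
    change (x : G) * (z * x * z⁻¹)⁻¹ = y * (z * y * z⁻¹)⁻¹
    have h1 : ((x⁻¹ * y : P) : G) = (x : G)⁻¹ * y := rfl
    rw [h1] at hxy
    set c := (x : G)⁻¹ * y with hc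
    have hy : (y : G) = x * c := by rw [hc]; simp
    have h2 : z * c * z⁻¹ = c := by rw [← hxy]; simp
    have h3 : z * (x * c) * z⁻¹ = z * x * z⁻¹ * c := by
      calc z * (x * c) * z⁻¹ = z * x * z⁻¹ * (z * c * z⁻¹) := by simp [mul_assoc]
        _ = _ := by rw [h2]
    rw [hy, h3]; simp [mul_assoc]
  let F : P ⧸ K → {x : G // x ∈ P ∧ z * x * z⁻¹ = x⁻¹} := fun q => Quotient.liftOn' q F0 hwd
  have hinj : Function.Injective F := by
    intro q1 q2
    induction q1 using QuotientGroup.induction_on with | _ x => ?_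
    induction q2 using QuotientGroup.induction_on with | _ y => ?_
    intro h
    have h1 : (x : G) * (z * x * z⁻¹)⁻¹ = y * (z * y * z⁻¹)⁻¹ := congrArg Subtype.val h
    rw [QuotientGroup.eq, hmemK]
    change (x : G)⁻¹ * y * z = z * ((x : G)⁻¹ * y)
    have h2 : (x : G)⁻¹ * y = (z * x * z⁻¹)⁻¹ * (z * y * z⁻¹) := by
      have : (y : G) = x * (z * x * z⁻¹)⁻¹ * (z * y * z⁻¹) := by rw [h1]; simp [mul_assoc]
      calc (x : G)⁻¹ * y = (x : G)⁻¹ * (x * (z * x * z⁻¹)⁻¹ * (z * y * z⁻¹)) := by rw [← this]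
        _ = _ := by simp [mul_assoc]
    have h3 : (z * x * z⁻¹)⁻¹ * (z * y * z⁻¹) = z * ((x : G)⁻¹ * y) * z⁻¹ := by simp [mul_assoc]
    rw [h3] at h2
    calc (x : G)⁻¹ * y * z = z * ((x : G)⁻¹ * y) * z⁻¹ * z := by rw [← h2]
      _ = _ := by simp
  have hsurj : Function.Surjective F := by
    rintro ⟨k, hkP, hk⟩
    have hko : Odd (orderOf k) := by
      have h1 : orderOf k ∣ Nat.card P := by
        have := orderOf_dvd_natCard (⟨k, hkP⟩ : P)
        rwa [Subgroup.orderOf_mk] at this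
      exact Odd.of_dvd_nat hodd h1
    obtain ⟨j, hj⟩ := hko
    refine ⟨QuotientGroup.mk (⟨k ^ (j + 1), P.pow_mem hkP _⟩ : P), ?_⟩
    apply Subtype.ext
    change k ^ (j + 1) * (z * k ^ (j + 1) * z⁻¹)⁻¹ = k
    have h1 : z * k ^ (j + 1) * z⁻¹ = (k ^ (j + 1))⁻¹ := by
      rw [← conj_pow, hk, inv_pow]
    rw [h1, inv_inv, ← pow_add]
    have : j + 1 + (j + 1) = orderOf k + 1 := by omega
    rw [this, pow_succ, pow_orderOf_eq_one, one_mul]
  exact Nat.card_congr (Equiv.ofBijective F ⟨hinj, hsurj⟩)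


/-- Let z be an isolated involution of the finite group G with centralizer C, p an odd prime and P a Sylow p-subgroup of G normalized by z. Then P ∩ C has p-power-free index in C (it is a Sylow p-subgroup of C), and |P : C_P(z)| equals the number of elements x ∈ P with z x z⁻¹ = x⁻¹. -/
theorem result {G : Type*} [Group G] [Finite G] (z : G) (hz : Cfsg.IsIsolatedInvolution z) {p : ℕ} [Fact p.Prime] (hp : p ≠ 2) (P : Sylow p G) (hzP : z ∈ Subgroup.normalizer ((P : Subgroup G) : Set G)) : ¬ p ∣ ((P : Subgroup G) ⊓ Subgroup.centralizer ({z} : Set G)).relIndex (Subgroup.centralizer ({z} : Set G)) ∧ ((P : Subgroup G) ⊓ Subgroup.centralizer ({z} : Set G)).relIndex (P : Subgroup G) = Nat.card {x : G // x ∈ P ∧ z * x * z⁻¹ = x⁻¹} := by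
  have hzz : z * z = 1 := mul_self_of_orderOf_two hz.1
  have hpodd : Odd p := (Fact.out : p.Prime).odd_of_ne_two hp
  have hPodd : Odd (Nat.card (P : Subgroup G)) := by
    obtain ⟨n, hn⟩ := IsPGroup.iff_card.mp P.isPGroup'
    rw [hn]; exact hpodd.pow
  refine ⟨?_, card_inverted z hzz P hPodd hzP⟩
  set C := Subgroup.centralizer ({z} : Set G) with hC
  obtain ⟨T0⟩ : Nonempty (Sylow p C) := inferInstance
  set T' : Subgroup G := (T0 : Subgroup C).map C.subtype with hT'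
  have hT'p : IsPGroup p T' := T0.isPGroup'.map _
  have hT'C : T' ≤ C := by
    rintro _ ⟨y, -, rfl⟩; exact y.2
  have hT'z : z ∈ Subgroup.normalizer (T' : Set G) := by
    rw [Subgroup.mem_normalizer_iff]
    intro x
    have : ∀ y ∈ T', z * y * z⁻¹ = y := by
      intro y hy
      have := Subgroup.mem_centralizer_singleton_iff.mp (hT'C hy)
      rw [← this]; simp
    constructor
    · intro hx; rw [this x hx]; exact hx
    · intro hx
      have h2 := this _ hx
      have h3 : z * x * z⁻¹ = x := mul_left_cancel (mul_right_cancel h2)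
      rwa [h3] at hx
  -- a maximal z-invariant p-subgroup containing T'
  obtain ⟨Q, ⟨hQp, hQz, hTQ⟩, hQmax⟩ : ∃ Q : Subgroup G,
      (IsPGroup p Q ∧ z ∈ Subgroup.normalizer (Q : Set G) ∧ T' ≤ Q) ∧
      ∀ R : Subgroup G, (IsPGroup p R ∧ z ∈ Subgroup.normalizer (R : Set G) ∧ T' ≤ R) → Q ≤ R →
        R = Q := by
    have hfin : (Set.univ : Set (Subgroup G)).Finite := Set.finite_univ
    obtain ⟨Q, hQ⟩ := Set.Finite.exists_maximal
      (s := {Q : Subgroup G | IsPGroup p Q ∧ z ∈ Subgroup.normalizer (Q : Set G) ∧ T' ≤ Q})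
      (Set.toFinite _) ⟨T', hT'p, hT'z, le_rfl⟩
    exact ⟨Q, hQ.prop, fun R hR hQR => le_antisymm (hQ.le_of_ge hR hQR) hQR⟩
  obtain ⟨P', hP'⟩ := Cfsg.Agent.S1187.result z hz Q hQp hQz
    (fun R hR hzR hQR => hQmax R ⟨hR, hzR, hTQ.trans hQR⟩ hQR)
  obtain ⟨g, hg⟩ := sylow_conj P P'
  have hzP' : z ∈ Subgroup.normalizer ((P' : Subgroup G) : Set G) := by rw [hP']; exact hQz
  have hgz : g * z * g⁻¹ ∈ Subgroup.normalizer ((P' : Subgroup G) : Set G) := by
    rw [Subgroup.mem_normalizer_iff]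
    intro x
    have h1 : x ∈ (P' : Subgroup G) ↔ g⁻¹ * x * g ∈ P := hg x
    have h2 : g * z * g⁻¹ * x * (g * z * g⁻¹)⁻¹ ∈ (P' : Subgroup G) ↔
        g⁻¹ * (g * z * g⁻¹ * x * (g * z * g⁻¹)⁻¹) * g ∈ P := hg _
    rw [h1, h2]
    have h3 : g⁻¹ * (g * z * g⁻¹ * x * (g * z * g⁻¹)⁻¹) * g = z * (g⁻¹ * x * g) * z⁻¹ := by
      simp [mul_assoc]
    rw [h3]
    exact Subgroup.mem_normalizer_iff.mp hzP _
  obtain ⟨h, hh, hhz⟩ := iso_conj_in hz _ hzP' g hgz
  set c := h⁻¹ * g with hc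
  have hcz : c * z * c⁻¹ = z := by
    calc c * z * c⁻¹ = h⁻¹ * (g * z * g⁻¹) * h := by rw [hc]; simp [mul_assoc]
      _ = z := by rw [← hhz]; simp [mul_assoc]
  have hcz' : c⁻¹ * z = z * c⁻¹ := by
    calc c⁻¹ * z = c⁻¹ * (c * z * c⁻¹) := by rw [hcz]
      _ = z * c⁻¹ := by simp [mul_assoc]
  have hcz'' : z * c = c * z := by
    calc z * c = c * z * c⁻¹ * c := by rw [hcz]
      _ = c * z := by simp
  have hle : cj c⁻¹ T' ≤ (P : Subgroup G) ⊓ C := by
    rintro _ ⟨x, hx, rfl⟩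
    change c⁻¹ * x * c⁻¹⁻¹ ∈ _
    rw [inv_inv]
    refine ⟨?_, ?_⟩
    · have hxP' : x ∈ (P' : Subgroup G) := by rw [hP']; exact hTQ hx
      have h1 : h * x * h⁻¹ ∈ (P' : Subgroup G) := (Subgroup.mem_normalizer_iff.mp hh x).mp hxP'
      have h2 := (hg _).mp h1
      have h3 : g⁻¹ * (h * x * h⁻¹) * g = c⁻¹ * x * c := by rw [hc]; simp [mul_assoc]
      rw [h3] at h2; exact h2
    · have hxz := Subgroup.mem_centralizer_singleton_iff.mp (hT'C hx)
      rw [hC]
      change c⁻¹ * x * c ∈ Subgroup.centralizer {z}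
      rw [Subgroup.mem_centralizer_singleton_iff]
      calc c⁻¹ * x * c * z = c⁻¹ * x * (z * c) := by rw [hcz'']; simp [mul_assoc]
        _ = c⁻¹ * (x * z) * c := by simp [mul_assoc]
        _ = c⁻¹ * z * x * c := by rw [hxz]; simp [mul_assoc]
        _ = z * (c⁻¹ * x * c) := by rw [hcz']; simp [mul_assoc]
  have hcard : p ^ (Nat.card C).factorization p ≤ Nat.card ↥((P : Subgroup G) ⊓ C) := by
    have h1 := Subgroup.card_le_of_le hle
    rw [card_cj, hT', Subgroup.card_map_of_injective C.subtype_injective,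
      T0.card_eq_multiplicity] at h1
    exact h1
  obtain ⟨R, hR⟩ := sylIn_of_le_card (p := p) (inf_le_right : (P : Subgroup G) ⊓ C ≤ C)
    (P.isPGroup'.to_le inf_le_left) hcard
  have := R.not_dvd_index
  rw [hR] at this
  exact this

end Cfsg.Agent.S1253
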