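import Cfsg.Statements.S1258
import Cfsg.Agent.Lib.Helper10.Components2

set_option autoImplicit false
open Cfsg
open Cfsg.Agent.Lib.Helper10

namespace Cfsg.Agent.S1258

open scoped commutatorElement in
theorem commutator_le_of_sup_center {X : Type*} [Group X] (N : Subgroup X)
    (h : N ⊔ Subgroup.center X = ⊤) : commutator X ≤ ⁅N, N⁆ := by
  rw [commutator_def, Subgroup.commutator_le]
  intro a _ b _
  have ha : a ∈ N ⊔ Subgroup.center X := by rw [h]; trivial
  have hb : b ∈ N ⊔ Subgroup.center X := by rw [h]; trivial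
  obtain ⟨n, hn, z, hz, rfl⟩ := Subgroup.mem_sup_of_normal_right.mp ha
  obtain ⟨m, hm, w, hw, rfl⟩ := Subgroup.mem_sup_of_normal_right.mp hb
  rw [commutatorElement_mul_central n m z w (Subgroup.mem_center_iff.mp hz)
    (Subgroup.mem_center_iff.mp hw)]
  exact Subgroup.commutator_mem_commutator hn hm

theorem normal_dichotomy {X : Type*} [Group X] (hs : IsSimpleGroup (X ⧸ Subgroup.center X))
    (N : Subgroup X) (hN : N.Normal) : N ≤ Subgroup.center X ∨ N ⊔ Subgroup.center X = ⊤ := by
  have hn : (N.map (QuotientGroup.mk' (Subgroup.center X))).Normal :=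
    hN.map _ (QuotientGroup.mk'_surjective _)
  rcases hn.eq_bot_or_eq_top with h3 | h3
  · left
    rw [Subgroup.map_eq_bot_iff, QuotientGroup.ker_mk'] at h3
    exact h3
  · right
    have := congrArg (Subgroup.comap (QuotientGroup.mk' (Subgroup.center X))) h3
    rwa [Subgroup.comap_map_eq, QuotientGroup.ker_mk', Subgroup.comap_top] at this

/-- If the central quotient of a finite group X is non-abelian simple, then X = X' Z(X) and the commutator subgroup X' is quasisimple. -/
theorem result {X : Type*} [Group X] [Finite X] (hs : IsSimpleGroup (X ⧸ Subgroup.center X)) (hna : ¬ IsMulCommutative (X ⧸ Subgroup.center X)) : commutator X ⊔ Subgroup.center X = ⊤ ∧ Cfsg.IsQuasisimple ↥(commutator X) := by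
  set Z := Subgroup.center X with hZ
  set D := commutator X with hD
  have hDZ : ¬ D ≤ Z := fun h =>
    hna (Subgroup.Normal.quotient_commutative_iff_commutator_le.mpr h)
  have hDtop : D ⊔ Z = ⊤ := (normal_dichotomy hs D inferInstance).resolve_left hDZ
  refine ⟨hDtop, ?_⟩
  have hDnt : Nontrivial D := by
    rw [Subgroup.nontrivial_iff_ne_bot]
    intro h
    exact hDZ (h ▸ bot_le)
  have hperf : Group.IsPerfect D := by
    rw [Subgroup.isPerfect_iff]
    exact le_antisymm (Subgroup.commutator_le_self D) (commutator_le_of_sup_center D hDtop)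
  apply isQuasisimple_of_normal_central hperf
  intro M hM hMtop
  have hM'n : (M.map D.subtype).Normal := by
    constructor
    intro m hm g
    obtain ⟨m', hm', rfl⟩ := hm
    have hg : g ∈ D ⊔ Z := by rw [hDtop]; trivial
    obtain ⟨d, hd, z, hz, rfl⟩ := Subgroup.mem_sup_of_normal_right.mp hg
    refine ⟨⟨d, hd⟩ * m' * ⟨d, hd⟩⁻¹, hM.conj_mem m' hm' _, ?_⟩
    rw [Subgroup.mem_center_iff] at hz
    simp only [Subgroup.subtype_apply, Subgroup.coe_mul, Subgroup.coe_inv]
    have e1 : d * z * ↑m' * (d * z)⁻¹ = d * (z * ↑m') * z⁻¹ * d⁻¹ := by group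
    rw [e1, ← hz]
    group
  rcases normal_dichotomy hs _ hM'n with h | h
  · intro m hm
    rw [Subgroup.mem_center_iff]
    intro g
    apply Subtype.ext
    have h1 : (m : X) ∈ Z := h ⟨m, hm, rfl⟩
    rw [Subgroup.mem_center_iff] at h1
    exact h1 g
  · exfalso
    apply hMtop
    have h1 : D ≤ M.map D.subtype :=
      (commutator_le_of_sup_center _ h).trans (Subgroup.commutator_le_self _)
    rw [eq_top_iff]
    intro x _
    obtain ⟨y, hy, hyx⟩ := h1 x.2
    have : y = x := Subtype.ext hyx
    rwa [← this]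

end Cfsg.Agent.S1258
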