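import Cfsg.Statements.S1263
import Cfsg.Agent.Lib.Helper10.Layer

set_option autoImplicit false
open Cfsg
open Cfsg.Agent.Lib.Helper10

namespace Cfsg.Agent.S1263

theorem central_aux {G : Type*} [Group G] [Finite G] [DecidableEq (Subgroup G)]
    (s : Finset (Subgroup G)) (hs : ∀ L ∈ s, Cfsg.IsComponent L) :
    ∀ z : G, z ∈ (⨆ L ∈ s, L) → (∀ L ∈ s, ∀ x ∈ L, x * z = z * x) →
      z ∈ ⨆ L ∈ s, (Subgroup.center ↥L).map L.subtype := by
  induction s using Finset.induction_on with
  | empty =>
    intro z hz _
    simpa using hz
  | insert L s hLs ih =>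
    intro z hz hc
    rw [Finset.iSup_insert] at hz ⊢
    have hL := hs L (Finset.mem_insert_self _ _)
    have hs' : ∀ K ∈ s, Cfsg.IsComponent K := fun K hK => hs K (Finset.mem_insert_of_mem hK)
    have hcomm : ∀ a ∈ L, ∀ b ∈ (⨆ K ∈ s, K), a * b = b * a := by
      intro a ha b hb
      have h1 : (⨆ K ∈ s, K) ≤ Subgroup.centralizer (L : Set G) := by
        refine iSup₂_le fun K hK => ?_
        rw [← Subgroup.commutator_eq_bot_iff_le_centralizer]
        refine (components_eq_or_commute (hs' K hK) hL).resolve_left ?_
        rintro rfl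
        exact hLs hK
      exact (Subgroup.mem_centralizer_iff.mp (h1 hb)) a ha
    obtain ⟨l, hl, e, he, rfl⟩ := mem_sup_of_commute hcomm hz
    refine mul_mem (Subgroup.mem_sup_left ?_) (Subgroup.mem_sup_right ?_)
    · refine ⟨⟨l, hl⟩, ?_, rfl⟩
      rw [SetLike.mem_coe, Subgroup.mem_center_iff]
      intro x
      apply Subtype.ext
      have h1 := hc L (Finset.mem_insert_self _ _) x x.2
      have h2 := hcomm x x.2 e he
      have h3 : (x : G) * l * e = l * x * e := by
        calc (x : G) * l * e = x * (l * e) := by group
          _ = l * e * x := h1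
          _ = l * (e * x) := by group
          _ = l * (x * e) := by rw [h2]
          _ = l * x * e := by group
      exact mul_right_cancel h3
    · apply ih hs' e he
      intro K hK x hx
      have h1 := hc K (Finset.mem_insert_of_mem hK) x hx
      have hxE : x ∈ (⨆ K ∈ s, K) := (le_iSup₂ (f := fun K (_ : K ∈ s) => K) K hK) hx
      have h2 := hcomm l hl x hxE
      have h3 : l * (x * e) = l * (e * x) := by
        calc l * (x * e) = (l * x) * e := by group
          _ = (x * l) * e := by rw [h2]
          _ = x * (l * e) := by group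
          _ = l * e * x := h1
          _ = l * (e * x) := by group
      exact mul_left_cancel h3

/-- For a finite group G, Z(E(G)) is the subgroup generated by the centres Z(L) of the components L of G (all viewed as subgroups of G). -/
theorem result {G : Type*} [Group G] [Finite G] : (Subgroup.center ↥(Cfsg.layer G)).map (Cfsg.layer G).subtype = ⨆ L : {K : Subgroup G // Cfsg.IsComponent K}, (Subgroup.center ↥(L : Subgroup G)).map (L : Subgroup G).subtype := by
  classical
  apply le_antisymm
  · -- every central element of the layer is a product of central elements of components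
    let s : Finset (Subgroup G) := (Set.toFinite {K : Subgroup G | Cfsg.IsComponent K}).toFinset
    have hs : ∀ K, K ∈ s ↔ Cfsg.IsComponent K := by
      intro K; simp [s]
    have hE : Cfsg.layer G = ⨆ L ∈ s, L := by
      unfold Cfsg.layer
      rw [sSup_eq_iSup]
      simp only [hs, Set.mem_ofPred_eq]
    rintro _ ⟨z, hz, rfl⟩
    have h1 := central_aux s (fun L hL => (hs L).mp hL) (z : G) (hE ▸ z.2) (by
      intro L hL x hx
      have := (Subgroup.mem_center_iff.mp hz) ⟨x, component_le_layer ((hs L).mp hL) hx⟩
      exact congrArg Subtype.val this)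
    refine (iSup₂_le ?_ : (⨆ L ∈ s, (Subgroup.center ↥L).map L.subtype) ≤ _) h1
    intro L hL
    exact le_iSup (fun L : {K : Subgroup G // Cfsg.IsComponent K} =>
      (Subgroup.center ↥(L : Subgroup G)).map (L : Subgroup G).subtype) ⟨L, (hs L).mp hL⟩
  · refine iSup_le ?_
    rintro ⟨L, hL⟩
    rintro _ ⟨z, hz, rfl⟩
    refine ⟨⟨z, component_le_layer hL z.2⟩, ?_, rfl⟩
    have h1 : Cfsg.layer G ≤ Subgroup.centralizer ({(z : G)} : Set G) := by
      rw [layer_le_iff]
      intro K hK x hx
      rw [Subgroup.mem_centralizer_singleton_iff]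
      rcases components_eq_or_commute hK hL with h | h
      · subst h
        exact congrArg Subtype.val ((Subgroup.mem_center_iff.mp hz) ⟨x, hx⟩)
      · exact commute_of_commutator_eq_bot h x hx z z.2
    rw [SetLike.mem_coe, Subgroup.mem_center_iff]
    intro y
    apply Subtype.ext
    exact Subgroup.mem_centralizer_singleton_iff.mp (h1 y.2)

end Cfsg.Agent.S1263
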