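import Cfsg.Statements.S1264
import Cfsg.Agent.Lib.Helper10.Components2

set_option autoImplicit false
open Cfsg
open Cfsg.Agent.Lib.Helper10

namespace Cfsg.Agent.S1264

/-- Let G be finite, C = C_G(F(G)) the centralizer of the Fitting subgroup, and N a solvable subgroup of C normalized by C. Then N ≤ Z(F(G)). -/
theorem result {G : Type*} [Group G] [Finite G] (N : Subgroup G) (hN : N ≤ Subgroup.centralizer (Cfsg.fittingSubgroup G : Set G)) (hnorm : Subgroup.centralizer (Cfsg.fittingSubgroup G : Set G) ≤ Subgroup.normalizer (N : Set G)) (hsolv : Group.IsSolvable ↥N) : N ≤ (Subgroup.center ↥(Cfsg.fittingSubgroup G)).map (Cfsg.fittingSubgroup G).subtype := by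
  have hFn := fittingSubgroup_normal G
  have hCn : (Subgroup.centralizer (Cfsg.fittingSubgroup G : Set G)).Normal := inferInstance
  have hsn : N.IsSubnormal := by
    refine Subgroup.IsSubnormal.trans hN ?_ hCn.isSubnormal
    exact ((Subgroup.normal_subgroupOf_iff_le_normalizer hN).mpr hnorm).isSubnormal
  have h1 := solvable_subnormal_le_fitting N hsn hN hsolv
  intro x hx
  refine ⟨⟨x, h1 hx⟩, ?_, rfl⟩
  rw [SetLike.mem_coe, Subgroup.mem_center_iff]
  intro y
  apply Subtype.ext
  have h2 := hN hx
  rw [Subgroup.mem_centralizer_iff] at h2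
  exact h2 y y.2

end Cfsg.Agent.S1264
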