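import Cfsg.Statements.S1267
import Cfsg.Agent.Lib.Helper10.CharP

set_option autoImplicit false
open Cfsg
open Cfsg.Agent.Lib.Helper10

namespace Cfsg.Agent.S1267

/-- Let G be finite and P ≤ O_p(G). Then E(N_G(P)) = E(G). -/
theorem result {G : Type*} [Group G] [Finite G] (p : ℕ) [Fact p.Prime] (P : Subgroup G) (hP : P ≤ Cfsg.pCore p G) : (Cfsg.layer ↥(Subgroup.normalizer ((P : Subgroup G) : Set G))).map (Subgroup.normalizer ((P : Subgroup G) : Set G)).subtype = Cfsg.layer G := by
  have hpc := Cfsg.Agent.Lib.Helper23.isPGroup_pCore p G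
  have hpn := Cfsg.Agent.Lib.Helper23.pCore_normal' p G
  have hPp : IsPGroup p P := hpc.to_le hP
  apply le_antisymm
  · rw [Subgroup.map_le_iff_le_comap, layer_le_iff]
    intro L₀ hL₀
    rw [← Subgroup.map_le_iff_le_comap]
    apply component_le_layer
    have hCn : (Subgroup.centralizer (Cfsg.pCore p G : Set G)).Normal := inferInstance
    have hCN : Subgroup.centralizer (Cfsg.pCore p G : Set G) ≤ Subgroup.normalizer (P : Set G) :=
      (Subgroup.centralizer_le hP).trans (Subgroup.centralizer_le_normalizer _)
    have hLC : L₀.map (Subgroup.normalizer (P : Set G)).subtype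
        ≤ Subgroup.centralizer (Cfsg.pCore p G : Set G) :=
      (Subgroup.map_mono ((component_le_layer hL₀).trans (layer_le_pE p _))).trans
        (pE_normalizer_le_centralizer p P hPp hpn hpc)
    apply isComponent_of_subgroupOf hCn.isSubnormal hLC
    have heq : (L₀.map (Subgroup.normalizer (P : Set G)).subtype).subgroupOf
        (Subgroup.centralizer (Cfsg.pCore p G : Set G)) = L₀.comap (Subgroup.inclusion hCN) := by
      ext x
      rw [Subgroup.mem_subgroupOf, Subgroup.mem_comap]
      constructor
      · rintro ⟨y, hy, hyx⟩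
        have : y = Subgroup.inclusion hCN x := Subtype.ext hyx
        rw [← this]; exact hy
      · intro hx
        exact ⟨_, hx, rfl⟩
    refine ⟨heq ▸ hL₀.1.comap _, ?_⟩
    exact isQuasisimple_of_mulEquiv
      ((L₀.equivMapOfInjective _ (Subgroup.subtype_injective _)).trans
        (Subgroup.subgroupOfEquivOfLe hLC).symm) hL₀.2
  · rw [layer_le_iff]
    intro L hL
    have hLN : L ≤ Subgroup.normalizer (P : Set G) := by
      have h1 := component_commutator_fitting hL
      rw [Subgroup.commutator_eq_bot_iff_le_centralizer] at h1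
      exact (h1.trans (Subgroup.centralizer_le
        (hP.trans (Cfsg.Agent.Lib.Helper23.pCore_le_fittingSubgroup p G)))).trans
        (Subgroup.centralizer_le_normalizer _)
    have h2 := component_le_layer (isComponent_subgroupOf hL hLN)
    calc L = (L.subgroupOf (Subgroup.normalizer (P : Set G))).map
          (Subgroup.normalizer (P : Set G)).subtype := (Subgroup.map_subgroupOf_eq_of_le hLN).symm
      _ ≤ _ := Subgroup.map_mono h2

end Cfsg.Agent.S1267
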