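import Cfsg.Statements.S1273
import Cfsg.Agent.Lib.Helper10.PComp2

set_option autoImplicit false
open Cfsg
open Cfsg.Agent.Lib.Helper10

namespace Cfsg.Agent.S1273

/-- Let K be a p-component of the finite group X and N a normal subgroup of K whose index in K is prime to p. Then N = K. -/
theorem result {X : Type*} [Group X] [Finite X] (p : ℕ) [Fact p.Prime] (K : Subgroup X) (hK : Cfsg.IsPComponent p K) (N : Subgroup ↥K) [N.Normal] (hidx : (N.index).Coprime p) : N = ⊤ := by
  have h1 : K ≤ N.map K.subtype := by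
    conv_lhs => rw [eq_pGen_of_isPComponent hK]
    rw [pGen_le_iff]
    intro x hx hpx
    have hxK : x ∈ K := by
      rw [comap_map_mk_pPrimeCore] at hx
      exact pElt_mem_of_mem_sup hK.1 x hx hpx
    refine ⟨⟨x, hxK⟩, ?_, rfl⟩
    apply pElt_mem_of_index_coprime N hidx
    obtain ⟨k, hk⟩ := hpx
    exact ⟨k, Subtype.ext (by simpa using hk)⟩
  rw [eq_top_iff]
  intro x _
  obtain ⟨y, hy, hyx⟩ := h1 x.2
  have : y = x := Subtype.ext hyx
  rwa [← this]

end Cfsg.Agent.S1273
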