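import Cfsg.Statements.S1276
import Cfsg.Agent.Lib.Helper10.PComp2

set_option autoImplicit false
open Cfsg
open Cfsg.Agent.Lib.Helper10

namespace Cfsg.Agent.S1276

/-- Let K be a 2-component of the finite group X. Then K is quasisimple if and only if ⁅K, O(K)⁆ = 1. -/
theorem result {X : Type*} [Group X] [Finite X] (K : Subgroup X) (hK : Cfsg.IsPComponent 2 K) : Cfsg.IsQuasisimple ↥K ↔ ⁅K, ((Cfsg.oddCore ↥K).map K.subtype)⁆ = ⊥ := by
  rw [map_pPrimeCore_eq K hK.1]
  constructor
  · intro hq
    have hKc : Cfsg.IsComponent K := ⟨hK.1, hq⟩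
    have h1 := (component_le_or_commutator_eq_bot X K (Cfsg.pPrimeCore 2 X) hKc
      (inferInstance : (Cfsg.pPrimeCore 2 X).Normal).isSubnormal).resolve_left (pcomp_not_le_core hK)
    rw [eq_bot_iff, ← h1]
    exact Subgroup.commutator_mono le_rfl inf_le_right
  · exact pcomp_qs_of_commutator_core hK

end Cfsg.Agent.S1276
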