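import Cfsg.Statements.S1277
import Cfsg.Agent.Lib.Helper10.PComp2

set_option autoImplicit false
open Cfsg
open Cfsg.Agent.Lib.Helper10

namespace Cfsg.Agent.S1277

/-- The image of a component in a quotient is trivial or a component. -/
theorem map_component_quotient {X : Type*} [Group X] [Finite X] (N : Subgroup X) [hN : N.Normal]
    {L : Subgroup X} (hL : Cfsg.IsComponent L) :
    L.map (QuotientGroup.mk' N) = ⊥ ∨ Cfsg.IsComponent (L.map (QuotientGroup.mk' N)) := by
  rcases component_le_or_commutator_eq_bot X L N hL hN.isSubnormal with h | h
  · left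
    rw [Subgroup.map_eq_bot_iff, QuotientGroup.ker_mk']
    exact h
  · right
    refine ⟨hL.1.map (QuotientGroup.mk'_surjective N), ?_⟩
    apply isQuasisimple_of_surjective_of_ker_le_center hL.2
      ((QuotientGroup.mk' N).subgroupMap L) (MonoidHom.subgroupMap_surjective _ _)
    intro x hx
    rw [MonoidHom.mem_ker] at hx
    have hxN : (x : X) ∈ N := by
      have := congrArg Subtype.val hx
      exact (QuotientGroup.eq_one_iff (x : X)).mp this
    rw [Subgroup.mem_center_iff]
    intro g
    apply Subtype.ext
    rw [Subgroup.commutator_eq_bot_iff_le_centralizer] at h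
    exact ((Subgroup.mem_centralizer_iff.mp (h g.2)) x hxN).symm

/-- For a finite group X with core O(X): the image of E(X) in X / O(X) is all of E(X / O(X)) if and only if every 2-component of X is a component, i.e. L_{2'}(X) ≤ E(X). -/
theorem result {X : Type*} [Group X] [Finite X] : (Cfsg.layer X).map (QuotientGroup.mk' (Cfsg.oddCore X)) = Cfsg.layer (X ⧸ Cfsg.oddCore X) ↔ Cfsg.pLayer 2 X ≤ Cfsg.layer X := by
  set π := QuotientGroup.mk' (Cfsg.oddCore X) with hπ
  constructor
  · intro h
    rw [pLayer_le_iff]
    intro K hK
    have hex : ∃ L : Subgroup X, Cfsg.IsComponent L ∧ L.map π = K.map π := by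
      by_contra hcon
      push Not at hcon
      have h1 : (Cfsg.layer X).map π ≤ Subgroup.centralizer ((K.map π : Subgroup _) : Set _) := by
        rw [Subgroup.map_le_iff_le_comap, layer_le_iff]
        intro L hL
        rw [← Subgroup.map_le_iff_le_comap, ← Subgroup.commutator_eq_bot_iff_le_centralizer]
        rcases map_component_quotient (Cfsg.oddCore X) hL with h2 | h2
        · rw [h2, Subgroup.commutator_bot_left]
        · exact (components_eq_or_commute h2 hK.2.1).resolve_left (hcon L hL)
      rw [h] at h1
      have h3 := (component_le_layer hK.2.1).trans h1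
      rw [← Subgroup.commutator_eq_bot_iff_le_centralizer, component_perfect hK.2.1] at h3
      exact component_ne_bot hK.2.1 h3
    obtain ⟨L, hL, hLK⟩ := hex
    rw [eq_pGen_of_isPComponent hK, ← hLK]
    exact (pGen_comap_map_le hL.1).trans (component_le_layer hL)
  · intro h
    apply le_antisymm
    · rw [Subgroup.map_le_iff_le_comap, layer_le_iff]
      intro L hL
      rw [← Subgroup.map_le_iff_le_comap]
      rcases map_component_quotient (Cfsg.oddCore X) hL with h2 | h2
      · rw [h2]; exact bot_le
      · exact component_le_layer h2
    · rw [← map_pLayer]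
      exact Subgroup.map_mono h

end Cfsg.Agent.S1277
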