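import Cfsg.Statements.S1278
import Cfsg.Agent.Lib.Helper10.PComp2

set_option autoImplicit false
open Cfsg
open Cfsg.Agent.Lib.Helper10

namespace Cfsg.Agent.S1278

/-- Let K ≠ L be 2-components of the finite group X. Then ⁅K, L⁆ ≤ O(K) ⊓ O(L), and if K is quasisimple then ⁅K, L⁆ = 1. -/
theorem result {X : Type*} [Group X] [Finite X] (K L : Subgroup X) (hK : Cfsg.IsPComponent 2 K) (hL : Cfsg.IsPComponent 2 L) (hne : K ≠ L) : ⁅K, L⁆ ≤ ((Cfsg.oddCore ↥K).map K.subtype) ⊓ ((Cfsg.oddCore ↥L).map L.subtype) ∧ (Cfsg.IsQuasisimple ↥K → ⁅K, L⁆ = ⊥) := by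
  have h1 := pcomp_commutator_le_core hK hL hne
  have h2 : ⁅K, L⁆ ≤ K := Subgroup.le_normalizer_iff_commutator_le_left.mp
    ((pcomp_le_pLayer hL).trans (pLayer_le_normalizer_pcomp hK))
  have h3 : ⁅K, L⁆ ≤ L := Subgroup.le_normalizer_iff_commutator_le_right.mp
    ((pcomp_le_pLayer hK).trans (pLayer_le_normalizer_pcomp hL))
  refine ⟨?_, ?_⟩
  · rw [map_pPrimeCore_eq K hK.1, map_pPrimeCore_eq L hL.1]
    exact le_inf (le_inf h2 h1) (le_inf h3 h1)
  · intro hq
    rcases component_le_or_commutator_eq_bot X K L ⟨hK.1, hq⟩ hL.1 with h | h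
    · exfalso
      rcases pcomp_subnormal_dichotomy hL hK.1 h with h4 | h4
      · exact hne h4
      · apply pcomp_not_le_core hK
        rw [← pcomp_perfect hK]
        exact (Subgroup.commutator_mono le_rfl h).trans h4
    · exact h

end Cfsg.Agent.S1278
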