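import Cfsg.Statements.S1279
-- import your own Cfsg.Agent.* helpers here
import Mathlib
import Cfsg.Agent.Lib.Helper13.Balance

set_option autoImplicit false
open Cfsg

namespace Cfsg.Agent.S1279

open Cfsg.Agent.Lib.Helper13

/-- Let A be a noncyclic elementary abelian p-subgroup of the finite group G such that C_G(a) is solvable for every non-identity a ∈ A. Then a ↦ O_{p'}(C_G(a)) is a solvable A-signalizer functor on G. -/
theorem result {G : Type*} [Group G] [Finite G] (p : ℕ) [Fact p.Prime] (A : Subgroup G) (hA : Cfsg.IsElementaryAbelian p A) (hA2 : p ^ 2 ≤ Nat.card ↥A) (hsolv : ∀ a ∈ A, a ≠ 1 → Group.IsSolvable ↥(Subgroup.centralizer ({a} : Set G))) : Cfsg.IsSolvableSignalizerFunctor p A (fun a => Cfsg.centralizerPPrimeCore p a) := by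
  classical
  have hcomm : ∀ a ∈ A, ∀ b ∈ A, a * b = b * a := by
    intro a ha b hb
    have := hA.1.is_comm.comm ⟨a, ha⟩ ⟨b, hb⟩
    exact congrArg Subtype.val this
  refine ⟨⟨?_, ?_, ?_, ?_⟩, ?_⟩
  · intro a _ _
    exact centralizerPPrimeCore_le p a
  · intro a _ _ hd
    have h2 : Nat.card (Cfsg.centralizerPPrimeCore p a) =
        Nat.card (Cfsg.pPrimeCore p ↥(Subgroup.centralizer ({a} : Set G))) :=
      Subgroup.card_map_of_injective (Subgroup.subtype_injective _)
    rw [h2] at hd
    have hc : (Nat.card (Cfsg.pPrimeCore p ↥(Subgroup.centralizer ({a} : Set G)))).Coprime p :=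
      Cfsg.Agent.Lib.Helper5.pPrimeCore_coprime
    exact (Nat.Prime.coprime_iff_not_dvd Fact.out).mp hc.symm hd
  · intro a ha _ b hb x hx
    obtain ⟨e, he, rfl⟩ := hx
    have hba : b ∈ Subgroup.centralizer ({a} : Set G) := by
      rw [Subgroup.mem_centralizer_singleton_iff]; exact hcomm b hb a ha
    have hn : (Cfsg.pPrimeCore p ↥(Subgroup.centralizer ({a} : Set G))).Normal := inferInstance
    exact ⟨⟨b, hba⟩ * e * ⟨b, hba⟩⁻¹, hn.conj_mem e he _, rfl⟩
  · intro a ha _ b hb hb1
    have := hsolv b hb hb1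
    exact balance_half p a b (hA.2 a ha) (hcomm a ha b hb) (constrained_of_solvable _ p)
  · intro a ha ha1
    have := hsolv a ha ha1
    have h1 : Group.IsSolvable (Cfsg.pPrimeCore p ↥(Subgroup.centralizer ({a} : Set G))) := inferInstance
    exact Group.isSolvable_of_surjective (f := ((Subgroup.centralizer ({a} : Set G)).subtype.subgroupMap
      (Cfsg.pPrimeCore p ↥(Subgroup.centralizer ({a} : Set G)))))
      (MonoidHom.subgroupMap_surjective _ _)

end Cfsg.Agent.S1279
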