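import Cfsg.Statements.S1280
import Cfsg.Agent.Lib.Helper9.FixCoset
import Cfsg.Agent.Lib.Helper9.SupNorm

set_option autoImplicit false
open Cfsg

namespace Cfsg.Agent.S1280

/-- Let θ be a solvable A-signalizer functor (A a noncyclic elementary abelian p-subgroup of the finite group G), and X, Y members of its family with Y ≤ N_G(X). Then X ⊔ Y (= XY) is again in the family. -/
theorem result {G : Type*} [Group G] [Finite G] (p : ℕ) [Fact p.Prime] (A : Subgroup G) (hA : Cfsg.IsElementaryAbelian p A) (hA2 : p ^ 2 ≤ Nat.card ↥A) (θ : G → Subgroup G) (hθ : Cfsg.IsSolvableSignalizerFunctor p A θ) (X Y : Subgroup G) (hX : X ∈ Cfsg.signalizerFamily p A θ) (hY : Y ∈ Cfsg.signalizerFamily p A θ) (hn : Y ≤ Subgroup.normalizer (X : Set G)) : X ⊔ Y ∈ Cfsg.signalizerFamily p A θ := by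
  obtain ⟨hXs, hXp, hXA, hXθ⟩ := hX
  obtain ⟨hYs, hYp, hYA, hYθ⟩ := hY
  have hp : p.Prime := Fact.out
  refine ⟨Cfsg.Agent.Lib.Helper9.sup_solvable hn hXs hYs, ?_, ?_, ?_⟩
  · intro h
    rcases (hp.dvd_mul).1 (h.trans (Cfsg.Agent.Lib.Helper9.sup_card_dvd hn)) with h | h
    · exact hXp h
    · exact hYp h
  · intro b hb u hu
    obtain ⟨x, hx, y, hy, rfl⟩ := (Cfsg.Agent.Lib.Helper9.mem_sup_of_le_normalizer hn).1 hu
    have : b * (x * y) * b⁻¹ = (b * x * b⁻¹) * (b * y * b⁻¹) := by group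
    rw [this]
    exact Subgroup.mul_mem _ ((le_sup_left : X ≤ X ⊔ Y) (hXA b hb x hx))
      ((le_sup_right : Y ≤ X ⊔ Y) (hYA b hb y hy))
  · intro a ha ha1 z hz
    obtain ⟨hz1, hz2⟩ := Subgroup.mem_inf.1 hz
    rw [Subgroup.mem_centralizer_singleton_iff] at hz2
    obtain ⟨x, hx, y, hy, rfl⟩ := (Cfsg.Agent.Lib.Helper9.mem_sup_of_le_normalizer hn).1 hz1
    have hyN := hn hy
    have hconj : ∀ w ∈ X, y⁻¹ * w * y ∈ X := fun w hw =>
      (Subgroup.mem_normalizer_iff''.1 hyN w).1 hw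
    have hconj' : ∀ w ∈ X, y * w * y⁻¹ ∈ X := fun w hw =>
      (Subgroup.mem_normalizer_iff.1 hyN w).1 hw
    have haz : a * (x * y) * a⁻¹ = x * y := by rw [← hz2]; group
    have hN' : ∀ y', y⁻¹ * y' ∈ X → y⁻¹ * (a * y' * a⁻¹) ∈ X := by
      intro y' hy'
      have e : y⁻¹ * (a * y' * a⁻¹)
          = (y⁻¹ * ((a * x * a⁻¹)⁻¹ * x) * y) * (a * (y⁻¹ * y') * a⁻¹) := by
        have e1 : a * y * a⁻¹ = (a * x * a⁻¹)⁻¹ * (x * y) := by
          rw [← haz]; group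
        calc y⁻¹ * (a * y' * a⁻¹) = y⁻¹ * (a * y * a⁻¹) * (a * (y⁻¹ * y') * a⁻¹) := by group
          _ = _ := by rw [e1]; group
      rw [e]
      exact X.mul_mem (hconj _ (X.mul_mem (X.inv_mem (hXA a ha x hx)) hx)) (hXA a ha _ hy')
    have hcard : ¬ p ∣ Nat.card (Y ⊓ X : Subgroup G) := fun h =>
      hXp (h.trans (Subgroup.card_dvd_of_le inf_le_right))
    obtain ⟨y', hy', hy'X, hy'a⟩ := Cfsg.Agent.Lib.Helper9.exists_fixed_in_coset Y X a y
      (hA.2 a ha) (hYA a ha) hy hN' hcard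
    have hy'θ : y' ∈ θ a := by
      apply hYθ a ha ha1
      refine Subgroup.mem_inf.2 ⟨hy', ?_⟩
      rw [Subgroup.mem_centralizer_singleton_iff]
      calc y' * a = (a * y' * a⁻¹) * a := by rw [hy'a]
        _ = a * y' := by group
    have hw : x * y * y'⁻¹ ∈ X := by
      have : x * y * y'⁻¹ = x * (y * (y⁻¹ * y')⁻¹ * y⁻¹) := by group
      rw [this]
      exact X.mul_mem hx (hconj' _ (X.inv_mem hy'X))
    have hwθ : x * y * y'⁻¹ ∈ θ a := by
      apply hXθ a ha ha1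
      refine Subgroup.mem_inf.2 ⟨hw, ?_⟩
      rw [Subgroup.mem_centralizer_singleton_iff]
      have : a * (x * y * y'⁻¹) * a⁻¹ = x * y * y'⁻¹ := by
        calc a * (x * y * y'⁻¹) * a⁻¹ = (a * (x * y) * a⁻¹) * (a * y' * a⁻¹)⁻¹ := by group
          _ = _ := by rw [haz, hy'a]
      calc x * y * y'⁻¹ * a = (a * (x * y * y'⁻¹) * a⁻¹) * a := by rw [this]
        _ = a * (x * y * y'⁻¹) := by group
    have : x * y = (x * y * y'⁻¹) * y' := by group
    rw [this]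
    exact (θ a).mul_mem hwθ hy'θ

end Cfsg.Agent.S1280
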