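import Cfsg.Statements.S1281
import Cfsg.Agent.Lib.Helper9.FixCoset

set_option autoImplicit false
open Cfsg

namespace Cfsg.Agent.S1281

/-- Let θ be a solvable A-signalizer functor on the finite group G (A a noncyclic elementary abelian p-subgroup) and N a normal subgroup of order prime to p. Then for all non-identity a, b ∈ A, the image of θ a in G / N meets the centralizer of the image of b inside the image of θ b. -/
theorem result {G : Type*} [Group G] [Finite G] (p : ℕ) [Fact p.Prime] (A : Subgroup G) (hA : Cfsg.IsElementaryAbelian p A) (hA2 : p ^ 2 ≤ Nat.card ↥A) (θ : G → Subgroup G) (hθ : Cfsg.IsSolvableSignalizerFunctor p A θ) (N : Subgroup G) [N.Normal] (hN : ¬ p ∣ Nat.card ↥N) (a b : G) (ha : a ∈ A) (ha1 : a ≠ 1) (hb : b ∈ A) (hb1 : b ≠ 1) : (θ a).map (QuotientGroup.mk' N) ⊓ Subgroup.centralizer {QuotientGroup.mk' N b} ≤ (θ b).map (QuotientGroup.mk' N) := by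
  obtain ⟨⟨h1, h2, h3, h4⟩, _⟩ := hθ
  rintro _ ⟨⟨x, hx, rfl⟩, hxb⟩
  replace hxb : (QuotientGroup.mk' N) x ∈ Subgroup.centralizer {(QuotientGroup.mk' N) b} := hxb
  replace hx : x ∈ θ a := hx
  rw [Subgroup.mem_centralizer_singleton_iff] at hxb
  have hN' : ∀ y, x⁻¹ * y ∈ N → x⁻¹ * (b * y * b⁻¹) ∈ N := by
    intro y hy
    rw [← QuotientGroup.eq_one_iff] at hy ⊢
    have hy' : (QuotientGroup.mk' N y) = QuotientGroup.mk' N x := by
      have : (QuotientGroup.mk' N x)⁻¹ * (QuotientGroup.mk' N y) = 1 := by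
        rw [← map_inv, ← map_mul]; exact hy
      exact (inv_mul_eq_one.1 this).symm
    change QuotientGroup.mk' N (x⁻¹ * (b * y * b⁻¹)) = 1
    rw [map_mul, map_mul, map_mul, map_inv, map_inv, hy', ← hxb]
    group
  have hcard : ¬ p ∣ Nat.card (θ a ⊓ N : Subgroup G) := fun h =>
    hN (h.trans (Subgroup.card_dvd_of_le inf_le_right))
  obtain ⟨y, hy, hyN, hyb⟩ := Cfsg.Agent.Lib.Helper9.exists_fixed_in_coset (θ a) N b x (hA.2 b hb)
    (h3 a ha ha1 b hb) hx hN' hcard
  refine ⟨y, h4 a ha ha1 b hb hb1 (Subgroup.mem_inf.2 ⟨hy, ?_⟩), ?_⟩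
  · rw [Subgroup.mem_centralizer_singleton_iff]
    calc y * b = (b * y * b⁻¹) * b := by rw [hyb]
      _ = b * y := by group
  · have : (QuotientGroup.mk' N x)⁻¹ * (QuotientGroup.mk' N y) = 1 := by
      rw [← map_inv, ← map_mul]; exact (QuotientGroup.eq_one_iff _).2 hyN
    exact (inv_mul_eq_one.1 this).symm

end Cfsg.Agent.S1281
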