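import Cfsg.Statements.S1282
import Cfsg.Agent.Lib.Helper9.PGrp
import Cfsg.Agent.S1324

set_option autoImplicit false
open Cfsg

namespace Cfsg.Agent.S1282

open Cfsg.Agent.Lib.Helper9

theorem exists_hyperplane {G : Type*} [Group G] [Finite G] (p : ℕ) [Fact p.Prime] (A : Subgroup G)
    (hA : Cfsg.IsElementaryAbelian p A) (hA2 : p ^ 2 ≤ Nat.card ↥A) (X D : Subgroup G)
    (hX : ¬ p ∣ Nat.card ↥X) (hAX : A ≤ Subgroup.normalizer (X : Set G)) (hXD : ¬ X ≤ D) :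
    ∃ B : Subgroup G, B ≤ A ∧ B.relIndex A ≤ p ∧ ¬ (X ⊓ Subgroup.centralizer (B : Set G) ≤ D) := by
  by_contra hcon
  push Not at hcon
  apply hXD
  rw [Cfsg.Agent.S1324.result p A X hA hA2 hX hAX]
  exact iSup_le (fun B => hcon B.1 B.2.1 B.2.2)

/-- Let A be an elementary abelian p-subgroup of rank at least 3 of the finite group G, q ≠ p a prime, and Q₁, Q₂ q-subgroups normalized by A with D = Q₁ ∩ Q₂ different from both. Then there is a non-identity a ∈ A such that, for i = 1 and i = 2, N_{Q_i}(D) ∩ C_G(a) is not contained in D. -/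
theorem result {G : Type*} [Group G] [Finite G] (p : ℕ) [Fact p.Prime] (A : Subgroup G) (hA : Cfsg.IsElementaryAbelian p A) (hA3 : p ^ 3 ≤ Nat.card ↥A) (q : ℕ) [Fact q.Prime] (hqp : q ≠ p) (Q₁ Q₂ : Subgroup G) (h₁ : IsPGroup q ↥Q₁) (h₂ : IsPGroup q ↥Q₂) (hA₁ : A ≤ Subgroup.normalizer (Q₁ : Set G)) (hA₂ : A ≤ Subgroup.normalizer (Q₂ : Set G)) (hD₁ : Q₁ ⊓ Q₂ ≠ Q₁) (hD₂ : Q₁ ⊓ Q₂ ≠ Q₂) : ∃ a ∈ A, a ≠ 1 ∧ ¬ (Subgroup.normalizer ((Q₁ ⊓ Q₂ : Subgroup G) : Set G) ⊓ Q₁ ⊓ Subgroup.centralizer {a} ≤ Q₁ ⊓ Q₂) ∧ ¬ (Subgroup.normalizer ((Q₁ ⊓ Q₂ : Subgroup G) : Set G) ⊓ Q₂ ⊓ Subgroup.centralizer {a} ≤ Q₁ ⊓ Q₂) := by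
  have hp : p.Prime := Fact.out
  have hq : q.Prime := Fact.out
  have hA2 : p ^ 2 ≤ Nat.card ↥A := le_trans (Nat.pow_le_pow_right hp.pos (by norm_num)) hA3
  obtain ⟨D, hD⟩ : ∃ D : Subgroup G, D = Q₁ ⊓ Q₂ := ⟨_, rfl⟩
  rw [← hD] at hD₁ hD₂ ⊢
  have hAD : A ≤ Subgroup.normalizer (D : Set G) := by rw [hD]; exact le_normalizer_inf hA₁ hA₂
  have hAND : A ≤ Subgroup.normalizer ((Subgroup.normalizer (D : Set G) : Subgroup G) : Set G) :=
    hAD.trans Subgroup.le_normalizer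
  have main : ∀ Q : Subgroup G, IsPGroup q Q → A ≤ Subgroup.normalizer (Q : Set G) → D ≤ Q →
      D ≠ Q → ∃ B : Subgroup G, B ≤ A ∧ B.relIndex A ≤ p ∧
      ¬ (Subgroup.normalizer (D : Set G) ⊓ Q ⊓ Subgroup.centralizer (B : Set G) ≤ D) := by
    intro Q hQ hAQ hDQ hne
    apply exists_hyperplane p A hA hA2
    · exact not_dvd_card_of_isPGroup hp hq hqp (hQ.to_le inf_le_right)
    · exact le_normalizer_inf hAND hAQ
    · obtain ⟨x, hxQ, hxN, hxD⟩ := normalizer_growth hQ hDQ hne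
      exact fun h => hxD (h ⟨hxN, hxQ⟩)
  obtain ⟨B₁, hB₁A, hB₁i, hB₁⟩ := main Q₁ h₁ hA₁ (by rw [hD]; exact inf_le_left) hD₁
  obtain ⟨B₂, hB₂A, hB₂i, hB₂⟩ := main Q₂ h₂ hA₂ (by rw [hD]; exact inf_le_right) hD₂
  have hidx : (B₁ ⊓ B₂).relIndex A ≤ p * p :=
    (Subgroup.relIndex_inf_le).trans (Nat.mul_le_mul hB₁i hB₂i)
  have hcard : (B₁ ⊓ B₂).relIndex A * Nat.card (B₁ ⊓ B₂ : Subgroup G) = Nat.card A := by
    have h1 := ((B₁ ⊓ B₂).subgroupOf A).index_mul_card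
    rwa [Nat.card_congr (Subgroup.subgroupOfEquivOfLe (inf_le_left.trans hB₁A)).toEquiv] at h1
  have hne : (B₁ ⊓ B₂ : Subgroup G) ≠ ⊥ := by
    intro h
    rw [h] at hidx
    rw [h, Subgroup.card_bot, mul_one] at hcard
    have h3 : p ^ 3 ≤ p * p := by rw [hcard] at hidx; exact hA3.trans hidx
    have h4 : p ^ 3 = p * p * p := by ring
    rw [h4] at h3
    have h5 : p * p * 2 ≤ p * p * p := Nat.mul_le_mul_left _ hp.two_le
    have h6 : 0 < p * p := Nat.mul_pos hp.pos hp.pos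
    omega
  obtain ⟨a, ha, ha1⟩ := (Subgroup.bot_or_exists_ne_one _).resolve_left hne
  refine ⟨a, hB₁A ha.1, ha1, fun h => hB₁ (le_trans ?_ h), fun h => hB₂ (le_trans ?_ h)⟩
  · apply inf_le_inf_left
    apply Subgroup.centralizer_le
    intro x hx
    rw [Set.mem_singleton_iff.1 hx]; exact ha.1
  · apply inf_le_inf_left
    apply Subgroup.centralizer_le
    intro x hx
    rw [Set.mem_singleton_iff.1 hx]; exact ha.2

end Cfsg.Agent.S1282
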