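import Cfsg.Statements.S1283
import Cfsg.Agent.Lib.Helper9.SigFam
import Cfsg.Agent.S1280
import Cfsg.Agent.S1282
import Cfsg.Agent.Lib.Helper1.CoprimeSylow

set_option autoImplicit false
open Cfsg

namespace Cfsg.Agent.S1283

open Cfsg.Agent.Lib.Helper9 Cfsg.Agent.Lib.Helper26 Cfsg.Agent.Lib.Helper1

variable {G : Type*} [Group G]

theorem sylow_smul_map {K : Subgroup G} {q : ℕ} (P Q : Sylow q K) (c : K)
    (h : MulAut.conj c • P = Q) :
    cj (c : G) ((P : Subgroup K).map K.subtype) = (Q : Subgroup K).map K.subtype := by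
  ext x
  rw [mem_cj]
  constructor
  · rintro ⟨y, hy, hyx⟩
    refine ⟨c * y * c⁻¹, ?_, ?_⟩
    · rw [← h]
      exact conj_mem_conj_smul (H := (P : Subgroup K)) hy
    · have : (y : G) = (c : G)⁻¹ * x * c := hyx
      simp only [Subgroup.subtype_apply, Subgroup.coe_mul, Subgroup.coe_inv, this]
      group
  · rintro ⟨y, hy, rfl⟩
    rw [← h] at hy
    have := (mem_conj_smul (H := (P : Subgroup K))).1 hy
    exact ⟨_, this, rfl⟩

theorem isPGroup_of_elemAb {p : ℕ} {A : Subgroup G} (hA : Cfsg.IsElementaryAbelian p A) :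
    IsPGroup p A := by
  intro a
  exact ⟨1, by rw [pow_one]; exact Subtype.ext (by simpa using hA.2 a a.2)⟩

theorem coprime_of_not_dvd [Finite G] {p : ℕ} [Fact p.Prime] {A U : Subgroup G}
    (hA : Cfsg.IsElementaryAbelian p A) (hU : ¬ p ∣ Nat.card U) :
    (Nat.card A).Coprime (Nat.card U) := by
  obtain ⟨k, hk⟩ := IsPGroup.iff_card.1 (isPGroup_of_elemAb hA)
  rw [hk]
  exact Nat.Coprime.pow_left k ((Nat.Prime.coprime_iff_not_dvd Fact.out).2 hU)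

theorem solvable_of_elemAb {p : ℕ} {A : Subgroup G} (hA : Cfsg.IsElementaryAbelian p A) :
    Group.IsSolvable A :=
  Group.isSolvable_of_comm (fun x y => Subtype.ext (comm_of_isMulCommutative hA.1 x.2 y.2))

theorem le_normalizer_centralizer_singleton {p : ℕ} {A : Subgroup G}
    (hA : Cfsg.IsElementaryAbelian p A) {a : G} (ha : a ∈ A) :
    A ≤ Subgroup.normalizer ((Subgroup.centralizer {a} : Subgroup G) : Set G) := by
  refine le_trans ?_ Subgroup.le_normalizer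
  intro b hb
  rw [Subgroup.mem_centralizer_singleton_iff]
  exact comm_of_isMulCommutative hA.1 hb ha

theorem transitive [Finite G] (p : ℕ) [Fact p.Prime] (A : Subgroup G)
    (hA : Cfsg.IsElementaryAbelian p A) (hA3 : p ^ 3 ≤ Nat.card ↥A) (θ : G → Subgroup G)
    (hθ : Cfsg.IsSolvableSignalizerFunctor p A θ) (q : ℕ) [Fact q.Prime] (hqp : q ≠ p) :
    ∀ (n : ℕ) (Q₁ Q₂ : Subgroup G), SigMax p A θ q Q₁ → SigMax p A θ q Q₂ →
      Nat.card G - Nat.card (Q₁ ⊓ Q₂ : Subgroup G) = n → SigConj A θ Q₁ Q₂ := by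
  intro n
  induction n using Nat.strong_induction_on with
  | _ n ih =>
    intro Q₁ Q₂ hQ₁ hQ₂ hn
    have hp : p.Prime := Fact.out
    have hA2 : p ^ 2 ≤ Nat.card ↥A := le_trans (Nat.pow_le_pow_right hp.pos (by norm_num)) hA3
    by_cases hD₁ : Q₁ ⊓ Q₂ = Q₁
    · have hle : Q₁ ≤ Q₂ := inf_eq_left.1 hD₁
      rw [hQ₁.2.2 Q₂ hQ₂.1 hQ₂.2.1 hle]
      exact SigConj.refl _
    by_cases hD₂ : Q₁ ⊓ Q₂ = Q₂
    · have hle : Q₂ ≤ Q₁ := inf_eq_right.1 hD₂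
      rw [hQ₂.2.2 Q₁ hQ₁.1 hQ₁.2.1 hle]
      exact SigConj.refl _
    have hAQ₁ : A ≤ Subgroup.normalizer (Q₁ : Set G) := norm_of_inv hQ₁.1.2.2.1
    have hAQ₂ : A ≤ Subgroup.normalizer (Q₂ : Set G) := norm_of_inv hQ₂.1.2.2.1
    obtain ⟨a, ha, ha1, hx₁, hx₂⟩ := Cfsg.Agent.S1282.result p A hA hA3 q hqp Q₁ Q₂ hQ₁.2.1 hQ₂.2.1
      hAQ₁ hAQ₂ hD₁ hD₂
    obtain ⟨D, hD⟩ : ∃ D : Subgroup G, D = Q₁ ⊓ Q₂ := ⟨_, rfl⟩
    rw [← hD] at hx₁ hx₂ hn
    obtain ⟨x₁, hx₁m, hx₁D⟩ := SetLike.not_le_iff_exists.1 hx₁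
    obtain ⟨x₂, hx₂m, hx₂D⟩ := SetLike.not_le_iff_exists.1 hx₂
    have hAD : A ≤ Subgroup.normalizer (D : Set G) := by
      rw [hD]; exact le_normalizer_inf hAQ₁ hAQ₂
    have hDfam : D ∈ Cfsg.signalizerFamily p A θ :=
      fam_of_le hQ₁.1 (by rw [hD]; exact inf_le_left) (inv_of_norm hAD)
    have hAθ : A ≤ Subgroup.normalizer ((θ a : Subgroup G) : Set G) :=
      norm_of_inv (hθ.1.2.2.1 a ha ha1)
    have hMfam : θ a ⊓ Subgroup.normalizer (D : Set G) ∈ Cfsg.signalizerFamily p A θ :=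
      fam_of_le (theta_mem_fam hθ ha ha1) inf_le_left
        (inv_of_norm (le_normalizer_inf hAθ (hAD.trans Subgroup.le_normalizer)))
    have hUfam := Cfsg.Agent.S1280.result p A hA hA2 θ hθ D _ hDfam hMfam inf_le_right
    obtain ⟨U, hU⟩ : ∃ U : Subgroup G, U = D ⊔ (θ a ⊓ Subgroup.normalizer (D : Set G)) := ⟨_, rfl⟩
    rw [← hU] at hUfam
    have hAU : A ≤ Subgroup.normalizer (U : Set G) := norm_of_inv hUfam.2.2.1
    have hcop : (Nat.card A).Coprime (Nat.card U) := coprime_of_not_dvd hA hUfam.2.1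
    have hDU : D ≤ U := by rw [hU]; exact le_sup_left
    -- for each i, a Sylow subgroup
    have hsyl : ∀ (Q : Subgroup G) (x : G), SigMax p A θ q Q → D ≤ Q →
        x ∈ Subgroup.normalizer (D : Set G) ⊓ Q ⊓ Subgroup.centralizer {a} →
        ∃ P : Sylow q U, D ≤ (P : Subgroup U).map U.subtype ∧ x ∈ (P : Subgroup U).map U.subtype ∧
          A ≤ Subgroup.normalizer (((P : Subgroup U).map U.subtype : Subgroup G) : Set G) := by
      intro Q x hQ hDQ hx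
      have hAQ : A ≤ Subgroup.normalizer (Q : Set G) := norm_of_inv hQ.1.2.2.1
      obtain ⟨P, hP1, hP2⟩ := invariant_sylow_ge A U hAU hcop (Or.inl (solvable_of_elemAb hA)) q _
        (Q ⊓ U) rfl inf_le_right (hQ.2.1.to_le inf_le_left) (le_normalizer_inf hAQ hAU)
      refine ⟨P, le_trans (le_inf hDQ hDU) hP1, hP1 ?_, hP2⟩
      refine Subgroup.mem_inf.2 ⟨hx.1.2, ?_⟩
      rw [hU]
      apply (le_sup_right : θ a ⊓ Subgroup.normalizer (D : Set G) ≤ _)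
      exact Subgroup.mem_inf.2 ⟨hQ.1.2.2.2 a ha ha1 (Subgroup.mem_inf.2 ⟨hx.1.2, hx.2⟩), hx.1.1⟩
    obtain ⟨P₁, hDP₁, hxP₁, hAP₁⟩ := hsyl Q₁ x₁ hQ₁ (by rw [hD]; exact inf_le_left) hx₁m
    obtain ⟨P₂, hDP₂, hxP₂, hAP₂⟩ := hsyl Q₂ x₂ hQ₂ (by rw [hD]; exact inf_le_right) hx₂m
    obtain ⟨c, hcA, hc⟩ := (invariant_sylow A U hAU hcop (Or.inl (solvable_of_elemAb hA)) q).2
      P₁ P₂ hAP₁ hAP₂
    have hc' := sylow_smul_map P₁ P₂ c hc
    have hcI : (c : G) ∈ Cfsg.signalizerInf A θ :=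
      fam_inf_centralizer_le hUfam (Subgroup.mem_inf.2 ⟨c.2, hcA⟩)
    have hPfam : ∀ P : Sylow q U,
        A ≤ Subgroup.normalizer (((P : Subgroup U).map U.subtype : Subgroup G) : Set G) →
        (P : Subgroup U).map U.subtype ∈ Cfsg.signalizerFamily p A θ := fun P hP =>
      fam_of_le hUfam (Subgroup.map_subtype_le _) (inv_of_norm hP)
    obtain ⟨T₁, hT₁, hPT₁⟩ := exists_sigMax (hPfam P₁ hAP₁) (P₁.isPGroup'.map _)
    obtain ⟨T₂, hT₂, hPT₂⟩ := exists_sigMax (hPfam P₂ hAP₂) (P₂.isPGroup'.map _)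
    -- measure decrease
    have hdec : ∀ (R R' : Subgroup G) (x : G), D ≤ R ⊓ R' → x ∈ R ⊓ R' → x ∉ D →
        Nat.card G - Nat.card (R ⊓ R' : Subgroup G) < n := by
      intro R R' x hDR hx hxD
      have hlt : D < R ⊓ R' := lt_of_le_of_ne hDR (fun h => hxD (h ▸ hx))
      have h1 := card_lt_of_lt hlt
      have h2 : Nat.card (R ⊓ R' : Subgroup G) ≤ Nat.card G := Subgroup.card_le_card_group _
      omega
    have c1 : SigConj A θ Q₁ T₁ := ih _ (hdec Q₁ T₁ x₁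
      (le_inf (by rw [hD]; exact inf_le_left) (hDP₁.trans hPT₁))
      (Subgroup.mem_inf.2 ⟨hx₁m.1.2, hPT₁ hxP₁⟩) hx₁D) Q₁ T₁ hQ₁ hT₁ rfl
    have c2 : SigConj A θ T₁ (cj (c : G) T₁) := ⟨c, hcI, rfl⟩
    have hle3 : (P₂ : Subgroup U).map U.subtype ≤ cj (c : G) T₁ := by
      rw [← hc']; exact cj_mono hPT₁
    have c3 : SigConj A θ (cj (c : G) T₁) T₂ := ih _ (hdec (cj (c : G) T₁) T₂ x₂
      (le_inf (hDP₂.trans hle3) (hDP₂.trans hPT₂))
      (Subgroup.mem_inf.2 ⟨hle3 hxP₂, hPT₂ hxP₂⟩) hx₂D) _ T₂ (hT₁.conj hθ.1 hcI) hT₂ rfl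
    have c4 : SigConj A θ Q₂ T₂ := ih _ (hdec Q₂ T₂ x₂
      (le_inf (by rw [hD]; exact inf_le_right) (hDP₂.trans hPT₂))
      (Subgroup.mem_inf.2 ⟨hx₂m.1.2, hPT₂ hxP₂⟩) hx₂D) Q₂ T₂ hQ₂ hT₂ rfl
    exact (c1.trans c2).trans (c3.trans c4.symm)

/-- Transitivity Theorem. Let θ be a solvable A-signalizer functor on the finite group G, A elementary abelian of rank at least 3, and q a prime dividing |θ a| for some non-identity a ∈ A. If Q₁ and Q₂ are q-subgroups in the family of θ, each maximal among the q-subgroups in the family, then Q₂ = c Q₁ c⁻¹ for some c in the intersection of the θ a, a ∈ A non-identity. -/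
theorem result {G : Type*} [Group G] [Finite G] (p : ℕ) [Fact p.Prime] (A : Subgroup G) (hA : Cfsg.IsElementaryAbelian p A) (hA3 : p ^ 3 ≤ Nat.card ↥A) (θ : G → Subgroup G) (hθ : Cfsg.IsSolvableSignalizerFunctor p A θ) (q : ℕ) [Fact q.Prime] (hq : ∃ a ∈ A, a ≠ 1 ∧ q ∣ Nat.card ↥(θ a)) (Q₁ Q₂ : Subgroup G) (hQ₁W : Q₁ ∈ Cfsg.signalizerFamily p A θ) (hQ₁q : IsPGroup q ↥Q₁) (hQ₁max : ∀ R ∈ Cfsg.signalizerFamily p A θ, IsPGroup q ↥R → Q₁ ≤ R → R = Q₁) (hQ₂W : Q₂ ∈ Cfsg.signalizerFamily p A θ) (hQ₂q : IsPGroup q ↥Q₂) (hQ₂max : ∀ R ∈ Cfsg.signalizerFamily p A θ, IsPGroup q ↥R → Q₂ ≤ R → R = Q₂) : ∃ c ∈ Cfsg.signalizerInf A θ, Q₁.map (MulAut.conj c).toMonoidHom = Q₂ := by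
  obtain ⟨a, ha, ha1, hqa⟩ := hq
  have hqp : q ≠ p := by
    rintro rfl
    exact hθ.1.2.1 a ha ha1 hqa
  exact transitive p A hA hA3 θ hθ q hqp _ Q₁ Q₂ ⟨hQ₁W, hQ₁q, hQ₁max⟩ ⟨hQ₂W, hQ₂q, hQ₂max⟩ rfl

end Cfsg.Agent.S1283
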