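import Cfsg.Statements.S1284
import Cfsg.Agent.S1283

set_option autoImplicit false
open Cfsg

namespace Cfsg.Agent.S1284

open Cfsg.Agent.Lib.Helper9 Cfsg.Agent.Lib.Helper26 Cfsg.Agent.Lib.Helper1 Cfsg.Agent.S1283

variable {G : Type*} [Group G]

theorem cj_of_mem {H : Subgroup G} {h : G} (hh : h ∈ H) : cj h H = H := by
  ext x
  rw [mem_cj]
  constructor
  · intro hx
    have : x = h * (h⁻¹ * x * h) * h⁻¹ := by group
    rw [this]
    exact H.mul_mem (H.mul_mem hh hx) (H.inv_mem hh)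
  · intro hx
    exact H.mul_mem (H.mul_mem (H.inv_mem hh) hx) hh

theorem exists_of_sylIn {q : ℕ} {K H : Subgroup G} (hKH : K ≤ H) (h : SylIn q K H) :
    ∃ S : Sylow q ↥H, (S : Subgroup ↥H).map H.subtype = K := by
  obtain ⟨R, hR⟩ := h
  exact ⟨R, by rw [hR, Subgroup.map_subgroupOf_eq_of_le hKH]⟩

theorem partA [Finite G] (p : ℕ) [Fact p.Prime] (A : Subgroup G)
    (hA : Cfsg.IsElementaryAbelian p A) (hA3 : p ^ 3 ≤ Nat.card ↥A) (θ : G → Subgroup G)
    (hθ : Cfsg.IsSolvableSignalizerFunctor p A θ) (q : ℕ) [Fact q.Prime] (hqp : q ≠ p)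
    (Q : Subgroup G) (hQ : SigMax p A θ q Q) (H : Subgroup G)
    (hH : H ∈ Cfsg.signalizerFamily p A θ) :
    ∃ c ∈ Cfsg.signalizerInf A θ, SylIn q (cj c Q ⊓ H) H := by
  have hAH : A ≤ Subgroup.normalizer (H : Set G) := norm_of_inv hH.2.2.1
  have hcop : (Nat.card A).Coprime (Nat.card H) := coprime_of_not_dvd hA hH.2.1
  obtain ⟨P, hP⟩ := (invariant_sylow A H hAH hcop (Or.inl (solvable_of_elemAb hA)) q).1
  have hPfam : (P : Subgroup H).map H.subtype ∈ Cfsg.signalizerFamily p A θ :=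
    fam_of_le hH (Subgroup.map_subtype_le _) (inv_of_norm hP)
  obtain ⟨T, hT, hPT⟩ := exists_sigMax hPfam (P.isPGroup'.map _)
  obtain ⟨c, hc, hcT⟩ := transitive p A hA hA3 θ hθ q hqp _ Q T hQ hT rfl
  refine ⟨c, hc, P, ?_⟩
  rw [hcT]
  symm
  apply P.is_maximal'
  · exact (hT.2.1.to_le inf_le_left).comap_subtype
  · intro x hx
    rw [Subgroup.mem_subgroupOf]
    exact Subgroup.mem_inf.2 ⟨hPT ⟨x, hx, rfl⟩, x.2⟩

/-- Let θ be a solvable A-signalizer functor on the finite group G, A elementary abelian of rank at least 3, q a prime dividing some |θ a|, and Q maximal among the q-subgroups in the family of θ. Then (a) for every member H of the family, some c in the intersection of the θ a (a ∈ A non-identity) makes c Q c⁻¹ ∩ H a Sylow q-subgroup of H; and (b) for every nontrivial subgroup B ≤ A, C_Q(B) is a Sylow q-subgroup of the intersection of the θ b over the non-identity b ∈ B. -/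
theorem result {G : Type*} [Group G] [Finite G] (p : ℕ) [Fact p.Prime] (A : Subgroup G) (hA : Cfsg.IsElementaryAbelian p A) (hA3 : p ^ 3 ≤ Nat.card ↥A) (θ : G → Subgroup G) (hθ : Cfsg.IsSolvableSignalizerFunctor p A θ) (q : ℕ) [Fact q.Prime] (hq : ∃ a ∈ A, a ≠ 1 ∧ q ∣ Nat.card ↥(θ a)) (Q : Subgroup G) (hQW : Q ∈ Cfsg.signalizerFamily p A θ) (hQq : IsPGroup q ↥Q) (hQmax : ∀ R ∈ Cfsg.signalizerFamily p A θ, IsPGroup q ↥R → Q ≤ R → R = Q) : (∀ H : Subgroup G, H ∈ Cfsg.signalizerFamily p A θ → ∃ c ∈ Cfsg.signalizerInf A θ, ∃ S : Sylow q ↥H, (S : Subgroup ↥H).map H.subtype = Q.map (MulAut.conj c).toMonoidHom ⊓ H) ∧ (∀ B : Subgroup G, B ≤ A → B ≠ ⊥ → ∃ S : Sylow q ↥(Cfsg.signalizerInf B θ), (S : Subgroup ↥(Cfsg.signalizerInf B θ)).map (Cfsg.signalizerInf B θ).subtype = Q ⊓ Subgroup.centralizer (B : Set G)) := by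
  obtain ⟨a₀, ha₀, ha₀1, hqa⟩ := hq
  have hqp : q ≠ p := by
    rintro rfl
    exact hθ.1.2.1 a₀ ha₀ ha₀1 hqa
  have hQ : SigMax p A θ q Q := ⟨hQW, hQq, hQmax⟩
  constructor
  · intro H hH
    obtain ⟨c, hc, hs⟩ := partA p A hA hA3 θ hθ q hqp Q hQ H hH
    exact ⟨c, hc, exists_of_sylIn inf_le_right hs⟩
  · intro B hBA hB
    obtain ⟨b₀, hb₀, hb₀1⟩ := (Subgroup.bot_or_exists_ne_one _).resolve_left hB
    have hle0 : Cfsg.signalizerInf B θ ≤ θ b₀ := fun x hx => mem_signalizerInf.1 hx b₀ hb₀ hb₀1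
    have hfam : Cfsg.signalizerInf B θ ∈ Cfsg.signalizerFamily p A θ := by
      apply fam_of_le (theta_mem_fam hθ (hBA hb₀) hb₀1) hle0
      intro a ha u hu
      rw [mem_signalizerInf] at hu ⊢
      intro b hb hb1
      exact hθ.1.2.2.1 b (hBA hb) hb1 a ha u (hu b hb hb1)
    obtain ⟨c, hc, hs⟩ := partA p A hA hA3 θ hθ q hqp Q hQ _ hfam
    have hcB : c ∈ Cfsg.signalizerInf B θ := by
      rw [mem_signalizerInf]
      intro b hb hb1
      exact mem_signalizerInf.1 hc b (hBA hb) hb1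
    have heq : Q ⊓ Subgroup.centralizer (B : Set G) = Q ⊓ Cfsg.signalizerInf B θ := by
      apply le_antisymm
      · intro x hx
        refine Subgroup.mem_inf.2 ⟨hx.1, ?_⟩
        rw [mem_signalizerInf]
        intro b hb hb1
        apply hQW.2.2.2 b (hBA hb) hb1
        refine Subgroup.mem_inf.2 ⟨hx.1, ?_⟩
        rw [Subgroup.mem_centralizer_singleton_iff]
        exact ((Subgroup.mem_centralizer_iff.1 hx.2) b hb).symm
      · intro x hx
        refine Subgroup.mem_inf.2 ⟨hx.1, ?_⟩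
        rw [Subgroup.mem_centralizer_iff]
        intro b hb
        by_cases hb1 : b = 1
        · rw [hb1]; simp
        · have := hθ.1.1 b (hBA hb) hb1 (mem_signalizerInf.1 hx.2 b hb hb1)
          exact (Subgroup.mem_centralizer_singleton_iff.1 this).symm
    rw [heq]
    apply exists_of_sylIn inf_le_right
    rw [sylIn_iff_card inf_le_right] at hs ⊢
    rw [← hs, ← card_cj c (Q ⊓ Cfsg.signalizerInf B θ), cj_inf, cj_of_mem hcB]

end Cfsg.Agent.S1284
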