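import Cfsg.Statements.S1285
import Cfsg.Agent.S1283

set_option autoImplicit false
open Cfsg

namespace Cfsg.Agent.S1285

open Cfsg.Agent.Lib.Helper9 Cfsg.Agent.Lib.Helper26 Cfsg.Agent.Lib.Helper1 Cfsg.Agent.S1283

variable {G : Type*} [Group G]

theorem cj_of_mem {H : Subgroup G} {h : G} (hh : h ∈ H) : cj h H = H := by
  ext x
  rw [mem_cj]
  constructor
  · intro hx
    have : x = h * (h⁻¹ * x * h) * h⁻¹ := by group
    rw [this]
    exact H.mul_mem (H.mul_mem hh hx) (H.inv_mem hh)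
  · intro hx
    exact H.mul_mem (H.mul_mem (H.inv_mem hh) hx) hh

/-- Let θ be a solvable A-signalizer functor on the finite group G with A elementary abelian of rank at least 3, and suppose that for some prime q every θ a (a ∈ A non-identity) is a q-group. Then θ is complete. -/
theorem result {G : Type*} [Group G] [Finite G] (p : ℕ) [Fact p.Prime] (A : Subgroup G) (hA : Cfsg.IsElementaryAbelian p A) (hA3 : p ^ 3 ≤ Nat.card ↥A) (θ : G → Subgroup G) (hθ : Cfsg.IsSolvableSignalizerFunctor p A θ) (q : ℕ) [Fact q.Prime] (hq : ∀ a ∈ A, a ≠ 1 → IsPGroup q ↥(θ a)) : Cfsg.IsCompleteSignalizerFunctor p A θ := by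
  refine ⟨hθ.1, ?_⟩
  by_cases hqp : q = p
  · subst hqp
    refine ⟨⊥, ?_, ?_, ?_⟩
    · intro b _ x hx
      rw [Subgroup.mem_bot] at hx ⊢
      rw [hx]; group
    · rw [Subgroup.card_bot]
      exact (Fact.out : q.Prime).one_lt.ne' ∘ Nat.dvd_one.1
    · intro a ha ha1
      rw [bot_inf_eq]
      symm
      obtain ⟨k, hk⟩ := IsPGroup.iff_card.1 (hq a ha ha1)
      have h2 := hθ.1.2.1 a ha ha1
      rw [← Subgroup.card_eq_one, hk]
      rcases Nat.eq_zero_or_pos k with h0 | h0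
      · rw [h0, pow_zero]
      · exfalso
        apply h2
        rw [hk]
        exact dvd_pow_self q h0.ne'
  · have hbot : (⊥ : Subgroup G) ∈ Cfsg.signalizerFamily p A θ := by
      refine ⟨inferInstance, ?_, ?_, ?_⟩
      · rw [Subgroup.card_bot]
        exact (Fact.out : p.Prime).one_lt.ne' ∘ Nat.dvd_one.1
      · intro b _ x hx
        rw [Subgroup.mem_bot] at hx ⊢
        rw [hx]; group
      · intro a _ _
        rw [bot_inf_eq]; exact bot_le
    obtain ⟨Q, hQ, _⟩ := exists_sigMax (q := q) hbot IsPGroup.of_bot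
    refine ⟨Q, hQ.1.2.2.1, hQ.1.2.1, ?_⟩
    intro a ha ha1
    apply le_antisymm (hQ.1.2.2.2 a ha ha1)
    refine le_inf ?_ (hθ.1.1 a ha ha1)
    obtain ⟨T, hT, hθT⟩ := exists_sigMax (theta_mem_fam hθ ha ha1) (hq a ha ha1)
    obtain ⟨c, hc, hcT⟩ := transitive p A hA hA3 θ hθ q hqp _ Q T hQ hT rfl
    have hcθ : c⁻¹ ∈ θ a := (θ a).inv_mem (mem_signalizerInf.1 hc a ha ha1)
    rw [← hcT] at hθT
    have := cj_mono (g := c⁻¹) hθT
    rwa [cj_inv_cj, cj_of_mem hcθ] at this

end Cfsg.Agent.S1285
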