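import Cfsg.Statements.S1286
-- import your own Cfsg.Agent.* helpers here

set_option autoImplicit false
open Cfsg

namespace Cfsg.Agent.S1286

open Equiv Equiv.Perm

abbrev X := Equiv.Perm (Fin 5)

def a : X := swap 0 1
def b : X := swap 2 3
def s : X := c[2, 3, 4]
def u : X := c[0, 1, 4]

def A : Subgroup X where
  carrier := {1, a, b, a * b}
  mul_mem' := by
    rintro x y (rfl | rfl | rfl | rfl) (rfl | rfl | rfl | rfl) <;>
      simp only [Set.mem_insert_iff, Set.mem_singleton_iff] <;> decide
  one_mem' := by simp
  inv_mem' := by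
    rintro x (rfl | rfl | rfl | rfl) <;>
      simp only [Set.mem_insert_iff, Set.mem_singleton_iff] <;> decide

def T (w : X) (hw : w * w * w = 1) : Subgroup X where
  carrier := {1, w, w * w}
  mul_mem' := by
    have h4 : w * w * (w * w) = w := by
      calc w * w * (w * w) = (w * w * w) * w := by group
        _ = w := by rw [hw, one_mul]
    have h3 : w * (w * w) = 1 := by rw [← mul_assoc, hw]
    rintro x y (rfl | rfl | rfl) (rfl | rfl | rfl) <;>
      simp only [Set.mem_insert_iff, Set.mem_singleton_iff, one_mul, mul_one, h4, h3, hw, true_or,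
        or_true]
  one_mem' := by simp
  inv_mem' := by
    have h3 : w * (w * w) = 1 := by rw [← mul_assoc, hw]
    have e1 : w⁻¹ = w * w := inv_eq_of_mul_eq_one_right h3
    have e2 : (w * w)⁻¹ = w := inv_eq_of_mul_eq_one_right hw
    rintro x (rfl | rfl | rfl) <;>
      simp only [Set.mem_insert_iff, Set.mem_singleton_iff, inv_one, e1, e2, true_or, or_true]

theorem hs : s * s * s = 1 := by decide
theorem hu : u * u * u = 1 := by decide

def θ : X → Subgroup X := fun x => if x = a then T s hs else if x = b then T u hu else ⊥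

theorem θa : θ a = T s hs := by simp [θ]
theorem θb : θ b = T u hu := by
  have : b ≠ a := by decide
  simp [θ, this]
theorem θab : θ (a * b) = ⊥ := by
  have h1 : a * b ≠ a := by decide
  have h2 : a * b ≠ b := by decide
  simp [θ, h1, h2]

theorem mem_A {x : X} : x ∈ A ↔ x = 1 ∨ x = a ∨ x = b ∨ x = a * b := Iff.rfl
theorem mem_T {w : X} {hw : w * w * w = 1} {x : X} : x ∈ T w hw ↔ x = 1 ∨ x = w ∨ x = w * w :=
  Iff.rfl

theorem card_T (w : X) (hw : w * w * w = 1) (h1 : w ≠ 1) : Nat.card (T w hw) = 3 := by
  have h2 : w * w ≠ 1 := by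
    intro h; rw [h, one_mul] at hw; exact h1 hw
  have h3 : w * w ≠ w := by
    intro h; exact h1 (mul_left_cancel (h.trans (mul_one w).symm))
  have : ((T w hw : Subgroup X) : Set X) = (({1, w, w * w} : Finset X) : Set X) := by
    ext x; simp [mem_T]
  change Nat.card ((T w hw : Subgroup X) : Set X) = 3
  rw [Nat.card_coe_set_eq, this, Set.ncard_coe_finset]
  rw [Finset.card_insert_of_notMem, Finset.card_insert_of_notMem, Finset.card_singleton]
  · simpa using h3.symm
  · simp only [Finset.mem_insert, Finset.mem_singleton, not_or]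
    exact ⟨h1.symm, h2.symm⟩

theorem card_A : Nat.card A = 4 := by
  have : ((A : Subgroup X) : Set X) = (({1, a, b, a * b} : Finset X) : Set X) := by
    ext x; simp [mem_A]
  change Nat.card ((A : Subgroup X) : Set X) = 4
  rw [Nat.card_coe_set_eq, this, Set.ncard_coe_finset]
  decide

theorem T_solvable (w : X) (hw : w * w * w = 1) : Group.IsSolvable (T w hw) := by
  apply Group.isSolvable_of_comm
  rintro ⟨x, hx⟩ ⟨y, hy⟩
  apply Subtype.ext
  change x * y = y * x
  rcases hx with rfl | rfl | rfl <;> rcases hy with rfl | rfl | rfl <;> simp [mul_assoc]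

theorem sig : Cfsg.IsSignalizerFunctor 2 A θ := by
  refine ⟨?_, ?_, ?_, ?_⟩
  · rintro x (rfl | rfl | rfl | rfl) hx1
    · exact absurd rfl hx1
    · rw [θa]
      rintro y (rfl | rfl | rfl) <;> rw [Subgroup.mem_centralizer_singleton_iff] <;> decide
    · rw [θb]
      rintro y (rfl | rfl | rfl) <;> rw [Subgroup.mem_centralizer_singleton_iff] <;> decide
    · rw [θab]; exact bot_le
  · rintro x (rfl | rfl | rfl | rfl) hx1
    · exact absurd rfl hx1
    · rw [θa, card_T _ _ (by decide)]; decide
    · rw [θb, card_T _ _ (by decide)]; decide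
    · rw [θab, Subgroup.card_bot]; decide
  · rintro x (rfl | rfl | rfl | rfl) hx1
    · exact absurd rfl hx1
    · rw [θa]
      rintro y (rfl | rfl | rfl | rfl) z (rfl | rfl | rfl) <;> rw [mem_T] <;> decide
    · rw [θb]
      rintro y (rfl | rfl | rfl | rfl) z (rfl | rfl | rfl) <;> rw [mem_T] <;> decide
    · rw [θab]
      rintro y _ z hz
      rw [Subgroup.mem_bot] at hz ⊢
      rw [hz]; group
  · rintro x (rfl | rfl | rfl | rfl) hx1
    · exact absurd rfl hx1
    · rintro y (rfl | rfl | rfl | rfl) hy1
      · exact absurd rfl hy1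
      · exact inf_le_left
      · rw [θa]
        rintro z ⟨(rfl | rfl | rfl), hz⟩
        · exact Subgroup.one_mem _
        · exfalso
          have hz' := Subgroup.mem_centralizer_singleton_iff.1 hz
          revert hz'; decide
        · exfalso
          have hz' := Subgroup.mem_centralizer_singleton_iff.1 hz
          revert hz'; decide
      · rw [θa]
        rintro z ⟨(rfl | rfl | rfl), hz⟩
        · exact Subgroup.one_mem _
        · exfalso
          have hz' := Subgroup.mem_centralizer_singleton_iff.1 hz
          revert hz'; decide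
        · exfalso
          have hz' := Subgroup.mem_centralizer_singleton_iff.1 hz
          revert hz'; decide
    · rintro y (rfl | rfl | rfl | rfl) hy1
      · exact absurd rfl hy1
      · rw [θb]
        rintro z ⟨(rfl | rfl | rfl), hz⟩
        · exact Subgroup.one_mem _
        · exfalso
          have hz' := Subgroup.mem_centralizer_singleton_iff.1 hz
          revert hz'; decide
        · exfalso
          have hz' := Subgroup.mem_centralizer_singleton_iff.1 hz
          revert hz'; decide
      · exact inf_le_left
      · rw [θb]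
        rintro z ⟨(rfl | rfl | rfl), hz⟩
        · exact Subgroup.one_mem _
        · exfalso
          have hz' := Subgroup.mem_centralizer_singleton_iff.1 hz
          revert hz'; decide
        · exfalso
          have hz' := Subgroup.mem_centralizer_singleton_iff.1 hz
          revert hz'; decide
    · rintro y _ _
      rw [θab]
      exact inf_le_left.trans bot_le

/-- There exist a finite group X, an elementary abelian subgroup A of order 4 and a solvable A-signalizer functor θ on X for the prime 2 which is not complete. -/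
theorem result : ∃ (X : Type) (_ : Group X) (_ : Finite X) (A : Subgroup X) (θ : X → Subgroup X), Cfsg.IsElementaryAbelian 2 A ∧ Nat.card ↥A = 4 ∧ Cfsg.IsSolvableSignalizerFunctor 2 A θ ∧ ¬ Cfsg.IsCompleteSignalizerFunctor 2 A θ := by
  refine ⟨X, inferInstance, inferInstance, A, θ, ⟨?_, ?_⟩, card_A, ⟨sig, ?_⟩, ?_⟩
  · refine ⟨⟨?_⟩⟩
    rintro ⟨x, hx⟩ ⟨y, hy⟩
    apply Subtype.ext
    change x * y = y * x
    rcases hx with rfl | rfl | rfl | rfl <;> rcases hy with rfl | rfl | rfl | rfl <;> decide
  · rintro x (rfl | rfl | rfl | rfl) <;> decide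
  · rintro x (rfl | rfl | rfl | rfl) hx1
    · exact absurd rfl hx1
    · rw [θa]; exact T_solvable _ _
    · rw [θb]; exact T_solvable _ _
    · rw [θab]; infer_instance
  · rintro ⟨_, W, _, hW2, hW⟩
    have hsW : s ∈ W := by
      have h1 : s ∈ θ a := by rw [θa, mem_T]; right; left; rfl
      rw [← hW a (by rw [mem_A]; right; left; rfl) (by decide)] at h1
      exact h1.1
    have huW : u ∈ W := by
      have h1 : u ∈ θ b := by rw [θb, mem_T]; right; left; rfl
      rw [← hW b (by rw [mem_A]; right; right; left; rfl) (by decide)] at h1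
      exact h1.1
    have hw : s * u * s * u⁻¹ ∈ W := W.mul_mem (W.mul_mem (W.mul_mem hsW huW) hsW) (W.inv_mem huW)
    apply hW2
    have ho : orderOf (s * u * s * u⁻¹) = 2 := orderOf_eq_prime (by decide) (by decide)
    have := orderOf_dvd_natCard (⟨s * u * s * u⁻¹, hw⟩ : W)
    rwa [Subgroup.orderOf_mk, ho] at this

end Cfsg.Agent.S1286
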