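import Cfsg.Statements.S1288
import Cfsg.Agent.Lib.Helper9.Hyper
import Cfsg.Agent.Lib.Helper9.SigFam
import Cfsg.Agent.Lib.Helper10.PCore
import Cfsg.Agent.Lib.Helper1.Fitting
import Cfsg.Agent.Lib.Helper17.Core

set_option autoImplicit false
open Cfsg

namespace Cfsg.Agent.S1288

open Cfsg.Agent.Lib.Helper9

/-- an element that is both a `q`-element and of order prime to `q` is trivial -/
theorem eq_one_of_q_and_q' {M : Type*} [Group M] {q : ℕ} (hq : q.Prime) (x : M) {k n : ℕ}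
    (h1 : x ^ q ^ k = 1) (h2 : x ^ n = 1) (hn : ¬ q ∣ n) : x = 1 := by
  have hcop : Nat.Coprime (q ^ k) n := Nat.Coprime.pow_left k ((Nat.Prime.coprime_iff_not_dvd hq).2 hn)
  have d1 := orderOf_dvd_of_pow_eq_one h1
  have d2 := orderOf_dvd_of_pow_eq_one h2
  have d3 : orderOf x ∣ 1 := by
    have := Nat.dvd_gcd d1 d2
    rwa [hcop.gcd_eq_one] at this
  exact orderOf_eq_one_iff.1 (Nat.dvd_one.1 d3)

theorem pPrimePCore_aut {K : Type*} [Group K] (q : ℕ) (φ : K ≃* K) {x : K}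
    (hx : QuotientGroup.mk' (Cfsg.pPrimeCore q K) x ∈ Cfsg.pCore q (K ⧸ Cfsg.pPrimeCore q K)) :
    QuotientGroup.mk' (Cfsg.pPrimeCore q K) (φ x) ∈ Cfsg.pCore q (K ⧸ Cfsg.pPrimeCore q K) := by
  have hchar := Cfsg.Agent.Lib.Helper10.pPrimeCore_characteristic q K
  have hmap : (Cfsg.pPrimeCore q K).map φ.toMonoidHom = Cfsg.pPrimeCore q K :=
    (Subgroup.characteristic_iff_map_eq.1 hchar) φ
  let φbar := QuotientGroup.congr (Cfsg.pPrimeCore q K) (Cfsg.pPrimeCore q K) φ hmap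
  have hchar2 : (Cfsg.pCore q (K ⧸ Cfsg.pPrimeCore q K)).Characteristic :=
    Cfsg.Agent.Lib.Helper17.pCore_characteristic q
  have := (Subgroup.characteristic_iff_le_comap.1 hchar2 φbar) hx
  exact this

/-- Let A be a noncyclic elementary abelian p-subgroup of a finite group H normalizing a solvable subgroup K of order prime to p, q a prime dividing |K|, and U ≤ K a subgroup of order prime to q such that ⁅U, C_K(B)⁆ has order prime to q for every subgroup B of index p in A. Then U ≤ O_{q'}(K). -/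
theorem result {H : Type*} [Group H] [Finite H] (p : ℕ) [Fact p.Prime] (A K : Subgroup H) (hA : Cfsg.IsElementaryAbelian p A) (hA2 : p ^ 2 ≤ Nat.card ↥A) (hK : ¬ p ∣ Nat.card ↥K) (hKs : Group.IsSolvable ↥K) (hAK : A ≤ Subgroup.normalizer (K : Set H)) (q : ℕ) [Fact q.Prime] (hqK : q ∣ Nat.card ↥K) (U : Subgroup H) (hU : U ≤ K) (hUq : ¬ q ∣ Nat.card ↥U) (hcomm : ∀ B : Subgroup H, B ≤ A → B.relIndex A = p → ¬ q ∣ Nat.card ↥⁅U, K ⊓ Subgroup.centralizer (B : Set H)⁆) : U ≤ (Cfsg.pPrimeCore q ↥K).map K.subtype := by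
  have hq : q.Prime := Fact.out
  haveI := hKs
  obtain ⟨N, hN⟩ : ∃ N : Subgroup ↥K, N = Cfsg.pPrimeCore q ↥K := ⟨_, rfl⟩
  have hO : Cfsg.pPrimeCore q (↥K ⧸ Cfsg.pPrimeCore q ↥K) = ⊥ :=
    Cfsg.Agent.Lib.Helper10.pPrimeCore_quotient_eq_bot q ↥K
  have hC := Cfsg.Agent.Lib.Helper1.centralizer_pCore_le (G := ↥K ⧸ Cfsg.pPrimeCore q ↥K) q hO
  have hVq : IsPGroup q (Cfsg.pCore q (↥K ⧸ Cfsg.pPrimeCore q ↥K)) :=
    Cfsg.Agent.Lib.Helper1.pCore_isPGroup q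
  have hVn : (Cfsg.pCore q (↥K ⧸ Cfsg.pPrimeCore q ↥K)).Normal :=
    Cfsg.Agent.Lib.Helper1.pCore_normal q
  -- the preimage V
  obtain ⟨V, hV⟩ : ∃ V : Subgroup H, V = ((Cfsg.pCore q (↥K ⧸ Cfsg.pPrimeCore q ↥K)).comap
      (QuotientGroup.mk' (Cfsg.pPrimeCore q ↥K))).map K.subtype := ⟨_, rfl⟩
  have hVK : V ≤ K := by rw [hV]; exact Subgroup.map_subtype_le _
  have hAV : A ≤ Subgroup.normalizer (V : Set H) := by
    apply norm_of_inv
    intro a ha v hv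
    rw [hV] at hv ⊢
    obtain ⟨x, hx, rfl⟩ := hv
    exact ⟨K.normalizerMonoidHom ⟨a, hAK ha⟩ x, pPrimePCore_aut q _ hx, rfl⟩
  have hpV : ¬ p ∣ Nat.card V := fun h => hK (h.trans (Subgroup.card_dvd_of_le hVK))
  intro u hu
  refine ⟨⟨u, hU hu⟩, ?_, rfl⟩
  obtain ⟨ubar, hubar⟩ : ∃ ubar, ubar = QuotientGroup.mk' (Cfsg.pPrimeCore q ↥K) ⟨u, hU hu⟩ :=
    ⟨_, rfl⟩
  -- W
  have hVW : V ≤ ((Subgroup.centralizer {ubar}).comap
      (QuotientGroup.mk' (Cfsg.pPrimeCore q ↥K))).map K.subtype := by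
    apply gen_hyperplane p A V _ hA hA2 hpV hAV
    intro B hBA hBi v hv
    have hvK : v ∈ K := hVK hv.1
    refine ⟨⟨v, hvK⟩, ?_, rfl⟩
    change QuotientGroup.mk' (Cfsg.pPrimeCore q ↥K) ⟨v, hvK⟩ ∈ Subgroup.centralizer {ubar}
    rw [Subgroup.mem_centralizer_singleton_iff]
    have hvV : QuotientGroup.mk' (Cfsg.pPrimeCore q ↥K) ⟨v, hvK⟩ ∈
        Cfsg.pCore q (↥K ⧸ Cfsg.pPrimeCore q ↥K) := by
      have h1 := hv.1
      rw [hV] at h1
      obtain ⟨x, hx, hxv⟩ := h1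
      have : x = ⟨v, hvK⟩ := Subtype.ext hxv
      rw [← this]; exact hx
    have hc : u * v * u⁻¹ * v⁻¹ ∈ ⁅U, K ⊓ Subgroup.centralizer (B : Set H)⁆ :=
      Subgroup.commutator_mem_commutator hu (Subgroup.mem_inf.2 ⟨hvK, hv.2⟩)
    have hpow : (u * v * u⁻¹ * v⁻¹) ^ Nat.card ↥⁅U, K ⊓ Subgroup.centralizer (B : Set H)⁆ = 1 := by
      have := pow_card_eq_one' (x := (⟨_, hc⟩ : ↥⁅U, K ⊓ Subgroup.centralizer (B : Set H)⁆))
      exact congrArg Subtype.val this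
    obtain ⟨vbar, hvbar⟩ : ∃ vbar, vbar = QuotientGroup.mk' (Cfsg.pPrimeCore q ↥K) ⟨v, hvK⟩ :=
      ⟨_, rfl⟩
    rw [← hvbar] at hvV ⊢
    have hcV : ubar * vbar * ubar⁻¹ * vbar⁻¹ ∈ Cfsg.pCore q (↥K ⧸ Cfsg.pPrimeCore q ↥K) :=
      Subgroup.mul_mem _ (hVn.conj_mem _ hvV _) (Subgroup.inv_mem _ hvV)
    obtain ⟨k, hk⟩ := hVq ⟨_, hcV⟩
    have hk' : (ubar * vbar * ubar⁻¹ * vbar⁻¹) ^ q ^ k = 1 := congrArg Subtype.val hk
    have hpow' : (ubar * vbar * ubar⁻¹ * vbar⁻¹) ^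
        Nat.card ↥⁅U, K ⊓ Subgroup.centralizer (B : Set H)⁆ = 1 := by
      have e : ubar * vbar * ubar⁻¹ * vbar⁻¹ = QuotientGroup.mk' (Cfsg.pPrimeCore q ↥K)
          (⟨u, hU hu⟩ * ⟨v, hvK⟩ * ⟨u, hU hu⟩⁻¹ * ⟨v, hvK⟩⁻¹) := by
        rw [hubar, hvbar]; simp only [map_mul, map_inv]
      rw [e, ← map_pow]
      have : ((⟨u, hU hu⟩ * ⟨v, hvK⟩ * ⟨u, hU hu⟩⁻¹ * ⟨v, hvK⟩⁻¹ : ↥K)) ^
          Nat.card ↥⁅U, K ⊓ Subgroup.centralizer (B : Set H)⁆ = 1 := Subtype.ext hpow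
      rw [this, map_one]
    have h1 := eq_one_of_q_and_q' hq _ hk' hpow' (hcomm B hBA hBi)
    calc vbar * ubar = (ubar * vbar * ubar⁻¹ * vbar⁻¹)⁻¹ * (ubar * vbar) := by group
      _ = ubar * vbar := by rw [h1]; simp
  have hucent : ubar ∈ Subgroup.centralizer
      (Cfsg.pCore q (↥K ⧸ Cfsg.pPrimeCore q ↥K) : Set (↥K ⧸ Cfsg.pPrimeCore q ↥K)) := by
    rw [Subgroup.mem_centralizer_iff]
    intro vbar hvbar
    obtain ⟨x, rfl⟩ := QuotientGroup.mk'_surjective _ vbar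
    have hxV : (x : H) ∈ V := by rw [hV]; exact ⟨x, hvbar, rfl⟩
    obtain ⟨y, hy, hyx⟩ := hVW hxV
    have : y = x := Subtype.ext hyx
    rw [this] at hy
    exact Subgroup.mem_centralizer_singleton_iff.1 hy
  have huV := hC hucent
  obtain ⟨k, hk⟩ := hVq ⟨_, huV⟩
  have hk' : ubar ^ q ^ k = 1 := congrArg Subtype.val hk
  have hpow : ubar ^ Nat.card U = 1 := by
    rw [hubar, ← map_pow]
    have h1 : u ^ Nat.card U = 1 := by
      have := pow_card_eq_one' (x := (⟨u, hu⟩ : U))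
      exact congrArg Subtype.val this
    have : (⟨u, hU hu⟩ : ↥K) ^ Nat.card U = 1 := Subtype.ext h1
    rw [this, map_one]
  have h1 := eq_one_of_q_and_q' hq _ hk' hpow hUq
  rw [hubar] at h1
  exact (QuotientGroup.eq_one_iff _).1 h1

end Cfsg.Agent.S1288
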