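import Cfsg.Statements.S1289
import Cfsg.Agent.Lib.Helper10.PComp2

set_option autoImplicit false
open Cfsg
open Cfsg.Agent.Lib.Helper10

namespace Cfsg.Agent.S1289

/-- A p-component K of the finite group X is subnormal, perfect, of order divisible by p, and minimal among the subnormal perfect subgroups of X of order divisible by p. -/
theorem result {X : Type*} [Group X] [Finite X] (p : ℕ) [Fact p.Prime] (K : Subgroup X) (hK : Cfsg.IsPComponent p K) : K.IsSubnormal ∧ ⁅K, K⁆ = K ∧ p ∣ Nat.card ↥K ∧ ∀ H : Subgroup X, H ≤ K → H.IsSubnormal → ⁅H, H⁆ = H → p ∣ Nat.card ↥H → H = K := by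
  refine ⟨hK.1, pcomp_perfect hK, ?_, ?_⟩
  · by_contra hcon
    apply pcomp_not_le_core hK
    exact le_pPrimeCore_of_isSubnormal p X K hK.1
      ((Nat.Prime.coprime_iff_not_dvd Fact.out).mpr hcon).symm
  · intro H hHK hH hperf hdvd
    rcases pcomp_subnormal_dichotomy hK hH hHK with h | h
    · exact h
    · exfalso
      have h1 : H ≤ Cfsg.pPrimeCore p X := by
        rw [← hperf]
        exact (Subgroup.commutator_mono le_rfl hHK).trans h
      have h2 := coprime_card_of_le h1 (pPrimeCore_coprime p X)
      exact (Nat.Prime.coprime_iff_not_dvd Fact.out).mp h2.symm hdvd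

end Cfsg.Agent.S1289
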