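import Cfsg.Statements.S1297
import Cfsg.Agent.Lib.Helper17.LBal5

set_option autoImplicit false
open Cfsg

namespace Cfsg.Agent.S1297

/-- Let G be finite. Suppose that for every involution x, writing C = C_G(x), every component K of C / O(C) has K / Z(K) locally balanced. Then G is balanced. -/
theorem result {G : Type*} [Group G] [Finite G] (h : ∀ x : G, orderOf x = 2 → ∀ K : Subgroup (↥(Subgroup.centralizer ({x} : Set G)) ⧸ Cfsg.oddCore ↥(Subgroup.centralizer ({x} : Set G))), Cfsg.IsComponent K → Cfsg.IsLocallyBalanced (↥K ⧸ Subgroup.center ↥K)) : Cfsg.IsBalanced G := by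
  have hloc : ∀ x : G, orderOf x = 2 → ∀ K : Subgroup (↥(Subgroup.centralizer ({x} : Set G)) ⧸
      Cfsg.pPrimeCore 2 ↥(Subgroup.centralizer ({x} : Set G))), Cfsg.IsComponent K →
      Cfsg.IsLocallyKBalanced 2 1 (↥K ⧸ Subgroup.center ↥K) := by
    intro x hx K hK H hH A hA hAc
    obtain ⟨a₀, ha₀, ha₀1⟩ := Cfsg.Agent.Lib.Helper17.exists_ne_one_of_card (p := 2) le_rfl hAc
    have ho := Cfsg.Agent.Lib.Helper17.orderOf_of_mem_elemAb hA ha₀ ha₀1
    rw [eq_bot_iff, ← h x hx K hK H hH a₀ ho]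
    exact Cfsg.Agent.Lib.Helper17.signalizerDelta_le ha₀ ha₀1
  have key : ∀ x y : G, orderOf x = 2 → orderOf y = 2 → x * y = y * x →
      Cfsg.centralizerPPrimeCore 2 x ⊓ Subgroup.centralizer {y} ≤
        Cfsg.centralizerPPrimeCore 2 y ⊓ Subgroup.centralizer {x} := by
    intro x y hx hy hxy
    refine le_inf ?_ (inf_le_left.trans
      (Cfsg.Agent.Lib.Helper17.centralizerPPrimeCore_le_centralizer 2 x))
    have hA : Cfsg.IsElementaryAbelian 2 (Subgroup.zpowers x) := by
      refine ⟨inferInstance, ?_⟩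
      rintro _ ⟨n, rfl⟩
      show (x ^ n) ^ 2 = 1
      rw [← zpow_natCast, ← zpow_mul, mul_comm, zpow_mul, zpow_natCast, ← hx, pow_orderOf_eq_one,
        one_zpow]
    have hAc : Nat.card (Subgroup.zpowers x) = 2 ^ 1 := by rw [Nat.card_zpowers, hx, pow_one]
    have hAb : ∀ a ∈ Subgroup.zpowers x, a * y = y * a := by
      rintro _ ⟨n, rfl⟩
      exact ((show Commute x y from hxy).zpow_left n).eq
    have h1 := Cfsg.Agent.Lib.Helper17.kbalanced_of_locally (p := 2) le_rfl hA hAc hAb (hloc y hy)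
    refine le_trans (inf_le_inf_right _ ?_) h1
    apply le_iInf
    rintro ⟨a, ha, ha1⟩
    have hax : a = x := by
      obtain ⟨n, rfl⟩ := ha
      rcases Int.even_or_odd' n with ⟨m, hm | hm⟩
      · exfalso; apply ha1
        show x ^ n = 1
        rw [hm, zpow_mul, zpow_ofNat, ← hx, pow_orderOf_eq_one, one_zpow]
      · show x ^ n = x
        rw [hm, zpow_add, zpow_mul, zpow_ofNat, ← hx, pow_orderOf_eq_one, one_zpow, one_mul, zpow_one]
    show Cfsg.centralizerPPrimeCore 2 x ≤ Cfsg.centralizerPPrimeCore 2 a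
    rw [hax]
  intro x y hx hy hxy
  exact le_antisymm (key x y hx hy hxy) (key y x hy hx hxy.symm)

end Cfsg.Agent.S1297
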