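import Cfsg.Statements.S1300

set_option autoImplicit false
open Cfsg

namespace Cfsg.Agent.S1300

theorem core_le_centralizer {G : Type*} [Group G] (x : G) :
    Cfsg.centralizerPPrimeCore 2 x ≤ Subgroup.centralizer {x} := by
  unfold Cfsg.centralizerPPrimeCore
  exact Subgroup.map_subtype_le _

theorem half {G : Type*} [Group G] (h : Cfsg.IsKBalanced 2 1 G) (x y : G)
    (hx : orderOf x = 2) (hy : orderOf y = 2) (hxy : x * y = y * x) :
    Cfsg.centralizerPPrimeCore 2 x ⊓ Subgroup.centralizer {y} ≤
      Cfsg.centralizerPPrimeCore 2 y ⊓ Subgroup.centralizer {x} := by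
  have hmem : ∀ a ∈ Subgroup.zpowers x, a = 1 ∨ a = x := by
    intro a ha
    obtain ⟨k, rfl⟩ := Subgroup.mem_zpowers_iff.mp ha
    have hx2 : x ^ (2 : ℤ) = 1 := by
      have := pow_orderOf_eq_one x
      rw [hx] at this
      exact_mod_cast this
    rcases Int.even_or_odd' k with ⟨m, rfl | rfl⟩
    · left; rw [zpow_mul, hx2, one_zpow]
    · right; rw [zpow_add, zpow_mul, hx2, one_zpow, one_mul, zpow_one]
  have hA : Cfsg.IsElementaryAbelian 2 (Subgroup.zpowers x) := by
    refine ⟨inferInstance, ?_⟩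
    intro a ha
    rcases hmem a ha with rfl | rfl
    · simp
    · rw [← hx]; exact pow_orderOf_eq_one _
  have hcard : Nat.card (Subgroup.zpowers x) = 2 ^ 1 := by
    rw [Nat.card_zpowers, hx]; rfl
  have hcomm : ∀ a ∈ Subgroup.zpowers x, a * y = y * a := by
    intro a ha
    rcases hmem a ha with rfl | rfl
    · simp
    · exact hxy
  have key := h (Subgroup.zpowers x) hA hcard y hy hcomm
  have hΔ : Cfsg.centralizerPPrimeCore 2 x ≤ Cfsg.signalizerDelta 2 (Subgroup.zpowers x) := by
    unfold Cfsg.signalizerDelta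
    refine le_iInf ?_
    rintro ⟨a, ha, ha1⟩
    rcases hmem a ha with rfl | rfl
    · exact absurd rfl ha1
    · exact le_rfl
  refine le_inf ?_ ?_
  · exact le_trans (inf_le_inf_right _ hΔ) key
  · exact le_trans inf_le_left (core_le_centralizer x)

/-- For a finite group G, balance in the sense of commuting involutions is the same as 1-balance for the prime 2. -/
theorem result {G : Type*} [Group G] [Finite G] : Cfsg.IsBalanced G ↔ Cfsg.IsKBalanced 2 1 G := by
  constructor
  · intro h A hA hcard b hb hcomm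
    have hnt : ∃ a ∈ A, a ≠ 1 := by
      by_contra hcon
      push Not at hcon
      have : A = ⊥ := (Subgroup.eq_bot_iff_forall A).mpr hcon
      rw [this] at hcard
      simp at hcard
    obtain ⟨a, haA, ha1⟩ := hnt
    have hoa : orderOf a = 2 := orderOf_eq_prime (hA.2 a haA) ha1
    have hΔ : Cfsg.signalizerDelta 2 A ≤ Cfsg.centralizerPPrimeCore 2 a := by
      unfold Cfsg.signalizerDelta
      exact iInf_le (fun a : {a : G // a ∈ A ∧ a ≠ 1} => Cfsg.centralizerPPrimeCore 2 (a : G)) ⟨a, haA, ha1⟩
    have := h a b hoa hb (hcomm a haA)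
    calc Cfsg.signalizerDelta 2 A ⊓ Subgroup.centralizer {b}
        ≤ Cfsg.centralizerPPrimeCore 2 a ⊓ Subgroup.centralizer {b} := inf_le_inf_right _ hΔ
      _ = Cfsg.centralizerPPrimeCore 2 b ⊓ Subgroup.centralizer {a} := this
      _ ≤ Cfsg.centralizerPPrimeCore 2 b := inf_le_left
  · intro h x y hx hy hxy
    exact le_antisymm (half h x y hx hy hxy) (half h y x hy hx hxy.symm)

end Cfsg.Agent.S1300
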