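import Cfsg.Statements.S1303
import Mathlib
import Cfsg.Agent.S2427
import Cfsg.Agent.Lib.Helper5.PConstrained
-- import your own Cfsg.Agent.* helpers here

set_option autoImplicit false
open Cfsg

namespace Cfsg.Agent.S1303

open Cfsg.Agent.Lib.Helper14.SL23 Cfsg.Agent.S2427

set_option maxRecDepth 100000 in
theorem d_cent : ∀ x : S, (∀ q : Q8, sfn q * x = x * sfn q) → ∃ q : Q8, sfn q = x := by decide

set_option maxRecDepth 100000 in
theorem d_sC : sC ≠ 1 := by decide

theorem core_bot : Cfsg.pPrimeCore 2 S = ⊥ := by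
  unfold Cfsg.pPrimeCore
  rw [eq_bot_iff]
  apply sSup_le
  rintro N ⟨hN, hc⟩
  rcases normal_cases N hN with h | h | h | h
  · exact h.le
  · exfalso
    rw [h, Subgroup.card_top, cardS] at hc
    revert hc; decide
  · exfalso
    rw [h, card_center] at hc
    revert hc; decide
  · exfalso
    rw [h, card_range] at hc
    revert hc; decide

/-- The group X = SL(2, 3): it is 2-constrained, O_{2'}(X) = 1, its centre A = Z(X) contains every involution of X = C_X(A), and X has a subgroup of order 3 (normalized by A) not contained in O_{2'}(X). -/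
theorem result : Cfsg.IsPConstrained 2 (Matrix.SpecialLinearGroup (Fin 2) (ZMod 3)) ∧ Cfsg.pPrimeCore 2 (Matrix.SpecialLinearGroup (Fin 2) (ZMod 3)) = ⊥ ∧ (∀ t : Matrix.SpecialLinearGroup (Fin 2) (ZMod 3), orderOf t = 2 → t ∈ Subgroup.center (Matrix.SpecialLinearGroup (Fin 2) (ZMod 3))) ∧ ∃ Q : Subgroup (Matrix.SpecialLinearGroup (Fin 2) (ZMod 3)), Nat.card ↥Q = 3 ∧ ¬ (Q ≤ Cfsg.pPrimeCore 2 (Matrix.SpecialLinearGroup (Fin 2) (ZMod 3))) := by
  have : Fact (Nat.Prime 2) := ⟨Nat.prime_two⟩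
  refine ⟨?_, core_bot, ?_, ?_⟩
  · rw [Cfsg.Agent.Lib.Helper5.isPConstrained_iff_of_pPrimeCore_eq_bot core_bot]
    have hQ : sHom.range ≤ Cfsg.pCore 2 S :=
      le_sSup ⟨range_normal, IsPGroup.of_card (n := 3) (by rw [card_range]; norm_num)⟩
    intro x hx
    apply hQ
    rw [Subgroup.mem_centralizer_iff] at hx
    exact d_cent x (fun q => hx _ (hQ ⟨q, rfl⟩))
  · intro t ht
    rw [mem_center]
    exact d_sq t (by have := pow_orderOf_eq_one t; rwa [ht] at this)
  · refine ⟨Subgroup.zpowers sC, ?_, ?_⟩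
    · rw [Nat.card_zpowers]
      exact orderOf_eq_prime (hp := ⟨by norm_num⟩) sC3 d_sC
    · rw [core_bot]
      intro h
      exact d_sC (Subgroup.mem_bot.mp (h (Subgroup.mem_zpowers sC)))

end Cfsg.Agent.S1303
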