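import Cfsg.Statements.S1304
import Mathlib.Tactic.Group

set_option autoImplicit false
open Cfsg

namespace Cfsg.Agent.S1304

/-- Let X be a perfect group and α an automorphism of X with α(x) x⁻¹ central for every x. Then α is the identity. -/
theorem result {X : Type*} [Group X] (hperf : commutator X = ⊤) (α : X ≃* X) (h : ∀ x : X, α x * x⁻¹ ∈ Subgroup.center X) : ∀ x : X, α x = x := by
  intro x
  have hx : x ∈ commutator X := by rw [hperf]; trivial
  rw [commutator_eq_closure] at hx
  induction hx using Subgroup.closure_induction with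
  | mem y hy =>
    obtain ⟨a, b, rfl⟩ := hy
    have ha := h a
    have hb := h b
    rw [Subgroup.mem_center_iff] at ha hb
    have e1 : α a = (α a * a⁻¹) * a := by group
    have e2 : α b = (α b * b⁻¹) * b := by group
    generalize α a * a⁻¹ = z at ha e1
    generalize α b * b⁻¹ = w at hb e2
    rw [commutatorElement_def]
    simp only [map_mul, map_inv, e1, e2]
    have h1 : z * a * (w * b) * (z * a)⁻¹ * (w * b)⁻¹
        = z * (a * w) * b * a⁻¹ * z⁻¹ * b⁻¹ * w⁻¹ := by group
    rw [h1, hb a]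
    have h2 : z * (w * a) * b * a⁻¹ * z⁻¹ * b⁻¹ * w⁻¹
        = z * w * ((a * b * a⁻¹) * z⁻¹) * b⁻¹ * w⁻¹ := by group
    have hz' : ∀ g : X, g * z⁻¹ = z⁻¹ * g := by
      intro g
      have := ha g
      calc g * z⁻¹ = z⁻¹ * (z * g) * z⁻¹ := by group
        _ = z⁻¹ * (g * z) * z⁻¹ := by rw [this]
        _ = z⁻¹ * g := by group
    have hw' : ∀ g : X, g * w⁻¹ = w⁻¹ * g := by
      intro g
      have := hb g
      calc g * w⁻¹ = w⁻¹ * (w * g) * w⁻¹ := by group
        _ = w⁻¹ * (g * w) * w⁻¹ := by rw [this]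
        _ = w⁻¹ * g := by group
    rw [h2, hz', hw']
    have h3 : w⁻¹ * (z * w * (z⁻¹ * (a * b * a⁻¹)) * b⁻¹) = w⁻¹ * (z * w) * z⁻¹ * (a * b * a⁻¹ * b⁻¹) := by group
    rw [h3, hb z]
    group
  | one => simp
  | mul y z _ _ hy hz => simp [hy, hz]
  | inv y _ hy => simp [hy]

end Cfsg.Agent.S1304
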