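import Cfsg.Statements.S1306
import Cfsg.Agent.Lib.Helper10.Components2
import Cfsg.Agent.Lib.Helper10.Conj

set_option autoImplicit false
open Cfsg
open Cfsg.Agent.Lib.Helper10

namespace Cfsg.Agent.S1306

/-- Let G be finite, x an involution and L ≤ C_G(x) a component of C_G(x). Suppose L is a component of C_G(y) for every involution y ∈ C_G(L), and ⁅L, g L g⁻¹⁆ ≠ 1 whenever g L g⁻¹ ≠ L. Then L is a standard subgroup of G. -/
theorem result {G : Type*} [Group G] [Finite G] (x : G) (hx : orderOf x = 2) (L : Subgroup G) (hLx : L ≤ Subgroup.centralizer ({x} : Set G)) (hL : Cfsg.IsComponent (L.subgroupOf (Subgroup.centralizer ({x} : Set G)))) (hne : ∀ y : G, orderOf y = 2 → y ∈ Subgroup.centralizer (L : Set G) → L ≤ Subgroup.centralizer ({y} : Set G) ∧ Cfsg.IsComponent (L.subgroupOf (Subgroup.centralizer ({y} : Set G)))) (hnc : ∀ g : G, L.map (MulAut.conj g).toMonoidHom ≠ L → ⁅L, L.map (MulAut.conj g).toMonoidHom⁆ ≠ ⊥) : Cfsg.IsStandardSubgroup L := by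
  have hq : Cfsg.IsQuasisimple L :=
    isQuasisimple_of_mulEquiv (Subgroup.subgroupOfEquivOfLe hLx) hL.2
  have hxL : x ∈ Subgroup.centralizer (L : Set G) := by
    rw [Subgroup.mem_centralizer_iff]
    intro l hl
    have := hLx hl
    rw [Subgroup.mem_centralizer_singleton_iff] at this
    exact this
  -- key: if an involution `y` centralizes both `L` and `gLg⁻¹`, then `gLg⁻¹ = L`
  have key : ∀ (g y : G), orderOf y = 2 → y ∈ Subgroup.centralizer (L : Set G) →
      y ∈ Subgroup.centralizer ((L.map (MulAut.conj g).toMonoidHom : Subgroup G) : Set G) →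
      L.map (MulAut.conj g).toMonoidHom = L := by
    intro g y hy hyL hyLg
    by_contra hcon
    apply hnc g hcon
    obtain ⟨h1, h2⟩ := hne y hy hyL
    have hy' : orderOf (g⁻¹ * y * g) = 2 := by
      have := orderOf_conj_eq g⁻¹ y
      rw [inv_inv] at this
      rw [this, hy]
    have hy'L : g⁻¹ * y * g ∈ Subgroup.centralizer (L : Set G) := by
      rw [← map_conj_centralizer, mem_map_conj_iff] at hyLg
      exact hyLg
    obtain ⟨h3, h4⟩ := hne _ hy' hy'L
    have h5 := isComponent_subgroupOf_map (MulAut.conj g) h4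
    rw [map_conj_centralizer_singleton] at h5
    have h6 : g * (g⁻¹ * y * g) * g⁻¹ = y := by group
    rw [h6] at h5
    have h7 : L.map (MulAut.conj g).toMonoidHom ≤ Subgroup.centralizer ({y} : Set G) := by
      have := Subgroup.map_mono (f := (MulAut.conj g).toMonoidHom) h3
      rwa [map_conj_centralizer_singleton, h6] at this
    rcases components_eq_or_commute h2 h5 with h8 | h8
    · exfalso
      apply hcon
      have := congrArg (Subgroup.map (Subgroup.centralizer ({y} : Set G)).subtype) h8
      rw [Subgroup.map_subgroupOf_eq_of_le h1, Subgroup.map_subgroupOf_eq_of_le h7] at this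
      exact this.symm
    · have := congrArg (Subgroup.map (Subgroup.centralizer ({y} : Set G)).subtype) h8
      rwa [Subgroup.map_commutator, Subgroup.map_subgroupOf_eq_of_le h1,
        Subgroup.map_subgroupOf_eq_of_le h7, Subgroup.map_bot] at this
  refine ⟨hq, ⟨?_, ?_⟩, hnc, le_antisymm (normalizer_le_normalizer_centralizer L) ?_⟩
  · rw [even_iff_two_dvd, ← hx]
    have := orderOf_dvd_natCard (⟨x, hxL⟩ : Subgroup.centralizer (L : Set G))
    rwa [Subgroup.orderOf_mk] at this
  · intro g hg
    by_contra hodd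
    rw [Nat.not_odd_iff_even, even_iff_two_dvd] at hodd
    obtain ⟨y, hy⟩ := exists_prime_orderOf_dvd_card' 2 hodd
    apply hg
    apply normalizer_le_normalizer_centralizer L
    rw [← map_conj_eq_self_iff]
    have hy2 : orderOf (y : G) = 2 := by rw [Subgroup.orderOf_coe]; exact hy
    refine key g y hy2 y.2.1 ?_
    rw [← map_conj_centralizer]
    exact y.2.2
  · intro g hg
    rw [← map_conj_eq_self_iff]
    refine key g (g * x * g⁻¹) ((orderOf_conj_eq g x).trans hx) ?_ ?_
    · exact (Subgroup.mem_normalizer_iff.mp hg x).mp hxL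
    · rw [← map_conj_centralizer]
      exact conj_mem_map_conj g hxL

end Cfsg.Agent.S1306
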