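import Cfsg.Statements.S1307
import Cfsg.Agent.S0201
import Cfsg.Agent.S0016
import Cfsg.Agent.Lib.Helper10.PComp2
import Cfsg.Agent.Lib.Helper10.CharP

set_option autoImplicit false
open Cfsg

namespace Cfsg.Agent.S1307

open Subgroup Cfsg.Agent.Lib

theorem R1 {Y : Type*} [Group Y] [Finite Y] (hrk : PRankLE 2 1 Y) {a b : Y}
    (ha : orderOf a = 2) (hb : orderOf b = 2) (hab : a * b = b * a) : a = b := by
  obtain ⟨A, hA⟩ : ∃ A, A = closure ({a, b} : Set Y) := ⟨_, rfl⟩
  have haA : a ∈ A := hA ▸ subset_closure (by simp)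
  have hbA : b ∈ A := hA ▸ subset_closure (by simp)
  have h1 : A ≤ centralizer ({a, b} : Set Y) := by
    rw [hA, closure_le]
    intro y hy
    rw [SetLike.mem_coe, mem_centralizer_iff]
    intro g hg
    rcases hy with rfl | rfl <;> rcases hg with rfl | rfl
    · rfl
    · exact hab.symm
    · exact hab
    · rfl
  have h2 : A ≤ centralizer (centralizer ({a, b} : Set Y) : Set Y) := by
    rw [hA]; exact closure_le_centralizer_centralizer _
  have hcomm : ∀ x ∈ A, ∀ y ∈ A, x * y = y * x := fun x hx y hy =>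
    mem_centralizer_iff.mp (h2 hy) x (h1 hx)
  have hsq : ∀ y ∈ A, y ^ 2 = 1 := by
    intro y hy
    rw [hA] at hy
    induction hy using Subgroup.closure_induction with
    | mem x hx =>
      rcases hx with rfl | rfl
      · rw [← ha]; exact pow_orderOf_eq_one _
      · rw [← hb]; exact pow_orderOf_eq_one _
    | one => exact one_pow _
    | mul x y hx hy ihx ihy =>
      have hc : Commute x y := hcomm x (hA ▸ hx) y (hA ▸ hy)
      rw [hc.mul_pow, ihx, ihy, one_mul]
    | inv x _ ihx => rw [inv_pow, ihx, inv_one]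
  have hAc : IsMulCommutative A := ⟨⟨fun x y => Subtype.ext (hcomm x x.2 y y.2)⟩⟩
  have hcard := hrk A hAc hsq
  rw [pow_one] at hcard
  have e1 : zpowers a = A := by
    apply Subgroup.eq_of_le_of_card_ge (zpowers_le.mpr haA)
    rw [Nat.card_zpowers, ha]; exact hcard
  have hb' : b ∈ zpowers a := e1 ▸ hbA
  obtain ⟨k, hk⟩ := mem_zpowers_iff.mp hb'
  rw [← zpow_mod_orderOf, ha] at hk
  have h3 : k % ((2 : ℕ) : ℤ) = 0 ∨ k % ((2 : ℕ) : ℤ) = 1 := by omega
  rcases h3 with h3 | h3
  · rw [h3, zpow_zero] at hk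
    rw [← hk, orderOf_one] at hb
    omega
  · rw [h3, zpow_one] at hk
    exact hk

theorem R2 {Y : Type*} [Group Y] [Finite Y] (hrk : PRankLE 2 1 Y) (S : Sylow 2 Y)
    (H K : Subgroup (S : Subgroup Y)) (hH : Nat.card H = 2) (hK : Nat.card K = 2) : H = K := by
  have : Fact (Nat.Prime 2) := ⟨Nat.prime_two⟩
  have hne : (S : Subgroup Y) ≠ ⊥ := by
    intro hb
    have h1 : Nat.card H ∣ Nat.card (S : Subgroup Y) := card_subgroup_dvd_card H
    have h2 : Nat.card (S : Subgroup Y) = 1 := by rw [hb, card_bot]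
    rw [h2, hH] at h1
    omega
  obtain ⟨z, hzS, hzc, hz2⟩ := Helper10.exists_central_orderOf_eq S.2 hne
  have key : ∀ H : Subgroup (S : Subgroup Y), Nat.card H = 2 → H = zpowers ⟨z, hzS⟩ := by
    intro H hH
    obtain ⟨h, hh⟩ := exists_prime_orderOf_dvd_card' (G := H) 2 (by rw [hH])
    have h2 : orderOf ((h : (S : Subgroup Y)) : Y) = 2 := by
      rw [Subgroup.orderOf_coe, Subgroup.orderOf_coe]; exact hh
    have h3 : ((h : (S : Subgroup Y)) : Y) = z := R1 hrk h2 hz2 (hzc _ (h : (S : Subgroup Y)).2)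
    symm
    apply Subgroup.eq_of_le_of_card_ge
    · rw [zpowers_le]
      have : (⟨z, hzS⟩ : (S : Subgroup Y)) = (h : (S : Subgroup Y)) := Subtype.ext h3.symm
      rw [this]; exact h.2
    · rw [Nat.card_zpowers, Subgroup.orderOf_mk, hz2, hH]
  rw [key H hH, key K hK]

theorem not_cyclic {Y : Type*} [Group Y] [Finite Y] (hq : IsQuasisimple Y)
    (heven : Even (Nat.card Y)) (S : Sylow 2 Y) : ¬ IsCyclic (S : Subgroup Y) := by
  intro hc
  have : Fact (Nat.Prime 2) := ⟨Nat.prime_two⟩
  have hmin : (Nat.card Y).minFac = 2 := (Nat.minFac_eq_two_iff _).mpr heven.two_dvd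
  have h1 := IsCyclic.isComplement' hmin hc
  have hker : (MonoidHom.transferSylow S (hc.normalizer_le_centralizer hmin)).ker = ⊤ := by
    rw [eq_top_iff]
    have hperf : commutator Y = ⊤ := hq.1.commutator_eq_top
    rw [← hperf, commutator_def, commutator_le]
    intro a _ b _
    rw [MonoidHom.mem_ker, map_commutatorElement, commutatorElement_eq_one_iff_mul_comm]
    obtain ⟨g, hg⟩ := hc.exists_generator
    obtain ⟨i, hi⟩ := mem_zpowers_iff.mp (hg (MonoidHom.transferSylow S
      (hc.normalizer_le_centralizer hmin) a))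
    obtain ⟨j, hj⟩ := mem_zpowers_iff.mp (hg (MonoidHom.transferSylow S
      (hc.normalizer_le_centralizer hmin) b))
    rw [← hi, ← hj, ← zpow_add, ← zpow_add, add_comm]
  rw [hker, isComplement'_top_left] at h1
  have h2 : 2 ∣ Nat.card (S : Subgroup Y) := by
    have := S.dvd_card_of_dvd_card heven.two_dvd
    exact this
  rw [h1, card_bot] at h2
  omega

theorem QS {Y : Type*} [Group Y] [Finite Y] (hq : IsQuasisimple Y)
    (heven : Even (Nat.card Y)) (hrk : PRankLE 2 1 Y) :
    ∃ t : Y, orderOf t = 2 ∧ t ∈ center Y ∧ ∃ S : Sylow 2 Y, ∃ n : ℕ,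
      Nonempty ((S : Subgroup Y) ≃* QuaternionGroup (2 ^ (n + 1))) := by
  have : Fact (Nat.Prime 2) := ⟨Nat.prime_two⟩
  obtain ⟨S⟩ : Nonempty (Sylow 2 Y) := inferInstance
  have hnc := not_cyclic hq heven S
  rcases Cfsg.Agent.S0016.result (G := (S : Subgroup Y)) 2 S.2 (R2 hrk S) with h | ⟨_, n, ⟨e⟩⟩
  · exact absurd h hnc
  cases n with
  | zero =>
    exfalso
    apply hnc
    have hc1 : IsCyclic (QuaternionGroup (2 ^ 0)) := by
      rw [pow_zero]; exact QuaternionGroup.quaternionGroup_one_isCyclic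
    exact isCyclic_of_surjective e.symm e.symm.surjective
  | succ m =>
    have hN : (pPrimeCore 2 Y).Normal := (Helper10.pPrimeCore_mem 2 Y).1
    have hsurj := QuotientGroup.mk'_surjective (pPrimeCore 2 Y)
    -- the restriction of the quotient map to `S` is injective
    have hinj : Function.Injective ((QuotientGroup.mk' (pPrimeCore 2 Y)).subgroupMap
        (S : Subgroup Y)) := by
      rw [injective_iff_map_eq_one]
      intro s hs
      have h1 : (s : Y) ∈ pPrimeCore 2 Y := by
        have := congrArg Subtype.val hs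
        rw [← QuotientGroup.ker_mk' (pPrimeCore 2 Y), MonoidHom.mem_ker]
        exact this
      have h2 : (orderOf (s : Y)).Coprime 2 :=
        Helper10.orderOf_coprime_of_mem (Helper10.pPrimeCore_coprime 2 Y) h1
      obtain ⟨k, hk⟩ := (IsPGroup.iff_orderOf.mp S.2) s
      rw [Subgroup.orderOf_coe, hk] at h2
      have h3 : orderOf s = 1 := by
        rw [hk]
        cases k with
        | zero => rfl
        | succ k =>
          exfalso
          have : (2 : ℕ) ∣ Nat.gcd (2 ^ (k + 1)) 2 := Nat.dvd_gcd (dvd_pow_self _ (by omega)) dvd_rfl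
          rw [Nat.Coprime] at h2
          rw [h2] at this
          omega
      exact orderOf_eq_one_iff.mp h3
    have e1 : (S : Subgroup Y) ≃* ((S : Subgroup Y).map (QuotientGroup.mk' (pPrimeCore 2 Y))) :=
      MulEquiv.ofBijective _ ⟨hinj, MonoidHom.subgroupMap_surjective _ _⟩
    have hcen := Cfsg.Agent.S0201.result (S.mapSurjective hsurj) m (e1.symm.trans e) (by
      intro N' hN' hodd
      have h4 := Helper10.le_pPrimeCore hN' (Nat.coprime_two_right.mpr hodd)
      rw [Helper10.pPrimeCore_quotient_eq_bot] at h4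
      exact le_bot_iff.mp h4)
    obtain ⟨c, hc⟩ := exists_prime_orderOf_dvd_card' (G := center (Y ⧸ pPrimeCore 2 Y)) 2
      (by rw [hcen])
    obtain ⟨y, hy⟩ := hsurj (c : Y ⧸ pPrimeCore 2 Y)
    have hM : ((center (Y ⧸ pPrimeCore 2 Y)).comap (QuotientGroup.mk' (pPrimeCore 2 Y))).Normal :=
      inferInstance
    have hyM : y ∈ (center (Y ⧸ pPrimeCore 2 Y)).comap (QuotientGroup.mk' (pPrimeCore 2 Y)) := by
      rw [mem_comap, hy]; exact c.2
    have hMc : (center (Y ⧸ pPrimeCore 2 Y)).comap (QuotientGroup.mk' (pPrimeCore 2 Y))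
        ≤ center Y := by
      rcases Helper10.qs_normal_le_center_or_eq_top hq _ hM with h5 | h5
      · exact h5
      · exfalso
        have h6 : center (Y ⧸ pPrimeCore 2 Y) = ⊤ := by
          rw [← comap_top (QuotientGroup.mk' (pPrimeCore 2 Y))] at h5
          exact comap_injective hsurj h5
        have h7 : commutator (Y ⧸ pPrimeCore 2 Y) = ⊤ := by
          have h8 : (⊤ : Subgroup Y).map (QuotientGroup.mk' (pPrimeCore 2 Y)) = ⊤ := by
            rw [← MonoidHom.range_eq_map]
            exact MonoidHom.range_eq_top.mpr hsurj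
          rw [commutator_def, ← h8, ← map_commutator, ← commutator_def, hq.1.commutator_eq_top]
        have h9 : commutator (Y ⧸ pPrimeCore 2 Y) = ⊥ := by
          rw [commutator_def, commutator_eq_bot_iff_le_centralizer, coe_top, centralizer_univ, h6]
        rw [h7] at h9
        have h10 : Nat.card (center (Y ⧸ pPrimeCore 2 Y)) = 1 := by
          rw [h6, h9, card_bot]
        omega
    have hdvd : 2 ∣ orderOf y := by
      have h11 : orderOf (QuotientGroup.mk' (pPrimeCore 2 Y) y) ∣ orderOf y := orderOf_map_dvd _ _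
      rw [hy, Subgroup.orderOf_coe, hc] at h11
      exact h11
    refine ⟨y ^ (orderOf y / 2), orderOf_pow_orderOf_div (orderOf_pos y).ne' hdvd,
      hMc (pow_mem hyM _), S, m, ⟨e⟩⟩

/-- Let G be finite, x an involution and L ≤ C_G(x) a component of C_G(x) of even order and 2-rank 1, such that L is a component of C_G(y) for every involution y ∈ C_G(L). Then some involution of L is a classical involution of G. -/
theorem result {G : Type*} [Group G] [Finite G] (x : G) (hx : orderOf x = 2) (L : Subgroup G) (hLx : L ≤ Subgroup.centralizer ({x} : Set G)) (hL : Cfsg.IsComponent (L.subgroupOf (Subgroup.centralizer ({x} : Set G)))) (heven : Even (Nat.card ↥L)) (hrk : Cfsg.PRankLE 2 1 ↥L) (hne : ∀ y : G, orderOf y = 2 → y ∈ Subgroup.centralizer (L : Set G) → L ≤ Subgroup.centralizer ({y} : Set G) ∧ Cfsg.IsComponent (L.subgroupOf (Subgroup.centralizer ({y} : Set G)))) : ∃ t ∈ L, Cfsg.IsClassicalInvolution t := by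
  have hq : IsQuasisimple L := Helper10.isQuasisimple_of_mulEquiv (subgroupOfEquivOfLe hLx) hL.2
  obtain ⟨t, ht2, htc, S, n, hS⟩ := QS hq heven hrk
  have ht2' : orderOf (t : G) = 2 := by rw [Subgroup.orderOf_coe]; exact ht2
  have htL : (t : G) ∈ centralizer (L : Set G) := by
    rw [mem_centralizer_iff]
    intro g hg
    exact congrArg Subtype.val (mem_center_iff.mp htc ⟨g, hg⟩)
  obtain ⟨h1, h2⟩ := hne t ht2' htL
  exact ⟨t, t.2, ht2', L, h1, t.2, h2.1, S, n, hS⟩

end Cfsg.Agent.S1307
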