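import Cfsg.Statements.S1314
import Mathlib

set_option autoImplicit false
open Cfsg

namespace Cfsg.Agent.S1314

section aux

open scoped commutatorElement

theorem comm1 {G : Type*} [Group G] (g h z : G) (hz : z * h = h * z) : ⁅g * z, h⁆ = ⁅g, h⁆ := by
  rw [commutatorElement_def, commutatorElement_def]
  calc g * z * h * (g * z)⁻¹ * h⁻¹ = g * (z * h) * z⁻¹ * g⁻¹ * h⁻¹ := by group
    _ = g * (h * z) * z⁻¹ * g⁻¹ * h⁻¹ := by rw [hz]
    _ = g * h * g⁻¹ * h⁻¹ := by group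

theorem comm2 {G : Type*} [Group G] (g h z : G) (hz : z * g = g * z) : ⁅g, h * z⁆ = ⁅g, h⁆ := by
  have hz' : z * g⁻¹ = g⁻¹ * z := by
    have : g⁻¹ * (z * g) * g⁻¹ = g⁻¹ * (g * z) * g⁻¹ := by rw [hz]
    simpa [mul_assoc] using this.symm
  rw [commutatorElement_def, commutatorElement_def]
  calc g * (h * z) * g⁻¹ * (h * z)⁻¹ = g * h * (z * g⁻¹) * z⁻¹ * h⁻¹ := by group
    _ = g * h * (g⁻¹ * z) * z⁻¹ * h⁻¹ := by rw [hz']
    _ = g * h * g⁻¹ * h⁻¹ := by group

end aux

/-- Let x be an involution of a group G and L a perfect subgroup with ⁅L, x L x⁻¹⁆ = 1. Then l ↦ l (x l x⁻¹) is a group homomorphism π from L to G whose kernel is central in L and whose image lies in C_G(x); and the commutator subgroup of C_{L ⊔ xLx⁻¹}(x) equals the image of π. -/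
theorem result {G : Type*} [Group G] [Finite G] (x : G) (hx : orderOf x = 2) (L : Subgroup G) (hperf : ⁅L, L⁆ = L) (hcomm : ⁅L, L.map (MulAut.conj x).toMonoidHom⁆ = ⊥) : ∃ π : ↥L →* G, (∀ l : ↥L, π l = (l : G) * (x * (l : G) * x⁻¹)) ∧ π.ker ≤ Subgroup.center ↥L ∧ π.range ≤ Subgroup.centralizer ({x} : Set G) ∧ ⁅(L ⊔ L.map (MulAut.conj x).toMonoidHom) ⊓ Subgroup.centralizer ({x} : Set G), (L ⊔ L.map (MulAut.conj x).toMonoidHom) ⊓ Subgroup.centralizer ({x} : Set G)⁆ = π.range := by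
  classical
  have hxx : x * x = 1 := by rw [← pow_two, ← hx]; exact pow_orderOf_eq_one x
  have hxi : x⁻¹ = x := inv_eq_of_mul_eq_one_left hxx
  set Lx := L.map (MulAut.conj x).toMonoidHom with hLx
  have hmemLx : ∀ b ∈ L, x * b * x⁻¹ ∈ Lx := fun b hb => ⟨b, hb, rfl⟩
  have hcent : L ≤ Subgroup.centralizer (Lx : Set G) :=
    Subgroup.commutator_eq_bot_iff_le_centralizer.1 hcomm
  have hc : ∀ a ∈ L, ∀ c ∈ Lx, a * c = c * a := fun a ha c hcx =>
    ((Subgroup.mem_centralizer_iff.1 (hcent ha)) c hcx).symm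
  let π : ↥L →* G :=
    { toFun := fun l => (l : G) * (x * (l : G) * x⁻¹)
      map_one' := by simp
      map_mul' := by
        intro a b
        have h1 := hc b b.2 _ (hmemLx a a.2)
        simp only [Subgroup.coe_mul]
        calc (a : G) * b * (x * (a * b) * x⁻¹) = a * (b * (x * a * x⁻¹)) * (x * b * x⁻¹) := by group
          _ = a * ((x * a * x⁻¹) * b) * (x * b * x⁻¹) := by rw [h1]
          _ = a * (x * a * x⁻¹) * (b * (x * b * x⁻¹)) := by group }
  have hπ : ∀ l : ↥L, π l = (l : G) * (x * (l : G) * x⁻¹) := fun l => rfl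
  have hrc : π.range ≤ Subgroup.centralizer ({x} : Set G) := by
    rintro _ ⟨l, rfl⟩
    rw [Subgroup.mem_centralizer_singleton_iff, hπ]
    have h1 := hc l l.2 _ (hmemLx l l.2)
    calc (l : G) * (x * l * x⁻¹) * x = (x * l * x⁻¹) * l * x := by rw [h1]
      _ = x * l * (x⁻¹ * l * x) := by group
      _ = x * l * (x * l * x⁻¹) := by rw [hxi]
      _ = x * (l * (x * l * x⁻¹)) := by group
  have hrM : π.range ≤ L ⊔ Lx := by
    rintro _ ⟨l, rfl⟩
    rw [hπ]
    exact Subgroup.mul_mem _ ((le_sup_left : L ≤ L ⊔ Lx) l.2)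
      ((le_sup_right : Lx ≤ L ⊔ Lx) (hmemLx l l.2))
  refine ⟨π, hπ, ?_, hrc, ?_⟩
  · intro l hl
    rw [MonoidHom.mem_ker, hπ] at hl
    have h1 : (l : G)⁻¹ = x * l * x⁻¹ := inv_eq_of_mul_eq_one_right hl
    rw [Subgroup.mem_center_iff]
    intro g
    apply Subtype.ext
    simp only [Subgroup.coe_mul]
    have h2 := hc g g.2 ((l : G)⁻¹) (h1 ▸ hmemLx l l.2)
    have h3 : (l : G) * (g * (l : G)⁻¹) * l = l * ((l : G)⁻¹ * g) * l := by rw [h2]
    simpa [mul_assoc] using h3.symm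
  · apply le_antisymm
    · rw [Subgroup.commutator_le]
      have hdec : ∀ d ∈ (L ⊔ Lx) ⊓ Subgroup.centralizer ({x} : Set G), ∃ b : ↥L, ∃ z : G,
          z ∈ L ∧ z ∈ Lx ∧ d = π b * z := by
        rintro d ⟨hdM, hdx⟩
        have hr := MonoidHom.noncommCoprod_range L.subtype Lx.subtype
          (fun a c => hc a a.2 c c.2)
        rw [Subgroup.range_subtype, Subgroup.range_subtype] at hr
        rw [← hr] at hdM
        obtain ⟨⟨a, c⟩, hac⟩ := hdM
        obtain ⟨b, hb, hbc⟩ := c.2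
        have hbc' : x * b * x⁻¹ = (c : G) := hbc
        have hd : d = a * (x * b * x⁻¹) := by
          rw [hbc', ← hac]; rfl
        have hdx' : d * x = x * d := Subgroup.mem_centralizer_singleton_iff.1 hdx
        have h1 := hc b hb _ (hmemLx a a.2)
        have h2 : (a : G) * (x * b * x⁻¹) = b * (x * a * x⁻¹) := by
          rw [h1, ← hd]
          calc d = x * d * x⁻¹ := by rw [← hdx']; group
            _ = x * (a * (x * b * x⁻¹)) * x⁻¹ := by rw [hd]
            _ = x * a * x⁻¹ * ((x * x) * b * (x * x)⁻¹) := by group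
            _ = x * a * x⁻¹ * b := by rw [hxx]; group
        have hz : b⁻¹ * (a : G) = x * (a * b⁻¹) * x⁻¹ := by
          calc b⁻¹ * (a : G) = b⁻¹ * (a * (x * b * x⁻¹)) * (x * b⁻¹ * x⁻¹) := by group
            _ = b⁻¹ * (b * (x * a * x⁻¹)) * (x * b⁻¹ * x⁻¹) := by rw [h2]
            _ = x * (a * b⁻¹) * x⁻¹ := by group
        have hzL : b⁻¹ * (a : G) ∈ L := L.mul_mem (L.inv_mem hb) a.2
        have hzLx : b⁻¹ * (a : G) ∈ Lx := hz ▸ hmemLx _ (L.mul_mem a.2 (L.inv_mem hb))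
        refine ⟨⟨b, hb⟩, b⁻¹ * a, hzL, hzLx, ?_⟩
        rw [hπ, hd]
        have h3 := hc _ hzL _ (hmemLx b hb)
        calc (a : G) * (x * b * x⁻¹) = b * ((b⁻¹ * a) * (x * b * x⁻¹)) := by group
          _ = b * ((x * b * x⁻¹) * (b⁻¹ * a)) := by rw [h3]
          _ = b * (x * b * x⁻¹) * (b⁻¹ * a) := by group
      have hzc : ∀ z, z ∈ L → z ∈ Lx → ∀ b : ↥L, z * π b = π b * z := by
        intro z hzL hzLx b
        rw [hπ]
        have h1 := hc b b.2 z hzLx
        have h2 := hc z hzL _ (hmemLx b b.2)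
        calc z * ((b : G) * (x * b * x⁻¹)) = (z * b) * (x * b * x⁻¹) := by group
          _ = (b * z) * (x * b * x⁻¹) := by rw [h1]
          _ = b * (z * (x * b * x⁻¹)) := by group
          _ = b * ((x * b * x⁻¹) * z) := by rw [h2]
          _ = (b : G) * (x * b * x⁻¹) * z := by group
      intro d1 hd1 d2 hd2
      obtain ⟨b1, z1, hz1L, hz1x, rfl⟩ := hdec d1 hd1
      obtain ⟨b2, z2, hz2L, hz2x, rfl⟩ := hdec d2 hd2
      have hz12 : z1 * z2 = z2 * z1 := hc z1 hz1L z2 hz2x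
      rw [comm1 _ _ _ (by
        calc z1 * (π b2 * z2) = (z1 * π b2) * z2 := by group
          _ = (π b2 * z1) * z2 := by rw [hzc z1 hz1L hz1x b2]
          _ = π b2 * (z1 * z2) := by group
          _ = π b2 * (z2 * z1) := by rw [hz12]
          _ = π b2 * z2 * z1 := by group), comm2 _ _ _ (hzc z2 hz2L hz2x b1),
        ← map_commutatorElement]
      exact ⟨_, rfl⟩
    · have htop : ⁅(⊤ : Subgroup ↥L), (⊤ : Subgroup ↥L)⁆ = ⊤ := by
        apply Subgroup.map_injective L.subtype_injective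
        rw [Subgroup.map_commutator, ← MonoidHom.range_eq_map, Subgroup.range_subtype, hperf]
      rw [MonoidHom.range_eq_map, ← htop, Subgroup.map_commutator, ← MonoidHom.range_eq_map]
      exact Subgroup.commutator_mono (le_inf hrM hrc) (le_inf hrM hrc)

end Cfsg.Agent.S1314
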