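import Cfsg.Statements.S1316
import Cfsg.Agent.Lib.Helper10.Components2

set_option autoImplicit false
open Cfsg
open Cfsg.Agent.Lib.Helper10

namespace Cfsg.Agent.S1316

/-- For a finite group X, E(X) equals the intersection of the derived series of F*(X) (its last term). -/
theorem result {X : Type*} [Group X] [Finite X] : (⨅ n : ℕ, (derivedSeries ↥(Cfsg.generalizedFittingSubgroup X) n).map (Cfsg.generalizedFittingSubgroup X).subtype) = Cfsg.layer X := by
  set Fs := Cfsg.generalizedFittingSubgroup X with hFs
  have hEF : Cfsg.layer X ≤ Fs := layer_le_genFitting X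
  have hFF : Cfsg.fittingSubgroup X ≤ Fs := fitting_le_genFitting X
  apply le_antisymm
  · -- the quotient of `F*` by `E` is solvable
    have hEn := layer_normal X
    set E' : Subgroup Fs := (Cfsg.layer X).subgroupOf Fs with hE'
    set F' : Subgroup Fs := (Cfsg.fittingSubgroup X).subgroupOf Fs with hF'
    have hE'n : E'.Normal := inferInstance
    have htop : E' ⊔ F' = ⊤ := by
      rw [hE', hF', ← Subgroup.subgroupOf_sup hEF hFF]
      exact Subgroup.subgroupOf_self _
    have hF'nil : Group.IsNilpotent F' :=
      Group.nilpotent_of_mulEquiv (_h := fittingSubgroup_isNilpotent X)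
        (Subgroup.subgroupOfEquivOfLe hFF).symm
    have hsurj : Function.Surjective ((QuotientGroup.mk' E').comp F'.subtype) := by
      rw [← MonoidHom.range_eq_top, MonoidHom.range_comp, Subgroup.range_subtype]
      have h1 : (E' ⊔ F').map (QuotientGroup.mk' E') = ⊤ := by
        rw [htop, Subgroup.map_top_of_surjective _ (QuotientGroup.mk'_surjective _)]
      rw [Subgroup.map_sup] at h1
      have h2 : E'.map (QuotientGroup.mk' E') = ⊥ := by
        rw [Subgroup.map_eq_bot_iff, QuotientGroup.ker_mk']
      rwa [h2, bot_sup_eq] at h1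
    have hsolv : Group.IsSolvable (Fs ⧸ E') := Group.isSolvable_of_surjective hsurj
    obtain ⟨n, hn⟩ := hsolv.solvable
    refine (iInf_le _ n).trans ?_
    have h3 := map_derivedSeries_le_derivedSeries (QuotientGroup.mk' E') n
    rw [hn, le_bot_iff, Subgroup.map_eq_bot_iff, QuotientGroup.ker_mk'] at h3
    have h4 := Subgroup.map_mono (f := Fs.subtype) h3
    rwa [hE', Subgroup.map_subgroupOf_eq_of_le hEF] at h4
  · refine le_iInf fun n => ?_
    induction n with
    | zero =>
      rw [derivedSeries_zero, ← MonoidHom.range_eq_map, Subgroup.range_subtype]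
      exact hEF
    | succ n ih =>
      rw [derivedSeries_succ, Subgroup.map_commutator, ← layer_perfect X]
      exact Subgroup.commutator_mono ih ih

end Cfsg.Agent.S1316
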