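import Cfsg.Statements.S1318
import Cfsg.Agent.Lib.Helper10.Layer

set_option autoImplicit false
open Cfsg
open Cfsg.Agent.Lib.Helper10

namespace Cfsg.Agent.S1318

/-- Let X be finite and S ≤ F*(X) a subgroup subnormal in F*(X). Then F(S) = F(X) ∩ S (inside X) and S = F(S)E(S). -/
theorem result {X : Type*} [Group X] [Finite X] (S : Subgroup X) (hS : S ≤ Cfsg.generalizedFittingSubgroup X) (hsn : (S.subgroupOf (Cfsg.generalizedFittingSubgroup X)).IsSubnormal) : (Cfsg.fittingSubgroup ↥S).map S.subtype = Cfsg.fittingSubgroup X ⊓ S ∧ Cfsg.fittingSubgroup ↥S ⊔ Cfsg.layer ↥S = ⊤ := by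
  have hSsn : S.IsSubnormal := hsn.trans hS (genFitting_normal X).isSubnormal
  have h1 : (Cfsg.fittingSubgroup ↥S).map S.subtype = Cfsg.fittingSubgroup X ⊓ S :=
    le_antisymm (le_inf (map_fittingSubgroup_le S hSsn) (Subgroup.map_subtype_le _))
      (fitting_inf_le_map_fitting S)
  refine ⟨h1, ?_⟩
  rw [eq_top_iff, ← Subgroup.map_subtype_le_map_subtype, Subgroup.map_sup, h1,
    ← MonoidHom.range_eq_map, Subgroup.range_subtype, sup_comm]
  refine (subnormal_le_genFitting_decomp S hSsn hS).trans (sup_le_sup_right ?_ _)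
  exact sSup_le fun L hL => component_le_map_layer hL.1 hL.2

end Cfsg.Agent.S1318
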