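import Cfsg.Statements.S1319
import Cfsg.Agent.Lib.Helper10.Components2

set_option autoImplicit false
open Cfsg
open Cfsg.Agent.Lib.Helper10

namespace Cfsg.Agent.S1319

/-- Let A be a subnormal subgroup of the finite group X with E(A) = A. Then A ≤ E(X) and A is normal in E(X). -/
theorem result {X : Type*} [Group X] [Finite X] (A : Subgroup X) (hsn : A.IsSubnormal) (hA : Cfsg.layer ↥A = ⊤) : A ≤ Cfsg.layer X ∧ (A.subgroupOf (Cfsg.layer X)).Normal := by
  have hA' : A = sSup {K : Subgroup X | Cfsg.IsComponent K ∧ K ≤ A} := by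
    apply le_antisymm
    · have h1 : A = (Cfsg.layer ↥A).map A.subtype := by
        rw [hA, ← MonoidHom.range_eq_map, Subgroup.range_subtype]
      rw [h1, Subgroup.map_le_iff_le_comap, layer_le_iff]
      intro L hL
      rw [← Subgroup.map_le_iff_le_comap]
      exact le_sSup ⟨isComponent_map_subtype hsn hL, by
        rw [← h1]; exact Subgroup.map_subtype_le L⟩
    · exact sSup_le fun K hK => hK.2
  have hle : A ≤ Cfsg.layer X := by
    rw [hA']
    exact sSup_le fun K hK => component_le_layer hK.1
  refine ⟨hle, ?_⟩
  rw [Subgroup.normal_subgroupOf_iff_le_normalizer hle, hA']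
  exact le_normalizer_sSup _ _ fun K hK => layer_le_normalizer_component hK.1

end Cfsg.Agent.S1319
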