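import Cfsg.Statements.S1320
import Cfsg.Agent.Lib.Helper10.Layer

set_option autoImplicit false
open Cfsg
open Cfsg.Agent.Lib.Helper10

namespace Cfsg.Agent.S1320

/-- Let B be a normal subgroup of the finite group A. Then F*(A) ∩ B = F*(B). -/
theorem result {A : Type*} [Group A] [Finite A] (B : Subgroup A) [B.Normal] : Cfsg.generalizedFittingSubgroup A ⊓ B = (Cfsg.generalizedFittingSubgroup ↥B).map B.subtype := by
  have hBn : B.Normal := inferInstance
  have hFn := genFitting_normal A
  apply le_antisymm
  · have hsn : (Cfsg.generalizedFittingSubgroup A ⊓ B).IsSubnormal :=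
      (inferInstance : (Cfsg.generalizedFittingSubgroup A ⊓ B).Normal).isSubnormal
    refine (subnormal_le_genFitting_decomp _ hsn inf_le_left).trans ?_
    unfold Cfsg.generalizedFittingSubgroup
    rw [Subgroup.map_sup]
    refine sup_le_sup ?_ ?_
    · exact sSup_le fun L hL => component_le_map_layer hL.1 (hL.2.trans inf_le_right)
    · exact (inf_le_inf_left _ inf_le_right).trans (fitting_inf_le_map_fitting B)
  · refine le_inf ?_ (Subgroup.map_subtype_le _)
    unfold Cfsg.generalizedFittingSubgroup
    rw [Subgroup.map_sup]
    exact sup_le_sup (map_layer_le hBn.isSubnormal) (map_fittingSubgroup_le B hBn.isSubnormal)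

end Cfsg.Agent.S1320
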