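import Cfsg.Statements.S1321
import Cfsg.Agent.Lib.Helper10.Components2

set_option autoImplicit false
open Cfsg
open Cfsg.Agent.Lib.Helper10

namespace Cfsg.Agent.S1321

/-- Let X be finite and U ≤ X. Then E(X) is generated by C_{E(X)}(U) together with ⁅E(X), U⁆ (indeed it is their product, ⁅E(X), U⁆ being normal in E(X)). -/
theorem result {X : Type*} [Group X] [Finite X] (U : Subgroup X) : Cfsg.layer X = (Cfsg.layer X ⊓ Subgroup.centralizer (U : Set X)) ⊔ ⁅Cfsg.layer X, U⁆ ∧ ⁅Cfsg.layer X, U⁆ ≤ Cfsg.layer X := by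
  have hEn := layer_normal X
  have hD : ⁅Cfsg.layer X, U⁆ ≤ Cfsg.layer X := Subgroup.commutator_le_left _ _
  refine ⟨le_antisymm ?_ (sup_le inf_le_left hD), hD⟩
  rw [layer_le_iff]
  intro L hL
  have hLE := component_le_layer hL
  have hDsn : (⁅Cfsg.layer X, U⁆).IsSubnormal := by
    refine Subgroup.IsSubnormal.trans hD ?_ hEn.isSubnormal
    exact ((Subgroup.normal_subgroupOf_iff_le_normalizer hD).mpr
      (Subgroup.normalizer_commutator_ge_left _ _)).isSubnormal
  rcases component_le_or_commutator_eq_bot X L _ hL hDsn with h | h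
  · exact h.trans le_sup_right
  · refine le_trans (le_inf hLE ?_) le_sup_left
    rw [← Subgroup.commutator_eq_bot_iff_le_centralizer]
    have h1 : ⁅⁅L, U⁆, L⁆ = ⊥ := by
      rw [eq_bot_iff]
      calc ⁅⁅L, U⁆, L⁆ ≤ ⁅⁅Cfsg.layer X, U⁆, L⁆ :=
            Subgroup.commutator_mono (Subgroup.commutator_mono hLE le_rfl) le_rfl
        _ = ⁅L, ⁅Cfsg.layer X, U⁆⁆ := Subgroup.commutator_comm _ _
        _ = ⊥ := h
    have h2 : ⁅⁅U, L⁆, L⁆ = ⊥ := (congrArg (⁅·, L⁆) (Subgroup.commutator_comm U L)).trans h1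
    have h3 : ⁅⁅L, L⁆, U⁆ = ⊥ := Subgroup.commutator_commutator_eq_bot_of_rotate h1 h2
    rwa [component_perfect hL] at h3

end Cfsg.Agent.S1321
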