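import Cfsg.Statements.S1331
import Cfsg.Agent.S1324
import Cfsg.Agent.Lib.Helper9.SigFam

set_option autoImplicit false
open Cfsg

namespace Cfsg.Agent.S1331

open Cfsg.Agent.Lib.Helper9


/-- Let θ be a solvable A-signalizer functor on the finite group G for the prime p, A elementary abelian of rank at least 3, X a member of the family of θ, and B ≤ A with |B| ≥ p². Then X is generated by the subgroups X ∩ ⋂_{d ∈ D, d ≠ 1} θ d, D ranging over the subgroups of index p in B. -/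
theorem result {G : Type*} [Group G] [Finite G] (p : ℕ) [Fact p.Prime] (A : Subgroup G) (hA : Cfsg.IsElementaryAbelian p A) (hA3 : p ^ 3 ≤ Nat.card ↥A) (θ : G → Subgroup G) (hθ : Cfsg.IsSolvableSignalizerFunctor p A θ) (X : Subgroup G) (hX : X ∈ Cfsg.signalizerFamily p A θ) (B : Subgroup G) (hB : B ≤ A) (hB2 : p ^ 2 ≤ Nat.card ↥B) : X = ⨆ D : {D : Subgroup G // D ≤ B ∧ D.relIndex B = p}, X ⊓ Cfsg.signalizerInf (D : Subgroup G) θ := by
  have hp : p.Prime := Fact.out
  have hBel : Cfsg.IsElementaryAbelian p B :=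
    ⟨⟨⟨fun x y => Subtype.ext (comm_of_isMulCommutative hA.1 (hB x.2) (hB y.2))⟩⟩,
      fun a ha => hA.2 a (hB ha)⟩
  have hBp : IsPGroup p B := by
    intro a
    exact ⟨1, by rw [pow_one]; exact Subtype.ext (by simpa using hBel.2 a a.2)⟩
  have hBX : B ≤ Subgroup.normalizer (X : Set G) := hB.trans (norm_of_inv hX.2.2.1)
  obtain ⟨W, hW⟩ : ∃ W : Subgroup G, W = ⨆ D : {D : Subgroup G // D ≤ B ∧ D.relIndex B = p},
      X ⊓ Cfsg.signalizerInf (D : Subgroup G) θ := ⟨_, rfl⟩
  rw [← hW]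
  refine le_antisymm ?_ (by rw [hW]; exact iSup_le fun D => inf_le_left)
  have hstep : ∀ D : Subgroup G, D ≤ B → D.relIndex B = p →
      X ⊓ Subgroup.centralizer (D : Set G) ≤ W := by
    intro D hDB hD
    rw [hW]
    refine le_trans ?_ (le_iSup (fun D : {D : Subgroup G // D ≤ B ∧ D.relIndex B = p} =>
      X ⊓ Cfsg.signalizerInf (D : Subgroup G) θ) ⟨D, hDB, hD⟩)
    intro x hx
    refine Subgroup.mem_inf.2 ⟨hx.1, ?_⟩
    rw [mem_signalizerInf]
    intro d hd hd1
    apply hX.2.2.2 d (hB (hDB hd)) hd1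
    refine Subgroup.mem_inf.2 ⟨hx.1, ?_⟩
    rw [Subgroup.mem_centralizer_singleton_iff]
    exact ((Subgroup.mem_centralizer_iff.1 hx.2) d hd).symm
  -- a hyperplane exists
  obtain ⟨k, hk⟩ := IsPGroup.iff_card.1 hBp
  have hk2 : 2 ≤ k := by
    rw [hk] at hB2
    exact (Nat.pow_le_pow_iff_right hp.one_lt).1 hB2
  obtain ⟨K, hK⟩ := Sylow.exists_subgroup_card_pow_prime (G := B) p (n := k - 1)
    (by rw [hk]; exact pow_dvd_pow p (Nat.sub_le k 1))
  have hKidx : K.index = p := by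
    have h1 := K.card_mul_index
    rw [hK, hk] at h1
    obtain ⟨n, rfl⟩ : ∃ n, k = n + 1 := ⟨k - 1, by omega⟩
    rw [Nat.add_sub_cancel, pow_succ] at h1
    exact Nat.eq_of_mul_eq_mul_left (pow_pos hp.pos n) h1
  have hD0 : (K.map B.subtype).relIndex B = p := by
    have h1 := Subgroup.relIndex_map_map_of_injective K ⊤ B.subtype_injective
    rw [← MonoidHom.range_eq_map, Subgroup.range_subtype, Subgroup.relIndex_top_right] at h1
    rw [h1, hKidx]
  rw [Cfsg.Agent.S1324.result p B X hBel hB2 hX.2.1 hBX]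
  refine iSup_le (fun D => ?_)
  obtain ⟨D, hDB, hDi⟩ := D
  have hdvd : D.relIndex B ∣ p ^ k := by rw [← hk]; exact Subgroup.relIndex_dvd_card D B
  obtain ⟨j, _, hj⟩ := (Nat.dvd_prime_pow hp).1 hdvd
  have hj1 : j ≤ 1 := by
    rw [hj] at hDi
    by_contra hcon
    push Not at hcon
    have : p ^ 2 ≤ p ^ j := Nat.pow_le_pow_right hp.pos hcon
    have h3 : p * 2 ≤ p * p := Nat.mul_le_mul_left _ hp.two_le
    have h4 : p ^ 2 = p * p := by ring
    have := hp.pos
    omega
  rcases Nat.le_one_iff_eq_zero_or_eq_one.1 hj1 with h0 | h1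
  · rw [h0, pow_zero, Subgroup.relIndex_eq_one] at hj
    refine le_trans ?_ (hstep _ (Subgroup.map_subtype_le K) hD0)
    apply inf_le_inf_left
    apply Subgroup.centralizer_le
    exact (Subgroup.map_subtype_le K).trans hj
  · rw [h1, pow_one] at hj
    exact hstep D hDB hj

end Cfsg.Agent.S1331
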