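import Cfsg.Statements.S1335

set_option autoImplicit false
open Cfsg

namespace Cfsg.Agent.S1335

theorem pRankLE_of_mulEquiv {A B : Type*} [Group A] [Group B] (e : A ≃* B) (p k : ℕ)
    (h : Cfsg.PRankLE p k B) : Cfsg.PRankLE p k A := by
  intro S hS hexp
  have h1 : IsMulCommutative (S.map e.toMonoidHom) := by
    refine ⟨⟨?_⟩⟩
    rintro ⟨_, a, ha, rfl⟩ ⟨_, b, hb, rfl⟩
    apply Subtype.ext
    have := hS.is_comm.comm ⟨a, ha⟩ ⟨b, hb⟩
    have h2 : a * b = b * a := congrArg Subtype.val this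
    show e.toMonoidHom a * e.toMonoidHom b = e.toMonoidHom b * e.toMonoidHom a
    rw [← map_mul, ← map_mul, h2]
  have h2 : ∀ a ∈ S.map e.toMonoidHom, a ^ p = 1 := by
    rintro _ ⟨a, ha, rfl⟩
    rw [← map_pow, hexp a ha, map_one]
  have h3 := h _ h1 h2
  have h4 : Nat.card (S.map e.toMonoidHom) = Nat.card S :=
    Subgroup.card_map_of_injective e.injective
  rwa [h4] at h3

/-- Let H be a subgroup of the finite group G, p a prime, k ≥ 1, P a Sylow p-subgroup of H of p-rank at least k, and suppose N_G(X) ≤ H for every subgroup X ≤ P of p-rank at least k. Then P is a Sylow p-subgroup of G. -/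
theorem result {G : Type*} [Group G] [Finite G] {p : ℕ} [Fact p.Prime] (k : ℕ) (hk : 1 ≤ k) (H : Subgroup G) (P : Sylow p ↥H) (hP : ¬ Cfsg.PRankLE p (k - 1) ↥(P : Subgroup ↥H)) (hΓ : (∀ X : Subgroup G, X ≤ (P : Subgroup ↥H).map H.subtype → ¬ Cfsg.PRankLE p (k - 1) ↥X → Subgroup.normalizer (X : Set G) ≤ H)) : ∃ Q : Sylow p G, (Q : Subgroup G) = (P : Subgroup ↥H).map H.subtype := by
  set P' : Subgroup G := (P : Subgroup ↥H).map H.subtype with hP'
  have hP'H : P' ≤ H := Subgroup.map_subtype_le _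
  have hpg : IsPGroup p P' := P.isPGroup'.map H.subtype
  have hrk : ¬ Cfsg.PRankLE p (k - 1) ↥P' := by
    intro hcon
    apply hP
    exact pRankLE_of_mulEquiv
      ((P : Subgroup ↥H).equivMapOfInjective H.subtype H.subtype_injective) p (k - 1) hcon
  have hN : Subgroup.normalizer (P' : Set G) ≤ H := hΓ P' le_rfl hrk
  obtain ⟨Q, hQ⟩ := hpg.exists_le_sylow
  refine ⟨Q, ?_⟩
  by_contra hne
  have hlt : P' < (Q : Subgroup G) := lt_of_le_of_ne hQ (Ne.symm hne)
  -- normalizers grow in the p-group Q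
  have : Group.IsNilpotent (Q : Subgroup G) := Q.isPGroup'.isNilpotent
  have hnc := Group.normalizerCondition_of_isNilpotent (G := (Q : Subgroup G))
  have hlt' : P'.subgroupOf (Q : Subgroup G) < ⊤ := by
    rw [lt_top_iff_ne_top]
    intro h
    rw [Subgroup.subgroupOf_eq_top] at h
    exact absurd (le_antisymm hQ h) (fun h' => hne h'.symm)
  have h2 := hnc _ hlt'
  obtain ⟨x, hxN, hxP⟩ := SetLike.exists_of_lt h2
  have hxN' : (x : G) ∈ Subgroup.normalizer (P' : Set G) := by
    rw [Subgroup.mem_normalizer_iff] at hxN ⊢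
    intro g
    constructor
    · intro hg
      have := (hxN ⟨g, hQ hg⟩).mp (by simpa [Subgroup.mem_subgroupOf] using hg)
      simpa [Subgroup.mem_subgroupOf] using this
    · intro hg
      have hgQ : g ∈ (Q : Subgroup G) := by
        have h3 : (x : G) * g * (x : G)⁻¹ ∈ (Q : Subgroup G) := hQ hg
        have : g = (x : G)⁻¹ * ((x : G) * g * (x : G)⁻¹) * (x : G) := by group
        rw [this]
        exact mul_mem (mul_mem (inv_mem x.2) h3) x.2
      have := (hxN ⟨g, hgQ⟩).mpr (by simpa [Subgroup.mem_subgroupOf] using hg)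
      simpa [Subgroup.mem_subgroupOf] using this
  have hxH : (x : G) ∈ H := hN hxN'
  have hmax : (Q : Subgroup G).subgroupOf H = (P : Subgroup ↥H) := by
    apply P.is_maximal'
    · exact Q.isPGroup'.comap_subtype
    · intro y hy
      rw [Subgroup.mem_subgroupOf]
      exact hQ ⟨y, hy, rfl⟩
  apply hxP
  rw [Subgroup.mem_subgroupOf]
  have : (⟨(x : G), hxH⟩ : H) ∈ (P : Subgroup ↥H) := by
    rw [← hmax, Subgroup.mem_subgroupOf]
    exact x.2
  exact ⟨_, this, rfl⟩

end Cfsg.Agent.S1335
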