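import Cfsg.Statements.S1336
import Mathlib
import Cfsg.Agent.Lib.Helper17.SE

set_option autoImplicit false
open Cfsg

namespace Cfsg.Agent.S1336

open Cfsg.Agent.Lib.Helper17

section
variable {G : Type*} [Group G]

/-- vertices -/
def V (p : ℕ) (A : Subgroup G) : Prop := Cfsg.IsElementaryAbelian p A ∧ p ^ 1 ≤ Nat.card ↥A

/-- edges -/
def R (p : ℕ) (A B : Subgroup G) : Prop :=
  Cfsg.IsElementaryAbelian p A ∧ p ^ 1 ≤ Nat.card ↥A ∧ Cfsg.IsElementaryAbelian p B ∧
        p ^ 1 ≤ Nat.card ↥B ∧ ∀ a ∈ A, ∀ b ∈ B, a * b = b * a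

/-- conjugation -/
def cj (g : G) (A : Subgroup G) : Subgroup G := A.map (MulAut.conj g).toMonoidHom

theorem cj_one (A : Subgroup G) : cj 1 A = A := by
  ext x; simp [cj, Subgroup.mem_map]

theorem cj_mul (g h : G) (A : Subgroup G) : cj (g * h) A = cj g (cj h A) := by
  unfold cj
  rw [Subgroup.map_map]
  congr 1
  ext x; simp [MulAut.conj_apply, mul_assoc]

theorem mem_cj {g x : G} {A : Subgroup G} : x ∈ cj g A ↔ g⁻¹ * x * g ∈ A := by
  unfold cj
  constructor
  · rintro ⟨y, hy, rfl⟩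
    simpa [MulAut.conj_apply, mul_assoc] using hy
  · intro h
    exact ⟨_, h, by simp [MulAut.conj_apply, mul_assoc]⟩

theorem V_cj {p : ℕ} {A : Subgroup G} (h : V p A) (g : G) : V p (cj g A) := by
  obtain ⟨⟨h1, h2⟩, h3⟩ := h
  refine ⟨⟨?_, ?_⟩, ?_⟩
  · unfold cj; infer_instance
  · rintro _ ⟨a, ha, rfl⟩
    rw [← map_pow, h2 a ha, map_one]
  · unfold cj
    rw [Subgroup.card_map_of_injective (MulAut.conj g).injective]
    exact h3

theorem R_cj {p : ℕ} {A B : Subgroup G} (h : R p A B) (g : G) : R p (cj g A) (cj g B) := by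
  obtain ⟨h1, h2, h3, h4, h5⟩ := h
  have a := V_cj (p := p) (A := A) ⟨h1, h2⟩ g
  have b := V_cj (p := p) (A := B) ⟨h3, h4⟩ g
  refine ⟨a.1, a.2, b.1, b.2, ?_⟩
  rintro _ ⟨x, hx, rfl⟩ _ ⟨y, hy, rfl⟩
  show (MulAut.conj g) x * (MulAut.conj g) y = (MulAut.conj g) y * (MulAut.conj g) x
  rw [← map_mul, ← map_mul, h5 x hx y hy]

theorem R_symm {p : ℕ} {A B : Subgroup G} (h : R p A B) : R p B A := by
  obtain ⟨h1, h2, h3, h4, h5⟩ := h
  exact ⟨h3, h4, h1, h2, fun a ha b hb => (h5 b hb a ha).symm⟩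

theorem T_cj {p : ℕ} {A B : Subgroup G} (h : Relation.ReflTransGen (R p) A B) (g : G) :
    Relation.ReflTransGen (R p) (cj g A) (cj g B) := by
  induction h with
  | refl => exact Relation.ReflTransGen.refl
  | tail _ h2 ih => exact ih.tail (R_cj h2 g)

theorem T_symm {p : ℕ} {A B : Subgroup G} (h : Relation.ReflTransGen (R p) A B) :
    Relation.ReflTransGen (R p) B A := by
  induction h with
  | refl => exact Relation.ReflTransGen.refl
  | tail _ h2 ih => exact Relation.ReflTransGen.head (R_symm h2) ih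

theorem V_zpowers {p : ℕ} {y : G} (hy : orderOf y = p) : V p (Subgroup.zpowers y) := by
  refine ⟨⟨inferInstance, ?_⟩, ?_⟩
  · intro a ha
    obtain ⟨k, rfl⟩ := Subgroup.mem_zpowers_iff.1 ha
    rw [← zpow_natCast, ← zpow_mul, mul_comm, zpow_mul, zpow_natCast, ← hy, pow_orderOf_eq_one, one_zpow]
  · rw [Nat.card_zpowers, hy, pow_one]

theorem V_pgroup {p : ℕ} {A : Subgroup G} (h : V p A) : IsPGroup p A := by
  intro a
  refine ⟨1, ?_⟩
  apply Subtype.ext
  simpa using h.1.2 a a.2

theorem V_ne_bot {p : ℕ} [hp : Fact p.Prime] {A : Subgroup G} (h : V p A) : A ≠ ⊥ := by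
  rintro rfl
  have := h.2
  rw [Subgroup.card_bot, pow_one] at this
  exact absurd this (not_le.2 hp.out.one_lt)

theorem cj_zpowers (g y : G) : cj g (Subgroup.zpowers y) = Subgroup.zpowers (g * y * g⁻¹) := by
  unfold cj
  rw [MonoidHom.map_zpowers]
  simp [MulAut.conj_apply]

/-- two vertices in a common `p`-subgroup are joined -/
theorem T_of_le [Finite G] {p : ℕ} [Fact p.Prime] {P A B : Subgroup G} (hP : IsPGroup p P) (hA : V p A) (hB : V p B)
    (hAP : A ≤ P) (hBP : B ≤ P) : Relation.ReflTransGen (R p) A B := by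
  have hne : P ≠ ⊥ := fun h => V_ne_bot hA (le_bot_iff.1 (h ▸ hAP))
  obtain ⟨z, hz, hzo, hzc⟩ := exists_central_orderOf hP hne
  have hZ := V_zpowers hzo
  have hcomm : ∀ t ∈ P, ∀ w ∈ Subgroup.zpowers z, t * w = w * t := by
    intro t ht w hw
    obtain ⟨k, rfl⟩ := Subgroup.mem_zpowers_iff.1 hw
    exact (Commute.zpow_right (show Commute t z from hzc t ht) k).eq
  have r1 : R p A (Subgroup.zpowers z) := ⟨hA.1, hA.2, hZ.1, hZ.2, fun a ha b hb => hcomm a (hAP ha) b hb⟩
  have r2 : R p (Subgroup.zpowers z) B := ⟨hZ.1, hZ.2, hB.1, hB.2, fun a ha b hb => (hcomm b (hBP hb) a ha).symm⟩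
  exact (Relation.ReflTransGen.single r1).tail r2

end


/-- Let G be finite and p prime. Then G has a proper subgroup H with p ∣ |H| and p ∤ |H ∩ gHg⁻¹| for every g ∉ H (a strongly p-embedded subgroup) if and only if G is not 1-connected for p. -/
theorem result {G : Type*} [Group G] [Finite G] (p : ℕ) [Fact p.Prime] : (∃ H : Subgroup G, H ≠ ⊤ ∧ p ∣ Nat.card ↥H ∧ ∀ g : G, g ∉ H → ¬ p ∣ Nat.card ↥(H ⊓ H.map (MulAut.conj g).toMonoidHom)) ↔ ¬ Cfsg.IsKConnected p 1 G := by
  have hpp : p.Prime := Fact.out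
  constructor
  · rintro ⟨H, hHt, hpH, hcl⟩ hconn
    have hSE : SEc p H := sEc_of_classical hcl
    obtain ⟨x, hx, hxo⟩ := exists_orderOf_eq_of_dvd_card hpH
    obtain ⟨g, hg⟩ : ∃ g, g ∉ H := by
      by_contra hcon
      push Not at hcon
      exact hHt (eq_top_iff.2 fun y _ => hcon y)
    have hV := V_zpowers hxo
    have hV' := V_cj hV g
    have hpath : Relation.ReflTransGen (R p) (Subgroup.zpowers x) (cj g (Subgroup.zpowers x)) :=
      hconn _ _ hV.1 hV.2 hV'.1 hV'.2
    have hall : ∀ B, Relation.ReflTransGen (R p) (Subgroup.zpowers x) B → B ≤ H := by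
      intro B hB
      induction hB with
      | refl => rw [Subgroup.zpowers_le]; exact hx
      | tail _ h2 ih =>
        obtain ⟨h1, h2', h3, h4, h5⟩ := h2
        obtain ⟨a, ha, hao⟩ := exists_orderOf_eq_of_ne_bot (V_pgroup ⟨h1, h2'⟩) (V_ne_bot ⟨h1, h2'⟩)
        intro b hb
        apply hSE.centralizer_le (ih ha) hao
        rw [Subgroup.mem_centralizer_singleton_iff]
        exact (h5 a ha b hb).symm
    have h1 : g * x * g⁻¹ ∈ H := by
      apply hall _ hpath
      rw [cj_zpowers]; exact Subgroup.mem_zpowers _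
    have h2 : g * x * g⁻¹ ∈ H.map (MulAut.conj g).toMonoidHom := ⟨x, hx, by simp [MulAut.conj_apply]⟩
    exact hcl g hg (dvd_card_of_mem_orderOf (A := H ⊓ H.map (MulAut.conj g).toMonoidHom) ⟨h1, h2⟩
      (by rw [orderOf_conj, hxo]))
  · intro hnc
    unfold Cfsg.IsKConnected at hnc
    push Not at hnc
    obtain ⟨E, E', hE1, hE2, hE1', hE2', hnot⟩ := hnc
    have hnot' : ¬ Relation.ReflTransGen (R p) E E' := hnot
    have hVE : V p E := ⟨hE1, hE2⟩
    have hVE' : V p E' := ⟨hE1', hE2'⟩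
    let H : Subgroup G :=
      { carrier := {g | Relation.ReflTransGen (R p) E (cj g E)}
        one_mem' := by
          show Relation.ReflTransGen (R p) E (cj 1 E)
          rw [cj_one]
        mul_mem' := by
          intro g h hg hh
          show Relation.ReflTransGen (R p) E (cj (g * h) E)
          rw [cj_mul]
          exact Relation.ReflTransGen.trans hg (T_cj hh g)
        inv_mem' := by
          intro g hg
          show Relation.ReflTransGen (R p) E (cj g⁻¹ E)
          have := T_cj hg g⁻¹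
          rw [← cj_mul, inv_mul_cancel, cj_one] at this
          exact T_symm this }
    have hmemH : ∀ g, g ∈ H ↔ Relation.ReflTransGen (R p) E (cj g E) := fun g => Iff.rfl
    obtain ⟨P0, hP0⟩ := (V_pgroup hVE).exists_le_sylow
    have hcjle : ∀ (g : G) {A B : Subgroup G}, A ≤ B → cj g A ≤ cj g B := fun g A B h => Subgroup.map_mono h
    have hP0H : (P0 : Subgroup G) ≤ H := by
      intro u hu
      rw [hmemH]
      apply T_of_le P0.isPGroup' hVE (V_cj hVE u) hP0
      intro w hw
      rw [mem_cj] at hw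
      have h1 := hP0 hw
      have : w = u * (u⁻¹ * w * u) * u⁻¹ := by group
      rw [this]
      exact mul_mem (mul_mem hu h1) (inv_mem hu)
    -- claim C
    have claimC : ∀ y ∈ H, orderOf y = p → Relation.ReflTransGen (R p) E (Subgroup.zpowers y) := by
      intro y hy hyo
      have hyp : IsPGroup p (Subgroup.zpowers (⟨y, hy⟩ : H)) :=
        zpowers_isPGroup_of_orderOf (by rw [Subgroup.orderOf_mk, hyo])
      obtain ⟨T, hT⟩ := hyp.exists_le_sylow
      obtain ⟨h, hh⟩ := MulAction.exists_smul_eq H (P0.subtype hP0H) T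
      have hyT : (⟨y, hy⟩ : H) ∈ ((h • (P0.subtype hP0H) : Sylow p H) : Subgroup H) :=
        hh ▸ hT (Subgroup.mem_zpowers _)
      rw [Sylow.smul_def, Sylow.pointwise_smul_def, Subgroup.mem_pointwise_smul_iff_inv_smul_mem] at hyT
      have hy2 : (h : G)⁻¹ * y * (h : G) ∈ (P0 : Subgroup G) := by
        have : h⁻¹ * (⟨y, hy⟩ : H) * h ∈ (P0 : Subgroup G).subgroupOf H := by
          simpa [MulAut.smul_def] using hyT
        simpa [Subgroup.mem_subgroupOf] using this
      have ho : orderOf ((h : G)⁻¹ * y * (h : G)) = p := by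
        have := orderOf_conj (h : G)⁻¹ y
        rw [inv_inv] at this
        rw [this, hyo]
      have t1 : Relation.ReflTransGen (R p) E (Subgroup.zpowers ((h : G)⁻¹ * y * (h : G))) :=
        T_of_le P0.isPGroup' hVE (V_zpowers ho) hP0 (by rw [Subgroup.zpowers_le]; exact hy2)
      have t2 := T_cj t1 (h : G)
      rw [cj_zpowers] at t2
      have e : (h : G) * ((h : G)⁻¹ * y * (h : G)) * (h : G)⁻¹ = y := by group
      rw [e] at t2
      exact Relation.ReflTransGen.trans ((hmemH _).1 h.2) t2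
    obtain ⟨x, hxE, hxo⟩ := exists_orderOf_eq_of_ne_bot (V_pgroup hVE) (V_ne_bot hVE)
    refine ⟨H, ?_, ?_, ?_⟩
    · intro htop
      apply hnot'
      obtain ⟨P1, hP1⟩ := (V_pgroup hVE').exists_le_sylow
      obtain ⟨g, hg⟩ := MulAction.exists_smul_eq G P0 P1
      have hgH : g ∈ H := htop ▸ Subgroup.mem_top g
      have hle : cj g E ≤ (P1 : Subgroup G) := by
        intro w hw
        rw [mem_cj] at hw
        rw [← hg, Sylow.smul_def, Sylow.pointwise_smul_def, Subgroup.mem_pointwise_smul_iff_inv_smul_mem]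
        simpa [MulAut.smul_def] using hP0 hw
      exact Relation.ReflTransGen.trans ((hmemH g).1 hgH) (T_of_le P1.isPGroup' (V_cj hVE g) hVE' hle hP1)
    · exact dvd_card_of_mem_orderOf (A := H) (hP0H (hP0 hxE)) hxo
    · intro g hg hdvd
      apply hg
      obtain ⟨y, ⟨hy1, hy2⟩, hyo⟩ := exists_orderOf_eq_of_dvd_card hdvd
      obtain ⟨y', hy'H, hy'⟩ := hy2
      have hy'e : g * y' * g⁻¹ = y := by simpa [MulAut.conj_apply] using hy'
      have hy'o : orderOf y' = p := by rw [← hyo, ← hy'e, orderOf_conj]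
      have t1 := claimC y hy1 hyo
      have t2 := T_cj (claimC y' hy'H hy'o) g
      rw [cj_zpowers, hy'e] at t2
      rw [hmemH]
      exact Relation.ReflTransGen.trans t1 (T_symm t2)

end Cfsg.Agent.S1336
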