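import Cfsg.Statements.S1337
import Mathlib
import Cfsg.Agent.S0126
import Cfsg.Agent.S0100
import Cfsg.Agent.Lib.Helper14.NormalCyclic
import Cfsg.Agent.Lib.Helper15.Fpf
-- import your own Cfsg.Agent.* helpers here

set_option autoImplicit false
open Cfsg

namespace Cfsg.Agent.S1337

/-- the join of two commuting elementary abelian subgroups is elementary abelian. -/
theorem elem_sup {R : Type*} [Group R] (p : ℕ) (X Y : Subgroup R)
    (hX : Cfsg.IsElementaryAbelian p X) (hY : Cfsg.IsElementaryAbelian p Y)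
    (hc : ∀ x ∈ X, ∀ y ∈ Y, x * y = y * x) : Cfsg.IsElementaryAbelian p (X ⊔ Y) := by
  have hXc : ∀ a ∈ X, ∀ b ∈ X, a * b = b * a := fun a ha b hb =>
    congrArg Subtype.val (hX.1.is_comm.comm ⟨a, ha⟩ ⟨b, hb⟩)
  have hYc : ∀ a ∈ Y, ∀ b ∈ Y, a * b = b * a := fun a ha b hb =>
    congrArg Subtype.val (hY.1.is_comm.comm ⟨a, ha⟩ ⟨b, hb⟩)
  have hcomm : ∀ a ∈ ((X : Set R) ∪ Y), ∀ b ∈ ((X : Set R) ∪ Y), a * b = b * a := by
    rintro a (ha | ha) b (hb | hb)
    · exact hXc a ha b hb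
    · exact hc a ha b hb
    · exact (hc b hb a ha).symm
    · exact hYc a ha b hb
  rw [Subgroup.sup_eq_closure]
  have hM : IsMulCommutative (Subgroup.closure ((X : Set R) ∪ Y)) :=
    Subgroup.isMulCommutative_closure hcomm
  refine ⟨hM, ?_⟩
  intro a ha
  induction ha using Subgroup.closure_induction with
  | mem y hy =>
    rcases hy with hy | hy
    · exact hX.2 y hy
    · exact hY.2 y hy
  | one => exact one_pow p
  | mul a b ha hb iha ihb =>
    have : Commute a b := congrArg Subtype.val (hM.is_comm.comm ⟨a, ha⟩ ⟨b, hb⟩)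
    rw [this.mul_pow, iha, ihb, one_mul]
  | inv a ha iha => rw [inv_pow, iha, inv_one]

/-- A `p`-group of rank at least three has a normal elementary abelian subgroup of order `p²`. -/
theorem exists_normal_sq {P : Type*} [Group P] [Finite P] (p : ℕ) [Fact p.Prime] (hP : IsPGroup p P)
    (hrk : ¬ Cfsg.PRankLE p 2 P) :
    ∃ U : Subgroup P, U.Normal ∧ Cfsg.IsElementaryAbelian p U ∧ Nat.card ↥U = p ^ 2 := by
  have hpp : p.Prime := Fact.out
  obtain ⟨E, hEc, hEe, hEcard⟩ : ∃ B : Subgroup P, IsMulCommutative B ∧ (∀ a ∈ B, a ^ p = 1) ∧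
      p ^ 2 < Nat.card B := by
    unfold Cfsg.PRankLE at hrk
    push Not at hrk
    exact hrk
  have hplt : p < p ^ 2 := by rw [pow_two]; nlinarith [hpp.one_lt]
  have hnc : ¬ IsCyclic P := by
    intro hcyc
    have hEcyc : IsCyclic E := inferInstance
    obtain ⟨g, hg⟩ := hEcyc.exists_ofOrder_eq_natCard
    have h1 : orderOf g ∣ p := orderOf_dvd_of_pow_eq_one (Subtype.ext (hEe g g.2))
    rw [hg] at h1
    have := Nat.le_of_dvd hpp.pos h1
    omega
  by_cases hp : p = 2
  · subst hp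
    by_contra hno
    have hn : ∀ A : Subgroup P, A.Normal → IsMulCommutative A → IsCyclic A := by
      intro A hAn hAc
      by_contra hAnc
      have hAcomm : ∀ a ∈ A, ∀ b ∈ A, a * b = b * a := fun a ha b hb =>
        congrArg Subtype.val (hAc.is_comm.comm ⟨a, ha⟩ ⟨b, hb⟩)
      let Ω : Subgroup P :=
        { carrier := {x | x ∈ A ∧ x ^ 2 = 1}
          mul_mem' := fun {u v} hu hv => ⟨A.mul_mem hu.1 hv.1, by
            have : Commute u v := hAcomm u hu.1 v hv.1
            rw [this.mul_pow, hu.2, hv.2, one_mul]⟩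
          one_mem' := ⟨A.one_mem, one_pow 2⟩
          inv_mem' := fun {u} hu => ⟨A.inv_mem hu.1, by rw [inv_pow, hu.2, inv_one]⟩ }
      have hΩn : Ω.Normal := ⟨fun u hu g => ⟨hAn.conj_mem u hu.1 g, by rw [conj_pow, hu.2]; group⟩⟩
      have h4 : 2 ^ 2 ≤ Nat.card Ω := by
        by_contra hcon
        apply hAnc
        have hle2 : Nat.card Ω ≤ 2 := by
          obtain ⟨k, hk⟩ := IsPGroup.iff_card.mp (hP.to_subgroup Ω)
          rw [hk] at hcon ⊢
          have : k < 2 := by
            by_contra h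
            exact hcon (Nat.pow_le_pow_right (by norm_num) (by omega))
          calc 2 ^ k ≤ 2 ^ 1 := Nat.pow_le_pow_right (by norm_num) (by omega)
            _ = 2 := by norm_num
        let _ : CommGroup A := { (inferInstance : Group A) with mul_comm := hAc.is_comm.comm }
        apply Cfsg.Agent.Lib.Helper15.isCyclic_of_comm_of_prime_rank_one
        intro q hq a b ha hb
        have hq2 : q = 2 := by
          obtain ⟨k, hk⟩ := (IsPGroup.iff_orderOf.mp (hP.to_subgroup A)) a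
          rw [ha] at hk
          have : q ∣ 2 ^ k := hk ▸ dvd_rfl
          exact (Nat.prime_dvd_prime_iff_eq hq Nat.prime_two).mp (hq.dvd_of_dvd_pow this)
        subst hq2
        have haΩ : (a : P) ∈ Ω := ⟨a.2, by
          have := pow_orderOf_eq_one a
          rw [ha] at this
          exact congrArg Subtype.val this⟩
        have hbΩ : (b : P) ∈ Ω := ⟨b.2, by
          have := pow_orderOf_eq_one b
          rw [hb] at this
          exact congrArg Subtype.val this⟩
        have hle : Subgroup.zpowers (a : P) ≤ Ω := Subgroup.zpowers_le.mpr haΩ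
        have heq : Subgroup.zpowers (a : P) = Ω := Subgroup.eq_of_le_of_card_ge hle (by
          rw [Nat.card_zpowers, Subgroup.orderOf_coe, ha]; exact hle2)
        rw [← heq] at hbΩ
        obtain ⟨k, hk⟩ := Subgroup.mem_zpowers_iff.mp hbΩ
        exact Subgroup.mem_zpowers_iff.mpr ⟨k, Subtype.ext (by simpa using hk)⟩
      obtain ⟨B, hBn, hBΩ, hBc⟩ := Cfsg.Agent.Lib.Helper14.exists_normal_le_card 2 hP Ω 2 h4
      exact hno ⟨B, hBn, ⟨⟨⟨fun x y => Subtype.ext (hAcomm x (hBΩ x.2).1 y (hBΩ y.2).1)⟩⟩,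
        fun b hb => (hBΩ hb).2⟩, hBc⟩
    obtain ⟨m, a, -, -, hidx, -⟩ := Cfsg.Agent.Lib.Helper14.normal_cyclic_structure hP hn hnc
    have := Cfsg.Agent.Lib.Helper14.card_le_four_of_cyclic_index_two (Subgroup.zpowers a) inferInstance hidx E hEe
    omega
  · exact Cfsg.Agent.S0126.result hp hP hnc

/-- Let P be a finite p-group of p-rank greater than 2. Then P has a normal elementary abelian subgroup U of order p², and for every elementary abelian X ≤ P with |X| ≥ p²: X is joined to U by a chain of pairwise commuting elementary abelian subgroups of order ≥ p² if and only if C_P(X) has p-rank greater than 2. -/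
theorem result {P : Type*} [Group P] [Finite P] (p : ℕ) [Fact p.Prime] (hP : IsPGroup p P) (hrk : ¬ Cfsg.PRankLE p 2 P) : ∃ U : Subgroup P, U.Normal ∧ Cfsg.IsElementaryAbelian p U ∧ Nat.card ↥U = p ^ 2 ∧ ∀ X : Subgroup P, Cfsg.IsElementaryAbelian p X → p ^ 2 ≤ Nat.card ↥X → (Relation.ReflTransGen (fun A B : Subgroup P => Cfsg.IsElementaryAbelian p A ∧ p ^ 2 ≤ Nat.card ↥A ∧ Cfsg.IsElementaryAbelian p B ∧ p ^ 2 ≤ Nat.card ↥B ∧ ∀ a ∈ A, ∀ b ∈ B, a * b = b * a) X U ↔ ¬ Cfsg.PRankLE p 2 ↥(Subgroup.centralizer (X : Set P))) := by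
  have hpp : p.Prime := Fact.out
  obtain ⟨U, hUn, hUe, hUc⟩ := exists_normal_sq p hP hrk
  refine ⟨U, hUn, hUe, hUc, ?_⟩
  have hUcomm : ∀ a ∈ U, ∀ b ∈ U, a * b = b * a := fun a ha b hb =>
    congrArg Subtype.val (hUe.1.is_comm.comm ⟨a, ha⟩ ⟨b, hb⟩)
  have htr : ∀ X : Subgroup P, (¬ Cfsg.PRankLE p 2 ↥(Subgroup.centralizer (X : Set P))) ↔
      ∃ D : Subgroup P, D ≤ Subgroup.centralizer (X : Set P) ∧ Cfsg.IsElementaryAbelian p D ∧
        p ^ 2 < Nat.card D := by
    intro X
    constructor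
    · intro h
      unfold Cfsg.PRankLE at h
      push Not at h
      obtain ⟨A, hAc, hAe, hAcard⟩ := h
      refine ⟨A.map (Subgroup.subtype _), ?_, ⟨?_, ?_⟩, ?_⟩
      · rintro _ ⟨y, -, rfl⟩; exact y.2
      · refine ⟨⟨?_⟩⟩
        rintro ⟨_, ⟨x, hx, rfl⟩⟩ ⟨_, ⟨y, hy, rfl⟩⟩
        apply Subtype.ext
        have h1 : x * y = y * x := congrArg Subtype.val (hAc.is_comm.comm ⟨x, hx⟩ ⟨y, hy⟩)
        have h2 : (x : P) * (y : P) = (y : P) * (x : P) := congrArg Subtype.val h1
        exact h2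
      · rintro _ ⟨y, hy, rfl⟩
        exact congrArg Subtype.val (hAe y hy)
      · rw [Subgroup.card_subtype]; exact hAcard
    · rintro ⟨D, hDC, hDe, hDcard⟩ h
      have hDcomm : ∀ a ∈ D, ∀ b ∈ D, a * b = b * a := fun a ha b hb =>
        congrArg Subtype.val (hDe.1.is_comm.comm ⟨a, ha⟩ ⟨b, hb⟩)
      have h1 := h (D.subgroupOf _)
        ⟨⟨fun x y => Subtype.ext (Subtype.ext (hDcomm x.1.1 x.2 y.1.1 y.2))⟩⟩
        (fun a ha => Subtype.ext (hDe.2 a.1 ha))
      rw [Nat.card_congr (Subgroup.subgroupOfEquivOfLe hDC).toEquiv] at h1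
      omega
  have hbound : ∀ D : Subgroup P, p ^ 2 < Nat.card D →
      p ^ 2 ≤ Nat.card (D ⊓ Subgroup.centralizer (U : Set P) : Subgroup P) := by
    intro D hD
    have hidx := Cfsg.Agent.S0100.index_centralizer_dvd hP U (by rw [hUc])
    have hrel : (Subgroup.centralizer (U : Set P)).relIndex D ∣ p :=
      (Subgroup.relIndex_dvd_index_of_normal _ D).trans hidx
    have h1 := Subgroup.relIndex_mul_relIndex ⊥ (D ⊓ Subgroup.centralizer (U : Set P)) D bot_le inf_le_left
    rw [Subgroup.relIndex_bot_left, Subgroup.relIndex_bot_left, Subgroup.inf_relIndex_left] at h1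
    obtain ⟨k, hk⟩ := IsPGroup.iff_card.mp (hP.to_subgroup D)
    have hk3 : 3 ≤ k := by
      rw [hk] at hD
      have := (Nat.pow_lt_pow_iff_right hpp.one_lt).mp hD
      omega
    have h3 : p ^ 3 ≤ Nat.card D := by rw [hk]; exact Nat.pow_le_pow_right hpp.pos hk3
    have h4 : Nat.card D ≤ Nat.card (D ⊓ Subgroup.centralizer (U : Set P) : Subgroup P) * p := by
      rw [← h1]; exact Nat.mul_le_mul_left _ (Nat.le_of_dvd hpp.pos hrel)
    have h5 : p ^ 2 * p ≤ Nat.card (D ⊓ Subgroup.centralizer (U : Set P) : Subgroup P) * p := by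
      rw [← pow_succ]; exact h3.trans h4
    exact Nat.le_of_mul_le_mul_right h5 hpp.pos
  have hsub : ∀ D F : Subgroup P, F ≤ D → Cfsg.IsElementaryAbelian p D → Cfsg.IsElementaryAbelian p F :=
    fun D F hFD hD => ⟨⟨⟨fun x y => Subtype.ext (by
      have := congrArg Subtype.val (hD.1.is_comm.comm ⟨x.1, hFD x.2⟩ ⟨y.1, hFD y.2⟩)
      exact this)⟩⟩, fun a ha => hD.2 a (hFD ha)⟩
  have hbase : ∃ D : Subgroup P, D ≤ Subgroup.centralizer (U : Set P) ∧ Cfsg.IsElementaryAbelian p D ∧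
      p ^ 2 < Nat.card D := by
    obtain ⟨E, hEc, hEe, hEcard⟩ : ∃ B : Subgroup P, IsMulCommutative B ∧ (∀ a ∈ B, a ^ p = 1) ∧
        p ^ 2 < Nat.card B := by
      unfold Cfsg.PRankLE at hrk
      push Not at hrk
      exact hrk
    by_cases hUE : U ≤ E
    · refine ⟨E, ?_, ⟨hEc, hEe⟩, hEcard⟩
      intro e he u hu
      exact congrArg Subtype.val (hEc.is_comm.comm ⟨u, hUE hu⟩ ⟨e, he⟩)
    · have hF := hbound E hEcard
      have hFe := hsub E (E ⊓ Subgroup.centralizer (U : Set P)) inf_le_left ⟨hEc, hEe⟩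
      refine ⟨(E ⊓ Subgroup.centralizer (U : Set P)) ⊔ U, sup_le inf_le_right ?_,
        elem_sup p _ _ hFe hUe (fun x hx y hy => (hx.2 y hy).symm), ?_⟩
      · intro u hu v hv
        exact hUcomm v hv u hu
      · by_contra hcon
        push Not at hcon
        have heq : E ⊓ Subgroup.centralizer (U : Set P) = (E ⊓ Subgroup.centralizer (U : Set P)) ⊔ U :=
          Subgroup.eq_of_le_of_card_ge le_sup_left (hcon.trans hF)
        apply hUE
        have : U ≤ E ⊓ Subgroup.centralizer (U : Set P) := heq ▸ le_sup_right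
        exact this.trans inf_le_left
  have key : ∀ X : Subgroup P, Relation.ReflTransGen (fun A B : Subgroup P => Cfsg.IsElementaryAbelian p A ∧
      p ^ 2 ≤ Nat.card ↥A ∧ Cfsg.IsElementaryAbelian p B ∧ p ^ 2 ≤ Nat.card ↥B ∧
      ∀ a ∈ A, ∀ b ∈ B, a * b = b * a) X U →
      ∃ D : Subgroup P, D ≤ Subgroup.centralizer (X : Set P) ∧ Cfsg.IsElementaryAbelian p D ∧
        p ^ 2 < Nat.card D := by
    intro X hchain
    induction hchain using Relation.ReflTransGen.head_induction_on with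
    | refl => exact hbase
    | @head X Y h' _ ih =>
      obtain ⟨hXe, hXc, hYe, hYc, hXY⟩ := h'
      by_cases hbig : p ^ 2 < Nat.card (X ⊔ Y : Subgroup P)
      · refine ⟨X ⊔ Y, sup_le ?_ ?_, elem_sup p X Y hXe hYe hXY, hbig⟩
        · intro u hu v hv
          exact congrArg Subtype.val (hXe.1.is_comm.comm ⟨v, hv⟩ ⟨u, hu⟩)
        · intro y hy x hx
          exact hXY x hx y hy
      · push Not at hbig
        have h1 : X = X ⊔ Y := Subgroup.eq_of_le_of_card_ge le_sup_left (hbig.trans hXc)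
        have h2 : Y = X ⊔ Y := Subgroup.eq_of_le_of_card_ge le_sup_right (hbig.trans hYc)
        rw [h1, ← h2]
        exact ih
  intro X hXe hXc
  rw [htr]
  refine ⟨key X, ?_⟩
  rintro ⟨D, hDC, hDe, hDcard⟩
  have hF := hbound D hDcard
  have hFe := hsub D (D ⊓ Subgroup.centralizer (U : Set P)) inf_le_left hDe
  refine Relation.ReflTransGen.head (b := D) ⟨hXe, hXc, hDe, hDcard.le, fun a ha b hb => hDC hb a ha⟩ ?_
  refine Relation.ReflTransGen.head (b := D ⊓ Subgroup.centralizer (U : Set P))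
    ⟨hDe, hDcard.le, hFe, hF, fun a ha b hb =>
      congrArg Subtype.val (hDe.1.is_comm.comm ⟨a, ha⟩ ⟨b, hb.1⟩)⟩ ?_
  exact Relation.ReflTransGen.single ⟨hFe, hF, hUe, hUc.ge, fun a ha b hb => (ha.2 b hb).symm⟩

end Cfsg.Agent.S1337
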