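import Cfsg.Statements.S1343
import Cfsg.Agent.Lib.Helper10.ExtLayer

set_option autoImplicit false
open Cfsg
open Cfsg.Agent.Lib.Helper10

namespace Cfsg.Agent.S1343

/-- Let X be finite. Then L*_{2'}(X) = L_{2'}(X) ⊔ F for some subgroup F of odd order normalized by a Sylow 2-subgroup of X. -/
theorem result {X : Type*} [Group X] [Finite X] : ∃ F : Subgroup X, Odd (Nat.card ↥F) ∧ (∃ S : Sylow 2 X, (S : Subgroup X) ≤ Subgroup.normalizer (F : Set X)) ∧ Cfsg.extendedTwoLayer X = Cfsg.pLayer 2 X ⊔ F := by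
  obtain ⟨T⟩ : Nonempty (Sylow 2 ↥(nSub 2 X)) := inferInstance
  obtain ⟨S, hS⟩ := (T.2.map (nSub 2 X).subtype).exists_le_sylow
  refine ⟨Cfsg.pPrimeCore 2 X ⊔ dSub T, ?_, ⟨S, ?_⟩, ?_⟩
  · rw [sup_comm]
    have h1 := card_sup_dvd_mul (dSub T) (Cfsg.pPrimeCore 2 X)
    have h2 : (Nat.card (dSub T) * Nat.card (Cfsg.pPrimeCore 2 X)).Coprime 2 :=
      Nat.Coprime.mul_left (core_card_coprime 2 _) (pPrimeCore_coprime 2 X)
    exact Nat.coprime_two_right.mp (Nat.Coprime.coprime_dvd_left h1 h2)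
  · intro s hs
    rw [← map_conj_eq_self_iff, Subgroup.map_sup]
    have h1 : s ∈ Subgroup.normalizer (dSub T : Set X) :=
      normalizer_tSub_le_normalizer_dSub T (sylow_le_normalizer_tSub T S hS hs)
    have h2 : s ∈ Subgroup.normalizer (Cfsg.pPrimeCore 2 X : Set X) := by
      rw [Subgroup.normalizer_eq_top]; trivial
    rw [(map_conj_eq_self_iff _ _).mpr h1, (map_conj_eq_self_iff _ _).mpr h2]
  · rw [extendedTwoLayer_eq T, sup_assoc]

end Cfsg.Agent.S1343
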