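import Cfsg.Statements.S1344
import Cfsg.Agent.Lib.Helper10.ExtLayer

set_option autoImplicit false
open Cfsg
open Cfsg.Agent.Lib.Helper10

namespace Cfsg.Agent.S1344

/-- Let K be a 2-component of the finite group X. Then K ≤ L*_{2'}(X) and K is normal in L*_{2'}(X). -/
theorem result {X : Type*} [Group X] [Finite X] (K : Subgroup X) (hK : Cfsg.IsPComponent 2 K) : K ≤ Cfsg.extendedTwoLayer X ∧ (K.subgroupOf (Cfsg.extendedTwoLayer X)).Normal := by
  obtain ⟨T⟩ : Nonempty (Sylow 2 ↥(nSub 2 X)) := inferInstance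
  have hle : K ≤ Cfsg.extendedTwoLayer X :=
    (pcomp_le_pLayer hK).trans (le_sup_left.trans le_sup_left)
  refine ⟨hle, ?_⟩
  rw [Subgroup.normal_subgroupOf_iff_le_normalizer hle, extendedTwoLayer_eq T]
  refine sup_le (sup_le (pLayer_le_normalizer_pcomp hK) ?_) ?_
  · intro o ho
    apply mem_normalizer_pcomp hK
    have : QuotientGroup.mk' (Cfsg.pPrimeCore 2 X) o = 1 := by
      rw [QuotientGroup.mk'_apply, QuotientGroup.eq_one_iff]; exact ho
    rw [this]; exact one_mem _
  · exact (core_le 2 _).trans (centralizer_tSub_le_normalizer_pcomp T hK)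

end Cfsg.Agent.S1344
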