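import Cfsg.Statements.S1386
-- import your own Cfsg.Agent.* helpers here

set_option autoImplicit false
open Cfsg

namespace Cfsg.Agent.S1386

theorem mem_sup_comm {G : Type*} [Group G] {A B : Subgroup G}
    (hc : ∀ a ∈ A, ∀ b ∈ B, a * b = b * a) {z : G} (hz : z ∈ A ⊔ B) :
    ∃ a ∈ A, ∃ b ∈ B, a * b = z := by
  have hn : B ≤ Subgroup.normalizer (A : Set G) := by
    intro b hb
    rw [Subgroup.mem_normalizer_iff]
    intro a
    constructor
    · intro ha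
      have : b * a * b⁻¹ = a := by rw [← hc a ha b hb]; group
      rw [this]; exact ha
    · intro ha
      have h1 := hc _ ha b hb
      have : b * a * b⁻¹ = a := by
        have h2 : b * a * b⁻¹ * b = b * (b * a * b⁻¹) := h1
        have h3 : b * a = b * (b * a * b⁻¹) := by simpa using h2
        exact (mul_left_cancel h3).symm
      rw [← this]; exact ha
  rw [← SetLike.mem_coe, Subgroup.coe_mul_of_right_le_normalizer_left A B hn, Set.mem_mul] at hz
  exact hz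

theorem coprime_of_cyclic {G : Type*} [Group G] [Finite G] {A B : Subgroup G}
    (hAB : A ⊓ B = ⊥) (hcyc : IsCyclic ↥(A ⊔ B)) : (Nat.card A).Coprime (Nat.card B) := by
  classical
  apply Nat.Coprime.symm
  apply Nat.coprime_of_dvd
  intro p hp hpB hpA
  haveI : Fact p.Prime := ⟨hp⟩
  obtain ⟨u, hu⟩ := exists_prime_orderOf_dvd_card' (G := A) p hpA
  obtain ⟨v, hv⟩ := exists_prime_orderOf_dvd_card' (G := B) p hpB
  let u' : ↥(A ⊔ B) := ⟨u, (le_sup_left : A ≤ A ⊔ B) u.2⟩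
  let v' : ↥(A ⊔ B) := ⟨v, (le_sup_right : B ≤ A ⊔ B) v.2⟩
  have hu' : orderOf u' = p := by
    rw [← hu, ← Subgroup.orderOf_coe u, ← Subgroup.orderOf_coe u']
  have hv' : orderOf v' = p := by
    rw [← hv, ← Subgroup.orderOf_coe v, ← Subgroup.orderOf_coe v']
  haveI : Fintype ↥(A ⊔ B) := Fintype.ofFinite _
  have hle := IsCyclic.card_pow_eq_one_le (α := ↥(A ⊔ B)) hp.pos
  have hsub : ((Subgroup.zpowers u' : Set ↥(A ⊔ B))).toFinset ⊆
      Finset.univ.filter (fun a : ↥(A ⊔ B) => a ^ p = 1) := by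
    intro t ht
    simp only [Set.mem_toFinset, SetLike.mem_coe] at ht
    simp only [Finset.mem_filter, Finset.mem_univ, true_and]
    obtain ⟨k, rfl⟩ := Subgroup.mem_zpowers_iff.1 ht
    rw [← zpow_natCast, ← zpow_mul, mul_comm, zpow_mul, zpow_natCast, ← hu', pow_orderOf_eq_one,
      one_zpow]
  have hcard : ((Subgroup.zpowers u' : Set ↥(A ⊔ B))).toFinset.card = p := by
    rw [Set.toFinset_card, ← Nat.card_eq_fintype_card]
    change Nat.card (Subgroup.zpowers u') = p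
    rw [Nat.card_zpowers, hu']
  have heq := Finset.eq_of_subset_of_card_le hsub (by rw [hcard]; exact hle)
  have hvmem : v' ∈ Finset.univ.filter (fun a : ↥(A ⊔ B) => a ^ p = 1) := by
    simp only [Finset.mem_filter, Finset.mem_univ, true_and]
    rw [← hv', pow_orderOf_eq_one]
  rw [← heq] at hvmem
  simp only [Set.mem_toFinset, SetLike.mem_coe] at hvmem
  obtain ⟨k, hk⟩ := Subgroup.mem_zpowers_iff.1 hvmem
  have hk' : (u : G) ^ k = (v : G) := by
    have := congrArg (fun t : ↥(A ⊔ B) => (t : G)) hk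
    simpa [u', v'] using this
  have hvA : (v : G) ∈ A := by rw [← hk']; exact A.zpow_mem u.2 k
  have hv1 : (v : G) ∈ A ⊓ B := ⟨hvA, v.2⟩
  rw [hAB, Subgroup.mem_bot] at hv1
  have : v = 1 := by ext; exact hv1
  rw [this, orderOf_one] at hv
  exact hp.one_lt.ne hv

/-- Let G be a finite group, W₁, W₂ subgroups forming a self-normalizing cyclic pair, S a subgroup with W₂ ≤ S and W₁ a complement to S' in S, and (W₁, U, W₂') type-P data for S. Then W₂' = W₂ (that is, C_{S'}(W₁) = W₂). -/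
theorem result {G : Type*} [Group G] [Finite G] (W₁ W₂ S U W₂' : Subgroup G) (hW : Cfsg.IsSelfNormalizingCyclic W₁ W₂)
    (hSW : Cfsg.IsComplIn ⁅S, S⁆ W₁ S) (hW₂S : W₂ ≤ S) (hP : Cfsg.IsTypePWith S W₁ U W₂') :
    W₂' = W₂ := by
  obtain ⟨hW1, hW2, hW12, hWc, hWcyc, hWn⟩ := hW
  obtain ⟨hS1, hS2, hS3, hS4⟩ := hSW
  obtain ⟨-, hV2, hV12, hVc, -, hVn⟩ := hP.selfNormalizing
  have hcop := coprime_of_cyclic hW12 hWcyc
  obtain ⟨x, hx, hx1⟩ : ∃ x : G, x ∈ W₁ ∧ x ≠ 1 := by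
    obtain ⟨x, hx⟩ := Subgroup.ne_bot_iff_exists_ne_one.1 hW1
    exact ⟨(x : G), x.2, fun h => hx (Subtype.ext h)⟩
  obtain ⟨y, hy, hy1⟩ : ∃ x : G, x ∈ W₂ ∧ x ≠ 1 := by
    obtain ⟨x, hx⟩ := Subgroup.ne_bot_iff_exists_ne_one.1 hW2
    exact ⟨(x : G), x.2, fun h => hx (Subtype.ext h)⟩
  -- Step 1
  have hder : ∀ s ∈ S, ∀ a ∈ ⁅S, S⁆, s * a * s⁻¹ ∈ ⁅S, S⁆ := by
    intro s hs a ha
    have h1 : s * a * s⁻¹ = (s * a * s⁻¹ * a⁻¹) * a := by group
    rw [h1]
    exact Subgroup.mul_mem _ (Subgroup.commutator_mem_commutator hs (hS1 ha)) ha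
  have step1 : W₂ ≤ ⁅S, S⁆ := by
    intro b hb
    obtain ⟨a, ha, c, hc, hbac⟩ := hS4 b (hW₂S hb)
    have hpow : ∀ k : ℕ, ∃ a' ∈ ⁅S, S⁆, b ^ k = a' * c ^ k := by
      intro k
      induction k with
      | zero => exact ⟨1, one_mem _, by simp⟩
      | succ k ih =>
        obtain ⟨a', ha', hk⟩ := ih
        refine ⟨a' * (c ^ k * a * (c ^ k)⁻¹), ?_, ?_⟩
        · exact Subgroup.mul_mem _ ha' (hder _ (S.pow_mem (hS2 hc) k) a ha)
        · rw [pow_succ, hk, pow_succ]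
          nth_rewrite 1 [hbac]
          group
    obtain ⟨a', ha', hk⟩ := hpow (Nat.card W₂)
    have hb1 : b ^ (Nat.card W₂) = 1 :=
      orderOf_dvd_iff_pow_eq_one.1 (Subgroup.orderOf_dvd_natCard W₂ hb)
    rw [hb1] at hk
    have hck : c ^ (Nat.card W₂) ∈ ⁅S, S⁆ ⊓ W₁ := by
      refine ⟨?_, W₁.pow_mem hc _⟩
      have : c ^ (Nat.card W₂) = a'⁻¹ := (inv_eq_of_mul_eq_one_right hk.symm).symm
      rw [SetLike.mem_coe, this]
      exact Subgroup.inv_mem _ ha'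
    rw [hS3, Subgroup.mem_bot] at hck
    have h1 : orderOf c ∣ Nat.card W₂ := orderOf_dvd_of_pow_eq_one hck
    have h2 : orderOf c ∣ Nat.card W₁ := Subgroup.orderOf_dvd_natCard W₁ hc
    have h3 : orderOf c ∣ 1 := by
      rw [← hcop]; exact Nat.dvd_gcd h2 h1
    have hc1 : c = 1 := orderOf_eq_one_iff.1 (Nat.dvd_one.1 h3)
    rw [hbac, hc1, mul_one]; exact ha
  have step2 : W₂ ≤ W₂' := by
    intro b hb
    rw [← hP.W₂_centralizer x hx hx1, Subgroup.mem_inf]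
    refine ⟨step1 hb, ?_⟩
    rw [Subgroup.mem_centralizer_iff]
    intro t ht
    rw [Set.mem_singleton_iff.1 ht]
    exact hWc x hx b hb
  have step3 : W₁ ⊔ W₂ = W₁ ⊔ W₂' := by
    have hA : ({x * y} : Set G) ⊆ (↑(W₁ ⊔ W₂) : Set G) \ (↑W₁ ∪ ↑W₂) := by
      intro t ht
      rw [Set.mem_singleton_iff.1 ht]
      refine ⟨Subgroup.mul_mem_sup hx hy, ?_⟩
      rintro (h | h)
      · have : y ∈ W₁ ⊓ W₂ := ⟨by simpa using W₁.mul_mem (W₁.inv_mem hx) h, hy⟩
        rw [hW12, Subgroup.mem_bot] at this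
        exact hy1 this
      · have : x ∈ W₁ ⊓ W₂ := ⟨hx, by simpa using W₂.mul_mem h (W₂.inv_mem hy)⟩
        rw [hW12, Subgroup.mem_bot] at this
        exact hx1 this
    have hB : ({x * y} : Set G) ⊆ (↑(W₁ ⊔ W₂') : Set G) \ (↑W₁ ∪ ↑W₂') := by
      intro t ht
      rw [Set.mem_singleton_iff.1 ht]
      refine ⟨Subgroup.mul_mem_sup hx (step2 hy), ?_⟩
      rintro (h | h)
      · have : y ∈ W₁ ⊓ W₂' := ⟨by simpa using W₁.mul_mem (W₁.inv_mem hx) h, step2 hy⟩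
        rw [hV12, Subgroup.mem_bot] at this
        exact hy1 this
      · have : x ∈ W₁ ⊓ W₂' := ⟨hx, by simpa using W₂'.mul_mem h (W₂'.inv_mem (step2 hy))⟩
        rw [hV12, Subgroup.mem_bot] at this
        exact hx1 this
    rw [← hWn _ hA (Set.singleton_nonempty _), ← hVn _ hB (Set.singleton_nonempty _)]
  apply le_antisymm _ step2
  intro w hw
  have hw' : w ∈ W₁ ⊔ W₂ := by rw [step3]; exact (le_sup_right : W₂' ≤ W₁ ⊔ W₂') hw
  obtain ⟨a, ha, b, hb, hab⟩ := mem_sup_comm hWc hw'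
  have ha' : a ∈ W₁ ⊓ W₂' := by
    refine ⟨ha, ?_⟩
    have : a = w * b⁻¹ := by rw [← hab]; group
    rw [SetLike.mem_coe, this]
    exact W₂'.mul_mem hw (W₂'.inv_mem (step2 hb))
  rw [hV12, Subgroup.mem_bot] at ha'
  rw [← hab, ha', one_mul]; exact hb

end Cfsg.Agent.S1386
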