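import Cfsg.Statements.S1387
import Mathlib
import Cfsg.Agent.Lib.Helper10.Fitting
import Cfsg.Agent.Lib.Helper10.Basic
import Cfsg.Agent.Lib.Helper5.Card

set_option autoImplicit false
open Cfsg

namespace Cfsg.Agent.S1387

theorem fittingHall_mem {G : Type*} [Group G] [Finite G] :
    (Cfsg.fittingHall G).Normal ∧ Group.IsNilpotent (Cfsg.fittingHall G) ∧
      (Nat.card (Cfsg.fittingHall G)).Coprime (Cfsg.fittingHall G).index := by
  apply Cfsg.Agent.Lib.Helper10.sSup_mem_of_sup_closed
    {N : Subgroup G | N.Normal ∧ Group.IsNilpotent N ∧ (Nat.card N).Coprime N.index}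
  · exact ⟨⊥, inferInstance, inferInstance, by simp⟩
  · rintro A ⟨hA1, hA2, hA3⟩ B ⟨hB1, hB2, hB3⟩
    refine ⟨inferInstance, Cfsg.Agent.Lib.Helper10.isNilpotent_sup A B hA1 hB1 hA2 hB2, ?_⟩
    have h1 : Nat.card ↥(A ⊔ B) ∣ Nat.card A * Nat.card B := by
      have := Cfsg.Agent.Lib.Helper5.card_sup_mul_card_inf A B
        (by rw [Subgroup.normalizer_eq_top]; exact le_top)
      exact Dvd.intro _ this
    apply Nat.Coprime.coprime_dvd_left h1
    apply Nat.Coprime.mul_left
    · exact Nat.Coprime.coprime_dvd_right (Subgroup.index_dvd_of_le le_sup_left) hA3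
    · exact Nat.Coprime.coprime_dvd_right (Subgroup.index_dvd_of_le le_sup_right) hB3

/-- elements of `M` meeting `H = M_F` trivially in their powers have order prime to `|H|`. -/
theorem pow_index_mem_fittingHallOf {G : Type*} [Group G] [Finite G] (M : Subgroup G) {u : G}
    (hu : u ∈ M) : u ^ (Cfsg.fittingHall M).index ∈ Cfsg.fittingHallOf M := by
  have h1 : (⟨u, hu⟩ : M) ^ (Cfsg.fittingHall M).index ∈ Cfsg.fittingHall M :=
    Subgroup.pow_index_mem _ _
  exact ⟨_, h1, by simp⟩

theorem card_fittingHallOf {G : Type*} [Group G] (M : Subgroup G) :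
    Nat.card (Cfsg.fittingHallOf M) = Nat.card (Cfsg.fittingHall M) :=
  Subgroup.card_map_of_injective M.subtype_injective

/-- key: if `h * u` centralizes `H` with `h ∈ H`, `u ∈ U`, `U ∩ H = 1`, then `u` centralizes `H`. -/
theorem mem_centralizer_of_mul {G : Type*} [Group G] [Finite G] (M U : Subgroup G) (hUM : U ≤ M)
    (hHU : Cfsg.fittingHallOf M ⊓ U = ⊥) {h u : G} (hh : h ∈ Cfsg.fittingHallOf M) (hu : u ∈ U)
    (hc : h * u ∈ Subgroup.centralizer (Cfsg.fittingHallOf M : Set G)) :
    u ∈ Subgroup.centralizer (Cfsg.fittingHallOf M : Set G) := by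
  have hcomm : Commute h u := by
    have := (Subgroup.mem_centralizer_iff.mp hc) h hh
    -- h * (h * u) = h * u * h
    have h2 : h * (h * u) = h * (u * h) := by rw [this]; group
    exact mul_left_cancel h2
  have hu1 : u ^ (Cfsg.fittingHall M).index = 1 := by
    have h1 : u ^ (Cfsg.fittingHall M).index ∈ Cfsg.fittingHallOf M ⊓ U :=
      ⟨pow_index_mem_fittingHallOf M (hUM hu), U.pow_mem hu _⟩
    rw [hHU] at h1
    exact h1
  have hh1 : h ^ Nat.card (Cfsg.fittingHall M) = 1 := by
    rw [← card_fittingHallOf]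
    have := congrArg Subtype.val (pow_card_eq_one' (G := Cfsg.fittingHallOf M) (x := ⟨h, hh⟩))
    rwa [Subgroup.coe_pow, Subgroup.coe_one] at this
  have h3 : u ^ Nat.card (Cfsg.fittingHall M) ∈
      Subgroup.centralizer (Cfsg.fittingHallOf M : Set G) := by
    have := Subgroup.pow_mem _ hc (Nat.card (Cfsg.fittingHall M))
    rwa [hcomm.mul_pow, hh1, one_mul] at this
  have hcop : (Nat.card (Cfsg.fittingHall M)).Coprime (orderOf u) :=
    Nat.Coprime.coprime_dvd_right (orderOf_dvd_of_pow_eq_one hu1) fittingHall_mem.2.2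
  obtain ⟨j, hj⟩ := exists_pow_eq_self_of_coprime hcop
  rw [← hj]
  exact Subgroup.pow_mem _ h3 _

/-- Let M be a subgroup of a finite group G with type-P data (W₁, U, W₂) and H = M_F. Then the Fitting subgroup F(M) is generated by H and the centralizer of H in U. -/
theorem result {G : Type*} [Group G] [Finite G] (M W₁ U W₂ : Subgroup G) (hP : Cfsg.IsTypePWith M W₁ U W₂) :
    Cfsg.fittingOf M = Cfsg.fittingHallOf M ⊔ (U ⊓ Subgroup.centralizer (Cfsg.fittingHallOf M : Set G)) := by
  have hM'M : ⁅M, M⁆ ≤ M := Subgroup.commutator_le_self M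
  obtain ⟨hHM', hUM', hHU, hdec⟩ := hP.U_compl
  apply le_antisymm
  · rw [← hP.fitting_eq]
    refine sup_le le_sup_left ?_
    intro c hc
    have hc' : c ∈ ⁅M, M⁆ := hP.fitting_le (by rw [← hP.fitting_eq]; exact Subgroup.mem_sup_right hc)
    obtain ⟨h, hh, u, hu, rfl⟩ := hdec c hc'
    have := mem_centralizer_of_mul M U (hUM'.trans hM'M) hHU hh hu hc.2
    exact Subgroup.mul_mem_sup hh ⟨hu, this⟩
  · rw [← hP.fitting_eq]
    exact sup_le_sup_left (inf_le_inf_right _ (hUM'.trans hM'M)) _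

end Cfsg.Agent.S1387
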