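import Cfsg.Statements.S1388
import Mathlib
import Cfsg.Agent.S1387
import Cfsg.Agent.Lib.Helper10.Layer
import Cfsg.Agent.Lib.Helper17.Core

set_option autoImplicit false
open Cfsg

namespace Cfsg.Agent.S1388

theorem isComplement_of_isComplIn {G : Type*} [Group G] {A B M : Subgroup G}
    (h : Cfsg.IsComplIn A B M) : Subgroup.IsComplement' (A.subgroupOf M) (B.subgroupOf M) := by
  obtain ⟨hA, hB, hAB, hdec⟩ := h
  refine ⟨Subgroup.mul_injective_of_disjoint ?_, fun g => ?_⟩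
  · rw [Subgroup.disjoint_def]
    intro x hx1 hx2
    have : x.1 ∈ A ⊓ B := ⟨hx1, hx2⟩
    rw [hAB] at this
    exact Subtype.ext this
  · obtain ⟨a, ha, b, hb, e⟩ := hdec g.1 g.2
    exact ⟨(⟨⟨a, hA ha⟩, ha⟩, ⟨⟨b, hB hb⟩, hb⟩), Subtype.ext e.symm⟩

theorem card_subgroupOf' {G : Type*} [Group G] {A M : Subgroup G} (h : A ≤ M) :
    Nat.card (A.subgroupOf M) = Nat.card A :=
  Nat.card_congr (Subgroup.subgroupOfEquivOfLe h).toEquiv

open scoped commutatorElement in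
open Cfsg.Agent.Lib.Helper10 Cfsg.Agent.Lib.Helper17 in
theorem second {G : Type*} [Group G] [Finite G] (M W₁ U W₂ : Subgroup G)
    (hP : Cfsg.IsTypePWith M W₁ U W₂)
    (hU : U ≤ Subgroup.centralizer (Cfsg.fittingHallOf M : Set G)) : U = ⊥ := by
  have hM'M : ⁅M, M⁆ ≤ M := Subgroup.commutator_le_self M
  obtain ⟨hHM', hUM', hHU, hdec⟩ := hP.U_compl
  have hcomm : ∀ h ∈ Cfsg.fittingHallOf M, ∀ u ∈ U, h * u = u * h := fun h hh u hu =>
    (Subgroup.mem_centralizer_iff.mp (hU hu)) h hh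
  have hHn : ∀ m ∈ M, ∀ x ∈ Cfsg.fittingHallOf M, m * x * m⁻¹ ∈ Cfsg.fittingHallOf M := by
    rintro m hm _ ⟨y, hy, rfl⟩
    exact ⟨⟨m, hm⟩ * y * ⟨m, hm⟩⁻¹, (Cfsg.fittingHall_normal M).conj_mem y hy _, by simp⟩
  -- `M'` is nilpotent
  have hnil : Group.IsNilpotent ↥⁅M, M⁆ := by
    apply isNilpotent_of_sup_eq_top ↥⁅M, M⁆ ((Cfsg.fittingHallOf M).subgroupOf ⁅M, M⁆)
      (U.subgroupOf ⁅M, M⁆)
    · constructor
      intro x hx g
      exact hHn g.1 (hM'M g.2) x.1 hx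
    · constructor
      intro x hx g
      obtain ⟨h, hh, u, hu, e⟩ := hdec g.1 g.2
      rw [Subgroup.mem_subgroupOf] at hx ⊢
      have e2 : ((g * x * g⁻¹ : ↥⁅M, M⁆) : G) = u * x.1 * u⁻¹ := by
        have hc := hcomm h hh (u * x.1 * u⁻¹) (U.mul_mem (U.mul_mem hu hx) (U.inv_mem hu))
        calc ((g * x * g⁻¹ : ↥⁅M, M⁆) : G) = g.1 * x.1 * g.1⁻¹ := by simp
          _ = h * (u * x.1 * u⁻¹) * h⁻¹ := by rw [e]; group
          _ = u * x.1 * u⁻¹ := by rw [hc]; group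
      rw [e2]
      exact U.mul_mem (U.mul_mem hu hx) (U.inv_mem hu)
    · have h1 : Group.IsNilpotent ↥(Cfsg.fittingHallOf M) :=
        haveI := (Cfsg.Agent.S1387.fittingHall_mem (G := M)).2.1
        Group.nilpotent_of_mulEquiv
          ((Cfsg.fittingHall M).equivMapOfInjective M.subtype M.subtype_injective)
      exact Group.nilpotent_of_mulEquiv (Subgroup.subgroupOfEquivOfLe hHM').symm
    · haveI := hP.U_nilpotent
      exact Group.nilpotent_of_mulEquiv (Subgroup.subgroupOfEquivOfLe hUM').symm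
    · rw [eq_top_iff]
      intro g _
      obtain ⟨h, hh, u, hu, e⟩ := hdec g.1 g.2
      have : g = ⟨h, hHM' hh⟩ * ⟨u, hUM' hu⟩ := Subtype.ext e
      rw [this]
      exact Subgroup.mul_mem_sup hh hu
  have hc := isComplement_of_isComplIn hP.W₁_compl
  have hle : (⁅M, M⁆).subgroupOf M ≤ Cfsg.fittingHall M := by
    apply le_sSup
    refine ⟨?_, ?_, ?_⟩
    · constructor
      intro x hx g
      rw [Subgroup.mem_subgroupOf] at hx ⊢
      have e : ((g * x * g⁻¹ : M) : G) = ⁅g.1, x.1⁆ * x.1 := by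
        simp [commutatorElement_def]
      rw [e]
      exact Subgroup.mul_mem _ (Subgroup.commutator_mem_commutator g.2 x.2) hx
    · exact Group.nilpotent_of_mulEquiv (Subgroup.subgroupOfEquivOfLe hM'M).symm
    · rw [hc.symm.index_eq_card, ← hc.index_eq_card, card_subgroupOf' hP.W₁_compl.2.1]
      exact hP.W₁_hall.symm
  rw [eq_bot_iff, ← hHU]
  intro u hu
  refine ⟨?_, hu⟩
  exact ⟨⟨u, hM'M (hUM' hu)⟩, hle (hUM' hu), rfl⟩

/-- Let M be a subgroup of a finite group G with type-P data (W₁, U, W₂) and H = M_F. Then the derived subgroup of U centralizes H, and if U ≠ 1 then U does not centralize H. -/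
theorem result {G : Type*} [Group G] [Finite G] (M W₁ U W₂ : Subgroup G) (hP : Cfsg.IsTypePWith M W₁ U W₂) :
    ⁅U, U⁆ ≤ Subgroup.centralizer (Cfsg.fittingHallOf M : Set G) ∧ (U ≠ ⊥ → ¬ U ≤ Subgroup.centralizer (Cfsg.fittingHallOf M : Set G)) := by
  have hM'M : ⁅M, M⁆ ≤ M := Subgroup.commutator_le_self M
  obtain ⟨hHM', hUM', hHU, hdec⟩ := hP.U_compl
  refine ⟨?_, fun hne hU => hne (second M W₁ U W₂ hP hU)⟩
  intro x hx
  have hxU : x ∈ U := Subgroup.commutator_le_self U hx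
  have h1 : x ∈ Cfsg.fittingHallOf M ⊔ (U ⊓ Subgroup.centralizer (Cfsg.fittingHallOf M : Set G)) := by
    rw [← Cfsg.Agent.S1387.result M W₁ U W₂ hP, ← hP.fitting_eq]
    exact hP.derived_two_le (Subgroup.commutator_mono hUM' hUM' hx)
  obtain ⟨a, ha, b, hb, rfl⟩ := Cfsg.Agent.Lib.Helper10.mem_sup_of_commute
    (A := Cfsg.fittingHallOf M) (B := U ⊓ Subgroup.centralizer (Cfsg.fittingHallOf M : Set G))
    (fun a ha b hb => (Subgroup.mem_centralizer_iff.mp (Subgroup.mem_inf.mp hb).2) a ha) h1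
  have ha1 : a ∈ Cfsg.fittingHallOf M ⊓ U := by
    refine ⟨ha, ?_⟩
    have := U.mul_mem hxU (U.inv_mem hb.1)
    simpa using this
  rw [hHU] at ha1
  rw [Subgroup.mem_bot.mp ha1, one_mul]
  exact hb.2

end Cfsg.Agent.S1388
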