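import Cfsg.Statements.S1441
-- import your own Cfsg.Agent.* helpers here

set_option autoImplicit false
open Cfsg

namespace Cfsg.Agent.S1441

/-- Let G be a finite group, H a solvable subgroup and A a subgroup normalizing H. Suppose there is a chain H = H₀ ≥ H₁ ≥ ⋯ ≥ H_n = 1 of subgroups normal in H and normalized by A such that A acts trivially on each factor H_{i-1}/H_i (that is, [H_{i-1}, A] ≤ H_i). Then every prime dividing the index of C_A(H) in A divides the order of H. -/
theorem result {G : Type*} [Group G] [Finite G] (H A : Subgroup G) (hH : Group.IsSolvable H) (hA : (A ≤ Subgroup.normalizer (H : Set G)))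
    (n : ℕ) (c : Fin (n + 1) → Subgroup G) (hc0 : c 0 = H) (hcn : c (Fin.last n) = ⊥) (hanti : Antitone c)
    (hcN : ∀ i, H ≤ Subgroup.normalizer ((c i : Subgroup G) : Set G)) (hcA : ∀ i, A ≤ Subgroup.normalizer ((c i : Subgroup G) : Set G))
    (htriv : ∀ i : Fin n, ⁅c i.castSucc, A⁆ ≤ c i.succ) :
    ∀ p : ℕ, p.Prime → p ∣ (A ⊓ Subgroup.centralizer (H : Set G)).relIndex A → p ∣ Nat.card H := by
  intro p hp hdvd
  haveI : Fact p.Prime := ⟨hp⟩
  by_contra hpH
  have hcop : ∀ k : ℕ, Nat.Coprime (p ^ k) (Nat.card H) := fun k =>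
    Nat.Coprime.pow_left k ((Nat.Prime.coprime_iff_not_dvd hp).2 hpH)
  -- every p-element of A centralizes every term
  have key : ∀ x ∈ A, ∀ k : ℕ, x ^ (p ^ k) = 1 → ∀ i : Fin (n + 1), ∀ h ∈ c i, x * h = h * x := by
    intro x hx k hxk i
    induction i using Fin.reverseInduction with
    | last =>
      intro h hh
      rw [hcn, Subgroup.mem_bot] at hh
      rw [hh]; simp
    | cast i ih =>
      intro h hh
      set z := h * x * h⁻¹ * x⁻¹ with hz
      have hz1 : z ∈ c i.succ := htriv i (Subgroup.commutator_mem_commutator hh hx)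
      have hzx : x * z = z * x := ih z hz1
      have hconj : h * x * h⁻¹ = z * x := by rw [hz]; group
      have hpow : (h * x * h⁻¹) ^ (p ^ k) = z ^ (p ^ k) * x ^ (p ^ k) := by
        rw [hconj]
        exact (Commute.mul_pow (show Commute z x from hzx.symm) _)
      rw [conj_pow, hxk] at hpow
      have hz2 : z ^ (p ^ k) = 1 := by simpa using hpow.symm
      have hzH : z ∈ H := by
        rw [← hc0]
        exact hanti (Fin.zero_le _) hz1
      have hz3 : z ^ (Nat.card H) = 1 := by
        have := Subgroup.orderOf_dvd_natCard H hzH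
        exact orderOf_dvd_iff_pow_eq_one.1 this
      have hz4 : z = 1 := by
        have h1 : orderOf z ∣ p ^ k := orderOf_dvd_of_pow_eq_one hz2
        have h2 : orderOf z ∣ Nat.card H := orderOf_dvd_of_pow_eq_one hz3
        have h3 : orderOf z ∣ 1 := by
          rw [← (hcop k)]
          exact Nat.dvd_gcd h1 h2
        exact orderOf_eq_one_iff.1 (Nat.dvd_one.1 h3)
      rw [hz4] at hconj
      have : h * x = x * h := by
        calc h * x = (h * x * h⁻¹) * h := by group
          _ = x * h := by rw [hconj, one_mul]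
      exact this.symm
  obtain ⟨P⟩ : Nonempty (Sylow p A) := inferInstance
  have hle : (P : Subgroup A) ≤ (A ⊓ Subgroup.centralizer (H : Set G)).subgroupOf A := by
    intro y hy
    rw [Subgroup.mem_subgroupOf, Subgroup.mem_inf]
    refine ⟨y.2, ?_⟩
    obtain ⟨k, hk⟩ := P.2 ⟨y, hy⟩
    have hk' : (y : G) ^ (p ^ k) = 1 := by
      have := congrArg (fun t : (P : Subgroup A) => ((t : A) : G)) hk
      simpa using this
    rw [Subgroup.mem_centralizer_iff]
    intro h hh
    have := key y y.2 k hk' 0 h (by rw [hc0]; exact hh)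
    exact this.symm
  have h1 : ((A ⊓ Subgroup.centralizer (H : Set G)).subgroupOf A).index ∣ (P : Subgroup A).index :=
    Subgroup.index_dvd_of_le hle
  exact P.not_dvd_index (hdvd.trans h1)

end Cfsg.Agent.S1441
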