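import Cfsg.Statements.S1442
-- import your own Cfsg.Agent.* helpers here

set_option autoImplicit false
open Cfsg

namespace Cfsg.Agent.S1442

/-- Let G be a finite group, H a nilpotent subgroup and A a subgroup normalizing H with the orders of A and H coprime. Put C = H ∩ C_G(A). If H ∩ C_G(C) ≤ C then A centralizes H. -/
theorem result {G : Type*} [Group G] [Finite G] (H A : Subgroup G) (hH : Group.IsNilpotent H) (hA : (A ≤ Subgroup.normalizer (H : Set G))) (hcop : (Nat.card A).Coprime (Nat.card H))
    (hC : H ⊓ Subgroup.centralizer (((H ⊓ Subgroup.centralizer (A : Set G)) : Subgroup G) : Set G) ≤ (H ⊓ Subgroup.centralizer (A : Set G))) :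
    A ≤ Subgroup.centralizer (H : Set G) := by
  set C := H ⊓ Subgroup.centralizer (A : Set G) with hCdef
  -- key: elements of H normalizing C lie in C
  have key : ∀ n ∈ H, (∀ c ∈ C, n * c * n⁻¹ ∈ C) → n ∈ C := by
    intro n hn hnC
    rw [hCdef, Subgroup.mem_inf]
    refine ⟨hn, ?_⟩
    rw [Subgroup.mem_centralizer_iff]
    intro a ha
    set z := n⁻¹ * a * n * a⁻¹ with hz
    have hanH : a * n * a⁻¹ ∈ H := ((Subgroup.mem_normalizer_iff.1 (hA ha)) n).1 hn
    have hzH : z ∈ H := by
      have : z = n⁻¹ * (a * n * a⁻¹) := by rw [hz]; group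
      rw [this]
      exact H.mul_mem (H.inv_mem hn) hanH
    have hzC : z ∈ Subgroup.centralizer (C : Set G) := by
      rw [Subgroup.mem_centralizer_iff]
      intro c hc
      have hc1 : a * c = c * a := ((Subgroup.mem_centralizer_iff.1 hc.2) a ha)
      have hc2 : a * (n * c * n⁻¹) = (n * c * n⁻¹) * a :=
        ((Subgroup.mem_centralizer_iff.1 (hnC c hc).2) a ha)
      have hc1' : a⁻¹ * c * a = c := by rw [mul_assoc, ← hc1]; group
      have hc2' : a * (n * c * n⁻¹) * a⁻¹ = n * c * n⁻¹ := by rw [hc2]; group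
      have : z * c * z⁻¹ = c := by
        calc z * c * z⁻¹ = n⁻¹ * (a * (n * (a⁻¹ * c * a) * n⁻¹) * a⁻¹) * n := by rw [hz]; group
          _ = n⁻¹ * (n * c * n⁻¹) * n := by rw [hc1', hc2']
          _ = c := by group
      calc c * z = (z * c * z⁻¹) * z := by rw [this]
        _ = z * c := by group
    have hzC' : z ∈ C := hC ⟨hzH, hzC⟩
    have hza : a * z = z * a := ((Subgroup.mem_centralizer_iff.1 hzC'.2) a ha)
    have hconj : n⁻¹ * a * (n⁻¹)⁻¹ = z * a := by rw [hz]; group
    have hpow : (n⁻¹ * a * (n⁻¹)⁻¹) ^ (orderOf a) = z ^ (orderOf a) * a ^ (orderOf a) := by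
      rw [hconj]
      exact (Commute.mul_pow (show Commute z a from hza.symm) _)
    rw [conj_pow, pow_orderOf_eq_one] at hpow
    have hz2 : z ^ (orderOf a) = 1 := by simpa using hpow.symm
    have h1 : orderOf z ∣ Nat.card A :=
      (orderOf_dvd_of_pow_eq_one hz2).trans (Subgroup.orderOf_dvd_natCard A ha)
    have h2 : orderOf z ∣ Nat.card H := Subgroup.orderOf_dvd_natCard H hzH
    have h3 : orderOf z ∣ 1 := by
      rw [← hcop]
      exact Nat.dvd_gcd h1 h2
    have hz4 : z = 1 := orderOf_eq_one_iff.1 (Nat.dvd_one.1 h3)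
    rw [hz4] at hconj
    calc a * n = n * (n⁻¹ * a * (n⁻¹)⁻¹) := by group
      _ = n * a := by rw [hconj, one_mul]
  -- normalizer condition in H
  have hnc := (normalizerCondition_iff_only_full_group_self_normalizing (G := H)).1
    (Group.normalizerCondition_of_isNilpotent)
  have htop : C.subgroupOf H = ⊤ := by
    apply hnc
    apply le_antisymm _ Subgroup.le_normalizer
    intro n hn
    rw [Subgroup.mem_subgroupOf]
    apply key n n.2
    intro c hc
    have := ((Subgroup.mem_normalizer_iff.1 hn) ⟨c, hc.1⟩).1 (by rw [Subgroup.mem_subgroupOf]; exact hc)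
    rw [Subgroup.mem_subgroupOf] at this
    simpa using this
  have hHC : H ≤ C := by
    intro h hh
    have : (⟨h, hh⟩ : H) ∈ C.subgroupOf H := by rw [htop]; trivial
    rw [Subgroup.mem_subgroupOf] at this
    exact this
  intro a ha
  rw [Subgroup.mem_centralizer_iff]
  intro h hh
  exact ((Subgroup.mem_centralizer_iff.1 (hHC hh).2) a ha).symm

end Cfsg.Agent.S1442
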