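import Cfsg.Statements.S1443
import Cfsg.Agent.Lib.Helper22.PIndex
import Cfsg.Agent.S0028

set_option autoImplicit false
open Cfsg

namespace Cfsg.Agent.S1443

/-- Let G be a finite group, p an odd prime, H a p-subgroup, E an elementary abelian subgroup of H, and A a subgroup of order coprime to p normalizing H. If A centralizes every element of order p in H ∩ C_G(E), then A centralizes H. -/
theorem result {G : Type*} [Group G] [Finite G] (p : ℕ) [Fact p.Prime] (hp : p ≠ 2) (H E A : Subgroup G) (hH : IsPGroup p H) (hE : E ≤ H) (hEe : Cfsg.IsElementaryAbelian p E)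
    (hA : (A ≤ Subgroup.normalizer (H : Set G))) (hcop : (Nat.card A).Coprime p)
    (hfix : ∀ x ∈ (H ⊓ Subgroup.centralizer (E : Set G)), orderOf x = p → A ≤ Subgroup.centralizer ({x} : Set G)) :
    A ≤ Subgroup.centralizer (H : Set G) := by
  classical
  have hpp : p.Prime := Fact.out
  -- A centralizes E
  have hEab : ∀ x ∈ E, ∀ y ∈ E, x * y = y * x := by
    intro x hx y hy
    have := hEe.1
    exact Subgroup.mul_comm_of_mem_isMulCommutative E hx hy
  have hAE : ∀ a ∈ A, ∀ x ∈ E, a * x = x * a := by
    intro a ha x hx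
    by_cases hx1 : x = 1
    · rw [hx1]; simp
    · have hxo : orderOf x = p := orderOf_eq_prime (hEe.2 x hx) hx1
      have hxm : x ∈ H ⊓ Subgroup.centralizer (E : Set G) := by
        rw [Subgroup.mem_inf]
        refine ⟨hE hx, ?_⟩
        rw [Subgroup.mem_centralizer_iff]
        intro y hy
        exact hEab y hy x hx
      have := hfix x hxm hxo ha
      rwa [Subgroup.mem_centralizer_singleton_iff] at this
  let M : Subgroup G := H ⊓ Subgroup.centralizer (E : Set G)
  have hMp : IsPGroup p M := hH.to_le inf_le_left
  have hAM : ∀ a ∈ A, a ∈ Subgroup.normalizer (M : Set G) := by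
    intro a ha
    rw [Subgroup.mem_normalizer_iff]
    intro x
    have haH := Subgroup.mem_normalizer_iff.1 (hA ha) x
    show x ∈ H ⊓ Subgroup.centralizer (E : Set G) ↔ a * x * a⁻¹ ∈ H ⊓ Subgroup.centralizer (E : Set G)
    rw [Subgroup.mem_inf, Subgroup.mem_inf, ← haH, Subgroup.mem_centralizer_iff,
      Subgroup.mem_centralizer_iff]
    refine and_congr_right (fun _ => ?_)
    constructor
    · intro h y hy
      have h1 := hAE a ha y hy
      have h2 := h y hy
      calc y * (a * x * a⁻¹) = (y * a) * x * a⁻¹ := by group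
        _ = a * (y * x) * a⁻¹ := by rw [← h1]; group
        _ = a * (x * y) * a⁻¹ := by rw [h2]
        _ = a * x * (a⁻¹ * (a * y) * a⁻¹) := by group
        _ = a * x * (a⁻¹ * (y * a) * a⁻¹) := by rw [h1]
        _ = a * x * a⁻¹ * y := by group
    · intro h y hy
      have h1 := hAE a ha y hy
      have h2 := h y hy
      have h3 : a * (y * x) * a⁻¹ = a * (x * y) * a⁻¹ := by
        calc a * (y * x) * a⁻¹ = (a * y) * x * a⁻¹ := by group
          _ = y * (a * x * a⁻¹) := by rw [h1]; group
          _ = a * x * a⁻¹ * y := h2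
          _ = a * x * (a⁻¹ * (y * a) * a⁻¹) := by group
          _ = a * x * (a⁻¹ * (a * y) * a⁻¹) := by rw [h1]
          _ = a * (x * y) * a⁻¹ := by group
      exact mul_left_cancel (mul_right_cancel h3)
  have hAcM : M ≤ Subgroup.centralizer (A : Set G) := by
    intro x hx
    rw [Subgroup.mem_centralizer_iff]
    intro a ha
    let α : MulAut M := M.normalizerMonoidHom ⟨a, hAM a ha⟩
    have hαapp : ∀ z : M, ((α z : M) : G) = a * z * a⁻¹ := fun z => rfl
    have hα : (orderOf α).Coprime p := by
      have h1 : orderOf α ∣ orderOf a := by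
        have := orderOf_map_dvd M.normalizerMonoidHom
          (⟨a, hAM a ha⟩ : Subgroup.normalizer (M : Set G))
        rwa [Subgroup.orderOf_mk] at this
      exact Nat.Coprime.coprime_dvd_left (h1.trans (Subgroup.orderOf_dvd_natCard A ha)) hcop
    obtain ⟨D, _, hD2, hD3⟩ := Lib.Helper22.exists_small_exponent hMp α hα
    have hα1 : α = 1 := by
      apply hD3
      intro z hz
      have hze := hD2 z hz
      rw [if_neg hp] at hze
      apply Subtype.ext
      rw [hαapp]
      by_cases hz1 : z = 1
      · rw [hz1]; simp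
      · have hzo : orderOf (z : G) = p := by
          rw [Subgroup.orderOf_coe]; exact orderOf_eq_prime hze hz1
        have := hfix z z.2 hzo ha
        rw [Subgroup.mem_centralizer_singleton_iff] at this
        rw [this, mul_assoc, mul_inv_cancel, mul_one]
    have h3 : ((α ⟨x, hx⟩ : M) : G) = x := by rw [hα1]; rfl
    rw [hαapp] at h3
    calc a * x = (a * x * a⁻¹) * a := by group
      _ = x * a := by rw [h3]
  apply Cfsg.Agent.S0028.result p E A H (hH.to_le hE) hcop hH
  · intro x hx
    rw [Subgroup.mem_centralizer_iff]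
    intro a ha
    exact hAE a ha x hx
  · exact hE.trans Subgroup.le_normalizer
  · exact hA
  · exact hAcM

end Cfsg.Agent.S1443
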