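import Cfsg.Statements.S1453
import Mathlib
import Cfsg.Agent.S0100
import Cfsg.Agent.S0126
import Cfsg.Agent.Lib.Helper14.Class2
-- import your own Cfsg.Agent.* helpers here

set_option autoImplicit false
open Cfsg

namespace Cfsg.Agent.S1453

open scoped commutatorElement

/-- adjoining a commuting element of order dividing `p` to an elementary abelian subgroup. -/
theorem mem_of_max {R : Type*} [Group R] (p : ℕ)
    (E : Subgroup R) (hE : Cfsg.IsElementaryAbelian p E)
    (hEmax : ∀ B : Subgroup R, Cfsg.IsElementaryAbelian p B → E ≤ B → B = E)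
    (x : R) (hx : x ^ p = 1) (hc : ∀ e ∈ E, x * e = e * x) : x ∈ E := by
  have hEc : ∀ a ∈ E, ∀ b ∈ E, a * b = b * a := fun a ha b hb =>
    congrArg Subtype.val (hE.1.is_comm.comm ⟨a, ha⟩ ⟨b, hb⟩)
  have hcomm : ∀ a ∈ ((E : Set R) ∪ {x}), ∀ b ∈ ((E : Set R) ∪ {x}), a * b = b * a := by
    rintro a (ha | ha) b (hb | hb)
    · exact hEc a ha b hb
    · rw [Set.mem_singleton_iff.mp hb]; exact (hc a ha).symm
    · rw [Set.mem_singleton_iff.mp ha]; exact hc b hb
    · rw [Set.mem_singleton_iff.mp ha, Set.mem_singleton_iff.mp hb]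
  have hM : IsMulCommutative (Subgroup.closure ((E : Set R) ∪ {x})) :=
    Subgroup.isMulCommutative_closure hcomm
  have hMe : ∀ a ∈ Subgroup.closure ((E : Set R) ∪ {x}), a ^ p = 1 := by
    intro a ha
    induction ha using Subgroup.closure_induction with
    | mem y hy =>
      rcases hy with hy | hy
      · exact hE.2 y hy
      · rw [Set.mem_singleton_iff.mp hy]; exact hx
    | one => exact one_pow p
    | mul a b ha hb iha ihb =>
      have : Commute a b := congrArg Subtype.val (hM.is_comm.comm ⟨a, ha⟩ ⟨b, hb⟩)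
      rw [this.mul_pow, iha, ihb, one_mul]
    | inv a ha iha => rw [inv_pow, iha, inv_one]
  have := hEmax _ ⟨hM, hMe⟩ (fun e he => Subgroup.subset_closure (Or.inl he))
  rw [← this]
  exact Subgroup.subset_closure (Or.inr rfl)

/-- Let p be an odd prime and R a finite p-group with an elementary abelian subgroup of order p ^ 3 and an elementary abelian subgroup E of order p ^ 2 contained in no larger elementary abelian subgroup. Let Z₂ be the second centre of R, W the subgroup generated by the elements of Z₂ of order dividing p, and T = C_R(W). Then E is not contained in T; the elements of order dividing p of the centre of R generate a group of order p; W is elementary abelian of order p ^ 2; and T is characteristic in R of index p. -/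
theorem result {R : Type*} [Group R] [Finite R] (p : ℕ) [Fact p.Prime] (hp : p ≠ 2) (hR : IsPGroup p R) (hr : ¬ Cfsg.PRankLE p 2 R)
    (E : Subgroup R) (hE : Cfsg.IsElementaryAbelian p E) (hE2 : Nat.card E = p ^ 2)
    (hEmax : ∀ B : Subgroup R, Cfsg.IsElementaryAbelian p B → E ≤ B → B = E) :
    ¬ E ≤ Subgroup.centralizer ((Subgroup.closure {x : R | x ∈ Subgroup.upperCentralSeries R 2 ∧ x ^ p = 1} : Subgroup R) : Set R) ∧
      Nat.card ↥(Subgroup.closure {x : R | x ∈ Subgroup.center R ∧ x ^ p = 1}) = p ∧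
      (Cfsg.IsElementaryAbelian p (Subgroup.closure {x : R | x ∈ Subgroup.upperCentralSeries R 2 ∧ x ^ p = 1}) ∧
        Nat.card ↥(Subgroup.closure {x : R | x ∈ Subgroup.upperCentralSeries R 2 ∧ x ^ p = 1}) = p ^ 2) ∧
      (Subgroup.centralizer ((Subgroup.closure {x : R | x ∈ Subgroup.upperCentralSeries R 2 ∧ x ^ p = 1} : Subgroup R) : Set R)).Characteristic ∧
      (Subgroup.centralizer ((Subgroup.closure {x : R | x ∈ Subgroup.upperCentralSeries R 2 ∧ x ^ p = 1} : Subgroup R) : Set R)).index = p := by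
  have hpp : p.Prime := Fact.out
  have hEc : ∀ a ∈ E, ∀ b ∈ E, a * b = b * a := fun a ha b hb =>
    congrArg Subtype.val (hE.1.is_comm.comm ⟨a, ha⟩ ⟨b, hb⟩)
  have hmax := mem_of_max p E hE hEmax
  -- the rank three witness
  obtain ⟨B, hBc, hBe, hBcard⟩ : ∃ B : Subgroup R, IsMulCommutative B ∧ (∀ a ∈ B, a ^ p = 1) ∧
      p ^ 2 < Nat.card B := by
    unfold Cfsg.PRankLE at hr
    push Not at hr
    exact hr
  obtain ⟨Z, hZdef⟩ : ∃ Z : Subgroup R, Z = Subgroup.closure {x : R | x ∈ Subgroup.center R ∧ x ^ p = 1} :=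
    ⟨_, rfl⟩
  obtain ⟨W, hWdef⟩ : ∃ W : Subgroup R,
      W = Subgroup.closure {x : R | x ∈ Subgroup.upperCentralSeries R 2 ∧ x ^ p = 1} := ⟨_, rfl⟩
  rw [← hZdef, ← hWdef]
  have hZ2 : ∀ x : R, x ∈ Subgroup.upperCentralSeries R 2 ↔ ∀ y : R, ⁅x, y⁆ ∈ Subgroup.center R := by
    intro x
    rw [show (2 : ℕ) = 1 + 1 from rfl, Subgroup.mem_upperCentralSeries_succ_iff,
      Subgroup.upperCentralSeries_one]
  -- elements of Z
  have hZmem : ∀ x ∈ Z, x ∈ Subgroup.center R ∧ x ^ p = 1 := by
    intro x hx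
    rw [hZdef] at hx
    induction hx using Subgroup.closure_induction with
    | mem y hy => exact hy
    | one => exact ⟨Subgroup.one_mem _, one_pow p⟩
    | mul a b _ _ iha ihb =>
      refine ⟨Subgroup.mul_mem _ iha.1 ihb.1, ?_⟩
      have : Commute a b := (Subgroup.mem_center_iff.mp iha.1 b).symm
      rw [this.mul_pow, iha.2, ihb.2, one_mul]
    | inv a _ iha => exact ⟨Subgroup.inv_mem _ iha.1, by rw [inv_pow, iha.2, inv_one]⟩
  have hZof : ∀ x : R, x ∈ Subgroup.center R → x ^ p = 1 → x ∈ Z := by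
    intro x h1 h2
    rw [hZdef]; exact Subgroup.subset_closure ⟨h1, h2⟩
  have hZc : Z ≤ Subgroup.center R := fun x hx => (hZmem x hx).1
  -- elements of W
  have hWmem : ∀ x ∈ W, x ∈ Subgroup.upperCentralSeries R 2 ∧ x ^ p = 1 := by
    intro x hx
    rw [hWdef] at hx
    induction hx using Subgroup.closure_induction with
    | mem y hy => exact hy
    | one => exact ⟨Subgroup.one_mem _, one_pow p⟩
    | mul a b _ _ iha ihb =>
      refine ⟨Subgroup.mul_mem _ iha.1 ihb.1, ?_⟩
      have h1 : ⁅b, a⁆ ∈ Subgroup.center R := (hZ2 b).mp ihb.1 a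
      have h2 : ⁅b, a⁆ ^ p = 1 := by
        rw [← Cfsg.Agent.Lib.Helper14.comm_pow_left b a h1, ihb.2]; simp
      rw [Cfsg.Agent.Lib.Helper14.mul_pow_prime_class2 hpp hp a b h1 h2, iha.2, ihb.2, one_mul]
    | inv a _ iha => exact ⟨Subgroup.inv_mem _ iha.1, by rw [inv_pow, iha.2, inv_one]⟩
  have hWof : ∀ x : R, x ∈ Subgroup.upperCentralSeries R 2 → x ^ p = 1 → x ∈ W := by
    intro x h1 h2
    rw [hWdef]; exact Subgroup.subset_closure ⟨h1, h2⟩
  have hWZ : ∀ w ∈ W, ∀ g : R, ⁅w, g⁆ ∈ Z := by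
    intro w hw g
    have h1 : ⁅w, g⁆ ∈ Subgroup.center R := (hZ2 w).mp (hWmem w hw).1 g
    apply hZof _ h1
    rw [← Cfsg.Agent.Lib.Helper14.comm_pow_left w g h1, (hWmem w hw).2]; simp
  have hWZ' : ∀ g : R, ∀ w ∈ W, ⁅g, w⁆ ∈ Z := by
    intro g w hw
    rw [← commutatorElement_inv]; exact Z.inv_mem (hWZ w hw g)
  have hZE : Z ≤ E := fun x hx => hmax x (hZmem x hx).2
    (fun e _ => (Subgroup.mem_center_iff.mp (hZmem x hx).1 e).symm)
  have hRnt : (⊤ : Subgroup R) ≠ ⊥ := by
    intro h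
    have h1 : E = ⊥ := le_bot_iff.mp (h ▸ le_top)
    rw [h1, Subgroup.card_bot] at hE2
    have := Nat.one_lt_pow (n := 2) (by norm_num) hpp.one_lt
    omega
  obtain ⟨z, -, hz1, hzc, hzp⟩ := Cfsg.Agent.Lib.Helper14.exists_central_order_p p hR ⊤ hRnt
  have hzZ : z ∈ Z := hZof z hzc hzp
  have hZneE : Z ≠ E := by
    intro h
    have hBE : B ≤ E := fun b hb => hmax b (hBe b hb)
      (fun e he => (Subgroup.mem_center_iff.mp (hZc (h ▸ he)) b))
    have := Subgroup.card_le_of_le hBE
    omega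
  have hZcard : Nat.card Z = p := by
    have hdvd : Nat.card Z ∣ p ^ 2 := hE2 ▸ Subgroup.card_dvd_of_le hZE
    obtain ⟨k, hk, hkc⟩ := (Nat.dvd_prime_pow hpp).mp hdvd
    interval_cases k
    · exfalso
      rw [pow_zero, Subgroup.card_eq_one] at hkc
      rw [hkc, Subgroup.mem_bot] at hzZ
      exact hz1 hzZ
    · simpa using hkc
    · exact absurd (Subgroup.eq_of_le_of_card_ge hZE (by rw [hkc, hE2])) hZneE
  have hZrel : Z.relIndex E = p := by
    have h1 := Subgroup.relIndex_mul_relIndex ⊥ Z E bot_le hZE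
    rw [Subgroup.relIndex_bot_left, Subgroup.relIndex_bot_left, hZcard, hE2, pow_two] at h1
    exact Nat.eq_of_mul_eq_mul_left hpp.pos h1
  -- the pairing bound
  have hrel : ∀ X : Subgroup R, (∀ x ∈ X, ∀ e ∈ E, ⁅x, e⁆ ∈ Z) →
      Nat.card X ≤ Nat.card (X ⊓ Subgroup.centralizer (E : Set R) : Subgroup R) * p := by
    intro X hX
    have h1 := Cfsg.Agent.Lib.Helper14.comm_pairing Z X E hZc hZcard hX
    have h2 : (Subgroup.centralizer (X : Set R)).relIndex E ∣ p := by
      rw [← hZrel]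
      exact Subgroup.relIndex_dvd_of_le_left E (hZc.trans (Subgroup.center_le_centralizer _))
    have h3 := Subgroup.relIndex_mul_relIndex ⊥ (X ⊓ Subgroup.centralizer (E : Set R)) X bot_le inf_le_left
    rw [Subgroup.relIndex_bot_left, Subgroup.relIndex_bot_left, Subgroup.inf_relIndex_left, h1] at h3
    rw [← h3]
    exact Nat.mul_le_mul_left _ (Nat.le_of_dvd hpp.pos h2)
  have hcapE : ∀ X : Subgroup R, (∀ x ∈ X, x ^ p = 1) →
      X ⊓ Subgroup.centralizer (E : Set R) ≤ E := fun X hX x hx =>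
    hmax x (hX x hx.1) (fun e he => (Subgroup.mem_centralizer_iff.mp hx.2 e he).symm)
  have hsmall : ∀ D : Subgroup R, D ≤ E → D ≠ E → Nat.card D ≤ p := by
    intro D hDE hne
    have hdvd : Nat.card D ∣ p ^ 2 := hE2 ▸ Subgroup.card_dvd_of_le hDE
    obtain ⟨k, hk, hkc⟩ := (Nat.dvd_prime_pow hpp).mp hdvd
    interval_cases k
    · rw [hkc, pow_zero]; exact hpp.one_lt.le
    · rw [hkc, pow_one]
    · exact absurd (Subgroup.eq_of_le_of_card_ge hDE (by rw [hkc, hE2])) hne
  -- E is not inside the second centre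
  have hK : ¬ E ≤ Subgroup.upperCentralSeries R 2 := by
    intro hEZ2
    have hEW : E ≤ W := fun e he => hWof e (hEZ2 he) (hE.2 e he)
    have h1 := hrel B (fun b _ e he => hWZ' b e (hEW he))
    have hne : B ⊓ Subgroup.centralizer (E : Set R) ≠ E := by
      intro h
      have hEB : E ≤ B := h ▸ inf_le_left
      have := hEmax B ⟨hBc, hBe⟩ hEB
      rw [this, hE2] at hBcard
      exact lt_irrefl _ hBcard
    have h2 := hsmall _ (hcapE B hBe) hne
    have h3 : Nat.card (B ⊓ Subgroup.centralizer (E : Set R) : Subgroup R) * p ≤ p * p :=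
      Nat.mul_le_mul_right p h2
    rw [pow_two] at hBcard
    omega
  have hWle : Nat.card W ≤ p ^ 2 := by
    have h1 := hrel W (fun w hw e _ => hWZ w hw e)
    have hne : W ⊓ Subgroup.centralizer (E : Set R) ≠ E := by
      intro h
      have hEW : E ≤ W := h ▸ inf_le_left
      exact hK (fun e he => (hWmem e (hEW he)).1)
    have h2 := hsmall _ (hcapE W (fun w hw => (hWmem w hw).2)) hne
    have h3 : Nat.card (W ⊓ Subgroup.centralizer (E : Set R) : Subgroup R) * p ≤ p * p :=
      Nat.mul_le_mul_right p h2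
    rw [pow_two]
    omega
  have hZW : Z ≤ W := by
    intro x hx
    apply hWof x _ (hZmem x hx).2
    rw [hZ2]
    intro y
    rw [commutatorElement_eq_one_iff_mul_comm.mpr (Subgroup.mem_center_iff.mp (hZc hx) y).symm]
    exact Subgroup.one_mem _
  have hnc : ¬ IsCyclic R := by
    intro hcyc
    have hEcyc : IsCyclic E := inferInstance
    obtain ⟨g, hg⟩ := hEcyc.exists_ofOrder_eq_natCard
    have h1 : orderOf g ∣ p := orderOf_dvd_of_pow_eq_one (Subtype.ext (hE.2 g g.2))
    rw [hg, hE2] at h1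
    have := Nat.le_of_dvd hpp.pos h1
    have h2 : p < p ^ 2 := by rw [pow_two]; nlinarith [hpp.one_lt]
    omega
  obtain ⟨N, hNn, hNe, hNc⟩ := Cfsg.Agent.S0126.result hp hR hnc
  have hZn : Z.Normal := by
    refine ⟨fun y hy g => ?_⟩
    rw [Subgroup.mem_center_iff.mp (hZc hy) g, mul_inv_cancel_right]
    exact hy
  have hNZ : ¬ N ≤ Z := by
    intro h
    have := Subgroup.card_le_of_le h
    rw [hNc, hZcard] at this
    have h2 : p < p ^ 2 := by rw [pow_two]; nlinarith [hpp.one_lt]
    omega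
  obtain ⟨x, hxN, hxZ, -, hxc⟩ := Cfsg.Agent.Lib.Helper14.exists_rel_central_order_p p hR Z N hNZ
  have hxW : x ∈ W := hWof x ((hZ2 x).mpr fun y => hZc (hxc y)) (hNe.2 x hxN)
  have hWcard : Nat.card W = p ^ 2 := by
    obtain ⟨k, hk⟩ := IsPGroup.iff_card.mp (hR.to_subgroup W)
    have hk2 : k ≤ 2 := by
      rw [hk] at hWle
      exact (Nat.pow_le_pow_iff_right hpp.one_lt).mp hWle
    have hZne : Z ≠ W := fun h => hxZ (h ▸ hxW)
    have hlt : p < Nat.card W := by
      by_contra hcon
      push Not at hcon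
      exact hZne (Subgroup.eq_of_le_of_card_ge hZW (by rw [hZcard]; exact hcon))
    rw [hk] at hlt ⊢
    have : 1 < k := by
      have h1 : p ^ 1 < p ^ k := by rwa [pow_one]
      exact (Nat.pow_lt_pow_iff_right hpp.one_lt).mp h1
    have : k = 2 := by omega
    rw [this]
  have hWel : Cfsg.IsElementaryAbelian p W :=
    ⟨IsPGroup.isMulCommutative_of_card_eq_prime_sq hWcard, fun w hw => (hWmem w hw).2⟩
  have hnot : ¬ E ≤ Subgroup.centralizer (W : Set R) := by
    intro h
    have hWE : W ≤ E := fun w hw => hmax w (hWmem w hw).2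
      (fun e he => (Subgroup.mem_centralizer_iff.mp (h he) w hw))
    have hWeq : W = E := Subgroup.eq_of_le_of_card_ge hWE (by rw [hWcard, hE2])
    exact hK (fun e he => (hWmem e (hWeq ▸ he)).1)
  have hWchar : W.Characteristic := by
    rw [Subgroup.characteristic_iff_map_le]
    intro φ
    rintro _ ⟨w, hw, rfl⟩
    apply hWof
    · have := (Subgroup.characteristic_iff_map_le.mp
        (inferInstance : (Subgroup.upperCentralSeries R 2).Characteristic)) φ
      exact this ⟨w, (hWmem w hw).1, rfl⟩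
    · rw [← map_pow, (hWmem w hw).2, map_one]
  refine ⟨hnot, hZcard, ⟨hWel, hWcard⟩, inferInstance, ?_⟩
  have hidx := Cfsg.Agent.S0100.index_centralizer_dvd hR W (by rw [hWcard])
  rcases (Nat.dvd_prime hpp).mp hidx with h | h
  · exfalso
    rw [Subgroup.index_eq_one] at h
    exact hnot (h ▸ le_top)
  · exact h

end Cfsg.Agent.S1453
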