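import Cfsg.Statements.S1459
import Cfsg.Agent.Lib.Helper1.CoprimeAbelian
import Cfsg.Agent.Lib.Helper25.NilpHall
import Mathlib

set_option autoImplicit false
open Cfsg

namespace Cfsg.Agent.S1459

open Subgroup
open scoped commutatorElement

theorem perfect_bot {Q : Type*} [Group Q] [hs : Group.IsSolvable Q] (P : Subgroup Q)
    (hP : ⁅P, P⁆ = P) : P = ⊥ := by
  obtain ⟨n, hn⟩ := hs.solvable
  have key : ∀ k, P ≤ derivedSeries Q k := by
    intro k
    induction k with
    | zero => exact le_top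
    | succ k ih =>
      calc P = ⁅P, P⁆ := hP.symm
        _ ≤ _ := commutator_mono ih ih
  exact le_bot_iff.mp (hn ▸ key n)

theorem comm_central {Q : Type*} [Group Q] (a b x y : Q) (ha : ∀ g, a * g = g * a)
    (hb : ∀ g, b * g = g * b) : ⁅a * x, b * y⁆ = ⁅x, y⁆ := by
  rw [commutatorElement_def, commutatorElement_def]
  calc a * x * (b * y) * (a * x)⁻¹ * (b * y)⁻¹
      = a * x * (b * (y * x⁻¹ * a⁻¹ * y⁻¹)) * b⁻¹ := by group
    _ = a * x * ((y * x⁻¹ * a⁻¹ * y⁻¹) * b) * b⁻¹ := by rw [hb]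
    _ = a * (x * y * x⁻¹) * a⁻¹ * y⁻¹ := by group
    _ = (x * y * x⁻¹) * a * a⁻¹ * y⁻¹ := by rw [ha]
    _ = x * y * x⁻¹ * y⁻¹ := by group

theorem mk_comm {G : Type*} [Group G] (M : Subgroup G) [M.Normal] (a b : G) (h : ⁅a, b⁆ ∈ M) :
    QuotientGroup.mk' M a * QuotientGroup.mk' M b = QuotientGroup.mk' M b * QuotientGroup.mk' M a := by
  rw [← commutatorElement_eq_one_iff_mul_comm, ← map_commutatorElement, QuotientGroup.mk'_apply,
    QuotientGroup.eq_one_iff]
  exact h

theorem partA {G : Type*} [Group G] [Finite G] [Group.IsSolvable G] (H K : Subgroup G)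
    (hHn : H.Normal) (hcop : (Nat.card H).Coprime H.index) (hc : IsComplement' H K)
    (hHG : H ≤ commutator G) :
    H = ⁅H, K⁆ ∧ H ⊓ centralizer (K : Set G) ≤ ⁅H, H⁆ := by
  have hdec : ∀ g : G, ∃ h ∈ H, ∃ k ∈ K, g = h * k := by
    intro g
    obtain ⟨⟨h, k⟩, hg⟩ := hc.2 g
    exact ⟨h.1, h.2, k.1, k.2, hg.symm⟩
  have hdisj : ∀ x, x ∈ H → x ∈ K → x = 1 := by
    intro x h1 h2
    have := hc.disjoint.le_bot (show x ∈ H ⊓ K from ⟨h1, h2⟩)
    simpa using this
  have hWH : ⁅H, K⁆ ≤ H := commutator_le_left H K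
  have hWn : (⁅H, K⁆ : Subgroup G).Normal := by
    rw [← normalizer_eq_top_iff, eq_top_iff]
    intro g _
    obtain ⟨h, hh, k, hk, rfl⟩ := hdec g
    exact mul_mem (normalizer_commutator_ge_left H K hh) (normalizer_commutator_ge_right H K hk)
  have hMH : ⁅H, H⁆ ⊔ ⁅H, K⁆ ≤ H := sup_le (commutator_le_left H H) hWH
  have hcen : ∀ h ∈ H, ∀ g, QuotientGroup.mk' (⁅H, H⁆ ⊔ ⁅H, K⁆) h * QuotientGroup.mk' (⁅H, H⁆ ⊔ ⁅H, K⁆) g =
      QuotientGroup.mk' (⁅H, H⁆ ⊔ ⁅H, K⁆) g * QuotientGroup.mk' (⁅H, H⁆ ⊔ ⁅H, K⁆) h := by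
    intro h hh g
    obtain ⟨h', hh', k', hk', rfl⟩ := hdec g
    have h1 := mk_comm (⁅H, H⁆ ⊔ ⁅H, K⁆) h h' (mem_sup_left (commutator_mem_commutator hh hh'))
    have h2 := mk_comm (⁅H, H⁆ ⊔ ⁅H, K⁆) h k' (mem_sup_right (commutator_mem_commutator hh hk'))
    rw [map_mul, ← mul_assoc, h1, mul_assoc, h2, mul_assoc]
  have hG' : commutator G ≤ (K.map (QuotientGroup.mk' (⁅H, H⁆ ⊔ ⁅H, K⁆))).comap
      (QuotientGroup.mk' (⁅H, H⁆ ⊔ ⁅H, K⁆)) := by
    rw [_root_.commutator_def, commutator_le]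
    intro g1 _ g2 _
    obtain ⟨h1, hh1, k1, hk1, rfl⟩ := hdec g1
    obtain ⟨h2, hh2, k2, hk2, rfl⟩ := hdec g2
    rw [mem_comap, map_commutatorElement, map_mul, map_mul,
      comm_central _ _ _ _ (fun g => by
        obtain ⟨g, rfl⟩ := QuotientGroup.mk'_surjective _ g
        exact hcen h1 hh1 g) (fun g => by
        obtain ⟨g, rfl⟩ := QuotientGroup.mk'_surjective _ g
        exact hcen h2 hh2 g), ← map_commutatorElement]
    exact mem_map_of_mem _ (by rw [commutatorElement_def]; exact mul_mem (mul_mem (mul_mem hk1 hk2) (inv_mem hk1)) (inv_mem hk2))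
  have hHM : H ≤ ⁅H, H⁆ ⊔ ⁅H, K⁆ := by
    intro h hh
    obtain ⟨k, hk, hkh⟩ := hG' (hHG hh)
    have h1 : k⁻¹ * h ∈ ⁅H, H⁆ ⊔ ⁅H, K⁆ := QuotientGroup.eq.mp hkh
    have h2 : k ∈ H := by
      have := mul_mem hh (inv_mem (hMH h1))
      simpa using this
    have h3 := hdisj k h2 hk
    rw [h3] at h1
    simpa using h1
  have hHW : H = ⁅H, K⁆ := by
    apply le_antisymm _ hWH
    have hp : ⁅H.map (QuotientGroup.mk' ⁅H, K⁆), H.map (QuotientGroup.mk' ⁅H, K⁆)⁆ =
        H.map (QuotientGroup.mk' ⁅H, K⁆) := by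
      rw [← map_commutator]
      apply le_antisymm (map_mono (commutator_le_left H H))
      calc H.map (QuotientGroup.mk' ⁅H, K⁆) ≤ (⁅H, H⁆ ⊔ ⁅H, K⁆).map (QuotientGroup.mk' ⁅H, K⁆) :=
            map_mono hHM
        _ = _ := by rw [Subgroup.map_sup, QuotientGroup.map_mk'_self, sup_bot_eq]
    have := perfect_bot _ hp
    rw [Subgroup.map_eq_bot_iff, QuotientGroup.ker_mk'] at this
    exact this
  refine ⟨hHW, ?_⟩
  intro x hx
  obtain ⟨hxH, hxK⟩ := hx
  have hVn : (H.map (QuotientGroup.mk' ⁅H, H⁆)).Normal := hHn.map _ (QuotientGroup.mk'_surjective _)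
  haveI hVc : IsMulCommutative (H.map (QuotientGroup.mk' ⁅H, H⁆)) := by
    refine ⟨⟨?_⟩⟩
    rintro ⟨_, a, ha, rfl⟩ ⟨_, b, hb, rfl⟩
    apply Subtype.ext
    exact mk_comm ⁅H, H⁆ a b (commutator_mem_commutator ha hb)
  have hcop' : (Nat.card (K.map (QuotientGroup.mk' ⁅H, H⁆))).Coprime
      (Nat.card (H.map (QuotientGroup.mk' ⁅H, H⁆))) := by
    have h1 : Nat.card (K.map (QuotientGroup.mk' ⁅H, H⁆)) ∣ H.index := by
      rw [hc.symm.index_eq_card]
      exact card_map_dvd _ _
    exact (Nat.Coprime.coprime_dvd_left (card_map_dvd _ _) (Nat.Coprime.coprime_dvd_right h1 hcop)).symm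
  have h1 := Cfsg.Agent.Lib.Helper1.coprime_abelian_inf (K.map (QuotientGroup.mk' ⁅H, H⁆))
    (H.map (QuotientGroup.mk' ⁅H, H⁆)) le_normalizer_of_normal hcop'
  rw [← map_commutator, ← hHW] at h1
  have h2 : QuotientGroup.mk' ⁅H, H⁆ x ∈ (H.map (QuotientGroup.mk' ⁅H, H⁆) ⊓
      centralizer ((K.map (QuotientGroup.mk' ⁅H, H⁆) : Subgroup _) : Set _)) ⊓ H.map (QuotientGroup.mk' ⁅H, H⁆) := by
    refine ⟨⟨mem_map_of_mem _ hxH, ?_⟩, mem_map_of_mem _ hxH⟩
    show _ ∈ centralizer _
    rw [mem_centralizer_iff]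
    rintro _ ⟨k, hk, rfl⟩
    rw [← map_mul, ← map_mul, mem_centralizer_iff.mp hxK k hk]
  rw [h1, mem_bot, QuotientGroup.mk'_apply, QuotientGroup.eq_one_iff] at h2
  exact h2

theorem partB {G : Type*} [Group G] [Finite G] (hnil : Group.IsNilpotent ↥(commutator G))
    (hq : (commutator G).index.Prime) :
    (Nat.card ↥(commutator G)).Coprime (commutator G).index := by
  haveI : Fact (commutator G).index.Prime := ⟨hq⟩
  haveI hcyc : IsCyclic (G ⧸ commutator G) := isCyclic_of_prime_card (p := (commutator G).index) rfl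
  obtain ⟨xb, hxb⟩ := hcyc.exists_generator
  obtain ⟨x, rfl⟩ := QuotientGroup.mk'_surjective _ xb
  have hdec : ∀ g : G, ∃ c ∈ commutator G, ∃ i : ℤ, g = c * x ^ i := by
    intro g
    obtain ⟨i, hi⟩ := mem_zpowers_iff.mp (hxb (QuotientGroup.mk' _ g))
    rw [← map_zpow] at hi
    have h1 : (x ^ i)⁻¹ * g ∈ commutator G := QuotientGroup.eq.mp hi
    refine ⟨x ^ i * ((x ^ i)⁻¹ * g) * (x ^ i)⁻¹, ?_, i, by group⟩
    exact (inferInstance : (commutator G).Normal).conj_mem _ h1 _
  have hN3 : commutator G ≤ ⁅commutator G, (⊤ : Subgroup G)⁆ := by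
    conv_lhs => rw [_root_.commutator_def]
    rw [commutator_le]
    intro g1 _ g2 _
    obtain ⟨c1, hc1, i, rfl⟩ := hdec g1
    obtain ⟨c2, hc2, j, rfl⟩ := hdec g2
    rw [← QuotientGroup.eq_one_iff, ← QuotientGroup.mk'_apply, map_commutatorElement, map_mul, map_mul,
      comm_central _ _ _ _ (fun g => by
        obtain ⟨g, rfl⟩ := QuotientGroup.mk'_surjective _ g
        exact mk_comm _ c1 g (commutator_mem_commutator hc1 (mem_top g))) (fun g => by
        obtain ⟨g, rfl⟩ := QuotientGroup.mk'_surjective _ g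
        exact mk_comm _ c2 g (commutator_mem_commutator hc2 (mem_top g))),
      commutatorElement_eq_one_iff_commute, map_zpow, map_zpow]
    exact (Commute.refl _).zpow_zpow i j
  set q := (commutator G).index with hqdef
  have hnk : (ordCompl[q] (Nat.card ↥(commutator G))).Coprime (ordProj[q] (Nat.card ↥(commutator G))) :=
    (Nat.Coprime.pow_left _ (Nat.coprime_ordCompl hq Nat.card_pos.ne')).symm
  obtain ⟨E1, hE1n, hE1c, hE1i⟩ := Cfsg.Agent.Lib.Helper25.exists_normal_hall_of_nilpotent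
    ↥(commutator G) hnk (by rw [mul_comm, Nat.ordProj_mul_ordCompl_eq_self])
  have hmem := Cfsg.Agent.Lib.Helper25.mem_iff_pow_eq_one_of_hall E1 hnk hE1c hE1i
  have hLn : (E1.map (commutator G).subtype).Normal := by
    constructor
    rintro _ ⟨y, hy, rfl⟩ g
    have hyc : g * (y : G) * g⁻¹ ∈ commutator G :=
      (inferInstance : (commutator G).Normal).conj_mem _ y.2 _
    refine ⟨⟨_, hyc⟩, ?_, rfl⟩
    have hy' : y ∈ E1 := hy
    rw [hmem] at hy'
    show _ ∈ E1
    rw [hmem]
    apply Subtype.ext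
    have h1 : (y : G) ^ (ordCompl[q] (Nat.card ↥(commutator G))) = 1 := by
      have := congrArg Subtype.val hy'
      simpa using this
    simp only [SubmonoidClass.mk_pow, OneMemClass.coe_one]
    rw [conj_pow, h1]
    group
  have hpg : IsPGroup q (G ⧸ E1.map (commutator G).subtype) := by
    have h1 : Nat.card (G ⧸ E1.map (commutator G).subtype) = E1.index * q := by
      rw [← index_eq_card, index_map_subtype]
    have h2 : E1.index * q ∣ q ^ ((Nat.card ↥(commutator G)).factorization q + 1) := by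
      rw [pow_succ]
      exact Nat.mul_dvd_mul_right hE1i q
    obtain ⟨j, _, hj⟩ := (Nat.dvd_prime_pow hq).mp h2
    exact IsPGroup.of_card (h1.trans hj)
  have hbot : (commutator G).map (QuotientGroup.mk' (E1.map (commutator G).subtype)) = ⊥ := by
    by_contra hne
    have h1 := Cfsg.Agent.Lib.Helper1.commutator_lt_of_isPGroup (P := ⊤) (hpg.to_subgroup _)
      (hpg.to_subgroup _) (by
        haveI : ((commutator G).map (QuotientGroup.mk' (E1.map (commutator G).subtype))).Normal :=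
          (inferInstance : (commutator G).Normal).map _ (QuotientGroup.mk'_surjective _)
        exact le_normalizer_of_normal) hne
    apply h1.ne
    apply le_antisymm h1.le
    calc (commutator G).map (QuotientGroup.mk' (E1.map (commutator G).subtype))
        ≤ (⁅commutator G, (⊤ : Subgroup G)⁆).map (QuotientGroup.mk' (E1.map (commutator G).subtype)) :=
          map_mono hN3
      _ = _ := by
        rw [map_commutator, ← MonoidHom.range_eq_map,
          MonoidHom.range_eq_top.mpr (QuotientGroup.mk'_surjective _)]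
  rw [Subgroup.map_eq_bot_iff, QuotientGroup.ker_mk'] at hbot
  have hcard : Nat.card ↥(commutator G) ∣ ordCompl[q] (Nat.card ↥(commutator G)) := by
    refine dvd_trans (card_dvd_of_le hbot) ?_
    rw [card_map_of_injective (subtype_injective _)]
    exact hE1c
  exact Nat.Coprime.coprime_dvd_left hcard (Nat.coprime_ordCompl hq Nat.card_pos.ne').symm

/-- Let G be a finite solvable group. (a) If H is a normal subgroup of order coprime to its index, K is a complement to H, and H ≤ G', then H = [H, K] and H ∩ C_G(K) ≤ [H, H]. (b) If G' is nilpotent and has prime index in G, then the order of G' is coprime to its index and G' = [G, K] (the subgroup generated by commutators of elements of G with elements of K) for every complement K of G'. -/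
theorem result {G : Type*} [Group G] [Finite G] [Group.IsSolvable G] :
    (∀ (H K : Subgroup G), H.Normal → (Nat.card H).Coprime H.index → Subgroup.IsComplement' H K → H ≤ commutator G →
        H = ⁅H, K⁆ ∧ H ⊓ Subgroup.centralizer (K : Set G) ≤ ⁅H, H⁆) ∧
      (Group.IsNilpotent ↥(commutator G) → (commutator G).index.Prime →
        (Nat.card ↥(commutator G)).Coprime (commutator G).index ∧
        ∀ K : Subgroup G, Subgroup.IsComplement' (commutator G) K → commutator G = ⁅(⊤ : Subgroup G), K⁆) := by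
  refine ⟨fun H K hHn hcop hc hHG => partA H K hHn hcop hc hHG, fun hnil hq => ?_⟩
  have hcop := partB hnil hq
  refine ⟨hcop, fun K hK => ?_⟩
  have h1 := (partA (commutator G) K inferInstance hcop hK le_rfl).1
  apply le_antisymm
  · calc commutator G = ⁅commutator G, K⁆ := h1
      _ ≤ _ := Subgroup.commutator_mono le_top le_rfl
  · rw [_root_.commutator_def]
    exact Subgroup.commutator_mono le_rfl le_top

end Cfsg.Agent.S1459
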