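import Cfsg.Statements.S1460
import Mathlib
import Cfsg.Agent.Lib.Helper1.SZSub
import Cfsg.Agent.Lib.Helper17.Core
-- import your own Cfsg.Agent.* helpers here

set_option autoImplicit false
open Cfsg

namespace Cfsg.Agent.S1460

open Cfsg.Agent.Lib.Helper1 Cfsg.Agent.Lib.Helper17
open scoped Pointwise commutatorElement

/-- Let G be a finite solvable group, K a normal subgroup and U a subgroup with G = KU, and H ≤ U a subgroup whose order is coprime to that of K. Then H ∩ G' = H ∩ U'; N_G(H) is generated by K ∩ C_G(H) and U ∩ N_G(H); and if gHg⁻¹ ≤ U for some g ∈ G then g = u c with u ∈ U and c ∈ K ∩ C_G(H). -/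
theorem result {G : Type*} [Group G] [Finite G] [Group.IsSolvable G] (K U H : Subgroup G) [K.Normal] (hKU : K ⊔ U = ⊤) (hH : H ≤ U) (hcop : (Nat.card H).Coprime (Nat.card K)) :
    H ⊓ commutator G = H ⊓ ⁅U, U⁆ ∧
      Subgroup.normalizer (H : Set G) = (K ⊓ Subgroup.centralizer (H : Set G)) ⊔ (U ⊓ Subgroup.normalizer (H : Set G)) ∧
      ∀ g : G, H.map (MulAut.conj g).toMonoidHom ≤ U → ∃ u ∈ U, ∃ c ∈ K ⊓ Subgroup.centralizer (H : Set G), g = u * c := by
  have hKn : K.Normal := inferInstance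
  have hKH : K ⊓ H = ⊥ := disjoint_iff.mp (Subgroup.disjoint_of_coprime_natCard hcop.symm)
  have hdecomp : ∀ g : G, ∃ u ∈ U, ∃ k ∈ K, g = u * k := by
    intro g
    have hg : g ∈ ((U ⊔ K : Subgroup G) : Set G) := by rw [sup_comm, hKU]; exact Set.mem_univ g
    rw [Subgroup.mul_normal] at hg
    obtain ⟨u, hu, k, hk, rfl⟩ := hg
    exact ⟨u, hu, k, hk, rfl⟩
  -- part (c)
  have hc : ∀ g : G, H.map (MulAut.conj g).toMonoidHom ≤ U →
      ∃ u ∈ U, ∃ c ∈ K ⊓ Subgroup.centralizer (H : Set G), g = u * c := by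
    intro g hg
    obtain ⟨u0, hu0, k, hk, rfl⟩ := hdecomp g
    have hkU : ∀ h ∈ H, k * h * k⁻¹ ∈ U := by
      intro h hh
      have h1 : u0 * k * h * (u0 * k)⁻¹ ∈ U := hg ⟨h, hh, rfl⟩
      have h2 : k * h * k⁻¹ = u0⁻¹ * (u0 * k * h * (u0 * k)⁻¹) * u0 := by group
      rw [h2]
      exact U.mul_mem (U.mul_mem (U.inv_mem hu0) h1) hu0
    obtain ⟨D, hD⟩ : ∃ D, D = U ⊓ K := ⟨_, rfl⟩
    obtain ⟨L, hL⟩ : ∃ L, L = D ⊔ H := ⟨_, rfl⟩
    have hDL : D ≤ L := hL ▸ le_sup_left
    have hHL : H ≤ L := hL ▸ le_sup_right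
    have hDU : D ≤ U := hD ▸ inf_le_left
    have hDK : D ≤ K := hD ▸ inf_le_right
    have hLU : L ≤ U := by rw [hL]; exact sup_le hDU hH
    have hLn : L ≤ Subgroup.normalizer (D : Set G) := by
      apply le_normalizer_of_conj_mem
      intro l hl x hx
      rw [hD] at hx ⊢
      exact ⟨U.mul_mem (U.mul_mem (hLU hl) hx.1) (U.inv_mem (hLU hl)), hKn.conj_mem x hx.2 l⟩
    have hrel : D.relIndex L = Nat.card H := by
      have h1 : K ⊓ L = D := by
        apply le_antisymm
        · rw [hD]; exact le_inf (inf_le_right.trans hLU) inf_le_left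
        · exact le_inf hDK hDL
      have h2 : K ⊔ L = K ⊔ H := by
        rw [hL, ← sup_assoc, sup_of_le_left hDK]
      rw [← h1, Subgroup.inf_relIndex_right, ← Subgroup.relIndex_sup_left, h2,
        Subgroup.relIndex_sup_left, ← Subgroup.inf_relIndex_right, hKH, Subgroup.relIndex_bot_left]
    have hH1L : MulAut.conj k • H ≤ L := by
      rintro _ ⟨h, hh, rfl⟩
      change k * h * k⁻¹ ∈ L
      have h1 : k * h * k⁻¹ = (k * h * k⁻¹ * h⁻¹) * h := by group
      rw [h1, hL]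
      apply Subgroup.mul_mem _ ((le_sup_left : D ≤ D ⊔ H) _) ((le_sup_right : H ≤ D ⊔ H) hh)
      rw [hD]
      refine ⟨U.mul_mem (hkU h hh) (U.inv_mem (hH hh)), ?_⟩
      have h2 : k * h * k⁻¹ * h⁻¹ = k * (h * k⁻¹ * h⁻¹) := by group
      rw [h2]
      exact K.mul_mem hk (hKn.conj_mem _ (K.inv_mem hk) h)
    have hcopD : (Nat.card D).Coprime (D.relIndex L) := by
      rw [hrel]
      exact (Nat.Coprime.coprime_dvd_right (Subgroup.card_dvd_of_le hDK) hcop).symm
    obtain ⟨v, hv, hvH⟩ := sz_conj_sub D L hDL hLn hcopD (MulAut.conj k • H) H hH1L hHL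
      (by rw [hrel]; exact Subgroup.card_map_of_injective (MulAut.conj k).injective) hrel.symm
      (Or.inl inferInstance)
    have hnH : ∀ h ∈ H, (v * k) * h * (v * k)⁻¹ ∈ H := by
      intro h hh
      rw [← hvH]
      exact ⟨k * h * k⁻¹, ⟨h, hh, rfl⟩, by simp [MulAut.conj_apply]; group⟩
    refine ⟨u0 * v⁻¹, U.mul_mem hu0 (U.inv_mem (hDU hv)), v * k, ⟨K.mul_mem (hDK hv) hk, ?_⟩, by group⟩
    change v * k ∈ Subgroup.centralizer (H : Set G)
    rw [Subgroup.mem_centralizer_iff]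
    intro h hh
    have h1 : (v * k) * h * (v * k)⁻¹ * h⁻¹ ∈ K ⊓ H := by
      refine ⟨?_, H.mul_mem (hnH h hh) (H.inv_mem hh)⟩
      have h2 : (v * k) * h * (v * k)⁻¹ * h⁻¹ = (v * k) * (h * (v * k)⁻¹ * h⁻¹) := by group
      rw [h2]
      exact K.mul_mem (K.mul_mem (hDK hv) hk)
        (hKn.conj_mem _ (K.inv_mem (K.mul_mem (hDK hv) hk)) h)
    rw [hKH, Subgroup.mem_bot] at h1
    calc h * (v * k) = ((v * k) * h * (v * k)⁻¹ * h⁻¹)⁻¹ * ((v * k) * h) := by group
      _ = (v * k) * h := by rw [h1]; group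
  refine ⟨?_, ?_, hc⟩
  · -- part (a)
    apply le_antisymm
    · rintro x ⟨hxH, hxG⟩
      refine ⟨hxH, ?_⟩
      have hle : commutator G ≤ K ⊔ ⁅U, U⁆ := by
        rw [commutator_eq_closure, Subgroup.closure_le]
        rintro _ ⟨a, b, rfl⟩
        obtain ⟨u1, hu1, k1, hk1, rfl⟩ := hdecomp a
        obtain ⟨u2, hu2, k2, hk2, rfl⟩ := hdecomp b
        have h1 : (⁅u1, u2⁆)⁻¹ * ⁅u1 * k1, u2 * k2⁆ ∈ K := by
          rw [← QuotientGroup.eq_one_iff]
          have e1 : ((k1 : G) : G ⧸ K) = 1 := (QuotientGroup.eq_one_iff k1).mpr hk1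
          have e2 : ((k2 : G) : G ⧸ K) = 1 := (QuotientGroup.eq_one_iff k2).mpr hk2
          simp only [commutatorElement_def, QuotientGroup.mk_mul, QuotientGroup.mk_inv, e1, e2, mul_one]
          group
        have h2 : ⁅u1 * k1, u2 * k2⁆ = ⁅u1, u2⁆ * ((⁅u1, u2⁆)⁻¹ * ⁅u1 * k1, u2 * k2⁆) := by group
        rw [SetLike.mem_coe, h2]
        exact Subgroup.mul_mem _
          ((le_sup_right : ⁅U, U⁆ ≤ K ⊔ ⁅U, U⁆) (Subgroup.commutator_mem_commutator hu1 hu2))
          ((le_sup_left : K ≤ K ⊔ ⁅U, U⁆) h1)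
      have hx2 : x ∈ ((K ⊔ ⁅U, U⁆ : Subgroup G) : Set G) := hle hxG
      rw [Subgroup.normal_mul] at hx2
      obtain ⟨k, hk, w, hw, hkw⟩ := hx2
      have hwU : w ∈ U := Subgroup.commutator_le_self U hw 
      have hxU : x ∈ U := hH hxH
      have hkU : k ∈ U := by
        have : k = x * w⁻¹ := by rw [← hkw]; group
        rw [this]; exact U.mul_mem hxU (U.inv_mem hwU)
      -- pass to the abelianization of `U`
      have hwc : (⟨w, hwU⟩ : U) ∈ commutator U := by
        rw [← Subgroup.map_subtype_commutator] at hw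
        obtain ⟨w', hw', hww⟩ := hw
        have : w' = ⟨w, hwU⟩ := Subtype.ext hww
        rwa [← this]
      have e1 : ((⟨x, hxU⟩ : U) : U ⧸ commutator U) = ((⟨k, hkU⟩ : U) : U ⧸ commutator U) := by
        have : (⟨x, hxU⟩ : U) = ⟨k, hkU⟩ * ⟨w, hwU⟩ := Subtype.ext hkw.symm
        rw [this, QuotientGroup.mk_mul, (QuotientGroup.eq_one_iff _).mpr hwc, mul_one]
      have e2 : ((⟨x, hxU⟩ : U) : U ⧸ commutator U) ^ Nat.card K = 1 := by
        rw [e1, ← QuotientGroup.mk_pow]
        have : (⟨k, hkU⟩ : U) ^ Nat.card K = 1 := by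
          apply Subtype.ext
          have h5 := pow_card_eq_one' (G := K) (x := ⟨k, hk⟩)
          have h6 : k ^ Nat.card K = 1 := congrArg Subtype.val h5
          exact h6
        rw [this]; rfl
      have e3 : ((⟨x, hxU⟩ : U) : U ⧸ commutator U) ^ Nat.card H = 1 := by
        rw [← QuotientGroup.mk_pow]
        have : (⟨x, hxU⟩ : U) ^ Nat.card H = 1 := by
          apply Subtype.ext
          have h5 := pow_card_eq_one' (G := H) (x := ⟨x, hxH⟩)
          have h6 : x ^ Nat.card H = 1 := congrArg Subtype.val h5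
          exact h6
        rw [this]; rfl
      have e4 : ((⟨x, hxU⟩ : U) : U ⧸ commutator U) = 1 := by
        have h1 := orderOf_dvd_of_pow_eq_one e2
        have h2 := orderOf_dvd_of_pow_eq_one e3
        exact orderOf_eq_one_iff.mp (Nat.eq_one_of_dvd_coprimes hcop h2 h1)
      rw [QuotientGroup.eq_one_iff] at e4
      change x ∈ ⁅U, U⁆
      rw [← Subgroup.map_subtype_commutator]
      exact ⟨⟨x, hxU⟩, e4, rfl⟩
    · apply inf_le_inf_left
      rw [commutator_def]
      exact Subgroup.commutator_mono le_top le_top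
  · -- part (b)
    apply le_antisymm
    · intro g hg
      have h1 : H.map (MulAut.conj g).toMonoidHom ≤ U := by
        rw [map_conj_eq_of_mem_normalizer hg]; exact hH
      obtain ⟨u, hu, c, hcc, rfl⟩ := hc g h1
      have hcN : c ∈ Subgroup.normalizer (H : Set G) := centralizer_le_normalizer' H hcc.2
      have huN : u ∈ Subgroup.normalizer (H : Set G) := by
        have : u = u * c * c⁻¹ := by group
        rw [this]
        exact Subgroup.mul_mem _ hg (Subgroup.inv_mem _ hcN)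
      exact Subgroup.mul_mem _ ((le_sup_right : U ⊓ Subgroup.normalizer (H : Set G) ≤ _) ⟨hu, huN⟩)
        ((le_sup_left : K ⊓ Subgroup.centralizer (H : Set G) ≤ _) hcc)
    · exact sup_le (inf_le_right.trans (centralizer_le_normalizer' H)) inf_le_right

end Cfsg.Agent.S1460
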