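import Cfsg.Statements.S1461
-- import your own Cfsg.Agent.* helpers here
import Cfsg.Agent.Lib.Helper20.PLen

set_option autoImplicit false
open Cfsg

namespace Cfsg.Agent.S1461

/-- Let G be a finite solvable group, p a prime with G = O_{p',p,p'}(G), and S a Sylow p-subgroup. Then: if S ≤ G' then S ≤ [N_G(S), N_G(S)]; if Y ⊆ S and xYx⁻¹ ⊆ S then x = g c for some g ∈ N_G(S) and c centralizing Y; and for every p-subgroup Q there is x ∈ C_G(Q ∩ S) with xQx⁻¹ ≤ S. -/
theorem result {G : Type*} [Group G] [Finite G] [Group.IsSolvable G] (p : ℕ) [Fact p.Prime] (hpl : Cfsg.PLengthLE p 1 G) (S : Sylow p G) :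
    ((S : Subgroup G) ≤ commutator G → (S : Subgroup G) ≤ ⁅Subgroup.normalizer ((S : Subgroup G) : Set G), Subgroup.normalizer ((S : Subgroup G) : Set G)⁆) ∧
      (∀ (Y : Set G) (x : G), Y ⊆ (S : Subgroup G) → (fun y => x * y * x⁻¹) '' Y ⊆ (S : Subgroup G) →
        ∃ g ∈ Subgroup.normalizer ((S : Subgroup G) : Set G), ∃ c ∈ Subgroup.centralizer Y, g * c = x) ∧
      ∀ Q : Subgroup G, IsPGroup p Q → ∃ x ∈ Subgroup.centralizer ((Q ⊓ (S : Subgroup G) : Subgroup G) : Set G), Q.map (MulAut.conj x).toMonoidHom ≤ (S : Subgroup G) := by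
  classical
  have hp : p.Prime := Fact.out
  obtain ⟨K, hKdef⟩ : ∃ K, K = Cfsg.pPrimeCore p G := ⟨_, rfl⟩
  have hKn : K.Normal := hKdef ▸ Cfsg.Agent.Lib.Helper1.pPrimeCore_normal p
  have hKc : (Nat.card K).Coprime p := hKdef ▸ Cfsg.Agent.Lib.Helper1.pPrimeCore_coprime p
  have hKS : K ⊓ (S : Subgroup G) = ⊥ := hKdef ▸ Cfsg.Agent.Lib.Helper20.pPrimeCore_inf_sylow S
  have hfr : Subgroup.normalizer ((S : Subgroup G) : Set G) ⊔ K = ⊤ :=
    hKdef ▸ Cfsg.Agent.Lib.Helper20.plen_one_frattini hpl S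
  have hdec : ∀ x : G, ∃ n ∈ Subgroup.normalizer ((S : Subgroup G) : Set G), ∃ k ∈ K, n * k = x := by
    intro x
    have hx : x ∈ Subgroup.normalizer ((S : Subgroup G) : Set G) ⊔ K := by rw [hfr]; trivial
    exact Subgroup.mem_sup_of_normal_right.mp hx
  -- an element of K conjugating y ∈ S into S commutes with y
  have hcomm : ∀ k ∈ K, ∀ y ∈ (S : Subgroup G), k * y * k⁻¹ ∈ (S : Subgroup G) → y * k = k * y := by
    intro k hk y hy hky
    have h1 : k * y * k⁻¹ * y⁻¹ ∈ K ⊓ (S : Subgroup G) := by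
      refine Subgroup.mem_inf.mpr ⟨?_, mul_mem hky (inv_mem hy)⟩
      have e : k * y * k⁻¹ * y⁻¹ = k * (y * k⁻¹ * y⁻¹) := by group
      rw [e]
      exact mul_mem hk (hKn.conj_mem _ (inv_mem hk) y)
    rw [hKS] at h1
    have h2 : k * y * k⁻¹ * y⁻¹ = 1 := h1
    calc y * k = (k * y * k⁻¹ * y⁻¹)⁻¹ * (k * y) := by group
      _ = k * y := by rw [h2]; simp
  have hB : ∀ (Y : Set G) (x : G), Y ⊆ (S : Subgroup G) →
      (fun y => x * y * x⁻¹) '' Y ⊆ (S : Subgroup G) →
      ∃ g ∈ Subgroup.normalizer ((S : Subgroup G) : Set G), ∃ c ∈ K,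
        c ∈ Subgroup.centralizer Y ∧ g * c = x := by
    intro Y x hY hxY
    obtain ⟨n, hn, k, hk, rfl⟩ := hdec x
    refine ⟨n, hn, k, hk, ?_, rfl⟩
    rw [Subgroup.mem_centralizer_iff]
    intro y hy
    apply hcomm k hk y (hY hy)
    have h1 : n * k * y * (n * k)⁻¹ ∈ (S : Subgroup G) := hxY ⟨y, hy, rfl⟩
    have e : n * k * y * (n * k)⁻¹ = n * (k * y * k⁻¹) * n⁻¹ := by group
    rw [e] at h1
    exact (Subgroup.mem_normalizer_iff.mp hn _).mpr h1
  refine ⟨?_, ?_, ?_⟩
  · intro hSG s hs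
    set N := Subgroup.normalizer ((S : Subgroup G) : Set G) with hN
    have hmapN : N.map (QuotientGroup.mk' K) = ⊤ := by
      have := congrArg (Subgroup.map (QuotientGroup.mk' K)) hfr
      rw [Subgroup.map_sup, (Subgroup.map_eq_bot_iff K).mpr (by rw [QuotientGroup.ker_mk']),
        sup_bot_eq, ← MonoidHom.range_eq_map,
        MonoidHom.range_eq_top.mpr (QuotientGroup.mk'_surjective K)] at this
      exact this
    have h1 : QuotientGroup.mk' K s ∈ (⁅N, N⁆).map (QuotientGroup.mk' K) := by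
      rw [Subgroup.map_commutator, hmapN]
      have h2 : QuotientGroup.mk' K s ∈ (commutator G).map (QuotientGroup.mk' K) :=
        ⟨s, hSG hs, rfl⟩
      rw [commutator_def, Subgroup.map_commutator, ← MonoidHom.range_eq_map,
        MonoidHom.range_eq_top.mpr (QuotientGroup.mk'_surjective K)] at h2
      exact h2
    obtain ⟨c, hc, hcs⟩ := h1
    have ht : c⁻¹ * s ∈ K := by
      rw [← QuotientGroup.ker_mk' K, MonoidHom.mem_ker, map_mul, map_inv, hcs, inv_mul_cancel]
    have hsN : s ∈ N := Subgroup.le_normalizer hs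
    rw [← Subgroup.map_subtype_commutator] at hc ⊢
    obtain ⟨c', hc', hcc⟩ := hc
    let s' : ↥N := ⟨s, hsN⟩
    let t' : ↥N := c'⁻¹ * s'
    have ht' : (t' : G) ∈ K := by
      show (c' : G)⁻¹ * s ∈ K
      have : (c' : G) = c := hcc
      rw [this]; exact ht
    have hof : Abelianization.of s' = Abelianization.of t' := by
      have : Abelianization.of c' = 1 := by
        rw [← MonoidHom.mem_ker, Abelianization.ker_of]; exact hc'
      show _ = Abelianization.of (c'⁻¹ * s')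
      rw [map_mul, map_inv, this, inv_one, one_mul]
    obtain ⟨k, hk⟩ := S.2 ⟨s, hs⟩
    have hk' : s' ^ p ^ k = 1 := by
      apply Subtype.ext
      have h4 : s ^ p ^ k = 1 := congrArg Subtype.val hk
      simpa [s'] using h4
    have d1 : orderOf (Abelianization.of s') ∣ p ^ k := by
      apply orderOf_dvd_of_pow_eq_one
      rw [← map_pow, hk', map_one]
    have d2 : orderOf (Abelianization.of s') ∣ Nat.card K := by
      rw [hof]
      apply orderOf_dvd_of_pow_eq_one
      rw [← map_pow]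
      have : t' ^ Nat.card K = 1 := by
        apply Subtype.ext
        have h3 : (⟨(t' : G), ht'⟩ : ↥K) ^ Nat.card K = 1 := pow_card_eq_one'
        have h4 : (t' : G) ^ Nat.card K = 1 := congrArg Subtype.val h3
        simpa using h4
      rw [this, map_one]
    have d3 := Nat.dvd_gcd d2 d1
    rw [(hKc.pow_right k : Nat.gcd _ _ = 1), Nat.dvd_one, orderOf_eq_one_iff,
      ← MonoidHom.mem_ker, Abelianization.ker_of] at d3
    exact ⟨s', d3, rfl⟩
  · intro Y x hY hxY
    obtain ⟨g, hg, c, _, hc, e⟩ := hB Y x hY hxY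
    exact ⟨g, hg, c, hc, e⟩
  · intro Q hQ
    obtain ⟨S', hS'⟩ := hQ.exists_le_sylow
    obtain ⟨g, hg⟩ := MulAction.exists_smul_eq G S' S
    have hgQ : ∀ q ∈ Q, g * q * g⁻¹ ∈ (S : Subgroup G) := by
      intro q hq
      rw [← hg, Sylow.coe_subgroup_smul]
      exact Subgroup.smul_mem_pointwise_smul q (MulAut.conj g) _ (hS' hq)
    obtain ⟨n, hn, k, hk, rfl⟩ := hdec g
    have hkQ : ∀ q ∈ Q, k * q * k⁻¹ ∈ (S : Subgroup G) := by
      intro q hq
      have h1 := hgQ q hq
      have e : n * k * q * (n * k)⁻¹ = n * (k * q * k⁻¹) * n⁻¹ := by group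
      rw [e] at h1
      exact (Subgroup.mem_normalizer_iff.mp hn _).mpr h1
    refine ⟨k, ?_, ?_⟩
    · rw [Subgroup.mem_centralizer_iff]
      intro d hd
      obtain ⟨hdQ, hdS⟩ := Subgroup.mem_inf.mp hd
      exact hcomm k hk d hdS (hkQ d hdQ)
    · rintro _ ⟨q, hq, rfl⟩
      exact hkQ q hq

end Cfsg.Agent.S1461
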