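import Cfsg.Statements.S1462
-- import your own Cfsg.Agent.* helpers here
import Cfsg.Agent.Lib.Helper20.PLen
import Cfsg.Agent.Lib.Helper1.Coprime
import Cfsg.Agent.Lib.Helper1.Glauberman
import Cfsg.Agent.Lib.Helper5.Omega
import Cfsg.Agent.Lib.Helper5.PPrimeQuot
import Cfsg.Agent.Lib.Helper5.PCore
import Cfsg.Agent.S0120

set_option autoImplicit false
open Cfsg

namespace Cfsg.Agent.S1462

/-- Let G be a finite solvable group, p an odd prime with G = O_{p',p,p'}(G), E an elementary abelian p-subgroup contained in no larger elementary abelian p-subgroup of G, and L a subgroup of order coprime to p normalized by E. Then L ≤ O_{p'}(G). -/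
theorem result {G : Type*} [Group G] [Finite G] [Group.IsSolvable G] (p : ℕ) [Fact p.Prime] (hp : p ≠ 2) (hpl : Cfsg.PLengthLE p 1 G) (E L : Subgroup G) (hE : Cfsg.IsElementaryAbelian p E)
    (hEmax : ∀ B : Subgroup G, Cfsg.IsElementaryAbelian p B → E ≤ B → B = E) (hL : (Nat.card L).Coprime p) (hEL : E ≤ Subgroup.normalizer (L : Set G)) :
    L ≤ Cfsg.pPrimeCore p G := by
  classical
  have hpp : p.Prime := Fact.out
  have hEp : IsPGroup p E := by
    intro x
    exact ⟨1, by rw [pow_one]; exact Subtype.ext (hE.2 x x.2)⟩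
  obtain ⟨S, hES⟩ := hEp.exists_le_sylow
  obtain ⟨K, hKdef⟩ : ∃ K, K = Cfsg.pPrimeCore p G := ⟨_, rfl⟩
  rw [← hKdef]
  have hKn : K.Normal := hKdef ▸ Cfsg.Agent.Lib.Helper1.pPrimeCore_normal p
  have hKc : (Nat.card K).Coprime p := hKdef ▸ Cfsg.Agent.Lib.Helper1.pPrimeCore_coprime p
  have hfr : Subgroup.normalizer ((S : Subgroup G) : Set G) ⊔ K = ⊤ :=
    hKdef ▸ Cfsg.Agent.Lib.Helper20.plen_one_frattini hpl S
  have hdec : ∀ x : G, ∃ n ∈ Subgroup.normalizer ((S : Subgroup G) : Set G), ∃ k ∈ K, n * k = x := by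
    intro x
    have hx : x ∈ Subgroup.normalizer ((S : Subgroup G) : Set G) ⊔ K := by rw [hfr]; trivial
    exact Subgroup.mem_sup_of_normal_right.mp hx
  have hLKc : (Nat.card ↥(L ⊔ K)).Coprime p :=
    Nat.Coprime.coprime_dvd_left (Cfsg.Agent.Lib.Helper1.card_sup_dvd L K)
      (Nat.Coprime.mul_left hL hKc)
  have hLKS : (L ⊔ K) ⊓ (S : Subgroup G) = ⊥ := by
    apply disjoint_iff.mp
    apply Subgroup.disjoint_of_coprime_natCard
    obtain ⟨n, hn⟩ := IsPGroup.iff_card.mp S.2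
    rw [hn]
    exact hLKc.pow_right n
  obtain ⟨L₁, hL₁⟩ : ∃ L₁, L₁ = (L ⊔ K) ⊓ Subgroup.normalizer ((S : Subgroup G) : Set G) :=
    ⟨_, rfl⟩
  have hL₁LK : L₁ ≤ L ⊔ K := hL₁ ▸ inf_le_left
  have hL₁N : L₁ ≤ Subgroup.normalizer ((S : Subgroup G) : Set G) := hL₁ ▸ inf_le_right
  have hL₁c : (Nat.card L₁).Coprime p :=
    Nat.Coprime.coprime_dvd_left (Subgroup.card_dvd_of_le hL₁LK) hLKc
  suffices hmain : L₁ ≤ K by
    intro l hl
    obtain ⟨n, hn, k, hk, e⟩ := hdec l
    have hn1 : n ∈ L₁ := by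
      rw [hL₁]
      refine Subgroup.mem_inf.mpr ⟨?_, hn⟩
      have : n = l * k⁻¹ := by rw [← e]; group
      rw [this]
      exact mul_mem (Subgroup.mem_sup_left hl) (Subgroup.mem_sup_right (inv_mem hk))
    rw [← e]
    exact mul_mem (hmain hn1) hk
  -- E normalizes L ⊔ K
  have hELK : ∀ e ∈ E, ∀ x ∈ L ⊔ K, e * x * e⁻¹ ∈ L ⊔ K := by
    intro e he x hx
    obtain ⟨l, hl, k, hk, rfl⟩ := Subgroup.mem_sup_of_normal_right.mp hx
    have e1 : e * (l * k) * e⁻¹ = (e * l * e⁻¹) * (e * k * e⁻¹) := by group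
    rw [e1]
    exact mul_mem (Subgroup.mem_sup_left (Subgroup.le_normalizer_iff.mp hEL e he l hl))
      (Subgroup.mem_sup_right (hKn.conj_mem k hk e))
  -- L₁ centralizes E
  have hcomm : ∀ l ∈ L₁, ∀ e ∈ E, l * e = e * l := by
    intro l hl e he
    have h1 : l * e * l⁻¹ * e⁻¹ ∈ (L ⊔ K) ⊓ (S : Subgroup G) := by
      refine Subgroup.mem_inf.mpr ⟨?_, ?_⟩
      · have e1 : l * e * l⁻¹ * e⁻¹ = l * (e * l⁻¹ * e⁻¹) := by group
        rw [e1]
        exact mul_mem (hL₁LK hl) (hELK e he _ (inv_mem (hL₁LK hl)))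
      · exact mul_mem (Subgroup.le_normalizer_iff.mp hL₁N l hl e (hES he)) (inv_mem (hES he))
    rw [hLKS] at h1
    have h2 : l * e * l⁻¹ * e⁻¹ = 1 := h1
    calc l * e = (l * e * l⁻¹ * e⁻¹) * (e * l) := by group
      _ = e * l := by rw [h2, one_mul]
  obtain ⟨R, hR⟩ : ∃ R, R = (S : Subgroup G) ⊓ Subgroup.centralizer (E : Set G) := ⟨_, rfl⟩
  have hRp : IsPGroup p R := S.2.to_le (hR ▸ inf_le_left)
  have hL₁R : L₁ ≤ Subgroup.normalizer (R : Set G) := by
    rw [Subgroup.le_normalizer_iff]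
    intro l hl r hr
    rw [hR] at hr ⊢
    obtain ⟨hrS, hrC⟩ := Subgroup.mem_inf.mp hr
    refine Subgroup.mem_inf.mpr ⟨Subgroup.le_normalizer_iff.mp hL₁N l hl r hrS, ?_⟩
    rw [Subgroup.mem_centralizer_iff]
    intro e he
    have h1 := hcomm l hl e he
    have h2 := Subgroup.mem_centralizer_iff.mp hrC e he
    have h3 : l⁻¹ * e = e * l⁻¹ := by
      calc l⁻¹ * e = l⁻¹ * (e * l) * l⁻¹ := by group
        _ = l⁻¹ * (l * e) * l⁻¹ := by rw [h1]
        _ = e * l⁻¹ := by group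
    calc e * (l * r * l⁻¹) = (e * l) * r * l⁻¹ := by group
      _ = (l * e) * r * l⁻¹ := by rw [h1]
      _ = l * (e * r) * l⁻¹ := by group
      _ = l * (r * e) * l⁻¹ := by rw [h2]
      _ = l * r * (e * l⁻¹) := by group
      _ = l * r * (l⁻¹ * e) := by rw [h3]
      _ = l * r * l⁻¹ * e := by group
  -- elements of order dividing p in R lie in E
  have hRE : ∀ x ∈ R, x ^ p = 1 → x ∈ E := by
    intro x hx hxp
    rw [hR] at hx
    obtain ⟨_, hxC⟩ := Subgroup.mem_inf.mp hx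
    let T : Set G := (E : Set G) ∪ {x}
    have hTcomm : ∀ a ∈ T, ∀ b ∈ T, a * b = b * a := by
      rintro a (ha | ha) b (hb | hb)
      · exact congrArg Subtype.val (hE.1.is_comm.comm ⟨a, ha⟩ ⟨b, hb⟩)
      · rw [Set.mem_singleton_iff.mp hb]
        exact Subgroup.mem_centralizer_iff.mp hxC a ha
      · rw [Set.mem_singleton_iff.mp ha]
        exact (Subgroup.mem_centralizer_iff.mp hxC b hb).symm
      · rw [Set.mem_singleton_iff.mp ha, Set.mem_singleton_iff.mp hb]
    let H : Subgroup G := Subgroup.centralizer (Subgroup.centralizer T : Set G)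
    have hTH : ∀ a ∈ T, a ∈ H := by
      intro a ha
      rw [Subgroup.mem_centralizer_iff]
      intro c hc
      exact (Subgroup.mem_centralizer_iff.mp hc a ha).symm
    have hHC : H ≤ Subgroup.centralizer T := by
      intro h hh
      rw [Subgroup.mem_centralizer_iff]
      intro a ha
      have haC : a ∈ Subgroup.centralizer T := by
        rw [Subgroup.mem_centralizer_iff]
        intro b hb
        exact hTcomm b hb a ha
      exact Subgroup.mem_centralizer_iff.mp hh a haC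
    have hHab : IsMulCommutative ↥H := by
      refine ⟨⟨fun a b => Subtype.ext ?_⟩⟩
      exact (Subgroup.mem_centralizer_iff.mp a.2 b (hHC b.2)).symm
    have hB := Cfsg.Agent.Lib.Helper5.elemAb_omegaOne (p := p) hHab
    have hEB : E ≤ Cfsg.omegaOne p H := by
      intro e he
      exact Cfsg.Agent.Lib.Helper5.mem_omegaOne (hTH e (Or.inl he)) (hE.2 e he)
    have := hEmax _ hB hEB
    rw [← this]
    exact Cfsg.Agent.Lib.Helper5.mem_omegaOne (hTH x (Or.inr rfl)) hxp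
  -- L₁ centralizes R
  have hL₁CR : R ≤ Subgroup.centralizer (L₁ : Set G) := by
    intro r hr
    rw [Subgroup.mem_centralizer_iff]
    intro l hl
    let a : MulAut ↥R := Cfsg.Agent.Lib.Helper1.conjHom L₁ R hL₁R ⟨l, hl⟩
    have ha : (orderOf a).Coprime p := by
      apply Nat.Coprime.coprime_dvd_left _ hL₁c
      exact (orderOf_map_dvd _ _).trans (orderOf_dvd_natCard _)
    have h1 : a = 1 := by
      apply Cfsg.Agent.S0120.result hp hRp a ha
      intro x hx
      have hxE : (x : G) ∈ E := hRE x x.2 (by simpa using congrArg Subtype.val hx)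
      apply Subtype.ext
      show l * (x : G) * l⁻¹ = x
      rw [hcomm l hl _ hxE]; group
    have h2 : a ⟨r, hr⟩ = ⟨r, hr⟩ := by rw [h1]; rfl
    have h3 : l * r * l⁻¹ = r := congrArg Subtype.val h2
    calc l * r = (l * r * l⁻¹) * l := by group
      _ = r * l := by rw [h3]
  have hEL₁ : E ≤ Subgroup.centralizer (L₁ : Set G) := by
    intro e he
    rw [Subgroup.mem_centralizer_iff]
    intro l hl
    exact hcomm l hl e he
  have hL₁S : L₁ ≤ Subgroup.centralizer ((S : Subgroup G) : Set G) :=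
    Cfsg.Agent.Lib.Helper1.pq_lemma p E L₁ hEp hL₁c hEL₁ _ S rfl S.2
      (hES.trans Subgroup.le_normalizer) hL₁N (hR ▸ hL₁CR)
  -- conclusion in the quotient
  intro l hl
  subst hKdef
  have hs := QuotientGroup.mk'_surjective (Cfsg.pPrimeCore p G)
  have hbot : Cfsg.pPrimeCore p (G ⧸ Cfsg.pPrimeCore p G) = ⊥ :=
    Cfsg.Agent.Lib.Helper5.pPrimeCore_quot_pPrimeCore
  have hcen := Cfsg.Agent.Lib.Helper1.centralizer_pCore_le (G := G ⧸ Cfsg.pPrimeCore p G) p hbot
  have hlc : QuotientGroup.mk' (Cfsg.pPrimeCore p G) l ∈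
      Subgroup.centralizer (Cfsg.pCore p (G ⧸ Cfsg.pPrimeCore p G) : Set _) := by
    rw [Subgroup.mem_centralizer_iff]
    intro y hy
    have hy2 : y ∈ ((S.mapSurjective hs : Sylow p _) : Subgroup _) :=
      Cfsg.Agent.Lib.Helper5.pCore_le_sylow _ hy
    rw [Sylow.coe_mapSurjective] at hy2
    obtain ⟨s, hs', rfl⟩ := hy2
    rw [← map_mul, ← map_mul, Subgroup.mem_centralizer_iff.mp (hL₁S hl) s hs']
  have hlp := hcen hlc
  obtain ⟨k, hk⟩ := (Cfsg.Agent.Lib.Helper1.pCore_isPGroup (G := G ⧸ Cfsg.pPrimeCore p G) p)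
    ⟨_, hlp⟩
  have hk' : (QuotientGroup.mk' (Cfsg.pPrimeCore p G) l) ^ p ^ k = 1 := congrArg Subtype.val hk
  have d1 : orderOf (QuotientGroup.mk' (Cfsg.pPrimeCore p G) l) ∣ p ^ k :=
    orderOf_dvd_of_pow_eq_one hk'
  have d2 : orderOf (QuotientGroup.mk' (Cfsg.pPrimeCore p G) l) ∣ Nat.card L₁ := by
    apply orderOf_dvd_of_pow_eq_one
    rw [← map_pow]
    have h3 : (⟨l, hl⟩ : ↥L₁) ^ Nat.card L₁ = 1 := pow_card_eq_one'
    have h4 : l ^ Nat.card L₁ = 1 := congrArg Subtype.val h3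
    rw [h4, map_one]
  have d3 := Nat.dvd_gcd d2 d1
  rw [(hL₁c.pow_right k : Nat.gcd _ _ = 1), Nat.dvd_one, orderOf_eq_one_iff,
    ← MonoidHom.mem_ker, QuotientGroup.ker_mk'] at d3
  exact d3

end Cfsg.Agent.S1462
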