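import Cfsg.Statements.S1463
import Cfsg.Agent.Lib.Helper5.SL2b

set_option autoImplicit false
open scoped MatrixGroups
open Cfsg

namespace Cfsg.Agent.S1463

theorem ker_line {F : Type*} [Field F] (N : Matrix (Fin 2) (Fin 2) F) (hN : N ≠ 0)
    (v w : Fin 2 → F) (hv : v ≠ 0) (hNv : N.mulVec v = 0) (hNw : N.mulVec w = 0) :
    w ∈ Submodule.span F {v} := by
  have a0 : N 0 0 * v 0 + N 0 1 * v 1 = 0 := by
    have := congrFun hNv 0; simpa [Matrix.mulVec, dotProduct, Fin.sum_univ_two] using this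
  have a1 : N 1 0 * v 0 + N 1 1 * v 1 = 0 := by
    have := congrFun hNv 1; simpa [Matrix.mulVec, dotProduct, Fin.sum_univ_two] using this
  have b0 : N 0 0 * w 0 + N 0 1 * w 1 = 0 := by
    have := congrFun hNw 0; simpa [Matrix.mulVec, dotProduct, Fin.sum_univ_two] using this
  have b1 : N 1 0 * w 0 + N 1 1 * w 1 = 0 := by
    have := congrFun hNw 1; simpa [Matrix.mulVec, dotProduct, Fin.sum_univ_two] using this
  have hD : v 0 * w 1 - v 1 * w 0 = 0 := by
    by_contra hD
    apply hN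
    have c00 : N 0 0 * (v 0 * w 1 - v 1 * w 0) = 0 := by linear_combination w 1 * a0 - v 1 * b0
    have c01 : N 0 1 * (v 0 * w 1 - v 1 * w 0) = 0 := by linear_combination v 0 * b0 - w 0 * a0
    have c10 : N 1 0 * (v 0 * w 1 - v 1 * w 0) = 0 := by linear_combination w 1 * a1 - v 1 * b1
    have c11 : N 1 1 * (v 0 * w 1 - v 1 * w 0) = 0 := by linear_combination v 0 * b1 - w 0 * a1
    apply Cfsg.Agent.Lib.Helper5.ext2
    · exact (mul_eq_zero.mp c00).resolve_right hD
    · exact (mul_eq_zero.mp c01).resolve_right hD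
    · exact (mul_eq_zero.mp c10).resolve_right hD
    · exact (mul_eq_zero.mp c11).resolve_right hD
  rw [Submodule.mem_span_singleton]
  by_cases h0 : v 0 = 0
  · have h1 : v 1 ≠ 0 := by
      intro h1
      apply hv
      ext i; fin_cases i
      · exact h0
      · exact h1
    refine ⟨w 1 / v 1, ?_⟩
    ext i; fin_cases i
    · simp only [Pi.smul_apply, smul_eq_mul, Fin.zero_eta, h0, mul_zero]
      rw [h0] at hD
      have : v 1 * w 0 = 0 := by linear_combination -hD
      exact ((mul_eq_zero.mp this).resolve_left h1).symm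
    · simp only [Pi.smul_apply, smul_eq_mul, Fin.mk_one]
      field_simp
  · refine ⟨w 0 / v 0, ?_⟩
    ext i; fin_cases i
    · simp only [Pi.smul_apply, smul_eq_mul, Fin.zero_eta]
      field_simp
    · simp only [Pi.smul_apply, smul_eq_mul, Fin.mk_one]
      field_simp
      linear_combination -hD

theorem eq_one_of_pow_char {F : Type*} [Field F] (p : ℕ) [Fact p.Prime] [CharP F p] (c : F)
    (h : c ^ p = 1) : c = 1 := by
  have : (c - 1) ^ p = 0 := by rw [sub_pow_char, h, one_pow, sub_self]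
  exact sub_eq_zero.mp (pow_eq_zero_iff (Fact.out : p.Prime).ne_zero |>.mp this)

/-- Let F be a field of odd characteristic p and H a finite subgroup of odd order of GL(2, F) that leaves no 1-dimensional subspace of F² invariant. Then p does not divide the order of H. -/
theorem result {F : Type*} [Field F] (p : ℕ) [Fact p.Prime] [CharP F p] (hp : p ≠ 2)
    (H : Subgroup (GL (Fin 2) F)) [Finite H] (hodd : Odd (Nat.card H))
    (hirr : ∀ v : Fin 2 → F, v ≠ 0 → ∃ g ∈ H, (g : Matrix (Fin 2) (Fin 2) F).mulVec v ∉ Submodule.span F {v}) :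
    ¬ p ∣ Nat.card H := by
  intro hdvd
  obtain ⟨x, hx⟩ := exists_prime_orderOf_dvd_card' (G := H) p hdvd
  set ι : Matrix.SpecialLinearGroup (Fin 2) F →* GL (Fin 2) F := Matrix.SpecialLinearGroup.toGL with hι
  have hιinj : Function.Injective ι := Matrix.SpecialLinearGroup.toGL_injective
  set Y : Subgroup (Matrix.SpecialLinearGroup (Fin 2) F) := H.comap ι with hY
  have hYH : Y.map ι ≤ H := Subgroup.map_comap_le ι H
  have hcard : Nat.card (Y.map ι) = Nat.card Y := Subgroup.card_map_of_injective hιinj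
  have hdv : Nat.card Y ∣ Nat.card H := hcard ▸ Subgroup.card_dvd_of_le hYH
  haveI : Finite Y := Nat.finite_of_card_ne_zero (fun h0 => by
    rw [h0] at hdv
    exact Nat.card_pos.ne' (Nat.eq_zero_of_zero_dvd hdv))
  have hoddY : Odd (Nat.card Y) := hodd.of_dvd_nat hdv
  -- lifting p-elements
  have lift : ∀ g : GL (Fin 2) F, g ∈ H → g ^ p = 1 →
      ∃ s : Matrix.SpecialLinearGroup (Fin 2) F, s ∈ Y ∧ ι s = g ∧ s ^ (p ^ 1) = 1 := by
    intro g hg hgp
    have hdet : (g : Matrix (Fin 2) (Fin 2) F).det = 1 := by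
      apply eq_one_of_pow_char p
      rw [← Matrix.det_pow]
      have := congrArg (fun z : GL (Fin 2) F => (z : Matrix (Fin 2) (Fin 2) F)) hgp
      simp only [Units.val_pow_eq_pow_val, Units.val_one] at this
      rw [this, Matrix.det_one]
    obtain ⟨s0, hs0⟩ : ∃ s0 : Matrix.SpecialLinearGroup (Fin 2) F,
        (s0 : Matrix (Fin 2) (Fin 2) F) = (g : Matrix (Fin 2) (Fin 2) F) := ⟨⟨_, hdet⟩, rfl⟩
    have e : ι s0 = g := by
      apply Units.ext
      exact hs0
    refine ⟨s0, ?_, e, ?_⟩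
    · show ι _ ∈ H
      rw [e]; exact hg
    · apply hιinj
      rw [map_pow, e, pow_one, hgp, map_one]
  set X : GL (Fin 2) F := (x : GL (Fin 2) F) with hX
  have hXp : X ^ p = 1 := by
    have := pow_orderOf_eq_one x
    rw [hx] at this
    have := congrArg Subtype.val this
    simpa using this
  have hX1 : X ≠ 1 := by
    intro h
    have : x = 1 := Subtype.ext h
    rw [this, orderOf_one] at hx
    exact (Fact.out : p.Prime).one_lt.ne hx
  obtain ⟨s, hsY, hsX, hsp⟩ := lift X x.2 hXp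
  -- commuting
  have hcomm : ∀ g ∈ H, (g⁻¹ * X * g) * X = X * (g⁻¹ * X * g) := by
    intro g hg
    have h1 : g⁻¹ * X * g ∈ H := H.mul_mem (H.mul_mem (H.inv_mem hg) x.2) hg
    have h2 : (g⁻¹ * X * g) ^ p = 1 := by
      have : g⁻¹ * X * g = g⁻¹ * X * g⁻¹⁻¹ := by rw [inv_inv]
      rw [this, conj_pow, hXp]; simp
    obtain ⟨s', hs'Y, hs'X, hs'p⟩ := lift _ h1 h2
    have := Cfsg.Agent.Lib.Helper5.pelts_comm_of_odd (p := p) hp _ Y rfl hoddY s' hs'Y s hsY
      ⟨1, hs'p⟩ ⟨1, hsp⟩
    have := congrArg ι this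
    rwa [map_mul, map_mul, hs'X, hsX] at this
  set N : Matrix (Fin 2) (Fin 2) F := (X : Matrix (Fin 2) (Fin 2) F) - 1 with hN
  have hN0 : N ≠ 0 := by
    intro h
    apply hX1
    apply Units.ext
    exact sub_eq_zero.mp h
  have hXpm : (X : Matrix (Fin 2) (Fin 2) F) ^ p = 1 := by
    have := congrArg (fun z : GL (Fin 2) F => (z : Matrix (Fin 2) (Fin 2) F)) hXp
    simpa using this
  have hNp : N ^ p = 0 := by
    rw [hN, sub_pow_char_of_commute _ (Commute.one_right _), one_pow, hXpm, sub_self]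
  have hdetN : N.det = 0 := by
    have : N.det ^ p = 0 := by rw [← Matrix.det_pow, hNp, Matrix.det_zero]
    exact pow_eq_zero_iff (Fact.out : p.Prime).ne_zero |>.mp this
  obtain ⟨v, hv0, hNv⟩ := Matrix.exists_mulVec_eq_zero_iff.mpr hdetN
  have hXv : (X : Matrix (Fin 2) (Fin 2) F).mulVec v = v := by
    have : N.mulVec v = (X : Matrix (Fin 2) (Fin 2) F).mulVec v - v := by
      rw [hN, Matrix.sub_mulVec, Matrix.one_mulVec]
    rw [this] at hNv
    exact sub_eq_zero.mp hNv
  obtain ⟨g, hg, hgv⟩ := hirr v hv0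
  apply hgv
  set X' : GL (Fin 2) F := g⁻¹ * X * g with hX'
  have hc : X' * X = X * X' := hcomm g hg
  have hcm : (X' : Matrix (Fin 2) (Fin 2) F) * (X : Matrix (Fin 2) (Fin 2) F) =
      (X : Matrix (Fin 2) (Fin 2) F) * (X' : Matrix (Fin 2) (Fin 2) F) := by
    have := congrArg Units.val hc
    rwa [Units.val_mul, Units.val_mul] at this
  have hX'p : (X' : Matrix (Fin 2) (Fin 2) F) ^ p = 1 := by
    have h2 : X' ^ p = 1 := by
      have : X' = g⁻¹ * X * g⁻¹⁻¹ := by rw [inv_inv]
      rw [this, conj_pow, hXp]; simp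
    have := congrArg (fun z : GL (Fin 2) F => (z : Matrix (Fin 2) (Fin 2) F)) h2
    simpa using this
  -- X' v in ker N
  have h1 : N.mulVec ((X' : Matrix (Fin 2) (Fin 2) F).mulVec v) = 0 := by
    rw [hN, Matrix.sub_mulVec, Matrix.one_mulVec, Matrix.mulVec_mulVec, ← hcm,
      ← Matrix.mulVec_mulVec, hXv, sub_self]
  obtain ⟨c, hc'⟩ := Submodule.mem_span_singleton.mp (ker_line N hN0 v _ hv0 hNv h1)
  have hpow : ∀ n : ℕ, ((X' : Matrix (Fin 2) (Fin 2) F) ^ n).mulVec v = c ^ n • v := by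
    intro n
    induction n with
    | zero => simp
    | succ n ih =>
      rw [pow_succ, ← Matrix.mulVec_mulVec, ← hc', Matrix.mulVec_smul, ih, smul_smul, pow_succ,
        mul_comm]
  have hcp : c ^ p = 1 := by
    have := hpow p
    rw [hX'p, Matrix.one_mulVec] at this
    have h3 : (c ^ p - 1) • v = 0 := by rw [sub_smul, one_smul, ← this, sub_self]
    exact sub_eq_zero.mp ((smul_eq_zero.mp h3).resolve_right hv0)
  have hc1 : c = 1 := eq_one_of_pow_char p c hcp
  rw [hc1, one_smul] at hc'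
  -- X (g v) = g v
  have h4 : (X : Matrix (Fin 2) (Fin 2) F).mulVec ((g : Matrix (Fin 2) (Fin 2) F).mulVec v) =
      (g : Matrix (Fin 2) (Fin 2) F).mulVec v := by
    have e : (g : Matrix (Fin 2) (Fin 2) F) * (X' : Matrix (Fin 2) (Fin 2) F) =
        (X : Matrix (Fin 2) (Fin 2) F) * (g : Matrix (Fin 2) (Fin 2) F) := by
      have : g * X' = X * g := by rw [hX']; group
      have := congrArg Units.val this
      rwa [Units.val_mul, Units.val_mul] at this
    rw [Matrix.mulVec_mulVec, ← e, ← Matrix.mulVec_mulVec, ← hc']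
  apply ker_line N hN0 v _ hv0 hNv
  rw [hN, Matrix.sub_mulVec, Matrix.one_mulVec, h4, sub_self]

end Cfsg.Agent.S1463
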