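import Cfsg.Statements.S1470
import Mathlib

set_option autoImplicit false
open Cfsg

namespace Cfsg.Agent.S1470

open Polynomial in
theorem card_le_of_norm_const (p q : ℕ) [Fact p.Prime] (hq : q ≠ 0) (b : GaloisField p q) (c : ZMod p)
    (h : ∀ t : ZMod p, Algebra.norm (ZMod p) (algebraMap (ZMod p) (GaloisField p q) t - b) = c) :
    p ≤ q := by
  classical
  set f := (Algebra.lmul (ZMod p) (GaloisField p q) b).charpoly with hf
  have hmonic : f.Monic := LinearMap.charpoly_monic _
  have hdeg : f.natDegree = q := by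
    rw [hf, LinearMap.charpoly_natDegree, GaloisField.finrank p hq]
  have heval : ∀ t : ZMod p, f.eval t = c := by
    intro t
    rw [hf, LinearMap.eval_charpoly, ← h t, Algebra.norm_apply]
    congr 1
    ext x
    simp [Algebra.smul_def]
  set g := f - C c with hg
  have hgdeg : g.natDegree = q := by
    rw [hg, natDegree_sub_C, hdeg]
  have hg0 : g ≠ 0 := by
    intro h0
    rw [h0, natDegree_zero] at hgdeg
    exact hq hgdeg.symm
  have hroots : (Finset.univ : Finset (ZMod p)).val ⊆ g.roots := by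
    intro t _
    rw [mem_roots hg0, IsRoot.def, hg, eval_sub, eval_C, heval t, sub_self]
  have h1 := Polynomial.card_le_degree_of_subset_roots hroots
  rw [Finset.card_univ, ZMod.card, hgdeg] at h1
  exact h1

/-- Let p and q be odd primes with (p^q − 1)/(p − 1) coprime to p − 1, and let E be the set of elements a of the field with p ^ q elements whose norm to the prime field is 1 and for which 2 − a also has norm 1. If a⁻¹ ∈ E for every a ∈ E and E has at least two elements, then p ≤ q. -/
theorem result (p q : ℕ) [Fact p.Prime] [Fact q.Prime] (hp : p ≠ 2) (hq : q ≠ 2) (hA : Nat.Coprime ((p ^ q - 1) / (p - 1)) (p - 1))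
    (hinv : ∀ a ∈ {a : GaloisField p q | Algebra.norm (ZMod p) a = 1 ∧ Algebra.norm (ZMod p) (2 - a) = 1}, a⁻¹ ∈ {a : GaloisField p q | Algebra.norm (ZMod p) a = 1 ∧ Algebra.norm (ZMod p) (2 - a) = 1})
    (h2 : 2 ≤ Set.ncard {a : GaloisField p q | Algebra.norm (ZMod p) a = 1 ∧ Algebra.norm (ZMod p) (2 - a) = 1}) :
    p ≤ q := by
  set E := {a : GaloisField p q | Algebra.norm (ZMod p) a = 1 ∧ Algebra.norm (ZMod p) (2 - a) = 1} with hE
  obtain ⟨a, haE, ha1⟩ := Set.exists_ne_of_one_lt_ncard (by omega : 1 < E.ncard) 1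
  have hq0 : q ≠ 0 := (Fact.out : q.Prime).ne_zero
  have hN0 : ∀ x : GaloisField p q, Algebra.norm (ZMod p) x = 1 → x ≠ 0 := by
    rintro x hx rfl
    rw [Algebra.norm_zero] at hx
    exact zero_ne_one hx
  have hT : ∀ x ∈ E, (2 - x)⁻¹ ∈ E := by
    intro x hx
    apply hinv
    refine ⟨hx.2, ?_⟩
    rw [sub_sub_cancel]
    exact hx.1
  set b := (a - 1)⁻¹ with hb
  have hP : ∀ k : ℕ, b - k ≠ 0 ∧ 1 + (b - k)⁻¹ ∈ E := by
    intro k
    induction k with
    | zero =>
      have hb0 : b ≠ 0 := inv_ne_zero (sub_ne_zero.mpr ha1)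
      refine ⟨by simpa using hb0, ?_⟩
      have : 1 + (b - (0 : ℕ))⁻¹ = a := by
        simp [hb]
      rw [this]
      exact haE
    | succ k ih =>
      obtain ⟨hc, hcE⟩ := ih
      set c := b - k with hcdef
      have h3 : 2 - (1 + c⁻¹) ≠ 0 := hN0 _ hcE.2
      have hc1 : c - 1 ≠ 0 := by
        intro h
        apply h3
        have : c = 1 := sub_eq_zero.mp h
        rw [this]
        norm_num
      have hc' : b - ((k + 1 : ℕ) : GaloisField p q) = c - 1 := by
        rw [hcdef]; push_cast; ring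
      rw [hc']
      refine ⟨hc1, ?_⟩
      have := hT _ hcE
      have h4 : (2 - (1 + c⁻¹))⁻¹ = 1 + (c - 1)⁻¹ := by
        have h6 : 2 - (1 + c⁻¹) = (c - 1) / c := by
          field_simp
          ring
        rw [h6, inv_div]
        field_simp
        ring
      rw [h4] at this
      exact this
  have hstep : ∀ k : ℕ, Algebra.norm (ZMod p) (b - k) = Algebra.norm (ZMod p) (b + 1) := by
    intro k
    induction k with
    | zero =>
      obtain ⟨hc, hcE⟩ := hP 0
      have h5 : (1 + (b - (0 : ℕ))⁻¹) * (b - (0 : ℕ)) = b + 1 := by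
        field_simp
        simp
      rw [← h5, map_mul, hcE.1, one_mul]
    | succ k ih =>
      obtain ⟨hc, hcE⟩ := hP (k + 1)
      have h5 : (1 + (b - ((k + 1 : ℕ) : GaloisField p q))⁻¹) * (b - ((k + 1 : ℕ) : GaloisField p q)) = b - k := by
        field_simp
        push_cast
        ring
      rw [← ih, ← h5, map_mul, hcE.1, one_mul]
  apply card_le_of_norm_const p q hq0 b (Algebra.norm (ZMod p) (-1 : GaloisField p q) * Algebra.norm (ZMod p) (b + 1))
  intro t
  obtain ⟨k, rfl⟩ : ∃ k : ℕ, (k : ZMod p) = t := ⟨t.val, ZMod.natCast_zmod_val t⟩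
  rw [← hstep k, ← map_mul]
  congr 1
  simp

end Cfsg.Agent.S1470
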