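import Cfsg.Statements.S1473
-- import your own Cfsg.Agent.* helpers here
import Cfsg.Agent.Lib.Helper15.CNGroup
import Cfsg.Agent.Lib.Helper10.Basic

set_option autoImplicit false
open Cfsg

namespace Cfsg.Agent.S1473


universe u

theorem nil_map {G G' : Type*} [Group G] [Group G'] (f : G →* G') (K : Subgroup G)
    (hK : Group.IsNilpotent K) : Group.IsNilpotent (K.map f) :=
  Group.nilpotent_of_surjective (f.subgroupMap K) (f.subgroupMap_surjective K)

theorem twist {G : Type*} [Group G] (A : Subgroup G) [Finite A] {p q : ℕ} [hp : Fact p.Prime]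
    [hq : Fact q.Prime] (hpq : q ≠ p) (hA : IsPGroup p A) (s t : G) (k : ℕ)
    (hs : s ^ (q ^ k) = 1) (ht : t ^ (q ^ k) = 1) (hst : ∀ a ∈ A, s * a * t⁻¹ ∈ A) :
    ∃ a ∈ A, s * a * t⁻¹ = a := by
  classical
  let f : Function.End A := fun a => ⟨s * a * t⁻¹, hst a a.2⟩
  have hf : ∀ (n : ℕ) (a : A), (((f ^ n) a : A) : G) = s ^ n * a * (t⁻¹) ^ n := by
    intro n
    induction n with
    | zero =>
      intro a
      rw [pow_zero, pow_zero, pow_zero, one_mul, mul_one]
      rfl
    | succ n ih =>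
      intro a
      rw [pow_succ']
      change s * (((f ^ n) a : A) : G) * t⁻¹ = _
      rw [ih, pow_succ', pow_succ]
      group
  have hf1 : f ^ q ^ k = 1 := by
    funext a
    apply Subtype.ext
    rw [hf, hs, inv_pow, ht, inv_one, one_mul, mul_one]
    rfl
  have := Fintype.ofFinite A
  have hmod := Equiv.Perm.card_fixedPoints_modEq (f := f) (p := q) (n := k) hf1
  by_contra hcon
  push Not at hcon
  have hemp : Fintype.card (Function.fixedPoints f) = 0 := by
    rw [Fintype.card_eq_zero_iff]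
    refine ⟨fun ⟨a, ha⟩ => hcon a a.2 ?_⟩
    exact congrArg Subtype.val ha
  rw [hemp] at hmod
  have hq_dvd : q ∣ Fintype.card A := (Nat.modEq_zero_iff_dvd).mp hmod
  obtain ⟨m, hm⟩ := IsPGroup.iff_card.mp hA
  rw [← Nat.card_eq_fintype_card, hm] at hq_dvd
  exact hpq ((Nat.prime_dvd_prime_iff_eq hq.out hp.out).mp (hq.out.dvd_of_dvd_pow hq_dvd))

theorem comm_of_nil {G : Type*} [Group G] [Finite G] (N : Subgroup G) (hN : Group.IsNilpotent N)
    {x y : G} (hx : x ∈ N) (hy : y ∈ N) (h : (orderOf x).Coprime (orderOf y)) :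
    x * y = y * x := by
  have := Cfsg.Agent.Lib.Helper2.commute_of_coprime_of_isNilpotent (G := N) (x := ⟨x, hx⟩)
    (y := ⟨y, hy⟩) (by simpa [Subgroup.orderOf_mk] using h)
  exact congrArg Subtype.val this.eq

theorem pow_card_mem {G : Type*} [Group G] (A : Subgroup G) [Finite A] {b : G} (hb : b ∈ A) :
    b ^ Nat.card A = 1 := by
  have h1 : (⟨b, hb⟩ : A) ^ Nat.card A = 1 := pow_card_eq_one'
  have h2 : (((⟨b, hb⟩ : A) ^ Nat.card A : A) : G) = ((1 : A) : G) := congrArg Subtype.val h1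
  rwa [Subgroup.coe_pow, Subgroup.coe_one] at h2

theorem case_ne {G : Type*} [Group G] [Finite G] (hCN : Cfsg.IsCNGroup G) {p r : ℕ}
    [hp : Fact p.Prime] [hr : Fact r.Prime] (hrp : r ≠ p) (A : Subgroup G) [A.Normal]
    (hA : IsPGroup p A) (ybar : G ⧸ A) (hy : orderOf ybar = r) :
    Group.IsNilpotent (Subgroup.centralizer ({ybar} : Set (G ⧸ A))) := by
  obtain ⟨y0, rfl⟩ := QuotientGroup.mk_surjective ybar
  obtain ⟨a, ha⟩ := IsPGroup.iff_card.mp hA
  have hcop : Nat.Coprime (p ^ a) r :=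
    Nat.Coprime.pow_left _ ((Nat.coprime_primes hp.out hr.out).mpr (Ne.symm hrp))
  obtain ⟨t, -, ht⟩ := Nat.exists_mul_mod_eq_one_of_coprime hcop hr.out.one_lt
  have hmk : ((y0 ^ (p ^ a * t) : G) : G ⧸ A) = (y0 : G ⧸ A) := by
    rw [QuotientGroup.mk_pow, ← pow_mod_orderOf, hy, ht, pow_one]
  have hy0r : y0 ^ r ∈ A := by
    rw [← QuotientGroup.eq_one_iff, QuotientGroup.mk_pow, ← hy, pow_orderOf_eq_one]
  have hyr : (y0 ^ (p ^ a * t)) ^ r = 1 := by
    rw [← pow_mul, mul_comm, pow_mul, pow_mul, ← ha, pow_card_mem A hy0r, one_pow]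
  have hy1 : y0 ^ (p ^ a * t) ≠ 1 := by
    intro h
    rw [h] at hmk
    have : orderOf ((y0 : G) : G ⧸ A) = 1 := by rw [← hmk]; simp
    rw [hy] at this
    exact hr.out.one_lt.ne' this
  generalize y0 ^ (p ^ a * t) = y at hmk hyr hy1
  rw [← hmk]
  have hnil := hCN y hy1
  apply Cfsg.Agent.Lib.Helper10.isNilpotent_of_le
    (K := (Subgroup.centralizer ({y} : Set G)).map (QuotientGroup.mk' A)) ?_ (nil_map _ _ hnil)
  intro gbar hg
  obtain ⟨g, rfl⟩ := QuotientGroup.mk_surjective gbar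
  rw [Subgroup.mem_centralizer_singleton_iff] at hg
  have hst : ∀ b ∈ A, y * b * (g * y * g⁻¹)⁻¹ ∈ A := by
    intro b hb
    rw [← QuotientGroup.eq_one_iff]
    have hb1 : ((b : G) : G ⧸ A) = 1 := (QuotientGroup.eq_one_iff b).mpr hb
    simp only [QuotientGroup.mk_mul, QuotientGroup.mk_inv, hb1, hg]
    group
  obtain ⟨b, hb, hbe⟩ := twist A hrp hA y (g * y * g⁻¹) 1 (by simpa using hyr)
    (by rw [conj_pow]; simp [hyr]) hst
  refine ⟨b * g, ?_, ?_⟩
  · change b * g ∈ Subgroup.centralizer ({y} : Set G)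
    rw [Subgroup.mem_centralizer_singleton_iff]
    have h1 : y * b = b * (g * y * g⁻¹) := by
      rw [mul_inv_eq_iff_eq_mul] at hbe
      exact hbe
    calc b * g * y = b * (g * y * g⁻¹) * g := by group
      _ = y * b * g := by rw [← h1]
      _ = y * (b * g) := by group
  · have hb1 : ((b : G) : G ⧸ A) = 1 := (QuotientGroup.eq_one_iff b).mpr hb
    change ((b * g : G) : G ⧸ A) = _
    rw [QuotientGroup.mk_mul, hb1, one_mul]

theorem case_eq {G : Type*} [Group G] [Finite G] (hCN : Cfsg.IsCNGroup G) {p : ℕ}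
    [hp : Fact p.Prime] (A : Subgroup G) [A.Normal]
    (hA : IsPGroup p A) (ybar : G ⧸ A) (hy : orderOf ybar = p) :
    Group.IsNilpotent (Subgroup.centralizer ({ybar} : Set (G ⧸ A))) := by
  classical
  obtain ⟨y, rfl⟩ := QuotientGroup.mk_surjective ybar
  set C : Subgroup G := (Subgroup.centralizer ({(y : G ⧸ A)} : Set (G ⧸ A))).comap
    (QuotientGroup.mk' A) with hC
  have hmemC : ∀ g : G, g ∈ C ↔ (g : G ⧸ A) * (y : G ⧸ A) = (y : G ⧸ A) * (g : G ⧸ A) := by
    intro g
    rw [hC, Subgroup.mem_comap, Subgroup.mem_centralizer_singleton_iff]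
    rfl
  suffices hz : ∃ z : G, z ≠ 1 ∧ C ≤ Subgroup.centralizer ({z} : Set G) by
    obtain ⟨z, hz1, hzC⟩ := hz
    have h1 : Group.IsNilpotent C := Cfsg.Agent.Lib.Helper10.isNilpotent_of_le hzC (hCN z hz1)
    have h2 := nil_map (QuotientGroup.mk' A) C h1
    rwa [hC, Subgroup.map_comap_eq_self_of_surjective (QuotientGroup.mk'_surjective A)] at h2
  have hyA : y ∉ A := by
    intro h
    have : ((y : G) : G ⧸ A) = 1 := (QuotientGroup.eq_one_iff y).mpr h
    rw [this, orderOf_one] at hy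
    exact hp.out.one_lt.ne hy
  have hy1 : y ≠ 1 := fun h => hyA (h ▸ A.one_mem)
  obtain ⟨a, ha⟩ := IsPGroup.iff_card.mp hA
  have hypA : y ^ p ∈ A := by
    rw [← QuotientGroup.eq_one_iff, QuotientGroup.mk_pow, ← hy, pow_orderOf_eq_one]
  obtain ⟨ky, hky⟩ : ∃ k, orderOf y = p ^ k := by
    have h1 : y ^ (p ^ (a + 1)) = 1 := by
      rw [pow_succ', pow_mul, ← ha, pow_card_mem A hypA]
    obtain ⟨k, -, hk⟩ := (Nat.dvd_prime_pow hp.out).mp (orderOf_dvd_of_pow_eq_one h1)
    exact ⟨k, hk⟩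
  have hzp : IsPGroup p (Subgroup.zpowers y) := IsPGroup.of_card (n := ky) (by
    rw [Nat.card_zpowers, hky])
  have hP : IsPGroup p (A ⊔ Subgroup.zpowers y : Subgroup G) := hA.to_sup_of_normal_left hzp
  have hyP : y ∈ A ⊔ Subgroup.zpowers y := Subgroup.mem_sup_right (Subgroup.mem_zpowers y)
  have hPne : (A ⊔ Subgroup.zpowers y : Subgroup G) ≠ ⊥ := by
    intro h
    rw [h, Subgroup.mem_bot] at hyP
    exact hy1 hyP
  obtain ⟨z₁, hz₁P, hz₁1, hz₁c⟩ := Cfsg.Agent.Lib.Helper15.exists_center_ne_one p _ hP hPne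
  obtain ⟨kz, hkz⟩ := (IsPGroup.iff_orderOf.mp hP) ⟨z₁, hz₁P⟩
  rw [Subgroup.orderOf_mk] at hkz
  -- step 3
  have step3 : ∀ (q : ℕ), q.Prime → q ≠ p → ∀ u ∈ C, ∀ k : ℕ, orderOf u = q ^ k →
      u * y = y * u := by
    intro q hq hqp u hu k hk
    have := Fact.mk hq
    have huC := (hmemC u).mp hu
    have hcop : ∀ i j : ℕ, (q ^ i).Coprime (p ^ j) := fun i j =>
      Nat.Coprime.pow _ _ ((Nat.coprime_primes hq hp.out).mpr hqp)
    have hupow : u ^ (q ^ k) = 1 := by rw [← hk]; exact pow_orderOf_eq_one u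
    have hst : ∀ b ∈ A, y⁻¹ * u * y * b * u⁻¹ ∈ A := by
      intro b hb
      rw [← QuotientGroup.eq_one_iff]
      have hb1 : ((b : G) : G ⧸ A) = 1 := (QuotientGroup.eq_one_iff b).mpr hb
      simp only [QuotientGroup.mk_mul, QuotientGroup.mk_inv, hb1]
      rw [mul_assoc ((y : G ⧸ A))⁻¹, huC]
      group
    have hs : (y⁻¹ * u * y) ^ (q ^ k) = 1 := by
      have h1 : y⁻¹ * u * y = y⁻¹ * u * (y⁻¹)⁻¹ := by simp
      rw [h1, conj_pow, hupow]; simp
    obtain ⟨b, hb, hbe⟩ := twist A hqp hA (y⁻¹ * u * y) u k hs hupow hst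
    have hcomm1 : u * (y * b) = (y * b) * u := by
      rw [mul_inv_eq_iff_eq_mul] at hbe
      calc u * (y * b) = y * (y⁻¹ * u * y * b) := by group
        _ = y * (b * u) := by rw [hbe]
        _ = y * b * u := by group
    have hyb1 : y * b ≠ 1 := by
      intro h
      apply hyA
      have : y = b⁻¹ := eq_inv_of_mul_eq_one_left h
      rw [this]; exact A.inv_mem hb
    have hybP : y * b ∈ A ⊔ Subgroup.zpowers y :=
      Subgroup.mul_mem _ hyP (Subgroup.mem_sup_left hb)
    have h2 : u * z₁ = z₁ * u := by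
      apply comm_of_nil _ (hCN (y * b) hyb1)
      · rw [Subgroup.mem_centralizer_singleton_iff]; exact hcomm1
      · rw [Subgroup.mem_centralizer_singleton_iff]; exact hz₁c _ hybP
      · rw [hk, hkz]; exact hcop _ _
    apply comm_of_nil _ (hCN z₁ hz₁1)
    · rw [Subgroup.mem_centralizer_singleton_iff]; exact h2
    · rw [Subgroup.mem_centralizer_singleton_iff]; exact (hz₁c _ hyP).symm
    · rw [hk, hky]; exact hcop _ _
  -- step 4
  have hyC : y ∈ C := (hmemC y).mpr rfl
  have hzpC : IsPGroup p (Subgroup.zpowers (⟨y, hyC⟩ : C)) := IsPGroup.of_card (n := ky) (by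
    rw [Nat.card_zpowers, Subgroup.orderOf_mk, hky])
  obtain ⟨S, hS⟩ := hzpC.exists_le_sylow
  have hyS : (⟨y, hyC⟩ : C) ∈ S := hS (Subgroup.mem_zpowers _)
  have hSne : (S : Subgroup C) ≠ ⊥ := by
    intro h
    have h1 : (⟨y, hyC⟩ : C) ∈ (S : Subgroup C) := hyS
    rw [h, Subgroup.mem_bot] at h1
    exact hy1 (congrArg Subtype.val h1)
  obtain ⟨z, hzS, hz1, hzc⟩ := Cfsg.Agent.Lib.Helper15.exists_center_ne_one p (S : Subgroup C) S.2 hSne
  obtain ⟨kzz, hkzz⟩ := (IsPGroup.iff_orderOf.mp S.2) ⟨z, hzS⟩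
  rw [Subgroup.orderOf_mk] at hkzz
  have hkzz' : orderOf (z : G) = p ^ kzz := by rw [← hkzz]; exact (Subgroup.orderOf_coe z)
  have h1 := Cfsg.Agent.Lib.Helper1.iSup_sylow_eq_top C
    (fun q : Nat.Primes => if h : p = (q : ℕ) then (h ▸ S : Sylow (q : ℕ) C) else default)
  have h2 : (⊤ : Subgroup C) ≤ Subgroup.centralizer {z} := by
    rw [← h1]
    apply iSup_le
    intro q
    obtain ⟨q, hqp⟩ := q
    by_cases hq : p = q
    · subst hq
      simp only [dif_pos]
      intro x hx
      rw [Subgroup.mem_centralizer_singleton_iff]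
      exact (hzc x hx).symm
    · simp only [dif_neg hq]
      intro x hx
      rw [Subgroup.mem_centralizer_singleton_iff]
      have := Fact.mk hqp
      obtain ⟨j, hj⟩ := (IsPGroup.iff_orderOf.mp (default : Sylow q C).2) ⟨x, hx⟩
      rw [Subgroup.orderOf_mk] at hj
      have hj' : orderOf (x : G) = q ^ j := by rw [← hj]; exact (Subgroup.orderOf_coe x)
      have hne : q ≠ p := fun e => hq e.symm
      have hxy := step3 q hqp hne x x.2 j hj'
      apply Subtype.ext
      change (x : G) * (z : G) = (z : G) * (x : G)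
      apply comm_of_nil _ (hCN y hy1)
      · rw [Subgroup.mem_centralizer_singleton_iff]; exact hxy
      · rw [Subgroup.mem_centralizer_singleton_iff]
        exact congrArg Subtype.val (hzc _ hyS)
      · rw [hj', hkzz']
        exact Nat.Coprime.pow _ _ ((Nat.coprime_primes hqp hp.out).mpr hne)
  refine ⟨(z : G), fun h => hz1 (Subtype.ext h), ?_⟩
  intro g hg
  have h3 := h2 (Subgroup.mem_top (⟨g, hg⟩ : C))
  rw [Subgroup.mem_centralizer_singleton_iff] at h3 ⊢
  exact congrArg Subtype.val h3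

theorem cn_quot_pgroup {G : Type*} [Group G] [Finite G] (hCN : Cfsg.IsCNGroup G) {p : ℕ}
    [hp : Fact p.Prime] (A : Subgroup G) [A.Normal] (hA : IsPGroup p A) :
    Cfsg.IsCNGroup (G ⧸ A) := by
  intro x hx
  have hox : orderOf x ≠ 1 := fun h => hx (orderOf_eq_one_iff.mp h)
  obtain ⟨r, hr, hrd⟩ := Nat.exists_prime_and_dvd hox
  have := Fact.mk hr
  have hord : orderOf (x ^ (orderOf x / r)) = r :=
    orderOf_pow_orderOf_div (orderOf_pos x).ne' hrd
  have hle : Subgroup.centralizer ({x} : Set (G ⧸ A)) ≤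
      Subgroup.centralizer ({x ^ (orderOf x / r)} : Set (G ⧸ A)) := by
    intro g hg
    rw [Subgroup.mem_centralizer_singleton_iff] at hg ⊢
    exact ((show Commute g x from hg).pow_right _).eq
  apply Cfsg.Agent.Lib.Helper10.isNilpotent_of_le hle
  by_cases hrp : r = p
  · subst hrp
    exact case_eq hCN A hA _ hord
  · exact case_ne hCN hrp A hA _ hord

theorem cn_of_mulEquiv {G₁ G₂ : Type*} [Group G₁] [Group G₂] (e : G₁ ≃* G₂)
    (h : Cfsg.IsCNGroup G₁) : Cfsg.IsCNGroup G₂ := by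
  intro x hx
  have hx' : e.symm x ≠ 1 := by
    intro h1
    apply hx
    have := congrArg e h1
    simpa using this
  apply Cfsg.Agent.Lib.Helper10.isNilpotent_of_le
    (K := (Subgroup.centralizer ({e.symm x} : Set G₁)).map e.toMonoidHom) ?_
    (nil_map _ _ (h _ hx'))
  intro g hg
  rw [Subgroup.mem_centralizer_singleton_iff] at hg
  refine ⟨e.symm g, ?_, by simp⟩
  change e.symm g ∈ Subgroup.centralizer ({e.symm x} : Set G₁)
  rw [Subgroup.mem_centralizer_singleton_iff, ← map_mul, ← map_mul, hg]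

/-- a nontrivial solvable normal subgroup contains a nontrivial normal `p`-subgroup of `G`. -/
theorem exists_normal_p {G : Type*} [Group G] [Finite G] (H : Subgroup G) [hHn : H.Normal]
    (hH : Group.IsSolvable H) (hne : H ≠ ⊥) :
    ∃ (p : ℕ) (_ : Fact p.Prime) (A : Subgroup G), A.Normal ∧ A ≤ H ∧ A ≠ ⊥ ∧ IsPGroup p A := by
  obtain ⟨V, ⟨hVn, hVne, hVH⟩, hVmin⟩ := Set.exists_min_image
    {M : Subgroup G | M.Normal ∧ M ≠ ⊥ ∧ M ≤ H} (fun M => Nat.card M) (Set.toFinite _)
    ⟨H, hHn, hne, le_rfl⟩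
  have hVs : Group.IsSolvable V := Cfsg.Agent.Lib.Helper10.isSolvable_of_le hVH hH
  have hVnt : Nontrivial V := (Subgroup.nontrivial_iff_ne_bot V).mpr hVne
  have hlt := Group.IsSolvable.commutator_lt_top_of_nontrivial V
  have hcomm : ⁅V, V⁆ = ⊥ := by
    by_contra hcon
    have hle : ⁅V, V⁆ ≤ V := Subgroup.commutator_le_left V V
    have h1 := hVmin ⁅V, V⁆ ⟨inferInstance, hcon, hle.trans hVH⟩
    have h2 : ⁅V, V⁆ = V := Subgroup.eq_of_le_of_card_ge hle h1
    rw [← Subgroup.map_subtype_commutator] at h2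
    apply hlt.ne
    rw [eq_top_iff]
    intro x _
    have hx : (x : G) ∈ (commutator V).map V.subtype := by rw [h2]; exact x.2
    obtain ⟨y, hy, hyx⟩ := hx
    have : y = x := Subtype.ext hyx
    rw [← this]; exact hy
  have hMc : ∀ a ∈ V, ∀ b ∈ V, a * b = b * a := by
    intro a ha b hb
    have := Subgroup.commutator_eq_bot_iff_le_centralizer.mp hcomm ha
    exact (Subgroup.mem_centralizer_iff.mp this b hb).symm
  obtain ⟨p, hp, hpd⟩ := Nat.exists_prime_and_dvd (Finite.one_lt_card (α := V)).ne'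
  have hpf := Fact.mk hp
  obtain ⟨y, hy⟩ := exists_prime_orderOf_dvd_card' (G := V) p hpd
  let K : Subgroup G :=
    { carrier := {x | x ∈ V ∧ x ^ p = 1}
      one_mem' := ⟨V.one_mem, one_pow _⟩
      mul_mem' := by
        rintro a b ⟨ha, ha'⟩ ⟨hb, hb'⟩
        refine ⟨V.mul_mem ha hb, ?_⟩
        rw [(show Commute a b from hMc a ha b hb).mul_pow, ha', hb', one_mul]
      inv_mem' := by
        rintro a ⟨ha, ha'⟩
        exact ⟨V.inv_mem ha, by rw [inv_pow, ha', inv_one]⟩ }
  have hKn : K.Normal := by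
    refine ⟨?_⟩
    rintro a ⟨ha, ha'⟩ g
    exact ⟨hVn.conj_mem a ha g, by rw [conj_pow, ha', mul_one, mul_inv_cancel]⟩
  refine ⟨p, hpf, K, hKn, fun a ha => hVH ha.1, ?_, ?_⟩
  · intro h0
    have hyK : (y : G) ∈ K := by
      refine ⟨y.2, ?_⟩
      have : y ^ p = 1 := by rw [← hy]; exact pow_orderOf_eq_one y
      have h2 := congrArg Subtype.val this
      simpa using h2
    rw [h0, Subgroup.mem_bot] at hyK
    have : y = 1 := Subtype.ext hyK
    rw [this, orderOf_one] at hy
    exact hp.one_lt.ne hy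
  · intro g
    refine ⟨1, ?_⟩
    apply Subtype.ext
    simpa using g.2.2

theorem main (n : ℕ) : ∀ {G : Type u} [Group G] [Finite G] (_ : Cfsg.IsCNGroup G)
    (H : Subgroup G) [H.Normal] (_ : Group.IsSolvable H), Nat.card H = n →
    Cfsg.IsCNGroup (G ⧸ H) := by
  induction n using Nat.strong_induction_on with
  | _ n ih =>
    intro G _ _ hCN H _ hH hn
    by_cases hbot : H = ⊥
    · subst hbot
      exact cn_of_mulEquiv QuotientGroup.quotientBot.symm hCN
    · obtain ⟨p, hp, A, hAn, hAH, hAne, hAp⟩ := exists_normal_p H hH hbot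
      have hCN' := cn_quot_pgroup hCN A hAp
      have hs : Group.IsSolvable (H.map (QuotientGroup.mk' A)) :=
        Group.isSolvable_of_surjective (f := (QuotientGroup.mk' A).subgroupMap H)
          ((QuotientGroup.mk' A).subgroupMap_surjective H)
      have hlt : Nat.card (H.map (QuotientGroup.mk' A)) < n := by
        rw [← hn]
        have := Fintype.ofFinite H
        have := Fintype.ofFinite (H.map (QuotientGroup.mk' A))
        rw [Nat.card_eq_fintype_card, Nat.card_eq_fintype_card]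
        apply Fintype.card_lt_of_surjective_not_injective ((QuotientGroup.mk' A).subgroupMap H)
          ((QuotientGroup.mk' A).subgroupMap_surjective H)
        intro hinj
        apply hAne
        rw [eq_bot_iff]
        intro a ha
        have h1 : (QuotientGroup.mk' A).subgroupMap H ⟨a, hAH ha⟩ =
            (QuotientGroup.mk' A).subgroupMap H 1 := by
          apply Subtype.ext
          simp only [map_one]
          exact (QuotientGroup.eq_one_iff a).mpr ha
        have h2 := hinj h1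
        exact congrArg Subtype.val h2
      have h3 := ih _ hlt hCN' (H.map (QuotientGroup.mk' A)) hs rfl
      exact cn_of_mulEquiv (QuotientGroup.quotientQuotientEquivQuotient A H hAH) h3

/-- Let G be a finite group in which the centralizer of every non-identity element is nilpotent, and H a solvable normal subgroup of G. Then in G/H the centralizer of every non-identity element is nilpotent. -/
theorem result {G : Type*} [Group G] [Finite G] (hCN : Cfsg.IsCNGroup G) (H : Subgroup G) [H.Normal] (hH : Group.IsSolvable H) :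
    Cfsg.IsCNGroup (G ⧸ H) := by
  exact main _ hCN H hH rfl

end Cfsg.Agent.S1473
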