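import Cfsg.Statements.S1483
import Mathlib
import Cfsg.Agent.Lib.Helper15.CNGroup

set_option autoImplicit false
open Cfsg

namespace Cfsg.Agent.S1483

/-- Let G be a minimal simple group of odd order in which every non-identity element has nilpotent centralizer. Then any two nilpotent subgroups each contained in no larger nilpotent subgroup are either conjugate or of coprime orders; and for primes p, q, r: if some elements x, y ≠ 1 of p-power and q-power order commute, and some elements y', z ≠ 1 of q-power and r-power order commute, then some elements of p-power and r-power order, both ≠ 1, commute. -/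
theorem result {G : Type*} [Group G] [Finite G] (hG : Cfsg.IsMinSimpleOddOrder G) (hCN : Cfsg.IsCNGroup G) :
    (∀ H₁ H₂ : Subgroup G, (Group.IsNilpotent ↥H₁ ∧ ∀ L : Subgroup G, Group.IsNilpotent L → H₁ ≤ L → L = H₁) → (Group.IsNilpotent ↥H₂ ∧ ∀ L : Subgroup G, Group.IsNilpotent L → H₂ ≤ L → L = H₂) → (∃ g : G, H₂ = H₁.map (MulAut.conj g).toMonoidHom) ∨ (Nat.card H₁).Coprime (Nat.card H₂)) ∧
      ∀ (p q r : ℕ), p.Prime → q.Prime → r.Prime → ∀ (x y y' z : G), x ≠ 1 → y ≠ 1 → y' ≠ 1 → z ≠ 1 →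
        IsPGroup p (Subgroup.zpowers x) → IsPGroup q (Subgroup.zpowers y) → IsPGroup q (Subgroup.zpowers y') → IsPGroup r (Subgroup.zpowers z) →
        x * y = y * x → y' * z = z * y' →
        ∃ x' z' : G, x' ≠ 1 ∧ z' ≠ 1 ∧ IsPGroup p (Subgroup.zpowers x') ∧ IsPGroup r (Subgroup.zpowers z') ∧ x' * z' = z' * x' := by
  refine ⟨fun H₁ H₂ h₁ h₂ => Cfsg.Agent.Lib.Helper15.cn_conj_or_coprime hCN H₁ H₂ h₁.1 h₁.2 h₂.1 h₂.2, ?_⟩
  intro p q r hp hq hr x y y' z hx hy hy' hz hxp hyq hy'q hzr hxy hyz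
  by_cases hpr : p = r
  · subst hpr
    exact ⟨z, z, hz, hz, hzr, hzr, rfl⟩
  obtain ⟨H₁, hK₁, hH₁, hmax₁⟩ := Cfsg.Agent.Lib.Helper15.exists_max_nilpotent
    (Subgroup.centralizer ({y} : Set G)) (hCN y hy)
  obtain ⟨H₂, hK₂, hH₂, hmax₂⟩ := Cfsg.Agent.Lib.Helper15.exists_max_nilpotent
    (Subgroup.centralizer ({y'} : Set G)) (hCN y' hy')
  have hxH : x ∈ H₁ := hK₁ (by rw [Subgroup.mem_centralizer_singleton_iff]; exact hxy)
  have hyH : y ∈ H₁ := hK₁ (by rw [Subgroup.mem_centralizer_singleton_iff])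
  have hzH : z ∈ H₂ := hK₂ (by rw [Subgroup.mem_centralizer_singleton_iff]; exact hyz.symm)
  have hy'H : y' ∈ H₂ := hK₂ (by rw [Subgroup.mem_centralizer_singleton_iff])
  have key : ∀ (H : Subgroup G) (w : G), w ∈ H → w ≠ 1 → IsPGroup q (Subgroup.zpowers w) →
      q ∣ Nat.card H := by
    intro H w hw hw1 hwq
    have := Fact.mk hq
    obtain ⟨k, hk⟩ := IsPGroup.iff_card.mp hwq
    rw [Nat.card_zpowers] at hk
    have hk0 : k ≠ 0 := by
      rintro rfl
      rw [pow_zero, orderOf_eq_one_iff] at hk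
      exact hw1 hk
    have h1 : orderOf w ∣ Nat.card H := by
      have := orderOf_dvd_natCard (⟨w, hw⟩ : H)
      rwa [Subgroup.orderOf_mk] at this
    exact (dvd_pow_self q hk0).trans (hk ▸ h1)
  have hq1 := key H₁ y hyH hy hyq
  have hq2 := key H₂ y' hy'H hy' hy'q
  rcases Cfsg.Agent.Lib.Helper15.cn_conj_or_coprime hCN H₁ H₂ hH₁ hmax₁ hH₂ hmax₂ with ⟨g, hg⟩ | hc
  · have hx'H : g * x * g⁻¹ ∈ H₂ := by
      rw [hg]
      exact ⟨x, hxH, by simp [MulAut.conj_apply]⟩
    have ho : orderOf (g * x * g⁻¹) = orderOf x := by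
      have := (MulAut.conj g).orderOf_eq x
      rwa [MulAut.conj_apply] at this
    have := Fact.mk hp
    have := Fact.mk hr
    obtain ⟨k, hk⟩ := IsPGroup.iff_card.mp hxp
    obtain ⟨j, hj⟩ := IsPGroup.iff_card.mp hzr
    rw [Nat.card_zpowers] at hk hj
    refine ⟨g * x * g⁻¹, z, ?_, hz, ?_, hzr, ?_⟩
    · intro e
      apply hx
      rw [← orderOf_eq_one_iff] at e ⊢
      rw [← ho, e]
    · rw [IsPGroup.iff_card]
      exact ⟨k, by rw [Nat.card_zpowers, ho, hk]⟩
    · have hcop : (orderOf (⟨g * x * g⁻¹, hx'H⟩ : H₂)).Coprime (orderOf (⟨z, hzH⟩ : H₂)) := by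
        rw [Subgroup.orderOf_mk, Subgroup.orderOf_mk, ho, hk, hj]
        exact Nat.Coprime.pow _ _ ((Nat.coprime_primes hp hr).mpr hpr)
      exact congrArg Subtype.val (Cfsg.Agent.Lib.Helper2.commute_of_coprime_of_isNilpotent hcop).eq
  · exact absurd (Nat.dvd_gcd hq1 hq2) (by rw [hc]; exact hq.one_lt.ne' ∘ Nat.dvd_one.mp)

end Cfsg.Agent.S1483
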