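import Cfsg.Statements.S1487
import Cfsg.Agent.Lib.Helper25.Conj
import Cfsg.Agent.Lib.Helper7.CharBasic

set_option autoImplicit false
open Cfsg

namespace Cfsg.Agent.S1487

/-- Let A ≤ H be normal subgroups of the finite group G and θ an irreducible character of H. Then θ takes the value θ 1 on all of A if and only if the function induced from θ to G takes its value at 1 on all of A. -/
theorem result {G : Type*} [Group G] [Fintype G] (A H : Subgroup G) [A.Normal] [H.Normal] (hAH : A ≤ H) (θ : H → ℂ) (hθ : Cfsg.IsIrrCharacter H θ) : (∀ a : H, (a : G) ∈ A → θ a = θ 1) ↔ (∀ a : G, a ∈ A → Cfsg.indFun H θ a = Cfsg.indFun H θ 1) := by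
  classical
  have hH : (Nat.card H : ℂ) ≠ 0 := by exact_mod_cast Nat.card_pos.ne'
  have hc := Cfsg.Agent.Lib.Helper7.isCharacter_of_irr hθ
  have hone : ∀ x : G, Cfsg.Agent.Lib.Helper25.conjFun H θ x 1 = θ 1 := by
    intro x
    rw [Cfsg.Agent.Lib.Helper25.conjFun_apply]
    congr 1
    apply Subtype.ext
    simp
  have e2 := Cfsg.Agent.Lib.Helper25.indFun_coe_eq_sum_conjFun H θ 1
  rw [OneMemClass.coe_one] at e2
  simp_rw [hone] at e2
  constructor
  · intro h a ha
    have e1 := Cfsg.Agent.Lib.Helper25.indFun_coe_eq_sum_conjFun H θ ⟨a, hAH ha⟩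
    rw [e2]
    refine e1.trans ?_
    congr 1
    apply Finset.sum_congr rfl
    intro x _
    rw [Cfsg.Agent.Lib.Helper25.conjFun_apply]
    exact h _ (‹A.Normal›.conj_mem a ha x)
  · intro h a ha
    have e1 := Cfsg.Agent.Lib.Helper25.indFun_coe_eq_sum_conjFun H θ a
    have e3 := h a ha
    rw [e1, e2] at e3
    have e4 := mul_left_cancel₀ (inv_ne_zero hH) e3
    have e5 : ∑ x : G, ((θ 1).re - (Cfsg.Agent.Lib.Helper25.conjFun H θ x a).re) = 0 := by
      rw [Finset.sum_sub_distrib, ← Complex.re_sum, ← Complex.re_sum, e4]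
      simp
    have hnn : ∀ x ∈ (Finset.univ : Finset G),
        0 ≤ (θ 1).re - (Cfsg.Agent.Lib.Helper25.conjFun H θ x a).re := by
      intro x _
      rw [Cfsg.Agent.Lib.Helper25.conjFun_apply]
      have h1 := Cfsg.Agent.Lib.Helper7.char_norm_le hc
        (⟨x * a * x⁻¹, ‹H.Normal›.conj_mem a a.2 x⟩ : H)
      have h2 := Complex.re_le_norm (θ ⟨x * a * x⁻¹, ‹H.Normal›.conj_mem a a.2 x⟩)
      linarith
    have e6 := (Finset.sum_eq_zero_iff_of_nonneg hnn).mp e5 1 (Finset.mem_univ _)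
    rw [Cfsg.Agent.Lib.Helper25.conjFun_one] at e6
    have h7 := Cfsg.Agent.Lib.Helper7.char_norm_le hc a
    obtain ⟨n, hn⟩ := Cfsg.Agent.Lib.Helper7.isCharacter_apply_one hc
    have h8 : ‖θ a‖ ^ 2 = (θ a).re ^ 2 + (θ a).im ^ 2 := by
      rw [Complex.sq_norm, Complex.normSq_apply]; ring
    have h9 : (θ a).re = (θ 1).re := by linarith
    have h10 : 0 ≤ ‖θ a‖ := norm_nonneg _
    have h11 : (θ a).im ^ 2 ≤ 0 := by nlinarith
    have h12 : (θ a).im = 0 := by nlinarith
    apply Complex.ext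
    · exact h9
    · rw [h12, hn]; simp

end Cfsg.Agent.S1487
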