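import Cfsg.Statements.S1491
import Cfsg.Agent.Lib.Helper25.AbQuot2
import Cfsg.Agent.Lib.Helper25.Glaub20
import Cfsg.Agent.Lib.Helper25.Codegree
import Cfsg.Agent.S0867

set_option autoImplicit false
open Cfsg

namespace Cfsg.Agent.S1491

open Cfsg.Agent.Lib.Helper25

/-- Let H be a normal subgroup of the finite group G and θ an irreducible character of H with inertia group T, where T/H is abelian (commutators of T lie in H) and the index of H in T is coprime to the order of H. Then the function induced from θ is the sum of a set of exactly [T:H] irreducible characters of G, each of degree [G:T] * θ(1). -/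
theorem result {G : Type*} [Group G] [Fintype G] (H T : Subgroup G) [hN : H.Normal] (θ : H → ℂ) (hθ : Cfsg.IsIrrCharacter H θ) (hT : ∀ g : G, g ∈ T ↔ ∀ h : H, θ ⟨g * h * g⁻¹, hN.conj_mem h h.2 g⟩ = θ h) (hab : ∀ x ∈ T, ∀ y ∈ T, x * y * x⁻¹ * y⁻¹ ∈ H) (hcop : Nat.Coprime (Nat.card H) (H.relIndex T)) : ∃ C : Finset (G → ℂ), (∀ χ ∈ C, Cfsg.IsIrrCharacter G χ) ∧ C.card = H.relIndex T ∧ Cfsg.indFun H θ = ∑ χ ∈ C, χ ∧ ∀ χ ∈ C, χ 1 = (T.index : ℂ) * θ 1 := by
  classical
  let _ : Fintype H := Fintype.ofFinite _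
  let _ : Fintype T := Fintype.ofFinite _
  let _ : Fintype (H.subgroupOf T) := Fintype.ofFinite _
  obtain ⟨e, C, h1, h2, h3, h4, h5, hall⟩ := induced_abelian_inertia H T hθ hT hab
  have hθc := Cfsg.Agent.Lib.Helper7.isCharacter_of_irr hθ
  have hcfθ := Cfsg.Agent.Lib.Helper7.isClassFunction_of_isCharacter hθc
  have hHT : H ≤ T := fun g hg => (hT g).2 fun h => hcfθ h ⟨g, hg⟩
  have hθ' := isIrrCharacter_subgroupOf H hHT hθ
  have hcardH : Nat.card (H.subgroupOf T) = Nat.card H :=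
    Nat.card_congr (Subgroup.subgroupOfEquivOfLe hHT).toEquiv
  obtain ⟨d, -, hd⟩ := Cfsg.Agent.Lib.Helper7.irr_apply_one hθ'
  have hd1 : d ∣ Nat.card H := by
    have := Cfsg.Agent.Lib.Helper7.charDegree_dvd_card ⟨_, hθ'⟩
    rwa [charDegree_eq (χ := fun x : H.subgroupOf T =>
      θ ⟨(x : T), Subgroup.mem_subgroupOf.mp x.2⟩) hd, hcardH] at this
  have hd2 := detOrder_dvd_card (Cfsg.Agent.Lib.Helper7.isCharacter_of_irr hθ')
  rw [hcardH] at hd2
  obtain ⟨ψ₀, ⟨hψ₀, hψ₀H, -⟩, -⟩ := Cfsg.Agent.S0867.result (H.subgroupOf T) _ hθ'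
    (fun t x => (hT t).1 t.2 ⟨(x : T), Subgroup.mem_subgroupOf.mp x.2⟩) d hd
    (Nat.Coprime.mul_right (Nat.Coprime.coprime_dvd_right hd2 hcop.symm)
      (Nat.Coprime.coprime_dvd_right hd1 hcop.symm))
  have hres : (fun n : H => ψ₀ ⟨n, hHT n.2⟩) = θ := by
    funext n
    exact hψ₀H ⟨⟨n, hHT n.2⟩, Subgroup.mem_subgroupOf.2 n.2⟩
  have hi : Cfsg.classInner (fun n : H => ψ₀ ⟨n, hHT n.2⟩) θ = 1 := by
    rw [hres]
    exact Cfsg.Agent.Lib.Helper7.classInner_irr_self hθ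
  have hχ₀ := isIrrCharacter_indFun_of_inertia H T hθ hT hHT hψ₀ (by rw [hi]; exact one_ne_zero)
  have hcf := Cfsg.Agent.Lib.Helper7.isClassFunction_of_isCharacter
    (Cfsg.Agent.Lib.Helper7.isCharacter_of_irr hχ₀)
  have hc : Cfsg.classInner (fun t : T => Cfsg.indFun T ψ₀ t) ψ₀ ≠ 0 := by
    have h6 := frobenius_reciprocity T ψ₀ _ hcf
    rw [Cfsg.Agent.Lib.Helper7.classInner_irr_self hχ₀] at h6
    rw [← Cfsg.Agent.Lib.Helper7.classInner_conj_symm, ← h6]
    simp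
  have hcore := (clifford_corr_core H T hθ hT hHT hψ₀ (by rw [hi]; exact one_ne_zero) hχ₀ hc).2
  rw [hi] at hcore
  have he := hall _ hχ₀ (by rw [← hcore]; exact one_ne_zero)
  rw [← hcore] at he
  have he1 : e = 1 := by exact_mod_cast he.symm
  subst he1
  refine ⟨C, h2, ?_, by simpa using h4, fun χ hχ => by simpa using h5 χ hχ⟩
  have h7 := (H.subgroupOf T).card_mul_index
  rw [hcardH, ← h3] at h7
  have hH0 : 0 < Nat.card H := Nat.card_pos
  have h8 : Nat.card H * (H.subgroupOf T).index = Nat.card H * C.card := by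
    rw [h7]; ring
  exact (Nat.eq_of_mul_eq_mul_left hH0 h8).symm

end Cfsg.Agent.S1491
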