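import Cfsg.Statements.S1492
import Cfsg.Agent.Lib.Helper25.AbQuot3

set_option autoImplicit false
open Cfsg

namespace Cfsg.Agent.S1492

open Cfsg.Agent.Lib.Helper25

/-- Let ψ be an irreducible character of the finite group G and B ≤ D ≤ C subgroups with B normal in C, every commutator of an element of D with an element of C lying in B (so D/B is central in C/B), and ψ constant equal to ψ 1 on B. Then ψ(1) ^ 2 * |C| * |D| ≤ |G| ^ 2. -/
theorem result {G : Type*} [Group G] [Finite G] (ψ : G → ℂ) (hψ : Cfsg.IsIrrCharacter G ψ) (B C D : Subgroup G) (hBD : B ≤ D) (hDC : D ≤ C) (hBn : ∀ c ∈ C, ∀ b ∈ B, c * b * c⁻¹ ∈ B) (hcent : ∀ d ∈ D, ∀ c ∈ C, d * c * d⁻¹ * c⁻¹ ∈ B) (hker : ∀ b ∈ B, ψ b = ψ 1) : ‖ψ 1‖ ^ 2 * (Nat.card C : ℝ) * (Nat.card D : ℝ) ≤ (Nat.card G : ℝ) ^ 2 := by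
  classical
  cases nonempty_fintype G
  let _ : Fintype C := Fintype.ofFinite _
  have hψc := Cfsg.Agent.Lib.Helper7.isCharacter_of_irr hψ
  have hcfψ := Cfsg.Agent.Lib.Helper7.isClassFunction_of_isCharacter hψc
  have hres := Cfsg.Agent.Lib.Helper7.isCharacter_restrict hψc C
  obtain ⟨φ, hφ, hconst⟩ := exists_irr_constituent hres (by
    intro h
    have := congrFun h 1
    exact Cfsg.Agent.Lib.Helper7.irr_apply_one_ne_zero hψ this)
  have hkerφ : ∀ x : C, (x : G) ∈ B → φ x = φ 1 := by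
    intro x hx
    exact ker_constituent hres hφ hconst (hker x hx)
  have h1 := degree_sq_mul_card_le hφ (D.subgroupOf C) (by
    intro d hd c
    apply hkerφ
    exact hcent d (Subgroup.mem_subgroupOf.1 hd) c c.2)
  rw [Nat.card_congr (Subgroup.subgroupOfEquivOfLe hDC).toEquiv] at h1
  have hind := isCharacter_indFun C φ (Cfsg.Agent.Lib.Helper7.isCharacter_of_irr hφ)
  have hne : Cfsg.classInner (Cfsg.indFun C φ) ψ ≠ 0 := by
    rw [frobenius_reciprocity C φ ψ hcfψ, ← Cfsg.Agent.Lib.Helper7.classInner_conj_symm]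
    exact (map_ne_zero _).2 hconst
  obtain ⟨k, hk⟩ := Cfsg.Agent.Lib.Helper2.IsCharacter.degree_constituent hind hψ hne
  rw [indFun_one] at hk
  obtain ⟨a, -, ha⟩ := Cfsg.Agent.Lib.Helper7.irr_apply_one hψ
  obtain ⟨b, -, hb⟩ := Cfsg.Agent.Lib.Helper7.irr_apply_one hφ
  rw [ha, hb] at hk
  have hk' : C.index * b = a + k := by exact_mod_cast hk
  rw [hb, Complex.norm_natCast] at h1
  rw [ha, Complex.norm_natCast]
  have h2 : (a : ℝ) ≤ C.index * b := by
    have : a ≤ C.index * b := by omega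
    exact_mod_cast this
  have h3 : (Nat.card G : ℝ) = Nat.card C * C.index := by exact_mod_cast C.card_mul_index.symm
  rw [h3]
  have hC0 : (0 : ℝ) ≤ Nat.card C := by positivity
  have hD0 : (0 : ℝ) ≤ Nat.card D := by positivity
  have ha0 : (0 : ℝ) ≤ a := by positivity
  calc (a : ℝ) ^ 2 * Nat.card C * Nat.card D
      ≤ ((C.index : ℝ) * b) ^ 2 * Nat.card C * Nat.card D := by
        apply mul_le_mul_of_nonneg_right _ hD0
        apply mul_le_mul_of_nonneg_right _ hC0
        exact pow_le_pow_left₀ ha0 h2 2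
    _ = (C.index : ℝ) ^ 2 * Nat.card C * ((b : ℝ) ^ 2 * Nat.card D) := by ring
    _ ≤ (C.index : ℝ) ^ 2 * Nat.card C * Nat.card C := by
        apply mul_le_mul_of_nonneg_left h1
        positivity
    _ = ((Nat.card C : ℝ) * C.index) ^ 2 := by ring

end Cfsg.Agent.S1492
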