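import Cfsg.Statements.S1494
import Mathlib
import Cfsg.Agent.Lib.Helper7.CharBasic
-- import your own Cfsg.Agent.* helpers here

set_option autoImplicit false
open Cfsg

namespace Cfsg.Agent.S1494

open Cfsg.Agent.Lib.Helper7

/-- Let χ be a generalized character of the finite group G, p a prime, x an element of order p and y an element commuting with x. Then χ(x * y) − χ(y) = (1 − ε) * ω for some algebraic integer ω, where ε = exp(2πi/p). -/
theorem result {G : Type*} [Group G] [Finite G] (χ : G → ℂ) (hχ : Cfsg.IsGeneralizedCharacter G χ) (p : ℕ) (hp : p.Prime) (x y : G) (hx : orderOf x = p) (hxy : x * y = y * x) : ∃ ω : ℂ, IsIntegral ℤ ω ∧ χ (x * y) - χ y = (1 - Complex.exp (2 * Real.pi * Complex.I / p)) * ω := by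
  classical
  have hp0 : p ≠ 0 := hp.ne_zero
  have : NeZero p := ⟨hp0⟩
  set ε := Complex.exp (2 * Real.pi * Complex.I / p) with hε
  have hprim : IsPrimitiveRoot ε p := Complex.isPrimitiveRoot_exp p hp0
  have hεint : IsIntegral ℤ ε := hprim.isIntegral hp.pos
  let A := Subgroup.closure ({x, y} : Set G)
  have : IsMulCommutative A := Subgroup.isMulCommutative_closure (by
    intro a ha b hb
    simp only [Set.mem_insert_iff, Set.mem_singleton_iff] at ha hb
    rcases ha with rfl | rfl <;> rcases hb with rfl | rfl <;> simp [hxy])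
  let x' : A := ⟨x, Subgroup.subset_closure (by simp)⟩
  let y' : A := ⟨y, Subgroup.subset_closure (by simp)⟩
  have key : ∀ ψ : A → ℂ, IsCharacter A ψ →
      ∃ ω : ℂ, IsIntegral ℤ ω ∧ ψ (x' * y') - ψ y' = (1 - ε) * ω := by
    apply isCharacter_induction
    · exact ⟨0, isIntegral_zero, by simp⟩
    · rintro χ ψ hχ _ ⟨ω, hω, hω2⟩
      obtain ⟨f, hf⟩ := exists_hom_of_linear (isCharacter_of_irr hχ) (irr_apply_one_of_comm hχ)
      have hfx : (f x' : ℂ) ^ p = 1 := by
        have : x' ^ p = 1 := Subtype.ext (by simp [x', ← hx, pow_orderOf_eq_one])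
        rw [← Units.val_pow_eq_pow_val, ← map_pow, this]
        simp
      obtain ⟨i, _, hi⟩ := hprim.eq_pow_of_pow_eq_one hfx
      have hfy : IsIntegral ℤ (f y' : ℂ) := by
        have : (f y' : ℂ) ^ orderOf y' = 1 := by
          rw [← Units.val_pow_eq_pow_val, ← map_pow, pow_orderOf_eq_one]
          simp
        exact ⟨Polynomial.X ^ orderOf y' - 1,
          Polynomial.monic_X_pow_sub_C 1 (orderOf_pos y').ne', by simp [this]⟩
      refine ⟨- (∑ j ∈ Finset.range i, ε ^ j) * (f y' : ℂ) + ω, ?_, ?_⟩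
      · refine IsIntegral.add (IsIntegral.mul (IsIntegral.neg (IsIntegral.sum _ ?_)) hfy) hω
        intro j _
        exact hεint.pow j
      · simp only [Pi.add_apply, hf, map_mul, Units.val_mul]
        have h1 := mul_geom_sum ε i
        rw [hi] at h1
        linear_combination -(f y' : ℂ) * h1 + hω2
  obtain ⟨a, b, ha, hb, rfl⟩ := hχ
  obtain ⟨ω₁, h1, h1'⟩ := key _ (isCharacter_restrict ha A)
  obtain ⟨ω₂, h2, h2'⟩ := key _ (isCharacter_restrict hb A)
  refine ⟨ω₁ - ω₂, h1.sub h2, ?_⟩
  simp only [x', y', Subgroup.coe_mul] at h1' h2'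
  simp only [Pi.sub_apply]
  linear_combination h1' - h2'

end Cfsg.Agent.S1494
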