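import Cfsg.Statements.S1495
import Mathlib

set_option autoImplicit false
open Cfsg

namespace Cfsg.Agent.S1495

open Polynomial in
/-- Let p be a prime, ε = exp(2πi/p), and n an integer such that n = (1 − ε) * ω for some algebraic integer ω. Then p divides n. -/
theorem result (p : ℕ) (hp : p.Prime) (n : ℤ) (ω : ℂ) (hω : IsIntegral ℤ ω) (h : (n : ℂ) = (1 - Complex.exp (2 * Real.pi * Complex.I / p)) * ω) : (p : ℤ) ∣ n := by
  haveI : Fact p.Prime := ⟨hp⟩
  haveI : NeZero p := ⟨hp.ne_zero⟩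
  set ε := Complex.exp (2 * Real.pi * Complex.I / p) with hε
  have hprim : IsPrimitiveRoot ε p := Complex.isPrimitiveRoot_exp p hp.ne_zero
  have hprod : (p : ℂ) = ∏ μ ∈ primitiveRoots p ℂ, (1 - μ) := by
    have h1 := Polynomial.cyclotomic_eq_prod_X_sub_primitiveRoots hprim
    have h2 : eval 1 (cyclotomic p ℂ) = p := Polynomial.eval_one_cyclotomic_prime
    rw [h1, eval_prod] at h2
    rw [← h2]
    apply Finset.prod_congr rfl
    intro μ _
    simp
  have hv : ∀ μ ∈ primitiveRoots p ℂ, ∃ v : ℂ, IsIntegral ℤ v ∧ 1 - ε = (1 - μ) * v := by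
    intro μ hμ
    have hμ' : IsPrimitiveRoot μ p := (mem_primitiveRoots hp.pos).mp hμ
    obtain ⟨j, -, hj⟩ := hμ'.eq_pow_of_pow_eq_one hprim.pow_eq_one
    refine ⟨∑ i ∈ Finset.range j, μ ^ i, ?_, ?_⟩
    · apply IsIntegral.sum
      intro i _
      exact (hμ'.isIntegral hp.pos).pow i
    · rw [← hj, mul_comm, geom_sum_mul_neg]
  choose! v hvint hveq using hv
  set d := (primitiveRoots p ℂ).card with hd
  have hpow : (1 - ε) ^ d = (p : ℂ) * ∏ μ ∈ primitiveRoots p ℂ, v μ := by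
    rw [hprod, ← Finset.prod_mul_distrib, hd, ← Finset.prod_const]
    apply Finset.prod_congr rfl
    intro μ hμ
    exact hveq μ hμ
  set γ := (∏ μ ∈ primitiveRoots p ℂ, v μ) * ω ^ d with hγ
  have hγint : IsIntegral ℤ γ := (IsIntegral.prod _ hvint).mul (hω.pow d)
  have hn : ((n : ℂ)) ^ d = (p : ℂ) * γ := by
    rw [h, mul_pow, hpow, hγ]; ring
  have hp0 : (p : ℂ) ≠ 0 := Nat.cast_ne_zero.mpr hp.ne_zero
  have hγq : γ = (((n : ℚ) ^ d / (p : ℚ) : ℚ) : ℂ) := by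
    push_cast
    rw [hn]
    field_simp
  have hγint' : IsIntegral ℤ ((n : ℚ) ^ d / (p : ℚ) : ℚ) := by
    rw [hγq] at hγint
    exact (isIntegral_algebraMap_iff (algebraMap ℚ ℂ).injective).mp hγint
  obtain ⟨y, hy⟩ := IsIntegrallyClosed.isIntegral_iff.mp hγint'
  have hfin : n ^ d = (p : ℤ) * y := by
    have hp0' : (p : ℚ) ≠ 0 := Nat.cast_ne_zero.mpr hp.ne_zero
    have : ((n : ℚ)) ^ d = (p : ℚ) * (y : ℚ) := by
      have hy' : (y : ℚ) = (n : ℚ) ^ d / (p : ℚ) := hy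
      rw [hy']
      field_simp
    exact_mod_cast this
  have hpp : Prime (p : ℤ) := Nat.prime_iff_prime_int.mp hp
  exact hpp.dvd_of_dvd_pow ⟨y, hfin⟩

end Cfsg.Agent.S1495
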