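import Cfsg.Statements.S1496
import Mathlib

set_option autoImplicit false
open Cfsg

namespace Cfsg.Agent.S1496

theorem pow_trick {G : Type*} [Group G] [Finite G] (H : Subgroup G) (g : G)
    (hcop : Nat.Coprime (orderOf g) (Nat.card H)) :
    ∃ m : ℕ, ∀ c ∈ H, c * g = g * c → (c * g) ^ m = g := by
  obtain ⟨m, hm1, hm0⟩ := Nat.chineseRemainder hcop 1 0
  refine ⟨m, fun c hc hcg => ?_⟩
  have hcomm : Commute c g := hcg
  rw [hcomm.mul_pow]
  have h1 : c ^ m = 1 := by
    have hd : Nat.card H ∣ m := (Nat.modEq_zero_iff_dvd).mp hm0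
    have h2 : orderOf c ∣ Nat.card H := by
      have := orderOf_dvd_natCard (⟨c, hc⟩ : H)
      rwa [Subgroup.orderOf_mk] at this
    exact orderOf_dvd_iff_pow_eq_one.mp (h2.trans hd)
  have h2 : g ^ m = g := by
    have := pow_eq_pow_iff_modEq.mpr hm1
    simpa using this
  rw [h1, h2, one_mul]

/-- Let H be a subgroup of the finite group G and g an element normalising H whose order is coprime to the order of H. Then for every h ∈ H there are x ∈ H and c ∈ H commuting with g such that x * (h * g) * x⁻¹ = c * g. -/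
theorem result {G : Type*} [Group G] [Finite G] (H : Subgroup G) (g : G) (hg : g ∈ Subgroup.normalizer (H : Set G)) (hcop : Nat.Coprime (orderOf g) (Nat.card H)) (h : G) (hh : h ∈ H) : ∃ x ∈ H, ∃ c ∈ H, c * g = g * c ∧ x * (h * g) * x⁻¹ = c * g := by
  classical
  obtain ⟨m, hm⟩ := pow_trick H g hcop
  let C : Subgroup G := H ⊓ Subgroup.centralizer {g}
  have hCmem : ∀ c : G, c ∈ C ↔ c ∈ H ∧ c * g = g * c := by
    intro c
    show c ∈ H ∧ c ∈ Subgroup.centralizer {g} ↔ _
    rw [Subgroup.mem_centralizer_singleton_iff]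
  letI : Fintype H := Fintype.ofFinite _
  letI : Fintype C := Fintype.ofFinite _
  let Φ : H × C → H := fun z => ⟨z.1 * z.2 * g * (z.1 : G)⁻¹ * g⁻¹, by
    have h1 : g * (z.1 : G)⁻¹ * g⁻¹ ∈ H := (Subgroup.mem_normalizer_iff.mp hg _).mp (H.inv_mem z.1.2)
    have h2 : (z.1 : G) * z.2 ∈ H := H.mul_mem z.1.2 ((hCmem _).mp z.2.2).1
    have := H.mul_mem h2 h1
    simpa [mul_assoc] using this⟩
  have hfib : ∀ b ∈ (Finset.univ : Finset (H × C)).image Φ,
      ((Finset.univ : Finset (H × C)).filter (fun a => Φ a = b)).card ≤ Fintype.card C := by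
    intro b hb
    obtain ⟨⟨x0, c0⟩, -, rfl⟩ := Finset.mem_image.mp hb
    let Ψ : C → H × C := fun t => (x0 * ⟨t, ((hCmem _).mp t.2).1⟩, t⁻¹ * c0 * t)
    calc ((Finset.univ : Finset (H × C)).filter (fun a => Φ a = Φ (x0, c0))).card
        ≤ ((Finset.univ : Finset C).image Ψ).card := by
          apply Finset.card_le_card
          rintro ⟨x, c⟩ hxc
          have he : Φ (x, c) = Φ (x0, c0) := (Finset.mem_filter.mp hxc).2
          have he' : (x : G) * c * g * (x : G)⁻¹ * g⁻¹ = x0 * c0 * g * (x0 : G)⁻¹ * g⁻¹ :=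
            congrArg Subtype.val he
          have he2 : (x : G) * c * g * (x : G)⁻¹ = x0 * c0 * g * (x0 : G)⁻¹ := mul_right_cancel he'
          set t : G := (x0 : G)⁻¹ * x with ht
          have h3 : t * ((c : G) * g) * t⁻¹ = c0 * g := by
            calc t * ((c : G) * g) * t⁻¹ = (x0 : G)⁻¹ * ((x : G) * c * g * (x : G)⁻¹) * x0 := by
                  rw [ht]; group
              _ = (x0 : G)⁻¹ * (x0 * c0 * g * (x0 : G)⁻¹) * x0 := by rw [he2]
              _ = c0 * g := by group
          have h4 : t * g * t⁻¹ = g := by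
            have e1 := hm c ((hCmem _).mp c.2).1 ((hCmem _).mp c.2).2
            have e2 := hm c0 ((hCmem _).mp c0.2).1 ((hCmem _).mp c0.2).2
            calc t * g * t⁻¹ = t * ((c : G) * g) ^ m * t⁻¹ := by rw [e1]
              _ = (t * ((c : G) * g) * t⁻¹) ^ m := (conj_pow).symm
              _ = g := by rw [h3, e2]
          have htH : t ∈ H := H.mul_mem (H.inv_mem x0.2) x.2
          have htg : t * g = g * t := by
            calc t * g = t * g * t⁻¹ * t := by group
              _ = g * t := by rw [h4]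
          have htC : t ∈ C := (hCmem t).mpr ⟨htH, htg⟩
          have h5 : t * (c : G) * t⁻¹ = c0 := by
            have : t * ((c : G) * g) * t⁻¹ = (t * c * t⁻¹) * (t * g * t⁻¹) := by group
            rw [this, h4] at h3
            exact mul_right_cancel h3
          apply Finset.mem_image.mpr
          refine ⟨⟨t, htC⟩, Finset.mem_univ _, ?_⟩
          apply Prod.ext
          · apply Subtype.ext
            show (x0 : G) * t = x
            rw [ht]; group
          · apply Subtype.ext
            show t⁻¹ * (c0 : G) * t = c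
            rw [← h5]; group
      _ ≤ (Finset.univ : Finset C).card := Finset.card_image_le
      _ = Fintype.card C := Finset.card_univ
  have hcard := Finset.card_le_mul_card_image (f := Φ) Finset.univ (Fintype.card C) hfib
  rw [Finset.card_univ, Fintype.card_prod, mul_comm] at hcard
  have hCpos : 0 < Fintype.card C := Fintype.card_pos
  have hle : Fintype.card H ≤ ((Finset.univ : Finset (H × C)).image Φ).card :=
    Nat.le_of_mul_le_mul_left hcard hCpos
  have himg : (Finset.univ : Finset (H × C)).image Φ = Finset.univ :=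
    Finset.eq_univ_of_card _ (le_antisymm (Finset.card_le_univ _) hle)
  have hmem : (⟨h, hh⟩ : H) ∈ (Finset.univ : Finset (H × C)).image Φ := himg ▸ Finset.mem_univ _
  obtain ⟨⟨x, c⟩, -, hxc⟩ := Finset.mem_image.mp hmem
  have hxc' : (x : G) * c * g * (x : G)⁻¹ * g⁻¹ = h := congrArg Subtype.val hxc
  refine ⟨(x : G)⁻¹, H.inv_mem x.2, c, ((hCmem _).mp c.2).1, ((hCmem _).mp c.2).2, ?_⟩
  rw [← hxc']
  group

end Cfsg.Agent.S1496
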