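import Cfsg.Statements.S1500
import Mathlib
import Cfsg.Agent.Lib.Helper11.Dade
-- import your own Cfsg.Agent.* helpers here

set_option autoImplicit false
open Cfsg

namespace Cfsg.Agent.S1500

open Cfsg.Agent.Lib.Helper7 Cfsg.Agent.Lib.Helper11

/-- Under the Dade hypothesis for (A, L, H), let α be a class function of L vanishing outside A. Then (i) for every class function β of L vanishing outside A, the inner product over G of the Dade images of α and β equals the inner product of α and β over L; and (ii) for every class function χ of G and every function ψ on L whose value at each a ∈ A is the average of χ over the coset a·H(a), the inner product over G of the Dade image of α with χ equals the inner product over L of α with ψ. -/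
theorem result {G : Type*} [Group G] [Fintype G] (A : Set G) (L : Subgroup G) [Fintype L] (H : G → Subgroup G) (hD : Cfsg.DadeHypothesis A L H) (α : L → ℂ) (hα : Cfsg.IsClassFunction L α) (hαA : ∀ x : L, (x : G) ∉ A → α x = 0) : (∀ β : L → ℂ, Cfsg.IsClassFunction L β → (∀ x : L, (x : G) ∉ A → β x = 0) → Cfsg.classInner (Cfsg.dadeIsometry A L H α) (Cfsg.dadeIsometry A L H β) = Cfsg.classInner α β) ∧ (∀ (χ : G → ℂ) (ψ : L → ℂ), Cfsg.IsClassFunction G χ → (∀ a : L, (a : G) ∈ A → ψ a = (Nat.card (H a) : ℂ)⁻¹ * ∑ᶠ u ∈ (H a : Set G), χ (a * u)) → Cfsg.classInner (Cfsg.dadeIsometry A L H α) χ = Cfsg.classInner α ψ) := by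
  classical
  refine ⟨fun β hβ hβA => ?_, fun χ ψ hχ hψ => dade_inner hD α hα hαA χ ψ hχ hψ⟩
  refine dade_inner hD α hα hαA _ β (dadeIsometry_isClassFunction hD hβ) ?_
  intro a ha
  have h1 : ∀ u ∈ (H a : Set G), dadeIsometry A L H β (a * u) = β a := fun u hu =>
    dadeIsometry_apply hD hβ (x := 1) a ha hu (by simp)
  rw [finsum_mem_congr rfl h1, finsum_mem_eq_sum_ite, ← Finset.sum_filter, Finset.sum_const]
  have h2 : (Finset.univ.filter (fun u : G => u ∈ (H a : Set G))).card = Nat.card (H a) := by
    rw [Nat.card_eq_fintype_card, Fintype.card_subtype]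
    rfl
  have h3 : (Nat.card (H a) : ℂ) ≠ 0 := by exact_mod_cast Nat.card_pos.ne'
  rw [h2, nsmul_eq_mul, ← mul_assoc, inv_mul_cancel₀ h3, one_mul]

end Cfsg.Agent.S1500
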