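import Cfsg.Statements.S1504
import Mathlib
import Cfsg.Agent.Lib.Helper11.CyclicTI
-- import your own Cfsg.Agent.* helpers here

set_option autoImplicit false
open Cfsg

namespace Cfsg.Agent.S1504

open Cfsg.Agent.Lib.Helper7 Cfsg.Agent.Lib.Helper11

/-- Let W₁, W₂ be subgroups of a finite group with W₁ ⊓ W₂ = ⊥ whose elements commute, and W = W₁ ⊔ W₂. For linear characters φ, ψ of W with φ trivial on W₂ and ψ trivial on W₁, the function (1 − φ)(1 − ψ) vanishes on W₁ ∪ W₂; and the family of these functions, indexed by pairs (φ, ψ) with φ ≠ 1 ≠ ψ, is linearly independent over ℂ. -/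
theorem result {G : Type*} [Group G] [Finite G] (W₁ W₂ : Subgroup G) (hdisj : W₁ ⊓ W₂ = ⊥) (hcomm : ∀ a ∈ W₁, ∀ b ∈ W₂, a * b = b * a) : (∀ φ ψ : ↥(W₁ ⊔ W₂) →* ℂˣ, (∀ w : ↥(W₁ ⊔ W₂), (w : G) ∈ W₂ → φ w = 1) → (∀ w : ↥(W₁ ⊔ W₂), (w : G) ∈ W₁ → ψ w = 1) → ∀ w : ↥(W₁ ⊔ W₂), ((w : G) ∈ W₁ ∨ (w : G) ∈ W₂) → (1 - (φ w : ℂ) - (ψ w : ℂ) + (φ w : ℂ) * (ψ w : ℂ)) = 0) ∧ LinearIndependent ℂ (fun p : {p : (↥(W₁ ⊔ W₂) →* ℂˣ) × (↥(W₁ ⊔ W₂) →* ℂˣ) // p.1 ≠ 1 ∧ p.2 ≠ 1 ∧ (∀ w : ↥(W₁ ⊔ W₂), (w : G) ∈ W₂ → p.1 w = 1) ∧ (∀ w : ↥(W₁ ⊔ W₂), (w : G) ∈ W₁ → p.2 w = 1)} => fun w : ↥(W₁ ⊔ W₂) => 1 - (p.1.1 w : ℂ) - (p.1.2 w : ℂ) + (p.1.1 w : ℂ) * (p.1.2 w : ℂ)) := by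
  classical
  let _ : Fintype ↥(W₁ ⊔ W₂) := Fintype.ofFinite _
  refine ⟨fun φ ψ hφ hψ w hw => alphaFun_eq_zero_of_mem φ ψ hφ hψ w hw, ?_⟩
  rw [linearIndependent_iff']
  intro s g hg i hi
  obtain ⟨⟨φ₀, ψ₀⟩, h1, h2, h3, h4⟩ := i
  simp only at h1 h2 h3 h4
  have hone : ∀ w : ↥(W₁ ⊔ W₂), (1 : ↥(W₁ ⊔ W₂) →* ℂˣ) w = 1 := fun w => rfl
  have key : ∀ j : {p : (↥(W₁ ⊔ W₂) →* ℂˣ) × (↥(W₁ ⊔ W₂) →* ℂˣ) // p.1 ≠ 1 ∧ p.2 ≠ 1 ∧ (∀ w : ↥(W₁ ⊔ W₂), (w : G) ∈ W₂ → p.1 w = 1) ∧ (∀ w : ↥(W₁ ⊔ W₂), (w : G) ∈ W₁ → p.2 w = 1)},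
      classInner (alphaFun j.1.1 j.1.2) (homFun (φ₀ * ψ₀)) = if j = ⟨⟨φ₀, ψ₀⟩, h1, h2, h3, h4⟩ then 1 else 0 := by
    rintro ⟨⟨φ, ψ⟩, k1, k2, k3, k4⟩
    simp only at k1 k2 k3 k4
    simp only
    rw [classInner_alphaFun_left, classInner_homFun, classInner_homFun, classInner_homFun,
      classInner_homFun]
    have e1 : (1 : ↥(W₁ ⊔ W₂) →* ℂˣ) ≠ φ₀ * ψ₀ := by
      intro h
      have h' : (1 : ↥(W₁ ⊔ W₂) →* ℂˣ) * 1 = φ₀ * ψ₀ := by rw [← h]; ext; simp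
      exact h1 ((mul_eq_mul_iff hcomm 1 φ₀ 1 ψ₀ (fun w _ => hone w) h3 (fun w _ => hone w) h4).mp h').1.symm
    have e2 : φ ≠ φ₀ * ψ₀ := by
      intro h
      have h' : φ * 1 = φ₀ * ψ₀ := by rw [← h]; ext; simp
      exact h2 ((mul_eq_mul_iff hcomm φ φ₀ 1 ψ₀ k3 h3 (fun w _ => hone w) h4).mp h').2.symm
    have e3 : ψ ≠ φ₀ * ψ₀ := by
      intro h
      have h' : 1 * ψ = φ₀ * ψ₀ := by rw [← h]; ext; simp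
      exact h1 ((mul_eq_mul_iff hcomm 1 φ₀ ψ ψ₀ (fun w _ => hone w) h3 k4 h4).mp h').1.symm
    rw [if_neg e1, if_neg e2, if_neg e3]
    have e4 := mul_eq_mul_iff hcomm φ φ₀ ψ ψ₀ k3 h3 k4 h4
    by_cases h : φ = φ₀ ∧ ψ = ψ₀
    · obtain ⟨rfl, rfl⟩ := h
      simp
    · rw [if_neg (fun h' => h (e4.mp h')), if_neg]
      · simp
      · intro h'
        apply h
        have := congrArg Subtype.val h'
        simp only [Prod.mk.injEq] at this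
        exact this
  have h5 := congrArg (fun f => classInner f (homFun (φ₀ * ψ₀))) hg
  simp only [classInner_sum_left, classInner_smul_left, classInner_zero_left] at h5
  have h6 : ∀ j ∈ s, g j * classInner (fun w : ↥(W₁ ⊔ W₂) => 1 - (j.1.1 w : ℂ) - (j.1.2 w : ℂ) + (j.1.1 w : ℂ) * (j.1.2 w : ℂ)) (homFun (φ₀ * ψ₀)) = if j = ⟨⟨φ₀, ψ₀⟩, h1, h2, h3, h4⟩ then g j else 0 := by
    intro j _
    have := key j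
    unfold alphaFun at this
    rw [this]
    split_ifs <;> simp
  rw [Finset.sum_congr rfl h6, Finset.sum_ite_eq' s _ g, if_pos hi] at h5
  exact h5

end Cfsg.Agent.S1504
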