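import Cfsg.Statements.S1505
import Mathlib
import Cfsg.Agent.Lib.Helper11.CyclicTI2
import Cfsg.Agent.Lib.Helper11.GenChar
-- import your own Cfsg.Agent.* helpers here

set_option autoImplicit false
open Cfsg

namespace Cfsg.Agent.S1505

open Cfsg.Agent.Lib.Helper7 Cfsg.Agent.Lib.Helper11

open Classical in
/-- Let W₁, W₂ ≤ G form a self-normalising cyclic subgroup W = W₁ ⊔ W₂. For nontrivial linear characters φ, φ' of W trivial on W₂ and ψ, ψ' trivial on W₁, put α = (1 − φ)(1 − ψ) and α' = (1 − φ')(1 − ψ'). Then the function induced from α to G has inner product 1 with the principal character, and the inner product of the functions induced from α and α' is 1 + a + b + ab where a = 1 if φ = φ' (else 0) and b = 1 if ψ = ψ' (else 0). -/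
theorem result {G : Type*} [Group G] [Fintype G] (W₁ W₂ : Subgroup G) (hW : Cfsg.IsSelfNormalizingCyclic W₁ W₂) (φ φ' ψ ψ' : ↥(W₁ ⊔ W₂) →* ℂˣ) (hφ : φ ≠ 1) (hφ' : φ' ≠ 1) (hψ : ψ ≠ 1) (hψ' : ψ' ≠ 1) (hφ₂ : ∀ w : ↥(W₁ ⊔ W₂), (w : G) ∈ W₂ → φ w = 1 ∧ φ' w = 1) (hψ₁ : ∀ w : ↥(W₁ ⊔ W₂), (w : G) ∈ W₁ → ψ w = 1 ∧ ψ' w = 1) : Cfsg.classInner (Cfsg.indFun (W₁ ⊔ W₂) (fun w => 1 - (φ w : ℂ) - (ψ w : ℂ) + (φ w : ℂ) * (ψ w : ℂ))) (fun _ => 1) = 1 ∧ Cfsg.classInner (Cfsg.indFun (W₁ ⊔ W₂) (fun w => 1 - (φ w : ℂ) - (ψ w : ℂ) + (φ w : ℂ) * (ψ w : ℂ))) (Cfsg.indFun (W₁ ⊔ W₂) (fun w => 1 - (φ' w : ℂ) - (ψ' w : ℂ) + (φ' w : ℂ) * (ψ' w : ℂ))) = 1 + (if φ = φ' then 1 else 0) + (if ψ = ψ' then 1 else 0) + (if φ = φ' then 1 else 0) * (if ψ = ψ' then 1 else 0) := by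
  classical
  let _ : Fintype ↥(W₁ ⊔ W₂) := Fintype.ofFinite _
  have hcomm := hW.2.2.2.1
  have hone : ∀ w : ↥(W₁ ⊔ W₂), (1 : ↥(W₁ ⊔ W₂) →* ℂˣ) w = 1 := fun w => rfl
  have m1 : ∀ f : ↥(W₁ ⊔ W₂) →* ℂˣ, f * 1 = f := fun f => by ext; simp
  have m2 : ∀ f : ↥(W₁ ⊔ W₂) →* ℂˣ, 1 * f = f := fun f => by ext; simp
  have a1 : ∀ w : ↥(W₁ ⊔ W₂), (w : G) ∈ W₂ → φ w = 1 := fun w hw => (hφ₂ w hw).1
  have a2 : ∀ w : ↥(W₁ ⊔ W₂), (w : G) ∈ W₂ → φ' w = 1 := fun w hw => (hφ₂ w hw).2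
  have b1 : ∀ w : ↥(W₁ ⊔ W₂), (w : G) ∈ W₁ → ψ w = 1 := fun w hw => (hψ₁ w hw).1
  have b2 : ∀ w : ↥(W₁ ⊔ W₂), (w : G) ∈ W₁ → ψ' w = 1 := fun w hw => (hψ₁ w hw).2
  have o1 : ∀ w : ↥(W₁ ⊔ W₂), (w : G) ∈ W₂ → (1 : ↥(W₁ ⊔ W₂) →* ℂˣ) w = 1 := fun w _ => hone w
  have o2 : ∀ w : ↥(W₁ ⊔ W₂), (w : G) ∈ W₁ → (1 : ↥(W₁ ⊔ W₂) →* ℂˣ) w = 1 := fun w _ => hone w
  -- general comparison
  have cmp : ∀ f f' g g' : ↥(W₁ ⊔ W₂) →* ℂˣ, (∀ w : ↥(W₁ ⊔ W₂), (w : G) ∈ W₂ → f w = 1) →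
      (∀ w : ↥(W₁ ⊔ W₂), (w : G) ∈ W₂ → f' w = 1) → (∀ w : ↥(W₁ ⊔ W₂), (w : G) ∈ W₁ → g w = 1) →
      (∀ w : ↥(W₁ ⊔ W₂), (w : G) ∈ W₁ → g' w = 1) →
      classInner (homFun (f * g)) (homFun (f' * g')) =
        (if f = f' then 1 else 0) * (if g = g' then 1 else 0) := by
    intro f f' g g' h1 h2 h3 h4
    rw [classInner_homFun]
    have := mul_eq_mul_iff hcomm f f' g g' h1 h2 h3 h4
    by_cases e1 : f = f' <;> by_cases e2 : g = g' <;> simp [this, e1, e2]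
  constructor
  · rw [Cfsg.Agent.Lib.Helper2.frobenius_reciprocity _ _ _ (fun _ _ => rfl)]
    have e : (fun h : ↥(W₁ ⊔ W₂) => (fun _ : G => (1 : ℂ)) (h : G)) = homFun (1 * 1) := by
      ext w; simp [homFun]
    rw [e]
    change classInner (alphaFun φ ψ) _ = 1
    rw [classInner_alphaFun_left]
    have c1 := cmp 1 1 1 1 o1 o1 o2 o2
    have c2 := cmp φ 1 1 1 a1 o1 o2 o2
    have c3 := cmp 1 1 ψ 1 o1 o1 b1 o2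
    have c4 := cmp φ 1 ψ 1 a1 o1 b1 o2
    rw [m1] at c2
    rw [m2 ψ] at c3
    rw [m1 1] at c1 c2 c3 c4 ⊢
    rw [c1, c2, c3, c4]
    simp [hφ, hψ]
  · change classInner (indFun _ (alphaFun φ ψ)) (indFun _ (alphaFun φ' ψ')) = _
    rw [snc_isometry hW _ _ (alphaFun_eq_zero_of_mem φ ψ a1 b1) (alphaFun_eq_zero_of_mem φ' ψ' a2 b2)]
    rw [classInner_alphaFun_left]
    simp only [classInner_alphaFun_right]
    have c := fun f f' g g' h1 h2 h3 h4 => cmp f f' g g' h1 h2 h3 h4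
    have d11 := c 1 1 1 1 o1 o1 o2 o2
    have d12 := c 1 φ' 1 1 o1 a2 o2 o2
    have d13 := c 1 1 1 ψ' o1 o1 o2 b2
    have d14 := c 1 φ' 1 ψ' o1 a2 o2 b2
    have d21 := c φ 1 1 1 a1 o1 o2 o2
    have d22 := c φ φ' 1 1 a1 a2 o2 o2
    have d23 := c φ 1 1 ψ' a1 o1 o2 b2
    have d24 := c φ φ' 1 ψ' a1 a2 o2 b2
    have d31 := c 1 1 ψ 1 o1 o1 b1 o2
    have d32 := c 1 φ' ψ 1 o1 a2 b1 o2
    have d33 := c 1 1 ψ ψ' o1 o1 b1 b2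
    have d34 := c 1 φ' ψ ψ' o1 a2 b1 b2
    have d41 := c φ 1 ψ 1 a1 o1 b1 o2
    have d42 := c φ φ' ψ 1 a1 a2 b1 o2
    have d43 := c φ 1 ψ ψ' a1 o1 b1 b2
    have d44 := c φ φ' ψ ψ' a1 a2 b1 b2
    simp only [m1, m2] at d11 d12 d13 d14 d21 d22 d23 d24 d31 d32 d33 d34 d41 d42 d43 d44
    rw [d11, d12, d13, d14, d21, d22, d23, d24, d31, d32, d33, d34, d41, d42, d43, d44]
    simp only [hφ, hψ, hφ'.symm, hψ'.symm, if_true, if_false]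
    ring_nf

end Cfsg.Agent.S1505
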