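import Cfsg.Statements.S1507
import Mathlib
import Cfsg.Agent.Lib.Helper11.CyclicTI3
import Cfsg.Agent.S1506
-- import your own Cfsg.Agent.* helpers here

set_option autoImplicit false
open Cfsg

namespace Cfsg.Agent.S1507

open Cfsg.Agent.Lib.Helper7 Cfsg.Agent.Lib.Helper11

open Classical in
/-- Let W₁, W₂ ≤ G form a self-normalising cyclic subgroup W = W₁ ⊔ W₂ of odd order with Nat.card W₁ < Nat.card W₂, and χ an orthonormal family of irreducible characters of G up to sign, indexed by the linear characters ω of W, with χ_1 = 1, χ_ω = ω on W outside W₁ ∪ W₂, and the induction identity for (1 − φ)(1 − ψ). Let θ be a class function of G vanishing on W outside W₁ ∪ W₂, and suppose fewer than 2 · Nat.card W₁ linear characters ω of W have ⟨θ, χ ω⟩ ≠ 0. Then one of: all ⟨θ, χ ω⟩ vanish; or there are ψ₀ and a with ⟨θ, χ ω⟩ = a when ω ψ₀⁻¹ is trivial on W₂ and 0 otherwise; or there are φ₀ and a with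 ⟨θ, χ ω⟩ = a when ω φ₀⁻¹ is trivial on W₁ and 0 otherwise. -/
theorem result {G : Type*} [Group G] [Fintype G] (W₁ W₂ : Subgroup G) (hW : Cfsg.IsSelfNormalizingCyclic W₁ W₂) (hodd : Odd (Nat.card ↥(W₁ ⊔ W₂))) (χ : (↥(W₁ ⊔ W₂) →* ℂˣ) → (G → ℂ)) (hχ : Cfsg.IsCyclicTIFamily W₁ W₂ χ) (hlt : Nat.card W₁ < Nat.card W₂) (θ : G → ℂ) (hθ : Cfsg.IsClassFunction G θ) (hθV : ∀ w : ↥(W₁ ⊔ W₂), (w : G) ∉ W₁ → (w : G) ∉ W₂ → θ w = 0) (hfew : Nat.card {ω : ↥(W₁ ⊔ W₂) →* ℂˣ // Cfsg.classInner θ (χ ω) ≠ 0} < 2 * Nat.card W₁) : (∀ ω, Cfsg.classInner θ (χ ω) = 0) ∨ (∃ (ψ₀ : ↥(W₁ ⊔ W₂) →* ℂˣ) (a : ℂ), ∀ ω, Cfsg.classInner θ (χ ω) = if (∀ w : ↥(W₁ ⊔ W₂), (w : G) ∈ W₂ → (ω * ψ₀⁻¹) w = 1) then a else 0) ∨ (∃ (φ₀ : ↥(W₁ ⊔ W₂) →* ℂˣ) (a : ℂ), ∀ ω, Cfsg.classInner θ (χ ω) = if (∀ w : ↥(W₁ ⊔ W₂), (w : G) ∈ W₁ → (ω * φ₀⁻¹) w = 1) then a else 0) := by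
  classical
  have hdisj := hW.2.2.1
  have hcomm := hW.2.2.2.1
  have hc := comm_of_snc hW
  let I := {φ : ↥(W₁ ⊔ W₂) →* ℂˣ // ∀ w : ↥(W₁ ⊔ W₂), (w : G) ∈ W₂ → φ w = 1}
  let J := {φ : ↥(W₁ ⊔ W₂) →* ℂˣ // ∀ w : ↥(W₁ ⊔ W₂), (w : G) ∈ W₁ → φ w = 1}
  let _ : Fintype I := Fintype.ofFinite _
  let _ : Fintype J := Fintype.ofFinite _
  let _ : Fintype (↥(W₁ ⊔ W₂) →* ℂˣ) := Fintype.ofFinite _
  have hI : Fintype.card I = Nat.card W₁ := by
    rw [← Nat.card_eq_fintype_card]; exact card_hom_trivial_right hdisj hcomm hc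
  have hJ : Fintype.card J = Nat.card W₂ := by
    rw [← Nat.card_eq_fintype_card]; exact card_hom_trivial_left hdisj hcomm hc
  have hbij := hom_mul_bijective hdisj hcomm hc
  let e : I × J ≃ (↥(W₁ ⊔ W₂) →* ℂˣ) := Equiv.ofBijective _ hbij
  have he : ∀ p : I × J, e p = p.1.1 * p.2.1 := fun p => rfl
  let A : I → J → ℂ := fun i j => classInner θ (χ (i.1 * j.1))
  have hA : ∀ i i' j j', A i j + A i' j' = A i j' + A i' j := by
    intro i i' j j'
    exact Cfsg.Agent.S1506.result W₁ W₂ hW χ hχ θ hθ hθV i.1 i'.1 j.1 j'.1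
      (fun w hw => ⟨i.2 w hw, i'.2 w hw⟩) (fun w hw => ⟨j.2 w hw, j'.2 w hw⟩)
  have hcard : Fintype.card I + 2 ≤ Fintype.card J := by
    rw [hI, hJ]
    rw [card_sup_eq hdisj hcomm, Nat.odd_mul] at hodd
    obtain ⟨⟨a, ha⟩, ⟨b, hb⟩⟩ := hodd
    omega
  have hfew' : (Finset.univ.filter (fun p : I × J => A p.1 p.2 ≠ 0)).card < 2 * Fintype.card I := by
    rw [hI]
    refine lt_of_le_of_lt (le_of_eq ?_) hfew
    rw [← Fintype.card_subtype, ← Nat.card_eq_fintype_card]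
    exact Nat.card_congr (e.subtypeEquiv (fun p => Iff.rfl))
  have hsurj : ∀ ω, ∃ i : I, ∃ j : J, ω = i.1 * j.1 := by
    intro ω
    obtain ⟨p, hp⟩ := e.surjective ω
    exact ⟨p.1, p.2, hp.symm⟩
  rcases matrix_lemma A hA hcard _ (fun p => by simp) hfew' with h | ⟨j₀, a, h⟩ | ⟨i₀, a, h⟩
  · left
    intro ω
    obtain ⟨i, j, rfl⟩ := hsurj ω
    exact h i j
  · right; left
    refine ⟨j₀.1, a, fun ω => ?_⟩
    obtain ⟨i, j, rfl⟩ := hsurj ω
    have hiff : (∀ w : ↥(W₁ ⊔ W₂), (w : G) ∈ W₂ → (i.1 * j.1 * j₀.1⁻¹) w = 1) ↔ j = j₀ := by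
      constructor
      · intro hh
        apply Subtype.ext
        apply hom_ext_sup hcomm
        · intro w hw
          rw [j.2 w hw, j₀.2 w hw]
        · intro w hw
          have := hh w hw
          simp only [MonoidHom.mul_apply, MonoidHom.inv_apply, i.2 w hw, one_mul] at this
          exact mul_inv_eq_one.mp this
      · rintro rfl w hw
        simp [i.2 w hw]
    by_cases hj : j = j₀
    · rw [if_pos (hiff.mpr hj)]; exact (h i j).1 hj
    · rw [if_neg (fun hh => hj (hiff.mp hh))]; exact (h i j).2 hj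
  · right; right
    refine ⟨i₀.1, a, fun ω => ?_⟩
    obtain ⟨i, j, rfl⟩ := hsurj ω
    have hiff : (∀ w : ↥(W₁ ⊔ W₂), (w : G) ∈ W₁ → (i.1 * j.1 * i₀.1⁻¹) w = 1) ↔ i = i₀ := by
      constructor
      · intro hh
        apply Subtype.ext
        apply hom_ext_sup hcomm
        · intro w hw
          have := hh w hw
          simp only [MonoidHom.mul_apply, MonoidHom.inv_apply, j.2 w hw, mul_one] at this
          exact mul_inv_eq_one.mp this
        · intro w hw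
          rw [i.2 w hw, i₀.2 w hw]
      · rintro rfl w hw
        simp [j.2 w hw]
    by_cases hi : i = i₀
    · rw [if_pos (hiff.mpr hi)]; exact (h i j).1 hi
    · rw [if_neg (fun hh => hi (hiff.mp hh))]; exact (h i j).2 hi

end Cfsg.Agent.S1507
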