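import Cfsg.Statements.S1508
import Mathlib
import Cfsg.Agent.Lib.Helper11.CyclicTI4
-- import your own Cfsg.Agent.* helpers here

set_option autoImplicit false
open Cfsg

namespace Cfsg.Agent.S1508

open Cfsg.Agent.Lib.Helper7 Cfsg.Agent.Lib.Helper11

/-- Let W₁, W₂ ≤ G form a self-normalising cyclic subgroup W = W₁ ⊔ W₂ of odd order and χ an orthonormal family of irreducible characters of G up to sign, indexed by the linear characters ω of W, with χ_1 = 1, χ_ω = ω on W outside W₁ ∪ W₂, and the induction identity for (1 − φ)(1 − ψ). Let ω be a linear character of W and g an element of G whose order is coprime to the order of ω. Then χ ω g is an integer. -/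
theorem result {G : Type*} [Group G] [Fintype G] (W₁ W₂ : Subgroup G) (hW : Cfsg.IsSelfNormalizingCyclic W₁ W₂) (hodd : Odd (Nat.card ↥(W₁ ⊔ W₂))) (χ : (↥(W₁ ⊔ W₂) →* ℂˣ) → (G → ℂ)) (hχ : Cfsg.IsCyclicTIFamily W₁ W₂ χ) (ω : ↥(W₁ ⊔ W₂) →* ℂˣ) (g : G) (hg : Nat.Coprime (orderOf g) (orderOf ω)) : ∃ n : ℤ, χ ω g = n := by
  classical
  have hc := comm_of_snc hW
  have hfix : ∀ m : ℕ, m.Coprime (Nat.card G) → χ ω (g ^ m) = χ ω g := by
    intro m hm
    have hoω : orderOf ω ∣ Nat.card G := by
      refine (orderOf_dvd_natCard ω).trans ?_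
      rw [card_hom hc]
      exact Subgroup.card_subgroup_dvd_card _
    obtain ⟨m', h1, h2, h3⟩ := exists_coprime_modEq (N := Nat.card G) Nat.card_pos.ne'
      (orderOf_dvd_natCard g) hoω hg (hm.coprime_dvd_right (orderOf_dvd_natCard g))
    have e1 : g ^ m = g ^ m' := pow_eq_pow_iff_modEq.mpr h2.symm
    have e2 : ω ^ m' = ω := by
      have h4 := (pow_eq_pow_iff_modEq (x := ω) (n := m') (m := 1)).mpr h3
      rw [pow_one] at h4
      exact h4
    rw [e1, cyclicTI_galois hW hodd hχ h1, e2]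
  rcases hχ.irr_or_neg ω with h | h
  · exact int_of_pow_coprime_fixed (isCharacter_of_irr h) g hfix
  · obtain ⟨n, hn⟩ := int_of_pow_coprime_fixed (isCharacter_of_irr h) g (fun m hm => by
      simp only [Pi.neg_apply, hfix m hm])
    refine ⟨-n, ?_⟩
    simp only [Pi.neg_apply] at hn
    push_cast
    rw [← hn, neg_neg]

end Cfsg.Agent.S1508
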