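import Cfsg.Statements.S1509
import Cfsg.Agent.Lib.Helper11.GenChar

set_option autoImplicit false
open Cfsg

namespace Cfsg.Agent.S1509

open Cfsg.Agent.Lib.Helper7 Cfsg.Agent.Lib.Helper11

theorem signed_inner {X : Type*} [Group X] [Fintype X] (α γ : X → ℂ)
    (hα : Cfsg.IsIrrCharacter X α ∨ Cfsg.IsIrrCharacter X (-α))
    (hγ : Cfsg.IsIrrCharacter X γ ∨ Cfsg.IsIrrCharacter X (-γ)) :
    Cfsg.classInner α γ = 0 ∨ ∃ s : ℂ, (s = 1 ∨ s = -1) ∧ α = s • γ ∧ Cfsg.classInner α γ = s := by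
  classical
  rcases hα with hα | hα <;> rcases hγ with hγ | hγ
  · have := classInner_irr hα hγ
    by_cases h : α = γ
    · right; exact ⟨1, Or.inl rfl, by simp [h], by rw [this, if_pos h]⟩
    · left; rw [this, if_neg h]
  · have := classInner_irr hα hγ
    rw [classInner_neg_right] at this
    by_cases h : α = -γ
    · right
      refine ⟨-1, Or.inr rfl, by simp [h], ?_⟩
      rw [if_pos h] at this
      rw [← this]; ring
    · left
      rw [if_neg h] at this
      simpa using this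
  · have := classInner_irr hα hγ
    rw [classInner_neg_left] at this
    by_cases h : -α = γ
    · right
      refine ⟨-1, Or.inr rfl, by simp [← h], ?_⟩
      rw [if_pos h] at this
      rw [← this]; ring
    · left
      rw [if_neg h] at this
      simpa using this
  · have := classInner_irr hα hγ
    rw [classInner_neg_left, classInner_neg_right, neg_neg] at this
    by_cases h : -α = -γ
    · right
      exact ⟨1, Or.inl rfl, by simpa using h, by rw [this, if_pos h]⟩
    · left; rw [this, if_neg h]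

theorem signed_one_ne_zero {X : Type*} [Group X] (δ : X → ℂ)
    (hδ : Cfsg.IsIrrCharacter X δ ∨ Cfsg.IsIrrCharacter X (-δ)) : δ 1 ≠ 0 := by
  rcases hδ with h | h
  · exact irr_apply_one_ne_zero h
  · have := irr_apply_one_ne_zero h
    simpa using this

theorem key {X : Type*} [Group X] [Fintype X] (α β γ δ : X → ℂ) (hα : Cfsg.IsIrrCharacter X α ∨ Cfsg.IsIrrCharacter X (-α)) (hβ : Cfsg.IsIrrCharacter X β ∨ Cfsg.IsIrrCharacter X (-β)) (hγ : Cfsg.IsIrrCharacter X γ ∨ Cfsg.IsIrrCharacter X (-γ)) (hδ : Cfsg.IsIrrCharacter X δ ∨ Cfsg.IsIrrCharacter X (-δ)) (u v : ℝ) (hu : u ≠ 0) (hv : v ≠ 0) (hab : Cfsg.classInner α β = 0) (hcd : Cfsg.classInner γ δ = 0) (hmix : Cfsg.classInner (α - β) ((u : ℂ) • γ - (v : ℂ) • δ) = 0) (h1 : α 1 = β 1) (h2 : (u : ℂ) * γ 1 = (v : ℂ) * δ 1) : Cfsg.classInner α γ = 0 := by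
  rcases signed_inner α γ hα hγ with h | ⟨s, hs, hαγ, hx1⟩
  · exact h
  exfalso
  have hs2 : s * s = 1 := by rcases hs with rfl | rfl <;> norm_num
  have hx2 : Cfsg.classInner α δ = 0 := by
    rw [hαγ, classInner_smul_left, hcd, mul_zero]
  have hba : Cfsg.classInner β α = 0 := by
    rw [← classInner_conj_symm, hab, map_zero]
  have hx3 : Cfsg.classInner β γ = 0 := by
    have hγα : γ = s • α := by
      rw [hαγ, smul_smul, hs2, one_smul]
    rw [hγα, classInner_smul_right, hba, mul_zero]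
  rw [classInner_sub_left, classInner_sub_right, classInner_sub_right, classInner_smul_right,
    classInner_smul_right, classInner_smul_right, classInner_smul_right, hx1, hx2, hx3] at hmix
  simp only [Complex.conj_ofReal, mul_zero, sub_zero, zero_sub, sub_neg_eq_add] at hmix
  have huC : (u : ℂ) ≠ 0 := Complex.ofReal_ne_zero.mpr hu
  have hvC : (v : ℂ) ≠ 0 := Complex.ofReal_ne_zero.mpr hv
  have hs0 : s ≠ 0 := by rcases hs with rfl | rfl <;> norm_num
  rcases signed_inner β δ hβ hδ with h | ⟨t, ht, hβδ, hx4⟩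
  · rw [h, mul_zero, add_zero] at hmix
    exact (mul_ne_zero huC hs0) hmix
  rw [hx4] at hmix
  have ht2 : t * t = 1 := by rcases ht with rfl | rfl <;> norm_num
  have ht0 : t ≠ 0 := by rcases ht with rfl | rfl <;> norm_num
  have hδ1 := signed_one_ne_zero δ hδ
  have e1 : s * γ 1 = t * δ 1 := by
    have := h1
    rw [hαγ, hβδ] at this
    simpa using this
  -- γ 1 = s t δ 1
  have e2 : γ 1 = s * t * δ 1 := by
    calc γ 1 = (s * s) * γ 1 := by rw [hs2, one_mul]
      _ = s * (s * γ 1) := by ring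
      _ = s * t * δ 1 := by rw [e1]; ring
  rw [e2] at h2
  have e3 : (u : ℂ) * (s * t) = v := by
    apply mul_right_cancel₀ hδ1
    rw [← h2]; ring
  have e4 : (u : ℂ) * s = v * t := by
    calc (u : ℂ) * s = (u : ℂ) * s * (t * t) := by rw [ht2, mul_one]
      _ = ((u : ℂ) * (s * t)) * t := by ring
      _ = v * t := by rw [e3]
  rw [e4] at hmix
  have : (v : ℂ) * t = 0 := by linear_combination hmix / 2
  exact (mul_ne_zero hvC ht0) this

/-- Let α, β, γ, δ be functions on a finite group X each of which is an irreducible character or the negative of one, and u, v nonzero real numbers. Suppose ⟨α, β⟩ = ⟨γ, δ⟩ = 0, ⟨α − β, uγ − vδ⟩ = 0, α 1 = β 1 and u γ 1 = v δ 1. Then also ⟨α, γ⟩ = ⟨α, δ⟩ = ⟨β, γ⟩ = ⟨β, δ⟩ = 0. -/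
theorem result {X : Type*} [Group X] [Fintype X] (α β γ δ : X → ℂ) (hα : Cfsg.IsIrrCharacter X α ∨ Cfsg.IsIrrCharacter X (-α)) (hβ : Cfsg.IsIrrCharacter X β ∨ Cfsg.IsIrrCharacter X (-β)) (hγ : Cfsg.IsIrrCharacter X γ ∨ Cfsg.IsIrrCharacter X (-γ)) (hδ : Cfsg.IsIrrCharacter X δ ∨ Cfsg.IsIrrCharacter X (-δ)) (u v : ℝ) (hu : u ≠ 0) (hv : v ≠ 0) (hab : Cfsg.classInner α β = 0) (hcd : Cfsg.classInner γ δ = 0) (hmix : Cfsg.classInner (α - β) ((u : ℂ) • γ - (v : ℂ) • δ) = 0) (h1 : α 1 = β 1) (h2 : (u : ℂ) * γ 1 = (v : ℂ) * δ 1) : Cfsg.classInner α γ = 0 ∧ Cfsg.classInner α δ = 0 ∧ Cfsg.classInner β γ = 0 ∧ Cfsg.classInner β δ = 0 := by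
  have hba : Cfsg.classInner β α = 0 := by
    rw [← classInner_conj_symm, hab, map_zero]
  have hdc : Cfsg.classInner δ γ = 0 := by
    rw [← classInner_conj_symm, hcd, map_zero]
  have m1 : Cfsg.classInner (α - β) ((v : ℂ) • δ - (u : ℂ) • γ) = 0 := by
    have : (v : ℂ) • δ - (u : ℂ) • γ = -((u : ℂ) • γ - (v : ℂ) • δ) := by abel
    rw [this, classInner_neg_right, hmix, neg_zero]
  have m2 : Cfsg.classInner (β - α) ((u : ℂ) • γ - (v : ℂ) • δ) = 0 := by
    have : β - α = -(α - β) := by abel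
    rw [this, classInner_neg_left, hmix, neg_zero]
  have m3 : Cfsg.classInner (β - α) ((v : ℂ) • δ - (u : ℂ) • γ) = 0 := by
    have : β - α = -(α - β) := by abel
    rw [this, classInner_neg_left, m1, neg_zero]
  exact ⟨key α β γ δ hα hβ hγ hδ u v hu hv hab hcd hmix h1 h2,
    key α β δ γ hα hβ hδ hγ v u hv hu hab hdc m1 h1 h2.symm,
    key β α γ δ hβ hα hγ hδ u v hu hv hba hcd m2 h1.symm h2,
    key β α δ γ hβ hα hδ hγ v u hv hu hba hdc m3 h1.symm h2.symm⟩

end Cfsg.Agent.S1509
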