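import Cfsg.Statements.S1510
import Mathlib

set_option autoImplicit false
open Cfsg

namespace Cfsg.Agent.S1510

open scoped Pointwise

/-- two commuting cyclic subgroups of coprime orders generate a cyclic group -/
theorem isCyclic_sup {L : Type*} [Group L] [Finite L] (W₁ W₂ : Subgroup L) (h1 : IsCyclic W₁) (h2 : IsCyclic W₂)
    (hcomm : ∀ a ∈ W₁, ∀ b ∈ W₂, a * b = b * a) (hcop : Nat.Coprime (Nat.card W₁) (Nat.card W₂)) :
    IsCyclic ↥(W₁ ⊔ W₂) := by
  obtain ⟨g1, hg1⟩ := h1.exists_generator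
  obtain ⟨g2, hg2⟩ := h2.exists_generator
  have o1 : orderOf (g1 : L) = Nat.card W₁ := by
    rw [Subgroup.orderOf_coe]; exact orderOf_eq_card_of_forall_mem_zpowers hg1
  have o2 : orderOf (g2 : L) = Nat.card W₂ := by
    rw [Subgroup.orderOf_coe]; exact orderOf_eq_card_of_forall_mem_zpowers hg2
  have hc : Commute (g1 : L) (g2 : L) := hcomm _ g1.2 _ g2.2
  have o12 : orderOf ((g1 : L) * g2) = Nat.card W₁ * Nat.card W₂ := by
    rw [hc.orderOf_mul_eq_mul_orderOf_of_coprime (by rw [o1, o2]; exact hcop), o1, o2]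
  have hmem : (g1 : L) * g2 ∈ W₁ ⊔ W₂ :=
    Subgroup.mul_mem _ (Subgroup.mem_sup_left g1.2) (Subgroup.mem_sup_right g2.2)
  have hnorm : W₂ ≤ Subgroup.normalizer (W₁ : Set L) := by
    rw [Subgroup.le_normalizer_iff]
    intro b hb a ha
    rw [← hcomm a ha b hb]
    simpa using ha
  have hcard : Nat.card ↥(W₁ ⊔ W₂) ≤ Nat.card W₁ * Nat.card W₂ := by
    rw [← Nat.card_prod]
    let f : W₁ × W₂ → ↥(W₁ ⊔ W₂) := fun z =>
      ⟨z.1 * z.2, Subgroup.mul_mem _ (Subgroup.mem_sup_left z.1.2) (Subgroup.mem_sup_right z.2.2)⟩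
    apply Nat.card_le_card_of_surjective f
    rintro ⟨w, hw⟩
    have hw' : w ∈ ((W₁ ⊔ W₂ : Subgroup L) : Set L) := hw
    rw [Subgroup.coe_mul_of_right_le_normalizer_left W₁ W₂ hnorm] at hw'
    obtain ⟨a, ha, b, hb, rfl⟩ := Set.mem_mul.mp hw'
    exact ⟨(⟨a, ha⟩, ⟨b, hb⟩), rfl⟩
  apply isCyclic_of_orderOf_eq_card (⟨(g1 : L) * g2, hmem⟩ : ↥(W₁ ⊔ W₂))
  apply le_antisymm (orderOf_le_card)
  rw [Subgroup.orderOf_mk, o12]
  exact hcard

/-- Let L be a finite group with a normal subgroup K and a nontrivial cyclic subgroup W₁ of order coprime to its index, K ⊓ W₁ = ⊥ and K ⊔ W₁ = ⊤; let W₂ ≠ ⊥ be a cyclic subgroup of K with K ⊓ C_L(x) = W₂ for every non-identity x ∈ W₁, and suppose W₁ ⊔ W₂ has odd order. Then (W₁, W₂) is a self-normalising cyclic pair in L. -/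
theorem result {L : Type*} [Group L] [Fintype L] (K W₁ W₂ : Subgroup L) [hK : K.Normal] (hKW₁ : K ⊓ W₁ = ⊥) (hKW₁' : K ⊔ W₁ = ⊤) (hW₁ : W₁ ≠ ⊥) (hW₁c : IsCyclic W₁) (hHall : Nat.Coprime (Nat.card W₁) W₁.index) (hW₂ : W₂ ≠ ⊥) (hW₂c : IsCyclic W₂) (hW₂K : W₂ ≤ K) (hC : ∀ x ∈ W₁, x ≠ 1 → K ⊓ Subgroup.centralizer ({x} : Set L) = W₂) (hodd : Odd (Nat.card ↥(W₁ ⊔ W₂))) : Cfsg.IsSelfNormalizingCyclic W₁ W₂ := by
  have hcomm : ∀ a ∈ W₁, ∀ b ∈ W₂, a * b = b * a := by
    intro a ha b hb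
    by_cases ha1 : a = 1
    · simp [ha1]
    · rw [← hC a ha ha1] at hb
      have := (Subgroup.mem_inf.mp hb).2
      rw [Subgroup.mem_centralizer_singleton_iff] at this
      exact this.symm
  have hmul : ((K : Set L) * (W₁ : Set L)) = Set.univ := by
    rw [← Subgroup.normal_mul, hKW₁']; rfl
  have hcompl : Subgroup.IsComplement' K W₁ :=
    Subgroup.isComplement'_of_disjoint_and_mul_eq_univ (disjoint_iff.mpr hKW₁) hmul
  have hidx : W₁.index = Nat.card K := hcompl.index_eq_card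
  have hcop : Nat.Coprime (Nat.card W₁) (Nat.card W₂) := by
    rw [hidx] at hHall
    exact Nat.Coprime.coprime_dvd_right (Subgroup.card_dvd_of_le hW₂K) hHall
  have hcyc : IsCyclic ↥(W₁ ⊔ W₂) := isCyclic_sup W₁ W₂ hW₁c hW₂c hcomm hcop
  have hWcomm : ∀ u ∈ W₁ ⊔ W₂, ∀ v ∈ W₁ ⊔ W₂, u * v = v * u := by
    intro u hu v hv
    have := (IsCyclic.isMulCommutative (α := ↥(W₁ ⊔ W₂))).is_comm.comm ⟨u, hu⟩ ⟨v, hv⟩
    exact congrArg Subtype.val this
  have hW₁comm : ∀ u ∈ W₁, ∀ v ∈ W₁, u * v = v * u := fun u hu v hv =>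
    hWcomm u (Subgroup.mem_sup_left hu) v (Subgroup.mem_sup_left hv)
  have hnorm : W₂ ≤ Subgroup.normalizer (W₁ : Set L) := by
    rw [Subgroup.le_normalizer_iff]
    intro b hb a ha
    rw [← hcomm a ha b hb]
    simpa using ha
  have hdec : ∀ w ∈ W₁ ⊔ W₂, ∃ a ∈ W₁, ∃ b ∈ W₂, w = a * b := by
    intro w hw
    have hw' : w ∈ ((W₁ ⊔ W₂ : Subgroup L) : Set L) := hw
    rw [Subgroup.coe_mul_of_right_le_normalizer_left W₁ W₂ hnorm] at hw'
    obtain ⟨a, ha, b, hb, rfl⟩ := Set.mem_mul.mp hw'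
    exact ⟨a, ha, b, hb, rfl⟩
  obtain ⟨m, hm1, hm0⟩ := Nat.chineseRemainder hcop 1 0
  have hpow : ∀ a ∈ W₁, ∀ b ∈ W₂, (a * b) ^ m = a := by
    intro a ha b hb
    have hc : Commute a b := hcomm a ha b hb
    rw [hc.mul_pow]
    have h1 : b ^ m = 1 := by
      have hd : Nat.card W₂ ∣ m := (Nat.modEq_zero_iff_dvd).mp hm0
      have h2 : orderOf b ∣ Nat.card W₂ := by
        have := orderOf_dvd_natCard (⟨b, hb⟩ : W₂)
        rwa [Subgroup.orderOf_mk] at this
      exact orderOf_dvd_iff_pow_eq_one.mp (h2.trans hd)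
    have h2 : a ^ m = a := by
      have h2 : orderOf a ∣ Nat.card W₁ := by
        have := orderOf_dvd_natCard (⟨a, ha⟩ : W₁)
        rwa [Subgroup.orderOf_mk] at this
      have := pow_eq_pow_iff_modEq.mpr (hm1.of_dvd h2)
      simpa using this
    rw [h1, h2, mul_one]
  refine ⟨hW₁, hW₂, ?_, hcomm, hcyc, ?_⟩
  · apply le_bot_iff.mp
    rw [← hKW₁, inf_comm]
    exact inf_le_inf_right _ hW₂K
  · intro X hX hXne
    apply le_antisymm
    · intro g hg
      obtain ⟨x, hx⟩ := hXne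
      obtain ⟨hxW, hxn⟩ := hX hx
      obtain ⟨a, ha, b, hb, rfl⟩ := hdec x hxW
      have ha1 : a ≠ 1 := by
        rintro rfl
        apply hxn
        right
        simpa using hb
      have hgx : g * (a * b) * g⁻¹ ∈ X := (Subgroup.mem_set_normalizer_iff.mp hg _).mp hx
      obtain ⟨a', ha', b', hb', he⟩ := hdec _ (hX hgx).1
      have hga : g * a * g⁻¹ = a' := by
        rw [← hpow a ha b hb, ← conj_pow, he, hpow a' ha' b' hb']
      have hgu : g ∈ ((K : Set L) * (W₁ : Set L)) := hmul ▸ Set.mem_univ g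
      obtain ⟨k, hk, w, hw, rfl⟩ := Set.mem_mul.mp hgu
      have hka : k * a * k⁻¹ = a' := by
        rw [← hga]
        have : w * a * w⁻¹ = a := by rw [hW₁comm w hw a ha]; group
        calc k * a * k⁻¹ = k * (w * a * w⁻¹) * k⁻¹ := by rw [this]
          _ = k * w * a * (k * w)⁻¹ := by group
      have h3 : a' * a⁻¹ ∈ K ⊓ W₁ := by
        constructor
        · rw [← hka]
          have : k * a * k⁻¹ * a⁻¹ = k * (a * k⁻¹ * a⁻¹) := by group
          rw [this]
          exact K.mul_mem hk (hK.conj_mem _ (K.inv_mem hk) a)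
        · exact W₁.mul_mem ha' (W₁.inv_mem ha)
      rw [hKW₁, Subgroup.mem_bot] at h3
      have h4 : a' = a := by
        have := mul_inv_eq_one.mp h3
        exact this
      have hkW₂ : k ∈ W₂ := by
        rw [← hC a ha ha1]
        refine Subgroup.mem_inf.mpr ⟨hk, ?_⟩
        rw [Subgroup.mem_centralizer_singleton_iff]
        calc k * a = k * a * k⁻¹ * k := by group
          _ = a * k := by rw [hka, h4]
      exact Subgroup.mul_mem _ (Subgroup.mem_sup_right hkW₂) (Subgroup.mem_sup_left hw)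
    · intro w hw
      rw [Subgroup.mem_set_normalizer_iff]
      intro h
      constructor
      · intro hh
        have : w * h * w⁻¹ = h := by rw [hWcomm w hw h (hX hh).1]; group
        rw [this]; exact hh
      · intro hh
        have h5 := hWcomm w⁻¹ (Subgroup.inv_mem _ hw) _ (hX hh).1
        have : h = w * h * w⁻¹ := by
          calc h = w⁻¹ * (w * h * w⁻¹) * w := by group
            _ = (w * h * w⁻¹) * w⁻¹ * w := by rw [h5]
            _ = w * h * w⁻¹ := by group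
        rw [this]; exact hh

end Cfsg.Agent.S1510
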