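import Cfsg.Statements.S1512
import Cfsg.Agent.S1496

set_option autoImplicit false
open Cfsg

namespace Cfsg.Agent.S1512

/-- Let K be a normal subgroup of the finite group L and x a non-identity element whose order is coprime to the order of K, such that K ⊓ C_L(y) = W₂ for every non-identity element y of the cyclic group generated by x. Then the number of conjugacy classes of K mapped to themselves by conjugation by x is at most Nat.card W₂. -/
theorem result {L : Type*} [Group L] [Finite L] (K W₂ : Subgroup L) [hK : K.Normal] (x : L) (hx1 : x ≠ 1) (hx : Nat.Coprime (orderOf x) (Nat.card K)) (hC : ∀ y ∈ Subgroup.zpowers x, y ≠ 1 → K ⊓ Subgroup.centralizer ({y} : Set L) = W₂) : Nat.card {C : ConjClasses K // ConjClasses.map (MulEquiv.toMonoidHom ((MulAut.conjNormal x : MulAut K))) C = C} ≤ Nat.card W₂ := by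
  have hW : K ⊓ Subgroup.centralizer ({x} : Set L) = W₂ := hC x (Subgroup.mem_zpowers x) hx1
  have hWmem : ∀ w : L, w ∈ W₂ ↔ w ∈ K ∧ w * x = x * w := by
    intro w
    rw [← hW]
    show w ∈ K ∧ w ∈ Subgroup.centralizer {x} ↔ _
    rw [Subgroup.mem_centralizer_singleton_iff]
  let f : W₂ → {C : ConjClasses K // ConjClasses.map (MulEquiv.toMonoidHom ((MulAut.conjNormal x : MulAut K))) C = C} :=
    fun w => ⟨ConjClasses.mk ⟨w, ((hWmem _).mp w.2).1⟩, by
      show ConjClasses.mk ((MulAut.conjNormal x : MulAut K) ⟨w, ((hWmem _).mp w.2).1⟩) = _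
      congr 1
      apply Subtype.ext
      rw [MulAut.conjNormal_apply]
      show x * (w : L) * x⁻¹ = w
      rw [← ((hWmem _).mp w.2).2]
      group⟩
  apply Nat.card_le_card_of_surjective f
  rintro ⟨C, hCfix⟩
  obtain ⟨k, rfl⟩ := ConjClasses.exists_rep C
  have h1 : ConjClasses.mk ((MulAut.conjNormal x : MulAut K) k) = ConjClasses.mk k := hCfix
  rw [ConjClasses.mk_eq_mk_iff_isConj, isConj_iff] at h1
  obtain ⟨y, hy⟩ := h1
  have hy' : (y : L) * (x * k * x⁻¹) * (y : L)⁻¹ = k := by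
    have := congrArg Subtype.val hy
    simpa [MulAut.conjNormal_apply] using this
  -- y x commutes with k
  have hcomm : ((y : L) * x) * k = k * ((y : L) * x) := by
    calc ((y : L) * x) * k = ((y : L) * (x * k * x⁻¹) * (y : L)⁻¹) * ((y : L) * x) := by group
      _ = k * ((y : L) * x) := by rw [hy']
  have hxn : x ∈ Subgroup.normalizer (K : Set L) := by
    rw [Subgroup.normalizer_eq_top]; trivial
  obtain ⟨z, hz, c, hc, hcx, hzc⟩ := Cfsg.Agent.S1496.result K x hxn hx y y.2
  obtain ⟨m, hm⟩ := Cfsg.Agent.S1496.pow_trick K x hx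
  have hk' : z * k * z⁻¹ ∈ K := K.mul_mem (K.mul_mem hz k.2) (K.inv_mem hz)
  have hcomm2 : Commute (z * (k : L) * z⁻¹) (c * x) := by
    show z * (k : L) * z⁻¹ * (c * x) = (c * x) * (z * (k : L) * z⁻¹)
    rw [← hzc]
    calc z * (k : L) * z⁻¹ * (z * ((y : L) * x) * z⁻¹) = z * (k * ((y : L) * x)) * z⁻¹ := by group
      _ = z * (((y : L) * x) * k) * z⁻¹ := by rw [hcomm]
      _ = z * ((y : L) * x) * z⁻¹ * (z * (k : L) * z⁻¹) := by group
  have hcomm3 : Commute (z * (k : L) * z⁻¹) x := by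
    have := hcomm2.pow_right m
    rwa [hm c hc hcx] at this
  refine ⟨⟨z * k * z⁻¹, (hWmem _).mpr ⟨hk', hcomm3⟩⟩, ?_⟩
  apply Subtype.ext
  show ConjClasses.mk (⟨z * k * z⁻¹, hk'⟩ : K) = ConjClasses.mk k
  rw [ConjClasses.mk_eq_mk_iff_isConj, isConj_comm, isConj_iff]
  exact ⟨⟨z, hz⟩, rfl⟩

end Cfsg.Agent.S1512
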