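import Cfsg.Statements.S1513
import Cfsg.Agent.Lib.Helper2.CharMore
import Cfsg.Agent.Lib.Helper2.CharReg
import Cfsg.Agent.Lib.Helper2.CharInd
import Cfsg.Agent.Lib.Helper25.Glaub2
import Cfsg.Agent.Lib.Helper25.CycExt2
import Cfsg.Agent.Lib.Helper25.AbQuot
import Cfsg.Agent.Lib.Helper25.Gallagher

set_option autoImplicit false
open Cfsg

namespace Cfsg.Agent.S1513

open Cfsg.Agent.Lib.Helper2
open Cfsg.Agent.Lib
open scoped ComplexConjugate Pointwise

theorem cyc_comm {W : Type*} [Group W] (hc : IsCyclic W) (a b : W) : a * b = b * a :=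
  (isMulCommutative_iff.1 inferInstance) a b

theorem card_irr_cyclic {W : Type*} [Group W] [Finite W] (hc : IsCyclic W) :
    Nat.card (Cfsg.IrrCharacter W) = Nat.card W := by
  rw [card_irrCharacter]
  symm
  apply Nat.card_congr
  refine Equiv.ofBijective ConjClasses.mk ⟨?_, ConjClasses.mk_surjective⟩
  intro a b hab
  rw [ConjClasses.mk_eq_mk_iff_isConj, isConj_iff] at hab
  obtain ⟨c, hc'⟩ := hab
  rw [cyc_comm hc c a, mul_inv_cancel_right] at hc'
  exact hc'

/-- the stabilizer of a function on a normal subgroup -/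
def stab {L : Type*} [Group L] (K : Subgroup L) [hK : K.Normal] (θ : K → ℂ) : Subgroup L where
  carrier := {g | Helper25.conjFun K θ g = θ}
  one_mem' := Helper25.conjFun_one K θ
  mul_mem' := by
    intro a b ha hb
    show Helper25.conjFun K θ (a * b) = θ
    rw [← Helper25.conjFun_conjFun, show Helper25.conjFun K θ a = θ from ha]
    exact hb
  inv_mem' := by
    intro a ha
    show Helper25.conjFun K θ a⁻¹ = θ
    have h1 : Helper25.conjFun K (Helper25.conjFun K θ a) a⁻¹ = θ := by
      rw [Helper25.conjFun_conjFun, mul_inv_cancel, Helper25.conjFun_one]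
    rwa [show Helper25.conjFun K θ a = θ from ha] at h1

theorem mem_stab {L : Type*} [Group L] (K : Subgroup L) [hK : K.Normal] (θ : K → ℂ) (g : L) :
    g ∈ stab K θ ↔ Helper25.conjFun K θ g = θ := Iff.rfl

/-- Let L be a finite group with K normal with complement W₁ ≠ 1 a cyclic Hall subgroup, and W₂ ≠ 1 a cyclic subgroup of K equal to C_K(x) for every non-identity x ∈ W₁, with W₁W₂ of odd order. For an irreducible character θ of K: if θ is not fixed under conjugation by some element of W₁, then the function induced from θ to L is an irreducible character of L; and the irreducible characters of K fixed by all of W₁ are exactly Nat.card W₂ in number, each inducing to the sum of Nat.card W₁ pairwise distinct irreducible characters of L. -/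
theorem result {L : Type*} [Group L] [Fintype L] (K W₁ W₂ : Subgroup L) [hK : K.Normal] (hKW₁ : K ⊓ W₁ = ⊥) (hKW₁' : K ⊔ W₁ = ⊤) (hW₁ : W₁ ≠ ⊥) (hW₁c : IsCyclic W₁) (hHall : Nat.Coprime (Nat.card W₁) W₁.index) (hW₂ : W₂ ≠ ⊥) (hW₂c : IsCyclic W₂) (hW₂K : W₂ ≤ K) (hC : ∀ x ∈ W₁, x ≠ 1 → K ⊓ Subgroup.centralizer ({x} : Set L) = W₂) (hodd : Odd (Nat.card ↥(W₁ ⊔ W₂))) : (∀ θ : K → ℂ, Cfsg.IsIrrCharacter K θ → (∃ x ∈ W₁, (fun k : K => θ ⟨x * k * x⁻¹, hK.conj_mem (k : L) k.2 x⟩) ≠ θ) → Cfsg.IsIrrCharacter L (Cfsg.indFun K θ)) ∧ Nat.card {θ : Cfsg.IrrCharacter K // ∀ x ∈ W₁, (fun k : K => (θ : K → ℂ) ⟨x * k * x⁻¹, hK.conj_mem (k : L) k.2 x⟩) = θ} = Nat.card W₂ ∧ (∀ θ : K → ℂ, Cfsg.IsIrrCharacter K θ → (∀ x ∈ W₁, (fun k : K => θ ⟨x * k * x⁻¹, hK.conj_mem (k : L) k.2 x⟩) = θ) → ∃ C : Finset (L → ℂ), C.card = Nat.card W₁ ∧ (∀ μ ∈ C, Cfsg.IsIrrCharacter L μ) ∧ Cfsg.indFun K θ = ∑ μ ∈ C, μ) := by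
  classical
  have hfinI := finite_irrCharacter (G := K)
  have hmul : (K : Set L) * (W₁ : Set L) = Set.univ := by
    rw [← Subgroup.normal_mul K W₁, hKW₁']; rfl
  have hcompl : Subgroup.IsComplement' K W₁ :=
    Subgroup.isComplement'_of_disjoint_and_mul_eq_univ (disjoint_iff.2 hKW₁) hmul
  have hKcard : W₁.index = Nat.card K := hcompl.index_eq_card
  have hKidx : K.index = Nat.card W₁ := hcompl.symm.index_eq_card
  have hcop : (Nat.card K).Coprime (Nat.card W₁) := by rw [← hKcard]; exact hHall.symm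
  have hdecomp : ∀ g : L, ∃ k ∈ K, ∃ x ∈ W₁, g = k * x := by
    intro g
    have hg : g ∈ (K : Set L) * (W₁ : Set L) := by rw [hmul]; trivial
    obtain ⟨k, hk, x, hx, rfl⟩ := Set.mem_mul.1 hg
    exact ⟨k, hk, x, hx, rfl⟩
  have hKstab : ∀ θ : K → ℂ, Cfsg.IsIrrCharacter K θ → K ≤ stab K θ := by
    intro θ hθ k hk
    rw [mem_stab]
    funext h
    have h1 := IsCharacter.isClassFunction (IsIrrCharacter.isCharacter hθ) h ⟨k, hk⟩
    rw [Helper25.conjFun_apply, ← h1]
    rfl
  obtain ⟨y, hy⟩ := hW₁c.exists_generator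
  have hy1 : (y : L) ≠ 1 := by
    intro h
    apply hW₁
    rw [Subgroup.eq_bot_iff_forall]
    intro x hx
    obtain ⟨i, hi⟩ := Subgroup.mem_zpowers_iff.1 (hy ⟨x, hx⟩)
    have h2 : y = 1 := Subtype.ext h
    rw [h2, one_zpow] at hi
    exact (congrArg Subtype.val hi).symm
  have hW₁y : ∀ θ : K → ℂ, (y : L) ∈ stab K θ → W₁ ≤ stab K θ := by
    intro θ hθ x hx
    obtain ⟨i, hi⟩ := Subgroup.mem_zpowers_iff.1 (hy ⟨x, hx⟩)
    have h2 : x = (y : L) ^ i := by
      have := congrArg Subtype.val hi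
      simpa using this.symm
    rw [h2]
    exact (stab K θ).zpow_mem hθ i
  -- counting invariant characters
  have hcount : ∀ x ∈ W₁, x ≠ 1 →
      Nat.card {θ : Cfsg.IrrCharacter K // x ∈ stab K (θ : K → ℂ)} = Nat.card W₂ := by
    intro x hx hx1
    have hs : ∀ g ∈ K, x * g * x⁻¹ ∈ K := fun g hg => hK.conj_mem g hg x
    have hox : orderOf x ∣ Nat.card W₁ := by
      have h1 := orderOf_dvd_natCard (⟨x, hx⟩ : W₁)
      rwa [Subgroup.orderOf_mk] at h1
    have h1 := Helper25.card_irr_fixSub K x hs (hcop.coprime_dvd_right hox)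
    have h2 : Helper25.fixSub K x = W₂ := hC x hx hx1
    rw [h2, card_irr_cyclic hW₂c] at h1
    rw [← h1]
    apply Nat.card_congr
    apply Equiv.subtypeEquivRight
    intro θ
    rw [mem_stab]
    exact Iff.rfl
  have hkey : ∀ x ∈ W₁, x ≠ 1 → ∀ θ : Cfsg.IrrCharacter K, x ∈ stab K (θ : K → ℂ) →
      (y : L) ∈ stab K (θ : K → ℂ) := by
    intro x hx hx1 θ hθ
    have hsub : {θ : Cfsg.IrrCharacter K | (y : L) ∈ stab K (θ : K → ℂ)} ⊆
        {θ : Cfsg.IrrCharacter K | x ∈ stab K (θ : K → ℂ)} := by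
      intro φ hφ
      exact hW₁y _ hφ hx
    have hc1 := hcount x hx hx1
    have hc2 := hcount y y.2 hy1
    have heq := Set.eq_of_subset_of_ncard_le hsub (by
      rw [← Nat.card_coe_set_eq, ← Nat.card_coe_set_eq]
      exact le_of_eq (hc1.trans hc2.symm)) (Set.toFinite _)
    have : θ ∈ {θ : Cfsg.IrrCharacter K | x ∈ stab K (θ : K → ℂ)} := hθ
    rw [← heq] at this
    exact this
  refine ⟨?_, ?_, ?_⟩
  · -- induced irreducible
    rintro θ hθ ⟨x₀, hx₀, hne⟩
    have hny : (y : L) ∉ stab K θ := fun h => hne (hW₁y θ h hx₀)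
    have hstabK : ∀ g : L, g ∈ stab K θ ↔ g ∈ K := by
      intro g
      constructor
      · intro hg
        obtain ⟨k, hk, x, hx, rfl⟩ := hdecomp g
        have hxs : x ∈ stab K θ := by
          have := (stab K θ).mul_mem ((stab K θ).inv_mem (hKstab θ hθ hk)) hg
          rwa [inv_mul_cancel_left] at this
        by_cases hx1 : x = 1
        · rw [hx1, mul_one]; exact hk
        · exact absurd (hkey x hx hx1 ⟨θ, hθ⟩ hxs) hny
      · intro hg; exact hKstab θ hθ hg
    have h1 := Helper25.card_mul_classInner_indFun_self K hθ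
    have h2 : Nat.card {g : L // ∀ h : K, θ ⟨g * h * g⁻¹, hK.conj_mem h h.2 g⟩ = θ h} =
        Nat.card K := by
      apply Nat.card_congr
      apply Equiv.subtypeEquivRight
      intro g
      rw [← hstabK g, mem_stab, Helper25.conjFun_eq_self_iff]
    rw [h2] at h1
    have h3 : Cfsg.classInner (Cfsg.indFun K θ) (Cfsg.indFun K θ) = 1 :=
      mul_left_cancel₀ (card_ne_zero' (G := K)) (by rw [h1, mul_one])
    exact isIrrCharacter_of_norm_one (IsCharacter.ind K (IsIrrCharacter.isCharacter hθ)) h3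
  · rw [← hcount y y.2 hy1]
    apply Nat.card_congr
    apply Equiv.subtypeEquivRight
    intro θ
    constructor
    · intro h; exact h y y.2
    · intro h x hx; exact hW₁y _ h hx
  · intro θ hθ hinvW
    have hinv : ∀ g : L, Helper25.conjFun K θ g = θ := by
      intro g
      obtain ⟨k, hk, x, hx, rfl⟩ := hdecomp g
      exact (stab K θ).mul_mem (hKstab θ hθ hk) (hinvW x hx)
    have hcyc : IsCyclic (L ⧸ K) := by
      haveI := hW₁c
      apply isCyclic_of_surjective ((QuotientGroup.mk' K).comp W₁.subtype)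
      intro q
      obtain ⟨g, rfl⟩ := QuotientGroup.mk_surjective q
      obtain ⟨k, hk, x, hx, rfl⟩ := hdecomp g
      refine ⟨⟨x, hx⟩, ?_⟩
      show (QuotientGroup.mk x : L ⧸ K) = QuotientGroup.mk (k * x)
      rw [QuotientGroup.mk_mul, (QuotientGroup.eq_one_iff k).2 hk, one_mul]
    have hab : ∀ a b : L, a * b * a⁻¹ * b⁻¹ ∈ K := by
      intro a b
      rw [← QuotientGroup.eq_one_iff]
      simp only [QuotientGroup.mk_mul, QuotientGroup.mk_inv]
      rw [cyc_comm hcyc (a : L ⧸ K) b]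
      group
    obtain ⟨χ, hχ, hext⟩ := Helper25.exists_extension_of_cyclic_quotient K hcyc θ hθ
      (fun g n => congrFun (hinv g) n)
    have := finite_irrCharacter (G := L)
    cases nonempty_fintype (Cfsg.IrrCharacter L)
    have hΘ : Cfsg.IsCharacter L (Cfsg.indFun K θ) :=
      IsCharacter.ind K (IsIrrCharacter.isCharacter hθ)
    have hχθ : Cfsg.classInner (fun n : K => χ n) θ ≠ 0 := by
      have : (fun n : K => χ n) = θ := funext hext
      rw [this, irr_norm_one hθ]; exact one_ne_zero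
    have hone : ∀ β : Cfsg.IrrCharacter L, Cfsg.classInner (Cfsg.indFun K θ) β ≠ 0 →
        Cfsg.classInner (Cfsg.indFun K θ) β = 1 := by
      intro β hβ
      have hcf := IsCharacter.isClassFunction (IsIrrCharacter.isCharacter β.2)
      rw [frobenius_reciprocity K θ β hcf] at hβ ⊢
      have hβ' : Cfsg.classInner (fun n : K => (β : L → ℂ) n) θ ≠ 0 := by
        rw [← classInner_conj_symm]
        exact (map_ne_zero _).2 hβ
      obtain ⟨f, hf⟩ := Helper25.exists_linear_mul_of_abelian_quotient K hab hθ hinv β.2 hχ hβ' hχθ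
      have hr := Helper25.restrict_eq_smul_of_invariant K β.2 hθ hβ' hinv
      have h1 := congrFun hr 1
      simp only [Pi.smul_apply, smul_eq_mul, Subgroup.coe_one] at h1
      have h2 : (β : L → ℂ) 1 = θ 1 := by
        rw [hf]
        simp only [map_one, Units.val_one, one_mul]
        exact hext 1
      rw [h2] at h1
      have h3 : Cfsg.classInner (fun n : K => (β : L → ℂ) n) θ = 1 := by
        have hθ1 := IsIrrCharacter.apply_one_ne_zero hθ
        exact (mul_right_cancel₀ hθ1 (by rw [one_mul]; exact h1)).symm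
      rw [← classInner_conj_symm, h3, map_one]
    let C' : Finset (Cfsg.IrrCharacter L) :=
      Finset.univ.filter (fun β => Cfsg.classInner (Cfsg.indFun K θ) β ≠ 0)
    have hsum : Cfsg.indFun K θ = ∑ β ∈ C', (β : L → ℂ) := by
      conv_lhs => rw [IsCharacter.eq_sum_irr hΘ]
      rw [Finset.sum_filter]
      refine Finset.sum_congr rfl fun β _ => ?_
      by_cases hβ : Cfsg.classInner (Cfsg.indFun K θ) β = 0
      · rw [if_neg (not_not.2 hβ), hβ, zero_smul]
      · rw [if_pos hβ, hone β hβ, one_smul]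
    have hcard : C'.card = Nat.card W₁ := by
      have h1 := Helper25.classInner_indFun_self_of_invariant K hθ hinv
      rw [classInner_eq_sum_irr _ (IsCharacter.isClassFunction hΘ), hKidx] at h1
      have h2 : ∑ β : Cfsg.IrrCharacter L, Cfsg.classInner (Cfsg.indFun K θ) β *
          Cfsg.classInner (β : L → ℂ) (Cfsg.indFun K θ) = (C'.card : ℂ) := by
        rw [Finset.card_filter]
        push_cast
        refine Finset.sum_congr rfl fun β _ => ?_
        by_cases hβ : Cfsg.classInner (Cfsg.indFun K θ) β = 0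
        · rw [if_neg (not_not.2 hβ), hβ, zero_mul]
        · rw [if_pos hβ, ← classInner_conj_symm (Cfsg.indFun K θ), hone β hβ]; simp
      rw [h2] at h1
      exact_mod_cast h1
    refine ⟨C'.map ⟨Subtype.val, Subtype.val_injective⟩, ?_, ?_, ?_⟩
    · rw [Finset.card_map, hcard]
    · intro μ hμ
      obtain ⟨β, -, rfl⟩ := Finset.mem_map.1 hμ
      exact β.2
    · rw [Finset.sum_map]
      exact hsum

end Cfsg.Agent.S1513
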