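import Cfsg.Statements.S1514
import Mathlib
import Cfsg.Agent.Lib.Helper11.GenChar
-- import your own Cfsg.Agent.* helpers here

set_option autoImplicit false
open Cfsg

namespace Cfsg.Agent.S1514

open Cfsg.Agent.Lib.Helper7 Cfsg.Agent.Lib.Helper11

/-- Let S be a nonempty set of irreducible characters of the finite group L, closed under complex conjugation and containing no real-valued member, and τ a linear isometry on the integer combinations of S vanishing at 1, with values virtual characters of G vanishing at 1. Then there is a choice R making (S, τ, R) a coherence system. -/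
theorem result {L : Type*} [Group L] [Fintype L] {G : Type*} [Group G] [Fintype G] (S : Set (L → ℂ)) (hS : S.Nonempty) (hirr : ∀ χ ∈ S, Cfsg.IsIrrCharacter L χ) (hconj : ∀ χ ∈ S, Cfsg.conjFun χ ∈ S ∧ Cfsg.conjFun χ ≠ χ) (τ : (L → ℂ) → (G → ℂ)) (hτ : Cfsg.IsLinearIsometryOn (Cfsg.zspanOn S {1}ᶜ) τ) (hτ1 : ∀ α ∈ Cfsg.zspanOn S {1}ᶜ, τ α 1 = 0) : ∃ R : (L → ℂ) → Finset (G → ℂ), Cfsg.IsCoherenceSystem S τ R := by
  classical
  obtain ⟨hadd, hsmul, hinner, hgen⟩ := id hτ
  have hmemS : ∀ χ ∈ S, χ ∈ zspan S := fun χ h => Submodule.subset_span h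
  have hmem : ∀ χ ∈ S, χ - conjFun χ ∈ zspanOn S {1}ᶜ := by
    intro χ hχ
    refine ⟨Submodule.sub_mem _ (hmemS χ hχ) (hmemS _ (hconj χ hχ).1), ?_⟩
    intro x hx
    have hx1 : x = 1 := by simpa using hx
    obtain ⟨n, _, hn⟩ := irr_apply_one (hirr χ hχ)
    simp [hx1, conjFun, hn]
  have hcc : ∀ a b : L → ℂ, classInner (conjFun a) (conjFun b) = (starRingEnd ℂ) (classInner a b) := by
    intro a b
    simp only [classInner, conjFun, map_mul, map_inv₀, map_natCast, map_sum]
  have hcj : ∀ a : L → ℂ, conjFun (conjFun a) = a := by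
    intro a; ext x; simp [conjFun]
  have hin : ∀ φ ∈ S, ∀ χ ∈ S, classInner (τ (φ - conjFun φ)) (τ (χ - conjFun χ)) =
      classInner φ χ - classInner φ (conjFun χ) - (starRingEnd ℂ) (classInner φ (conjFun χ))
        + (starRingEnd ℂ) (classInner φ χ) := by
    intro φ hφ χ hχ
    rw [hinner _ (hmem φ hφ) _ (hmem χ hχ), classInner_sub_left, classInner_sub_right,
      classInner_sub_right, hcc]
    have : classInner (conjFun φ) χ = (starRingEnd ℂ) (classInner φ (conjFun χ)) := by
      rw [← hcc, hcj]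
    rw [this]; ring
  have hex : ∀ χ : L → ℂ, ∃ a b : G → ℂ, χ ∈ S → (IsIrrCharacter G a ∧ IsIrrCharacter G b ∧ a ≠ b ∧
      τ (χ - conjFun χ) = a - b) := by
    intro χ
    by_cases hχ : χ ∈ S
    · have h2 : classInner (τ (χ - conjFun χ)) (τ (χ - conjFun χ)) = 2 := by
        rw [hin χ hχ χ hχ, classInner_irr_self (hirr χ hχ),
          classInner_irr_ne (hirr χ hχ) (hirr _ (hconj χ hχ).1) (hconj χ hχ).2.symm]
        simp; norm_num
      obtain ⟨a, b, ha, hb, hne, he⟩ := genChar_norm_two_vanish (hgen _ (hmem χ hχ)) h2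
        (hτ1 _ (hmem χ hχ))
      exact ⟨a, b, fun _ => ⟨ha, hb, hne, he⟩⟩
    · exact ⟨0, 0, fun h => absurd h hχ⟩
  choose a b hab using hex
  have hne' : ∀ u v : G → ℂ, IsIrrCharacter G u → IsIrrCharacter G v → u ≠ -v := by
    intro u v hu hv h
    obtain ⟨n, hn0, hn⟩ := irr_apply_one hu
    obtain ⟨k, hk0, hk⟩ := irr_apply_one hv
    have h1 := congrFun h 1
    rw [Pi.neg_apply, hn, hk] at h1
    have h3 : ((n + k : ℕ) : ℂ) = 0 := by push_cast; linear_combination h1
    have h4 : n + k = 0 := by exact_mod_cast h3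
    omega
  refine ⟨fun χ => {a χ, -b χ}, ?_⟩
  refine ⟨hS, fun χ h => isCharacter_of_irr (hirr χ h), fun χ h => (hconj χ h).1,
    fun χ h => (hconj χ h).2, hτ, hτ1,
    fun χ hχ φ hφ hne => classInner_irr_ne (hirr χ hχ) (hirr φ hφ) hne, ?_, ?_, ?_, ?_⟩
  · intro χ hχ α hα β hβ
    obtain ⟨ha, hb, hne, he⟩ := hab χ hχ
    simp only [Finset.mem_insert, Finset.mem_singleton] at hα hβ
    rcases hα with rfl | rfl <;> rcases hβ with rfl | rfl
    · rw [classInner_irr_self ha, if_pos rfl]
    · rw [classInner_neg_right, classInner_irr_ne ha hb hne, if_neg (hne' _ _ ha hb)]; simp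
    · rw [classInner_neg_left, classInner_irr_ne hb ha hne.symm, if_neg (hne' _ _ ha hb).symm]; simp
    · rw [classInner_neg_left, classInner_neg_right, classInner_irr_self hb, if_pos rfl]; simp
  · intro χ hχ α hα
    obtain ⟨ha, hb, hne, he⟩ := hab χ hχ
    simp only [Finset.mem_insert, Finset.mem_singleton] at hα
    rcases hα with rfl | rfl
    · exact genChar_of_irr ha
    · exact genChar_neg (genChar_of_irr hb)
  · intro χ hχ
    obtain ⟨ha, hb, hne, he⟩ := hab χ hχ
    rw [Finset.sum_pair (hne' _ _ ha hb), he, sub_eq_add_neg]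
  · intro χ hχ φ hφ h1 h2 α hα β hβ
    obtain ⟨ha, hb, hne, he⟩ := hab χ hχ
    obtain ⟨ha', hb', hne', he'⟩ := hab φ hφ
    have h3 := hin φ hφ χ hχ
    rw [h1, h2, he, he', classInner_sub_left, classInner_sub_right, classInner_sub_right,
      classInner_irr ha' ha, classInner_irr ha' hb, classInner_irr hb' ha, classInner_irr hb' hb] at h3
    simp only [map_zero, sub_zero, add_zero] at h3
    have k1 : a φ ≠ a χ := by
      intro k
      have k2 : a φ ≠ b χ := fun k' => hne (k.symm.trans k')
      have k3 : b φ ≠ a χ := fun k' => hne' (k.trans k'.symm)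
      rw [if_pos k, if_neg k2, if_neg k3] at h3
      split_ifs at h3 <;> norm_num at h3
    have k4 : b φ ≠ b χ := by
      intro k
      have k2 : a φ ≠ b χ := fun k' => hne' (k'.trans k.symm)
      have k3 : b φ ≠ a χ := fun k' => hne (k'.symm.trans k)
      rw [if_pos k, if_neg k2, if_neg k3, if_neg k1] at h3
      norm_num at h3
    rw [if_neg k1, if_neg k4] at h3
    have k2 : a φ ≠ b χ := by
      intro k
      rw [if_pos k] at h3
      split_ifs at h3 <;> norm_num at h3
    rw [if_neg k2] at h3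
    have k3 : b φ ≠ a χ := by
      intro k
      rw [if_pos k] at h3
      norm_num at h3
    simp only [Finset.mem_insert, Finset.mem_singleton] at hα hβ
    rcases hα with rfl | rfl <;> rcases hβ with rfl | rfl
    · exact classInner_irr_ne ha' ha k1
    · rw [classInner_neg_right, classInner_irr_ne ha' hb k2, neg_zero]
    · rw [classInner_neg_left, classInner_irr_ne hb' ha k3, neg_zero]
    · rw [classInner_neg_left, classInner_neg_right, classInner_irr_ne hb' hb k4]; simp

end Cfsg.Agent.S1514
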