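import Cfsg.Statements.S1515
import Mathlib
import Cfsg.Agent.Lib.Helper11.GenChar
-- import your own Cfsg.Agent.* helpers here

set_option autoImplicit false
open Cfsg

namespace Cfsg.Agent.S1515

open Cfsg.Agent.Lib.Helper7 Cfsg.Agent.Lib.Helper11

/-- Let (S, τ, R) be a coherence system from L to G, χ ∈ S, and ψ an integer combination of S with ⟨χ, ψ⟩ = ⟨conj χ, ψ⟩ = 0. Let τ₁ be a linear isometry on the integer combinations of χ − ψ and χ − conj χ, with virtual-character values, agreeing with τ on integer multiples of χ − conj χ. Then the sum over α ∈ R χ of the squared absolute values of ⟨τ₁(χ − ψ), α⟩ is at least ⟨χ, χ⟩; and if ⟨τ₁(χ − ψ), τ₁(χ − ψ)⟩ minus that sum is at least ⟨ψ, ψ⟩, then the sum equals ⟨χ, χ⟩ and every ⟨τ₁(χ − ψ), α⟩ with α ∈ R χ is 0 or 1. -/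
theorem result {L : Type*} [Group L] [Fintype L] {G : Type*} [Group G] [Fintype G] (S : Set (L → ℂ)) (τ : (L → ℂ) → (G → ℂ)) (R : (L → ℂ) → Finset (G → ℂ)) (hS : Cfsg.IsCoherenceSystem S τ R) (χ : L → ℂ) (hχ : χ ∈ S) (ψ : L → ℂ) (hψ : ψ ∈ Cfsg.zspan S) (h1 : Cfsg.classInner χ ψ = 0) (h2 : Cfsg.classInner (Cfsg.conjFun χ) ψ = 0) (τ₁ : (L → ℂ) → (G → ℂ)) (hτ₁ : Cfsg.IsLinearIsometryOn (Cfsg.zspan {χ - ψ, χ - Cfsg.conjFun χ}) τ₁) (hagree : ∀ n : ℤ, τ₁ (n • (χ - Cfsg.conjFun χ)) = τ (n • (χ - Cfsg.conjFun χ))) : (Cfsg.classInner χ χ).re ≤ ∑ α ∈ R χ, ‖Cfsg.classInner (τ₁ (χ - ψ)) α‖ ^ 2 ∧ ((Cfsg.classInner ψ ψ).re ≤ (Cfsg.classInner (τ₁ (χ - ψ)) (τ₁ (χ - ψ))).re - ∑ α ∈ R χ, ‖Cfsg.classInner (τ₁ (χ - ψ)) α‖ ^ 2 → (∑ α ∈ R χ, ‖Cfsg.classInner (τ₁ (χ - ψ)) α‖ ^ 2 = (Cfsg.classInner χ χ).re ∧ ∀ α ∈ R χ, Cfsg.classInner (τ₁ (χ - ψ)) α = 0 ∨ Cfsg.classInner (τ₁ (χ - ψ)) α = 1)) := by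
  classical
  obtain ⟨hadd, hsmul, hinner, hgen⟩ := hτ₁
  have e1 : χ - ψ ∈ zspan {χ - ψ, χ - conjFun χ} := Submodule.subset_span (by simp)
  have e2 : χ - conjFun χ ∈ zspan {χ - ψ, χ - conjFun χ} := Submodule.subset_span (by simp)
  set X := τ₁ (χ - ψ) with hX
  obtain ⟨n, hn⟩ := classInner_char_nat (hS.isCharacter χ hχ) (hS.isCharacter χ hχ)
  have hXg : IsGeneralizedCharacter G X := hgen _ e1
  have hex : ∀ α : G → ℂ, ∃ k : ℤ, α ∈ R χ → classInner X α = k := by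
    intro α
    by_cases hα : α ∈ R χ
    · obtain ⟨k, hk⟩ := genChar_inner_int hXg (hS.virtual χ hχ α hα)
      exact ⟨k, fun _ => hk⟩
    · exact ⟨0, fun h => absurd h hα⟩
  choose m hm using hex
  have hψχ : classInner ψ χ = 0 := by rw [← classInner_conj_symm, h1, map_zero]
  have hψχ' : classInner ψ (conjFun χ) = 0 := by rw [← classInner_conj_symm, h2, map_zero]
  have hχχ' : classInner χ (conjFun χ) = 0 :=
    hS.orthogonal χ hχ _ (hS.conj_mem χ hχ) (hS.conj_ne χ hχ).symm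
  have hsum : ∑ α ∈ R χ, m α = n := by
    have h3 : classInner X (τ₁ (χ - conjFun χ)) = n := by
      rw [hX, hinner _ e1 _ e2, classInner_sub_left, classInner_sub_right, classInner_sub_right,
        hn, hχχ', hψχ, hψχ']
      ring
    have h4 := hagree 1
    rw [one_smul] at h4
    rw [h4, hS.sum_eq χ hχ, classInner_sum_right, Finset.sum_congr rfl (fun α hα => hm α hα)] at h3
    exact_mod_cast h3
  have hsq : ∑ α ∈ R χ, ‖classInner X α‖ ^ 2 = ((∑ α ∈ R χ, (m α) ^ 2 : ℤ) : ℝ) := by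
    push_cast
    refine Finset.sum_congr rfl fun α hα => ?_
    rw [hm α hα, Complex.norm_intCast, sq_abs]
  have hre : (classInner χ χ).re = ((n : ℤ) : ℝ) := by rw [hn]; simp
  have hge : ∀ k : ℤ, k ≤ k ^ 2 := by
    intro k
    nlinarith [sq_nonneg (2 * k - 1), sq_nonneg k]
  have hle : (n : ℤ) ≤ ∑ α ∈ R χ, (m α) ^ 2 := by
    rw [← hsum]
    exact Finset.sum_le_sum fun α _ => hge (m α)
  refine ⟨?_, ?_⟩
  · rw [hsq, hre]
    exact_mod_cast hle
  · intro h5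
    have hXX : classInner X X = n + classInner ψ ψ := by
      rw [hX, hinner _ e1 _ e1, classInner_sub_left, classInner_sub_right, classInner_sub_right,
        hn, h1, hψχ]
      ring
    rw [hXX, hsq] at h5
    simp only [Complex.add_re, Complex.natCast_re] at h5
    have h6 : ((∑ α ∈ R χ, (m α) ^ 2 : ℤ) : ℝ) ≤ ((n : ℤ) : ℝ) := by
      push_cast at h5 ⊢
      linarith
    have h7 : ∑ α ∈ R χ, (m α) ^ 2 ≤ (n : ℤ) := by exact_mod_cast h6
    have h8 : ∑ α ∈ R χ, (m α) ^ 2 = (n : ℤ) := le_antisymm h7 hle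
    refine ⟨by rw [hsq, hre, h8], ?_⟩
    have h9 : ∑ α ∈ R χ, ((m α) ^ 2 - m α) = 0 := by
      rw [Finset.sum_sub_distrib, h8, hsum, sub_self]
    have h10 := (Finset.sum_eq_zero_iff_of_nonneg (fun α _ => sub_nonneg.mpr (hge (m α)))).mp h9
    intro α hα
    have h11 := h10 α hα
    have h12 : m α * (m α - 1) = 0 := by linear_combination h11
    rw [hm α hα]
    rcases mul_eq_zero.mp h12 with h | h
    · left; rw [h]; simp
    · right
      have : m α = 1 := by linarith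
      rw [this]; simp

end Cfsg.Agent.S1515
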