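import Cfsg.Statements.S1525
import Mathlib
import Cfsg.Agent.Lib.Helper11.Dade
-- import your own Cfsg.Agent.* helpers here

set_option autoImplicit false
open Cfsg

namespace Cfsg.Agent.S1525

open Cfsg.Agent.Lib.Helper7 Cfsg.Agent.Lib.Helper11

/-- Under the Dade hypothesis for (A, L, H), let χ be a class function of G and let ψ be a function on L whose value at each a ∈ A is the average of χ over the coset a·H(a). Then (1/|G|) Σ |χ g|² over the elements g of G conjugate into some coset a·H(a) with a ∈ A is at least (1/|L|) Σ_{a ∈ A ∩ L} |ψ a|². -/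
theorem result {G : Type*} [Group G] [Fintype G] (A : Set G) (L : Subgroup G) [Fintype L] (H : G → Subgroup G) (hD : Cfsg.DadeHypothesis A L H) (χ : G → ℂ) (hχ : Cfsg.IsClassFunction G χ) (ψ : L → ℂ) (hψ : ∀ a : L, (a : G) ∈ A → ψ a = (Nat.card (H a) : ℂ)⁻¹ * ∑ᶠ u ∈ (H a : Set G), χ (a * u)) : (Nat.card L : ℝ)⁻¹ * ∑ᶠ a ∈ {a : L | (a : G) ∈ A}, ‖ψ a‖ ^ 2 ≤ (Nat.card G : ℝ)⁻¹ * ∑ᶠ g ∈ {g : G | ∃ a ∈ A, ∃ u ∈ H a, ∃ x : G, x * g * x⁻¹ = a * u}, ‖χ g‖ ^ 2 := by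
  classical
  have hG : (Nat.card G : ℝ) ≠ 0 := by exact_mod_cast Nat.card_pos.ne'
  have hL : (0 : ℝ) < (Nat.card L : ℝ) := by exact_mod_cast Nat.card_pos
  have h1 := dade_sum_real hD (fun g => ‖χ g‖ ^ 2) (fun g y => by simp only [hχ g y])
  change _ ≤ (Nat.card G : ℝ)⁻¹ * ∑ᶠ g ∈ dadeSupp A H, ‖χ g‖ ^ 2
  rw [finsum_mem_eq_sum_ite, finsum_mem_eq_sum_ite, h1, ← mul_assoc, inv_mul_cancel₀ hG, one_mul]
  have h2 : ∑ a : G, ∑ u : G, (if (a ∈ A ∧ u ∈ H a) then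
      ((Nat.card L : ℝ) * (Nat.card (H a) : ℝ))⁻¹ * ‖χ (a * u)‖ ^ 2 else 0) =
      ∑ a : L, ∑ u : G, (if ((a : G) ∈ A ∧ u ∈ H a) then
      ((Nat.card L : ℝ) * (Nat.card (H a) : ℝ))⁻¹ * ‖χ (a * u)‖ ^ 2 else 0) := by
    rw [← Finset.sum_subtype (Finset.univ.filter (· ∈ L)) (by simp)
      (fun a : G => ∑ u : G, (if (a ∈ A ∧ u ∈ H a) then
      ((Nat.card L : ℝ) * (Nat.card (H a) : ℝ))⁻¹ * ‖χ (a * u)‖ ^ 2 else 0))]
    symm
    apply Finset.sum_subset (Finset.filter_subset _ _)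
    intro x _ hx
    have hxL : x ∉ L := by simpa using hx
    exact Finset.sum_eq_zero fun u _ => if_neg (fun h => hxL (hD.subset h.1))
  rw [h2, Finset.mul_sum]
  refine Finset.sum_le_sum fun a _ => ?_
  by_cases ha : (a : G) ∈ A
  · have ha' : a ∈ {a : L | (a : G) ∈ A} := ha
    rw [if_pos ha', hψ a ha, finsum_mem_eq_sum_ite, ← Finset.sum_filter]
    set s := Finset.univ.filter (fun u : G => u ∈ (H a : Set G)) with hs
    have hcard : s.card = Nat.card (H a) := by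
      rw [Nat.card_eq_fintype_card, Fintype.card_subtype]
      rfl
    have hh : (0 : ℝ) < (Nat.card (H a) : ℝ) := by exact_mod_cast Nat.card_pos
    have e1 : ∑ u : G, (if ((a : G) ∈ A ∧ u ∈ H a) then
        ((Nat.card L : ℝ) * (Nat.card (H a) : ℝ))⁻¹ * ‖χ (a * u)‖ ^ 2 else 0) =
        ((Nat.card L : ℝ) * (Nat.card (H a) : ℝ))⁻¹ * ∑ u ∈ s, ‖χ (a * u)‖ ^ 2 := by
      rw [Finset.mul_sum, hs, Finset.sum_filter]
      refine Finset.sum_congr rfl fun u _ => ?_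
      by_cases hu : u ∈ H a
      · have hu' : u ∈ (H a : Set G) := hu
        rw [if_pos ⟨ha, hu⟩, if_pos hu']
      · have hu' : u ∉ (H a : Set G) := hu
        rw [if_neg (fun h => hu h.2), if_neg hu']
    rw [e1, norm_mul, norm_inv, Complex.norm_natCast, mul_pow]
    have e2 : ‖∑ u ∈ s, χ (a * u)‖ ^ 2 ≤ (Nat.card (H a) : ℝ) * ∑ u ∈ s, ‖χ (a * u)‖ ^ 2 := by
      calc ‖∑ u ∈ s, χ (a * u)‖ ^ 2 ≤ (∑ u ∈ s, ‖χ (a * u)‖) ^ 2 := by
            gcongr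
            exact norm_sum_le _ _
        _ ≤ (s.card : ℝ) * ∑ u ∈ s, ‖χ (a * u)‖ ^ 2 := sq_sum_le_card_mul_sum_sq
        _ = _ := by rw [hcard]
    calc (Nat.card L : ℝ)⁻¹ * (((Nat.card (H a) : ℝ))⁻¹ ^ 2 * ‖∑ u ∈ s, χ (a * u)‖ ^ 2)
        ≤ (Nat.card L : ℝ)⁻¹ * (((Nat.card (H a) : ℝ))⁻¹ ^ 2 *
          ((Nat.card (H a) : ℝ) * ∑ u ∈ s, ‖χ (a * u)‖ ^ 2)) := by gcongr
      _ = _ := by field_simp
  · have ha' : a ∉ {a : L | (a : G) ∈ A} := ha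
    rw [if_neg ha', mul_zero]
    exact Finset.sum_nonneg fun u _ => by rw [if_neg (fun h => ha h.1)]

end Cfsg.Agent.S1525
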