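import Cfsg.Statements.S1527
import Mathlib

set_option autoImplicit false
open Cfsg

namespace Cfsg.Agent.S1527

theorem card_ne_one {A : Type*} [Group A] [Finite A] : Nat.card {a : A // a ≠ 1} = Nat.card A - 1 := by
  classical
  have : Fintype A := Fintype.ofFinite _
  rw [Nat.card_eq_fintype_card, Nat.card_eq_fintype_card, Fintype.card_subtype_compl, Fintype.card_subtype_eq]

theorem conj_ne_one {G : Type*} [Group G] {x h : G} (hh : h ≠ 1) : x * h * x⁻¹ ≠ 1 := by
  intro h1
  apply hh
  have : x * h = x := by
    have := congrArg (· * x) h1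
    simpa using this
  simpa using this

/-- Let G be a finite group and H i (i in a finite index type) subgroups of pairwise coprime orders, each of whose underlying sets is a TI-subset of G, such that every non-identity element of G is conjugate to an element of some H i. Then Nat.card G − 1 = Σ_i [G : N_G(H i)] · (Nat.card (H i) − 1). -/
theorem result {G : Type*} [Group G] [Finite G] {ι : Type*} [Fintype ι] (H : ι → Subgroup G) (hcop : ∀ i j, i ≠ j → Nat.Coprime (Nat.card (H i)) (Nat.card (H j))) (hTI : ∀ i, Cfsg.IsTISubset (H i : Set G)) (hcover : ∀ g : G, g ≠ 1 → ∃ i, ∃ x : G, x * g * x⁻¹ ∈ H i) : Nat.card G - 1 = ∑ i, (Subgroup.normalizer (H i : Set G)).index * (Nat.card (H i) - 1) := by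
  classical
  let F : (Σ i, (G ⧸ Subgroup.normalizer (H i : Set G)) × {h : H i // h ≠ 1}) → {g : G // g ≠ 1} :=
    fun z => ⟨z.2.1.out * (z.2.2 : H z.1) * (z.2.1.out)⁻¹, conj_ne_one (by
      intro h
      apply z.2.2.2
      ext
      simpa using h)⟩
  have hF : Function.Bijective F := by
    constructor
    · rintro ⟨i, q, h⟩ ⟨j, q', h'⟩ he
      have he' : q.out * ((h : H i) : G) * (q.out)⁻¹ = q'.out * ((h' : H j) : G) * (q'.out)⁻¹ :=
        congrArg Subtype.val he
      have hh1 : ((h : H i) : G) ≠ 1 := by
        intro e; apply h.2; ext; simpa using e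
      have hij : i = j := by
        by_contra hne
        have o1 : orderOf ((h : H i) : G) ∣ Nat.card (H i) := by
          rw [Subgroup.orderOf_coe]; exact orderOf_dvd_natCard _
        have o2 : orderOf ((h' : H j) : G) ∣ Nat.card (H j) := by
          rw [Subgroup.orderOf_coe]; exact orderOf_dvd_natCard _
        have o3 : orderOf ((h : H i) : G) = orderOf ((h' : H j) : G) := by
          have e1 : orderOf (q.out * ((h : H i) : G) * (q.out)⁻¹) = orderOf ((h : H i) : G) :=
            orderOf_injective (MulAut.conj q.out).toMonoidHom (MulAut.conj q.out).injective _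
          have e2 : orderOf (q'.out * ((h' : H j) : G) * (q'.out)⁻¹) = orderOf ((h' : H j) : G) :=
            orderOf_injective (MulAut.conj q'.out).toMonoidHom (MulAut.conj q'.out).injective _
          rw [← e1, ← e2, he']
        have o4 : orderOf ((h : H i) : G) = 1 :=
          Nat.eq_one_of_dvd_coprimes (hcop i j hne) o1 (o3 ▸ o2)
        exact hh1 (orderOf_eq_one_iff.mp o4)
      subst hij
      have hn : (q'.out)⁻¹ * q.out ∈ Subgroup.normalizer (H i : Set G) := by
        by_contra hcon
        apply hh1
        apply hTI i _ hcon _ h.1.2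
        have : (q'.out)⁻¹ * q.out * ((h : H i) : G) * ((q'.out)⁻¹ * q.out)⁻¹ = ((h' : H i) : G) := by
          calc (q'.out)⁻¹ * q.out * ((h : H i) : G) * ((q'.out)⁻¹ * q.out)⁻¹
              = (q'.out)⁻¹ * (q.out * ((h : H i) : G) * (q.out)⁻¹) * q'.out := by group
            _ = (q'.out)⁻¹ * (q'.out * ((h' : H i) : G) * (q'.out)⁻¹) * q'.out := by rw [he']
            _ = _ := by group
        rw [this]
        exact h'.1.2
      have hq : q' = q := by
        rw [← q.out_eq', ← q'.out_eq']
        exact QuotientGroup.eq.mpr hn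
      subst hq
      have hh : ((h : H i) : G) = ((h' : H i) : G) := by
        have := mul_right_cancel he'
        exact mul_left_cancel this
      have : h = h' := Subtype.ext (Subtype.ext hh)
      rw [this]
    · rintro ⟨g, hg⟩
      obtain ⟨i, x, hx⟩ := hcover g hg
      -- g = x⁻¹ (x g x⁻¹) x
      set q : G ⧸ Subgroup.normalizer (H i : Set G) := QuotientGroup.mk (x⁻¹ : G) with hq
      have hn : (q.out)⁻¹ * x⁻¹ ∈ Subgroup.normalizer (H i : Set G) := by
        apply QuotientGroup.eq.mp
        rw [hq]
        exact Quotient.out_eq' _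
      set n := (q.out)⁻¹ * x⁻¹ with hndef
      have hmem : n * (x * g * x⁻¹) * n⁻¹ ∈ H i := (Subgroup.mem_normalizer_iff.mp hn _).mp hx
      have hne : (⟨n * (x * g * x⁻¹) * n⁻¹, hmem⟩ : H i) ≠ 1 := by
        intro e
        have e' : n * (x * g * x⁻¹) * n⁻¹ = 1 := congrArg Subtype.val e
        exact conj_ne_one (conj_ne_one hg) e'
      refine ⟨⟨i, q, ⟨⟨n * (x * g * x⁻¹) * n⁻¹, hmem⟩, hne⟩⟩, ?_⟩
      apply Subtype.ext
      show q.out * (n * (x * g * x⁻¹) * n⁻¹) * (q.out)⁻¹ = g
      rw [hndef]
      group
  have e := Nat.card_congr (Equiv.ofBijective F hF)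
  rw [card_ne_one, Nat.card_sigma] at e
  rw [← e]
  apply Finset.sum_congr rfl
  intro i _
  rw [Nat.card_prod, card_ne_one]
  rfl

end Cfsg.Agent.S1527
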