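import Cfsg.Statements.S1529
import Mathlib
import Cfsg.Agent.Lib.Helper11.GenChar
-- import your own Cfsg.Agent.* helpers here

set_option autoImplicit false
open Cfsg

namespace Cfsg.Agent.S1529

open Cfsg.Agent.Lib.Helper7 Cfsg.Agent.Lib.Helper11

/-- Let N be a subgroup of the finite group G, S a set of irreducible characters of N with at least two members, and τ₁ a linear isometry on the integer combinations of S with virtual-character values such that τ₁ α vanishes at 1 whenever α ∈ ℤ[S] does. Then there is ε ∈ {1, −1} such that ε • τ₁ χ is an irreducible character of G for every χ ∈ S, and distinct members of S give distinct characters. -/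
theorem result {G : Type*} [Group G] [Fintype G] (N : Subgroup G) [Fintype N] (S : Set (N → ℂ)) (hirr : ∀ χ ∈ S, Cfsg.IsIrrCharacter N χ) (htwo : ∃ χ ∈ S, ∃ ψ ∈ S, χ ≠ ψ) (τ₁ : (N → ℂ) → (G → ℂ)) (hτ₁ : Cfsg.IsLinearIsometryOn (Cfsg.zspan S) τ₁) (h0 : ∀ α ∈ Cfsg.zspan S, α 1 = 0 → τ₁ α 1 = 0) : ∃ ε : ℂ, (ε = 1 ∨ ε = -1) ∧ (∀ χ ∈ S, Cfsg.IsIrrCharacter G (ε • τ₁ χ)) ∧ (∀ χ ∈ S, ∀ ψ ∈ S, τ₁ χ = τ₁ ψ → χ = ψ) := by
  classical
  obtain ⟨hadd, hsmul, hinner, hgen⟩ := hτ₁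
  have hmem : ∀ χ ∈ S, χ ∈ zspan S := fun χ h => Submodule.subset_span h
  have hsign : ∀ χ ∈ S, IsIrrCharacter G (τ₁ χ) ∨ IsIrrCharacter G (-τ₁ χ) := fun χ h =>
    genChar_norm_one (hgen χ (hmem χ h))
      (by rw [hinner χ (hmem χ h) χ (hmem χ h), classInner_irr_self (hirr χ h)])
  have hrel : ∀ χ ∈ S, ∀ ψ ∈ S, ψ 1 * τ₁ χ 1 = χ 1 * τ₁ ψ 1 := by
    intro χ hχ ψ hψ
    obtain ⟨n, _, hn⟩ := irr_apply_one (hirr χ hχ)
    obtain ⟨k, _, hk⟩ := irr_apply_one (hirr ψ hψ)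
    have m1 : ((k:ℤ) • χ) ∈ zspan S := Submodule.smul_mem _ _ (hmem χ hχ)
    have m2 : ((-(n:ℤ)) • ψ) ∈ zspan S := Submodule.smul_mem _ _ (hmem ψ hψ)
    have m3 : ((k:ℤ) • χ + (-(n:ℤ)) • ψ) ∈ zspan S := Submodule.add_mem _ m1 m2
    have h1 := h0 _ m3 (by simp [hn, hk]; ring)
    rw [hadd _ m1 _ m2, hsmul _ (hmem χ hχ), hsmul _ (hmem ψ hψ)] at h1
    rw [Pi.add_apply, Pi.smul_apply, Pi.smul_apply, zsmul_eq_mul, zsmul_eq_mul] at h1
    push_cast at h1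
    rw [hn, hk]; linear_combination h1
  have hno : ∀ χ ∈ S, ∀ ψ ∈ S, IsIrrCharacter G (τ₁ χ) → IsIrrCharacter G (-τ₁ ψ) → False := by
    intro χ hχ ψ hψ h1 h2
    obtain ⟨n, hn0, hn⟩ := irr_apply_one (hirr χ hχ)
    obtain ⟨k, hk0, hk⟩ := irr_apply_one (hirr ψ hψ)
    obtain ⟨a, ha0, ha⟩ := irr_apply_one h1
    obtain ⟨b, hb0, hb⟩ := irr_apply_one h2
    have := hrel χ hχ ψ hψ
    have hb' : τ₁ ψ 1 = -(b:ℂ) := by rw [← hb]; simp
    rw [hn, hk, ha, hb'] at this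
    have h3 : ((k * a + n * b : ℕ) : ℂ) = 0 := by push_cast; linear_combination this
    have h4 : k * a + n * b = 0 := by exact_mod_cast h3
    have : 0 < k * a := Nat.mul_pos hk0 ha0
    omega
  have hinj : ∀ χ ∈ S, ∀ ψ ∈ S, τ₁ χ = τ₁ ψ → χ = ψ := by
    intro χ hχ ψ hψ h
    by_contra hne
    have h1 := hinner χ (hmem χ hχ) ψ (hmem ψ hψ)
    rw [classInner_irr_ne (hirr χ hχ) (hirr ψ hψ) hne, h, hinner ψ (hmem ψ hψ) ψ (hmem ψ hψ),
      classInner_irr_self (hirr ψ hψ)] at h1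
    exact one_ne_zero h1
  obtain ⟨χ₀, hχ₀, -⟩ := htwo
  rcases hsign χ₀ hχ₀ with h | h
  · refine ⟨1, Or.inl rfl, fun χ hχ => ?_, hinj⟩
    rw [one_smul]
    rcases hsign χ hχ with h' | h'
    · exact h'
    · exact (hno χ₀ hχ₀ χ hχ h h').elim
  · refine ⟨-1, Or.inr rfl, fun χ hχ => ?_, hinj⟩
    rw [neg_one_smul]
    rcases hsign χ hχ with h' | h'
    · exact (hno χ hχ χ₀ hχ₀ h' h).elim
    · exact h'

end Cfsg.Agent.S1529
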