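import Cfsg.Statements.S1530
import Cfsg.Agent.Lib.Helper24.Coherence

set_option autoImplicit false
open Cfsg

namespace Cfsg.Agent.S1530


open Cfsg.Agent.Lib.Helper7 Cfsg.Agent.Lib.Helper11 Cfsg.Agent.Lib.Helper24.Coh
open scoped ComplexConjugate

theorem self_int_nonneg {G : Type*} [Group G] [Fintype G] {a : G → ℂ} {D : ℤ}
    (h : classInner a a = D) : 0 ≤ D := by
  have e : classInner a a = (((Nat.card G : ℝ)⁻¹ * ∑ g : G, Complex.normSq (a g) : ℝ) : ℂ) := by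
    simp only [classInner, Complex.mul_conj]
    push_cast
    rfl
  rw [e] at h
  have h' : ((Nat.card G : ℝ)⁻¹ * ∑ g : G, Complex.normSq (a g) : ℝ) = (D : ℝ) := by
    exact_mod_cast h
  have h0 : (0 : ℝ) ≤ (D : ℝ) := by
    rw [← h']
    exact mul_nonneg (by positivity) (Finset.sum_nonneg fun g _ => Complex.normSq_nonneg _)
  exact_mod_cast h0

/-- the arithmetic heart of the extension step -/
theorem arith {ι : Type*} [DecidableEq ι] (s : Finset ι) (ψ : ι) (hψ : ψ ∈ s) (d : ι → ℤ)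
    (a : ι → ℤ) (k y D : ℤ) (hk : 0 ≤ k) (hdψ : 0 < d ψ)
    (R : ∀ ξ ∈ s, d ψ * a ξ = d ξ * y - (if ξ = ψ then k * d ψ else 0))
    (hN : 1 + k ^ 2 - D = ∑ ξ ∈ s, a ξ ^ 2) :
    d ψ ^ 2 * (1 - D) = y ^ 2 * (∑ ξ ∈ s, d ξ ^ 2) - 2 * y * k * d ψ ^ 2 := by
  have h1 : d ψ ^ 2 * ∑ ξ ∈ s, a ξ ^ 2 =
      y ^ 2 * (∑ ξ ∈ s, d ξ ^ 2) - (2 * y * k * d ψ ^ 2 - k ^ 2 * d ψ ^ 2) := by
    rw [Finset.mul_sum, Finset.mul_sum]
    have : ∀ ξ ∈ s, d ψ ^ 2 * a ξ ^ 2 = y ^ 2 * d ξ ^ 2 -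
        (if ξ = ψ then 2 * y * k * d ψ ^ 2 - k ^ 2 * d ψ ^ 2 else 0) := by
      intro ξ hξ
      have e : d ψ ^ 2 * a ξ ^ 2 = (d ψ * a ξ) ^ 2 := by ring
      rw [e, R ξ hξ]
      split_ifs with h
      · subst h; ring
      · ring
    rw [Finset.sum_congr rfl this, Finset.sum_sub_distrib, Finset.sum_ite_eq' s ψ, if_pos hψ]
  rw [← hN] at h1
  linear_combination h1

theorem arith2 {ι : Type*} [DecidableEq ι] (s : Finset ι) (ψ : ι) (hψ : ψ ∈ s) (d : ι → ℤ)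
    (a : ι → ℤ) (k y : ℤ) (v : ι → ℂ)
    (R : ∀ ξ ∈ s, d ψ * a ξ = d ξ * y - (if ξ = ψ then k * d ψ else 0))
    (V : ∀ ξ ∈ s, (d ψ : ℂ) * v ξ = d ξ * v ψ) (h0 : ∑ ξ ∈ s, (a ξ : ℂ) * v ξ = 0) :
    ((y * (∑ ξ ∈ s, d ξ ^ 2) - k * d ψ ^ 2 : ℤ) : ℂ) * v ψ = 0 := by
  have h1 : (d ψ : ℂ) ^ 2 * ∑ ξ ∈ s, (a ξ : ℂ) * v ξ =
      ((y : ℂ) * (∑ ξ ∈ s, (d ξ : ℂ) ^ 2) - k * (d ψ : ℂ) ^ 2) * v ψ := by
    rw [Finset.mul_sum, sub_mul, Finset.mul_sum, Finset.sum_mul]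
    have : ∀ ξ ∈ s, (d ψ : ℂ) ^ 2 * ((a ξ : ℂ) * v ξ) = (y : ℂ) * (d ξ : ℂ) ^ 2 * v ψ -
        (if ξ = ψ then (k : ℂ) * (d ψ : ℂ) ^ 2 * v ψ else 0) := by
      intro ξ hξ
      have e : (d ψ : ℂ) ^ 2 * ((a ξ : ℂ) * v ξ) = (((d ψ * a ξ : ℤ)) : ℂ) * ((d ψ : ℂ) * v ξ) := by
        push_cast; ring
      rw [e, R ξ hξ, V ξ hξ]
      split_ifs with h
      · subst h; push_cast; ring
      · push_cast; ring
    rw [Finset.sum_congr rfl this, Finset.sum_sub_distrib, Finset.sum_ite_eq' s ψ, if_pos hψ]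
  rw [h0, mul_zero] at h1
  push_cast
  exact h1.symm


/-- Let N be a subgroup of the finite group G and S₀ a finite set of irreducible characters of N, χ an irreducible character of N not in S₀, with degrees ξ 1 = d ξ. Let τ be a linear isometry on the integer combinations of S₀ ∪ {χ} vanishing at 1, with values virtual characters of G vanishing at 1, such that (S₀, N minus 1, τ) is coherent. If some ψ ∈ S₀ has d ψ dividing d χ and 2 · d ψ · d χ < Σ_{ξ ∈ S₀} (d ξ)², then (S₀ ∪ {χ}, N minus 1, τ) is coherent. -/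
theorem result {G : Type*} [Group G] [Fintype G] (N : Subgroup G) [Fintype N] (S₀ : Finset (N → ℂ)) (χ : N → ℂ) (hirr : ∀ ξ ∈ S₀, Cfsg.IsIrrCharacter N ξ) (hχ : Cfsg.IsIrrCharacter N χ) (hχS : χ ∉ S₀) (d : (N → ℂ) → ℕ) (hd : ∀ ξ ∈ insert χ S₀, ξ 1 = (d ξ : ℂ)) (τ : (N → ℂ) → (G → ℂ)) (hτ : Cfsg.IsLinearIsometryOn (Cfsg.zspanOn (↑(insert χ S₀) : Set (N → ℂ)) {1}ᶜ) τ) (hτ1 : ∀ α ∈ Cfsg.zspanOn (↑(insert χ S₀) : Set (N → ℂ)) {1}ᶜ, τ α 1 = 0) (hcoh : Cfsg.IsCoherent (↑S₀ : Set (N → ℂ)) {1}ᶜ τ) (ψ : N → ℂ) (hψ : ψ ∈ S₀) (hdvd : d ψ ∣ d χ) (hlt : 2 * d ψ * d χ < ∑ ξ ∈ S₀, d ξ ^ 2) : Cfsg.IsCoherent (↑(insert χ S₀) : Set (N → ℂ)) {1}ᶜ τ := by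
  classical
  obtain ⟨⟨θ0, hθ0, hθ0ne⟩, τ₁, hτ₁, hτ₁τ⟩ := hcoh
  obtain ⟨k, hk⟩ := hdvd
  have hS₀S : (↑S₀ : Set (N → ℂ)) ⊆ ↑(insert χ S₀) := by
    intro x hx
    exact Finset.mem_coe.mpr (Finset.mem_insert_of_mem hx)
  have hχmem : χ ∈ (↑(insert χ S₀) : Set (N → ℂ)) :=
    Finset.mem_coe.mpr (Finset.mem_insert_self _ _)
  have hdψ : ψ 1 = (d ψ : ℂ) := hd ψ (Finset.mem_insert_of_mem hψ)
  have hdχ : χ 1 = (d χ : ℂ) := hd χ (Finset.mem_insert_self _ _)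
  have hdψ0 : 0 < d ψ := by
    obtain ⟨n, hn, e⟩ := irr_apply_one (hirr ψ hψ)
    rw [hdψ] at e
    have : d ψ = n := by exact_mod_cast e
    omega
  have hdχ0 : 0 < d χ := by
    obtain ⟨n, hn, e⟩ := irr_apply_one hχ
    rw [hdχ] at e
    have : d χ = n := by exact_mod_cast e
    omega
  have hne : ∀ ξ ∈ S₀, ξ ≠ χ := fun ξ hξ e => hχS (e ▸ hξ)
  have cψ : ψ ∈ zspan (↑S₀ : Set (N → ℂ)) := subset_zspan hψ
  have hβ : χ - (k : ℤ) • ψ ∈ zspanOn (↑(insert χ S₀) : Set (N → ℂ)) {1}ᶜ := by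
    rw [mem_zspanOn_one]
    refine ⟨zspan_sub (subset_zspan hχmem) (zspan_zsmul _ (subset_zspan (hS₀S hψ))), ?_⟩
    simp only [Pi.sub_apply, Pi.smul_apply, zsmul_eq_mul, Pi.mul_apply, Pi.intCast_apply, hdψ,
      hdχ, hk]
    push_cast
    ring
  have hTg : IsGeneralizedCharacter G (τ (χ - (k : ℤ) • ψ)) := hτ.2.2.2 _ hβ
  have hTT : classInner (τ (χ - (k : ℤ) • ψ)) (τ (χ - (k : ℤ) • ψ)) = 1 + (k : ℂ) ^ 2 := by
    rw [hτ.2.2.1 _ hβ _ hβ]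
    simp only [classInner_sub_left, classInner_sub_right, classInner_zsmul_left,
      classInner_zsmul_right]
    rw [classInner_irr_self hχ, classInner_irr_self (hirr ψ hψ),
      classInner_irr_ne hχ (hirr ψ hψ) (hne ψ hψ).symm,
      classInner_irr_ne (hirr ψ hψ) hχ (hne ψ hψ)]
    push_cast
    ring
  generalize hT : τ (χ - (k : ℤ) • ψ) = T at hTg hTT
  have hex : ∀ ξ : N → ℂ, ∃ n : ℤ, ξ ∈ S₀ → classInner T (τ₁ ξ) = n := by
    intro ξ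
    by_cases hξ : ξ ∈ S₀
    · obtain ⟨n, hn⟩ := genChar_inner_int hTg (hτ₁.2.2.2 ξ (subset_zspan hξ))
      exact ⟨n, fun _ => hn⟩
    · exact ⟨0, fun h => absurd h hξ⟩
  choose a ha using hex
  have hon : ∀ ξ ∈ S₀, ∀ η ∈ S₀, classInner (τ₁ ξ) (τ₁ η) = if ξ = η then 1 else 0 := by
    intro ξ hξ η hη
    rw [hτ₁.2.2.1 _ (subset_zspan hξ) _ (subset_zspan hη), classInner_irr (hirr ξ hξ) (hirr η hη)]
  have mγ : ∀ ξ ∈ S₀, ((d ψ : ℕ) : ℤ) • ξ - ((d ξ : ℕ) : ℤ) • ψ ∈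
      zspanOn (↑S₀ : Set (N → ℂ)) {1}ᶜ := by
    intro ξ hξ
    have hdξ : ξ 1 = (d ξ : ℂ) := hd ξ (Finset.mem_insert_of_mem hξ)
    exact pair_mem (X := (↑S₀ : Set (N → ℂ))) hξ hψ (a₁ := (d ξ : ℤ)) (a₂ := (d ψ : ℤ))
      (by simpa using hdξ) (by simpa using hdψ)
  have eγ : ∀ ξ ∈ S₀, τ (((d ψ : ℕ) : ℤ) • ξ - ((d ξ : ℕ) : ℤ) • ψ) =
      ((d ψ : ℕ) : ℤ) • τ₁ ξ - ((d ξ : ℕ) : ℤ) • τ₁ ψ := by
    intro ξ hξ
    rw [← hτ₁τ _ (mγ ξ hξ), iso_sub hτ₁ (zspan_zsmul _ (subset_zspan hξ)) (zspan_zsmul _ cψ),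
      hτ₁.2.1 _ (subset_zspan hξ), hτ₁.2.1 _ cψ]
  have R : ∀ ξ ∈ S₀, ((d ψ : ℕ) : ℤ) * a ξ =
      ((d ξ : ℕ) : ℤ) * (a ψ + k) - (if ξ = ψ then (k : ℤ) * ((d ψ : ℕ) : ℤ) else 0) := by
    intro ξ hξ
    have h0 := hτ.2.2.1 _ hβ _ (zspanOn_mono hS₀S (mγ ξ hξ))
    rw [hT, eγ ξ hξ, classInner_sub_right, classInner_zsmul_right, classInner_zsmul_right,
      ha ξ hξ, ha ψ hψ] at h0
    simp only [classInner_sub_left, classInner_sub_right, classInner_zsmul_left,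
      classInner_zsmul_right] at h0
    rw [classInner_irr_ne hχ (hirr ξ hξ) (hne ξ hξ).symm,
      classInner_irr_ne hχ (hirr ψ hψ) (hne ψ hψ).symm,
      classInner_irr_self (hirr ψ hψ)] at h0
    by_cases h : ξ = ψ
    · subst h
      rw [if_pos rfl]
      ring
    · rw [classInner_irr_ne (hirr ψ hψ) (hirr ξ hξ) (Ne.symm h)] at h0
      rw [if_neg h]
      have : ((((d ψ : ℕ) : ℤ) * a ξ : ℤ) : ℂ) = ((((d ξ : ℕ) : ℤ) * (a ψ + k) - 0 : ℤ) : ℂ) := by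
        push_cast
        push_cast at h0
        linear_combination h0
      exact_mod_cast this
  have V : ∀ ξ ∈ S₀, (((d ψ : ℕ) : ℤ) : ℂ) * τ₁ ξ 1 = (((d ξ : ℕ) : ℤ) : ℂ) * τ₁ ψ 1 := by
    intro ξ hξ
    have h0 := hτ1 _ (zspanOn_mono hS₀S (mγ ξ hξ))
    rw [eγ ξ hξ] at h0
    simp only [Pi.sub_apply, Pi.smul_apply, zsmul_eq_mul, Pi.mul_apply, Pi.intCast_apply] at h0
    linear_combination h0
  obtain ⟨P, hP⟩ : ∃ P : G → ℂ, P = ∑ ξ ∈ S₀, a ξ • τ₁ ξ := ⟨_, rfl⟩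
  obtain ⟨Δ, hΔ⟩ : ∃ Δ : G → ℂ, Δ = T - P := ⟨_, rfl⟩
  have hPg : IsGeneralizedCharacter G P := by
    rw [hP]
    exact genChar_sum _ _ (fun ξ hξ => genChar_zsmul (hτ₁.2.2.2 ξ (subset_zspan hξ)) _)
  have hΔg : IsGeneralizedCharacter G Δ := by
    rw [hΔ]; exact genChar_sub hTg hPg
  have hPξ : ∀ ξ ∈ S₀, classInner P (τ₁ ξ) = a ξ := by
    intro ξ hξ
    rw [hP, classInner_sum_left,
      Finset.sum_congr rfl (fun η hη => by rw [classInner_zsmul_left, hon η hη ξ hξ])]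
    simp [hξ]
  have hΔξ : ∀ ξ ∈ S₀, classInner Δ (τ₁ ξ) = 0 := by
    intro ξ hξ
    rw [hΔ, classInner_sub_left, ha ξ hξ, hPξ ξ hξ, sub_self]
  have hΔP : classInner Δ P = 0 := by
    rw [hP, classInner_sum_right]
    apply Finset.sum_eq_zero
    intro ξ hξ
    rw [classInner_zsmul_right, hΔξ ξ hξ, mul_zero]
  have hTP : classInner T P = ∑ ξ ∈ S₀, (a ξ : ℂ) ^ 2 := by
    rw [hP, classInner_sum_right]
    apply Finset.sum_congr rfl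
    intro ξ hξ
    rw [classInner_zsmul_right, ha ξ hξ]
    ring
  have hPΔ : classInner P Δ = 0 := by rw [← classInner_conj_symm, hΔP, map_zero]
  obtain ⟨D, hD⟩ := genChar_inner_int hΔg hΔg
  have hN : 1 + (k : ℤ) ^ 2 - D = ∑ ξ ∈ S₀, a ξ ^ 2 := by
    have h1 : classInner Δ Δ = classInner T Δ - classInner P Δ := by
      conv_lhs => rw [hΔ, classInner_sub_left, ← hΔ]
    have h2 : classInner T Δ = classInner T T - classInner T P := by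
      rw [hΔ, classInner_sub_right]
    rw [hD, h2, hPΔ, hTT, hTP] at h1
    have : ((1 + (k : ℤ) ^ 2 - D : ℤ) : ℂ) = ((∑ ξ ∈ S₀, a ξ ^ 2 : ℤ) : ℂ) := by
      push_cast
      linear_combination -h1
    exact_mod_cast this
  have hD0 : 0 ≤ D := self_int_nonneg hD
  have hdψ0' : (0 : ℤ) < ((d ψ : ℕ) : ℤ) := by exact_mod_cast hdψ0
  have hA := arith S₀ ψ hψ (fun ξ => ((d ξ : ℕ) : ℤ)) a k (a ψ + k) D (by positivity) hdψ0' R hN
  have hW : 2 * (k : ℤ) * ((d ψ : ℕ) : ℤ) ^ 2 < ∑ ξ ∈ S₀, ((d ξ : ℕ) : ℤ) ^ 2 := by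
    have : ((2 * d ψ * d χ : ℕ) : ℤ) < ((∑ ξ ∈ S₀, d ξ ^ 2 : ℕ) : ℤ) := by exact_mod_cast hlt
    rw [hk] at this
    push_cast at this
    calc 2 * (k : ℤ) * ((d ψ : ℕ) : ℤ) ^ 2 = 2 * (d ψ : ℤ) * ((d ψ : ℤ) * k) := by ring
      _ < _ := this
  generalize hWdef : ∑ ξ ∈ S₀, ((d ξ : ℕ) : ℤ) ^ 2 = W at hA hW
  have hk0 : (0 : ℤ) ≤ (k : ℤ) := by positivity
  have hkd : (0 : ℤ) ≤ (k : ℤ) * ((d ψ : ℕ) : ℤ) ^ 2 := by positivity
  have hy0 : a ψ + k = 0 := by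
    by_contra hyne
    have hR := R
    generalize a ψ + (k : ℤ) = y at hA hyne hR
    have hy1 : y ≤ y ^ 2 := Int.le_self_sq y
    have hy2 : 1 ≤ y ^ 2 := by
      have : 0 < y ^ 2 := by positivity
      omega
    have hpos : 0 < y ^ 2 * W - 2 * y * k * ((d ψ : ℕ) : ℤ) ^ 2 := by
      have e1 : 2 * y * k * ((d ψ : ℕ) : ℤ) ^ 2 ≤ 2 * y ^ 2 * ((k : ℤ) * ((d ψ : ℕ) : ℤ) ^ 2) := by
        nlinarith
      have e2 : 1 * (W - 2 * (k : ℤ) * ((d ψ : ℕ) : ℤ) ^ 2) ≤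
          y ^ 2 * (W - 2 * (k : ℤ) * ((d ψ : ℕ) : ℤ) ^ 2) :=
        mul_le_mul_of_nonneg_right hy2 (by linarith)
      nlinarith
    have hD1 : D = 0 := by
      have h1 : 0 < ((d ψ : ℕ) : ℤ) ^ 2 * (1 - D) := by rw [hA]; exact hpos
      have h2 : 0 < 1 - D := by
        by_contra h
        push Not at h
        have : ((d ψ : ℕ) : ℤ) ^ 2 * (1 - D) ≤ 0 :=
          mul_nonpos_of_nonneg_of_nonpos (by positivity) h
        linarith
      omega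
    have hΔ0 : Δ = 0 := classInner_self_eq_zero (by rw [hD, hD1]; simp)
    have hTP' : T = P := by
      rw [hΔ0] at hΔ
      exact sub_eq_zero.mp hΔ.symm
    have hT1 : T 1 = 0 := by rw [← hT]; exact hτ1 _ hβ
    have h0 : ∑ ξ ∈ S₀, (a ξ : ℂ) * τ₁ ξ 1 = 0 := by
      rw [hTP', hP, Finset.sum_apply] at hT1
      rw [← hT1]
      apply Finset.sum_congr rfl
      intro ξ _
      rw [Pi.smul_apply, zsmul_eq_mul]
    have h3 := arith2 S₀ ψ hψ (fun ξ => ((d ξ : ℕ) : ℤ)) a k y (fun ξ => τ₁ ξ 1) hR V h0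
    have t0 : τ₁ ψ 1 ≠ 0 :=
      norm_one_apply_one_ne (hτ₁.2.2.2 _ cψ) (by rw [hon ψ hψ ψ hψ, if_pos rfl])
    have E : y * W - k * ((d ψ : ℕ) : ℤ) ^ 2 = 0 := by
      have := (mul_eq_zero.mp h3).resolve_right t0
      rw [hWdef] at this
      exact_mod_cast this
    have hWpos : 0 < W := by linarith
    have hynn : 0 ≤ y := by
      by_contra h
      push Not at h
      have : y * W < 0 := mul_neg_of_neg_of_pos h hWpos
      linarith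
    rw [hD1] at hA
    have h5 : ((d ψ : ℕ) : ℤ) ^ 2 * (1 + y * k) = 0 := by linear_combination hA + y * E
    have h6 : ((d ψ : ℕ) : ℤ) ^ 2 ≠ 0 := by positivity
    have h7 := (mul_eq_zero.mp h5).resolve_left h6
    have h8 : 0 ≤ y * k := mul_nonneg hynn hk0
    linarith
  rw [hy0] at hA
  have hD1 : D = 1 := by
    have h1 : ((d ψ : ℕ) : ℤ) ^ 2 * (1 - D) = 0 := by rw [hA]; ring
    have h2 : ((d ψ : ℕ) : ℤ) ^ 2 ≠ 0 := by positivity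
    have := (mul_eq_zero.mp h1).resolve_left h2
    omega
  have haψ : a ψ = -k := by omega
  have haξ : ∀ ξ ∈ S₀, ξ ≠ ψ → a ξ = 0 := by
    intro ξ hξ h
    have h1 := R ξ hξ
    rw [hy0, if_neg h] at h1
    have h2 : ((d ψ : ℕ) : ℤ) * a ξ = 0 := by rw [h1]; ring
    exact (mul_eq_zero.mp h2).resolve_left hdψ0'.ne'
  have hP' : P = (-(k : ℤ)) • τ₁ ψ := by
    rw [hP, Finset.sum_eq_single ψ (fun ξ hξ h => by rw [haξ ξ hξ h, zero_smul])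
      (fun h => absurd hψ h), haψ]
  have hTΔ : T = Δ - (k : ℤ) • τ₁ ψ := by
    rw [hΔ, hP', neg_smul]
    abel
  refine ⟨⟨θ0, zspanOn_mono hS₀S hθ0, hθ0ne⟩, ?_⟩
  have hcoe : (↑(insert χ S₀) : Set (N → ℂ)) = ↑S₀ ∪ {χ} := by
    rw [Finset.coe_insert, Set.union_singleton]
  have hτ' : IsLinearIsometryOn (zspan ({χ} : Set (N → ℂ)))
      (fun θ : N → ℂ => classInner θ χ • Δ) := by
    refine ⟨?_, ?_, ?_, ?_⟩
    · intro α _ β _
      simp only [classInner_add_left, add_smul]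
    · intro α _ n
      simp only [classInner_zsmul_left]
      rw [mul_smul, Int.cast_smul_eq_zsmul]
    · intro α hα β hβ
      obtain ⟨n, rfl⟩ := Submodule.mem_span_singleton.mp hα
      obtain ⟨m, rfl⟩ := Submodule.mem_span_singleton.mp hβ
      simp only [classInner_zsmul_left, classInner_zsmul_right, classInner_smul_left,
        classInner_smul_right, classInner_irr_self hχ, hD, hD1]
      simp
    · intro α hα
      obtain ⟨n, rfl⟩ := Submodule.mem_span_singleton.mp hα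
      simp only [classInner_zsmul_left, classInner_irr_self hχ, mul_one]
      rw [Int.cast_smul_eq_zsmul]
      exact genChar_zsmul hΔg n
  have hfin := coherent_union (S := (↑(insert χ S₀) : Set (N → ℂ))) (X := (↑S₀ : Set (N → ℂ)))
    (Y := {χ}) (σ := τ₁) (τ := fun θ : N → ℂ => classInner θ χ • Δ) (α := τ) hS₀S
    (by simpa using hχmem) ?hdeg ?hperp hτ hτ₁ hτ₁τ hτ' ?hτα ?hστ hψ (Set.mem_singleton χ)
    (c := (d ψ : ℤ)) (e := (d χ : ℤ)) (by simpa using hdψ) (by simpa using hdχ) (by omega)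
    (by omega) ?hglue
  · rw [hcoe]
    exact hfin
  case hdeg =>
    intro ξ hξ
    exact ⟨d ξ, by simpa using hd ξ hξ⟩
  case hperp =>
    intro x hx y hy
    rw [Set.mem_singleton_iff.mp hy]
    exact classInner_irr_ne (hirr x hx) hχ (hne x hx)
  case hτα =>
    intro θ hθ
    rw [mem_zspanOn_one] at hθ
    obtain ⟨n, rfl⟩ := Submodule.mem_span_singleton.mp hθ.1
    have h1 := hθ.2
    rw [Pi.smul_apply, hdχ, zsmul_eq_mul] at h1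
    have h2 : (d χ : ℂ) ≠ 0 := by exact_mod_cast hdχ0.ne'
    have h3 : n = 0 := by
      have := (mul_eq_zero.mp h1).resolve_right h2
      exact_mod_cast this
    subst h3
    have h4 := hτ.2.1 _ hβ 0
    simp only [zero_smul] at h4 ⊢
    rw [h4, classInner_zero_left, zero_smul]
  case hστ =>
    intro x hx y hy
    rw [Set.mem_singleton_iff.mp hy]
    simp only [classInner_irr_self hχ, one_smul]
    rw [← classInner_conj_symm, hΔξ x hx, map_zero]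
  case hglue =>
    simp only [classInner_irr_self hχ, one_smul]
    have e : ((d ψ : ℕ) : ℤ) • χ - ((d χ : ℕ) : ℤ) • ψ = ((d ψ : ℕ) : ℤ) • (χ - (k : ℤ) • ψ) := by
      rw [hk, smul_sub, smul_smul]
      push_cast
      rfl
    rw [e, hτ.2.1 _ hβ, hT, hTΔ, smul_sub, smul_smul, hk]
    push_cast
    rfl

end Cfsg.Agent.S1530
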