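import Cfsg.Statements.S1531
import Cfsg.Agent.Lib.Helper24.Coherence

set_option autoImplicit false
open Cfsg

namespace Cfsg.Agent.S1531


open Cfsg.Agent.Lib.Helper7 Cfsg.Agent.Lib.Helper11 Cfsg.Agent.Lib.Helper24.Coh


/-- Let N be a subgroup of the finite group G, S a set of irreducible characters of N, and α a linear isometry on the integer combinations of S vanishing at 1 with values virtual characters of G vanishing at 1. Let X, Y ⊆ S be disjoint, each with at least two members, and σ, τ linear isometries on ℤ[X], ℤ[Y] into virtual characters agreeing with α on the members vanishing at 1. Then ⟨σ χ, τ η⟩ = 0 for χ ∈ X, η ∈ Y; and if for some χ₀ ∈ X, η₀ ∈ Y with degrees c = χ₀ 1, e = η₀ 1 one has α (c • η₀ − e • χ₀) = c • τ η₀ − e • σ χ₀, then (X ∪ Y, N minus 1, α) is coherent. -/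
theorem result {G : Type*} [Group G] [Fintype G] (N : Subgroup G) [Fintype N] (S X Y : Set (N → ℂ)) (hirr : ∀ ξ ∈ S, Cfsg.IsIrrCharacter N ξ) (hXS : X ⊆ S) (hYS : Y ⊆ S) (hXY : Disjoint X Y) (hX2 : ∃ a ∈ X, ∃ b ∈ X, a ≠ b) (hY2 : ∃ a ∈ Y, ∃ b ∈ Y, a ≠ b) (α : (N → ℂ) → (G → ℂ)) (hα : Cfsg.IsLinearIsometryOn (Cfsg.zspanOn S {1}ᶜ) α) (hα1 : ∀ θ ∈ Cfsg.zspanOn S {1}ᶜ, α θ 1 = 0) (σ τ : (N → ℂ) → (G → ℂ)) (hσ : Cfsg.IsLinearIsometryOn (Cfsg.zspan X) σ) (hσα : ∀ θ ∈ Cfsg.zspanOn X {1}ᶜ, σ θ = α θ) (hτ : Cfsg.IsLinearIsometryOn (Cfsg.zspan Y) τ) (hτα : ∀ θ ∈ Cfsg.zspanOn Y {1}ᶜ, τ θ = α θ) : (∀ χ ∈ X, ∀ η ∈ Y, Cfsg.classInner (σ χ) (τ η) = 0) ∧ ((∃ χ₀ ∈ X, ∃ η₀ ∈ Y, α (χ₀ 1 • η₀ - η₀ 1 • χ₀) = χ₀ 1 • τ η₀ - η₀ 1 • σ χ₀) → Cfsg.IsCoherent (X ∪ Y) {1}ᶜ α) := by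
  classical
  obtain ⟨x₁, hx₁, x₂, hx₂, hx⟩ := hX2
  obtain ⟨y₁, hy₁, y₂, hy₂, hy⟩ := hY2
  have part1 : ∀ χ ∈ X, ∀ η ∈ Y, Cfsg.classInner (σ χ) (τ η) = 0 := by
    intro χ hχ η hη
    obtain ⟨χ', hχ', hne⟩ : ∃ χ' ∈ X, χ ≠ χ' := by
      by_cases h : χ = x₁
      · exact ⟨x₂, hx₂, h ▸ hx⟩
      · exact ⟨x₁, hx₁, h⟩
    obtain ⟨η', hη', hne'⟩ : ∃ η' ∈ Y, η ≠ η' := by
      by_cases h : η = y₁
      · exact ⟨y₂, hy₂, h ▸ hy⟩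
      · exact ⟨y₁, hy₁, h⟩
    exact cross_orthogonal hirr hXS hYS hXY hα hα1 hσ hσα hτ hτα hχ hχ' hne hη hη' hne'
  refine ⟨part1, ?_⟩
  rintro ⟨χ₀, hχ₀, η₀, hη₀, hglue⟩
  have hperp : ∀ x ∈ X, ∀ y ∈ Y, classInner x y = 0 := by
    intro x hx y hy
    refine classInner_irr_ne (hirr _ (hXS hx)) (hirr _ (hYS hy)) ?_
    rintro rfl
    exact Set.disjoint_left.mp hXY hx hy
  refine ⟨?_, ?_⟩
  · obtain ⟨θ, hθ, hθ0⟩ := exists_nonzero (fun ξ hξ => hirr ξ (hXS hξ)) hx₁ hx₂ hx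
    exact ⟨θ, zspanOn_mono Set.subset_union_left hθ, hθ0⟩
  · obtain ⟨c, hc0, hc⟩ := irr_apply_one (hirr _ (hXS hχ₀))
    obtain ⟨e, he0, he⟩ := irr_apply_one (hirr _ (hYS hη₀))
    refine coherent_union hXS hYS ?_ hperp hα hσ hσα hτ hτα part1 hχ₀ hη₀ (c := (c : ℤ))
      (e := (e : ℤ)) (by simpa using hc) (by simpa using he) (by omega) (by omega) ?_
    · intro ξ hξ
      obtain ⟨n, _, hn⟩ := irr_apply_one (hirr _ hξ)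
      exact ⟨n, by simpa using hn⟩
    · rw [hc, he] at hglue
      simpa [← Int.cast_smul_eq_zsmul ℂ] using hglue

end Cfsg.Agent.S1531
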