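import Cfsg.Statements.S3375
-- import your own Cfsg.Agent.* helpers here
import Mathlib

set_option autoImplicit false
open Cfsg

namespace Cfsg.Agent.S3375

lemma main_aux {H : Type*} [Group H] [Finite H] (γ : MulAut H) (hγ2 : ∀ h, γ (γ h) = h)
    (hF : Nat.card {h : H // γ h = h} = 2) (A : Subgroup H) (hA : A.index = 2)
    (hmem : ∀ h : H, h * (γ h)⁻¹ ∈ A) :
    IsMulCommutative A ∧ (∀ a ∈ A, γ a ∈ A) ∧ ∀ a ∈ A, γ a = a⁻¹ := by
  classical
  let F : Subgroup H := (γ.toMonoidHom).eqLocus (MonoidHom.id H)
  have hFmem : ∀ h, h ∈ F ↔ γ h = h := fun h => Iff.rfl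
  have hFcard : Nat.card F = 2 := by
    rw [← hF]; exact Nat.card_congr (Equiv.subtypeEquivRight (fun h => Iff.rfl))
  let φ : H ⧸ F → A := Quotient.lift (fun h : H => (⟨h * (γ h)⁻¹, hmem h⟩ : A)) (by
    intro a b hab
    have hab' : a⁻¹ * b ∈ F := QuotientGroup.leftRel_apply.mp hab
    rw [hFmem, map_mul, map_inv] at hab'
    apply Subtype.ext
    show a * (γ a)⁻¹ = b * (γ b)⁻¹
    have : γ b = γ a * (a⁻¹ * b) := by rw [← hab']; group
    rw [this]; group)
  have hφinj : Function.Injective φ := by
    intro x y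
    induction x using QuotientGroup.induction_on with
    | H a =>
    induction y using QuotientGroup.induction_on with
    | H b =>
    intro hxy
    have h1 : a * (γ a)⁻¹ = b * (γ b)⁻¹ := congrArg Subtype.val hxy
    apply QuotientGroup.eq.mpr
    rw [hFmem, map_mul, map_inv]
    have : (γ a)⁻¹ = a⁻¹ * (b * (γ b)⁻¹) := by rw [← h1]; group
    rw [this]; group
  have hcard : Nat.card A ≤ Nat.card (H ⧸ F) := by
    have h1 := F.card_mul_index
    have h2 := A.card_mul_index
    rw [hFcard] at h1
    rw [hA] at h2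
    have : Nat.card (H ⧸ F) = F.index := rfl
    omega
  have hφsurj : Function.Surjective φ := (hφinj.bijective_of_nat_card_le hcard).2
  have hinv : ∀ a ∈ A, γ a = a⁻¹ := by
    intro a ha
    obtain ⟨x, hx⟩ := hφsurj ⟨a, ha⟩
    induction x using QuotientGroup.induction_on with
    | H h =>
    have h1 : h * (γ h)⁻¹ = a := congrArg Subtype.val hx
    rw [← h1, map_mul, map_inv, hγ2]
    group
  refine ⟨?_, ?_, hinv⟩
  · apply IsMulCommutative.of_setLike_mul_comm
    intro a ha b hb
    have h1 := hinv (a * b) (A.mul_mem ha hb)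
    rw [map_mul, hinv a ha, hinv b hb] at h1
    have h2 := congrArg (fun t => t⁻¹) h1
    simpa using h2.symm
  · intro a ha
    rw [hinv a ha]; exact A.inv_mem ha

/-- Let γ be an automorphism of order 2 of a finite group H. (i) If γ fixes only the identity, then H is abelian and γ inverts every element. (ii) If γ has exactly two fixed points and H has a subgroup of index 2, then H has a γ-invariant abelian subgroup of index 2 on which γ acts by inversion. -/
theorem result {H : Type*} [Group H] [Finite H] (γ : MulAut H) (hγ : orderOf γ = 2) :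
    ((∀ h : H, γ h = h → h = 1) → (∀ a b : H, a * b = b * a) ∧ ∀ h : H, γ h = h⁻¹) ∧
    ((Nat.card {h : H // γ h = h} = 2 ∧ ∃ M : Subgroup H, M.index = 2) →
      ∃ A : Subgroup H, A.index = 2 ∧ IsMulCommutative A ∧ (∀ a ∈ A, γ a ∈ A) ∧ ∀ a ∈ A, γ a = a⁻¹) := by
  classical
  have hγ2 : ∀ h, γ (γ h) = h := by
    intro h
    have : γ ^ 2 = 1 := by rw [← hγ]; exact pow_orderOf_eq_one γ
    have h2 := congrArg (fun f : MulAut H => f h) this
    simpa [pow_two] using h2
  constructor
  · intro hfix
    have hinj : Function.Injective (fun h : H => h⁻¹ * γ h) := by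
      intro a b hab
      have hab' : a⁻¹ * γ a = b⁻¹ * γ b := hab
      have h1 : γ (b * a⁻¹) = b * a⁻¹ := by
        rw [map_mul, map_inv]
        have : γ b = b * (a⁻¹ * γ a) := by rw [hab']; group
        rw [this]; group
      have h2 := hfix _ h1
      have h3 : b = a := by
        have := congrArg (fun t => t * a) h2
        simpa using this
      exact h3.symm
    have hsurj : Function.Surjective (fun h : H => h⁻¹ * γ h) := Finite.surjective_of_injective hinj
    have hinv : ∀ h : H, γ h = h⁻¹ := by
      intro x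
      obtain ⟨h, rfl⟩ := hsurj x
      simp only [map_mul, map_inv, hγ2]
      group
    refine ⟨?_, hinv⟩
    intro a b
    have h1 := hinv (a * b)
    rw [map_mul, hinv a, hinv b] at h1
    have h2 := congrArg (fun t => t⁻¹) h1
    simpa using h2.symm
  · rintro ⟨hF, M, hM⟩
    by_cases hinvM : ∀ h : H, h ∈ M ↔ γ h ∈ M
    · refine ⟨M, hM, main_aux γ hγ2 hF M hM ?_⟩
      intro h
      rw [Subgroup.mul_mem_iff_of_index_two hM, inv_mem_iff]
      exact hinvM h
    · push Not at hinvM
      obtain ⟨a, ha⟩ := hinvM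
      let M₃ : Subgroup H :=
        { carrier := {h | h ∈ M ↔ γ h ∈ M}
          mul_mem' := by
            intro x y hx hy
            simp only [Set.mem_setOf_eq] at hx hy ⊢
            rw [map_mul, Subgroup.mul_mem_iff_of_index_two hM, Subgroup.mul_mem_iff_of_index_two hM, hx, hy]
          one_mem' := by simp [M.one_mem]
          inv_mem' := by
            intro x hx
            simp only [Set.mem_setOf_eq] at hx ⊢
            rw [map_inv, inv_mem_iff, inv_mem_iff, hx] }
      have hM₃mem : ∀ h, h ∈ M₃ ↔ (h ∈ M ↔ γ h ∈ M) := fun h => Iff.rfl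
      have hM₃ : M₃.index = 2 := by
        rw [Subgroup.index_eq_two_iff]
        refine ⟨a, fun b => ?_⟩
        rw [hM₃mem, hM₃mem, map_mul, Subgroup.mul_mem_iff_of_index_two hM,
          Subgroup.mul_mem_iff_of_index_two hM]
        unfold Xor
        tauto
      refine ⟨M₃, hM₃, main_aux γ hγ2 hF M₃ hM₃ ?_⟩
      intro h
      rw [hM₃mem, map_mul, map_inv, hγ2, Subgroup.mul_mem_iff_of_index_two hM,
        Subgroup.mul_mem_iff_of_index_two hM, inv_mem_iff, inv_mem_iff]
      tauto

end Cfsg.Agent.S3375
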