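import Cfsg.Statements.S1532
import Cfsg.Agent.Lib.Helper24.Coherence9
import Cfsg.Agent.S0161
import Cfsg.Agent.S3375
import Cfsg.Agent.S1528

set_option autoImplicit false
open Cfsg

namespace Cfsg.Agent.S1532

open Cfsg.Agent.Lib.Helper7 Cfsg.Agent.Lib.Helper11 Cfsg.Agent.Lib.Helper24.Coh
  Cfsg.Agent.Lib.Helper24.Coh5 Cfsg.Agent.Lib.Helper24.Coh8 Cfsg.Agent.Lib.Helper24.Coh9
open Cfsg.Agent.Lib.Helper24.TIFrob
open scoped ComplexConjugate

/-- a Frobenius group with non-abelian kernel of odd order has odd order -/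
theorem odd_of_nonabelian {N : Type*} [Group N] [Finite N] (H : Subgroup N) [hH : H.Normal]
    (hC : ∀ h ∈ H, h ≠ 1 → Subgroup.centralizer ({h} : Set N) ≤ H)
    (hoddH : Odd (Nat.card H)) (hna : ¬ ∀ a b : H, a * b = b * a) : Odd (Nat.card N) := by
  by_contra hev
  rw [Nat.not_odd_iff_even] at hev
  haveI : Fact (Nat.Prime 2) := ⟨Nat.prime_two⟩
  obtain ⟨t, ht⟩ := exists_prime_orderOf_dvd_card' (G := N) 2 hev.two_dvd
  have htH : t ∉ H := by
    intro h
    have h1 : orderOf (⟨t, h⟩ : H) = 2 := by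
      rw [← ht]; exact (Subgroup.orderOf_mk t h)
    have h2 := orderOf_dvd_natCard (⟨t, h⟩ : H)
    rw [h1] at h2
    exact (Nat.not_even_iff_odd.mpr hoddH) (even_iff_two_dvd.mpr h2)
  have hfix : ∀ h : H, (MulAut.conjNormal t : MulAut H) h = h → h = 1 := by
    intro h hh
    by_contra h1
    apply htH
    apply hC h h.2 (fun e => h1 (Subtype.ext e))
    rw [Subgroup.mem_centralizer_singleton_iff]
    have h2 := congrArg Subtype.val hh
    rw [MulAut.conjNormal_apply] at h2
    calc t * (h : N) = t * h * t⁻¹ * t := by group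
      _ = h * t := by rw [h2]
  have hne : ∃ h : H, h ≠ 1 := by
    by_contra hcon
    push Not at hcon
    apply hna
    intro a b
    rw [hcon a, hcon b]
  have hord : orderOf (MulAut.conjNormal t : MulAut H) = 2 := by
    apply orderOf_eq_prime
    · rw [← map_pow, ← ht, pow_orderOf_eq_one, map_one]
    · intro h1
      obtain ⟨h, hh⟩ := hne
      exact hh (hfix h (by rw [h1]; rfl))
  exact hna ((Cfsg.Agent.S3375.result _ hord).1 hfix).1

section main

variable {G : Type*} [Group G] [Fintype G] (K : Subgroup G)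
  [Fintype ↥(Subgroup.normalizer (K : Set G))]

open Classical in
theorem main (p : ℕ) [hp : Fact p.Prime] (hp2 : p ≠ 2) (m : ℕ) (hKcard : Nat.card K = p ^ m)
    (hcop : ¬ p ∣ (K.subgroupOf (Subgroup.normalizer (K : Set G))).index)
    (hna : ¬ ∀ a ∈ K, ∀ b ∈ K, a * b = b * a)
    (hTI : ∀ g : G, g ∉ Subgroup.normalizer (K : Set G) → ∀ k ∈ K, g * k * g⁻¹ ∈ K → k = 1)
    (hC : ∀ k ∈ K, k ≠ 1 → Subgroup.centralizer ({k} : Set G) ≤ K)
    (Z : Subgroup G) (hZ1 : Z ≠ ⊥) (hZP : ∀ z ∈ Z, z ∈ K ∧ ∀ y ∈ K, z * y = y * z)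
    (hZn : ∀ x ∈ Subgroup.normalizer (K : Set G), ∀ z ∈ Z, x * z * x⁻¹ ∈ Z) :
    IsCoherent {χ : ↥(Subgroup.normalizer (K : Set G)) → ℂ |
      IsIrrCharacter ↥(Subgroup.normalizer (K : Set G)) χ ∧
      ∃ z : ↥(Subgroup.normalizer (K : Set G)), (z : G) ∈ Z ∧ χ z ≠ χ 1} {1}ᶜ
      (fun α => indFun (Subgroup.normalizer (K : Set G)) α) := by
  have hfinI : Finite (IrrCharacter ↥(Subgroup.normalizer (K : Set G))) :=
    Cfsg.Agent.Lib.Helper25.finite_irrCharacter
  haveI : Fintype (IrrCharacter ↥(Subgroup.normalizer (K : Set G))) := Fintype.ofFinite _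
  have hKN : K ≤ Subgroup.normalizer (K : Set G) := Subgroup.le_normalizer
  have hC' : ∀ h ∈ K.subgroupOf (Subgroup.normalizer (K : Set G)), h ≠ 1 →
      Subgroup.centralizer ({h} : Set ↥(Subgroup.normalizer (K : Set G))) ≤
        K.subgroupOf (Subgroup.normalizer (K : Set G)) := by
    intro h hh h1 c hc
    rw [Subgroup.mem_subgroupOf]
    apply hC (h : G) hh (fun e => h1 (Subtype.ext e))
    rw [Subgroup.mem_centralizer_singleton_iff] at hc ⊢
    exact congrArg Subtype.val hc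
  haveI hZnorm : (Z.subgroupOf (Subgroup.normalizer (K : Set G))).Normal :=
    ⟨fun z hz g => hZn g g.2 z hz⟩
  have hcardH : Nat.card (K.subgroupOf (Subgroup.normalizer (K : Set G))) = p ^ m := by
    rw [← hKcard]
    exact Nat.card_congr (Subgroup.subgroupOfEquivOfLe hKN).toEquiv
  have hp3 : 3 ≤ p := by
    have := hp.1.two_le
    omega
  have hpodd : Odd p := hp.1.odd_of_ne_two hp2
  have hNodd : Odd (Nat.card ↥(Subgroup.normalizer (K : Set G))) :=
    odd_of_nonabelian (K.subgroupOf (Subgroup.normalizer (K : Set G))) hC'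
      (by rw [hcardH]; exact hpodd.pow) (by
        intro h
        apply hna
        intro a ha b hb
        have := h ⟨⟨a, hKN ha⟩, ha⟩ ⟨⟨b, hKN hb⟩, hb⟩
        exact congrArg (fun x : ↥(K.subgroupOf (Subgroup.normalizer (K : Set G))) =>
          ((x : ↥(Subgroup.normalizer (K : Set G))) : G)) this)
  set T : Finset (↥(Subgroup.normalizer (K : Set G)) → ℂ) :=
    ((Finset.univ : Finset (IrrCharacter ↥(Subgroup.normalizer (K : Set G)))).filter
      (fun χ : IrrCharacter ↥(Subgroup.normalizer (K : Set G)) =>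
        ∃ z : ↥(Subgroup.normalizer (K : Set G)), (z : G) ∈ Z ∧
        (χ : ↥(Subgroup.normalizer (K : Set G)) → ℂ) z ≠
          (χ : ↥(Subgroup.normalizer (K : Set G)) → ℂ) 1)).image Subtype.val with hT
  have hmemT : ∀ φ, φ ∈ T ↔ IsIrrCharacter ↥(Subgroup.normalizer (K : Set G)) φ ∧
      ∃ z : ↥(Subgroup.normalizer (K : Set G)), (z : G) ∈ Z ∧ φ z ≠ φ 1 := by
    intro φ
    rw [hT, Finset.mem_image]
    constructor
    · rintro ⟨χ, hχ, rfl⟩
      exact ⟨χ.2, (Finset.mem_filter.mp hχ).2⟩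
    · rintro ⟨h1, h2⟩
      exact ⟨⟨φ, h1⟩, Finset.mem_filter.mpr ⟨Finset.mem_univ _, h2⟩, rfl⟩
  have hcoe : (↑T : Set (↥(Subgroup.normalizer (K : Set G)) → ℂ)) =
      {χ : ↥(Subgroup.normalizer (K : Set G)) → ℂ |
      IsIrrCharacter ↥(Subgroup.normalizer (K : Set G)) χ ∧
      ∃ z : ↥(Subgroup.normalizer (K : Set G)), (z : G) ∈ Z ∧ χ z ≠ χ 1} := by
    ext φ
    rw [Finset.mem_coe, hmemT]
    rfl
  rw [← hcoe]
  have hirr : ∀ φ ∈ T, IsIrrCharacter ↥(Subgroup.normalizer (K : Set G)) φ :=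
    fun φ hφ => ((hmemT φ).mp hφ).1
  have hrel : ∀ φ ∈ T, ∃ h ∈ K.subgroupOf (Subgroup.normalizer (K : Set G)), φ h ≠ φ 1 := by
    intro φ hφ
    obtain ⟨-, z, hz, hne⟩ := (hmemT φ).mp hφ
    exact ⟨z, (hZP z hz).1, hne⟩
  have hvan : ∀ φ ∈ T, ∀ x : ↥(Subgroup.normalizer (K : Set G)), (x : G) ∉ K → φ x = 0 :=
    fun φ hφ x hx => vanish_off _ hC' (hirr φ hφ) (hrel φ hφ) hx
  obtain ⟨hτ, hτ1⟩ := TI_iso K hTI (↑T) hirr hvan
  have he0 : 0 < (K.subgroupOf (Subgroup.normalizer (K : Set G))).index :=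
    Nat.pos_of_ne_zero Subgroup.index_ne_zero_of_finite
  -- the index of Z in K
  obtain ⟨y, hy⟩ : ∃ y, ((Z.subgroupOf (Subgroup.normalizer (K : Set G))).subgroupOf
      (K.subgroupOf (Subgroup.normalizer (K : Set G)))).index = p ^ y := by
    have hd' : ((Z.subgroupOf (Subgroup.normalizer (K : Set G))).subgroupOf
      (K.subgroupOf (Subgroup.normalizer (K : Set G)))).index ∣ p ^ m := by
      rw [← hcardH]; exact Subgroup.index_dvd_card _
    obtain ⟨i, -, hi⟩ := (Nat.dvd_prime_pow hp.1).mp hd'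
    exact ⟨i, hi⟩
  have hdeg : ∀ φ ∈ T, ∃ a : ℕ,
      φ 1 = (((K.subgroupOf (Subgroup.normalizer (K : Set G))).index * p ^ a : ℕ) : ℂ) ∧
      p ^ (2 * a) ∣ ((Z.subgroupOf (Subgroup.normalizer (K : Set G))).subgroupOf
        (K.subgroupOf (Subgroup.normalizer (K : Set G)))).index := by
    intro φ hφ
    obtain ⟨θ, h1, rfl⟩ := Cfsg.Agent.S1528.result _ hC' φ (hirr φ hφ) (hrel φ hφ)
    obtain ⟨t, ht0, ht⟩ := irr_apply_one h1
    have htd : t ∣ p ^ m := by
      have h3 := charDegree_dvd_card (⟨θ, h1⟩ : IrrCharacter _)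
      have h4 := charDegree_cast (isCharacter_of_irr h1)
      rw [ht] at h4
      have h5 : charDegree θ = t := by exact_mod_cast h4
      rw [← hcardH, ← h5]
      exact h3
    obtain ⟨a, -, rfl⟩ := (Nat.dvd_prime_pow hp.1).mp htd
    refine ⟨a, ?_, ?_⟩
    · rw [Cfsg.Agent.Lib.Helper25.indFun_one, ht]
      push_cast
      rfl
    · have h3 := Cfsg.Agent.Lib.Helper25.degree_sq_mul_card_le h1
        ((Z.subgroupOf (Subgroup.normalizer (K : Set G))).subgroupOf
          (K.subgroupOf (Subgroup.normalizer (K : Set G)))) (by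
        intro z hz c
        have : z * c * z⁻¹ * c⁻¹ = 1 := by
          apply Subtype.ext
          apply Subtype.ext
          have := (hZP (z : ↥(Subgroup.normalizer (K : Set G))) hz).2
            (c : ↥(Subgroup.normalizer (K : Set G))) c.2
          push_cast
          rw [this]
          group
        rw [this])
      rw [ht, Complex.norm_natCast] at h3
      have h4 : (p ^ a) ^ 2 * Nat.card ((Z.subgroupOf (Subgroup.normalizer (K : Set G))).subgroupOf
          (K.subgroupOf (Subgroup.normalizer (K : Set G)))) ≤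
          Nat.card (K.subgroupOf (Subgroup.normalizer (K : Set G))) := by exact_mod_cast h3
      have h5 := ((Z.subgroupOf (Subgroup.normalizer (K : Set G))).subgroupOf
          (K.subgroupOf (Subgroup.normalizer (K : Set G)))).card_mul_index
      have h6 : (p ^ a) ^ 2 ≤ ((Z.subgroupOf (Subgroup.normalizer (K : Set G))).subgroupOf
          (K.subgroupOf (Subgroup.normalizer (K : Set G)))).index := by
        have hpos : 0 < Nat.card ((Z.subgroupOf (Subgroup.normalizer (K : Set G))).subgroupOf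
          (K.subgroupOf (Subgroup.normalizer (K : Set G)))) := Nat.card_pos
        apply Nat.le_of_mul_le_mul_right _ hpos
        rw [← h5] at h4
        rw [mul_comm (Subgroup.index _)]
        exact h4
      rw [hy] at h6 ⊢
      rw [← pow_mul, mul_comm a 2] at h6
      exact Nat.pow_dvd_pow p ((Nat.pow_le_pow_iff_right hp.1.one_lt).mp h6)
  choose! a ha1 ha2 using hdeg
  have hZK : Z.subgroupOf (Subgroup.normalizer (K : Set G)) ≤
      K.subgroupOf (Subgroup.normalizer (K : Set G)) := fun z hz => (hZP z hz).1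
  -- total weight
  have htot : (K.subgroupOf (Subgroup.normalizer (K : Set G))).index * ∑ φ ∈ T, p ^ (2 * a φ) +
      ((Z.subgroupOf (Subgroup.normalizer (K : Set G))).subgroupOf
        (K.subgroupOf (Subgroup.normalizer (K : Set G)))).index =
      Nat.card (K.subgroupOf (Subgroup.normalizer (K : Set G))) := by
    have h1 := sum_ker_deg_mul (Z.subgroupOf (Subgroup.normalizer (K : Set G))) 1
    rw [if_pos (one_mem _)] at h1
    have h2 := sum_sq_all (N := ↥(Subgroup.normalizer (K : Set G)))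
    have h3 : ∑ φ ∈ T, φ 1 ^ 2 = ∑ χ : IrrCharacter ↥(Subgroup.normalizer (K : Set G)),
        (if ∀ n ∈ Z.subgroupOf (Subgroup.normalizer (K : Set G)),
          (χ : ↥(Subgroup.normalizer (K : Set G)) → ℂ) n =
            (χ : ↥(Subgroup.normalizer (K : Set G)) → ℂ) 1 then 0 else
          (χ : ↥(Subgroup.normalizer (K : Set G)) → ℂ) 1 ^ 2) := by
      rw [hT, Finset.sum_image (fun x _ y _ h => Subtype.ext h), Finset.sum_filter]
      apply Finset.sum_congr rfl
      intro χ _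
      by_cases hc : ∀ n ∈ Z.subgroupOf (Subgroup.normalizer (K : Set G)),
          (χ : ↥(Subgroup.normalizer (K : Set G)) → ℂ) n =
            (χ : ↥(Subgroup.normalizer (K : Set G)) → ℂ) 1
      · rw [if_pos hc, if_neg]
        rintro ⟨z, hz, hne⟩
        exact hne (hc z hz)
      · rw [if_neg hc, if_pos]
        push Not at hc
        obtain ⟨z, hz, hne⟩ := hc
        exact ⟨z, hz, hne⟩
    have h4 : ∑ φ ∈ T, φ 1 ^ 2 + ((Z.subgroupOf (Subgroup.normalizer (K : Set G))).index : ℂ) =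
        (Nat.card ↥(Subgroup.normalizer (K : Set G)) : ℂ) := by
      rw [h3, ← h1, ← h2, ← Finset.sum_add_distrib]
      apply Finset.sum_congr rfl
      intro χ _
      split_ifs <;> ring
    have h5 : ∑ φ ∈ T, φ 1 ^ 2 =
        (((K.subgroupOf (Subgroup.normalizer (K : Set G))).index ^ 2 *
          ∑ φ ∈ T, p ^ (2 * a φ) : ℕ) : ℂ) := by
      push_cast
      rw [Finset.mul_sum]
      apply Finset.sum_congr rfl
      intro φ hφ
      rw [ha1 φ hφ]
      push_cast
      ring
    rw [h5] at h4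
    have h6 : (K.subgroupOf (Subgroup.normalizer (K : Set G))).index ^ 2 *
          ∑ φ ∈ T, p ^ (2 * a φ) + (Z.subgroupOf (Subgroup.normalizer (K : Set G))).index =
        Nat.card ↥(Subgroup.normalizer (K : Set G)) := by exact_mod_cast h4
    have h7 := Subgroup.relIndex_mul_index hZK
    have h8 := (K.subgroupOf (Subgroup.normalizer (K : Set G))).card_mul_index
    rw [← h7, ← h8] at h6
    apply Nat.eq_of_mul_eq_mul_right he0
    rw [← h6]
    simp only [Subgroup.relIndex]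
    ring
  have hd : ∀ ξ ∈ T, ξ 1 = (((fun φ => (K.subgroupOf (Subgroup.normalizer (K : Set G))).index *
      p ^ a φ) ξ : ℕ) : ℂ) := fun ξ hξ => ha1 ξ hξ
  -- T is nonempty
  have hTne : T.Nonempty := by
    obtain ⟨⟨z₀, hz₀⟩, hz₀1'⟩ := (Subgroup.ne_bot_iff_exists_ne_one).mp hZ1
    have hz₀1 : z₀ ≠ 1 := fun h => hz₀1' (Subtype.ext h)
    have hz₀N : z₀ ∈ Subgroup.normalizer (K : Set G) := hKN (hZP z₀ hz₀).1
    by_contra hemp
    have hall : ∀ θ : IrrCharacter ↥(Subgroup.normalizer (K : Set G)),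
        (θ : ↥(Subgroup.normalizer (K : Set G)) → ℂ) ⟨z₀, hz₀N⟩ =
          (θ : ↥(Subgroup.normalizer (K : Set G)) → ℂ) 1 := by
      intro θ
      by_contra hne
      exact hemp ⟨θ, (hmemT _).mpr ⟨θ.2, ⟨z₀, hz₀N⟩, hz₀, hne⟩⟩
    have h1 := sum_deg_mul (N := ↥(Subgroup.normalizer (K : Set G))) (x := ⟨z₀, hz₀N⟩)
      (fun h => hz₀1 (congrArg Subtype.val h))
    have h2 := sum_sq_all (N := ↥(Subgroup.normalizer (K : Set G)))
    have h3 : ∑ χ : IrrCharacter ↥(Subgroup.normalizer (K : Set G)),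
        (χ : ↥(Subgroup.normalizer (K : Set G)) → ℂ) 1 *
          (χ : ↥(Subgroup.normalizer (K : Set G)) → ℂ) ⟨z₀, hz₀N⟩ =
        ∑ χ : IrrCharacter ↥(Subgroup.normalizer (K : Set G)),
          (χ : ↥(Subgroup.normalizer (K : Set G)) → ℂ) 1 ^ 2 := by
      apply Finset.sum_congr rfl
      intro χ _
      rw [hall χ]; ring
    rw [h3, h2] at h1
    exact (Nat.card_pos (α := ↥(Subgroup.normalizer (K : Set G)))).ne' (by exact_mod_cast h1)
  apply coherent_by_degree_irr T hirr
    (fun φ => (K.subgroupOf (Subgroup.normalizer (K : Set G))).index * p ^ a φ) hd _ hτ hτ1 hTne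
  · intro Y hYT hY2 hYd
    apply equal_degree_TI K hTI Y (fun χ hχ => hirr χ (hYT hχ)) (fun χ hχ => hvan χ (hYT hχ)) hY2
    intro φ hφ ψ hψ
    rw [ha1 φ (hYT hφ), ha1 ψ (hYT hψ), hYd φ hφ ψ hψ]
  · intro χ hχ
    obtain ⟨h1, z, hz, hne⟩ := (hmemT χ).mp hχ
    have hc : (fun g => conj (χ g)) ∈ T := (hmemT _).mpr
      ⟨Cfsg.Agent.Lib.Helper2.IsIrrCharacter.conj h1, z, hz,
        fun h => hne ((starRingEnd ℂ).injective h)⟩
    refine ⟨_, hc, ?_, ?_⟩
    · intro heq
      apply hne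
      have h2 := Cfsg.Agent.S0161.result hNodd ⟨χ, h1⟩ (by
        intro g
        exact Complex.conj_eq_iff_im.mp (congrFun heq g))
      have h3 : χ = fun _ => 1 := h2
      rw [h3]
    · have e1 := hd _ hc
      have e2 := hd χ hχ
      have e3 : conj (χ 1) = χ 1 := by rw [e2]; simp
      rw [e3, e2] at e1
      exact_mod_cast e1.symm
  · exact step_numeric T _ a _ p _ _ hp.1 hp3 he0
      ((Nat.Prime.coprime_iff_not_dvd hp.1).mpr hcop) (fun _ _ => rfl) ha2
      (Subgroup.index_dvd_card _) htot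

end main


/-- Let G be a finite group, p an odd prime and P a Sylow p-subgroup that is non-abelian, whose underlying set is a TI-subset of G, with P properly contained in its set normaliser N and C_G(x) ≤ P for every non-identity x ∈ P. Let Z be a nontrivial subgroup of the centre of P normalised by N. Then the set of irreducible characters χ of N with χ z ≠ χ 1 for some z ∈ Z is coherent for the map induced by induction from N to G. -/
theorem result {G : Type*} [Group G] [Fintype G] (p : ℕ) [Fact p.Prime] (hp : p ≠ 2) (P : Sylow p G) (hna : ¬ IsMulCommutative (P : Subgroup G)) (hTI : Cfsg.IsTISubset ((P : Subgroup G) : Set G)) (hlt : (P : Subgroup G) < Subgroup.normalizer ((P : Subgroup G) : Set G)) (hC : ∀ k ∈ (P : Subgroup G), k ≠ 1 → Subgroup.centralizer ({k} : Set G) ≤ (P : Subgroup G)) [Fintype ↥(Subgroup.normalizer ((P : Subgroup G) : Set G))] (Z : Subgroup G) (hZ1 : Z ≠ ⊥) (hZP : ∀ z ∈ Z, z ∈ (P : Subgroup G) ∧ ∀ y ∈ (P : Subgroup G), z * y =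 y * z) (hZn : ∀ x ∈ Subgroup.normalizer ((P : Subgroup G) : Set G), ∀ z ∈ Z, x * z * x⁻¹ ∈ Z) : Cfsg.IsCoherent {χ : ↥(Subgroup.normalizer ((P : Subgroup G) : Set G)) → ℂ | Cfsg.IsIrrCharacter ↥(Subgroup.normalizer ((P : Subgroup G) : Set G)) χ ∧ ∃ z : ↥(Subgroup.normalizer ((P : Subgroup G) : Set G)), (z : G) ∈ Z ∧ χ z ≠ χ 1} {1}ᶜ (fun α => Cfsg.indFun (Subgroup.normalizer ((P : Subgroup G) : Set G)) α) := by
  obtain ⟨m, hm⟩ := (IsPGroup.iff_card).mp P.2
  refine main (P : Subgroup G) p hp m hm ?_ ?_ hTI hC Z hZ1 hZP hZn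
  · intro hd
    exact P.not_dvd_index (hd.trans (Subgroup.relIndex_dvd_index_of_le hlt.le))
  · intro h
    exact hna ⟨⟨fun a b => Subtype.ext (h a a.2 b b.2)⟩⟩

end Cfsg.Agent.S1532
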