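import Cfsg.Statements.S1536
import Mathlib
import Cfsg.Agent.Lib.Helper11.BrauerFix
import Cfsg.Agent.S1496
-- import your own Cfsg.Agent.* helpers here

set_option autoImplicit false
open Cfsg

namespace Cfsg.Agent.S1536

open Cfsg.Agent.Lib.Helper7 Cfsg.Agent.Lib.Helper11

/-- Let H be a normal subgroup of the finite group M whose order is coprime to its index. For x ∈ M: some non-principal irreducible character of H is unchanged under h ↦ θ(x h x⁻¹) if and only if some non-identity element of H commutes with x. -/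
theorem result {M : Type*} [Group M] [Finite M] (H : Subgroup M) [hN : H.Normal] (hHall : Nat.Coprime (Nat.card H) H.index) (x : M) : (∃ θ : H → ℂ, Cfsg.IsIrrCharacter H θ ∧ θ ≠ (fun _ => 1) ∧ (fun h : H => θ ⟨x * h * x⁻¹, hN.conj_mem h h.2 x⟩) = θ) ↔ ∃ h ∈ H, h ≠ 1 ∧ x * h = h * x := by
  rw [exists_fixed_irr_iff H x]
  constructor
  · rintro ⟨h, hh, hne, m, hm, he⟩
    by_cases hx : x ^ H.index = 1
    · have hord : (orderOf x).Coprime (Nat.card H) :=
        Nat.Coprime.coprime_dvd_left (orderOf_dvd_of_pow_eq_one hx) hHall.symm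
      have hxn : x ∈ Subgroup.normalizer (H : Set M) := by
        rw [Subgroup.normalizer_eq_top]; exact Subgroup.mem_top x
      obtain ⟨z, hz, c, hc, hcx, hzc⟩ := Cfsg.Agent.S1496.result H x hxn hord m⁻¹ (H.inv_mem hm)
      have hy : (m⁻¹ * x) * h = h * (m⁻¹ * x) := by
        have h1 : x * h = m * h * m⁻¹ * x := by rw [← he]; group
        calc m⁻¹ * x * h = m⁻¹ * (x * h) := by group
          _ = m⁻¹ * (m * h * m⁻¹ * x) := by rw [h1]
          _ = h * (m⁻¹ * x) := by group
      have h2 : Commute (c * x) (z * h * z⁻¹) := by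
        show (c * x) * (z * h * z⁻¹) = (z * h * z⁻¹) * (c * x)
        rw [← hzc]
        calc z * (m⁻¹ * x) * z⁻¹ * (z * h * z⁻¹) = z * ((m⁻¹ * x) * h) * z⁻¹ := by group
          _ = z * (h * (m⁻¹ * x)) * z⁻¹ := by rw [hy]
          _ = _ := by group
      have hoc : orderOf c ∣ Nat.card H := by
        have := orderOf_dvd_natCard (⟨c, hc⟩ : H)
        rwa [Subgroup.orderOf_mk] at this
      have hcop : (orderOf c).Coprime (orderOf x) :=
        (Nat.Coprime.coprime_dvd_right hoc hord).symm
      obtain ⟨k, hk0, hk1⟩ := Nat.chineseRemainder hcop 0 1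
      have hck : c ^ k = 1 := orderOf_dvd_iff_pow_eq_one.mp ((Nat.modEq_zero_iff_dvd).mp hk0)
      have hxk : x ^ k = x := by
        have := pow_eq_pow_iff_modEq.mpr hk1
        simpa using this
      have hpow : (c * x) ^ k = x := by
        have hcc : Commute c x := hcx
        rw [hcc.mul_pow, hck, hxk, one_mul]
      refine ⟨z * h * z⁻¹, hN.conj_mem h hh z, ?_, ?_⟩
      · intro h3
        apply hne
        have : h = z⁻¹ * (z * h * z⁻¹) * z := by group
        rw [this, h3]; group
      · have h4 := h2.pow_left k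
        rw [hpow] at h4
        exact h4
    · exact ⟨x ^ H.index, H.pow_index_mem x, hx, by rw [← pow_succ', ← pow_succ]⟩
  · rintro ⟨h, hh, hne, hcomm⟩
    exact ⟨h, hh, hne, 1, H.one_mem, by rw [hcomm]; group⟩

end Cfsg.Agent.S1536
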