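import Cfsg.Statements.S1546
import Mathlib

set_option autoImplicit false
open Cfsg

namespace Cfsg.Agent.S1546

theorem geom_modEq (p d : ℕ) (h : p ≡ 1 [MOD d]) (n : ℕ) :
    ∑ i ∈ Finset.range n, p ^ i ≡ n [MOD d] := by
  induction n with
  | zero => simp [Nat.ModEq]
  | succ n ih =>
    rw [Finset.sum_range_succ]
    have h1 : p ^ n ≡ 1 [MOD d] := by simpa using h.pow n
    exact ih.add h1

/-- Let p and q be odd primes and N = (p ^ q − 1) / (p − 1) = 1 + p + ⋯ + p^(q−1). Then N is odd; if p ≡ 1 (mod q) then q ∣ N; and if p is not ≡ 1 (mod q) then N is coprime to p − 1 and every divisor of N is ≡ 1 (mod q). -/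
theorem result (p q : ℕ) (hp : p.Prime) (hq : q.Prime) (hp2 : p ≠ 2) (hq2 : q ≠ 2) : Odd ((p ^ q - 1) / (p - 1)) ∧ (p % q = 1 → q ∣ (p ^ q - 1) / (p - 1)) ∧ (p % q ≠ 1 → Nat.Coprime ((p ^ q - 1) / (p - 1)) (p - 1) ∧ ∀ x : ℕ, x ∣ (p ^ q - 1) / (p - 1) → x % q = 1) := by
  rw [← Nat.geomSum_eq hp.two_le q]
  set N := ∑ k ∈ Finset.range q, p ^ k with hN
  have hq1 : 1 < q := hq.one_lt
  have hp1 : 1 < p := hp.one_lt
  have hpodd : Odd p := hp.odd_of_ne_two hp2
  have hqodd : Odd q := hq.odd_of_ne_two hq2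
  have hNmul : N * (p - 1) = p ^ q - 1 := by
    have := Nat.geomSum_eq hp.two_le q
    rw [← hN] at this
    rw [this]
    apply Nat.div_mul_cancel
    exact Nat.sub_one_dvd_pow_sub_one p q
  refine ⟨?_, ?_, ?_⟩
  · have h1 : p ≡ 1 [MOD 2] := by
      rw [Nat.odd_iff] at hpodd
      exact hpodd
    have h2 := geom_modEq p 2 h1 q
    rw [Nat.odd_iff] at hqodd ⊢
    rw [h2, hqodd]
  · intro h
    have h1 : p ≡ 1 [MOD q] := by
      show p % q = 1 % q
      rw [h, Nat.mod_eq_of_lt hq1]
    have h2 := geom_modEq p q h1 q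
    have h3 : N ≡ 0 [MOD q] := h2.trans (by simp [Nat.ModEq])
    exact (Nat.modEq_zero_iff_dvd).mp h3
  · intro h
    have hndvd : ¬ q ∣ p - 1 := by
      intro hd
      apply h
      obtain ⟨k, hk⟩ := hd
      have : p = q * k + 1 := by omega
      rw [this, Nat.mul_add_mod, Nat.mod_eq_of_lt hq1]
    have hcop : Nat.Coprime N (p - 1) := by
      have h1 : p ≡ 1 [MOD (p - 1)] := by
        have : p = 1 + (p - 1) := by omega
        conv_lhs => rw [this]
        simp [Nat.ModEq]
      have h2 := geom_modEq p (p - 1) h1 q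
      have h3 : Nat.gcd N (p - 1) = Nat.gcd q (p - 1) := h2.gcd_eq
      show Nat.gcd N (p - 1) = 1
      rw [h3]
      exact (Nat.Prime.coprime_iff_not_dvd hq).mpr hndvd
    refine ⟨hcop, ?_⟩
    have hNpos : 0 < N := by
      rw [hN]
      apply Finset.sum_pos
      · intro i _
        positivity
      · exact ⟨0, Finset.mem_range.mpr hq.pos⟩
    have hprime : ∀ r : ℕ, r.Prime → r ∣ N → r % q = 1 := by
      intro r hr hrN
      haveI : Fact r.Prime := ⟨hr⟩
      have hpq : ((p : ZMod r)) ^ q = 1 := by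
        have h1 : r ∣ p ^ q - 1 := hNmul ▸ Dvd.dvd.mul_right hrN _
        have h2 : ((p ^ q - 1 : ℕ) : ZMod r) = 0 := (ZMod.natCast_eq_zero_iff _ _).mpr h1
        rw [Nat.cast_sub (Nat.one_le_pow _ _ hp.pos)] at h2
        push_cast at h2
        exact sub_eq_zero.mp h2
      have hp0 : (p : ZMod r) ≠ 0 := by
        intro h0
        rw [h0, zero_pow hq.ne_zero] at hpq
        exact zero_ne_one hpq
      have hord : orderOf (p : ZMod r) ∣ q := orderOf_dvd_of_pow_eq_one hpq
      rcases (Nat.dvd_prime hq).mp hord with h1 | h1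
      · exfalso
        rw [orderOf_eq_one_iff] at h1
        have h2 : ((p - 1 : ℕ) : ZMod r) = 0 := by
          rw [Nat.cast_sub hp.one_le, h1]
          simp
        have h3 : r ∣ p - 1 := (ZMod.natCast_eq_zero_iff _ _).mp h2
        have h4 : r ∣ 1 := by
          have := Nat.dvd_gcd hrN h3
          rwa [hcop] at this
        exact hr.one_lt.ne' (Nat.dvd_one.mp h4)
      · have h2 := ZMod.orderOf_dvd_card_sub_one hp0
        rw [h1] at h2
        obtain ⟨k, hk⟩ := h2
        have : r = q * k + 1 := by have := hr.one_le; omega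
        rw [this, Nat.mul_add_mod, Nat.mod_eq_of_lt hq1]
    intro x
    induction x using induction_on_primes with
    | zero =>
      intro h0
      exact absurd (Nat.eq_zero_of_zero_dvd h0) hNpos.ne'
    | one =>
      intro _
      exact Nat.mod_eq_of_lt hq1
    | prime_mul r a hr ih =>
      intro hra
      have h1 := hprime r hr (Dvd.dvd.trans (Dvd.intro _ rfl) hra)
      have h2 := ih (Dvd.dvd.trans (Dvd.intro_left _ rfl) hra)
      rw [Nat.mul_mod, h1, h2]
      exact Nat.mod_eq_of_lt hq1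

end Cfsg.Agent.S1546
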