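import Mathlib
import Cfsg.Statements.S1552
import Cfsg.Agent.Lib.Helper3.DataYS
import Cfsg.Agent.Lib.Helper3.SxTrBase

set_option autoImplicit false
open scoped Pointwise
open Cfsg

namespace Cfsg.Agent.S1552

/-- A sextet stabiliser has four orbits on the 1771 sextets, of sizes 1, 90, 240, 1440; and the stabiliser is a maximal proper subgroup. -/
theorem result (S : Finset (Finset Cfsg.GolayPt)) (hS : S ∈ Cfsg.sextets) : ∃ X₁ ∈ Cfsg.sextets, ∃ X₂ ∈ Cfsg.sextets, ∃ X₃ ∈ Cfsg.sextets, (MulAction.orbit ↥(MulAction.stabilizer Cfsg.M24 S) X₁).ncard = 90 ∧ (MulAction.orbit ↥(MulAction.stabilizer Cfsg.M24 S) X₂).ncard = 240 ∧ (MulAction.orbit ↥(MulAction.stabilizer Cfsg.M24 S) X₃).ncard = 1440 ∧ Cfsg.sextets = {S} ∪ MulAction.orbit ↥(MulAction.stabilizer Cfsg.M24 S) X₁ ∪ MulAction.orbit ↥(MulAction.stabilizer Cfsg.M24 S) X₂ ∪ MulAction.orbit ↥(MulAction.stabilizer Cfsg.M24 S) X₃ ∧ IsCoatom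 (MulAction.stabilizer Cfsg.M24 S) := by
  open Cfsg.Agent.Lib.Helper3 in
  have hN : Nat.card (MulAction.stabilizer Cfsg.M24 S0) = 138240 := card_stab_sextet S0_mem
  have hSt : ∀ σ ∈ StabF [0xf, 0x1490, 0x98100, 0x342000, 0x400a40, 0x824020],
      σ ∈ Cfsg.M24 ∧ σ • S0 = S0 := fun σ hσ => ⟨hσ.1, by
    have h2 : σ • famOf [0xf, 0x1490, 0x98100, 0x342000, 0x400a40, 0x824020] =
      famOf [0xf, 0x1490, 0x98100, 0x342000, 0x400a40, 0x824020] := hσ.2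
    rwa [famOf_S0] at h2⟩
  obtain ⟨b1, b2, b3, _⟩ := sextet_orbits S0 ![1, 90, 240, 1440] 138240 (gensIn_of_chkF gensYS) hSt
    chkYSsx hN (by decide)
  obtain ⟨u, hu, huo⟩ := sextet_to_S0 hS
  obtain ⟨d1, d2, d3⟩ := orbits_transfer (Cfsg.M24.inv_mem hu) S0 Cfsg.sextets
    (fun g hg x hx => smul_mem_sextets hg hx) _ _ b1 b2 b3
  have hY : u⁻¹ • S0 = S := by rw [← huo, inv_smul_smul]
  rw [hY] at d2 d3
  obtain ⟨e1, e2⟩ := isCoatom_of_orbits S Cfsg.sextets (orbit_M24_sextet hS) _ ![1, 90, 240, 1440]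
    1771 ncard_sextets (by norm_num) d2 d3 (by decide) rfl (by decide)
  have d4 := unpack4 d3
  rw [e1] at d4
  exact ⟨_, d1 1, _, d1 2, _, d1 3, d2 1, d2 2, d2 3, d4, e2⟩

end Cfsg.Agent.S1552
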