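import Cfsg.Statements.S1553
import Mathlib
import Cfsg.Agent.Lib.Helper11.OctA8
-- import your own Cfsg.Agent.* helpers here

set_option autoImplicit false
open scoped Pointwise
open Cfsg

namespace Cfsg.Agent.S1553

open Cfsg Cfsg.Agent.Lib.Helper3 Cfsg.Agent.Lib.Helper11

/-- The stabiliser of an octad in the group of the length-24 code induces on the octad exactly its alternating group. -/
theorem result (o : Finset Cfsg.GolayPt) (ho : o ∈ Cfsg.octads) : {e : Equiv.Perm ↥o | ∃ g : Equiv.Perm Cfsg.GolayPt, g ∈ Cfsg.M24 ∧ ∃ h : (∀ x, g x ∈ o ↔ x ∈ o), g.subtypePerm h = e} = (alternatingGroup ↥o : Set (Equiv.Perm ↥o)) := by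
  rw [← range_resHom ho]
  ext e
  constructor
  · rintro ⟨g, hg, h, rfl⟩
    exact ⟨⟨g, mem_SetStab.2 ⟨hg, smul_eq_iff_forall.2 h⟩⟩, rfl⟩
  · rintro ⟨g, rfl⟩
    exact ⟨g.1, (mem_SetStab.1 g.2).1, smul_eq_iff_forall.1 (mem_SetStab.1 g.2).2, rfl⟩

end Cfsg.Agent.S1553
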