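import Cfsg.Statements.S1554
import Mathlib
import Cfsg.Agent.Lib.Helper11.OctA8
-- import your own Cfsg.Agent.* helpers here

set_option autoImplicit false
open scoped Pointwise
open Cfsg

namespace Cfsg.Agent.S1554

open Cfsg Cfsg.Agent.Lib.Helper3 Cfsg.Agent.Lib.Helper11

/-- An octad stabiliser is a split extension: the joint stabiliser of the octad and a point outside it is a complement to the pointwise stabiliser of the octad, and is isomorphic to the alternating group of degree 8. -/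
theorem result (o : Finset Cfsg.GolayPt) (ho : o ∈ Cfsg.octads) (p : Cfsg.GolayPt) (hp : p ∉ o) : (Cfsg.M24 ⊓ fixingSubgroup (Equiv.Perm Cfsg.GolayPt) (o : Set Cfsg.GolayPt)) ⊓ (Cfsg.M24 ⊓ MulAction.stabilizer (Equiv.Perm Cfsg.GolayPt) o ⊓ MulAction.stabilizer (Equiv.Perm Cfsg.GolayPt) p) = ⊥ ∧ (Cfsg.M24 ⊓ fixingSubgroup (Equiv.Perm Cfsg.GolayPt) (o : Set Cfsg.GolayPt)) ⊔ (Cfsg.M24 ⊓ MulAction.stabilizer (Equiv.Perm Cfsg.GolayPt) o ⊓ MulAction.stabilizer (Equiv.Perm Cfsg.GolayPt) p) = (Cfsg.M24 ⊓ MulAction.stabilizer (Equiv.Perm Cfsg.GolayPt) o) ∧ Nonempty (↥(Cfsg.M24 ⊓ MulAction.stabilizer (Equiv.Perm Cfsg.GolayPt) o ⊓ MulAction.stabilizer (Equiv.Perm Cfsg.GolayPt) p) ≃* alternatingGroup (Fin 8)) := by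
  have hmemA : ∀ g : Equiv.Perm GolayPt, g ∈ SetStab o ⊓ MulAction.stabilizer (Equiv.Perm GolayPt) p ↔
      g ∈ SetStab o ∧ g p = p := by
    intro g
    rw [Subgroup.mem_inf]; rfl
  -- splitting of an element of the stabiliser
  have hsplit : ∀ g ∈ SetStab o, ∃ t ∈ PtStab o, t * g ∈ SetStab o ⊓
      MulAction.stabilizer (Equiv.Perm GolayPt) p := by
    intro g hg
    have hgp : g p ∉ o := by
      intro hc
      exact hp ((smul_eq_iff_forall.1 (mem_SetStab.1 hg).2 p).1 hc)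
    obtain ⟨t, ht, htp⟩ := PtStab_trans ho hgp hp
    exact ⟨t, ht, (hmemA _).2 ⟨(SetStab o).mul_mem (PtStab_le_SetStab o ht) hg, htp⟩⟩
  refine ⟨?_, ?_, ?_⟩
  · rw [eq_bot_iff]
    intro g hg
    rw [Subgroup.mem_inf] at hg
    rw [Subgroup.mem_bot]
    exact PtStab_free ho hp hg.1 ((hmemA g).1 hg.2).2
  · apply le_antisymm
    · exact sup_le (PtStab_le_SetStab o) inf_le_left
    · intro g hg
      obtain ⟨t, ht, htg⟩ := hsplit g hg
      have : g = t⁻¹ * (t * g) := by group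
      rw [this]
      exact Subgroup.mul_mem_sup ((PtStab o).inv_mem ht) htg
  · let ψ : ↥(SetStab o ⊓ MulAction.stabilizer (Equiv.Perm GolayPt) p) →* Equiv.Perm ↥o :=
      (resHom o).comp (Subgroup.inclusion inf_le_left)
    have hinj : Function.Injective ψ := by
      rw [injective_iff_map_eq_one]
      intro a ha
      have h1 : (Subgroup.inclusion inf_le_left a : ↥(SetStab o)) ∈ (resHom o).ker := ha
      rw [mem_ker_resHom] at h1
      apply Subtype.ext
      exact PtStab_free ho hp h1 ((hmemA a.1).1 a.2).2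
    have hrange : ψ.range = alternatingGroup ↥o := by
      rw [← range_resHom ho]
      apply le_antisymm
      · rintro _ ⟨a, rfl⟩
        exact ⟨_, rfl⟩
      · rintro _ ⟨g, rfl⟩
        obtain ⟨t, ht, htg⟩ := hsplit g.1 g.2
        refine ⟨⟨t * g.1, htg⟩, ?_⟩
        have h1 : (⟨t, PtStab_le_SetStab o ht⟩ : ↥(SetStab o)) ∈ (resHom o).ker :=
          (mem_ker_resHom _).2 ht
        have h2 : (Subgroup.inclusion inf_le_left (⟨t * g.1, htg⟩ :
            ↥(SetStab o ⊓ MulAction.stabilizer (Equiv.Perm GolayPt) p)) : ↥(SetStab o)) =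
            ⟨t, PtStab_le_SetStab o ht⟩ * g := rfl
        show resHom o _ = _
        rw [h2, map_mul, MonoidHom.mem_ker.1 h1, one_mul]
    exact ⟨(MonoidHom.ofInjective hinj).trans ((MulEquiv.subgroupCongr hrange).trans
      (Equiv.altCongrHom (o.equivFinOfCardEq ho.2)))⟩

end Cfsg.Agent.S1554
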