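import Mathlib
import Cfsg.Statements.S1556
import Cfsg.Agent.Lib.Helper3.Tools
import Cfsg.Agent.Lib.Helper3.OrbOct

set_option autoImplicit false
open scoped Pointwise
open Cfsg

namespace Cfsg.Agent.S1556

/-- Two octads meeting a fixed octad in equally many points are in the same orbit of its stabiliser. -/
theorem result (o o' o'' : Finset Cfsg.GolayPt) (ho : o ∈ Cfsg.octads) (ho' : o' ∈ Cfsg.octads) (ho'' : o'' ∈ Cfsg.octads) (h : (o ∩ o').card = (o ∩ o'').card) : ∃ g : Equiv.Perm Cfsg.GolayPt, g ∈ Cfsg.M24 ∧ g • o = o ∧ g • o' = o'' := by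
  open Cfsg.Agent.Lib.Helper3 in
  obtain ⟨u, hu, huo⟩ := octad_to_O0 ho
  obtain ⟨σ', hσ', h'⟩ := octad_to_rep (smul_mem_octads hu ho')
  obtain ⟨σ'', hσ'', h''⟩ := octad_to_rep (smul_mem_octads hu ho'')
  refine transfer_pair (S := StabM [0x149f]) (Y0 := O0) (fun σ hσ => StabM_one hσ) hu huo hσ' hσ'' ?_
  apply mask_injective
  rw [h', h'', ← huo, card_smul_inter, card_smul_inter, h]

end Cfsg.Agent.S1556
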