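import Cfsg.Statements.S1558
import Cfsg.Agent.Lib.Helper28.Trio3

set_option autoImplicit false
open scoped Pointwise
open Cfsg

namespace Cfsg.Agent.S1558


open Cfsg.Agent.Lib.Helper3 Cfsg.Agent.Lib.Helper3.Syl Cfsg.Agent.Lib.Helper28.Trio3
open scoped Pointwise
open Matrix

set_option maxRecDepth 100000

def sw (a b : ℕ) : List ℕ :=
  if (a = 5279 ∧ b = 4819776) ∨ (a = 4819776 ∧ b = 5279) then [3, 2, 3, 2, 1, 0, 0, 0, 2, 2, 3, 3, 3, 3, 4, 3, 2, 0, 4, 3, 4, 0, 2, 2, 0, 2, 2] else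
  if (a = 5279 ∧ b = 11952160) ∨ (a = 11952160 ∧ b = 5279) then [0, 4, 3, 3, 4, 0, 0, 4, 1, 0, 1, 4, 3, 2, 3, 2, 3, 4, 0, 2, 0, 4, 4, 0, 0, 2, 0, 4, 0, 0] else
  if (a = 11952160 ∧ b = 4819776) ∨ (a = 4819776 ∧ b = 11952160) then [0, 0, 2, 2, 0, 1, 3, 3, 2, 2, 0, 2, 3, 3, 4, 4, 0, 2, 2, 3, 2, 3, 2, 2, 3, 3, 2, 2, 0, 2, 2, 3] else
  []

theorem conj_mem_M24_iff {u g : Equiv.Perm GolayPt} (hu : u ∈ M24) :
    u * g * u⁻¹ ∈ M24 ↔ g ∈ M24 := by
  constructor
  · intro h
    have : g = u⁻¹ * (u * g * u⁻¹) * u := by group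
    rw [this]
    exact M24.mul_mem (M24.mul_mem (M24.inv_mem hu) h) hu
  · intro h
    exact M24.mul_mem (M24.mul_mem hu h) (M24.inv_mem hu)

theorem conj_smul_iff {α : Type*} [MulAction (Equiv.Perm GolayPt) α] {u g : Equiv.Perm GolayPt}
    {y Y : α} (hy : u • y = Y) : (u * g * u⁻¹) • Y = Y ↔ g • y = y := by
  rw [← hy, mul_smul, mul_smul, inv_smul_smul]
  exact (MulAction.injective u).eq_iff

theorem unmask_inj {a b : ℕ} (ha : a < 2 ^ 24) (hb : b < 2 ^ 24) (h : unmask a = unmask b) :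
    a = b := by
  rw [← mask_unmask ha, h, mask_unmask hb]

theorem swChk : (tl.all fun a => tl.all fun b => a == b || (tl.all fun c =>
    pm (wact (winv (sw a b))) c == (if c = a then b else if c = b then a else c))) = true := by
  decide +kernel

theorem swap_word {a b c : ℕ} (ha : a ∈ tl) (hb : b ∈ tl) (hab : a ≠ b) (hc : c ∈ tl) :
    wperm (sw a b) • unmask c = unmask (if c = a then b else if c = b then a else c) := by
  have h := List.all_eq_true.1 (List.all_eq_true.1 swChk a ha) b hb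
  simp only [Bool.or_eq_true, beq_iff_eq, hab, false_or] at h
  have h2 := List.all_eq_true.1 h c hc
  rw [smul_unmask _ (tl_lt c hc), beq_iff_eq.1 h2]

theorem partA {S : Finset (Finset GolayPt)} (hS : S ∈ trios) (e : Equiv.Perm ↥S) :
    ∃ g : ↥(MulAction.stabilizer M24 S), ∀ t : ↥S, g.1.1 • t.1 = (e t).1 := by
  obtain ⟨u, hu, huS⟩ := trio_to_T0 hS
  induction e using Equiv.Perm.swap_induction_on with
  | one => exact ⟨1, fun t => one_smul _ _⟩
  | swap_mul f x y hxy ih =>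
    obtain ⟨gf, hgf⟩ := ih
    have hm : ∀ t : ↥S, ∃ a ∈ tl, u • t.1 = unmask a := by
      intro t
      apply mem_T0.1
      rw [← huS]; exact Finset.smul_mem_smul_finset t.2
    obtain ⟨a, ha, ea⟩ := hm x
    obtain ⟨b, hb, eb⟩ := hm y
    have hab : a ≠ b := by
      rintro rfl
      exact hxy (Subtype.ext (MulAction.injective u (ea.trans eb.symm)))
    have hact : ∀ t : ↥S, (u⁻¹ * wperm (sw a b) * u) • t.1 = (Equiv.swap x y t).1 := by
      intro t
      obtain ⟨c, hc, ec⟩ := hm t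
      rw [mul_smul, mul_smul, ec, swap_word ha hb hab hc, inv_smul_eq_iff, Equiv.swap_apply_def]
      by_cases h1 : t = x
      · have : c = a := unmask_inj (tl_lt c hc) (tl_lt a ha) (by rw [← ec, ← ea, h1])
        rw [if_pos this, if_pos h1, eb]
      · have h1' : c ≠ a := by
          rintro rfl
          exact h1 (Subtype.ext (MulAction.injective u (ec.trans ea.symm)))
        rw [if_neg h1', if_neg h1]
        by_cases h2 : t = y
        · have : c = b := unmask_inj (tl_lt c hc) (tl_lt b hb) (by rw [← ec, ← eb, h2])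
          rw [if_pos this, if_pos h2, ea]
        · have h2' : c ≠ b := by
            rintro rfl
            exact h2 (Subtype.ext (MulAction.injective u (ec.trans eb.symm)))
          rw [if_neg h2', if_neg h2, ec]
    have hM : u⁻¹ * wperm (sw a b) * u ∈ M24 :=
      M24.mul_mem (M24.mul_mem (M24.inv_mem hu) (wperm_mem _)) hu
    have hst : (u⁻¹ * wperm (sw a b) * u) • S = S := by
      apply Finset.eq_of_subset_of_card_le
      · intro t ht
        obtain ⟨t', ht', rfl⟩ := Finset.mem_smul_finset.1 ht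
        rw [hact ⟨t', ht'⟩]
        exact (Equiv.swap x y ⟨t', ht'⟩).2
      · rw [Finset.card_smul_finset]
    refine ⟨⟨⟨_, hM⟩, hst⟩ * gf, fun t => ?_⟩
    show ((u⁻¹ * wperm (sw a b) * u) * gf.1.1) • t.1 = _
    rw [mul_smul, hgf t, hact (f t)]
    rfl

abbrev V := Fin 3 → ZMod 2

def bt (i : Fin 3) (v : V) : ℕ :=
  btl.getD (8 * i.val + (v 0).val + 2 * (v 1).val + 4 * (v 2).val) 0

theorem bt_lt : ∀ (i : Fin 3) (v : V), bt i v < 24 := by decide +kernel
theorem bt_inj : ∀ (i i' : Fin 3) (v v' : V), bt i v = bt i' v' → i = i' ∧ v = v' := by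
  decide +kernel
theorem bt_surj : ∀ k < 24, ∃ (i : Fin 3) (v : V), bt i v = k := by decide +kernel

theorem beta_inj {i i' : Fin 3} {v v' : V} (h : pt (bt i v) = pt (bt i' v')) : i = i' ∧ v = v' := by
  apply bt_inj
  rw [← idx_pt (bt_lt i v), h, idx_pt (bt_lt i' v')]

/-- the elements acting as affine maps with a common linear part on the three octads. -/
def Aff : Subgroup (Equiv.Perm GolayPt) where
  carrier := {g | ∃ (A : GL (Fin 3) (ZMod 2)) (σ : Equiv.Perm (Fin 3)) (b : Fin 3 → V),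
    ∀ (i : Fin 3) (v : V), g (pt (bt i v)) = pt (bt (σ i) (A.1 *ᵥ v + b i))}
  mul_mem' := by
    rintro g g' ⟨A, σ, b, hA⟩ ⟨B, τ, c, hB⟩
    refine ⟨A * B, σ * τ, fun i => A.1 *ᵥ c i + b (τ i), fun i v => ?_⟩
    rw [Equiv.Perm.mul_apply, hB, hA, Units.val_mul, Matrix.mulVec_add, Matrix.mulVec_mulVec,
      add_assoc]
    rfl
  one_mem' := ⟨1, 1, 0, fun i v => by simp⟩
  inv_mem' := by
    rintro g ⟨A, σ, b, hA⟩
    refine ⟨A⁻¹, σ⁻¹, fun i => -(A⁻¹.1 *ᵥ b (σ⁻¹ i)), fun i v => ?_⟩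
    rw [Equiv.Perm.inv_eq_iff_eq, hA, Matrix.mulVec_add, Matrix.mulVec_neg, Matrix.mulVec_mulVec,
      Matrix.mulVec_mulVec, ← Units.val_mul, mul_inv_cancel]
    simp

theorem aff_word {w : List ℕ} {M : Matrix (Fin 3) (Fin 3) (ZMod 2)} {σ : Equiv.Perm (Fin 3)}
    {b : Fin 3 → V} (hM : M.det ≠ 0)
    (h : ∀ (i : Fin 3) (v : V), wact w (bt i v) = bt (σ i) (M *ᵥ v + b i)) : wperm w ∈ Aff := by
  refine ⟨Matrix.GeneralLinearGroup.mkOfDetNeZero M hM, σ, b, fun i v => ?_⟩
  rw [wperm_pt w (bt_lt i v), h i v]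
  rfl

theorem HS_le_Aff : HS ≤ Aff := by
  rw [← SPG_eq]
  apply SP_le
  intro w hw
  simp only [wsG, List.mem_cons, List.not_mem_nil, or_false] at hw
  rcases hw with rfl | rfl | rfl | rfl | rfl | rfl
  · exact aff_word (M := !![1, 1, 0; 0, 1, 0; 1, 0, 1]) (σ := ⟨![2, 1, 0], ![2, 1, 0], by decide, by decide⟩)
      (b := ![![0, 1, 1], ![0, 0, 0], ![0, 0, 1]]) (by decide +kernel) (by decide +kernel)
  · exact aff_word (M := !![0, 1, 1; 0, 0, 1; 1, 1, 0]) (σ := ⟨![1, 2, 0], ![2, 0, 1], by decide, by decide⟩)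
      (b := ![![0, 0, 0], ![1, 0, 0], ![0, 0, 1]]) (by decide +kernel) (by decide +kernel)
  · exact aff_word (M := !![0, 0, 1; 1, 1, 0; 1, 0, 0]) (σ := ⟨![0, 1, 2], ![0, 1, 2], by decide, by decide⟩)
      (b := ![![0, 0, 1], ![1, 0, 0], ![0, 1, 1]]) (by decide +kernel) (by decide +kernel)
  · exact aff_word (M := !![1, 1, 0; 0, 1, 0; 1, 1, 1]) (σ := ⟨![2, 1, 0], ![2, 1, 0], by decide, by decide⟩)
      (b := ![![0, 0, 1], ![0, 0, 0], ![1, 1, 0]]) (by decide +kernel) (by decide +kernel)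
  · exact aff_word (M := !![1, 1, 1; 1, 1, 0; 0, 1, 0]) (σ := ⟨![2, 0, 1], ![1, 2, 0], by decide, by decide⟩)
      (b := ![![1, 0, 0], ![0, 0, 0], ![1, 1, 0]]) (by decide +kernel) (by decide +kernel)
  · exact aff_word (M := !![0, 0, 1; 0, 1, 1; 1, 0, 0]) (σ := ⟨![0, 1, 2], ![0, 1, 2], by decide, by decide⟩)
      (b := ![![1, 1, 0], ![0, 0, 1], ![1, 0, 0]]) (by decide +kernel) (by decide +kernel)

theorem card_tgt : Nat.card (GL (Fin 3) (ZMod 2) × Equiv.Perm (Fin 3)) = 1008 := by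
  rw [Nat.card_prod, Matrix.card_GL_field, Nat.card_eq_fintype_card (α := Equiv.Perm (Fin 3)),
    Fintype.card_perm, Fintype.card_fin]
  simp [Fin.prod_univ_three, ZMod.card, Nat.factorial]

def ix (j : Fin 2) : Fin 3 := ![0, 1] j

theorem ix_inj : ∀ x x' : Fin 2 × V, bt (ix x.1) x.2 = bt (ix x'.1) x'.2 → x = x' := by
  decide +kernel

theorem eq_of16 {g g' : Equiv.Perm GolayPt} (hg : g ∈ M24) (hg' : g' ∈ M24)
    (h : ∀ (j : Fin 2) (v : V), g (pt (bt (ix j) v)) = g' (pt (bt (ix j) v))) : g = g' := by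
  have : g⁻¹ * g' = 1 := by
    apply fix9 (M24.mul_mem (M24.inv_mem hg) hg')
      (Finset.univ.image (fun x : Fin 2 × V => pt (bt (ix x.1) x.2)))
    · rw [Finset.card_image_of_injective]
      · decide +kernel
      · intro x x' e
        apply ix_inj
        have e' : pt (bt (ix x.1) x.2) = pt (bt (ix x'.1) x'.2) := e
        rw [← idx_pt (bt_lt _ _), e', idx_pt (bt_lt _ _)]
    · intro p hp
      obtain ⟨x, -, rfl⟩ := Finset.mem_image.1 hp
      rw [Equiv.Perm.mul_apply, Equiv.Perm.inv_eq_iff_eq]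
      exact (h x.1 x.2).symm
  exact inv_mul_eq_one.1 this

theorem exists_hom : ∃ φ : HS →* GL (Fin 3) (ZMod 2) × Equiv.Perm (Fin 3),
    Function.Surjective φ ∧ ∀ x ∈ φ.ker, x * x = 1 := by
  have ex : ∀ g : HS, ∃ (A : GL (Fin 3) (ZMod 2)) (σ : Equiv.Perm (Fin 3)) (b : Fin 3 → V),
      ∀ (i : Fin 3) (v : V), g.1 (pt (bt i v)) = pt (bt (σ i) (A.1 *ᵥ v + b i)) :=
    fun g => HS_le_Aff g.2
  choose A σ b hA using ex
  have uniq : ∀ (B B' : GL (Fin 3) (ZMod 2)) (τ τ' : Equiv.Perm (Fin 3)) (c c' : Fin 3 → V),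
      (∀ (i : Fin 3) (v : V), pt (bt (τ i) (B.1 *ᵥ v + c i)) = pt (bt (τ' i) (B'.1 *ᵥ v + c' i))) →
      (B, τ) = (B', τ') := by
    intro B B' τ τ' c c' h
    have hτ : τ = τ' := Equiv.ext fun i => (beta_inj (h i 0)).1
    have hc : c 0 = c' 0 := by
      have := (beta_inj (h 0 0)).2
      simpa using this
    have hB : B = B' := by
      apply Units.ext
      rw [Matrix.ext_iff_mulVec]
      intro v
      have := (beta_inj (h 0 v)).2
      rw [hc] at this
      exact add_right_cancel this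
    rw [hB, hτ]
  let φ : HS →* GL (Fin 3) (ZMod 2) × Equiv.Perm (Fin 3) :=
    { toFun := fun g => (A g, σ g)
      map_one' := by
        apply uniq _ _ _ _ (b 1) 0
        intro i v
        rw [← hA]; simp
      map_mul' := by
        intro g g'
        apply uniq _ _ _ _ (b (g * g')) (fun i => (A g).1 *ᵥ b g' i + b g (σ g' i))
        intro i v
        rw [← hA]
        show g.1 (g'.1 (pt (bt i v))) = _
        rw [hA g', hA g, Units.val_mul, ← Matrix.mulVec_mulVec, Matrix.mulVec_add, add_assoc]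
        rfl }
  have hker : ∀ x : HS, x ∈ φ.ker → A x = 1 ∧ σ x = 1 := by
    intro x hx
    have : (A x, σ x) = (1, 1) := hx
    exact Prod.ext_iff.1 this
  refine ⟨φ, ?_, ?_⟩
  · have : Finite HS := inferInstance
    have hk : Nat.card φ.ker ≤ 64 := by
      have hinj : Function.Injective (fun g : φ.ker => (b g.1 0, b g.1 1)) := by
        intro g g' h
        have h' : (b g.1 0, b g.1 1) = (b g'.1 0, b g'.1 1) := h
        obtain ⟨h0, h1⟩ := Prod.ext_iff.1 h'
        obtain ⟨e1, s1⟩ := hker g.1 g.2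
        obtain ⟨e2, s2⟩ := hker g'.1 g'.2
        apply Subtype.ext
        apply Subtype.ext
        apply eq_of16 g.1.2.1 g'.1.2.1
        intro j v
        rw [hA, hA, e1, e2, s1, s2]
        fin_cases j
        · show pt (bt _ (_ + b g.1 0)) = pt (bt _ (_ + b g'.1 0))
          rw [show b g.1 0 = b g'.1 0 from h0]
        · show pt (bt _ (_ + b g.1 1)) = pt (bt _ (_ + b g'.1 1))
          rw [show b g.1 1 = b g'.1 1 from h1]
      have := Nat.card_le_card_of_injective _ hinj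
      have h64 : Nat.card (V × V) = 64 := by
        rw [Nat.card_eq_fintype_card]; decide +kernel
      rwa [h64] at this
    have h1 := Subgroup.card_eq_card_quotient_mul_card_subgroup φ.ker
    have h2 : Nat.card (HS ⧸ φ.ker) = Nat.card φ.range :=
      Nat.card_congr (QuotientGroup.quotientKerEquivRange φ).toEquiv
    have h3 : Nat.card φ.range ≤ 1008 := (Subgroup.card_le_card_group _).trans_eq card_tgt
    rw [card_HS, h2] at h1
    have h4 : Nat.card φ.range = 1008 := by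
      by_contra hne
      have h5 : Nat.card φ.range ≤ 1007 := by omega
      have := Nat.mul_le_mul h5 hk
      omega
    rw [← MonoidHom.range_eq_top]
    exact Subgroup.eq_top_of_card_eq _ (by rw [h4, card_tgt])
  · intro x hx
    obtain ⟨e1, s1⟩ := hker x hx
    apply Subtype.ext
    apply Equiv.ext
    intro p
    obtain ⟨i, v, hiv⟩ := bt_surj (idx p) (idx_lt p)
    have hp : p = pt (bt i v) := by rw [hiv, pt_idx]
    show x.1 (x.1 p) = p
    rw [hp, hA, e1, s1]
    show x.1 (pt (bt i _)) = _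
    rw [hA, e1, s1]
    show pt (bt i _) = _
    simp only [Units.val_one, Matrix.one_mulVec, add_assoc, CharTwo.add_self_eq_zero, add_zero]

theorem absT {G : Type*} [Group G] [Finite G] (hcard : Nat.card G = 64512)
    (ψ : G →* GL (Fin 3) (ZMod 2) × Equiv.Perm (Fin 3)) (hs : Function.Surjective ψ)
    (h2 : ∀ x ∈ ψ.ker, x * x = 1) :
    ∃ (N : Subgroup G) (_ : N.Normal), Nat.card N = 64 ∧ (∀ x ∈ N, x * x = 1) ∧
      Nonempty (G ⧸ N ≃* GL (Fin 3) (ZMod 2) × Equiv.Perm (Fin 3)) := by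
  refine ⟨ψ.ker, inferInstance, ?_, h2, ⟨QuotientGroup.quotientKerEquivOfSurjective ψ hs⟩⟩
  have h1 := Subgroup.card_eq_card_quotient_mul_card_subgroup ψ.ker
  have h3 : Nat.card (G ⧸ ψ.ker) = 1008 := by
    rw [Nat.card_congr (QuotientGroup.quotientKerEquivOfSurjective ψ hs).toEquiv, card_tgt]
  rw [hcard, h3] at h1
  omega

theorem main {A : Type*} [Group A] [Finite A] (f : A →* Equiv.Perm GolayPt)
    (hf : Function.Injective f) (hr : f.range = HS) :
    ∃ (N : Subgroup A) (_ : N.Normal), Nat.card N = 64 ∧ (∀ x ∈ N, x * x = 1) ∧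
      Nonempty (A ⧸ N ≃* GL (Fin 3) (ZMod 2) × Equiv.Perm (Fin 3)) := by
  let e : A ≃* HS := (MonoidHom.ofInjective hf).trans (MulEquiv.subgroupCongr hr)
  have hc : Nat.card A = 64512 := by rw [Nat.card_congr e.toEquiv, card_HS]
  obtain ⟨φ, hφ, h2⟩ := exists_hom
  apply absT hc (φ.comp e.toMonoidHom) (hφ.comp e.surjective)
  intro x hx
  have h3 : e x * e x = 1 := h2 (e x) hx
  apply e.injective
  rw [map_mul, h3, map_one]


/-- Structure of a trio stabiliser: every permutation of the three octads is induced, and there is a normal subgroup of order 64 of elements squaring to the identity whose quotient is isomorphic to the product of GL(3, 2) with the symmetric group of degree 3. -/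
theorem result (T : Finset (Finset Cfsg.GolayPt)) (hT : T ∈ Cfsg.trios) : (∀ e : Equiv.Perm ↥T, ∃ g ∈ MulAction.stabilizer Cfsg.M24 T, ∀ o : ↥T, (g : Equiv.Perm Cfsg.GolayPt) • (o : Finset Cfsg.GolayPt) = ((e o : ↥T) : Finset Cfsg.GolayPt)) ∧ ∃ (N : Subgroup ↥(MulAction.stabilizer Cfsg.M24 T)) (_ : N.Normal), Nat.card N = 64 ∧ (∀ x ∈ N, x * x = 1) ∧ Nonempty (↥(MulAction.stabilizer Cfsg.M24 T) ⧸ N ≃* GL (Fin 3) (ZMod 2) × Equiv.Perm (Fin 3)) := by
  refine ⟨fun e => ?_, ?_⟩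
  · obtain ⟨g, hg⟩ := partA hT e
    exact ⟨g.1, g.2, hg⟩
  obtain ⟨u, hu, huT⟩ := trio_to_T0 hT
  have key : ∀ g : Equiv.Perm Cfsg.GolayPt, (∃ hg : g ∈ Cfsg.M24, (⟨g, hg⟩ : ↥Cfsg.M24) ∈
        MulAction.stabilizer Cfsg.M24 T) ↔ u * g * u⁻¹ ∈ HS := by
    intro g
    have h0 : u * g * u⁻¹ ∈ HS ↔ g ∈ Cfsg.M24 ∧ g • T = T := by
      rw [HS, Subgroup.mem_inf]
      exact and_congr (conj_mem_M24_iff hu) (conj_smul_iff huT)
    rw [h0]
    constructor
    · rintro ⟨hg, h1⟩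
      exact ⟨hg, h1⟩
    · rintro ⟨hg, h1⟩
      exact ⟨hg, h1⟩
  exact main (((MulAut.conj u).toMonoidHom.comp Cfsg.M24.subtype).comp
        (MulAction.stabilizer Cfsg.M24 T).subtype)
    (by
      intro a b hab
      have h1 : u * a.1.1 * u⁻¹ = u * b.1.1 * u⁻¹ := hab
      exact Subtype.ext (Subtype.ext (mul_left_cancel (mul_right_cancel h1))))
    (by
      ext y
      constructor
      · rintro ⟨a, rfl⟩
        exact (key a.1.1).1 ⟨a.1.2, a.2⟩
      · intro hy
        have h1 : u * (u⁻¹ * y * u) * u⁻¹ ∈ HS := by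
          have : u * (u⁻¹ * y * u) * u⁻¹ = y := by group
          rw [this]; exact hy
        obtain ⟨hg, hG⟩ := (key _).2 h1
        refine ⟨⟨⟨_, hg⟩, hG⟩, ?_⟩
        show u * (u⁻¹ * y * u) * u⁻¹ = y
        group)

end Cfsg.Agent.S1558
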