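import Mathlib
import Cfsg.Statements.S1559
import Cfsg.Agent.Lib.Helper3.DataYT
import Cfsg.Agent.Lib.Helper3.SxTrBase

set_option autoImplicit false
open scoped Pointwise
open Cfsg

namespace Cfsg.Agent.S1559

/-- A trio stabiliser has five orbits on the 3795 trios, of sizes 1, 42, 56, 1008, 2688; and the stabiliser is a maximal proper subgroup. -/
theorem result (T : Finset (Finset Cfsg.GolayPt)) (hT : T ∈ Cfsg.trios) : ∃ X₁ ∈ Cfsg.trios, ∃ X₂ ∈ Cfsg.trios, ∃ X₃ ∈ Cfsg.trios, ∃ X₄ ∈ Cfsg.trios, (MulAction.orbit ↥(MulAction.stabilizer Cfsg.M24 T) X₁).ncard = 42 ∧ (MulAction.orbit ↥(MulAction.stabilizer Cfsg.M24 T) X₂).ncard = 56 ∧ (MulAction.orbit ↥(MulAction.stabilizer Cfsg.M24 T) X₃).ncard = 1008 ∧ (MulAction.orbit ↥(MulAction.stabilizer Cfsg.M24 T) X₄).ncard = 2688 ∧ Cfsg.trios = {T} ∪ MulAction.orbit ↥(MulAction.stabilizer Cfsg.M24 T) X₁ ∪ MulAction.orbit ↥(MulAction.stabilizer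 Cfsg.M24 T) X₂ ∪ MulAction.orbit ↥(MulAction.stabilizer Cfsg.M24 T) X₃ ∪ MulAction.orbit ↥(MulAction.stabilizer Cfsg.M24 T) X₄ ∧ IsCoatom (MulAction.stabilizer Cfsg.M24 T) := by
  open Cfsg.Agent.Lib.Helper3 in
  have hN : Nat.card (MulAction.stabilizer Cfsg.M24 T0) = 64512 := card_stab_trio T0_mem
  have hSt : ∀ σ ∈ StabF [0x149f, 0xb66020, 0x498b40],
      σ ∈ Cfsg.M24 ∧ σ • T0 = T0 := fun σ hσ => ⟨hσ.1, by
    have h2 : σ • famOf [0x149f, 0xb66020, 0x498b40] =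
      famOf [0x149f, 0xb66020, 0x498b40] := hσ.2
    rwa [famOf_T0] at h2⟩
  obtain ⟨b1, b2, b3, _⟩ := trio_orbits T0 ![1, 42, 56, 1008, 2688] 64512 (gensIn_of_chkF gensYT) hSt
    chkYTtr hN (by decide)
  obtain ⟨u, hu, huo⟩ := trio_to_T0 hT
  obtain ⟨d1, d2, d3⟩ := orbits_transfer (Cfsg.M24.inv_mem hu) T0 Cfsg.trios
    (fun g hg x hx => smul_mem_trios hg hx) _ _ b1 b2 b3
  have hY : u⁻¹ • T0 = T := by rw [← huo, inv_smul_smul]
  rw [hY] at d2 d3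
  obtain ⟨e1, e2⟩ := isCoatom_of_orbits T Cfsg.trios (orbit_M24_trio hT) _ ![1, 42, 56, 1008, 2688]
    3795 ncard_trios (by norm_num) d2 d3 (by decide) rfl (by decide)
  have d4 := unpack5 d3
  rw [e1] at d4
  exact ⟨_, d1 1, _, d1 2, _, d1 3, _, d1 4, d2 1, d2 2, d2 3, d2 4, d4, e2⟩

end Cfsg.Agent.S1559
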