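import Cfsg.Statements.S1560
import Mathlib
import Cfsg.Agent.Lib.Helper11.M24Tools
-- import your own Cfsg.Agent.* helpers here

set_option autoImplicit false
open scoped Pointwise
open Cfsg

namespace Cfsg.Agent.S1560

open Cfsg Cfsg.Agent.Lib.Helper3 Cfsg.Agent.Lib.Helper11
open scoped Pointwise

/-- test for dodecads meeting `D0` in `n` points. -/
def dodD0 (n x : ℕ) : Bool := pc x == 12 && pc (0x5335f &&& x) == n

theorem cnt4 : countRange (fun c => dodD0 4 (enc c)) 12 0 = 495 := by decide +kernel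
theorem cnt6 : countRange (fun c => dodD0 6 (enc c)) 12 0 = 1584 := by decide +kernel
theorem cnt8 : countRange (fun c => dodD0 8 (enc c)) 12 0 = 495 := by decide +kernel

/-- intersection test. -/
def chk (x : ℕ) : Bool := pc x != 12 || x == 0x5335f || pc (0x5335f &&& x) == 0 ||
  pc (0x5335f &&& x) == 4 || pc (0x5335f &&& x) == 6 || pc (0x5335f &&& x) == 8

theorem chk_all : allRange (fun c => chk (enc c)) 12 0 = true := by decide +kernel


/-- Intersection numbers of dodecads: a dodecad meets every other dodecad in 0, 4, 6 or 8 points, meeting 495 of them in 4 points, 1584 in 6 points and 495 in 8 points. -/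
theorem result (d : Finset Cfsg.GolayPt) (hd : d ∈ Cfsg.dodecads) : (∀ d' ∈ Cfsg.dodecads, d' ≠ d → (d ∩ d').card = 0 ∨ (d ∩ d').card = 4 ∨ (d ∩ d').card = 6 ∨ (d ∩ d').card = 8) ∧ {d' : Finset Cfsg.GolayPt | d' ∈ Cfsg.dodecads ∧ (d ∩ d').card = 4}.ncard = 495 ∧ {d' : Finset Cfsg.GolayPt | d' ∈ Cfsg.dodecads ∧ (d ∩ d').card = 6}.ncard = 1584 ∧ {d' : Finset Cfsg.GolayPt | d' ∈ Cfsg.dodecads ∧ (d ∩ d').card = 8}.ncard = 495 := by
  obtain ⟨g, hg, hgd⟩ := dodecad_to_D0 hd
  have key : ∀ n, {d' : Finset Cfsg.GolayPt | d' ∈ Cfsg.dodecads ∧ (d ∩ d').card = n}.ncard =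
      countRange (fun c => dodD0 n (enc c)) 12 0 := by
    intro n
    rw [ncard_transport g (fun d' => d' ∈ Cfsg.dodecads ∧ (d ∩ d').card = n)
      (fun d' => d' ∈ Cfsg.dodecads ∧ (D0 ∩ d').card = n)
      (fun s => by rw [smul_mem_dodecads_iff hg, ← hgd, card_smul_inter])]
    rw [← ncard_code (dodD0 n)]
    congr 1
    ext s
    simp only [dodecads, wordsOfWeight, Set.mem_ofPred_eq, dodD0, Bool.and_eq_true, beq_iff_eq,
      card_eq_pc, mask_inter, mask_D0, and_assoc]
  refine ⟨?_, ?_, ?_, ?_⟩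
  · intro d' hd' hne
    have h1 : (d ∩ d').card = (D0 ∩ g • d').card := by rw [← hgd, card_smul_inter]
    have h2 : g • d' ≠ D0 := by
      rw [← hgd]; intro h; exact hne (MulAction.injective g h)
    have h3 := smul_mem_dodecads hg hd'
    have h4 := forall_code chk chk_all (g • d') h3.1
    have h5 : mask (g • d') ≠ 0x5335f := by
      intro h; apply h2; apply mask_injective; rw [h, mask_D0]
    have h6 : pc (mask (g • d')) = 12 := ((mem_dodecads_iff _).1 h3).2
    rw [h1, card_eq_pc, mask_inter, mask_D0]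
    simp only [chk, Bool.or_eq_true, bne_iff_ne, beq_iff_eq, ne_eq] at h4
    tauto
  · rw [key, cnt4]
  · rw [key, cnt6]
  · rw [key, cnt8]

end Cfsg.Agent.S1560
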