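import Mathlib
import Cfsg.Statements.S1562
import Cfsg.Agent.Lib.Helper3.TripleStab

set_option autoImplicit false
open scoped Pointwise
open Cfsg

namespace Cfsg.Agent.S1562

/-- Orbits of a triad stabiliser on the triads disjoint from it: the 210 triads inside a common octad with it form one orbit and the remaining 1120 another. -/
theorem result (T : Finset Cfsg.GolayPt) (hT : T.card = 3) : {U : Finset Cfsg.GolayPt | U.card = 3 ∧ Disjoint T U ∧ (∃ o ∈ Cfsg.octads, T ∪ U ⊆ o)}.ncard = 210 ∧ {U : Finset Cfsg.GolayPt | U.card = 3 ∧ Disjoint T U ∧ ¬ (∃ o ∈ Cfsg.octads, T ∪ U ⊆ o)}.ncard = 1120 ∧ ∀ U U' : Finset Cfsg.GolayPt, U.card = 3 → U'.card = 3 → Disjoint T U → Disjoint T U' → ((∃ o ∈ Cfsg.octads, T ∪ U ⊆ o) ↔ (∃ o ∈ Cfsg.octads, T ∪ U' ⊆ o)) → ∃ g : Equiv.Perm Cfsg.GolayPt, g ∈ Cfsg.M24 ∧ g • T = T ∧ g • U = U' := by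
  open Cfsg.Agent.Lib.Helper3 in
  classical
  obtain ⟨u, hu, huT⟩ := set_to_base T hT (by norm_num) (m := 7) rfl
  have hdis : ∀ U, Disjoint T U ↔ (unmask 7 ∩ u • U).card = 0 := by
    intro U
    rw [← huT, card_smul_inter, Finset.card_eq_zero, Finset.disjoint_iff_inter_eq_empty]
  have hoct : ∀ U, (∃ o ∈ Cfsg.octads, T ∪ U ⊆ o) ↔ (∃ o ∈ Cfsg.octads, unmask 7 ∪ u • U ⊆ o) := by
    intro U
    rw [← huT, ← Finset.smul_finset_union, exists_octad_smul_iff hu]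
  have key1 : ∀ U, (U.card = 3 ∧ Disjoint T U ∧ (∃ o ∈ Cfsg.octads, T ∪ U ⊆ o)) ↔
      ((u • U).card = 3 ∧ clsT3 (mask (u • U)) = 1) := by
    intro U
    rw [clsT3_eq, hdis, hoct, Finset.card_smul_finset]
    by_cases h : ∃ o ∈ Cfsg.octads, unmask 7 ∪ u • U ⊆ o
    · rw [if_pos h]
      constructor
      · rintro ⟨h1, h2, _⟩; exact ⟨h1, by omega⟩
      · rintro ⟨h1, h2⟩; exact ⟨h1, by omega, h⟩
    · rw [if_neg h]
      constructor
      · rintro ⟨_, _, h3⟩; exact absurd h3 h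
      · rintro ⟨h1, h2⟩; omega
  have key0 : ∀ U, (U.card = 3 ∧ Disjoint T U ∧ ¬ (∃ o ∈ Cfsg.octads, T ∪ U ⊆ o)) ↔
      ((u • U).card = 3 ∧ clsT3 (mask (u • U)) = 0) := by
    intro U
    rw [clsT3_eq, hdis, hoct, Finset.card_smul_finset]
    by_cases h : ∃ o ∈ Cfsg.octads, unmask 7 ∪ u • U ⊆ o
    · rw [if_pos h]
      constructor
      · rintro ⟨_, _, h3⟩; exact absurd h h3
      · rintro ⟨h1, h2⟩; omega
    · rw [if_neg h]
      constructor
      · rintro ⟨h1, h2, _⟩; exact ⟨h1, by omega⟩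
      · rintro ⟨h1, h2⟩; exact ⟨h1, by omega, h⟩
  refine ⟨?_, ?_, ?_⟩
  · rw [ncard_smul_transfer u (Q := fun V => V.card = 3 ∧ clsT3 (mask V) = 1) key1, ncard_clsT3, cntT3_1]
  · rw [ncard_smul_transfer u (Q := fun V => V.card = 3 ∧ clsT3 (mask V) = 0) key0, ncard_clsT3, cntT3_0]
  · intro U U' hU hU' hd hd' hiff
    have hcls : clsT3 (mask (u • U)) = clsT3 (mask (u • U')) := by
      by_cases h : ∃ o ∈ Cfsg.octads, T ∪ U ⊆ o
      · rw [((key1 U).1 ⟨hU, hd, h⟩).2, ((key1 U').1 ⟨hU', hd', hiff.1 h⟩).2]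
      · rw [((key0 U).1 ⟨hU, hd, h⟩).2, ((key0 U').1 ⟨hU', hd', fun hc => h (hiff.2 hc)⟩).2]
    obtain ⟨g, hg, hgs⟩ := triple_trans (V := u • U) (V' := u • U')
      (by rw [Finset.card_smul_finset, hU]) (by rw [Finset.card_smul_finset, hU']) hcls
    exact conj_back hu hg.1 (by rw [huT]; exact hg.2 7 (by simp)) hgs

end Cfsg.Agent.S1562
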