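import Mathlib
import Cfsg.Statements.S1564
import Cfsg.Agent.Lib.Helper3.TripleStab

set_option autoImplicit false
open scoped Pointwise
open Cfsg

namespace Cfsg.Agent.S1564

/-- The stabiliser of a set of three points (setwise) is a maximal proper subgroup of the group of the length-24 code. -/
theorem result (s : Finset Cfsg.GolayPt) (hs : s.card = 3) : IsCoatom (MulAction.stabilizer Cfsg.M24 s) := by
  open Cfsg.Agent.Lib.Helper3 in
  obtain ⟨u, hu, huT⟩ := set_to_base s hs (by norm_num) (m := 7) rfl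
  have h := isCoatom_stabilizer_smul (⟨u⁻¹, Cfsg.M24.inv_mem hu⟩ : ↥Cfsg.M24) (unmask 7) isCoatom_stab_T3
  have h2 : (⟨u⁻¹, Cfsg.M24.inv_mem hu⟩ : ↥Cfsg.M24) • unmask 7 = s := by
    show u⁻¹ • unmask 7 = s
    rw [← huT, inv_smul_smul]
  rwa [h2] at h

end Cfsg.Agent.S1564
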