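import Mathlib
import Cfsg.Statements.S1566
import Cfsg.Agent.Lib.Helper3.DodPair

set_option autoImplicit false
open scoped Pointwise
open Cfsg

namespace Cfsg.Agent.S1566

/-- The setwise stabiliser of a dodecad together with its complement is a maximal proper subgroup of the group of the length-24 code. -/
theorem result (d : Finset Cfsg.GolayPt) (hd : d ∈ Cfsg.dodecads) : IsCoatom (MulAction.stabilizer Cfsg.M24 ({d, dᶜ} : Finset (Finset Cfsg.GolayPt))) := by
  open Cfsg.Agent.Lib.Helper3 in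
  obtain ⟨u, hu, hud⟩ := dodecad_to_D0 hd
  have h := isCoatom_stabilizer_smul (⟨u⁻¹, Cfsg.M24.inv_mem hu⟩ : ↥Cfsg.M24) (cpair D0) isCoatom_stab_cpair_D0
  have h2 : (⟨u⁻¹, Cfsg.M24.inv_mem hu⟩ : ↥Cfsg.M24) • cpair D0 = {d, dᶜ} := by
    show u⁻¹ • cpair D0 = cpair d
    rw [smul_cpair, ← hud, inv_smul_smul]
  rwa [h2] at h

end Cfsg.Agent.S1566
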