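import Cfsg.Statements.S1567
import Mathlib
import Cfsg.Agent.Lib.Helper11.LeechGen
-- import your own Cfsg.Agent.* helpers here

set_option autoImplicit false
open Cfsg

namespace Cfsg.Agent.S1567

open Cfsg Cfsg.Agent.Lib.Helper3 Cfsg.Agent.Lib.Helper11
open scoped Pointwise

/-- The rank-24 lattice is the additive subgroup generated by its 196560 minimal vectors. -/
theorem result : AddSubgroup.closure {x : Cfsg.GolayPt → ℤ | x ∈ Cfsg.leechLattice ∧ Cfsg.sqNorm x = 32} = Cfsg.leechLattice := by
  apply le_antisymm
  · rw [AddSubgroup.closure_le]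
    intro x hx
    exact hx.1
  · have hq : (some 0 : GolayPt) ≠ none := by decide
    apply leech_le_of_gens _ none
    · exact AddSubgroup.subset_closure ⟨vOdd_mem none, sqNorm_vOdd none⟩
    · intro b hb
      refine AddSubgroup.subset_closure ⟨vSet_mem (basis_octads b hb).1, ?_⟩
      rw [sqNorm_vSet, (basis_octads b hb).2]; rfl
    · intro i
      by_cases hi : i = none
      · have : vTwo i none 4 (-4) = 0 := by
          subst hi
          unfold vTwo
          rw [← Pi.single_add]
          simp
        rw [this]
        exact AddSubgroup.zero_mem _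
      · refine AddSubgroup.subset_closure ⟨vTwo_mem _ _ rfl rfl rfl, ?_⟩
        rw [sqNorm_vTwo hi]; rfl
    · have : vE none = vTwo none (some 0) 4 4 + vTwo none (some 0) 4 (-4) := by
        funext j
        simp only [Pi.add_apply, vTwo_apply, vE_apply]
        split <;> split <;> norm_num
      rw [this]
      apply AddSubgroup.add_mem
      · refine AddSubgroup.subset_closure ⟨vTwo_mem _ _ rfl rfl rfl, ?_⟩
        rw [sqNorm_vTwo hq.symm]; rfl
      · refine AddSubgroup.subset_closure ⟨vTwo_mem _ _ rfl rfl rfl, ?_⟩
        rw [sqNorm_vTwo hq.symm]; rfl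

end Cfsg.Agent.S1567
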