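import Cfsg.Statements.S1568
import Mathlib
import Cfsg.Agent.Lib.Helper11.LeechCount
-- import your own Cfsg.Agent.* helpers here

set_option autoImplicit false
open Cfsg

namespace Cfsg.Agent.S1568

open Cfsg Cfsg.Agent.Lib.Helper3 Cfsg.Agent.Lib.Helper11

/-- vectors of norm 48 with restricted coordinates. -/
def LQ (Q : ℤ → Bool) : Set (GolayPt → ℤ) :=
  {x | x ∈ leechLattice ∧ sqNorm x = ((48 : ℕ) : ℤ) ∧ ∀ i, Q (x i) = true}

theorem ncard_LQ (Q : ℤ → Bool) : (LQ Q).ncard = tot Q 48 := ncard_leech Q 48 (by norm_num)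

theorem LQ_finite (Q : ℤ → Bool) (h : tot Q 48 ≠ 0) : (LQ Q).Finite := by
  apply Set.finite_of_ncard_ne_zero
  rw [ncard_LQ]; exact h

/-- coordinates 0, 2, -2. -/
def Q1 (v : ℤ) : Bool := v == 0 || v == 2 || v == -2
/-- coordinates 1, -1, 3, -3. -/
def Q2 (v : ℤ) : Bool := v == 1 || v == -1 || v == 3 || v == -3
/-- coordinates 0, 2, -2, 4, -4. -/
def Q3 (v : ℤ) : Bool := v == 0 || v == 2 || v == -2 || v == 4 || v == -4
/-- even coordinates. -/
def Qe (v : ℤ) : Bool := v % 2 == 0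
/-- odd coordinates. -/
def Qo (v : ℤ) : Bool := v % 2 == 1

theorem tot1 : tot Q1 48 = 5275648 := by decide +kernel
theorem tot2 : tot Q2 48 = 8290304 := by decide +kernel
theorem tot3 : tot Q3 48 = 8384512 := by decide +kernel
theorem tote : tot Qe 48 = 8384512 := by decide +kernel
theorem toto : tot Qo 48 = 8388608 := by decide +kernel

theorem LQ_mono {Q Q' : ℤ → Bool} (h : ∀ v, Q v = true → Q' v = true) : LQ Q ⊆ LQ Q' :=
  fun _ hx => ⟨hx.1, hx.2.1, fun i => h _ (hx.2.2 i)⟩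

theorem LQ3_eq : LQ Q3 = LQ Qe := by
  apply Set.eq_of_subset_of_ncard_le
  · apply LQ_mono
    intro v hv
    simp only [Q3, Bool.or_eq_true, beq_iff_eq] at hv
    simp only [Qe, beq_iff_eq]
    omega
  · rw [ncard_LQ, ncard_LQ, tot3, tote]
  · exact LQ_finite _ (by rw [tote]; norm_num)

theorem ncard_diff_LQ {Q Q' : ℤ → Bool} (h : ∀ v, Q v = true → Q' v = true) (h0 : tot Q 48 ≠ 0) :
    (LQ Q' \ LQ Q).ncard = tot Q' 48 - tot Q 48 := by
  rw [Set.ncard_sdiff (LQ_mono h) (LQ_finite _ h0), ncard_LQ, ncard_LQ]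

theorem all_even {x : GolayPt → ℤ} (hx : x ∈ leechLattice) {i : GolayPt} (hi : x i % 2 = 0) :
    ∀ j, x j % 2 = 0 := by
  rcases mem_leech_cases hx with ⟨h1, -, -⟩ | ⟨h1, -, -⟩
  · exact h1
  · have := h1 i; omega

theorem all_odd {x : GolayPt → ℤ} (hx : x ∈ leechLattice) {i : GolayPt} (hi : x i % 2 = 1) :
    ∀ j, x j % 2 = 1 := by
  rcases mem_leech_cases hx with ⟨h1, -, -⟩ | ⟨h1, -, -⟩
  · have := h1 i; omega
  · exact h1

theorem coord_bound {x : GolayPt → ℤ} (hn : sqNorm x = 48) (i : GolayPt) : -6 ≤ x i ∧ x i ≤ 6 := by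
  have h1 := sq_le_sqNorm x i
  rw [hn] at h1
  constructor <;> nlinarith

/-- lower bound for the norm of an odd vector with several large coordinates. -/
theorem odd_norm_ge {x : GolayPt → ℤ} (ho : ∀ j, x j % 2 = 1) (F : Finset GolayPt)
    (hF : ∀ j ∈ F, x j ≠ 1 ∧ x j ≠ -1) : 24 + 8 * (F.card : ℤ) ≤ sqNorm x := by
  have h1 : ∀ j, (1 : ℤ) + (if j ∈ F then 8 else 0) ≤ x j ^ 2 := by
    intro j
    have := ho j
    by_cases hj : j ∈ F
    · rw [if_pos hj]
      obtain ⟨a, b⟩ := hF j hj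
      have : x j ≤ -3 ∨ 3 ≤ x j := by omega
      rcases this with h | h <;> nlinarith
    · rw [if_neg hj]
      have : x j ≤ -1 ∨ 1 ≤ x j := by omega
      rcases this with h | h <;> nlinarith
  have h2 := Finset.sum_le_sum (fun j (_ : j ∈ Finset.univ) => h1 j)
  rw [Finset.sum_add_distrib, sum_ite_const] at h2
  have h3 : ∑ _j : GolayPt, (1 : ℤ) = 24 := by
    simp only [Finset.sum_const, Finset.card_univ, nsmul_eq_mul, mul_one]
    rfl
  have h4 : (Finset.univ.filter fun j => j ∈ F) = F := by ext j; simp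
  rw [h3, h4] at h2
  exact h2

theorem set2_eq : {x : GolayPt → ℤ | x ∈ leechLattice ∧ sqNorm x = 48 ∧ ∃ i j k, i ≠ j ∧ j ≠ k ∧
    i ≠ k ∧ |x i| = 3 ∧ |x j| = 3 ∧ |x k| = 3} = LQ Q2 := by
  ext x
  constructor
  · rintro ⟨hx, hn, i, j, k, hij, hjk, hik, hi, hj, hk⟩
    refine ⟨hx, by exact_mod_cast hn, fun l => ?_⟩
    have hio : x i % 2 = 1 := by
      rcases abs_eq (by norm_num : (0:ℤ) ≤ 3) |>.1 hi with h | h <;> rw [h] <;> rfl
    have ho := all_odd hx hio
    have hb := coord_bound hn l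
    have hne : ∀ a : GolayPt, |x a| = 3 → x a ≠ 1 ∧ x a ≠ -1 := by
      intro a ha
      rcases abs_eq (by norm_num : (0:ℤ) ≤ 3) |>.1 ha with h | h <;> rw [h] <;> norm_num
    simp only [Q2, Bool.or_eq_true, beq_iff_eq]
    by_contra hcon
    have hl := ho l
    have hl5 : x l = 5 ∨ x l = -5 := by omega
    have hli : l ≠ i := by
      rintro rfl
      rcases hl5 with h | h <;> rw [h] at hi <;> norm_num at hi
    have hlj : l ≠ j := by
      rintro rfl
      rcases hl5 with h | h <;> rw [h] at hj <;> norm_num at hj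
    have hlk : l ≠ k := by
      rintro rfl
      rcases hl5 with h | h <;> rw [h] at hk <;> norm_num at hk
    have h4 := odd_norm_ge ho {l, i, j, k} (by
      intro a ha
      simp only [Finset.mem_insert, Finset.mem_singleton] at ha
      rcases ha with rfl | rfl | rfl | rfl
      · omega
      · exact hne _ hi
      · exact hne _ hj
      · exact hne _ hk)
    have hc : ({l, i, j, k} : Finset GolayPt).card = 4 := by
      rw [Finset.card_insert_of_notMem, Finset.card_insert_of_notMem, Finset.card_pair hjk]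
      · simp [hij, hik]
      · simp [hli, hlj, hlk]
    rw [hc, hn] at h4
    norm_num at h4
  · rintro ⟨hx, hn, hQ⟩
    have hn' : sqNorm x = 48 := by exact_mod_cast hn
    refine ⟨hx, hn', ?_⟩
    have hv : ∀ l, x l = 1 ∨ x l = -1 ∨ x l = 3 ∨ x l = -3 := by
      intro l
      have := hQ l
      simpa only [Q2, Bool.or_eq_true, beq_iff_eq, or_assoc] using this
    have h1 : ∀ l, x l ^ 2 = 1 + (if |x l| = 3 then 8 else 0) := by
      intro l
      rcases hv l with h | h | h | h <;> rw [h] <;> norm_num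
    have h2 : sqNorm x = 24 + 8 * ((Finset.univ.filter fun l => |x l| = 3).card : ℤ) := by
      unfold sqNorm
      rw [Finset.sum_congr rfl (fun l _ => h1 l), Finset.sum_add_distrib, sum_ite_const]
      simp only [Finset.sum_const, Finset.card_univ, nsmul_eq_mul, mul_one]
      rfl
    have h3 : (Finset.univ.filter fun l => |x l| = 3).card = 3 := by
      rw [hn'] at h2
      omega
    obtain ⟨i, j, k, hij, hik, hjk, hF⟩ := Finset.card_eq_three.1 h3
    have hm : ∀ a ∈ ({i, j, k} : Finset GolayPt), |x a| = 3 := by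
      intro a ha
      rw [← hF] at ha
      exact (Finset.mem_filter.1 ha).2
    exact ⟨i, j, k, hij, hjk, hik, hm i (by simp), hm j (by simp), hm k (by simp)⟩

theorem set3_eq : {x : GolayPt → ℤ | x ∈ leechLattice ∧ sqNorm x = 48 ∧ ∃ i, |x i| = 4} =
    LQ Q3 \ LQ Q1 := by
  ext x
  constructor
  · rintro ⟨hx, hn, i, hi⟩
    have hi' : x i = 4 ∨ x i = -4 := abs_eq (by norm_num : (0:ℤ) ≤ 4) |>.1 hi
    constructor
    · rw [LQ3_eq]
      refine ⟨hx, by exact_mod_cast hn, fun l => ?_⟩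
      have := all_even hx (i := i) (by omega) l
      simpa only [Qe, beq_iff_eq] using this
    · intro hc
      have := hc.2.2 i
      simp only [Q1, Bool.or_eq_true, beq_iff_eq] at this
      omega
  · rintro ⟨⟨hx, hn, hQ⟩, hc⟩
    refine ⟨hx, by exact_mod_cast hn, ?_⟩
    by_contra hcon
    push Not at hcon
    apply hc
    refine ⟨hx, hn, fun l => ?_⟩
    have h1 := hQ l
    have h2 := hcon l
    simp only [Q3, Bool.or_eq_true, beq_iff_eq] at h1
    simp only [Q1, Bool.or_eq_true, beq_iff_eq]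
    rcases h1 with (((h | h) | h) | h) | h
    · exact Or.inl (Or.inl h)
    · exact Or.inl (Or.inr h)
    · exact Or.inr h
    · rw [h] at h2; norm_num at h2
    · rw [h] at h2; norm_num at h2

theorem set4_eq : {x : GolayPt → ℤ | x ∈ leechLattice ∧ sqNorm x = 48 ∧ ∃ i, |x i| = 5} =
    LQ Qo \ LQ Q2 := by
  ext x
  constructor
  · rintro ⟨hx, hn, i, hi⟩
    have hi' : x i = 5 ∨ x i = -5 := abs_eq (by norm_num : (0:ℤ) ≤ 5) |>.1 hi
    constructor
    · refine ⟨hx, by exact_mod_cast hn, fun l => ?_⟩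
      have := all_odd hx (i := i) (by omega) l
      simpa only [Qo, beq_iff_eq] using this
    · intro hc
      have := hc.2.2 i
      simp only [Q2, Bool.or_eq_true, beq_iff_eq] at this
      omega
  · rintro ⟨⟨hx, hn, hQ⟩, hc⟩
    have hn' : sqNorm x = 48 := by exact_mod_cast hn
    refine ⟨hx, hn', ?_⟩
    by_contra hcon
    push Not at hcon
    apply hc
    refine ⟨hx, hn, fun l => ?_⟩
    have h1 := hQ l
    have h2 := hcon l
    have h3 := coord_bound hn' l
    simp only [Qo, beq_iff_eq] at h1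
    simp only [Q2, Bool.or_eq_true, beq_iff_eq]
    have h5 : x l ≠ 5 := by intro h; rw [h] at h2; norm_num at h2
    have h6 : x l ≠ -5 := by intro h; rw [h] at h2; norm_num at h2
    omega


/-- Shape census of the lattice vectors of sum of squares 48 (customary norm 6): the four families (2^12, 0^12), (±3^3, ±1^21), (±4, ±2^8, 0^15) and (±5, ±1^23) have 5275648, 8290304, 3108864 and 98304 members. -/
theorem result : {x : Cfsg.GolayPt → ℤ | x ∈ Cfsg.leechLattice ∧ Cfsg.sqNorm x = 48 ∧ ∀ i, x i = 0 ∨ x i = 2 ∨ x i = -2}.ncard = 5275648 ∧ {x : Cfsg.GolayPt → ℤ | x ∈ Cfsg.leechLattice ∧ Cfsg.sqNorm x = 48 ∧ ∃ i j k, i ≠ j ∧ j ≠ k ∧ i ≠ k ∧ |x i| = 3 ∧ |x j| = 3 ∧ |x k| = 3}.ncard = 8290304 ∧ {x : Cfsg.GolayPt → ℤ | x ∈ Cfsg.leechLattice ∧ Cfsg.sqNorm x = 48 ∧ ∃ i, |x i| = 4}.ncard = 3108864 ∧ {x : Cfsg.GolayPt → ℤ | x ∈ Cfsg.leechLattice ∧ Cfsg.sqNorm x = 48 ∧ ∃ i, |x i| = 5}.ncard = 98304 := by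
  refine ⟨?_, ?_, ?_, ?_⟩
  · have h := ncard_LQ Q1
    rw [tot1] at h
    rw [← h]
    congr 1
    ext x
    simp only [LQ, Set.mem_ofPred_eq, Q1, Bool.or_eq_true, beq_iff_eq, or_assoc, Nat.cast_ofNat]
  · rw [set2_eq, ncard_LQ, tot2]
  · rw [set3_eq, ncard_diff_LQ _ (by rw [tot1]; norm_num), tot3, tot1]
    intro v hv
    simp only [Q1, Bool.or_eq_true, beq_iff_eq] at hv
    simp only [Q3, Bool.or_eq_true, beq_iff_eq]
    omega
  · rw [set4_eq, ncard_diff_LQ _ (by rw [tot2]; norm_num), toto, tot2]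
    intro v hv
    simp only [Q2, Bool.or_eq_true, beq_iff_eq] at hv
    simp only [Qo, beq_iff_eq]
    omega

end Cfsg.Agent.S1568
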