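import Cfsg.Statements.S1576
import Mathlib
import Cfsg.Agent.Lib.Helper11.Co2OrbC
import Cfsg.Agent.Lib.Helper11.TransLib
-- import your own Cfsg.Agent.* helpers here

set_option autoImplicit false
open Cfsg

namespace Cfsg.Agent.S1576

open Cfsg.Agent.Lib.Helper11 Cfsg.Agent.Lib.Helper3

theorem hb0 : bvec c2Tb 0 ∈ leechLattice := isLeech_sound (by decide +kernel)

theorem hbn : sqNorm (bvec c2Tb 0) = 32 := by decide +kernel

/-- The stabiliser of a minimal vector is transitive on the pairs of opposite minimal vectors orthogonal to it. -/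
theorem result (v w w' : ↥Cfsg.leechLattice) (hv : Cfsg.sqNorm (v : Cfsg.GolayPt → ℤ) = 32) (hw : Cfsg.sqNorm (w : Cfsg.GolayPt → ℤ) = 32) (hw' : Cfsg.sqNorm (w' : Cfsg.GolayPt → ℤ) = 32) (hd : Cfsg.dotInt (v : Cfsg.GolayPt → ℤ) (w : Cfsg.GolayPt → ℤ) = 0) (hd' : Cfsg.dotInt (v : Cfsg.GolayPt → ℤ) (w' : Cfsg.GolayPt → ℤ) = 0) : ∃ g : ↥Cfsg.Co0, g • v = v ∧ (g • w = w' ∨ g • w = -w') := by
  have hvb : Rel v.1 (bvec c2Tb 0) := (rel32 v.2 hv).trans (rel32 hb0 hbn).symm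
  have := trans_one (B := baseSet c2Tb 1) ⟨0, by norm_num, rfl⟩ hvb (0)
    (fun x x' hx hxn hxd hx' hxn' hxd' => descent_of_check (by norm_num) c2_hg c2c_htt c2crk c2cn0
      c2c_hall hx hxn (forall_lt_one.2 hxd) hx' hxn' (forall_lt_one.2 hxd')) w w' hw hw' hd hd'
  obtain ⟨g, h1, h2⟩ := this
  exact ⟨g, h1, Or.inl h2⟩

end Cfsg.Agent.S1576
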