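import Cfsg.Statements.S1578
import Mathlib
import Cfsg.Agent.Lib.Helper11.L3Lib
-- import your own Cfsg.Agent.* helpers here

set_option autoImplicit false
open Cfsg

namespace Cfsg.Agent.S1578

open Cfsg.Agent.Lib.Helper11

/-- A lattice vector of customary norm 6 is the sum of an unordered pair of minimal vectors in exactly 276 ways (552 ordered summands). -/
theorem result (u : ↥Cfsg.leechLattice) (hu : Cfsg.sqNorm (u : Cfsg.GolayPt → ℤ) = 48) : {v : ↥Cfsg.leechLattice | Cfsg.sqNorm (v : Cfsg.GolayPt → ℤ) = 32 ∧ Cfsg.sqNorm ((u - v) : Cfsg.GolayPt → ℤ) = 32}.ncard = 552 := by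
  rw [← count48 u.2 hu, ← Set.ncard_image_of_injective _ Subtype.val_injective]
  congr 1
  ext x
  constructor
  · rintro ⟨v, ⟨h1, h2⟩, rfl⟩
    refine ⟨v.2, h1, ?_⟩
    rw [sqNorm_sub, hu, h1] at h2
    omega
  · rintro ⟨h1, h2, h3⟩
    refine ⟨⟨x, h1⟩, ⟨h2, ?_⟩, rfl⟩
    show sqNorm ((u : GolayPt → ℤ) - x) = 32
    rw [sqNorm_sub, hu, h2, h3]
    norm_num

end Cfsg.Agent.S1578
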