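import Cfsg.Statements.S1579
import Mathlib
import Cfsg.Agent.Lib.Helper11.ChainThms
-- import your own Cfsg.Agent.* helpers here

set_option autoImplicit false
open Cfsg

namespace Cfsg.Agent.S1579

open Cfsg.Agent.Lib.Helper11

/-- The stabiliser of a vector of customary norm 6 is transitive on the 552 minimal vectors that complete it to a sum of two minimal vectors. -/
theorem result (u v v' : ↥Cfsg.leechLattice) (hu : Cfsg.sqNorm (u : Cfsg.GolayPt → ℤ) = 48) (hv : Cfsg.sqNorm (v : Cfsg.GolayPt → ℤ) = 32 ∧ Cfsg.sqNorm ((u - v) : Cfsg.GolayPt → ℤ) = 32) (hv' : Cfsg.sqNorm (v' : Cfsg.GolayPt → ℤ) = 32 ∧ Cfsg.sqNorm ((u - v') : Cfsg.GolayPt → ℤ) = 32) : ∃ g : ↥Cfsg.Co0, g • u = u ∧ g • v = v' := by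
  have d1 : dotInt u.1 v.1 = 24 := by
    have := hv.2
    rw [sqNorm_sub, hu, hv.1] at this
    omega
  have d2 : dotInt u.1 v'.1 = 24 := by
    have := hv'.2
    rw [sqNorm_sub, hu, hv'.1] at this
    omega
  obtain ⟨h, hh⟩ := base1 chM0 (sel3 u u u) hu
  obtain ⟨g, hg1, hg2⟩ := trans_gen (bvec chM) (baseSet_mem chM 1) (sel3 u u u) h hh lat la_trans v v'
    hv.1 hv'.1 (forall_lt_one.2 d1) (forall_lt_one.2 d2)
  exact ⟨g, hg1 0 (by norm_num), hg2⟩

end Cfsg.Agent.S1579
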