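import Cfsg.Statements.S1580
import Mathlib
import Cfsg.Agent.Lib.Helper11.ChainThms
-- import your own Cfsg.Agent.* helpers here

set_option autoImplicit false
open Cfsg

namespace Cfsg.Agent.S1580

open Cfsg.Agent.Lib.Helper11

theorem key (u v : ↥leechLattice) (hu : sqNorm u.1 = 48) :
    {x : ↥Cfsg.leechLattice | Cfsg.sqNorm (x : Cfsg.GolayPt → ℤ) = 32 ∧ Cfsg.sqNorm ((u - x) : Cfsg.GolayPt → ℤ) = 32 ∧ Cfsg.dotInt (v : Cfsg.GolayPt → ℤ) (x : Cfsg.GolayPt → ℤ) = 16} =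
      {x : ↥leechLattice | sqNorm x.1 = 32 ∧ dotInt u.1 x.1 = lbt 0 ∧ dotInt v.1 x.1 = lbt 1} := by
  ext x
  constructor
  · rintro ⟨a, b, c⟩
    refine ⟨a, ?_, c⟩
    rw [sqNorm_sub, hu, a] at b
    show dotInt u.1 x.1 = 24
    omega
  · rintro ⟨a, b, c⟩
    refine ⟨a, ?_, c⟩
    have b' : dotInt u.1 x.1 = 24 := b
    rw [sqNorm_sub, hu, a, b']
    norm_num


/-- The McLaughlin configuration: for u of customary norm 6 and v minimal with u − v minimal, there are 275 further such summands x of customary inner product 2 with v, permuted transitively by the stabiliser of u and v. -/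
theorem result (u v : ↥Cfsg.leechLattice) (hu : Cfsg.sqNorm (u : Cfsg.GolayPt → ℤ) = 48) (hv : Cfsg.sqNorm (v : Cfsg.GolayPt → ℤ) = 32 ∧ Cfsg.sqNorm ((u - v) : Cfsg.GolayPt → ℤ) = 32) : {x : ↥Cfsg.leechLattice | Cfsg.sqNorm (x : Cfsg.GolayPt → ℤ) = 32 ∧ Cfsg.sqNorm ((u - x) : Cfsg.GolayPt → ℤ) = 32 ∧ Cfsg.dotInt (v : Cfsg.GolayPt → ℤ) (x : Cfsg.GolayPt → ℤ) = 16}.ncard = 275 ∧ ∀ x ∈ {x : ↥Cfsg.leechLattice | Cfsg.sqNorm (x : Cfsg.GolayPt → ℤ) = 32 ∧ Cfsg.sqNorm ((u - x) : Cfsg.GolayPt → ℤ) = 32 ∧ Cfsg.dotInt (v : Cfsg.GolayPt → ℤ) (x : Cfsg.GolayPt → ℤ) = 16}, ∀ x' ∈ {x : ↥Cfsg.leechLattice | Cfsg.sqNorm (x : Cfsg.GolayPt → ℤ) = 32 ∧ Cfsg.sqNorm ((u - x) : Cfsg.GolayPt → ℤ) = 32 ∧ Cfsg.dotInt (v : Cfsg.GolayPt → ℤ) (x : Cfsg.GolayPt → ℤ) = 16}, ∃ g : ↥Cfsg.Co0, g • u = u ∧ g • v = v ∧ g • x = x' := by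
  have d1 : dotInt u.1 v.1 = 24 := by
    have := hv.2
    rw [sqNorm_sub, hu, hv.1] at this
    omega
  rw [key u v hu]
  refine ⟨(chM_count2 u v hu hv.1 d1).trans lb_cnt, ?_⟩
  rintro x ⟨a, b, c⟩ x' ⟨a', b', c'⟩
  exact chM_trans2 u v hu hv.1 d1 x x' a b c a' b' c'

end Cfsg.Agent.S1580
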