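import Cfsg.Statements.S1581
import Mathlib
import Cfsg.Agent.Lib.Helper11.ChainThms
-- import your own Cfsg.Agent.* helpers here

set_option autoImplicit false
open Cfsg

namespace Cfsg.Agent.S1581

open Cfsg.Agent.Lib.Helper11

theorem key (u v : ↥leechLattice) (hu : sqNorm u.1 = 48) :
    {x : ↥Cfsg.leechLattice | Cfsg.sqNorm (x : Cfsg.GolayPt → ℤ) = 32 ∧ Cfsg.sqNorm ((u - x) : Cfsg.GolayPt → ℤ) = 32 ∧ Cfsg.dotInt (v : Cfsg.GolayPt → ℤ) (x : Cfsg.GolayPt → ℤ) = 16} =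
      {x : ↥leechLattice | sqNorm x.1 = 32 ∧ dotInt u.1 x.1 = lbt 0 ∧ dotInt v.1 x.1 = lbt 1} := by
  ext x
  constructor
  · rintro ⟨a, b, c⟩
    refine ⟨a, ?_, c⟩
    rw [sqNorm_sub, hu, a] at b
    show dotInt u.1 x.1 = 24
    omega
  · rintro ⟨a, b, c⟩
    refine ⟨a, ?_, c⟩
    have b' : dotInt u.1 x.1 = 24 := b
    rw [sqNorm_sub, hu, a, b']
    norm_num


/-- The McLaughlin group acts with rank 3 and subdegrees 1, 112, 162 on its 275 points: the point stabiliser has two orbits on the remaining points, distinguished by customary inner product 1 or 2 with the fixed point. -/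
theorem result (u v x : ↥Cfsg.leechLattice) (hu : Cfsg.sqNorm (u : Cfsg.GolayPt → ℤ) = 48) (hv : Cfsg.sqNorm (v : Cfsg.GolayPt → ℤ) = 32 ∧ Cfsg.sqNorm ((u - v) : Cfsg.GolayPt → ℤ) = 32) (hx : x ∈ {x : ↥Cfsg.leechLattice | Cfsg.sqNorm (x : Cfsg.GolayPt → ℤ) = 32 ∧ Cfsg.sqNorm ((u - x) : Cfsg.GolayPt → ℤ) = 32 ∧ Cfsg.dotInt (v : Cfsg.GolayPt → ℤ) (x : Cfsg.GolayPt → ℤ) = 16}) : {y : ↥Cfsg.leechLattice | y ∈ {x : ↥Cfsg.leechLattice | Cfsg.sqNorm (x : Cfsg.GolayPt → ℤ) = 32 ∧ Cfsg.sqNorm ((u - x) : Cfsg.GolayPt → ℤ) = 32 ∧ Cfsg.dotInt (v : Cfsg.GolayPt → ℤ) (x : Cfsg.GolayPt → ℤ) = 16} ∧ Cfsg.dotInt (x : Cfsg.GolayPt → ℤ) (y : Cfsg.GolayPt → ℤ) = 8}.ncard = 112 ∧ {y : ↥Cfsg.leechLattice | y ∈ {x : ↥Cfsg.leechLattice | Cfsg.sqNorm (x : Cfsg.GolayPt → ℤ) = 32 ∧ Cfsg.sqNorm ((u - x) : Cfsg.GolayPt → ℤ) = 32 ∧ Cfsg.dotInt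 (v : Cfsg.GolayPt → ℤ) (x : Cfsg.GolayPt → ℤ) = 16} ∧ y ≠ x ∧ Cfsg.dotInt (x : Cfsg.GolayPt → ℤ) (y : Cfsg.GolayPt → ℤ) = 16}.ncard = 162 ∧ ∀ y ∈ {x : ↥Cfsg.leechLattice | Cfsg.sqNorm (x : Cfsg.GolayPt → ℤ) = 32 ∧ Cfsg.sqNorm ((u - x) : Cfsg.GolayPt → ℤ) = 32 ∧ Cfsg.dotInt (v : Cfsg.GolayPt → ℤ) (x : Cfsg.GolayPt → ℤ) = 16}, ∀ y' ∈ {x : ↥Cfsg.leechLattice | Cfsg.sqNorm (x : Cfsg.GolayPt → ℤ) = 32 ∧ Cfsg.sqNorm ((u - x) : Cfsg.GolayPt → ℤ) = 32 ∧ Cfsg.dotInt (v : Cfsg.GolayPt → ℤ) (x : Cfsg.GolayPt → ℤ) = 16}, y ≠ x → y' ≠ x → Cfsg.dotInt (x : Cfsg.GolayPt → ℤ) (y : Cfsg.GolayPt → ℤ) = Cfsg.dotInt (x : Cfsg.GolayPt → ℤ) (y' : Cfsg.GolayPt → ℤ) → ∃ g : ↥Cfsg.Co0, g • u = u ∧ g • v = v ∧ g • x = x ∧ g • y = y' := by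
  have d1 : dotInt u.1 v.1 = 24 := by
    have := hv.2
    rw [sqNorm_sub, hu, hv.1] at this
    omega
  rw [key u v hu] at hx ⊢
  obtain ⟨a, b, c⟩ := hx
  refine ⟨?_, ?_, ?_⟩
  · refine Eq.trans ?_ ((chM_count3c u v x hu hv.1 d1 a b c).trans lc_cnt)
    congr 1
    ext y
    constructor
    · rintro ⟨⟨p, q, r⟩, s⟩
      exact ⟨p, q, r, s⟩
    · rintro ⟨p, q, r, s⟩
      exact ⟨⟨p, q, r⟩, s⟩
  · refine Eq.trans ?_ ((chM_count3d u v x hu hv.1 d1 a b c).trans ld_cnt)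
    congr 1
    ext y
    constructor
    · rintro ⟨⟨p, q, r⟩, _, s⟩
      exact ⟨p, q, r, s⟩
    · rintro ⟨p, q, r, s⟩
      refine ⟨⟨p, q, r⟩, ?_, s⟩
      rintro rfl
      have s' : dotInt y.1 y.1 = 16 := s
      rw [dotInt_self, p] at s'
      omega
  · rintro y ⟨p, q, r⟩ y' ⟨p', q', r'⟩ hy hy' he
    rcases chM_tri u v x hu hv.1 d1 a b c y p q r with h1 | h1 | h1
    · exact chM_trans3c u v x hu hv.1 d1 a b c y y' p q r h1 p' q' r' (he ▸ h1)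
    · exact chM_trans3d u v x hu hv.1 d1 a b c y y' p q r h1 p' q' r' (he ▸ h1)
    · exact absurd h1 hy

end Cfsg.Agent.S1581
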