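import Cfsg.Statements.S1585
import Mathlib
import Cfsg.Agent.Lib.Helper11.ChainThms
-- import your own Cfsg.Agent.* helpers here

set_option autoImplicit false
open Cfsg

namespace Cfsg.Agent.S1585

open Cfsg.Agent.Lib.Helper11

theorem zfacts (v w : ↥leechLattice) (hv : sqNorm v.1 = 48) (hw : sqNorm w.1 = 48)
    (hvw : dotInt v.1 w.1 = -32) : sqNorm (v + w).1 = 32 ∧ dotInt v.1 (v + w).1 = zot 0 := by
  have e : (v + w).1 = v.1 + w.1 := rfl
  constructor
  · rw [e, ← dotInt_self, dotInt_add_left, dotInt_comm v.1, dotInt_comm w.1, dotInt_add_left,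
      dotInt_add_left, dotInt_self, dotInt_self, hv, hw, dotInt_comm w.1, hvw]
    norm_num
  · rw [e, dotInt_comm, dotInt_add_left, dotInt_self, hv, dotInt_comm, hvw]
    decide

theorem key (v w : ↥leechLattice) :
    {x : ↥Cfsg.leechLattice | Cfsg.sqNorm (x : Cfsg.GolayPt → ℤ) = 32 ∧ Cfsg.dotInt (v : Cfsg.GolayPt → ℤ) (x : Cfsg.GolayPt → ℤ) = 24 ∧ Cfsg.dotInt (w : Cfsg.GolayPt → ℤ) (x : Cfsg.GolayPt → ℤ) = -24} =
      {x : ↥leechLattice | sqNorm x.1 = 32 ∧ dotInt v.1 x.1 = hat 0 ∧ dotInt (v + w).1 x.1 = hat 1} := by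
  have e : (v + w).1 = v.1 + w.1 := rfl
  ext x
  constructor
  · rintro ⟨a, b, c⟩
    refine ⟨a, b, ?_⟩
    rw [e, dotInt_add_left, b, c]
    decide
  · rintro ⟨a, b, c⟩
    refine ⟨a, b, ?_⟩
    have b' : dotInt v.1 x.1 = 24 := b
    have c' : dotInt (v + w).1 x.1 = 0 := c
    rw [e, dotInt_add_left, b'] at c'
    omega

theorem fixw (g : ↥Co0) (v w : ↥leechLattice) (h1 : g • v = v) (h2 : g • (v + w) = v + w) :
    g • w = w := by
  rw [Co0_add, h1] at h2
  exact add_left_cancel h2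


/-- Two vectors of customary norm 6 with inner product −4 are exchanged by some automorphism of the lattice. -/
theorem result (v w : ↥Cfsg.leechLattice) (hv : Cfsg.sqNorm (v : Cfsg.GolayPt → ℤ) = 48) (hw : Cfsg.sqNorm (w : Cfsg.GolayPt → ℤ) = 48) (hvw : Cfsg.dotInt (v : Cfsg.GolayPt → ℤ) (w : Cfsg.GolayPt → ℤ) = -32) : ∃ g : ↥Cfsg.Co0, g • v = w ∧ g • w = v := by
  obtain ⟨z1, z2⟩ := zfacts v w hv hw hvw
  obtain ⟨z1', z2'⟩ := zfacts w v hw hv (by rw [dotInt_comm]; exact hvw)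
  obtain ⟨h, hh⟩ := chH_base2 (sel3 v (v + w) v) hv z1 z2
  obtain ⟨k, hk⟩ := chH_base2 (sel3 w (w + v) w) hw z1' z2'
  have e0 : h • v = k • w := Subtype.ext ((hh 0 (by norm_num)).trans (hk 0 (by norm_num)).symm)
  have e1 : h • (v + w) = k • (w + v) := Subtype.ext ((hh 1 (by norm_num)).trans (hk 1 (by norm_num)).symm)
  have e2 : h • w = k • v := by
    rw [Co0_add, Co0_add, e0] at e1
    exact add_left_cancel e1
  exact ⟨k⁻¹ * h, by rw [mul_smul, e0, inv_smul_smul], by rw [mul_smul, e2, inv_smul_smul]⟩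

end Cfsg.Agent.S1585
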