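import Cfsg.Statements.S1587
import Mathlib

set_option autoImplicit false
open Cfsg

namespace Cfsg.Agent.S1587

open Matrix in
theorem four_le {n : ℕ} (B : Matrix (Fin n) (Fin n) ℤ) (hpos : ∀ x : Fin n → ℤ, x ≠ 0 → 0 < x ⬝ᵥ (B *ᵥ x)) (heven : ∀ x : Fin n → ℤ, (2 : ℤ) ∣ x ⬝ᵥ (B *ᵥ x)) (h2 : ∀ x : Fin n → ℤ, x ⬝ᵥ (B *ᵥ x) ≠ 2) (z : Fin n → ℤ) (hz : z ≠ 0) : 4 ≤ z ⬝ᵥ (B *ᵥ z) := by
  have h1 := hpos z hz
  have h3 := heven z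
  have h4 := h2 z
  omega

open Matrix in
theorem symm_form {n : ℕ} (B : Matrix (Fin n) (Fin n) ℤ) (hsymm : B.IsSymm) (x y : Fin n → ℤ) :
    y ⬝ᵥ (B *ᵥ x) = x ⬝ᵥ (B *ᵥ y) := by
  rw [Matrix.dotProduct_mulVec, ← Matrix.mulVec_transpose, hsymm.eq, dotProduct_comm]

open Matrix in
theorem key {n : ℕ} (B : Matrix (Fin n) (Fin n) ℤ) (hsymm : B.IsSymm) (hpos : ∀ x : Fin n → ℤ, x ≠ 0 → 0 < x ⬝ᵥ (B *ᵥ x)) (heven : ∀ x : Fin n → ℤ, (2 : ℤ) ∣ x ⬝ᵥ (B *ᵥ x)) (h2 : ∀ x : Fin n → ℤ, x ⬝ᵥ (B *ᵥ x) ≠ 2) (x y : Fin n → ℤ) (hc : ∀ i, (2 : ℤ) ∣ (x - y) i) (hne : y ≠ x) :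
    16 ≤ x ⬝ᵥ (B *ᵥ x) + y ⬝ᵥ (B *ᵥ y) - 2 * (x ⬝ᵥ (B *ᵥ y)) := by
  choose z hz using hc
  have hxy : x - y = (2 : ℤ) • z := by
    ext i
    simpa using hz i
  have hz0 : z ≠ 0 := by
    rintro rfl
    apply hne
    have : x - y = 0 := by simpa using hxy
    exact (sub_eq_zero.mp this).symm
  have h4 := four_le B hpos heven h2 z hz0
  have h5 : (x - y) ⬝ᵥ (B *ᵥ (x - y)) = 4 * (z ⬝ᵥ (B *ᵥ z)) := by
    rw [hxy, Matrix.mulVec_smul, smul_dotProduct, dotProduct_smul]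
    simp only [smul_eq_mul]
    ring
  have h6 : (x - y) ⬝ᵥ (B *ᵥ (x - y)) = x ⬝ᵥ (B *ᵥ x) + y ⬝ᵥ (B *ᵥ y) - 2 * (x ⬝ᵥ (B *ᵥ y)) := by
    rw [Matrix.mulVec_sub, sub_dotProduct, dotProduct_sub, dotProduct_sub, symm_form B hsymm x y]
    ring
  linarith

open Matrix in
/-- First step of the characterisation of the rank-24 lattice: in an even lattice without roots, norm-8 vectors congruent modulo 2 are equal, opposite or orthogonal. -/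
theorem result (B : Matrix (Fin 24) (Fin 24) ℤ) (hsymm : B.IsSymm) (hpos : ∀ x : Fin 24 → ℤ, x ≠ 0 → 0 < x ⬝ᵥ (B *ᵥ x)) (heven : ∀ x : Fin 24 → ℤ, (2 : ℤ) ∣ x ⬝ᵥ (B *ᵥ x)) (h2 : ∀ x : Fin 24 → ℤ, x ⬝ᵥ (B *ᵥ x) ≠ 2) (x y : Fin 24 → ℤ) (hx : x ⬝ᵥ (B *ᵥ x) = 8) (hy : y ⬝ᵥ (B *ᵥ y) = 8) (hc : ∀ i, (2 : ℤ) ∣ (x - y) i) : y = x ∨ y = -x ∨ x ⬝ᵥ (B *ᵥ y) = 0 := by
  by_cases h1 : y = x
  · exact Or.inl h1
  by_cases h3 : y = -x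
  · exact Or.inr (Or.inl h3)
  right; right
  have k1 := key B hsymm hpos heven h2 x y hc h1
  have hc' : ∀ i, (2 : ℤ) ∣ (x - (-y)) i := by
    intro i
    have := hc i
    simp only [Pi.sub_apply, Pi.neg_apply] at this ⊢
    omega
  have k2 := key B hsymm hpos heven h2 x (-y) hc' (by
    intro h
    apply h3
    rw [← h, neg_neg])
  rw [Matrix.mulVec_neg, neg_dotProduct, dotProduct_neg, dotProduct_neg] at k2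
  linarith

end Cfsg.Agent.S1587
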