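import Cfsg.Statements.S1588
import Cfsg.Agent.S1587
import Mathlib

set_option autoImplicit false
open Matrix
open Cfsg

namespace Cfsg.Agent.S1588

/-- reduction mod 2 -/
def cl (x : Fin 24 → ℤ) : Fin 24 → ZMod 2 := fun i => ((x i : ℤ) : ZMod 2)

theorem cl_eq_iff (x y : Fin 24 → ℤ) : cl x = cl y ↔ ∀ i, (2 : ℤ) ∣ (x - y) i := by
  unfold cl
  rw [funext_iff]
  apply forall_congr'
  intro i
  rw [ZMod.intCast_eq_intCast_iff_dvd_sub]
  simp only [Pi.sub_apply, Nat.cast_ofNat]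
  constructor <;> intro h <;> omega

section
variable (B : Matrix (Fin 24) (Fin 24) ℤ) (hsymm : B.IsSymm) (hpos : ∀ x : Fin 24 → ℤ, x ≠ 0 → 0 < x ⬝ᵥ (B *ᵥ x)) (heven : ∀ x : Fin 24 → ℤ, (2 : ℤ) ∣ x ⬝ᵥ (B *ᵥ x)) (h2 : ∀ x : Fin 24 → ℤ, x ⬝ᵥ (B *ᵥ x) ≠ 2)

include hsymm hpos heven h2 in
theorem two_bounds (x y : Fin 24 → ℤ) (hc : cl x = cl y) (h1 : y ≠ x) (h3 : y ≠ -x) :
    16 ≤ x ⬝ᵥ (B *ᵥ x) + y ⬝ᵥ (B *ᵥ y) - 2 * (x ⬝ᵥ (B *ᵥ y)) ∧
    16 ≤ x ⬝ᵥ (B *ᵥ x) + y ⬝ᵥ (B *ᵥ y) + 2 * (x ⬝ᵥ (B *ᵥ y)) := by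
  rw [cl_eq_iff] at hc
  have k1 := Cfsg.Agent.S1587.key B hsymm hpos heven h2 x y hc h1
  have hc' : ∀ i, (2 : ℤ) ∣ (x - (-y)) i := by
    intro i
    have := hc i
    simp only [Pi.sub_apply, Pi.neg_apply] at this ⊢
    omega
  have k2 := Cfsg.Agent.S1587.key B hsymm hpos heven h2 x (-y) hc' (by
    intro h
    apply h3
    rw [← h, neg_neg])
  rw [Matrix.mulVec_neg, neg_dotProduct, dotProduct_neg, dotProduct_neg] at k2
  constructor <;> linarith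

include hsymm hpos heven h2 in
theorem small_eq (x y : Fin 24 → ℤ) (hc : cl x = cl y)
    (hs : x ⬝ᵥ (B *ᵥ x) + y ⬝ᵥ (B *ᵥ y) < 16) : y = x ∨ y = -x := by
  by_contra hcon
  push_neg at hcon
  obtain ⟨k1, k2⟩ := two_bounds B hsymm hpos heven h2 x y hc hcon.1 hcon.2
  linarith

theorem Q_neg (x : Fin 24 → ℤ) : (-x) ⬝ᵥ (B *ᵥ (-x)) = x ⬝ᵥ (B *ᵥ x) := by
  rw [Matrix.mulVec_neg, neg_dotProduct, dotProduct_neg, neg_neg]

include hsymm hpos heven h2 in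
theorem small_Q_eq (x y : Fin 24 → ℤ) (hc : cl x = cl y)
    (hs : x ⬝ᵥ (B *ᵥ x) + y ⬝ᵥ (B *ᵥ y) < 16) : y ⬝ᵥ (B *ᵥ y) = x ⬝ᵥ (B *ᵥ x) := by
  rcases small_eq B hsymm hpos heven h2 x y hc hs with rfl | rfl
  · rfl
  · exact Q_neg B x

include hsymm hpos heven h2 in
theorem orth (x y : Fin 24 → ℤ) (hc : cl x = cl y) (hx : x ⬝ᵥ (B *ᵥ x) = 8) (hy : y ⬝ᵥ (B *ᵥ y) = 8)
    (h1 : y ≠ x) (h3 : y ≠ -x) : x ⬝ᵥ (B *ᵥ y) = 0 := by
  obtain ⟨k1, k2⟩ := two_bounds B hsymm hpos heven h2 x y hc h1 h3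
  linarith

/-- pairwise orthogonal norm-8 vectors are at most 24 -/
theorem card_orth_le {ι : Type*} [Fintype ι] (v : ι → (Fin 24 → ℤ))
    (hv : ∀ i, v i ⬝ᵥ (B *ᵥ v i) = 8) (ho : ∀ i j, i ≠ j → v i ⬝ᵥ (B *ᵥ v j) = 0) :
    Fintype.card ι ≤ 24 := by
  classical
  have hli : LinearIndependent ℤ v := by
    rw [Fintype.linearIndependent_iff]
    intro g hg j
    have h1 : v j ⬝ᵥ (B *ᵥ (∑ i, g i • v i)) = 8 * g j := by
      rw [Matrix.mulVec_sum, dotProduct_sum]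
      rw [Finset.sum_eq_single j]
      · rw [Matrix.mulVec_smul, dotProduct_smul, hv j, smul_eq_mul, mul_comm]
      · intro i _ hij
        rw [Matrix.mulVec_smul, dotProduct_smul, ho j i (Ne.symm hij), smul_zero]
      · intro h
        exact absurd (Finset.mem_univ j) h
    rw [hg, Matrix.mulVec_zero, dotProduct_zero] at h1
    omega
  have := hli.fintype_card_le_finrank
  simpa using this

include hsymm hpos heven h2 in
theorem fiber_le (F : Finset (Fin 24 → ℤ)) (hF8 : ∀ y ∈ F, y ⬝ᵥ (B *ᵥ y) = 8)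
    (hFc : ∀ y ∈ F, ∀ y' ∈ F, cl y = cl y') : F.card ≤ 48 := by
  classical
  let φ : (Fin 24 → ℤ) → Finset (Fin 24 → ℤ) := fun y => {y, -y}
  have h1 : F.card ≤ 2 * (F.image φ).card := by
    apply Finset.card_le_mul_card_image
    intro P hP
    obtain ⟨y, hy, rfl⟩ := Finset.mem_image.mp hP
    calc (F.filter (fun a => φ a = φ y)).card ≤ (φ y).card := by
          apply Finset.card_le_card
          intro a ha
          have h := (Finset.mem_filter.mp ha).2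
          rw [← h]
          exact Finset.mem_insert_self _ _
      _ ≤ 2 := Finset.card_le_two
  have hrep : ∀ P : ↥(F.image φ), ∃ y ∈ F, φ y = P := fun P => Finset.mem_image.mp P.2
  choose rep hrepF hrepφ using hrep
  have h3 : Fintype.card ↥(F.image φ) ≤ 24 := by
    apply card_orth_le B rep (fun P => hF8 _ (hrepF P))
    intro P P' hPP'
    apply orth B hsymm hpos heven h2 _ _ (hFc _ (hrepF P) _ (hrepF P')) (hF8 _ (hrepF P)) (hF8 _ (hrepF P'))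
    · intro h
      apply hPP'
      apply Subtype.ext
      rw [← hrepφ P, ← hrepφ P', h]
    · intro h
      apply hPP'
      apply Subtype.ext
      rw [← hrepφ P, ← hrepφ P', h]
      show ({rep P, -rep P} : Finset _) = {-rep P, - -rep P}
      rw [neg_neg, Finset.pair_comm]
  rw [Fintype.card_coe] at h3
  omega

include hsymm hpos heven h2 in
theorem image_ge (S : Finset (Fin 24 → ℤ)) (a : ℤ) (ha : a < 8) (hS : ∀ y ∈ S, y ⬝ᵥ (B *ᵥ y) = a) :
    S.card ≤ 2 * (S.image cl).card := by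
  classical
  apply Finset.card_le_mul_card_image
  intro t ht
  obtain ⟨y, hy, rfl⟩ := Finset.mem_image.mp ht
  calc (S.filter (fun z => cl z = cl y)).card ≤ ({y, -y} : Finset (Fin 24 → ℤ)).card := by
        apply Finset.card_le_card
        intro z hz
        obtain ⟨hzS, hzc⟩ := Finset.mem_filter.mp hz
        have := small_eq B hsymm hpos heven h2 y z hzc.symm (by rw [hS y hy, hS z hzS]; linarith)
        simpa using this
    _ ≤ 2 := Finset.card_le_two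

end

/-- Second step of the characterisation: under the vector counts of the rank-24 lattice, the norm-8 vectors fall into congruence classes of exactly 48 modulo twice the lattice. -/
theorem result (B : Matrix (Fin 24) (Fin 24) ℤ) (hsymm : B.IsSymm) (hpos : ∀ x : Fin 24 → ℤ, x ≠ 0 → 0 < x ⬝ᵥ (B *ᵥ x)) (heven : ∀ x : Fin 24 → ℤ, (2 : ℤ) ∣ x ⬝ᵥ (B *ᵥ x)) (h2 : ∀ x : Fin 24 → ℤ, x ⬝ᵥ (B *ᵥ x) ≠ 2) (h4 : {x : Fin 24 → ℤ | x ⬝ᵥ (B *ᵥ x) = 4}.ncard = 196560) (h6 : {x : Fin 24 → ℤ | x ⬝ᵥ (B *ᵥ x) = 6}.ncard = 16773120) (h8 : {x : Fin 24 → ℤ | x ⬝ᵥ (B *ᵥ x) = 8}.ncard = 398034000) (x : Fin 24 → ℤ) (hx : x ⬝ᵥ (B *ᵥ x) = 8) : {y : Fin 24 → ℤ | y ⬝ᵥ (B *ᵥ y) = 8 ∧ ∀ i, (2 : ℤ) ∣ (x - y) i}.ncard = 48 := by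
  classical
  have f4 : {x : Fin 24 → ℤ | x ⬝ᵥ (B *ᵥ x) = 4}.Finite := Set.finite_of_ncard_ne_zero (by rw [h4]; norm_num)
  have f6 : {x : Fin 24 → ℤ | x ⬝ᵥ (B *ᵥ x) = 6}.Finite := Set.finite_of_ncard_ne_zero (by rw [h6]; norm_num)
  have f8 : {x : Fin 24 → ℤ | x ⬝ᵥ (B *ᵥ x) = 8}.Finite := Set.finite_of_ncard_ne_zero (by rw [h8]; norm_num)
  set S4 := f4.toFinset with hS4
  set S6 := f6.toFinset with hS6
  set S8 := f8.toFinset with hS8
  have c4 : S4.card = 196560 := by rw [← h4, Set.ncard_eq_toFinset_card _ f4]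
  have c6 : S6.card = 16773120 := by rw [← h6, Set.ncard_eq_toFinset_card _ f6]
  have c8 : S8.card = 398034000 := by rw [← h8, Set.ncard_eq_toFinset_card _ f8]
  have m4 : ∀ y, y ∈ S4 ↔ y ⬝ᵥ (B *ᵥ y) = 4 := fun y => by simp [hS4]
  have m6 : ∀ y, y ∈ S6 ↔ y ⬝ᵥ (B *ᵥ y) = 6 := fun y => by simp [hS6]
  have m8 : ∀ y, y ∈ S8 ↔ y ⬝ᵥ (B *ᵥ y) = 8 := fun y => by simp [hS8]
  have i4 := image_ge B hsymm hpos heven h2 S4 4 (by norm_num) (fun y hy => (m4 y).mp hy)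
  have i6 := image_ge B hsymm hpos heven h2 S6 6 (by norm_num) (fun y hy => (m6 y).mp hy)
  -- disjointness
  have hdisj : ∀ (S T : Finset (Fin 24 → ℤ)) (a b : ℤ), a + b < 16 → a ≠ b → (∀ y ∈ S, y ⬝ᵥ (B *ᵥ y) = a) →
      (∀ y ∈ T, y ⬝ᵥ (B *ᵥ y) = b) → Disjoint (S.image cl) (T.image cl) := by
    intro S T a b hab hne hS hT
    rw [Finset.disjoint_left]
    intro t htS htT
    obtain ⟨y, hy, rfl⟩ := Finset.mem_image.mp htS
    obtain ⟨z, hz, hzc⟩ := Finset.mem_image.mp htT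
    have := small_Q_eq B hsymm hpos heven h2 y z hzc.symm (by rw [hS y hy, hT z hz]; exact hab)
    rw [hS y hy, hT z hz] at this
    exact hne this.symm
  have hQ0 : ∀ y ∈ ({0} : Finset (Fin 24 → ℤ)), y ⬝ᵥ (B *ᵥ y) = 0 := by
    intro y hy
    rw [Finset.mem_singleton.mp hy]
    simp
  have d46 := hdisj S4 S6 4 6 (by norm_num) (by norm_num) (fun y hy => (m4 y).mp hy) (fun y hy => (m6 y).mp hy)
  have d48 := hdisj S4 S8 4 8 (by norm_num) (by norm_num) (fun y hy => (m4 y).mp hy) (fun y hy => (m8 y).mp hy)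
  have d68 := hdisj S6 S8 6 8 (by norm_num) (by norm_num) (fun y hy => (m6 y).mp hy) (fun y hy => (m8 y).mp hy)
  have d40 := hdisj S4 {0} 4 0 (by norm_num) (by norm_num) (fun y hy => (m4 y).mp hy) hQ0
  have d60 := hdisj S6 {0} 6 0 (by norm_num) (by norm_num) (fun y hy => (m6 y).mp hy) hQ0
  have d80 := hdisj S8 {0} 8 0 (by norm_num) (by norm_num) (fun y hy => (m8 y).mp hy) hQ0
  have htotal : (S4.image cl).card + (S6.image cl).card + (S8.image cl).card + 1 ≤ 2 ^ 24 := by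
    have hu : ((S4.image cl ∪ S6.image cl) ∪ S8.image cl ∪ ({0} : Finset (Fin 24 → ℤ)).image cl).card ≤ 2 ^ 24 := by
      calc _ ≤ (Finset.univ : Finset (Fin 24 → ZMod 2)).card := Finset.card_le_univ _
        _ = 2 ^ 24 := by simp [ZMod.card]
    rw [Finset.card_union_of_disjoint, Finset.card_union_of_disjoint, Finset.card_union_of_disjoint d46] at hu
    · simpa using hu
    · exact Finset.disjoint_union_left.mpr ⟨d48, d68⟩
    · exact Finset.disjoint_union_left.mpr ⟨Finset.disjoint_union_left.mpr ⟨d40, d60⟩, d80⟩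
  have hI8 : (S8.image cl).card ≤ 8292375 := by omega
  -- fibers
  have hfib : ∀ t ∈ S8.image cl, (S8.filter (fun y => cl y = t)).card ≤ 48 := by
    intro t _
    apply fiber_le B hsymm hpos heven h2
    · intro y hy
      exact (m8 y).mp (Finset.mem_filter.mp hy).1
    · intro y hy y' hy'
      rw [(Finset.mem_filter.mp hy).2, (Finset.mem_filter.mp hy').2]
  have hsum : S8.card = ∑ t ∈ S8.image cl, (S8.filter (fun y => cl y = t)).card :=
    Finset.card_eq_sum_card_image cl S8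
  have hset : {y : Fin 24 → ℤ | y ⬝ᵥ (B *ᵥ y) = 8 ∧ ∀ i, (2 : ℤ) ∣ (x - y) i} = ↑(S8.filter (fun y => cl y = cl x)) := by
    ext y
    simp only [Set.mem_setOf_eq, Finset.coe_filter, m8]
    rw [← cl_eq_iff, eq_comm (a := cl x)]
  rw [hset, Set.ncard_coe_finset]
  have hxI : cl x ∈ S8.image cl := Finset.mem_image_of_mem cl ((m8 x).mpr hx)
  by_contra hne
  have hlt : (S8.filter (fun y => cl y = cl x)).card < 48 := lt_of_le_of_ne (hfib _ hxI) hne
  have : ∑ t ∈ S8.image cl, (S8.filter (fun y => cl y = t)).card < ∑ _t ∈ S8.image cl, 48 :=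
    Finset.sum_lt_sum hfib ⟨cl x, hxI, hlt⟩
  rw [← hsum, c8, Finset.sum_const, smul_eq_mul] at this
  omega

end Cfsg.Agent.S1588
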