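import Cfsg.Statements.S1590
import Mathlib
import Cfsg.Agent.Lib.Helper11.TGolay
-- import your own Cfsg.Agent.* helpers here

set_option autoImplicit false
open Cfsg

namespace Cfsg.Agent.S1590

open Cfsg.Agent.Lib.Helper11.TG

set_option maxRecDepth 100000

theorem wts : ∀ u : U6, enc u = 0 ∨ (ternarySupport (enc u)).card = 6 ∨
    (ternarySupport (enc u)).card = 9 ∨ (ternarySupport (enc u)).card = 12 := by decide +kernel

theorem c6 : (Finset.univ.filter fun u : U6 => (ternarySupport (enc u)).card = 6).card = 264 := by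
  decide +kernel
theorem c9 : (Finset.univ.filter fun u : U6 => (ternarySupport (enc u)).card = 9).card = 440 := by
  decide +kernel
theorem c12 : (Finset.univ.filter fun u : U6 => (ternarySupport (enc u)).card = 12).card = 24 := by
  decide +kernel

/-- The length-12 ternary code has 729 words with weight distribution 0^1 6^264 9^440 12^24. -/
theorem result : Nat.card ↥Cfsg.ternaryGolayCode = 729 ∧ (∀ x ∈ Cfsg.ternaryGolayCode, x ≠ 0 → (Cfsg.ternarySupport x).card = 6 ∨ (Cfsg.ternarySupport x).card = 9 ∨ (Cfsg.ternarySupport x).card = 12) ∧ {x : Cfsg.ArrayPt → ZMod 3 | x ∈ Cfsg.ternaryGolayCode ∧ (Cfsg.ternarySupport x).card = 6}.ncard = 264 ∧ {x : Cfsg.ArrayPt → ZMod 3 | x ∈ Cfsg.ternaryGolayCode ∧ (Cfsg.ternarySupport x).card = 9}.ncard = 440 ∧ {x : Cfsg.ArrayPt → ZMod 3 | x ∈ Cfsg.ternaryGolayCode ∧ (Cfsg.ternarySupport x).card = 12}.ncard = 24 := by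
  refine ⟨?_, ?_, ?_, ?_, ?_⟩
  · have e : U6 ≃ ↥ternaryGolayCode := Equiv.ofBijective (fun u => ⟨enc u, enc_mem u⟩)
      ⟨fun u v h => enc_injective (congrArg Subtype.val h),
        fun x => ⟨info x.1, Subtype.ext (eq_enc x.2).symm⟩⟩
    rw [← Nat.card_congr e, Nat.card_eq_fintype_card]
    rfl
  · intro x hx h0
    rw [eq_enc hx] at h0 ⊢
    rcases wts (info x) with h | h
    · exact absurd h h0
    · exact h
  · rw [ncard_code (fun x => (ternarySupport x).card = 6)]; exact c6
  · rw [ncard_code (fun x => (ternarySupport x).card = 9)]; exact c9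
  · rw [ncard_code (fun x => (ternarySupport x).card = 12)]; exact c12

end Cfsg.Agent.S1590
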