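import Cfsg.Statements.S1591
import Mathlib
import Cfsg.Agent.Lib.Helper11.TGolay
-- import your own Cfsg.Agent.* helpers here

set_option autoImplicit false
open Cfsg

namespace Cfsg.Agent.S1591

open Cfsg.Agent.Lib.Helper11.TG

set_option maxRecDepth 100000

theorem selfdot : ∀ u : U6, ∑ p, enc u p * enc u p = 0 := by decide +kernel

theorem self_zero {x : ArrayPt → ZMod 3} (hx : x ∈ ternaryGolayCode) : ∑ p, x p * x p = 0 := by
  rw [eq_enc hx]; exact selfdot _

theorem two_cancel : ∀ s : ZMod 3, 2 * s = 0 → s = 0 := by decide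

/-- Any two words of the length-12 ternary code have dot product zero. -/
theorem result (x y : Cfsg.ArrayPt → ZMod 3) (hx : x ∈ Cfsg.ternaryGolayCode) (hy : y ∈ Cfsg.ternaryGolayCode) : ∑ p, x p * y p = 0 := by
  have h1 := self_zero (ternaryGolayCode.add_mem hx hy)
  have h2 : ∑ p, (x + y) p * (x + y) p = ∑ p, x p * x p + 2 * ∑ p, x p * y p + ∑ p, y p * y p := by
    rw [Finset.mul_sum, ← Finset.sum_add_distrib, ← Finset.sum_add_distrib]
    exact Finset.sum_congr rfl (fun p _ => by simp only [Pi.add_apply]; ring)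
  rw [h2, self_zero hx, self_zero hy, zero_add, add_zero] at h1
  exact two_cancel _ h1

end Cfsg.Agent.S1591
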