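import Cfsg.Statements.S1592
import Mathlib
import Mathlib
import Cfsg.Agent.Lib.Helper11.TGolay
-- import your own Cfsg.Agent.* helpers here

set_option autoImplicit false
open Cfsg

namespace Cfsg.Agent.S1592

open Cfsg.Agent.Lib.Helper11.TG

set_option maxRecDepth 100000

/-- position number. -/
def idx (p : ArrayPt) : ℕ := 3 * p.1.val + p.2.val

theorem idx_inj : ∀ p q : ArrayPt, idx p = idx q → p = q := by decide

theorem idx_lt : ∀ p : ArrayPt, idx p < 12 := by decide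

/-- bit mask of a set of positions. -/
def msk (s : Finset ArrayPt) : ℕ := ∑ p ∈ s, 2 ^ idx p

theorem tbi (s : Finset ArrayPt) (i : ℕ) : (msk s).testBit i = true ↔ ∃ p ∈ s, idx p = i := by
  have h1 : msk s = ∑ i ∈ s.image idx, 2 ^ i := by
    rw [msk, Finset.sum_image (fun a _ b _ h => idx_inj a b h)]
  rw [h1, ← Nat.mem_bitIndices, ← List.mem_toFinset, Finset.toFinset_bitIndices_sum_two_pow,
    Finset.mem_image]

theorem sub_iff (s b : Finset ArrayPt) : s ⊆ b ↔ msk b &&& msk s = msk s := by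
  constructor
  · intro hsb
    apply Nat.eq_of_testBit_eq
    intro i
    rw [Nat.testBit_land]
    by_cases h : (msk s).testBit i = true
    · obtain ⟨p, hp, rfl⟩ := (tbi s _).1 h
      have h2 := (tbi b _).2 ⟨p, hsb hp, rfl⟩
      rw [h, h2]; rfl
    · rw [Bool.not_eq_true] at h
      rw [h, Bool.and_false]
  · intro hl p hp
    have h1 := (tbi s (idx p)).2 ⟨p, hp, rfl⟩
    rw [← hl, Nat.testBit_land, Bool.and_eq_true] at h1
    obtain ⟨q, hq, hqp⟩ := (tbi b _).1 h1.1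
    rw [← idx_inj q p hqp]; exact hq

theorem msk_inj : Function.Injective msk := by
  intro s b h
  apply Finset.Subset.antisymm
  · rw [sub_iff, h, Nat.and_self]
  · rw [sub_iff, h, Nat.and_self]

theorem msk_lt (s : Finset ArrayPt) : msk s < 4096 := by
  apply Nat.lt_pow_two_of_testBit (n := 12)
  intro i hi
  by_contra h
  rw [Bool.not_eq_false] at h
  obtain ⟨p, -, rfl⟩ := (tbi s i).1 h
  exact absurd (idx_lt p) (not_lt.2 hi)

/-- number of bits. -/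
def pc (m : ℕ) : ℕ := ((Finset.range 12).filter (fun i => m.testBit i = true)).card

theorem pc_msk (s : Finset ArrayPt) : pc (msk s) = s.card := by
  have h : (Finset.range 12).filter (fun i => (msk s).testBit i = true) = s.image idx := by
    ext i
    simp only [Finset.mem_filter, Finset.mem_range, Finset.mem_image, tbi]
    constructor
    · exact fun h => h.2
    · rintro ⟨p, hp, rfl⟩
      exact ⟨idx_lt p, p, hp, rfl⟩
  rw [pc, h, Finset.card_image_of_injective _ (fun a b h => idx_inj a b h)]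

/-- the hexads. -/
def hexF : Finset (Finset ArrayPt) :=
  (Finset.univ.filter fun u : U6 => (ternarySupport (enc u)).card = 6).image
    (fun u => ternarySupport (enc u))

theorem hex_eq : {h : Finset ArrayPt | ∃ x ∈ ternaryGolayCode, ternarySupport x = h ∧ h.card = 6} =
    (hexF : Set (Finset ArrayPt)) := by
  ext h
  simp only [hexF, Set.mem_ofPred_eq, Finset.coe_image, Set.mem_image, Finset.coe_filter,
    Finset.mem_univ, true_and]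
  constructor
  · rintro ⟨x, hx, rfl, h6⟩
    exact ⟨info x, by rw [← eq_enc hx]; exact h6, by rw [← eq_enc hx]⟩
  · rintro ⟨u, hu, rfl⟩
    exact ⟨enc u, enc_mem u, rfl, hu⟩

/-- the masks of the hexads. -/
def hexL : List ℕ := [63, 222, 237, 243, 347, 366, 373, 413, 427, 438, 455, 504, 591, 630, 633, 667, 679, 700, 725, 746, 791, 813, 826, 860, 867, 910, 945, 969, 978, 996, 1117, 1127, 1146, 1175, 1198, 1209, 1227, 1268, 1295, 1331, 1340, 1366, 1385, 1434, 1445, 1484, 1489, 1506, 1566, 1579, 1589, 1619, 1644, 1677, 1714, 1734, 1752, 1761, 1817, 1830, 1861, 1866, 1904, 1923, 1940, 1960, 2135, 2155, 2172, 2191, 2229, 2234, 2265, 2278, 2334, 2343, 2361, 2381, 2418, 2451, 2476, 2506, 2516, 2529, 2589, 2606, 2611, 2650, 2661, 2710, 2729, 2755, 2764, 2800, 2827, 2868, 2886, 2897, 2920, 2949, 2968, 2978, 3099, 3117, 3126, 3150, 3185, 3228, 3235, 3269, 3282, 3304, 3349, 3370, 3395,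 3416, 3428, 3462, 3465, 3504, 3591, 3640, 3657, 3668, 3682, 3722, 3729, 3748, 3852, 3858, 3873, 4032]

/-- words with these supports. -/
def hexW : List U6 := [(1, 1, 1, 2, 2, 0), (0, 1, 2, 1, 2, 2), (1, 0, 2, 1, 0, 1), (1, 2, 0, 0, 1, 2), (1, 2, 0, 1, 2, 1), (0, 1, 2, 2, 0, 1), (1, 0, 2, 0, 2, 2), (1, 0, 2, 2, 1, 0), (1, 2, 0, 2, 0, 0), (0, 1, 2, 0, 1, 0), (1, 1, 1, 0, 0, 2), (0, 0, 0, 1, 1, 2), (1, 2, 2, 2, 0, 2), (0, 1, 1, 0, 1, 2), (1, 0, 0, 2, 1, 1), (1, 1, 0, 1, 1, 0), (1, 1, 2, 0, 0, 0), (0, 0, 1, 1, 1, 0), (1, 0, 1, 0, 2, 1), (0, 1, 0, 2, 0, 2), (1, 2, 1, 0, 1, 0), (1, 0, 1, 1, 0, 0), (0, 1, 0, 1, 2, 0), (0, 0, 1, 2, 2, 2), (1, 1, 0, 0, 0, 1), (0, 1, 1, 2, 0, 0), (1, 0, 0, 0, 2, 0), (1, 0, 0, 1, 0, 2), (0, 1, 0, 0, 1, 1), (0, 0, 1, 0, 0, 1), (1, 0, 1, 1, 1, 2), (1, 2, 1, 0, 0, 1), (0, 1, 0, 1, 1, 1), (1, 2, 2, 0, 2, 0), (0, 1, 1, 1, 0, 0), (1, 0, 0, 1, 2, 0), (1, 1,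 0, 2, 0, 1), (0, 0, 1, 0, 2, 2), (1, 1, 2, 1, 0, 0), (1, 1, 0, 0, 1, 0), (0, 0, 1, 2, 1, 0), (0, 1, 1, 0, 2, 1), (1, 0, 0, 2, 0, 2), (0, 1, 0, 2, 2, 0), (1, 0, 1, 0, 0, 0), (0, 0, 1, 1, 0, 1), (1, 0, 0, 0, 1, 1), (0, 1, 0, 0, 0, 2), (0, 1, 2, 2, 1, 0), (1, 2, 0, 1, 0, 0), (1, 0, 2, 0, 1, 0), (1, 1, 0, 0, 2, 2), (0, 0, 1, 2, 0, 1), (1, 0, 1, 2, 0, 0), (0, 1, 0, 0, 2, 0), (0, 1, 2, 0, 0, 1), (0, 0, 0, 1, 2, 1), (1, 0, 0, 0, 0, 2), (1, 0, 0, 2, 2, 0), (0, 1, 1, 0, 0, 0), (1, 0, 2, 0, 0, 1), (0, 1, 0, 1, 0, 2), (0, 0, 0, 0, 1, 2), (1, 2, 0, 0, 0, 0), (0, 0, 1, 0, 1, 0), (0, 0, 0, 1, 0, 0), (1, 1, 2, 0, 1, 1), (1, 1, 0, 1, 0, 2), (0, 0, 1, 1, 2, 1), (1, 2, 1, 1, 0, 0), (1, 0, 1, 0, 1, 0), (0, 1, 0, 2, 1, 0), (1, 0, 0, 2, 2, 2), (0, 1, 1, 0, 0, 1), (0, 1, 1, 1, 1, 0), (1, 2, 2, 0, 0, 0), (1, 0, 0, 1, 1, 0), (1, 0, 1, 2, 0, 1), (0, 1, 0, 0, 2, 2), (1, 1, 0, 0, 2, 0), (0, 0, 1, 2,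 0, 0), (0, 1, 0, 1, 0, 1), (0, 0, 1, 0, 1, 2), (1, 0, 0, 0, 0, 1), (1, 0, 2, 1, 2, 0), (0, 1, 2, 1, 0, 0), (1, 2, 0, 0, 2, 0), (0, 1, 0, 2, 2, 1), (1, 0, 1, 0, 0, 2), (0, 1, 1, 0, 2, 0), (1, 0, 0, 2, 0, 0), (1, 2, 0, 0, 0, 1), (0, 0, 1, 1, 0, 2), (0, 0, 0, 0, 1, 1), (1, 1, 0, 2, 0, 0), (0, 0, 1, 0, 2, 0), (0, 1, 2, 0, 0, 2), (1, 0, 0, 0, 1, 2), (0, 0, 0, 1, 0, 1), (1, 0, 2, 0, 0, 0), (0, 0, 0, 1, 2, 0), (0, 1, 0, 0, 0, 0), (1, 2, 0, 2, 1, 0), (1, 0, 2, 2, 0, 0), (0, 1, 2, 0, 2, 0), (0, 1, 1, 2, 0, 2), (1, 0, 0, 0, 2, 1), (0, 0, 1, 2, 2, 0), (1, 1, 0, 0, 0, 0), (1, 0, 2, 0, 0, 2), (0, 1, 0, 0, 1, 2), (0, 0, 0, 1, 0, 2), (1, 0, 1, 0, 2, 0), (0, 1, 0, 2, 0, 0), (1, 2, 0, 0, 0, 2), (0, 0, 0, 1, 2, 2), (0, 0, 1, 0, 0, 2), (0, 1, 2, 0, 0, 0), (1, 0, 0, 1, 0, 0), (0, 0, 0, 0, 1, 0), (1, 1, 1, 0, 0, 0), (0, 0, 0, 1, 1, 0), (1, 0, 0, 1, 0, 1), (0, 0, 1, 0, 1, 1), (0, 1, 0, 0, 0, 1),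 (0, 1, 0, 1, 0, 0), (1, 0, 0, 0, 1, 0), (0, 0, 1, 0, 0, 0), (0, 0, 1, 1, 0, 0), (0, 1, 0, 0, 1, 0), (1, 0, 0, 0, 0, 0), (0, 0, 0, 0, 0, 1)]

theorem hexW_ok : ∀ u ∈ hexW, (ternarySupport (enc u)).card = 6 := by decide +kernel

theorem hexW_map : hexW.map (fun u => msk (ternarySupport (enc u))) = hexL := by decide +kernel

theorem hexL_all : ∀ u : U6, (ternarySupport (enc u)).card = 6 →
    msk (ternarySupport (enc u)) ∈ hexL := by decide +kernel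

theorem hexF_img : hexF.image msk = hexL.toFinset := by
  ext h
  simp only [Finset.mem_image, List.mem_toFinset, hexF, Finset.mem_filter, Finset.mem_univ,
    true_and]
  constructor
  · rintro ⟨b, ⟨u, hu, rfl⟩, rfl⟩
    exact hexL_all u hu
  · intro hh
    rw [← hexW_map, List.mem_map] at hh
    obtain ⟨u, hu, rfl⟩ := hh
    exact ⟨_, ⟨u, hexW_ok u hu, rfl⟩, rfl⟩

theorem hexL_card : hexL.toFinset.card = 132 := by decide +kernel

theorem hex_card : hexF.card = 132 := by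
  rw [← Finset.card_image_of_injective hexF msk_inj, hexF_img, hexL_card]

/-- the check for one mask. -/
def chk (m : ℕ) : Bool :=
  match m with
  | 0 => true
  | n + 1 => pc (n + 1) != 5 || (hexL.filter (fun h => h &&& (n + 1) = (n + 1))).length == 1

theorem chk_all : ∀ a, a < 64 → ∀ b, b < 64 → chk (64 * a + b) = true := by decide +kernel

theorem hex_st (s : Finset ArrayPt) (hs : s.card = 5) :
    (hexL.filter (fun h => h &&& msk s = msk s)).length = 1 := by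
  have h1 := chk_all (msk s / 64) (Nat.div_lt_of_lt_mul (msk_lt s)) (msk s % 64)
    (Nat.mod_lt _ (by norm_num))
  rw [Nat.div_add_mod] at h1
  have h2 := pc_msk s
  rw [hs] at h2
  generalize msk s = m at h1 h2
  cases m with
  | zero => simp [pc] at h2
  | succ n =>
    simp only [chk, h2, bne_self_eq_false, Bool.false_or, beq_iff_eq] at h1
    exact h1

/-- The supports of the weight-6 words of the length-12 ternary code form a Steiner system S(5, 6, 12) with 132 blocks. -/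
theorem result : Cfsg.IsSteinerSystem 5 6 {h : Finset Cfsg.ArrayPt | ∃ x ∈ Cfsg.ternaryGolayCode, Cfsg.ternarySupport x = h ∧ h.card = 6} ∧ {h : Finset Cfsg.ArrayPt | ∃ x ∈ Cfsg.ternaryGolayCode, Cfsg.ternarySupport x = h ∧ h.card = 6}.ncard = 132 := by
  rw [hex_eq]
  refine ⟨⟨?_, ?_⟩, ?_⟩
  · intro b hb
    have hb' : b ∈ hexF := hb
    simp only [hexF, Finset.mem_image, Finset.mem_filter, Finset.mem_univ, true_and] at hb'
    obtain ⟨u, hu, rfl⟩ := hb'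
    exact hu
  · intro s hs
    have h1 := hex_st s hs
    obtain ⟨h, hh⟩ := List.length_eq_one_iff.1 h1
    have hm : h ∈ hexL.filter (fun h => h &&& msk s = msk s) := by rw [hh]; exact List.mem_singleton_self h
    rw [List.mem_filter] at hm
    have hm1 : h ∈ hexF.image msk := by rw [hexF_img]; exact List.mem_toFinset.2 hm.1
    obtain ⟨b, hb, rfl⟩ := Finset.mem_image.1 hm1
    refine ⟨b, ⟨hb, (sub_iff s b).2 (of_decide_eq_true hm.2)⟩, ?_⟩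
    rintro b' ⟨hb1, hb2⟩
    have h2 : msk b' ∈ hexL.filter (fun h => h &&& msk s = msk s) := by
      rw [List.mem_filter]
      refine ⟨?_, decide_eq_true ((sub_iff s b').1 hb2)⟩
      rw [← List.mem_toFinset, ← hexF_img]
      exact Finset.mem_image_of_mem _ hb1
    rw [hh] at h2
    exact msk_inj (List.mem_singleton.1 h2)
  · rw [Set.ncard_coe_finset]; exact hex_card
end Cfsg.Agent.S1592
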