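import Cfsg.Statements.S1593
import Mathlib
import Cfsg.Agent.Lib.Helper11.TGolay
-- import your own Cfsg.Agent.* helpers here

set_option autoImplicit false
open Cfsg

namespace Cfsg.Agent.S1593

open Cfsg.Agent.Lib.Helper11.TG

set_option maxRecDepth 100000

/-- the six generators. -/
def gens : List U6 := [(1, 0, 0, 0, 0, 0), (0, 1, 0, 0, 0, 0), (0, 0, 1, 0, 0, 0), (0, 0, 0, 1, 0, 0),
  (0, 0, 0, 0, 1, 0), (0, 0, 0, 0, 0, 1)]

set_option synthInstance.maxSize 4000 in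
set_option synthInstance.maxHeartbeats 2000000 in
theorem signs : ∀ e0 : ZMod 3, e0 ≠ 0 → ∀ e1 : ZMod 3, e1 ≠ 0 → ∀ e2 : ZMod 3, e2 ≠ 0 → ∀ e3 : ZMod 3, e3 ≠ 0 → ∀ e4 : ZMod 3, e4 ≠ 0 → ∀ e5 : ZMod 3, e5 ≠ 0 → ∀ e6 : ZMod 3, e6 ≠ 0 → ∀ e7 : ZMod 3, e7 ≠ 0 → ∀ e8 : ZMod 3, e8 ≠ 0 → ∀ e9 : ZMod 3, e9 ≠ 0 → ∀ e10 : ZMod 3, e10 ≠ 0 → ∀ e11 : ZMod 3, e11 ≠ 0 →
    (∀ u ∈ gens, isTG (fun p => tab [e0, e1, e2, e3, e4, e5, e6, e7, e8, e9, e10, e11] p * enc u p)) →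
      (tab [e0, e1, e2, e3, e4, e5, e6, e7, e8, e9, e10, e11] = fun _ => 1) ∨ (tab [e0, e1, e2, e3, e4, e5, e6, e7, e8, e9, e10, e11] = fun _ => 2) := by
  decide +kernel

/-- The only sign changes preserving the length-12 ternary code are the identity and negation of all coordinates. -/
theorem result (c : Cfsg.ArrayPt → (ZMod 3)ˣ) (h : (∀ x ∈ Cfsg.ternaryGolayCode, Cfsg.monomialMap 1 c x ∈ Cfsg.ternaryGolayCode)) : (∀ p, c p = 1) ∨ (∀ p, c p = -1) := by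
  set e : ArrayPt → ZMod 3 := fun p => (c p : ZMod 3) with he
  have hne : ∀ p, e p ≠ 0 := fun p => (c p).ne_zero
  have hg : ∀ u ∈ gens, isTG (fun p => e p * enc u p) := by
    intro u _
    exact (mem_iff _).1 (h _ (enc_mem u))
  rw [eq_tab e] at hg
  have h1 := signs _ (hne (0, 0)) _ (hne (0, 1)) _ (hne (0, 2)) _ (hne (1, 0)) _ (hne (1, 1)) _ (hne (1, 2)) _ (hne (2, 0)) _ (hne (2, 1)) _ (hne (2, 2)) _ (hne (3, 0)) _ (hne (3, 1)) _ (hne (3, 2)) hg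
  rw [← eq_tab e] at h1
  rcases h1 with h1 | h1
  · left
    intro p
    exact Units.ext (congrFun h1 p)
  · right
    intro p
    exact Units.ext (congrFun h1 p)

end Cfsg.Agent.S1593
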