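import Cfsg.Statements.S1594
import Mathlib
import Mathlib
import Cfsg.Agent.Lib.Helper11.TGolay
import Cfsg.Agent.Lib.Helper11.M12Mono
import Cfsg.Agent.S1592
import Cfsg.Agent.S0425
-- import your own Cfsg.Agent.* helpers here

set_option autoImplicit false
open Cfsg

namespace Cfsg.Agent.S1594

open Cfsg.Agent.Lib.Helper11.TG Cfsg.Agent.Lib.Helper11.M12

set_option maxRecDepth 100000
set_option linter.constructorNameAsVariable false

open scoped Pointwise

/-- preservation of the code. -/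
def P (σ : Equiv.Perm ArrayPt) (c : ArrayPt → (ZMod 3)ˣ) : Prop :=
  ∀ x ∈ ternaryGolayCode, monomialMap σ c x ∈ ternaryGolayCode

/-- the hexads. -/
def HEX : Set (Finset ArrayPt) :=
  {h : Finset ArrayPt | ∃ x ∈ ternaryGolayCode, ternarySupport x = h ∧ h.card = 6}

theorem P_of_chk {σ : Equiv.Perm ArrayPt} {c : ArrayPt → (ZMod 3)ˣ}
    (h : ∀ u : U6, enc (info (monomialMap σ c (enc u))) = monomialMap σ c (enc u)) : P σ c := by
  intro x hx
  rw [eq_enc hx, mem_iff']
  exact h _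

theorem P_mul {σ τ : Equiv.Perm ArrayPt} {c d : ArrayPt → (ZMod 3)ˣ} (h1 : P σ c) (h2 : P τ d) :
    P (σ * τ) (fun i => c i * d (σ.symm i)) := by
  intro x hx
  have : monomialMap (σ * τ) (fun i => c i * d (σ.symm i)) x =
      monomialMap σ c (monomialMap τ d x) := by
    funext i
    simp only [monomialMap, Units.val_mul, mul_assoc]
    rfl
  rw [this]
  exact h1 _ (h2 _ hx)

/-- permutation parts. -/
def InH (σ : Equiv.Perm ArrayPt) : Prop := ∃ c, P σ c

theorem InH_mul {σ τ : Equiv.Perm ArrayPt} (h1 : InH σ) (h2 : InH τ) : InH (σ * τ) := by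
  obtain ⟨c, hc⟩ := h1
  obtain ⟨d, hd⟩ := h2
  exact ⟨_, P_mul hc hd⟩

theorem InH_one : InH 1 := by
  refine ⟨fun _ => 1, fun x hx => ?_⟩
  have : monomialMap 1 (fun _ => (1 : (ZMod 3)ˣ)) x = x := by
    funext i
    show ((1 : (ZMod 3)ˣ) : ZMod 3) * x i = x i
    simp
  rw [this]
  exact hx

theorem InH_gen (i : Fin 4) : InH (gen i) := by
  fin_cases i
  · exact ⟨s0, P_of_chk chk0⟩
  · exact ⟨s1, P_of_chk chk1⟩
  · exact ⟨s2, P_of_chk chk2⟩
  · exact ⟨s3, P_of_chk chk3⟩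

theorem InH_ev (l : List (Fin 4)) : InH (ev l) := by
  induction l with
  | nil => exact InH_one
  | cons a l ih =>
    have : ev (a :: l) = gen a * ev l := by simp [ev]
    rw [this]
    exact InH_mul (InH_gen a) ih

theorem supp_mono (σ : Equiv.Perm ArrayPt) (c : ArrayPt → (ZMod 3)ˣ) (x : ArrayPt → ZMod 3) :
    ternarySupport (monomialMap σ c x) = σ • ternarySupport x := by
  ext i
  rw [← Finset.inv_smul_mem_iff]
  simp only [ternarySupport, Finset.mem_filter, Finset.mem_univ, true_and, monomialMap, ne_eq,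
    mul_eq_zero, Units.ne_zero, false_or]
  rfl

theorem InH_le {σ : Equiv.Perm ArrayPt} (h : InH σ) : σ ∈ setSystemAut HEX := by
  obtain ⟨c, hc⟩ := h
  rw [MulAction.mem_stabilizer_iff]
  have hsub : σ • HEX ⊆ HEX := by
    rintro _ ⟨h, ⟨x, hx, rfl, h6⟩, rfl⟩
    refine ⟨monomialMap σ c x, hc x hx, supp_mono σ c x, ?_⟩
    show (σ • ternarySupport x).card = 6
    rw [Finset.card_smul_finset]
    exact h6
  apply Set.eq_of_subset_of_ncard_le hsub _ (Set.toFinite _)
  rw [← Set.image_smul, Set.ncard_image_of_injective _ (MulAction.injective σ)]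

/-- fixing the first base points. -/
def Fix (b : Equiv.Perm ArrayPt) (k : ℕ) : Prop := ∀ j : Fin 5, j.val < k → b (pt j.val) = pt j.val

theorem step (b : Equiv.Perm ArrayPt) (k : Fin 5) (hb : Fix b k.val) :
    ∃ h, InH h ∧ Fix (h⁻¹ * b) (k.val + 1) := by
  have hy : ∀ j : Fin 5, j < k → b (pt k.val) ≠ pt j.val := by
    intro j hj h
    rw [← hb j hj] at h
    have := pt_inj5 _ _ (b.injective h)
    exact absurd this (ne_of_gt hj)
  obtain ⟨l, -, h1, h2⟩ := levAll k (b (pt k.val)) hy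
  refine ⟨ev l, InH_ev l, fun j hj => ?_⟩
  rw [Equiv.Perm.mul_apply, Equiv.Perm.inv_eq_iff_eq]
  rcases Nat.lt_succ_iff_lt_or_eq.1 hj with hlt | heq
  · rw [hb j hlt, h1 j hlt]
  · have : j = k := Fin.ext heq
    rw [this, h2]

theorem chain (a : Equiv.Perm ArrayPt) : ∀ k : ℕ, k ≤ 5 → ∃ h, InH h ∧ Fix (h⁻¹ * a) k := by
  intro k
  induction k with
  | zero => exact fun _ => ⟨1, InH_one, fun j hj => absurd hj (Nat.not_lt_zero _)⟩
  | succ k ih =>
    intro hk
    obtain ⟨h, hh, hf⟩ := ih (by omega)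
    obtain ⟨h', hh', hf'⟩ := step (h⁻¹ * a) ⟨k, by omega⟩ hf
    refine ⟨h * h', InH_mul hh hh', ?_⟩
    rw [mul_inv_rev, mul_assoc]
    exact hf'

theorem steiner : IsSteinerSystem 5 6 HEX := Cfsg.Agent.S1592.result.1

theorem card12 : Fintype.card ArrayPt = 12 := by decide

theorem le_InH {a : Equiv.Perm ArrayPt} (ha : a ∈ setSystemAut HEX) : InH a := by
  obtain ⟨h, hh, hf⟩ := chain a 5 le_rfl
  have hmem : h⁻¹ * a ∈ setSystemAut HEX := mul_mem (inv_mem (InH_le hh)) ha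
  have hst := (Cfsg.Agent.S0425.result card12 steiner).2.2
    ⟨fun j : Fin 5 => pt j.val, fun j k hjk => pt_inj5 j k hjk⟩
  have h1 : (⟨h⁻¹ * a, hmem⟩ : setSystemAut HEX) ∈ MulAction.stabilizer (setSystemAut HEX)
      (⟨fun j : Fin 5 => pt j.val, fun j k hjk => pt_inj5 j k hjk⟩ : Fin 5 ↪ ArrayPt) := by
    rw [MulAction.mem_stabilizer_iff]
    ext j : 1
    exact hf j j.isLt
  rw [hst, Subgroup.mem_bot] at h1
  have h2 : h⁻¹ * a = 1 := congrArg Subtype.val h1
  have h3 : a = h := by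
    rw [inv_mul_eq_one] at h2
    exact h2.symm
  rw [h3]
  exact hh

theorem ker_const {c : ArrayPt → (ZMod 3)ˣ} (h : P 1 c) : ∀ i j, c i = c j := by
  have hB : monomialMap 1 c BW ∈ ternaryGolayCode := h _ (enc_mem _)
  obtain ⟨u, hu⟩ : ∃ u, enc u = monomialMap 1 c BW := ⟨_, (eq_enc hB).symm⟩
  have hc : ∀ i, (c i : ZMod 3) = enc u i * BW i := by
    intro i
    rw [hu]
    show (c i : ZMod 3) = (c i : ZMod 3) * BW i * BW i
    rw [mul_assoc, BW_sq, mul_one]
  have hk := kerChk u (fun v _ => by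
    have hv : monomialMap 1 c (enc v) ∈ ternaryGolayCode := h _ (enc_mem _)
    have he : monomialMap 1 c (enc v) = fun i => enc u i * BW i * enc v i := by
      funext i
      show (c i : ZMod 3) * enc v i = _
      rw [hc]
    rw [← he]
    exact (eq_enc hv).symm)
  intro i j
  apply Units.ext
  rw [hc, hc]
  exact hk i j

theorem mono_inj (σ : Equiv.Perm ArrayPt) (c : ArrayPt → (ZMod 3)ˣ) :
    Function.Injective (monomialMap σ c) := by
  intro x y h
  funext i
  have := congrFun h (σ i)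
  simp only [monomialMap, Equiv.symm_apply_apply] at this
  exact (Units.mul_right_inj (c (σ i))).1 this

theorem torsor {σ : Equiv.Perm ArrayPt} {c c' : ArrayPt → (ZMod 3)ˣ} (h : P σ c) (h' : P σ c') :
    P 1 (fun i => c' i * (c i)⁻¹) := by
  let f : ↥ternaryGolayCode → ↥ternaryGolayCode := fun x => ⟨monomialMap σ c x.1, h x.1 x.2⟩
  have hinj : Function.Injective f := by
    intro x y hxy
    exact Subtype.ext (mono_inj σ c (congrArg Subtype.val hxy))
  have hsurj : Function.Surjective f := Finite.injective_iff_surjective.1 hinj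
  intro x hx
  obtain ⟨x', hx'⟩ := hsurj ⟨x, hx⟩
  have hx2 : monomialMap σ c x'.1 = x := congrArg Subtype.val hx'
  have : monomialMap 1 (fun i => c' i * (c i)⁻¹) x = monomialMap σ c' x'.1 := by
    rw [← hx2]
    funext i
    show ((c' i * (c i)⁻¹ : (ZMod 3)ˣ) : ZMod 3) * ((c i : ZMod 3) * x'.1 (σ.symm i)) = _
    rw [← mul_assoc, ← Units.val_mul, inv_mul_cancel_right]
    rfl
  rw [this]
  exact h' _ x'.2

theorem P_smul {σ : Equiv.Perm ArrayPt} {c : ArrayPt → (ZMod 3)ˣ} (h : P σ c) (ε : (ZMod 3)ˣ) :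
    P σ (fun i => ε * c i) := by
  intro x hx
  have : monomialMap σ (fun i => ε * c i) x = (ε : ZMod 3) • monomialMap σ c x := by
    funext i
    simp only [monomialMap, Units.val_mul, Pi.smul_apply, smul_eq_mul, mul_assoc]
  rw [this]
  exact Submodule.smul_mem _ _ (h x hx)

/-- a chosen lift. -/
noncomputable def lift (σ : setSystemAut HEX) : ArrayPt → (ZMod 3)ˣ :=
  Classical.choose (le_InH σ.2)

theorem lift_spec (σ : setSystemAut HEX) : P σ.1 (lift σ) := Classical.choose_spec (le_InH σ.2)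

/-- the parametrisation. -/
noncomputable def Phi (p : setSystemAut HEX × (ZMod 3)ˣ) :
    {f : Equiv.Perm ArrayPt × (ArrayPt → (ZMod 3)ˣ) // P f.1 f.2} :=
  ⟨(p.1.1, fun i => p.2 * lift p.1 i), P_smul (lift_spec p.1) p.2⟩

theorem Phi_bij : Function.Bijective Phi := by
  constructor
  · rintro ⟨σ, ε⟩ ⟨σ', ε'⟩ h
    have h0 := congrArg Subtype.val h
    have h1 : σ.1 = σ'.1 := congrArg Prod.fst h0
    have h2 : σ = σ' := Subtype.ext h1
    subst h2
    have h3 : ε * lift σ (pt 0) = ε' * lift σ (pt 0) := congrFun (congrArg Prod.snd h0) (pt 0)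
    rw [mul_right_cancel h3]
  · rintro ⟨⟨σ, c⟩, hP⟩
    have hσ : σ ∈ setSystemAut HEX := InH_le ⟨c, hP⟩
    have hk := ker_const (torsor (lift_spec ⟨σ, hσ⟩) hP)
    refine ⟨(⟨σ, hσ⟩, c (pt 0) * (lift ⟨σ, hσ⟩ (pt 0))⁻¹), Subtype.ext (Prod.ext rfl ?_)⟩
    funext i
    show c (pt 0) * (lift ⟨σ, hσ⟩ (pt 0))⁻¹ * lift ⟨σ, hσ⟩ i = c i
    rw [← hk i (pt 0), inv_mul_cancel_right]

theorem cardU : Nat.card (ZMod 3)ˣ = 2 := by
  rw [Nat.card_eq_fintype_card]
  decide

/-- The monomial automorphism group of the length-12 ternary code has order 190080 and its permutation parts are exactly the automorphisms of its hexad system. -/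
theorem result : Nat.card {f : Equiv.Perm Cfsg.ArrayPt × (Cfsg.ArrayPt → (ZMod 3)ˣ) // (∀ x ∈ Cfsg.ternaryGolayCode, Cfsg.monomialMap f.1 f.2 x ∈ Cfsg.ternaryGolayCode)} = 190080 ∧ {σ : Equiv.Perm Cfsg.ArrayPt | ∃ c : Cfsg.ArrayPt → (ZMod 3)ˣ, (∀ x ∈ Cfsg.ternaryGolayCode, Cfsg.monomialMap σ c x ∈ Cfsg.ternaryGolayCode)} = (Cfsg.setSystemAut {h : Finset Cfsg.ArrayPt | ∃ x ∈ Cfsg.ternaryGolayCode, Cfsg.ternarySupport x = h ∧ h.card = 6} : Set (Equiv.Perm Cfsg.ArrayPt)) := by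
  constructor
  · have h1 := Nat.card_congr (Equiv.ofBijective Phi Phi_bij)
    have h2 : Nat.card (setSystemAut HEX) = 95040 := (Cfsg.Agent.S0425.result card12 steiner).1.2
    rw [Nat.card_prod, h2, cardU] at h1
    exact h1.symm
  · ext σ
    exact ⟨fun h => InH_le h, fun h => le_InH h⟩
end Cfsg.Agent.S1594
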