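import Mathlib
import Cfsg.Statements.S1595
import Cfsg.Agent.Lib.Helper3.Steiner

set_option autoImplicit false
open Cfsg

namespace Cfsg.Agent.S1595

/-- Leech triangle of S(5, 6, 12): blocks meet in 0, 2, 3 or 4 points, and a block is met exactly in a given 2-, 3- or 4-subset by 3, 2, 3 blocks respectively. -/
theorem result {α : Type*} [Fintype α] [DecidableEq α] (hα : Fintype.card α = 12) {B : Set (Finset α)} (hB : Cfsg.IsSteinerSystem 5 6 B) (b : Finset α) (hb : b ∈ B) : (∀ c ∈ B, c ≠ b → (b ∩ c).card = 0 ∨ (b ∩ c).card = 2 ∨ (b ∩ c).card = 3 ∨ (b ∩ c).card = 4) ∧ ∀ s ⊆ b, (s.card = 2 → {c : Finset α | c ∈ B ∧ b ∩ c = s}.ncard = 3) ∧ (s.card = 3 → {c : Finset α | c ∈ B ∧ b ∩ c = s}.ncard = 2) ∧ (s.card = 4 → {c : Finset α | c ∈ B ∧ b ∩ c = s}.ncard = 3) := by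
  classical
  refine ⟨?_, ?_⟩
  · intro c hc hcb
    have h := Cfsg.Agent.Lib.Helper3.Stn.Ld_pos_of_mem hB (by norm_num) hb hc
    have hle := Cfsg.Agent.Lib.Helper3.Stn.inter_card_le hB hb c
    have hne : (c ∩ b).card ≠ 6 := fun e =>
      hcb (Cfsg.Agent.Lib.Helper3.Stn.eq_of_inter_card hB hb hc e)
    rw [hα] at h
    rw [Finset.inter_comm b c]
    revert h
    interval_cases (c ∩ b).card
    · intro _; simp
    · intro h; exact absurd h (by decide +kernel)
    · intro _; simp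
    · intro _; simp
    · intro _; simp
    · intro h; exact absurd h (by decide +kernel)
    · exact absurd rfl hne
  · intro s hs
    have h := Cfsg.Agent.Lib.Helper3.Stn.card_meet hB (by norm_num) hb hs
    rw [hα] at h
    have h2 : {c : Finset α | c ∈ B ∧ b ∩ c = s}.ncard =
        ((Cfsg.Agent.Lib.Helper3.Stn.Bf B).filter (fun c => c ∩ b = s)).card := by
      rw [Cfsg.Agent.Lib.Helper3.Stn.ncard_eq]
      congr 1
      apply Finset.filter_congr
      intro c _
      rw [Finset.inter_comm]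
    rw [h2]
    refine ⟨fun e => ?_, fun e => ?_, fun e => ?_⟩
    · rw [e] at h
      have e2 : Cfsg.Agent.Lib.Helper3.Stn.Ld (Cfsg.Agent.Lib.Helper3.Stn.lamS 5 6 12) (6 - 2) 2 = 3 := by
        decide +kernel
      rw [e2] at h
      exact_mod_cast h
    · rw [e] at h
      have e2 : Cfsg.Agent.Lib.Helper3.Stn.Ld (Cfsg.Agent.Lib.Helper3.Stn.lamS 5 6 12) (6 - 3) 3 = 2 := by
        decide +kernel
      rw [e2] at h
      exact_mod_cast h
    · rw [e] at h
      have e2 : Cfsg.Agent.Lib.Helper3.Stn.Ld (Cfsg.Agent.Lib.Helper3.Stn.lamS 5 6 12) (6 - 4) 4 = 3 := by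
        decide +kernel
      rw [e2] at h
      exact_mod_cast h

end Cfsg.Agent.S1595
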