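import Cfsg.Statements.S1596
import Cfsg.Agent.Lib.Helper28.Quartet

set_option autoImplicit false
open scoped Pointwise
open Cfsg

namespace Cfsg.Agent.S1596


open Cfsg.Agent.Lib.Helper3 Cfsg.Agent.Lib.Helper28.Quartet
open scoped Pointwise


/-- A quartet of a dodecad is determined by any two of its triples: two disjoint triples uniting to a hexad extend to exactly one quartet. -/
theorem result (d : Finset Cfsg.GolayPt) (hd : d ∈ Cfsg.dodecads) (t u : Finset Cfsg.GolayPt) (ht : t.card = 3) (hu : u.card = 3) (htu : Disjoint t u) (hh : t ∪ u ∈ Cfsg.hexadsOn d) : ∃! Q : Finset (Finset Cfsg.GolayPt), Q ∈ Cfsg.quartets d ∧ t ∈ Q ∧ u ∈ Q := by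
  obtain ⟨g, hg, hgd, h1, h2⟩ := std_triples hd ht hu htu hh
  have hd' : g⁻¹ • D0 = d := by rw [← hgd, inv_smul_smul]
  refine ⟨g⁻¹ • Q0, ⟨?_, ?_, ?_⟩, ?_⟩
  · rw [← hd']; exact smul_quartets (Cfsg.M24.inv_mem hg) Q0_mem
  · have : t = g⁻¹ • T0 := by rw [← h1, inv_smul_smul]
    rw [this]; exact Finset.smul_mem_smul_finset (by simp [Q0])
  · have : u = g⁻¹ • U0 := by rw [← h2, inv_smul_smul]
    rw [this]; exact Finset.smul_mem_smul_finset (by simp [Q0])
  · rintro Q' ⟨hQ', ht', hu'⟩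
    rw [eq_inv_smul_iff]
    apply uniq0
    · rw [← hgd]; exact smul_quartets hg hQ'
    · rw [← h1]; exact Finset.smul_mem_smul_finset ht'
    · rw [← h2]; exact Finset.smul_mem_smul_finset hu'

end Cfsg.Agent.S1596
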