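import Cfsg.Statements.S1597
import Cfsg.Agent.Lib.Helper28.Quartet2

set_option autoImplicit false
open scoped Pointwise
open Cfsg

namespace Cfsg.Agent.S1597


open Cfsg.Agent.Lib.Helper3 Cfsg.Agent.Lib.Helper28.Quartet
open scoped Pointwise


/-- A dodecad has 220 quartets and its stabiliser is transitive on them. -/
theorem result (d : Finset Cfsg.GolayPt) (hd : d ∈ Cfsg.dodecads) : (Cfsg.quartets d).ncard = 220 ∧ ∀ Q ∈ Cfsg.quartets d, ∀ Q' ∈ Cfsg.quartets d, ∃ g : Equiv.Perm Cfsg.GolayPt, g ∈ Cfsg.M24 ∧ g • d = d ∧ g • Q = Q' := by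
  constructor
  · obtain ⟨u, hu, hud⟩ := dodecad_to_D0 hd
    have himg : Cfsg.quartets D0 = (fun Q : Finset (Finset Cfsg.GolayPt) => u • Q) '' Cfsg.quartets d := by
      ext Q
      constructor
      · intro hQ
        refine ⟨u⁻¹ • Q, ?_, smul_inv_smul u Q⟩
        have := smul_quartets (Cfsg.M24.inv_mem hu) hQ
        rwa [← hud, inv_smul_smul] at this
      · rintro ⟨Q', hQ', rfl⟩
        rw [← hud]; exact smul_quartets hu hQ'
    rw [← ncard_quartets_D0, himg]
    exact (Set.ncard_image_of_injective _ (MulAction.injective u)).symm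
  · intro Q hQ Q' hQ'
    obtain ⟨g, hg, h1, h2⟩ := to_Q0 hd hQ
    obtain ⟨g', hg', h1', h2'⟩ := to_Q0 hd hQ'
    refine ⟨g'⁻¹ * g, Cfsg.M24.mul_mem (Cfsg.M24.inv_mem hg') hg, ?_, ?_⟩
    · rw [mul_smul, h1, ← h1', inv_smul_smul]
    · rw [mul_smul, h2, ← h2', inv_smul_smul]

end Cfsg.Agent.S1597
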