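import Cfsg.Statements.S1598
import Cfsg.Agent.Lib.Helper28.Quartet2
import Cfsg.Agent.Lib.Helper28.OutM12
import Cfsg.Agent.Lib.Helper3.Trio

set_option autoImplicit false
open scoped Pointwise
open Cfsg

namespace Cfsg.Agent.S1598


open Cfsg.Agent.Lib.Helper3 Cfsg.Agent.Lib.Helper3.Syl Cfsg.Agent.Lib.Helper28.Schur
open Cfsg.Agent.Lib.Helper28 Cfsg.Agent.Lib.Helper28.Quartet
open scoped Pointwise
open Matrix

set_option maxRecDepth 100000

def tw : List (List ℕ) := [[0, 2, 2, 0, 4, 1, 3, 2, 1, 2, 3, 3, 4, 4, 0, 2, 2, 3, 2, 3, 3, 4, 3, 2, 0, 4, 0, 4, 0, 2],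
  [0, 1, 0, 0, 2, 0, 0, 4, 1, 3, 3, 4, 0, 2, 0, 0, 0, 2, 2, 0, 1, 4, 0, 0, 4, 3, 3, 3, 4, 4, 1],
  [2, 1, 3, 3, 4, 3, 1, 0, 1, 0, 0, 4, 0, 0, 0, 2, 3, 2, 0, 2, 3, 3, 2, 3, 4, 0, 2, 2, 0, 2, 3, 4, 3, 4, 3],
  [2, 2, 0, 2, 1, 0, 2, 2, 1, 3, 3, 4, 3, 2, 3, 2, 3, 4, 0, 2, 2, 2, 3, 4, 0, 2, 0, 0, 0, 0],
  [2, 1, 3, 3, 2, 1, 0, 4, 1, 0, 4, 3, 4, 3, 4, 3, 1, 0, 2, 2, 0, 4, 0, 4, 0, 1],
  [],
  [4, 0, 1, 0, 0, 4, 0, 0, 2, 3, 1, 3, 4, 4, 3, 4, 0, 0, 0, 2, 0, 4, 4, 4, 3, 4, 3, 4, 3],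
  [],
  [0, 2, 0, 4, 4, 1, 0, 4, 3, 3, 4, 4, 3, 3, 3, 4, 3, 2, 0, 0, 0, 4, 3, 4, 3, 3, 4, 4, 0, 2, 0],
  [2, 3, 2, 2, 1, 0, 4, 4, 0, 0, 0, 2, 3, 2, 0, 2, 1, 3, 4, 3, 4, 3, 4, 1, 3],
  [],
  [],
  [4, 0, 4, 4, 3, 2, 0, 2, 0, 2, 3, 2, 2, 3, 4, 3, 2, 2, 0, 4, 4, 4, 0, 0, 2, 0, 4, 0, 0],
  [3, 3, 3, 2, 0, 1, 3, 2, 3, 2, 2, 2, 0, 4, 0, 0, 4, 0, 0, 4, 0, 2, 3, 3, 2, 3, 4, 3, 3, 2, 2],
  [],
  [],
  [3, 1, 0, 2, 0, 0, 0, 4, 4, 3, 3, 3, 2, 3, 2, 3, 4, 3, 2, 2, 2, 0, 0, 0, 2, 2, 3, 4, 0],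
  [],
  [3, 4, 1, 0, 2, 1, 0, 0, 4, 1, 3, 3, 2, 3, 4, 3, 3, 2, 2, 0, 2, 2, 3, 4, 3, 3, 3, 2, 3, 2, 0],
  [],
  [],
  [],
  [],
  []]

theorem wperm_pt (w : List ℕ) {k : ℕ} (hk : k < 24) : wperm w (pt k) = pt (wact w k) := by
  apply idx_injective
  have h1 : wact w k < 24 := by
    have := idx_lt (wperm w (pt k))
    rwa [idx_wperm, idx_pt hk] at this
  rw [idx_wperm, idx_pt hk, idx_pt h1]

abbrev V3 := Fin 2 → ZMod 3

def bt (v : V3) : ℕ := [5, 15, 19, 11, 22, 23, 20, 14, 21].getD (3 * (v 0).val + (v 1).val) 0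

theorem bt_lt : ∀ v : V3, bt v < 24 := by decide +kernel
theorem bt_inj : ∀ v v' : V3, bt v = bt v' → v = v' := by decide +kernel
theorem bt_out : ∀ v : V3, (340831 : ℕ).testBit (bt v) = false := by decide +kernel

theorem beta_inj {v v' : V3} (h : pt (bt v) = pt (bt v')) : v = v' := by
  apply bt_inj
  rw [← idx_pt (bt_lt v), h, idx_pt (bt_lt v')]

/-- the elements acting as affine maps on the nine points. -/
def Aff : Subgroup (Equiv.Perm GolayPt) where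
  carrier := {g | ∃ (A : GL (Fin 2) (ZMod 3)) (b : V3),
    ∀ v : V3, g (pt (bt v)) = pt (bt (A.1 *ᵥ v + b))}
  mul_mem' := by
    rintro g g' ⟨A, b, hA⟩ ⟨B, c, hB⟩
    refine ⟨A * B, A.1 *ᵥ c + b, fun v => ?_⟩
    rw [Equiv.Perm.mul_apply, hB, hA, Units.val_mul, Matrix.mulVec_add, Matrix.mulVec_mulVec,
      add_assoc]
  one_mem' := ⟨1, 0, fun v => by simp⟩
  inv_mem' := by
    rintro g ⟨A, b, hA⟩
    refine ⟨A⁻¹, -(A⁻¹.1 *ᵥ b), fun v => ?_⟩
    rw [Equiv.Perm.inv_eq_iff_eq, hA, Matrix.mulVec_add, Matrix.mulVec_neg, Matrix.mulVec_mulVec,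
      Matrix.mulVec_mulVec, ← Units.val_mul, mul_inv_cancel]
    simp

theorem aff_word {w : List ℕ} {M : Matrix (Fin 2) (Fin 2) (ZMod 3)} {b : V3} (hM : M.det ≠ 0)
    (h : ∀ v : V3, wact w (bt v) = bt (M *ᵥ v + b)) : wperm w ∈ Aff := by
  refine ⟨Matrix.GeneralLinearGroup.mkOfDetNeZero M hM, b, fun v => ?_⟩
  rw [wperm_pt w (bt_lt v), h v]
  rfl

theorem H0_le_Aff : H0 ≤ Aff := by
  rw [← SP_eq_H0]
  have ha : wperm g1w ∈ Aff := aff_word (M := !![2, 0; 1, 2]) (b := ![0, 0])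
    (by decide +kernel) (by decide +kernel)
  have hb : wperm g2w ∈ Aff := aff_word (M := !![0, 1; 1, 0]) (b := ![2, 0])
    (by decide +kernel) (by decide +kernel)
  apply SP_le
  intro w hw
  simp only [ws432, List.mem_cons, List.not_mem_nil, or_false] at hw
  rcases hw with rfl | rfl | rfl | rfl
  · exact ha
  · exact hb
  · rw [wperm_winv]; exact Aff.inv_mem ha
  · rw [wperm_winv]; exact Aff.inv_mem hb

theorem card_GL : Nat.card (GL (Fin 2) (ZMod 3)) = 48 := by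
  rw [Matrix.card_GL_field]
  simp [Fin.prod_univ_two, ZMod.card]

theorem H0_eq_of9 {g g' : Equiv.Perm GolayPt} (hg : g ∈ H0) (hg' : g' ∈ H0)
    (h : ∀ v : V3, g (pt (bt v)) = g' (pt (bt v))) : g = g' := by
  obtain ⟨a1, a2, -⟩ := H0_spec hg
  obtain ⟨b1, b2, -⟩ := H0_spec hg'
  have : g⁻¹ * g' = 1 := by
    apply eq_one_of_fix5 (Cfsg.Agent.Lib.Helper28.OutMath.compl_dod D0_mem) (M24.mul_mem (M24.inv_mem a1) b1)
      (s := Finset.univ.image (fun v : V3 => pt (bt v)))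
    · rw [smul_compl, mul_smul, b2, inv_smul_eq_iff.2 a2.symm]
    · rw [Finset.card_image_of_injective _ (fun v v' e => beta_inj e)]
      decide +kernel
    · intro p hp
      obtain ⟨v, -, rfl⟩ := Finset.mem_image.1 hp
      rw [Finset.mem_compl, D0, mem_unmask, idx_pt (bt_lt v), bt_out v]
      simp
    · intro p hp
      obtain ⟨v, -, rfl⟩ := Finset.mem_image.1 hp
      rw [Equiv.Perm.mul_apply, Equiv.Perm.inv_eq_iff_eq]
      exact (h v).symm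
  exact (inv_mul_eq_one.1 this)

theorem exists_hom : ∃ φ : H0 →* GL (Fin 2) (ZMod 3), Function.Surjective φ := by
  have ex : ∀ g : H0, ∃ (A : GL (Fin 2) (ZMod 3)) (b : V3), ∀ v : V3,
      g.1 (pt (bt v)) = pt (bt (A.1 *ᵥ v + b)) := fun g => H0_le_Aff g.2
  choose A b hA using ex
  have uniq : ∀ (B B' : GL (Fin 2) (ZMod 3)) (c c' : V3),
      (∀ v : V3, pt (bt (B.1 *ᵥ v + c)) = pt (bt (B'.1 *ᵥ v + c'))) → B = B' := by
    intro B B' c c' h
    have hc : c = c' := by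
      have := beta_inj (h 0)
      simpa using this
    subst hc
    apply Units.ext
    rw [Matrix.ext_iff_mulVec]
    intro v
    exact add_right_cancel (beta_inj (h v))
  let φ : H0 →* GL (Fin 2) (ZMod 3) :=
    { toFun := A
      map_one' := by
        apply uniq _ _ (b 1) 0
        intro v
        rw [← hA]; simp
      map_mul' := by
        intro g g'
        apply uniq _ _ (b (g * g')) ((A g).1 *ᵥ b g' + b g)
        intro v
        rw [← hA, Units.val_mul, ← Matrix.mulVec_mulVec, ← add_assoc, ← Matrix.mulVec_add, ← hA,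
          ← hA]
        rfl }
  refine ⟨φ, ?_⟩
  have : Finite H0 := inferInstance
  have hk : Nat.card φ.ker ≤ 9 := by
    have hinj : Function.Injective (fun g : φ.ker => b g.1) := by
      intro g g' h
      have h' : b g.1 = b g'.1 := h
      have e1 : A g.1 = 1 := g.2
      have e2 : A g'.1 = 1 := g'.2
      apply Subtype.ext
      apply Subtype.ext
      apply H0_eq_of9 g.1.2 g'.1.2
      intro v
      rw [hA, hA, e1, e2, h']
    have := Nat.card_le_card_of_injective _ hinj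
    have h9 : Nat.card V3 = 9 := by
      rw [Nat.card_eq_fintype_card]; decide +kernel
    rwa [h9] at this
  have h1 := Subgroup.card_eq_card_quotient_mul_card_subgroup φ.ker
  have h2 : Nat.card (H0 ⧸ φ.ker) = Nat.card φ.range :=
    Nat.card_congr (QuotientGroup.quotientKerEquivRange φ).toEquiv
  have h3 : Nat.card φ.range ≤ 48 := (Subgroup.card_le_card_group _).trans_eq card_GL
  rw [card_H0, h2] at h1
  have h4 : Nat.card φ.range = 48 := by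
    by_contra hne
    have h5 : Nat.card φ.range ≤ 47 := by omega
    have := Nat.mul_le_mul h5 hk
    omega
  rw [← MonoidHom.range_eq_top]
  exact Subgroup.eq_top_of_card_eq _ (by rw [h4, card_GL])

theorem abs432 {G : Type*} [Group G] [Finite G] (hcard : Nat.card G = 432)
    (ψ : G →* GL (Fin 2) (ZMod 3)) (hs : Function.Surjective ψ) :
    ∃ (N : Subgroup G) (_ : N.Normal), Nat.card N = 9 ∧
      Nonempty (G ⧸ N ≃* GL (Fin 2) (ZMod 3)) := by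
  refine ⟨ψ.ker, inferInstance, ?_, ⟨QuotientGroup.quotientKerEquivOfSurjective ψ hs⟩⟩
  have h1 := Subgroup.card_eq_card_quotient_mul_card_subgroup ψ.ker
  have h2 : Nat.card (G ⧸ ψ.ker) = 48 := by
    rw [Nat.card_congr (QuotientGroup.quotientKerEquivOfSurjective ψ hs).toEquiv, card_GL]
  rw [hcard, h2] at h1
  omega

theorem tw_ok : ∀ i < 24, (340831 : ℕ).testBit i = true →
    (inG [] 340831 (tw.getD i []) && stQ (tw.getD i []) && (wact (tw.getD i []) 0 == i)) = true := by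
  decide +kernel

theorem H0_trans {p q : GolayPt} (hp : p ∈ D0) (hq : q ∈ D0) : ∃ h ∈ H0, h p = q := by
  have key : ∀ r ∈ D0, ∃ h ∈ H0, h (pt 0) = r := by
    intro r hr
    rw [D0, mem_unmask] at hr
    have h1 := tw_ok _ (idx_lt r) hr
    simp only [Bool.and_eq_true, beq_iff_eq] at h1
    refine ⟨_, memH0 h1.1.1 h1.1.2, ?_⟩
    rw [wperm_pt _ (by norm_num), h1.2, pt_idx]
  obtain ⟨h1, hh1, e1⟩ := key p hp
  obtain ⟨h2, hh2, e2⟩ := key q hq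
  refine ⟨h2 * h1⁻¹, H0.mul_mem hh2 (H0.inv_mem hh1), ?_⟩
  rw [Equiv.Perm.mul_apply, ← e1]
  have : h1⁻¹ (h1 (pt 0)) = pt 0 := h1.symm_apply_apply _
  rw [this, e2]

theorem main {A : Type*} [Group A] [Finite A] (f : A →* Equiv.Perm GolayPt)
    (hf : Function.Injective f) (hr : f.range = H0) :
    Nat.card A = 432 ∧ ∃ (N : Subgroup A) (_ : N.Normal), Nat.card N = 9 ∧
      Nonempty (A ⧸ N ≃* GL (Fin 2) (ZMod 3)) := by
  let e : A ≃* H0 := (MonoidHom.ofInjective hf).trans (MulEquiv.subgroupCongr hr)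
  have hc : Nat.card A = 432 := by rw [Nat.card_congr e.toEquiv, card_H0]
  obtain ⟨φ, hφ⟩ := exists_hom
  exact ⟨hc, abs432 hc (φ.comp e.toMonoidHom) (hφ.comp e.surjective)⟩


/-- A quartet stabiliser inside the dodecad stabiliser has order 432, a normal subgroup of order 9 with quotient GL(2, 3), and is transitive on the dodecad. -/
theorem result (d : Finset Cfsg.GolayPt) (hd : d ∈ Cfsg.dodecads) (Q : Finset (Finset Cfsg.GolayPt)) (hQ : Q ∈ Cfsg.quartets d) : Nat.card ↥(MulAction.stabilizer Cfsg.M24 d ⊓ MulAction.stabilizer Cfsg.M24 Q) = 432 ∧ (∃ (N : Subgroup ↥(MulAction.stabilizer Cfsg.M24 d ⊓ MulAction.stabilizer Cfsg.M24 Q)) (_ : N.Normal), Nat.card N = 9 ∧ Nonempty (↥(MulAction.stabilizer Cfsg.M24 d ⊓ MulAction.stabilizer Cfsg.M24 Q) ⧸ N ≃* GL (Fin 2) (ZMod 3))) ∧ ∀ p ∈ d, ∀ q ∈ d, ∃ g ∈ (MulAction.stabilizer Cfsg.M24 d ⊓ MulAction.stabilizer Cfsg.M24 Q), ((g : ↥Cfsg.M24) :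 Equiv.Perm Cfsg.GolayPt) p = q := by
  obtain ⟨u, hu, hud, huQ⟩ := to_Q0 hd hQ
  have key : ∀ g : Equiv.Perm Cfsg.GolayPt, (∃ hg : g ∈ Cfsg.M24, (⟨g, hg⟩ : ↥Cfsg.M24) ∈
        MulAction.stabilizer Cfsg.M24 d ⊓ MulAction.stabilizer Cfsg.M24 Q) ↔
      u * g * u⁻¹ ∈ H0 := by
    intro g
    rw [mem_H0_iff, conj_mem_M24_iff hu, conj_smul_iff hud, conj_smul_iff huQ]
    constructor
    · rintro ⟨hg, h1, h2⟩
      exact ⟨hg, h1, h2⟩
    · rintro ⟨hg, h1, h2⟩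
      exact ⟨hg, h1, h2⟩
  have hmain := main (((MulAut.conj u).toMonoidHom.comp Cfsg.M24.subtype).comp
        (MulAction.stabilizer Cfsg.M24 d ⊓ MulAction.stabilizer Cfsg.M24 Q).subtype)
    (by
      intro a b hab
      have h1 : u * a.1.1 * u⁻¹ = u * b.1.1 * u⁻¹ := hab
      exact Subtype.ext (Subtype.ext (mul_left_cancel (mul_right_cancel h1))))
    (by
      ext y
      constructor
      · rintro ⟨a, rfl⟩
        exact (key a.1.1).1 ⟨a.1.2, a.2⟩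
      · intro hy
        have h1 : u * (u⁻¹ * y * u) * u⁻¹ ∈ H0 := by
          have : u * (u⁻¹ * y * u) * u⁻¹ = y := by group
          rw [this]; exact hy
        obtain ⟨hg, hG⟩ := (key _).2 h1
        refine ⟨⟨⟨_, hg⟩, hG⟩, ?_⟩
        show u * (u⁻¹ * y * u) * u⁻¹ = y
        group)
  refine ⟨hmain.1, hmain.2, ?_⟩
  intro p hp q hq
  have hup : u p ∈ D0 := by rw [← hud]; exact (Finset.smul_mem_smul_finset_iff u).2 hp
  have huq : u q ∈ D0 := by rw [← hud]; exact (Finset.smul_mem_smul_finset_iff u).2 hq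
  obtain ⟨h, hh, e⟩ := H0_trans hup huq
  have h1 : u * (u⁻¹ * h * u) * u⁻¹ ∈ H0 := by
    have : u * (u⁻¹ * h * u) * u⁻¹ = h := by group
    rw [this]; exact hh
  obtain ⟨hg, hG⟩ := (key _).2 h1
  refine ⟨⟨_, hg⟩, hG, ?_⟩
  show (u⁻¹ * h * u) p = q
  rw [Equiv.Perm.mul_apply, Equiv.Perm.mul_apply, e]
  exact u.symm_apply_apply q

end Cfsg.Agent.S1598
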