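import Cfsg.Statements.S1599
import Cfsg.Agent.Lib.Helper28.Quartet2

set_option autoImplicit false
open scoped Pointwise
open Cfsg

namespace Cfsg.Agent.S1599


open Cfsg.Agent.Lib.Helper3 Cfsg.Agent.Lib.Helper3.Syl Cfsg.Agent.Lib.Helper28.Schur
open Cfsg.Agent.Lib.Helper28 Cfsg.Agent.Lib.Helper28.Quartet
open scoped Pointwise

set_option maxRecDepth 100000

def ql1 : List (List ℕ) := [[7, 336, 70144, 270344],
  [7, 584, 73744, 266496],
  [273, 524, 12290, 327744],
  [266, 4609, 8212, 327744],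
  [530, 4356, 8201, 327744],
  [321, 4120, 73732, 262658],
  [76, 8960, 69633, 262162],
  [580, 4120, 65794, 270337],
  [81, 8960, 65546, 266244],
  [7, 12352, 65800, 262672],
  [4120, 8258, 66049, 262404],
  [4162, 8960, 65556, 262153]]
def par1 : List (ℕ × ℕ) := [(0, 0), (0, 0), (0, 1), (0, 3), (1, 1), (2, 0), (2, 2), (3, 0), (3, 2), (3, 3), (4, 0), (4, 2)]
def yw1 : List ℕ := [4, 3, 4, 0, 4, 4, 1, 0, 4, 4, 4, 3, 4, 4, 3, 2, 0, 4, 0, 0, 0, 0, 0, 0, 4, 0, 0, 0, 0, 2]
def ql2 : List (List ℕ) := [[11, 4116, 8512, 328192],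
  [262, 4168, 8705, 327696],
  [259, 8708, 69696, 262168],
  [536, 12544, 65542, 262209],
  [784, 12296, 65539, 262212],
  [25, 4102, 73984, 262720],
  [21, 4106, 66112, 270592],
  [14, 4113, 73792, 262912],
  [70, 4360, 8720, 327681],
  [4368, 8712, 65541, 262210],
  [776, 12304, 65601, 262150],
  [69, 4864, 8216, 327682],
  [515, 4176, 8452, 327688],
  [280, 12800, 65604, 262147],
  [261, 8706, 69648, 262216],
  [88, 770, 8197, 331776],
  [772, 8195, 69640, 262224],
  [19, 4108, 66304, 270400],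
  [67, 4624, 8456, 327684],
  [13, 4114, 74240, 262464],
  [4616, 8464, 65602, 262149],
  [28, 4099, 65856, 270848],
  [517, 8450, 65616, 266248],
  [22, 4105, 8768, 327936],
  [769, 8198, 65608, 266256],
  [26, 832, 4101, 335872],
  [518, 8449, 65560, 266304]]
def par2 : List (ℕ × ℕ) := [(0, 0), (0, 0), (0, 1), (0, 2), (1, 0), (1, 3), (2, 1), (2, 2), (3, 1), (3, 3), (4, 1), (4, 3), (5, 0), (5, 2), (5, 3), (6, 0), (7, 3), (8, 0), (8, 1), (9, 0), (9, 3), (10, 0), (11, 2), (12, 3), (13, 2), (16, 3), (18, 2)]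
def yw2 : List ℕ := [4, 1, 0, 2, 2, 3, 3, 3, 1, 2, 3, 3, 2, 3, 3, 4, 3, 4, 4, 0, 1, 0, 2, 2, 0, 4, 0, 4, 0, 1]
def ql3 : List (List ℕ) := [[11, 4864, 65616, 270340],
  [262, 8216, 66112, 266241],
  [13, 784, 69696, 270338],
  [832, 8209, 65542, 266248],
  [776, 4099, 8260, 327696],
  [88, 4612, 65539, 270592],
  [82, 261, 12296, 328192],
  [259, 12304, 65548, 262720],
  [261, 536, 73792, 266242],
  [21, 776, 73730, 266304],
  [4168, 8210, 65541, 262912],
  [772, 4114, 8264, 327681],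
  [84, 259, 4616, 335872],
  [28, 769, 77824, 262210],
  [518, 12296, 65856, 262161],
  [529, 8512, 69640, 262150],
  [784, 4102, 8257, 327688],
  [14, 577, 8464, 331776],
  [4108, 8706, 65601, 262416],
  [328, 4113, 8708, 327682],
  [13, 578, 12544, 327696],
  [265, 4176, 65542, 270848],
  [14, 12800, 65793, 262224],
  [4610, 8512, 65541, 262168],
  [4360, 8197, 65554, 262720],
  [4368, 8195, 66112, 262156],
  [4624, 8197, 65856, 262154],
  [22, 4864, 73729, 262216],
  [69, 274, 69640, 270848],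
  [770, 4116, 73736, 262209],
  [25, 772, 65602, 274432],
  [67, 12292, 65560, 262912],
  [4105, 8452, 66064, 262210],
  [280, 4161, 8198, 328192],
  [4114, 8449, 65604, 262664],
  [4176, 8202, 66304, 262149],
  [74, 517, 12304, 327936],
  [515, 8216, 69636, 262464],
  [536, 4164, 8195, 327936],
  [26, 8705, 69888, 262212],
  [515, 4360, 73792, 262164],
  [532, 4168, 73984, 262147],
  [19, 324, 8712, 331776],
  [69, 522, 73984, 266256],
  [4106, 8708, 65808, 262209],
  [4113, 8450, 66056, 262212],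
  [11, 8720, 65796, 266304],
  [4102, 8712, 65616, 262401],
  [28, 4672, 8450, 327681],
  [268, 8768, 65539, 266256],
  [4101, 8456, 66050, 262224],
  [4116, 8705, 65602, 262408],
  [262, 4624, 65545, 270400],
  [21, 322, 12800, 327688],
  [88, 4353, 74240, 262150],
  [4354, 8768, 65560, 262149],
  [280, 517, 69634, 270400],
  [67, 276, 74240, 266248],
  [26, 8452, 65601, 266752],
  [70, 12289, 66304, 262168],
  [770, 4105, 65604, 270352],
  [832, 8204, 69648, 262147],
  [22, 8456, 69696, 262657],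
  [25, 4416, 8706, 327684],
  [19, 12544, 65608, 262660],
  [4101, 8720, 65608, 262402],
  [70, 521, 69648, 270592],
  [73, 518, 4368, 335872],
  [4616, 8198, 65553, 262464],
  [4099, 8464, 66052, 262216],
  [592, 4108, 8449, 327682],
  [769, 4106, 8272, 327684]]
def par3 : List (ℕ × ℕ) := [(0, 0), (0, 0), (0, 1), (0, 2), (0, 3), (1, 0), (1, 1), (1, 3), (2, 0), (2, 1), (2, 2), (3, 1), (3, 2), (3, 3), (4, 0), (4, 2), (4, 3), (5, 0), (5, 1), (5, 3), (6, 2), (7, 0), (7, 2), (8, 0), (8, 1), (8, 3), (9, 0), (9, 1), (9, 2), (10, 1), (10, 3), (11, 1), (11, 2), (12, 3), (13, 0), (13, 3), (14, 1), (14, 3), (15, 2), (15, 3), (16, 0), (16, 2), (17, 1), (18, 1), (19, 0), (19, 2), (20, 1), (20, 3), (21, 1), (22, 2), (22, 3), (23, 3), (24, 1), (24, 2), (25, 0), (26, 0), (26, 1), (27, 2), (28, 3), (29, 1), (30, 2), (30, 3), (31, 0), (32, 2), (33, 2), (35, 0), (37, 0), (38, 3), (42, 0), (47, 3), (48, 0), (59, 1)]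
def yw3 : List ℕ := [0, 2, 1, 3, 2, 1, 3, 4, 3, 2, 0, 4, 3, 2, 2, 3, 3, 2, 2, 3, 4, 3, 3, 4, 3, 3, 2, 0, 4, 4, 3]
def ql4 : List (List ℕ) := [[11, 580, 77824, 262416],
  [81, 262, 77824, 262664],
  [522, 8209, 69696, 262404],
  [4609, 8264, 65542, 262416],
  [321, 4612, 8202, 327696],
  [4416, 8212, 65539, 262664],
  [76, 4354, 8209, 328192],
  [276, 8202, 69633, 262720],
  [322, 536, 69633, 270340],
  [21, 8264, 69888, 262658],
  [84, 8201, 69634, 262912],
  [336, 522, 12292, 327681],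
  [259, 8264, 66064, 266244],
  [4612, 8209, 65800, 262210],
  [577, 12296, 65556, 262402],
  [524, 8512, 65554, 266241],
  [328, 4102, 66049, 270352],
  [14, 4416, 66064, 270337],
  [532, 4354, 65601, 270344],
  [276, 521, 12352, 327682],
  [273, 4168, 66050, 270340],
  [84, 12544, 66049, 262154],
  [524, 4176, 73729, 262402],
  [73, 12800, 65554, 262404],
  [261, 4672, 65546, 270352],
  [81, 4360, 66052, 270338],
  [4368, 8260, 65546, 262657],
  [4162, 8197, 66056, 262416],
  [529, 12292, 65794, 262216],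
  [69, 12290, 66064, 262408],
  [770, 12352, 65553, 262156],
  [772, 4161, 73744, 262154],
  [322, 4108, 73744, 262657],
  [67, 524, 69888, 270352],
  [584, 8452, 69634, 262161],
  [265, 12292, 66112, 262162],
  [577, 4114, 65800, 270340],
  [84, 8706, 65800, 266241],
  [328, 530, 77824, 262149],
  [324, 12304, 66050, 262153],
  [4162, 8216, 65793, 262660],
  [82, 8708, 65545, 266496],
  [336, 8705, 65548, 266242],
  [76, 515, 65808, 274432],
  [4356, 8272, 66056, 262147],
  [265, 532, 8258, 331776],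
  [521, 4354, 73732, 262224],
  [28, 8257, 66050, 266496],
  [324, 4106, 73729, 262672],
  [73, 8450, 69636, 262672],
  [4672, 8201, 65808, 262150],
  [74, 784, 73732, 266241],
  [584, 4116, 65793, 270338],
  [25, 8260, 70144, 262402],
  [321, 8720, 69634, 262156],
  [577, 4356, 73730, 262168],
  [4161, 8712, 65794, 262164],
  [336, 4105, 73730, 262660],
  [4164, 8464, 65545, 262658],
  [322, 8201, 66052, 266256],
  [580, 8456, 65553, 266242],
  [266, 592, 65541, 274432],
  [13, 8272, 65794, 266752],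
  [73, 8212, 66304, 266242],
  [76, 4624, 73730, 262401],
  [580, 4353, 8210, 327688],
  [266, 4164, 74240, 262161],
  [4616, 8257, 65796, 262162],
  [522, 4353, 65556, 270400],
  [274, 4612, 73792, 262153],
  [265, 4610, 73744, 262212],
  [517, 4416, 73736, 262162],
  [4353, 8204, 65602, 262672],
  [832, 12290, 65545, 262164],
  [769, 4164, 65554, 270344],
  [88, 12290, 65796, 262657],
  [22, 321, 66056, 274432],
  [529, 8202, 65604, 266496],
  [518, 8272, 69633, 262408],
  [74, 4356, 65553, 270848],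
  [273, 8768, 69636, 262154],
  [4864, 8258, 65548, 262161],
  [324, 4609, 65560, 270338],
  [530, 8260, 65793, 266248],
  [82, 4609, 73984, 262156],
  [530, 4161, 65548, 270592],
  [4101, 8258, 65808, 262664],
  [268, 12289, 65616, 262658],
  [268, 8210, 70144, 262209],
  [578, 4113, 65796, 270344],
  [70, 273, 73736, 266752],
  [521, 8210, 65856, 266244],
  [81, 4610, 8204, 327936],
  [592, 8198, 69888, 262153],
  [274, 584, 12289, 327684],
  [19, 4672, 73732, 262408],
  [74, 8449, 70144, 262164],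
  [266, 8257, 69648, 262660],
  [26, 12352, 66052, 262401],
  [592, 4099, 73736, 262404],
  [328, 8195, 65556, 266752],
  [82, 776, 69636, 270337],
  [532, 12289, 65546, 262464],
  [268, 529, 4162, 335872],
  [274, 8204, 66049, 266304],
  [276, 4610, 65608, 270337],
  [280, 578, 73729, 266244],
  [578, 8212, 69640, 262401]]
def par4 : List (ℕ × ℕ) := [(0, 0), (0, 0), (0, 1), (0, 2), (0, 3), (1, 0), (1, 1), (1, 3), (2, 0), (2, 1), (2, 2), (3, 1), (3, 2), (3, 3), (4, 0), (4, 2), (4, 3), (5, 0), (5, 1), (5, 3), (6, 0), (6, 2), (7, 0), (7, 2), (7, 3), (8, 1), (8, 3), (9, 0), (9, 1), (9, 2), (10, 1), (10, 3), (11, 0), (11, 1), (11, 2), (12, 1), (13, 0), (13, 2), (13, 3), (14, 1), (14, 3), (15, 1), (15, 3), (16, 0), (16, 2), (17, 1), (17, 3), (18, 0), (19, 0), (19, 2), (19, 3), (20, 0), (20, 1), (20, 3), (21, 1), (21, 2), (21, 3), (22, 3), (23, 1), (23, 2), (23, 3), (24, 0), (24, 2), (25, 0), (25, 1), (25, 2), (26, 0), (26, 3), (27, 1), (27, 3), (29, 1), (29,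 2), (30, 0), (31, 3), (32, 0), (32, 3), (33, 0), (33, 1), (33, 2), (34, 1), (34, 3), (35, 2), (36, 1), (36, 3), (37, 1), (37, 3), (38, 0), (40, 2), (41, 0), (41, 2), (43, 0), (43, 1), (43, 3), (44, 2), (44, 3), (45, 1), (47, 0), (48, 1), (49, 2), (50, 0), (50, 2), (51, 1), (56, 0), (58, 0), (62, 1), (63, 0), (64, 1), (89, 3)]
def yw4 : List ℕ := [4, 0, 0, 1, 3, 4, 3, 4, 0, 1, 3, 4, 0, 0, 0, 4, 3, 3, 3, 2, 0, 2, 0, 0, 0, 2, 2, 3, 4, 0]

noncomputable def dec (q : List ℕ) : Finset (Finset GolayPt) := (q.map unmask).toFinset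

theorem smul_unmask (w : List ℕ) {a : ℕ} (ha : a < 2 ^ 24) :
    wperm w • unmask a = unmask (pm (wact (winv w)) a) := by
  have := mask_wperm_smul w (unmask a)
  rw [mask_unmask ha] at this
  rw [← this, unmask_mask]

def actq (w : List ℕ) (q : List ℕ) : List ℕ := q.map (pm (wact (winv w)))

theorem smul_dec (w : List ℕ) {q : List ℕ} (hq : ∀ a ∈ q, a < 2 ^ 24) :
    wperm w • dec q = dec (actq w q) := by
  unfold dec actq
  ext X
  rw [← Finset.inv_smul_mem_iff]
  simp only [List.mem_toFinset, List.mem_map]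
  constructor
  · rintro ⟨a, ha, e⟩
    exact ⟨_, ⟨a, ha, rfl⟩, by rw [← smul_unmask w (hq a ha), e, smul_inv_smul]⟩
  · rintro ⟨_, ⟨a, ha, rfl⟩, e⟩
    exact ⟨a, ha, by rw [← e, ← smul_unmask w (hq a ha), inv_smul_smul]⟩

theorem dec_perm {q q' : List ℕ} (h : q.isPerm q' = true) : dec q = dec q' :=
  List.toFinset_eq_of_perm _ _ ((List.isPerm_iff.1 h).map _)

def ltB (ql : List (List ℕ)) : Bool := ql.all fun q => q.all fun a => decide (a < 2 ^ 24)

theorem ltB_sound {ql : List (List ℕ)} (h : ltB ql = true) : ∀ q ∈ ql, ∀ a ∈ q, a < 2 ^ 24 := by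
  intro q hq a ha
  have := List.all_eq_true.1 (List.all_eq_true.1 h q hq) a ha
  simpa using this

def closedB (ql : List (List ℕ)) : Bool :=
  ws432.all fun w => ql.all fun q => ql.any fun q' => (actq w q).isPerm q'

noncomputable def SF (ql : List (List ℕ)) : Finset (Finset (Finset GolayPt)) :=
  (ql.map dec).toFinset

theorem mem_SF {ql : List (List ℕ)} {X : Finset (Finset GolayPt)} :
    X ∈ SF ql ↔ ∃ q ∈ ql, dec q = X := by
  unfold SF
  rw [List.mem_toFinset, List.mem_map]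

theorem SF_stab {ql : List (List ℕ)} (hlt : ltB ql = true) (h : closedB ql = true) :
    H0 ≤ MulAction.stabilizer (Equiv.Perm GolayPt) (SF ql) := by
  rw [← SP_eq_H0]
  apply SP_le
  intro w hw
  rw [MulAction.mem_stabilizer_iff]
  apply Finset.eq_of_subset_of_card_le
  · intro X hX
    obtain ⟨Y, hY, rfl⟩ := Finset.mem_smul_finset.1 hX
    obtain ⟨q, hq, rfl⟩ := mem_SF.1 hY
    have h1 := List.all_eq_true.1 (List.all_eq_true.1 h w hw) q hq
    obtain ⟨q', hq', hp⟩ := List.any_eq_true.1 h1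
    rw [smul_dec w (ltB_sound hlt q hq), dec_perm hp]
    exact mem_SF.2 ⟨q', hq', rfl⟩
  · rw [Finset.card_smul_finset]

def connB (ql : List (List ℕ)) (par : List (ℕ × ℕ)) : Bool :=
  (List.range ql.length).all fun k => k == 0 ||
    (decide ((par.getD k (0, 0)).1 < k) && decide ((par.getD k (0, 0)).2 < 4) &&
      (actq (ws432.getD (par.getD k (0, 0)).2 []) (ql.getD (par.getD k (0, 0)).1 [])).isPerm
        (ql.getD k []))

theorem ws_getD {i : ℕ} (hi : i < 4) : wperm (ws432.getD i []) ∈ H0 := by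
  rw [← SP_eq_H0]
  apply mem_SP
  interval_cases i <;> simp [ws432]

theorem getD_mem {ql : List (List ℕ)} {k : ℕ} (hk : k < ql.length) : ql.getD k [] ∈ ql := by
  rw [List.getD_eq_getElem _ _ hk]
  exact List.getElem_mem hk

theorem conn_sound {ql : List (List ℕ)} {par : List (ℕ × ℕ)} (hlt : ltB ql = true)
    (h : connB ql par = true) : ∀ k < ql.length,
      dec (ql.getD k []) ∈ MulAction.orbit H0 (dec (ql.getD 0 [])) := by
  intro k
  induction k using Nat.strong_induction_on with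
  | _ k ih =>
    intro hk
    have h1 := List.all_eq_true.1 h k (List.mem_range.2 hk)
    by_cases hk0 : k = 0
    · subst hk0
      exact MulAction.mem_orbit_self _
    · simp only [Bool.or_eq_true, beq_iff_eq, hk0, false_or, Bool.and_eq_true,
        decide_eq_true_eq] at h1
      obtain ⟨⟨hj, hi⟩, hp⟩ := h1
      obtain ⟨g, hg⟩ := ih _ hj (hj.trans hk)
      have hg' : g • dec (ql.getD 0 []) = dec (ql.getD (par.getD k (0, 0)).1 []) := hg
      refine ⟨⟨_, ws_getD hi⟩ * g, ?_⟩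
      show (⟨_, ws_getD hi⟩ * g : H0) • dec (ql.getD 0 []) = _
      rw [mul_smul, hg']
      show wperm _ • dec _ = _
      rw [smul_dec _ (ltB_sound hlt _ (getD_mem (hj.trans hk))), dec_perm hp]

theorem orbit_eq {ql : List (List ℕ)} {par : List (ℕ × ℕ)} (hlt : ltB ql = true)
    (hc : closedB ql = true) (h : connB ql par = true) (hpos : 0 < ql.length) :
    MulAction.orbit H0 (dec (ql.getD 0 [])) = ↑(SF ql) := by
  ext X
  constructor
  · rintro ⟨g, rfl⟩
    have h1 : g.1 • SF ql = SF ql := SF_stab hlt hc g.2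
    have h2 : dec (ql.getD 0 []) ∈ SF ql := mem_SF.2 ⟨_, getD_mem hpos, rfl⟩
    show g.1 • dec (ql.getD 0 []) ∈ SF ql
    rw [← h1]
    exact Finset.smul_mem_smul_finset h2
  · intro hX
    obtain ⟨q, hq, rfl⟩ := mem_SF.1 hX
    obtain ⟨k, hk, rfl⟩ := List.mem_iff_getElem.1 hq
    have := conn_sound hlt h k hk
    rwa [List.getD_eq_getElem _ _ hk] at this

theorem image_mask_dec {q : List ℕ} (hq : ∀ a ∈ q, a < 2 ^ 24) :
    (dec q).image mask = q.toFinset := by
  ext m
  simp only [dec, Finset.mem_image, List.mem_toFinset, List.mem_map]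
  constructor
  · rintro ⟨_, ⟨a, ha, rfl⟩, rfl⟩
    rw [mask_unmask (hq a ha)]; exact ha
  · intro hm
    exact ⟨unmask m, ⟨m, hm, rfl⟩, mask_unmask (hq m hm)⟩

theorem card_SF {ql : List (List ℕ)} (hlt : ltB ql = true)
    (hn : (ql.map List.toFinset).Nodup) : (SF ql).card = ql.length := by
  unfold SF
  rw [List.toFinset_card_of_nodup, List.length_map]
  apply List.Nodup.of_map (Finset.image mask)
  rw [List.map_map]
  have : ql.map (Finset.image mask ∘ dec) = ql.map List.toFinset := by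
    apply List.map_congr_left
    intro q hq
    exact image_mask_dec (ltB_sound hlt q hq)
  rw [this]; exact hn

theorem SF_append (l1 l2 : List (List ℕ)) : SF (l1 ++ l2) = SF l1 ∪ SF l2 := by
  unfold SF
  rw [List.map_append, List.toFinset_append]

theorem dec_q0 : dec q0 = Q0 := by
  simp [dec, q0, Q0, T0, U0, V0, W0]

theorem SF_q0 : SF [q0] = {Q0} := by
  simp [SF, dec_q0]

def allq : List (List ℕ) := [q0] ++ ql1 ++ ql2 ++ ql3 ++ ql4

theorem lt_all : ltB allq = true := by decide +kernel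
theorem nodup_all : (allq.map List.toFinset).Nodup := by decide +kernel
theorem card_all : (SF allq).card = 220 := by
  rw [card_SF lt_all nodup_all]; decide +kernel

theorem start_mem {ql : List (List ℕ)} {yw : List ℕ} (h1 : inG [] 340831 yw = true)
    (h2 : (actq yw q0).isPerm (ql.getD 0 []) = true) : dec (ql.getD 0 []) ∈ quartets D0 := by
  rw [← dec_perm h2, ← smul_dec yw q0_lt, dec_q0]
  have hL := (mem_L 0 _).1 (memL0 h1)
  have := smul_quartets hL.1 Q0_mem
  rwa [hL.2.2] at this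

theorem orbit_sub {Y : Finset (Finset GolayPt)} (hY : Y ∈ quartets D0) :
    MulAction.orbit H0 Y ⊆ quartets D0 := by
  rintro _ ⟨g, rfl⟩
  obtain ⟨h1, h2, -⟩ := H0_spec g.2
  have := smul_quartets h1 hY
  rwa [h2] at this

noncomputable def Y1 := dec (ql1.getD 0 [])
noncomputable def Y2 := dec (ql2.getD 0 [])
noncomputable def Y3 := dec (ql3.getD 0 [])
noncomputable def Y4 := dec (ql4.getD 0 [])

theorem Y1_mem : Y1 ∈ quartets D0 := start_mem (yw := yw1) (by decide +kernel) (by decide +kernel)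
theorem Y2_mem : Y2 ∈ quartets D0 := start_mem (yw := yw2) (by decide +kernel) (by decide +kernel)
theorem Y3_mem : Y3 ∈ quartets D0 := start_mem (yw := yw3) (by decide +kernel) (by decide +kernel)
theorem Y4_mem : Y4 ∈ quartets D0 := start_mem (yw := yw4) (by decide +kernel) (by decide +kernel)

theorem orb1 : MulAction.orbit H0 Y1 = ↑(SF ql1) :=
  orbit_eq (par := par1) (by decide +kernel) (by decide +kernel) (by decide +kernel) (by decide)
theorem orb2 : MulAction.orbit H0 Y2 = ↑(SF ql2) :=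
  orbit_eq (par := par2) (by decide +kernel) (by decide +kernel) (by decide +kernel) (by decide)
theorem orb3 : MulAction.orbit H0 Y3 = ↑(SF ql3) :=
  orbit_eq (par := par3) (by decide +kernel) (by decide +kernel) (by decide +kernel) (by decide)
theorem orb4 : MulAction.orbit H0 Y4 = ↑(SF ql4) :=
  orbit_eq (par := par4) (by decide +kernel) (by decide +kernel) (by decide +kernel) (by decide)

theorem n1 : (MulAction.orbit H0 Y1).ncard = 12 := by
  rw [orb1, Set.ncard_coe_finset, card_SF (by decide +kernel) (by decide +kernel)]; decide +kernel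
theorem n2 : (MulAction.orbit H0 Y2).ncard = 27 := by
  rw [orb2, Set.ncard_coe_finset, card_SF (by decide +kernel) (by decide +kernel)]; decide +kernel
theorem n3 : (MulAction.orbit H0 Y3).ncard = 72 := by
  rw [orb3, Set.ncard_coe_finset, card_SF (by decide +kernel) (by decide +kernel)]; decide +kernel
theorem n4 : (MulAction.orbit H0 Y4).ncard = 108 := by
  rw [orb4, Set.ncard_coe_finset, card_SF (by decide +kernel) (by decide +kernel)]; decide +kernel

theorem all_eq : quartets D0 = {Q0} ∪ MulAction.orbit H0 Y1 ∪ MulAction.orbit H0 Y2 ∪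
    MulAction.orbit H0 Y3 ∪ MulAction.orbit H0 Y4 := by
  have e : ({Q0} ∪ MulAction.orbit H0 Y1 ∪ MulAction.orbit H0 Y2 ∪
      MulAction.orbit H0 Y3 ∪ MulAction.orbit H0 Y4 : Set (Finset (Finset GolayPt))) =
      ↑(SF allq) := by
    rw [allq, SF_append, SF_append, SF_append, SF_append, SF_q0, orb1, orb2, orb3, orb4]
    push_cast
    rfl
  symm
  apply Set.eq_of_subset_of_ncard_le
  · intro X hX
    simp only [Set.mem_union, Set.mem_singleton_iff] at hX
    rcases hX with (((rfl | h) | h) | h) | h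
    · exact Q0_mem
    · exact orbit_sub Y1_mem h
    · exact orbit_sub Y2_mem h
    · exact orbit_sub Y3_mem h
    · exact orbit_sub Y4_mem h
  · rw [e, Set.ncard_coe_finset, card_all, ncard_quartets_D0]
  · exact Set.toFinite _


/-- A quartet stabiliser has five orbits on the quartets of its dodecad, of sizes 1, 12, 27, 72, 108. -/
theorem result (d : Finset Cfsg.GolayPt) (hd : d ∈ Cfsg.dodecads) (Q : Finset (Finset Cfsg.GolayPt)) (hQ : Q ∈ Cfsg.quartets d) : ∃ X₁ ∈ Cfsg.quartets d, ∃ X₂ ∈ Cfsg.quartets d, ∃ X₃ ∈ Cfsg.quartets d, ∃ X₄ ∈ Cfsg.quartets d, (MulAction.orbit ↥(MulAction.stabilizer Cfsg.M24 d ⊓ MulAction.stabilizer Cfsg.M24 Q) X₁).ncard = 12 ∧ (MulAction.orbit ↥(MulAction.stabilizer Cfsg.M24 d ⊓ MulAction.stabilizer Cfsg.M24 Q) X₂).ncard = 27 ∧ (MulAction.orbit ↥(MulAction.stabilizer Cfsg.M24 d ⊓ MulAction.stabilizer Cfsg.M24 Q) X₃).ncard = 72 ∧ (MulAction.orbit ↥(MulAction.stabilizer Cfsg.M24 d ⊓ MulAction.stabilizer Cfsg.M24 Q) X₄).ncard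 = 108 ∧ Cfsg.quartets d = {Q} ∪ MulAction.orbit ↥(MulAction.stabilizer Cfsg.M24 d ⊓ MulAction.stabilizer Cfsg.M24 Q) X₁ ∪ MulAction.orbit ↥(MulAction.stabilizer Cfsg.M24 d ⊓ MulAction.stabilizer Cfsg.M24 Q) X₂ ∪ MulAction.orbit ↥(MulAction.stabilizer Cfsg.M24 d ⊓ MulAction.stabilizer Cfsg.M24 Q) X₃ ∪ MulAction.orbit ↥(MulAction.stabilizer Cfsg.M24 d ⊓ MulAction.stabilizer Cfsg.M24 Q) X₄ := by
  obtain ⟨u, hu, hud, huQ⟩ := to_Q0 hd hQ
  have key : ∀ g : Equiv.Perm Cfsg.GolayPt, (∃ hg : g ∈ Cfsg.M24, (⟨g, hg⟩ : ↥Cfsg.M24) ∈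
        MulAction.stabilizer Cfsg.M24 d ⊓ MulAction.stabilizer Cfsg.M24 Q) ↔
      u * g * u⁻¹ ∈ H0 := by
    intro g
    rw [mem_H0_iff, conj_mem_M24_iff hu, conj_smul_iff hud, conj_smul_iff huQ]
    constructor
    · rintro ⟨hg, h1, h2⟩
      exact ⟨hg, h1, h2⟩
    · rintro ⟨hg, h1, h2⟩
      exact ⟨hg, h1, h2⟩
  have horb : ∀ Y : Finset (Finset Cfsg.GolayPt),
      MulAction.orbit ↥(MulAction.stabilizer Cfsg.M24 d ⊓ MulAction.stabilizer Cfsg.M24 Q) (u⁻¹ • Y) =
        (fun Z : Finset (Finset Cfsg.GolayPt) => u⁻¹ • Z) '' MulAction.orbit H0 Y := by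
    intro Y
    ext Z
    constructor
    · rintro ⟨g, rfl⟩
      refine ⟨(u * g.1.1 * u⁻¹) • Y, ⟨⟨_, (key g.1.1).1 ⟨g.1.2, g.2⟩⟩, rfl⟩, ?_⟩
      show u⁻¹ • (u * g.1.1 * u⁻¹) • Y = g.1.1 • u⁻¹ • Y
      rw [← mul_smul, ← mul_smul]
      congr 1
      group
    · rintro ⟨_, ⟨h, rfl⟩, rfl⟩
      have h1 : u * (u⁻¹ * h.1 * u) * u⁻¹ ∈ H0 := by
        have : u * (u⁻¹ * h.1 * u) * u⁻¹ = h.1 := by group
        rw [this]; exact h.2
      obtain ⟨hg, hG⟩ := (key _).2 h1
      refine ⟨⟨⟨_, hg⟩, hG⟩, ?_⟩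
      show (u⁻¹ * h.1 * u) • u⁻¹ • Y = u⁻¹ • h.1 • Y
      rw [← mul_smul, ← mul_smul]
      congr 1
      group
  have hinj : Function.Injective (fun Z : Finset (Finset Cfsg.GolayPt) => u⁻¹ • Z) :=
    MulAction.injective u⁻¹
  have hq : ∀ Y ∈ Cfsg.quartets D0, u⁻¹ • Y ∈ Cfsg.quartets d := by
    intro Y hY
    have := smul_quartets (Cfsg.M24.inv_mem hu) hY
    rwa [← hud, inv_smul_smul] at this
  have himg : Cfsg.quartets d = (fun Z : Finset (Finset Cfsg.GolayPt) => u⁻¹ • Z) '' Cfsg.quartets D0 := by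
    ext Z
    constructor
    · intro hZ
      refine ⟨u • Z, ?_, inv_smul_smul u Z⟩
      rw [← hud]; exact smul_quartets hu hZ
    · rintro ⟨Y, hY, rfl⟩
      exact hq Y hY
  refine ⟨u⁻¹ • Y1, hq _ Y1_mem, u⁻¹ • Y2, hq _ Y2_mem, u⁻¹ • Y3, hq _ Y3_mem, u⁻¹ • Y4,
    hq _ Y4_mem, ?_, ?_, ?_, ?_, ?_⟩
  · rw [horb, Set.ncard_image_of_injective _ hinj, n1]
  · rw [horb, Set.ncard_image_of_injective _ hinj, n2]
  · rw [horb, Set.ncard_image_of_injective _ hinj, n3]
  · rw [horb, Set.ncard_image_of_injective _ hinj, n4]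
  · rw [horb, horb, horb, horb, himg, all_eq, Set.image_union, Set.image_union, Set.image_union,
      Set.image_union, Set.image_singleton, ← huQ, inv_smul_smul]

end Cfsg.Agent.S1599
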