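import Mathlib
import Cfsg.Statements.S1600
import Cfsg.Agent.Lib.Helper3.M12Config

set_option autoImplicit false
open scoped Pointwise
open Cfsg

namespace Cfsg.Agent.S1600

/-- The pointwise stabiliser of three points of a dodecad inside the dodecad stabiliser (order 72) is transitive on the complementary dodecad. -/
theorem result (d : Finset Cfsg.GolayPt) (hd : d ∈ Cfsg.dodecads) (p q r : Cfsg.GolayPt) (hp : p ∈ d) (hq : q ∈ d) (hr : r ∈ d) (hpq : p ≠ q) (hpr : p ≠ r) (hqr : q ≠ r) : Nat.card ↥(MulAction.stabilizer Cfsg.M24 d ⊓ MulAction.stabilizer Cfsg.M24 p ⊓ MulAction.stabilizer Cfsg.M24 q ⊓ MulAction.stabilizer Cfsg.M24 r) = 72 ∧ ∀ x ∉ d, ∀ y ∉ d, ∃ g ∈ (MulAction.stabilizer Cfsg.M24 d ⊓ MulAction.stabilizer Cfsg.M24 p ⊓ MulAction.stabilizer Cfsg.M24 q ⊓ MulAction.stabilizer Cfsg.M24 r), ((g : ↥Cfsg.M24) : Equiv.Perm Cfsg.GolayPt) x = y := by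
  open Cfsg.Agent.Lib.Helper3 in
  obtain ⟨u, hu, hud, hl⟩ := dodecad_to_D0_list hd [p, q, r] (by simp [hpq, hpr, hqr])
    (by simp [hp, hq, hr]) (by simp)
  have hup : u • p = pt 0 := hl 0 (by simp)
  have huq : u • q = pt 1 := hl 1 (by simp)
  have hur : u • r = pt 2 := hl 2 (by simp)
  constructor
  · rw [card_conj_subgroup (u := u) _ (L 3), card_L_values.2.2.1]
    intro g
    rw [mem_L, conj_mem_M24_iff hu, conj_smul_iff hud]
    have hF : Fixes 3 (u * g * u⁻¹) ↔ (g • p = p ∧ g • q = q ∧ g • r = r) := by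
      rw [← conj_smul_iff (g := g) hup, ← conj_smul_iff (g := g) huq, ← conj_smul_iff (g := g) hur]
      constructor
      · intro h
        exact ⟨h 0 (by norm_num), h 1 (by norm_num), h 2 (by norm_num)⟩
      · rintro ⟨h0, h1, h2⟩ j hj
        interval_cases j
        · exact h0
        · exact h1
        · exact h2
    rw [hF]
    constructor
    · rintro ⟨hg, ⟨⟨h1, h2⟩, h3⟩, h4⟩
      exact ⟨hg, ⟨h2, h3, h4⟩, h1⟩
    · rintro ⟨hg, ⟨h2, h3, h4⟩, h1⟩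
      exact ⟨hg, ⟨⟨h1, h2⟩, h3⟩, h4⟩
  · intro x hx y hy
    have out : ∀ z, z ∉ d → (0xfacca0 : ℕ).testBit (idx (u z)) = true := by
      intro z hz
      have h1 : u z ∉ D0 := by
        intro hc
        rw [← hud] at hc
        exact hz ((Finset.smul_mem_smul_finset_iff u).1 hc)
      rw [D0, mem_unmask] at h1
      have t0 : ∀ i < 24, ¬ (0x5335f : ℕ).testBit i = true → (0xfacca0 : ℕ).testBit i = true := by
        decide
      exact t0 _ (idx_lt _) h1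
    obtain ⟨σx, hσx, hx5⟩ := point_trans gensP3 orbP3 (u x) (out x hx)
    obtain ⟨σy, hσy, hy5⟩ := point_trans gensP3 orbP3 (u y) (out y hy)
    have hτ : σy⁻¹ * σx ∈ StabM [0x5335f, 1, 2, 4] := Subgroup.mul_mem _ (Subgroup.inv_mem _ hσy) hσx
    have hτD : (σy⁻¹ * σx) • D0 = D0 := hτ.2 _ (by simp)
    have hτ0 : (σy⁻¹ * σx) • (pt 0) = pt 0 :=
      fix_of_smul (i := 0) (m := 1) (by norm_num) rfl (hτ.2 _ (by simp))
    have hτ1 : (σy⁻¹ * σx) • (pt 1) = pt 1 :=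
      fix_of_smul (i := 1) (m := 2) (by norm_num) rfl (hτ.2 _ (by simp))
    have hτ2 : (σy⁻¹ * σx) • (pt 2) = pt 2 :=
      fix_of_smul (i := 2) (m := 4) (by norm_num) rfl (hτ.2 _ (by simp))
    have hg : u⁻¹ * (σy⁻¹ * σx) * u ∈ Cfsg.M24 :=
      Cfsg.M24.mul_mem (Cfsg.M24.mul_mem (Cfsg.M24.inv_mem hu) hτ.1) hu
    refine ⟨⟨u⁻¹ * (σy⁻¹ * σx) * u, hg⟩, ⟨⟨⟨?_, ?_⟩, ?_⟩, ?_⟩, ?_⟩
    · show (u⁻¹ * (σy⁻¹ * σx) * u) • d = d
      rw [mul_smul, mul_smul, hud, hτD, ← hud, inv_smul_smul]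
    · show (u⁻¹ * (σy⁻¹ * σx) * u) • p = p
      rw [mul_smul, mul_smul, hup, hτ0, ← hup, inv_smul_smul]
    · show (u⁻¹ * (σy⁻¹ * σx) * u) • q = q
      rw [mul_smul, mul_smul, huq, hτ1, ← huq, inv_smul_smul]
    · show (u⁻¹ * (σy⁻¹ * σx) * u) • r = r
      rw [mul_smul, mul_smul, hur, hτ2, ← hur, inv_smul_smul]
    · show u⁻¹ (σy⁻¹ (σx (u x))) = y
      rw [Equiv.Perm.inv_eq_iff_eq, Equiv.Perm.inv_eq_iff_eq]
      exact hx5.trans hy5.symm

end Cfsg.Agent.S1600
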