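import Mathlib
import Cfsg.Statements.S1601
import Cfsg.Agent.Lib.Helper3.MathieuSimple
import Cfsg.Agent.Lib.Helper3.M11Trans
import Cfsg.Agent.Lib.Helper3.Simple
import Cfsg.Agent.S0387
import Cfsg.Agent.S0389
import Cfsg.Agent.S0498

set_option autoImplicit false
open scoped Pointwise
open Cfsg

namespace Cfsg.Agent.S1601

open Cfsg.Agent.Lib.Helper3
open scoped Pointwise

def emb3 (x y z : GolayPt) (hxy : x ≠ y) (hxz : x ≠ z) (hyz : y ≠ z) : Fin 3 ↪ GolayPt :=
  ⟨![x, y, z], by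
    intro i j h
    fin_cases i <;> fin_cases j <;> simp_all⟩


/-- In the 3-transitive action of the smallest Mathieu group on the complementary dodecad, a point stabiliser is isomorphic to PSL(2, 11). -/
theorem result (d : Finset Cfsg.GolayPt) (hd : d ∈ Cfsg.dodecads) (p q : Cfsg.GolayPt) (hp : p ∈ d) (hq : q ∉ d) : Nonempty (↥(MulAction.stabilizer Cfsg.M24 d ⊓ MulAction.stabilizer Cfsg.M24 p ⊓ MulAction.stabilizer Cfsg.M24 q) ≃* Matrix.ProjectiveSpecialLinearGroup (Fin 2) (ZMod 11)) := by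
  classical
  have hKcard := Cfsg.Agent.S0387.result d hd p hp
  have h3 := Cfsg.Agent.S0389.result d hd p hp
  have hdc : d.card = 12 := hd.2
  have hcompl : dᶜ.card = 12 := by
    rw [Finset.card_compl, hdc]
    rfl
  have ex2 : ∀ x, x ∉ d → ∃ y z, y ∉ d ∧ z ∉ d ∧ x ≠ y ∧ x ≠ z ∧ y ≠ z := by
    intro x hx
    have h1 : 1 < (dᶜ.erase x).card := by
      rw [Finset.card_erase_of_mem (Finset.mem_compl.mpr hx), hcompl]
      norm_num
    obtain ⟨y, hy, z, hz, hyz⟩ := Finset.one_lt_card.mp h1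
    rw [Finset.mem_erase, Finset.mem_compl] at hy hz
    exact ⟨y, z, hy.2, hz.2, hy.1.symm, hz.1.symm, hyz⟩
  have hout : ∀ g : ↥Cfsg.M24, g ∈ MulAction.stabilizer Cfsg.M24 d → ∀ x, x ∉ d → g.1 x ∉ d := by
    intro g hg x hx
    exact not_mem_of_stab (σ := g.1) hg hx
  -- the order
  have horb : MulAction.orbit ↥(MulAction.stabilizer Cfsg.M24 d ⊓ MulAction.stabilizer Cfsg.M24 p) q
      = ((dᶜ : Finset GolayPt) : Set GolayPt) := by
    ext x
    rw [Finset.mem_coe, Finset.mem_compl]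
    constructor
    · rintro ⟨g, rfl⟩
      exact hout g.1 g.2.1 q hq
    · intro hx
      obtain ⟨y, z, hy, hz, h1, h2, h3'⟩ := ex2 q hq
      obtain ⟨y', z', hy', hz', h1', h2', h3''⟩ := ex2 x hx
      obtain ⟨g, hg, hgx⟩ := h3 (emb3 q y z h1 h2 h3') (emb3 x y' z' h1' h2' h3'')
        (by intro i; fin_cases i <;> assumption) (by intro i; fin_cases i <;> assumption)
      exact ⟨⟨g, hg⟩, hgx 0⟩
  have hcard : Nat.card ↥(MulAction.stabilizer Cfsg.M24 d ⊓ MulAction.stabilizer Cfsg.M24 p ⊓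
      MulAction.stabilizer Cfsg.M24 q) = 11 * 60 := by
    have h1 := Subgroup.card_mul_index (MulAction.stabilizer
      ↥(MulAction.stabilizer Cfsg.M24 d ⊓ MulAction.stabilizer Cfsg.M24 p) q)
    rw [MulAction.index_stabilizer, horb, Set.ncard_coe_finset, hcompl, hKcard,
      Nat.card_congr (stabEquiv _ q).toEquiv] at h1
    omega
  haveI : Finite ↥(MulAction.stabilizer Cfsg.M24 d ⊓ MulAction.stabilizer Cfsg.M24 p ⊓
      MulAction.stabilizer Cfsg.M24 q) := Nat.finite_of_card_ne_zero (by rw [hcard]; norm_num)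
  have hΔ : ({x : GolayPt | x ∉ d ∧ x ≠ q} : Set GolayPt) = ((dᶜ.erase q : Finset GolayPt) : Set GolayPt) := by
    ext x
    simp [and_comm]
  have hΔc : ({x : GolayPt | x ∉ d ∧ x ≠ q} : Set GolayPt).ncard = 11 := by
    rw [hΔ, Set.ncard_coe_finset, Finset.card_erase_of_mem (Finset.mem_compl.mpr hq), hcompl]
  have hfix : ∀ g : ↥(MulAction.stabilizer Cfsg.M24 d ⊓ MulAction.stabilizer Cfsg.M24 p ⊓
      MulAction.stabilizer Cfsg.M24 q), ∀ s : Set GolayPt, s.ncard = 11 → (∀ b ∈ s, g • b = b) →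
      g = 1 := by
    intro g s hs hg
    apply Subtype.ext
    apply Subtype.ext
    exact fix9' g.1.2 s (by rw [hs]; norm_num) hg
  have hT : TwoTrans ↥(MulAction.stabilizer Cfsg.M24 d ⊓ MulAction.stabilizer Cfsg.M24 p ⊓
      MulAction.stabilizer Cfsg.M24 q) ({x : GolayPt | x ∉ d ∧ x ≠ q} : Set GolayPt) := by
    refine ⟨?_, fun g hg => hfix g _ hΔc hg, ?_⟩
    · rintro ⟨g, ⟨hg1, hg2⟩, hg3⟩ a ⟨ha1, ha2⟩
      refine ⟨hout g hg1 a ha1, ?_⟩
      intro h
      apply ha2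
      have h4 : g.1 a = g.1 q := h.trans (show g.1 q = q from hg3).symm
      exact g.1.injective h4
    · rintro a ⟨ha1, ha2⟩ b ⟨hb1, hb2⟩ c ⟨hc1, hc2⟩ hba hca
      obtain ⟨g, hg, hgx⟩ := h3 (emb3 q a b ha2.symm hb2.symm hba.symm)
        (emb3 q a c ha2.symm hc2.symm hca.symm)
        (by intro i; fin_cases i <;> assumption) (by intro i; fin_cases i <;> assumption)
      exact ⟨⟨g, hg, hgx 0⟩, hgx 1, hgx 2⟩
  haveI : Fact (Nat.Prime 11) := ⟨by norm_num⟩
  have hsimple : IsSimpleGroup ↥(MulAction.stabilizer Cfsg.M24 d ⊓ MulAction.stabilizer Cfsg.M24 p ⊓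
      MulAction.stabilizer Cfsg.M24 q) := by
    apply hT.simple_of_prime (Set.toFinite _) 11 5 60 (by norm_num) hcard (by norm_num)
      (by norm_num) (by rw [hΔc]) (by
        rw [← Set.ncard_pos, hΔc]; norm_num) hfix
    intro c r n hc hr h1 h3
    rw [hΔc] at hc
    have hc1 : c ≤ 1 := by omega
    have hr1 : r ≤ 10 := Nat.le_of_dvd (by norm_num) hr
    interval_cases c
    · omega
    · interval_cases r <;> omega
  exact Cfsg.Agent.S0498.result 11 (Or.inl rfl) (by rw [hcard]; norm_num) (ZMod.card 11)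

end Cfsg.Agent.S1601
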