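import Cfsg.Statements.S1603
import Cfsg.Agent.Lib.Helper3.M12Config
import Cfsg.Agent.Lib.Helper28.SchurM12
import Cfsg.Agent.Lib.Helper28.M12Fix
import Cfsg.Agent.Lib.Helper28.M24Fix

set_option autoImplicit false
open scoped Pointwise
open Cfsg

namespace Cfsg.Agent.S1603


open Cfsg.Agent.Lib.Helper3 Cfsg.Agent.Lib.Helper3.Syl Cfsg.Agent.Lib.Helper28.Schur
open Cfsg.Agent.Lib.Helper28.Schur.Cl Cfsg.Agent.Lib.Helper28
open scoped Pointwise
open Matrix

set_option maxRecDepth 100000

def zw : List ℕ := [2, 1, 3, 3, 3, 2, 0, 0, 4, 1, 4, 3, 2, 3, 3, 2, 3, 3, 2, 3, 4, 4, 3, 3, 2, 3, 4, 3, 3, 2, 2]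
def aw : List ℕ := [2, 2, 1, 0, 0, 2, 3, 2, 2, 1, 4, 3, 3, 3, 3, 2, 3, 3, 3, 3, 3, 4, 4, 0, 0, 2, 0, 4, 0, 0]
def bw : List ℕ := [4, 3, 1, 0, 4, 3, 3, 3, 2, 3, 3, 4, 0, 2, 0, 0, 0, 2, 2, 2, 0, 4, 4, 3, 3, 3, 4]
def Ma : Matrix (Fin 2) (Fin 2) (ZMod 3) := !![0, 1; 1, 2]
def Mb : Matrix (Fin 2) (Fin 2) (ZMod 3) := !![2, 2; 1, 0]
def gt : List ℕ := [238462153211693868569345312391696480,
  817110407467849866843631507639181728,
  941559463654221056219423727587203648,
  601923271263512911800231721851686016]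
def tabs : List ℕ := [984818244535754528103549039458486304,
  238462153211693868569345312391696480,
  817110407467849866843631507639181728,
  941559463654221056219423727587203648,
  601923271263512911800231721851686016,
  588973726336506749069553885253940480,
  233233386906768391987032901617288256,
  226486899781342125949866000826578176,
  652089096894960494667380851695819328,
  596608560596602522139529790879894656,
  892232988492739104938314944360127040,
  887206040701798436470967457454563744,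
  804453805796909846232175093915787680,
  807614701740694411978012792299014336,
  962665713185393009768555453666758752,
  796313199992319099645021490572887104,
  974011585173394614245941218075789504,
  606656633075393291958216894272653504,
  487655643029606470073469406179395616,
  970254902120350598020240965873371168,
  227757164519238556506331775210095680,
  929000492124499343650182431580424224,
  482207557077637540239338480044482976,
  638268615062459115889954748753316992,
  477186432397040551011573363500289152,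
  650547438278158065759547716516518464,
  648333173198446926654847902756766784,
  611605251066296069468015789121751232,
  980258604361933000183917870384793792,
  944293816565412651426207388111472672,
  642041783763028730224227993988959360,
  819540511855546165806214135759161536,
  920956205482608767804383496562619648,
  809578383745993820496847424931136576,
  879710665338891853379937411432779872,
  476009981231195337501393201976609920,
  235744285957698819093459551162273888,
  933527971978552360044378299965905472,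
  237195928985558336720334870261380352,
  983556734225721270408659688667254880,
  485127908510362826831405049891037600,
  486073779993727295785104656607348768,
  901075965849799639640767710858680896,
  932963793567073718167622057889674496,
  902954462832719601679678883450228832,
  897915829269799049967667047276061088,
  630443648067612166917968708617438272,
  610716805295402030725951570071139584]
def par : List (ℕ × ℕ) := [(0, 0), (0, 0), (0, 1), (0, 2), (0, 3), (1, 0), (1, 1), (1, 3), (2, 0), (2, 2), (3, 1), (3, 2), (4, 0), (5, 0), (5, 1), (5, 3), (6, 2), (7, 0), (8, 0), (9, 1), (9, 2), (10, 0), (10, 2), (11, 1), (11, 2), (12, 0), (13, 0), (13, 1), (13, 3), (14, 2), (15, 0), (16, 1), (16, 2), (17, 0), (18, 0), (18, 3), (19, 0), (19, 2), (20, 1), (21, 0), (23, 0), (24, 1), (25, 3), (26, 1), (26, 3), (29, 1), (31, 0), (31, 2)]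

def ws48 : List (List ℕ) := [aw, bw, winv aw, winv bw]

theorem card48 : Nat.card (SP ws48) = 48 := by
  rw [(isTab_of (gt := gt) (tabs := tabs) (par := par) (by decide +kernel) (by decide +kernel)
    (by decide +kernel) (by decide +kernel) (by decide +kernel)).card]
  decide +kernel

theorem wperm_pt (w : List ℕ) {k : ℕ} (hk : k < 24) : wperm w (pt k) = pt (wact w k) := by
  apply idx_injective
  have h1 : wact w k < 24 := by
    have := idx_lt (wperm w (pt k))
    rwa [idx_wperm, idx_pt hk] at this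
  rw [idx_wperm, idx_pt hk, idx_pt h1]

/-- the standard centraliser -/
noncomputable def C0 : Subgroup (Equiv.Perm GolayPt) :=
  L 1 ⊓ Subgroup.centralizer {wperm zw}

theorem memL1 {w : List ℕ} (h : inG [0] 340831 w = true) : wperm w ∈ L 1 := by
  obtain ⟨h1, h2, h3⟩ := inG_sound (by simp) h
  rw [mem_L]
  refine ⟨h1, ?_, (smul_D0_iff _).2 h3⟩
  intro j hj
  interval_cases j
  exact h2 0 (by simp)

theorem z_mem : wperm zw ∈ L 1 := memL1 (by decide +kernel)

theorem SP_le_C0 : SP ws48 ≤ C0 := by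
  apply SP_le
  intro w hw
  have h1 : ws48.all (inG [0] 340831) = true := by decide +kernel
  have h2 : ws48.all (fun w => weq (w ++ zw) (zw ++ w)) = true := by decide +kernel
  refine Subgroup.mem_inf.2 ⟨memL1 (List.all_eq_true.1 h1 w hw), ?_⟩
  rw [Subgroup.mem_centralizer_singleton_iff, ← wperm_append, ← wperm_append]
  exact wperm_eq (List.all_eq_true.1 h2 w hw)

def S48 : Finset (ℕ × ℕ) := ((Finset.range 24) ×ˢ (Finset.range 24)).filter (fun ij =>
  (340831 : ℕ).testBit ij.1 = true ∧ (340831 : ℕ).testBit ij.2 = true ∧ wact zw ij.1 ≠ ij.1 ∧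
    wact zw ij.2 ≠ ij.2 ∧ ij.2 ≠ ij.1 ∧ ij.2 ≠ wact zw ij.1)

theorem card_S48 : S48.card = 48 := by decide +kernel

theorem z1 : wperm zw (pt 1) = pt 2 := by rw [wperm_pt zw (by norm_num)]; decide +kernel
theorem z2 : wperm zw (pt 2) = pt 1 := by rw [wperm_pt zw (by norm_num)]; decide +kernel
theorem z3 : wperm zw (pt 3) = pt 4 := by rw [wperm_pt zw (by norm_num)]; decide +kernel
theorem z4 : wperm zw (pt 4) = pt 3 := by rw [wperm_pt zw (by norm_num)]; decide +kernel
theorem z0' : wperm zw (pt 0) = pt 0 := by rw [wperm_pt zw (by norm_num)]; decide +kernel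

theorem five_card : ({pt 0, pt 1, pt 2, pt 3, pt 4} : Finset GolayPt).card = 5 := by decide +kernel
theorem five_sub : ({pt 0, pt 1, pt 2, pt 3, pt 4} : Finset GolayPt) ⊆ D0 := by
  intro p hp
  rw [D0, mem_unmask]
  simp only [Finset.mem_insert, Finset.mem_singleton] at hp
  rcases hp with rfl | rfl | rfl | rfl | rfl <;> decide +kernel

theorem eq_one_of_five {g : Equiv.Perm GolayPt} (hg : g ∈ M24) (hgd : g • D0 = D0)
    (h0 : g (pt 0) = pt 0) (h1 : g (pt 1) = pt 1) (h2 : g (pt 2) = pt 2) (h3 : g (pt 3) = pt 3)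
    (h4 : g (pt 4) = pt 4) : g = 1 := by
  apply eq_one_of_fix5 D0_mem hg hgd (s := {pt 0, pt 1, pt 2, pt 3, pt 4})
    (by rw [five_card]) five_sub
  intro p hp
  simp only [Finset.mem_insert, Finset.mem_singleton] at hp
  rcases hp with rfl | rfl | rfl | rfl | rfl <;> assumption

theorem C0_spec {g : Equiv.Perm GolayPt} (hg : g ∈ C0) :
    g ∈ M24 ∧ g (pt 0) = pt 0 ∧ g • D0 = D0 ∧ ∀ p, g (wperm zw p) = wperm zw (g p) := by
  obtain ⟨h1, h2⟩ := Subgroup.mem_inf.1 hg
  rw [mem_L] at h1
  rw [Subgroup.mem_centralizer_singleton_iff] at h2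
  refine ⟨h1.1, h1.2.1 0 (by norm_num), h1.2.2, fun p => ?_⟩
  exact congrArg (fun σ : Equiv.Perm GolayPt => σ p) h2

theorem C0_eq_of {g g' : Equiv.Perm GolayPt} (hg : g ∈ C0) (hg' : g' ∈ C0)
    (h1 : g (pt 1) = g' (pt 1)) (h3 : g (pt 3) = g' (pt 3)) : g = g' := by
  obtain ⟨a1, a2, a3, a4⟩ := C0_spec hg
  obtain ⟨b1, b2, b3, b4⟩ := C0_spec hg'
  have h2 : g (pt 2) = g' (pt 2) := by rw [← z1, a4, b4, h1]
  have h4 : g (pt 4) = g' (pt 4) := by rw [← z3, a4, b4, h3]
  have : g⁻¹ * g' = 1 := by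
    apply eq_one_of_five (M24.mul_mem (M24.inv_mem a1) b1)
    · rw [mul_smul, b3, inv_smul_eq_iff, a3]
    all_goals
      rw [Equiv.Perm.mul_apply, Equiv.Perm.inv_eq_iff_eq]
      first | (rw [b2, a2]) | exact h1.symm | exact h2.symm | exact h3.symm | exact h4.symm
  exact (inv_mul_eq_one.1 this)

theorem C0_pair {g : Equiv.Perm GolayPt} (hg : g ∈ C0) :
    (idx (g (pt 1)), idx (g (pt 3))) ∈ S48 := by
  obtain ⟨a1, a2, a3, a4⟩ := C0_spec hg
  have hD : ∀ k, (340831 : ℕ).testBit k = true → k < 24 →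
      (340831 : ℕ).testBit (idx (g (pt k))) = true := by
    intro k hk hk24
    rw [(smul_D0_iff g).1 a3, idx_pt hk24]; exact hk
  have hz : ∀ p, wact zw (idx p) = idx (wperm zw p) := fun p => (idx_wperm zw p).symm
  unfold S48
  rw [Finset.mem_filter, Finset.mem_product, Finset.mem_range, Finset.mem_range]
  refine ⟨⟨idx_lt _, idx_lt _⟩, hD 1 (by decide +kernel) (by norm_num),
    hD 3 (by decide +kernel) (by norm_num), ?_, ?_, ?_, ?_⟩
  · show wact zw (idx (g (pt 1))) ≠ idx (g (pt 1))
    rw [hz, ← a4, z1]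
    intro e
    have := g.injective (idx_injective e)
    revert this; decide +kernel
  · show wact zw (idx (g (pt 3))) ≠ idx (g (pt 3))
    rw [hz, ← a4, z3]
    intro e
    have := g.injective (idx_injective e)
    revert this; decide +kernel
  · show idx (g (pt 3)) ≠ idx (g (pt 1))
    intro e
    have := g.injective (idx_injective e)
    revert this; decide +kernel
  · show idx (g (pt 3)) ≠ wact zw (idx (g (pt 1)))
    rw [hz, ← a4, z1]
    intro e
    have := g.injective (idx_injective e)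
    revert this; decide +kernel

theorem card_C0_le : Nat.card C0 ≤ 48 := by
  have : Function.Injective (fun g : C0 => (⟨_, C0_pair g.2⟩ : S48)) := by
    intro g g' h
    have h' := congrArg Subtype.val h
    simp only [Prod.mk.injEq] at h'
    exact Subtype.ext (C0_eq_of g.2 g'.2 (idx_injective h'.1) (idx_injective h'.2))
  have h2 := Nat.card_le_card_of_injective _ this
  have h3 : Nat.card ↥S48 = 48 := by rw [Nat.card_eq_fintype_card, Fintype.card_coe, card_S48]
  rwa [h3] at h2

theorem SP_eq_C0 : SP ws48 = C0 := by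
  have : Finite C0 := inferInstance
  apply Subgroup.eq_of_le_of_card_ge SP_le_C0
  rw [card48]; exact card_C0_le

abbrev V3 := Fin 2 → ZMod 3

def bt (v : V3) : ℕ := [0, 3, 4, 1, 18, 8, 2, 13, 6].getD (3 * (v 0).val + (v 1).val) 0

theorem bt_lt : ∀ v : V3, bt v < 24 := by decide +kernel
theorem bt_inj : ∀ v v' : V3, bt v = bt v' → v = v' := by decide +kernel

theorem beta_inj {v v' : V3} (h : pt (bt v) = pt (bt v')) : v = v' := by
  apply bt_inj
  rw [← idx_pt (bt_lt v), h, idx_pt (bt_lt v')]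

/-- the elements acting linearly. -/
def Lin : Subgroup (Equiv.Perm GolayPt) where
  carrier := {g | ∃ A : GL (Fin 2) (ZMod 3), ∀ v : V3, g (pt (bt v)) = pt (bt (A.1 *ᵥ v))}
  mul_mem' := by
    rintro g g' ⟨A, hA⟩ ⟨B, hB⟩
    refine ⟨A * B, fun v => ?_⟩
    rw [Equiv.Perm.mul_apply, hB, hA, Units.val_mul, Matrix.mulVec_mulVec]
  one_mem' := ⟨1, fun v => by simp⟩
  inv_mem' := by
    rintro g ⟨A, hA⟩
    refine ⟨A⁻¹, fun v => ?_⟩
    rw [Equiv.Perm.inv_eq_iff_eq, hA, Matrix.mulVec_mulVec, ← Units.val_mul, mul_inv_cancel]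
    simp

theorem lin_word {w : List ℕ} {M : Matrix (Fin 2) (Fin 2) (ZMod 3)} (hM : M.det ≠ 0)
    (h : ∀ v : V3, wact w (bt v) = bt (M *ᵥ v)) : wperm w ∈ Lin := by
  refine ⟨Matrix.GeneralLinearGroup.mkOfDetNeZero M hM, fun v => ?_⟩
  rw [wperm_pt w (bt_lt v), h v]
  rfl

theorem C0_le_Lin : C0 ≤ Lin := by
  rw [← SP_eq_C0]
  have ha : wperm aw ∈ Lin := lin_word (M := Ma) (by decide +kernel) (by decide +kernel)
  have hb : wperm bw ∈ Lin := lin_word (M := Mb) (by decide +kernel) (by decide +kernel)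
  apply SP_le
  intro w hw
  simp only [ws48, List.mem_cons, List.not_mem_nil, or_false] at hw
  rcases hw with rfl | rfl | rfl | rfl
  · exact ha
  · exact hb
  · rw [wperm_winv]; exact Lin.inv_mem ha
  · rw [wperm_winv]; exact Lin.inv_mem hb

theorem card_GL : Nat.card (GL (Fin 2) (ZMod 3)) = 48 := by
  rw [Matrix.card_GL_field]
  simp [Fin.prod_univ_two, ZMod.card]

theorem C0_iso : Nonempty (C0 ≃* GL (Fin 2) (ZMod 3)) := by
  have ex : ∀ g : C0, ∃ A : GL (Fin 2) (ZMod 3), ∀ v : V3,
      g.1 (pt (bt v)) = pt (bt (A.1 *ᵥ v)) := fun g => C0_le_Lin g.2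
  choose A hA using ex
  have uniq : ∀ B B' : GL (Fin 2) (ZMod 3),
      (∀ v : V3, pt (bt (B.1 *ᵥ v)) = pt (bt (B'.1 *ᵥ v))) → B = B' := by
    intro B B' h
    apply Units.ext
    rw [Matrix.ext_iff_mulVec]
    intro v
    exact beta_inj (h v)
  let φ : C0 →* GL (Fin 2) (ZMod 3) :=
    { toFun := A
      map_one' := by
        apply uniq
        intro v
        rw [← hA]; simp
      map_mul' := by
        intro g g'
        apply uniq
        intro v
        rw [← hA, Units.val_mul, ← Matrix.mulVec_mulVec, ← hA, ← hA]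
        rfl }
  have hinj : Function.Injective φ := by
    intro g g' h
    have h' : A g = A g' := h
    apply Subtype.ext
    apply C0_eq_of g.2 g'.2
    · have e1 := hA g ![1, 0]
      have e2 := hA g' ![1, 0]
      rw [h', ← e2] at e1
      exact e1
    · have e1 := hA g ![0, 1]
      have e2 := hA g' ![0, 1]
      rw [h', ← e2] at e1
      exact e1
  have : Finite C0 := inferInstance
  have hbij : Function.Bijective φ := by
    apply hinj.bijective_of_nat_card_le
    rw [card_GL, ← SP_eq_C0, card48]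
  exact ⟨MulEquiv.ofBijective φ hbij⟩

theorem main {A : Type*} [Group A] (f : A →* Equiv.Perm GolayPt)
    (hf : Function.Injective f) (hr : f.range = C0) :
    Nonempty (A ≃* GL (Fin 2) (ZMod 3)) := by
  obtain ⟨e⟩ := C0_iso
  exact ⟨((MonoidHom.ofInjective hf).trans (MulEquiv.subgroupCongr hr)).trans e⟩


/-- Involution centralisers in the smallest Mathieu group are isomorphic to GL(2, 3). -/
theorem result (d : Finset Cfsg.GolayPt) (hd : d ∈ Cfsg.dodecads) (p : Cfsg.GolayPt) (hp : p ∈ d) (x : ↥(MulAction.stabilizer Cfsg.M24 d ⊓ MulAction.stabilizer Cfsg.M24 p)) (hx : orderOf x = 2) : Nonempty (↥(Subgroup.centralizer ({x} : Set ↥(MulAction.stabilizer Cfsg.M24 d ⊓ MulAction.stabilizer Cfsg.M24 p))) ≃* GL (Fin 2) (ZMod 3)) := by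
  classical
  set X : Equiv.Perm Cfsg.GolayPt := x.1.1 with hX
  have hXM : X ∈ Cfsg.M24 := x.1.2
  have hXd : X • d = d := x.2.1
  have hXp : X p = p := x.2.2
  have hX1 : X ≠ 1 := by
    intro h
    have : x = 1 := Subtype.ext (Subtype.ext h)
    rw [this, orderOf_one] at hx
    norm_num at hx
  have hXX : ∀ q, X (X q) = q := by
    intro q
    have h2 : x ^ 2 = 1 := by rw [← hx]; exact pow_orderOf_eq_one x
    have h3 : X * X = 1 := by
      have := congrArg (fun y : ↥(MulAction.stabilizer Cfsg.M24 d ⊓ MulAction.stabilizer Cfsg.M24 p) =>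
        (y.1.1 : Equiv.Perm Cfsg.GolayPt)) h2
      rw [pow_two] at this
      exact this
    exact congrArg (fun σ : Equiv.Perm Cfsg.GolayPt => σ q) h3
  obtain ⟨a, had, ha⟩ : ∃ a ∈ d, X a ≠ a := by
    by_contra hcon
    push Not at hcon
    exact hX1 (eq_one_of_fix5 hd hXM hXd (s := d) (by rw [hd.2]; norm_num) (subset_refl _) hcon)
  obtain ⟨c, hcd, hca, hcb, hc⟩ : ∃ c ∈ d, c ≠ a ∧ c ≠ X a ∧ X c ≠ c := by
    by_contra hcon
    push Not at hcon
    apply hX1
    apply eq_one_of_fix5 hd hXM hXd (s := (d.erase a).erase (X a))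
    · have h1 := Finset.pred_card_le_card_erase (s := d.erase a) (a := X a)
      have h2 := Finset.pred_card_le_card_erase (s := d) (a := a)
      rw [hd.2] at h2
      omega
    · exact (Finset.erase_subset _ _).trans (Finset.erase_subset _ _)
    · intro q hq
      rw [Finset.mem_erase, Finset.mem_erase] at hq
      exact hcon q hq.2.2 hq.2.1 hq.1
  have hbd : X a ∈ d := (mem_iff_of_smul_eq hXd a).2 had
  have hed : X c ∈ d := (mem_iff_of_smul_eq hXd c).2 hcd
  have hpa : p ≠ a := by rintro rfl; exact ha hXp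
  have hpc : p ≠ c := by rintro rfl; exact hc hXp
  have hpb : p ≠ X a := by
    intro h; apply hpa; apply X.injective; rw [hXp]; exact h
  have hpe : p ≠ X c := by
    intro h; apply hpc; apply X.injective; rw [hXp]; exact h
  have hae : a ≠ X c := by
    intro h; apply hcb; rw [h, hXX]
  have hbe : X a ≠ X c := fun h => hca (X.injective h).symm
  obtain ⟨u, hu, hud, hl⟩ := dodecad_to_D0_list hd [p, a, X a, c, X c]
    (by simp [hpa, hpb, hpc, hpe, ha.symm, hca.symm, hae, hcb.symm, hbe, hc.symm])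
    (by simp [hp, had, hbd, hcd, hed]) (by simp)
  have hup : u p = pt 0 := hl 0 (by simp)
  have hua : u a = pt 1 := hl 1 (by simp)
  have hub : u (X a) = pt 2 := hl 2 (by simp)
  have huc : u c = pt 3 := hl 3 (by simp)
  have hue : u (X c) = pt 4 := hl 4 (by simp)
  have hinv : ∀ q r, u q = r → u⁻¹ r = q := by
    intro q r h; rw [← h]; exact u.symm_apply_apply q
  have hz : u * X * u⁻¹ = wperm zw := by
    have hzL := (mem_L 1 _).1 z_mem
    have : (wperm zw)⁻¹ * (u * X * u⁻¹) = 1 := by
      apply eq_one_of_five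
        (Cfsg.M24.mul_mem (Cfsg.M24.inv_mem hzL.1) ((conj_mem_M24_iff hu).2 hXM))
      · rw [mul_smul, (conj_smul_iff hud).2 hXd, inv_smul_eq_iff, hzL.2.2]
      · rw [Equiv.Perm.mul_apply, Equiv.Perm.inv_eq_iff_eq, z0', Equiv.Perm.mul_apply,
          Equiv.Perm.mul_apply, hinv _ _ hup, hXp, hup]
      · rw [Equiv.Perm.mul_apply, Equiv.Perm.inv_eq_iff_eq, z1, Equiv.Perm.mul_apply,
          Equiv.Perm.mul_apply, hinv _ _ hua, hub]
      · rw [Equiv.Perm.mul_apply, Equiv.Perm.inv_eq_iff_eq, z2, Equiv.Perm.mul_apply,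
          Equiv.Perm.mul_apply, hinv _ _ hub, hXX, hua]
      · rw [Equiv.Perm.mul_apply, Equiv.Perm.inv_eq_iff_eq, z3, Equiv.Perm.mul_apply,
          Equiv.Perm.mul_apply, hinv _ _ huc, hue]
      · rw [Equiv.Perm.mul_apply, Equiv.Perm.inv_eq_iff_eq, z4, Equiv.Perm.mul_apply,
          Equiv.Perm.mul_apply, hinv _ _ hue, hXX, huc]
    exact (inv_mul_eq_one.1 this).symm
  have key : ∀ g : Equiv.Perm Cfsg.GolayPt, (∃ hg : g ∈ Cfsg.M24, ∃ hG : (⟨g, hg⟩ : ↥Cfsg.M24) ∈
        MulAction.stabilizer Cfsg.M24 d ⊓ MulAction.stabilizer Cfsg.M24 p,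
        (⟨⟨g, hg⟩, hG⟩ : ↥(MulAction.stabilizer Cfsg.M24 d ⊓ MulAction.stabilizer Cfsg.M24 p)) ∈
          Subgroup.centralizer ({x} : Set ↥(MulAction.stabilizer Cfsg.M24 d ⊓ MulAction.stabilizer Cfsg.M24 p))) ↔
      u * g * u⁻¹ ∈ C0 := by
    intro g
    rw [C0, Subgroup.mem_inf, mem_L, conj_mem_M24_iff hu, conj_smul_iff hud,
      Subgroup.mem_centralizer_singleton_iff, ← hz]
    have hF : Fixes 1 (u * g * u⁻¹) ↔ g • p = p := by
      rw [← conj_smul_iff (g := g) (show u • p = pt 0 from hup)]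
      constructor
      · intro h
        exact h 0 (by norm_num)
      · intro h0 j hj
        interval_cases j
        exact h0
    have hcm : u * g * u⁻¹ * (u * X * u⁻¹) = u * X * u⁻¹ * (u * g * u⁻¹) ↔ g * X = X * g := by
      constructor
      · intro h
        have h1 : u * (g * X) * u⁻¹ = u * (X * g) * u⁻¹ := by
          have e1 : u * (g * X) * u⁻¹ = u * g * u⁻¹ * (u * X * u⁻¹) := by group
          have e2 : u * (X * g) * u⁻¹ = u * X * u⁻¹ * (u * g * u⁻¹) := by group
          rw [e1, e2, h]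
        exact mul_left_cancel (mul_right_cancel h1)
      · intro h
        have e1 : u * g * u⁻¹ * (u * X * u⁻¹) = u * (g * X) * u⁻¹ := by group
        have e2 : u * X * u⁻¹ * (u * g * u⁻¹) = u * (X * g) * u⁻¹ := by group
        rw [e1, e2, h]
    rw [hF, hcm]
    constructor
    · rintro ⟨hg, ⟨h1, h2⟩, h3⟩
      rw [Subgroup.mem_centralizer_singleton_iff] at h3
      refine ⟨⟨hg, h2, h1⟩, ?_⟩
      exact congrArg (fun y : ↥(MulAction.stabilizer Cfsg.M24 d ⊓ MulAction.stabilizer Cfsg.M24 p) =>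
        (y.1.1 : Equiv.Perm Cfsg.GolayPt)) h3
    · rintro ⟨⟨hg, h2, h1⟩, h3⟩
      refine ⟨hg, ⟨h1, h2⟩, ?_⟩
      rw [Subgroup.mem_centralizer_singleton_iff]
      exact Subtype.ext (Subtype.ext h3)
  apply main ((((MulAut.conj u).toMonoidHom.comp Cfsg.M24.subtype).comp
        (MulAction.stabilizer Cfsg.M24 d ⊓ MulAction.stabilizer Cfsg.M24 p).subtype).comp
        (Subgroup.centralizer ({x} : Set ↥(MulAction.stabilizer Cfsg.M24 d ⊓ MulAction.stabilizer Cfsg.M24 p))).subtype)
  · intro a b hab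
    have h1 : u * a.1.1.1 * u⁻¹ = u * b.1.1.1 * u⁻¹ := hab
    exact Subtype.ext (Subtype.ext (Subtype.ext (mul_left_cancel (mul_right_cancel h1))))
  · ext y
    constructor
    · rintro ⟨a, rfl⟩
      exact (key a.1.1.1).1 ⟨a.1.1.2, a.1.2, a.2⟩
    · intro hy
      have h1 : u * (u⁻¹ * y * u) * u⁻¹ ∈ C0 := by
        have : u * (u⁻¹ * y * u) * u⁻¹ = y := by group
        rw [this]; exact hy
      obtain ⟨hg, hG, hA⟩ := (key _).2 h1
      refine ⟨⟨⟨⟨_, hg⟩, hG⟩, hA⟩, ?_⟩
      show u * (u⁻¹ * y * u) * u⁻¹ = y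
      group

end Cfsg.Agent.S1603
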