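import Mathlib
import Cfsg.Statements.S1604
import Cfsg.Agent.Lib.Helper3.RankData

set_option autoImplicit false
open scoped Pointwise
open Cfsg

namespace Cfsg.Agent.S1604

/-- A hexad stabiliser in the two-point stabiliser has orbits of sizes 1, 16, 60 on the 77 hexads: the 16 hexads disjoint from it and the 60 meeting it in two points. -/
theorem result (p q : Cfsg.GolayPt) (hpq : p ≠ q) (o o' o'' : Finset Cfsg.GolayPt) (ho : o ∈ Cfsg.octads) (ho' : o' ∈ Cfsg.octads) (ho'' : o'' ∈ Cfsg.octads) (hp : p ∈ o ∧ p ∈ o' ∧ p ∈ o'') (hq : q ∈ o ∧ q ∈ o' ∧ q ∈ o'') (h : (o ∩ o').card = (o ∩ o'').card) : {x : Finset Cfsg.GolayPt | x ∈ Cfsg.octads ∧ p ∈ x ∧ q ∈ x ∧ (o ∩ x).card = 2}.ncard = 16 ∧ {x : Finset Cfsg.GolayPt | x ∈ Cfsg.octads ∧ p ∈ x ∧ q ∈ x ∧ (o ∩ x).card = 4}.ncard = 60 ∧ ∃ g : Equiv.Perm Cfsg.GolayPt, g ∈ Cfsg.M24 ∧ g p = p ∧ g q = q ∧ g • o = o ∧ g • o' = o'' := by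
  open Cfsg.Agent.Lib.Helper3 in
  obtain ⟨u, hu, huo, hl⟩ := octad_to_O0_list ho [p, q] (by simp [hpq])
    (by simp [hp.1, hq.1]) (by simp)
  have hup : u p = pt 0 := hl 0 (by simp)
  have huq : u q = pt 1 := hl 1 (by simp)
  have huo' : u • o = unmask 0x149f := huo
  have key : ∀ n s, (s ∈ Cfsg.octads ∧ p ∈ s ∧ q ∈ s ∧ (o ∩ s).card = n) ↔
      (u • s ∈ CS ∧ ∀ c ∈ [(0xFFFFFF, 8), (1, 1), (2, 1), (0x149f, n)],
        (unmask c.1 ∩ u • s).card = c.2) := by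
    intro n s
    rw [oct_iff hu, pmem_iff (i := 0) (m := 1) (by norm_num) rfl hup,
      pmem_iff (i := 1) (m := 2) (by norm_num) rfl huq, inter_eq huo']
    simp only [List.forall_mem_cons, List.not_mem_nil, false_imp_iff, implies_true, and_true, and_assoc]
  refine ⟨?_, ?_, ?_⟩
  · rw [ncard_smul_transfer u (Q := fun t => t ∈ CS ∧ ∀ c ∈ [(0xFFFFFF, 8), (1, 1), (2, 1), (0x149f, 2)],
      (unmask c.1 ∩ t).card = c.2) (key 2), ncard_conds _ (by simp), cntC_2]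
  · rw [ncard_smul_transfer u (Q := fun t => t ∈ CS ∧ ∀ c ∈ [(0xFFFFFF, 8), (1, 1), (2, 1), (0x149f, 4)],
      (unmask c.1 ∩ t).card = c.2) (key 4), ncard_conds _ (by simp), cntC_4]
  · have fam : ∀ s, s ∈ Cfsg.octads → p ∈ s → q ∈ s →
        (u • s ∈ CS ∧ ∀ c ∈ [(0xFFFFFF, 8), (1, 1), (2, 1)], (unmask c.1 ∩ u • s).card = c.2) := by
      intro s hs hps hqs
      rw [oct_iff hu] at hs
      rw [pmem_iff (i := 0) (m := 1) (by norm_num) rfl hup] at hps
      rw [pmem_iff (i := 1) (m := 2) (by norm_num) rfl huq] at hqs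
      simp only [List.forall_mem_cons, List.not_mem_nil, false_imp_iff, implies_true, and_true]
      exact ⟨hs.1, hs.2, hps, hqs⟩
    obtain ⟨g, hg, hgs⟩ := pair_trans gensC orbC (by simp) (by norm_num) (fam o' ho' hp.2.1 hq.2.1)
      (fam o'' ho'' hp.2.2 hq.2.2) (by rw [← inter_eq huo', ← inter_eq huo', h])
    have h0 : g (pt 0) = pt 0 := fix_of_smul (i := 0) (m := 1) (by norm_num) rfl (hg.2 1 (by simp))
    have h1 : g (pt 1) = pt 1 := fix_of_smul (i := 1) (m := 2) (by norm_num) rfl (hg.2 2 (by simp))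
    have h2 : g • unmask 0x149f = unmask 0x149f := hg.2 _ (by simp)
    obtain ⟨g', hg', hy, hab⟩ := conj_back (y := (p, q, o)) hu hg.1 (by
      show (g • u • p, g • u • q, g • u • o) = (u • p, u • q, u • o)
      rw [huo', h2, show u • p = pt 0 from hup, show g • pt 0 = pt 0 from h0,
        show u • q = pt 1 from huq, show g • pt 1 = pt 1 from h1]) hgs
    rw [Prod.smul_mk, Prod.smul_mk, Prod.mk.injEq, Prod.mk.injEq] at hy
    exact ⟨g', hg', hy.1, hy.2.1, hy.2.2, hab⟩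

end Cfsg.Agent.S1604
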