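import Mathlib
import Cfsg.Statements.S1605
import Cfsg.Agent.Lib.Helper3.RankData

set_option autoImplicit false
open scoped Pointwise
open Cfsg

namespace Cfsg.Agent.S1605

/-- The two-point stabiliser acts on the 176 octads through the first point avoiding the second with rank 3 and subdegrees 1, 70, 105 (intersections 8, 2, 4). -/
theorem result (p q : Cfsg.GolayPt) (hpq : p ≠ q) : {x : Finset Cfsg.GolayPt | (x ∈ Cfsg.octads ∧ p ∈ x ∧ q ∉ x)}.ncard = 176 ∧ (∀ o o' : Finset Cfsg.GolayPt, (o ∈ Cfsg.octads ∧ p ∈ o ∧ q ∉ o) → (o' ∈ Cfsg.octads ∧ p ∈ o' ∧ q ∉ o') → ∃ g : Equiv.Perm Cfsg.GolayPt, g ∈ Cfsg.M24 ∧ g p = p ∧ g q = q ∧ g • o = o') ∧ ∀ o : Finset Cfsg.GolayPt, (o ∈ Cfsg.octads ∧ p ∈ o ∧ q ∉ o) → {x : Finset Cfsg.GolayPt | (x ∈ Cfsg.octads ∧ p ∈ x ∧ q ∉ x) ∧ (o ∩ x).card = 2}.ncard = 70 ∧ {x : Finset Cfsg.GolayPt | (x ∈ Cfsg.octads ∧ p ∈ x ∧ q ∉ x) ∧ (o ∩ x).card = 4}.ncard = 105 ∧ ∀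 o' o'' : Finset Cfsg.GolayPt, (o' ∈ Cfsg.octads ∧ p ∈ o' ∧ q ∉ o') → (o'' ∈ Cfsg.octads ∧ p ∈ o'' ∧ q ∉ o'') → (o ∩ o').card = (o ∩ o'').card → ∃ g : Equiv.Perm Cfsg.GolayPt, g ∈ Cfsg.M24 ∧ g p = p ∧ g q = q ∧ g • o = o ∧ g • o' = o'' := by
  open Cfsg.Agent.Lib.Helper3 in
  have famiff : ∀ (u : Equiv.Perm Cfsg.GolayPt), u ∈ Cfsg.M24 → u p = pt 0 → u q = pt 5 → ∀ s,
      (s ∈ Cfsg.octads ∧ p ∈ s ∧ q ∉ s) ↔
      (u • s ∈ CS ∧ ∀ c ∈ [(0xFFFFFF, 8), (1, 1), (32, 0)], (unmask c.1 ∩ u • s).card = c.2) := by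
    intro u hu hup huq s
    rw [oct_iff hu, pmem_iff (i := 0) (m := 1) (by norm_num) rfl hup,
      pnmem_iff (i := 5) (m := 32) (by norm_num) rfl huq]
    simp only [List.forall_mem_cons, List.not_mem_nil, false_imp_iff, implies_true, and_true, and_assoc]
  obtain ⟨u, hu, hup, huq⟩ : ∃ u ∈ Cfsg.M24, u p = pt 0 ∧ u q = pt 5 := by
    obtain ⟨u1, hu1, h1, _⟩ := exists_map_list Finset.univ (by decide) [p, q] (by simp [hpq])
      (by simp) (by simp)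
    obtain ⟨u2, hu2, h2, _⟩ := exists_map_list Finset.univ (by decide) [pt 0, pt 5] (by decide)
      (by simp) (by simp)
    refine ⟨u2⁻¹ * u1, Cfsg.M24.mul_mem (Cfsg.M24.inv_mem hu2) hu1, ?_, ?_⟩
    · show u2⁻¹ (u1 p) = pt 0
      rw [Equiv.Perm.inv_eq_iff_eq]
      exact (h1 0 (by simp)).trans (h2 0 (by simp)).symm
    · show u2⁻¹ (u1 q) = pt 5
      rw [Equiv.Perm.inv_eq_iff_eq]
      exact (h1 1 (by simp)).trans (h2 1 (by simp)).symm
  refine ⟨?_, ?_, ?_⟩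
  · have key : ∀ s, (s ∈ Cfsg.octads ∧ p ∈ s ∧ q ∉ s) ↔
        (u • s ∈ CS ∧ ∀ c ∈ [(0xFFFFFF, 8), (1, 1), (32, 0), (0xFFFFFF, 8)],
          (unmask c.1 ∩ u • s).card = c.2) := by
      intro s
      rw [famiff u hu hup huq]
      simp only [List.forall_mem_cons, List.not_mem_nil, false_imp_iff, implies_true, and_true]
      tauto
    rw [ncard_smul_transfer u (Q := fun t => t ∈ CS ∧ ∀ c ∈ [(0xFFFFFF, 8), (1, 1), (32, 0), (0xFFFFFF, 8)],
      (unmask c.1 ∩ t).card = c.2) key, ncard_conds _ (by simp), cntD1_8]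
  · intro o o' ho ho'
    have f1 := (famiff u hu hup huq o).1 ho
    have f2 := (famiff u hu hup huq o').1 ho'
    obtain ⟨g, hg, hgs⟩ := pair_trans gensD1 orbD1 (by simp) (by norm_num) f1 f2
      (by rw [f1.2 (0xFFFFFF, 8) (by simp), f2.2 (0xFFFFFF, 8) (by simp)])
    have h0 : g (pt 0) = pt 0 := fix_of_smul (i := 0) (m := 1) (by norm_num) rfl (hg.2 1 (by simp))
    have h1 : g (pt 5) = pt 5 := fix_of_smul (i := 5) (m := 32) (by norm_num) rfl (hg.2 32 (by simp))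
    obtain ⟨g', hg', hy, hab⟩ := conj_back (y := (p, q)) hu hg.1 (by
      show (g • u • p, g • u • q) = (u • p, u • q)
      rw [show u • p = pt 0 from hup, show g • pt 0 = pt 0 from h0,
        show u • q = pt 5 from huq, show g • pt 5 = pt 5 from h1]) hgs
    rw [Prod.smul_mk, Prod.mk.injEq] at hy
    exact ⟨g', hg', hy.1, hy.2, hab⟩
  · intro o ho
    clear hup huq hu u
    obtain ⟨u1, hu1, hu1o, hl⟩ := octad_to_O0_list ho.1 [p] (by simp) (by simpa using ho.2.1) (by simp)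
    have hu1p : u1 p = pt 0 := hl 0 (by simp)
    have hq1 : u1 q ∉ O0 := by
      rw [← hu1o]
      exact fun hc => ho.2.2 ((Finset.smul_mem_smul_finset_iff u1).1 hc)
    obtain ⟨u2, hu2, hu2o, hu2f, hu2q⟩ := outside_to_base hq1
    have h0O : pt 0 ∈ O0 := by rw [O0, mem_unmask]; decide
    obtain ⟨u, hu, huo', hup, huq⟩ : ∃ u ∈ Cfsg.M24, u • o = unmask 0x149f ∧ u p = pt 0 ∧ u q = pt 5 :=
      ⟨u2 * u1, Cfsg.M24.mul_mem hu2 hu1, by rw [mul_smul, hu1o, hu2o]; rfl,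
        by show u2 (u1 p) = pt 0; rw [hu1p]; exact hu2f _ h0O, hu2q⟩
    have key : ∀ n s, ((s ∈ Cfsg.octads ∧ p ∈ s ∧ q ∉ s) ∧ (o ∩ s).card = n) ↔
        (u • s ∈ CS ∧ ∀ c ∈ [(0xFFFFFF, 8), (1, 1), (32, 0), (0x149f, n)],
          (unmask c.1 ∩ u • s).card = c.2) := by
      intro n s
      rw [famiff u hu hup huq, inter_eq huo']
      simp only [List.forall_mem_cons, List.not_mem_nil, false_imp_iff, implies_true, and_true, and_assoc]
    refine ⟨?_, ?_, ?_⟩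
    · rw [ncard_smul_transfer u (Q := fun t => t ∈ CS ∧ ∀ c ∈ [(0xFFFFFF, 8), (1, 1), (32, 0), (0x149f, 2)],
        (unmask c.1 ∩ t).card = c.2) (key 2), ncard_conds _ (by simp), cntD2_2]
    · rw [ncard_smul_transfer u (Q := fun t => t ∈ CS ∧ ∀ c ∈ [(0xFFFFFF, 8), (1, 1), (32, 0), (0x149f, 4)],
        (unmask c.1 ∩ t).card = c.2) (key 4), ncard_conds _ (by simp), cntD2_4]
    · intro o' o'' ho' ho'' h
      obtain ⟨g, hg, hgs⟩ := pair_trans gensD2 orbD2 (by simp) (by norm_num)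
        ((famiff u hu hup huq o').1 ho') ((famiff u hu hup huq o'').1 ho'')
        (by rw [← inter_eq huo', ← inter_eq huo', h])
      have h0 : g (pt 0) = pt 0 := fix_of_smul (i := 0) (m := 1) (by norm_num) rfl (hg.2 1 (by simp))
      have h1 : g (pt 5) = pt 5 := fix_of_smul (i := 5) (m := 32) (by norm_num) rfl (hg.2 32 (by simp))
      have h2 : g • unmask 0x149f = unmask 0x149f := hg.2 _ (by simp)
      obtain ⟨g', hg', hy, hab⟩ := conj_back (y := (p, q, o)) hu hg.1 (by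
        show (g • u • p, g • u • q, g • u • o) = (u • p, u • q, u • o)
        rw [huo', h2, show u • p = pt 0 from hup, show g • pt 0 = pt 0 from h0,
          show u • q = pt 5 from huq, show g • pt 5 = pt 5 from h1]) hgs
      rw [Prod.smul_mk, Prod.smul_mk, Prod.mk.injEq, Prod.mk.injEq] at hy
      exact ⟨g', hg', hy.1, hy.2.1, hy.2.2, hab⟩

end Cfsg.Agent.S1605
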