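import Mathlib
import Cfsg.Statements.S1607
import Cfsg.Agent.Lib.Helper3.RankData

set_option autoImplicit false
open scoped Pointwise
open Cfsg

namespace Cfsg.Agent.S1607

/-- The point stabiliser acts on the 253 heptads of its S(4, 7, 23) with rank 3 and subdegrees 1, 112, 140 (intersections 8, 2, 4). -/
theorem result (x : Cfsg.GolayPt) (o : Finset Cfsg.GolayPt) (ho : o ∈ Cfsg.octads) (hx : x ∈ o) : {o' : Finset Cfsg.GolayPt | o' ∈ Cfsg.octads ∧ x ∈ o' ∧ (o ∩ o').card = 2}.ncard = 112 ∧ {o' : Finset Cfsg.GolayPt | o' ∈ Cfsg.octads ∧ x ∈ o' ∧ (o ∩ o').card = 4}.ncard = 140 ∧ ∀ o' o'' : Finset Cfsg.GolayPt, o' ∈ Cfsg.octads → o'' ∈ Cfsg.octads → x ∈ o' → x ∈ o'' → (o ∩ o').card = (o ∩ o'').card → ∃ g : Equiv.Perm Cfsg.GolayPt, g ∈ Cfsg.M24 ∧ g x = x ∧ g • o = o ∧ g • o' = o'' := by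
  open Cfsg.Agent.Lib.Helper3 in
  obtain ⟨u, hu, huo, hl⟩ := octad_to_O0_list ho [x] (by simp) (by simpa using hx) (by simp)
  have hux : u x = pt 0 := hl 0 (by simp)
  have huo' : u • o = unmask 0x149f := huo
  have key : ∀ n s, (s ∈ Cfsg.octads ∧ x ∈ s ∧ (o ∩ s).card = n) ↔
      (u • s ∈ CS ∧ ∀ c ∈ [(0xFFFFFF, 8), (1, 1), (0x149f, n)], (unmask c.1 ∩ u • s).card = c.2) := by
    intro n s
    rw [oct_iff hu, pmem_iff (i := 0) (m := 1) (by norm_num) rfl hux, inter_eq huo']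
    simp only [List.forall_mem_cons, List.not_mem_nil, false_imp_iff, implies_true, and_true, and_assoc]
  refine ⟨?_, ?_, ?_⟩
  · rw [ncard_smul_transfer u (Q := fun t => t ∈ CS ∧ ∀ c ∈ [(0xFFFFFF, 8), (1, 1), (0x149f, 2)],
      (unmask c.1 ∩ t).card = c.2) (key 2), ncard_conds _ (by simp), cntA_2]
  · rw [ncard_smul_transfer u (Q := fun t => t ∈ CS ∧ ∀ c ∈ [(0xFFFFFF, 8), (1, 1), (0x149f, 4)],
      (unmask c.1 ∩ t).card = c.2) (key 4), ncard_conds _ (by simp), cntA_4]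
  · intro o' o'' ho' ho'' hx' hx'' h
    have fam : ∀ s, s ∈ Cfsg.octads → x ∈ s →
        (u • s ∈ CS ∧ ∀ c ∈ [(0xFFFFFF, 8), (1, 1)], (unmask c.1 ∩ u • s).card = c.2) := by
      intro s hs hxs
      rw [oct_iff hu] at hs
      rw [pmem_iff (i := 0) (m := 1) (by norm_num) rfl hux] at hxs
      simp only [List.forall_mem_cons, List.not_mem_nil, false_imp_iff, implies_true, and_true]
      exact ⟨hs.1, hs.2, hxs⟩
    obtain ⟨g, hg, hgs⟩ := pair_trans gensA orbA (by simp) (by norm_num) (fam o' ho' hx')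
      (fam o'' ho'' hx'') (by rw [← inter_eq huo', ← inter_eq huo', h])
    have h1 : g (pt 0) = pt 0 := fix_of_smul (i := 0) (m := 1) (by norm_num) rfl (hg.2 1 (by simp))
    have h2 : g • unmask 0x149f = unmask 0x149f := hg.2 _ (by simp)
    obtain ⟨g', hg', hy, hab⟩ := conj_back (y := (x, o)) hu hg.1 (by
      show (g • u • x, g • u • o) = (u • x, u • o)
      rw [huo', h2, show u • x = pt 0 from hux, show g • pt 0 = pt 0 from h1]) hgs
    rw [Prod.smul_mk, Prod.mk.injEq] at hy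
    exact ⟨g', hg', hy.1, hy.2, hab⟩

end Cfsg.Agent.S1607
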