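import Mathlib
import Cfsg.Statements.S1608
import Cfsg.Agent.Lib.Helper3.RankData

set_option autoImplicit false
open scoped Pointwise
open Cfsg

namespace Cfsg.Agent.S1608

/-- The point stabiliser acts on the 506 octads avoiding the point with rank 4 and subdegrees 1, 15, 210, 280, the suborbits being given by intersection size with the fixed octad. -/
theorem result (x : Cfsg.GolayPt) (o : Finset Cfsg.GolayPt) (ho : o ∈ Cfsg.octads) (hx : x ∉ o) : {o' : Finset Cfsg.GolayPt | o' ∈ Cfsg.octads ∧ x ∉ o' ∧ (o ∩ o').card = 0}.ncard = 15 ∧ {o' : Finset Cfsg.GolayPt | o' ∈ Cfsg.octads ∧ x ∉ o' ∧ (o ∩ o').card = 4}.ncard = 210 ∧ {o' : Finset Cfsg.GolayPt | o' ∈ Cfsg.octads ∧ x ∉ o' ∧ (o ∩ o').card = 2}.ncard = 280 ∧ ∀ o' o'' : Finset Cfsg.GolayPt, o' ∈ Cfsg.octads → o'' ∈ Cfsg.octads → x ∉ o' → x ∉ o'' → (o ∩ o').card = (o ∩ o'').card → ∃ g : Equiv.Perm Cfsg.GolayPt, g ∈ Cfsg.M24 ∧ g x = x ∧ g • o =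 o ∧ g • o' = o'' := by
  open Cfsg.Agent.Lib.Helper3 in
  obtain ⟨u1, hu1, hu1o⟩ := octad_to_O0 ho
  have hx1 : u1 x ∉ O0 := by
    rw [← hu1o]
    exact fun hc => hx ((Finset.smul_mem_smul_finset_iff u1).1 hc)
  obtain ⟨u2, hu2, hu2o, _, hu2x⟩ := outside_to_base hx1
  obtain ⟨u, hu, huo', hux⟩ : ∃ u ∈ Cfsg.M24, u • o = unmask 0x149f ∧ u x = pt 5 :=
    ⟨u2 * u1, Cfsg.M24.mul_mem hu2 hu1, by rw [mul_smul, hu1o, hu2o]; rfl, hu2x⟩
  have key : ∀ n s, (s ∈ Cfsg.octads ∧ x ∉ s ∧ (o ∩ s).card = n) ↔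
      (u • s ∈ CS ∧ ∀ c ∈ [(0xFFFFFF, 8), (32, 0), (0x149f, n)], (unmask c.1 ∩ u • s).card = c.2) := by
    intro n s
    rw [oct_iff hu, pnmem_iff (i := 5) (m := 32) (by norm_num) rfl hux, inter_eq huo']
    simp only [List.forall_mem_cons, List.not_mem_nil, false_imp_iff, implies_true, and_true, and_assoc]
  refine ⟨?_, ?_, ?_, ?_⟩
  · rw [ncard_smul_transfer u (Q := fun t => t ∈ CS ∧ ∀ c ∈ [(0xFFFFFF, 8), (32, 0), (0x149f, 0)],
      (unmask c.1 ∩ t).card = c.2) (key 0), ncard_conds _ (by simp), cntB_0]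
  · rw [ncard_smul_transfer u (Q := fun t => t ∈ CS ∧ ∀ c ∈ [(0xFFFFFF, 8), (32, 0), (0x149f, 4)],
      (unmask c.1 ∩ t).card = c.2) (key 4), ncard_conds _ (by simp), cntB_4]
  · rw [ncard_smul_transfer u (Q := fun t => t ∈ CS ∧ ∀ c ∈ [(0xFFFFFF, 8), (32, 0), (0x149f, 2)],
      (unmask c.1 ∩ t).card = c.2) (key 2), ncard_conds _ (by simp), cntB_2]
  · intro o' o'' ho' ho'' hx' hx'' h
    have fam : ∀ s, s ∈ Cfsg.octads → x ∉ s →
        (u • s ∈ CS ∧ ∀ c ∈ [(0xFFFFFF, 8), (32, 0)], (unmask c.1 ∩ u • s).card = c.2) := by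
      intro s hs hxs
      rw [oct_iff hu] at hs
      rw [pnmem_iff (i := 5) (m := 32) (by norm_num) rfl hux] at hxs
      simp only [List.forall_mem_cons, List.not_mem_nil, false_imp_iff, implies_true, and_true]
      exact ⟨hs.1, hs.2, hxs⟩
    obtain ⟨g, hg, hgs⟩ := pair_trans gensB orbB (by simp) (by norm_num) (fam o' ho' hx')
      (fam o'' ho'' hx'') (by rw [← inter_eq huo', ← inter_eq huo', h])
    have h1 : g (pt 5) = pt 5 := fix_of_smul (i := 5) (m := 32) (by norm_num) rfl (hg.2 32 (by simp))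
    have h2 : g • unmask 0x149f = unmask 0x149f := hg.2 _ (by simp)
    obtain ⟨g', hg', hy, hab⟩ := conj_back (y := (x, o)) hu hg.1 (by
      show (g • u • x, g • u • o) = (u • x, u • o)
      rw [huo', h2, show u • x = pt 5 from hux, show g • pt 5 = pt 5 from h1]) hgs
    rw [Prod.smul_mk, Prod.mk.injEq] at hy
    exact ⟨g', hg', hy.1, hy.2, hab⟩

end Cfsg.Agent.S1608
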