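import Cfsg.Statements.S1611
import Mathlib
import Mathlib
import Cfsg.Agent.S1610
import Cfsg.Agent.Lib.Helper11.HexMono
import Cfsg.Agent.Lib.Helper11.HexMonoC0
import Cfsg.Agent.Lib.Helper11.HexMonoC1
import Cfsg.Agent.Lib.Helper11.HexMonoC2
import Cfsg.Agent.Lib.Helper11.HexMonoC3
import Cfsg.Agent.Lib.Helper11.HexMonoC4
import Cfsg.Agent.Lib.Helper11.HexMonoC5
-- import your own Cfsg.Agent.* helpers here

set_option autoImplicit false
open Cfsg

namespace Cfsg.Agent.S1611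

open Cfsg.Agent.S1610 Cfsg.Agent.Lib.Helper11.Hex

set_option maxRecDepth 100000
set_option linter.constructorNameAsVariable false
set_option linter.unusedSectionVars false

theorem big (σ : Equiv.Perm (Fin 6)) :
    (good σ).card = if Equiv.Perm.sign σ = 1 then 3 else 0 := by
  rcases (show σ 0 = 0 ∨ σ 0 = 1 ∨ σ 0 = 2 ∨ σ 0 = 3 ∨ σ 0 = 4 ∨ σ 0 = 5 by
    generalize σ 0 = a; revert a; decide) with h | h | h | h | h | h
  · exact big0 σ h
  · exact big1 σ h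
  · exact big2 σ h
  · exact big3 σ h
  · exact big4 σ h
  · exact big5 σ h

theorem M1 : ∀ a b : Fin 4, b ≠ 0 → div4 (mul4 a b) b = a := by decide
theorem M2 : ∀ a b : Fin 4, b ≠ 0 → mul4 (div4 a b) b = a := by decide
theorem M3 : ∀ k : Fin 6, B1 k ≠ 0 := by decide
theorem M4 : ∀ a b : Fin 4, a ≠ 0 → b ≠ 0 → mul4 a b ≠ 0 := by decide
theorem M4' : ∀ a b : Fin 4, a ≠ 0 → b ≠ 0 → div4 a b ≠ 0 := by decide
theorem M5 : ∀ u : K3, wtK u = 6 ↔ ∀ k, word u k ≠ 0 := by decide +kernel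

theorem sumSign : ∑ σ : Equiv.Perm (Fin 6), (if Equiv.Perm.sign σ = 1 then 3 else 0) = 1080 := by
  decide +kernel

theorem diag : ∀ u ∈ good 1, ∀ i j : Fin 6,
    eOf (1 : Equiv.Perm (Fin 6)).symm u i = eOf (1 : Equiv.Perm (Fin 6)).symm u j := by
  decide +kernel

section
variable {F : Type*} [Field F] [Fintype F] [DecidableEq F] (ω : F)

theorem mono_lin (σ : Equiv.Perm (Fin 6)) (c : Fin 6 → Fˣ) (a b d : F) (x y z : Fin 6 → F) :
    monomialMap σ c (a • x + b • y + d • z) =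
      a • monomialMap σ c x + b • monomialMap σ c y + d • monomialMap σ c z := by
  funext i
  simp only [monomialMap, Pi.add_apply, Pi.smul_apply, smul_eq_mul]
  ring

theorem e1 : (![ω, ω ^ 2, ω ^ 2, ω, ω ^ 2, ω] : Fin 6 → F) = fun k => phi ω (B1 k) := by
  funext k; fin_cases k <;> rfl
theorem e2 : (![ω ^ 2, ω, ω, ω ^ 2, ω ^ 2, ω] : Fin 6 → F) = fun k => phi ω (B2 k) := by
  funext k; fin_cases k <;> rfl
theorem e3 : (![ω ^ 2, ω, ω ^ 2, ω, ω, ω ^ 2] : Fin 6 → F) = fun k => phi ω (B3 k) := by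
  funext k; fin_cases k <;> rfl

theorem L2 (hF : Fintype.card F = 4) (h2 : (2 : F) = 0) (hω : ω ^ 2 + ω + 1 = 0)
    (σ : Equiv.Perm (Fin 6)) (c : Fin 6 → Fˣ) :
    (∀ x ∈ hexacode F ω, monomialMap σ c x ∈ hexacode F ω) ↔
      (monomialMap σ c (fun k => phi ω (B1 k)) ∈ hexacode F ω ∧
        monomialMap σ c (fun k => phi ω (B2 k)) ∈ hexacode F ω ∧
        monomialMap σ c (fun k => phi ω (B3 k)) ∈ hexacode F ω) := by
  constructor
  · intro h
    refine ⟨h _ ?_, h _ ?_, h _ ?_⟩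
    · rw [← e1]; exact Submodule.subset_span (by simp)
    · rw [← e2]; exact Submodule.subset_span (by simp)
    · rw [← e3]; exact Submodule.subset_span (by simp)
  · rintro ⟨h1, h2', h3⟩ x hx
    obtain ⟨u, rfl⟩ := (mem_hex ω hF h2 hω x).1 hx
    rw [Psi_eq ω h2 hω, e1, e2, e3, mono_lin]
    exact Submodule.add_mem _ (Submodule.add_mem _ (Submodule.smul_mem _ _ h1)
      (Submodule.smul_mem _ _ h2')) (Submodule.smul_mem _ _ h3)

theorem L3 (h2 : (2 : F) = 0) (hω : ω ^ 2 + ω + 1 = 0) (σ : Equiv.Perm (Fin 6)) (c : Fin 6 → Fˣ)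
    (e : Fin 6 → Fin 4) (he : ∀ i, (c i : F) = phi ω (e i)) (B : Fin 6 → Fin 4) :
    monomialMap σ c (fun k => phi ω (B k)) = fun i => phi ω (mul4 (e i) (B (σ.symm i))) := by
  funext i
  simp only [monomialMap, he, phi_mul ω h2 hω]

theorem L4 (hF : Fintype.card F = 4) (h2 : (2 : F) = 0) (hω : ω ^ 2 + ω + 1 = 0)
    (y : Fin 6 → Fin 4) : (fun i => phi ω (y i)) ∈ hexacode F ω ↔ isCode y := by
  rw [mem_hex ω hF h2 hω, isCode_iff]
  constructor
  · rintro ⟨u, hu⟩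
    exact ⟨u, funext fun k => phi_inj ω h2 hω (congrFun hu k)⟩
  · rintro ⟨u, rfl⟩
    exact ⟨u, rfl⟩

theorem L5 (hF : Fintype.card F = 4) (h2 : (2 : F) = 0) (hω : ω ^ 2 + ω + 1 = 0)
    (σ : Equiv.Perm (Fin 6)) (c : Fin 6 → Fˣ)
    (e : Fin 6 → Fin 4) (he : ∀ i, (c i : F) = phi ω (e i)) :
    (∀ x ∈ hexacode F ω, monomialMap σ c x ∈ hexacode F ω) ↔ presK σ.symm e := by
  rw [L2 ω hF h2 hω, L3 ω h2 hω σ c e he, L3 ω h2 hω σ c e he, L3 ω h2 hω σ c e he,
    L4 ω hF h2 hω, L4 ω hF h2 hω, L4 ω hF h2 hω]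
  unfold presK
  constructor
  · rintro ⟨h1, h2', h3⟩ j
    fin_cases j
    · exact h1
    · exact h2'
    · exact h3
  · intro h
    exact ⟨h 0, h 1, h 2⟩

theorem C1 (hF : Fintype.card F = 4) (h2 : (2 : F) = 0) (hω : ω ^ 2 + ω + 1 = 0)
    (σ : Equiv.Perm (Fin 6)) (c : Fin 6 → Fˣ)
    (h : ∀ x ∈ hexacode F ω, monomialMap σ c x ∈ hexacode F ω) :
    ∃ u ∈ good σ, ∀ i, (c i : F) = phi ω (eOf σ.symm u i) := by
  choose e he using fun i => phi_surj ω hF h2 hω (c i : F)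
  have he' : ∀ i, (c i : F) = phi ω (e i) := fun i => (he i).symm
  have hne : ∀ i, e i ≠ 0 := by
    intro i h0
    have := he i
    rw [h0] at this
    exact (c i).ne_zero (this.symm.trans ((phi_eq_zero ω hω 0).2 rfl))
  have hp := (L5 ω hF h2 hω σ c e he').1 h
  obtain ⟨u, hu⟩ := (isCode_iff _).1 (hp 0)
  have hu' : ∀ i, word u i = mul4 (e i) (B1 (σ.symm i)) := fun i => congrFun hu i
  have heq : eOf σ.symm u = e := by
    funext i
    rw [eOf, hu', M1 _ _ (M3 _)]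
  refine ⟨u, ?_, fun i => by rw [heq]; exact he' i⟩
  rw [good, Finset.mem_filter]
  refine ⟨Finset.mem_univ _, (M5 u).2 fun k => ?_, by rw [heq]; exact hp⟩
  rw [hu']
  exact M4 _ _ (hne k) (M3 _)

theorem eOf_ne {σ : Equiv.Perm (Fin 6)} {u : K3} (hu : u ∈ good σ) (i : Fin 6) :
    eOf σ.symm u i ≠ 0 := by
  rw [good, Finset.mem_filter] at hu
  exact M4' _ _ ((M5 u).1 hu.2.1 i) (M3 _)

theorem C2 (hF : Fintype.card F = 4) (h2 : (2 : F) = 0) (hω : ω ^ 2 + ω + 1 = 0)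
    (σ : Equiv.Perm (Fin 6)) (c : Fin 6 → Fˣ) (u : K3) (hu : u ∈ good σ)
    (hc : ∀ i, (c i : F) = phi ω (eOf σ.symm u i)) :
    ∀ x ∈ hexacode F ω, monomialMap σ c x ∈ hexacode F ω := by
  rw [L5 ω hF h2 hω σ c _ hc]
  rw [good, Finset.mem_filter] at hu
  exact hu.2.2

/-- the unit with a given label. -/
noncomputable def unitOf (a : Fin 4) : Fˣ :=
  if h : phi ω a = 0 then 1 else Units.mk0 (phi ω a) h

theorem unitOf_val (hω : ω ^ 2 + ω + 1 = 0) {a : Fin 4} (ha : a ≠ 0) :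
    ((unitOf ω a : Fˣ) : F) = phi ω a := by
  have : phi ω a ≠ 0 := fun h => ha ((phi_eq_zero ω hω a).1 h)
  rw [unitOf, dif_neg this]
  rfl

/-- the parametrisation. -/
noncomputable def Lam (p : Σ _ : Equiv.Perm (Fin 6), K3) : Equiv.Perm (Fin 6) × (Fin 6 → Fˣ) :=
  (p.1, fun i => unitOf ω (eOf p.1.symm p.2 i))

theorem count (hF : Fintype.card F = 4) (h2 : (2 : F) = 0) (hω : ω ^ 2 + ω + 1 = 0) :
    {f : Equiv.Perm (Fin 6) × (Fin 6 → Fˣ) |
      ∀ x ∈ hexacode F ω, monomialMap f.1 f.2 x ∈ hexacode F ω}.ncard = 1080 := by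
  have himg : {f : Equiv.Perm (Fin 6) × (Fin 6 → Fˣ) |
      ∀ x ∈ hexacode F ω, monomialMap f.1 f.2 x ∈ hexacode F ω} =
      Lam ω '' ↑((Finset.univ : Finset (Equiv.Perm (Fin 6))).sigma good) := by
    ext f
    simp only [Set.mem_ofPred_eq, Set.mem_image, Finset.mem_coe, Finset.mem_sigma, Finset.mem_univ,
      true_and]
    constructor
    · intro h
      obtain ⟨u, hu, hc⟩ := C1 ω hF h2 hω f.1 f.2 h
      refine ⟨⟨f.1, u⟩, hu, ?_⟩
      refine Prod.ext rfl (funext fun i => Units.ext ?_)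
      show ((unitOf ω (eOf f.1.symm u i) : Fˣ) : F) = _
      rw [unitOf_val ω hω (eOf_ne hu i), hc]
    · rintro ⟨⟨σ, u⟩, hu, rfl⟩
      exact C2 ω hF h2 hω σ _ u hu (fun i => unitOf_val ω hω (eOf_ne hu i))
  have hinj : Set.InjOn (Lam ω (F := F))
      ↑((Finset.univ : Finset (Equiv.Perm (Fin 6))).sigma good) := by
    rintro ⟨σ, u⟩ hu ⟨σ', u'⟩ hu' h
    simp only [Finset.mem_coe, Finset.mem_sigma, Finset.mem_univ, true_and] at hu hu'
    have h1 : σ = σ' := congrArg Prod.fst h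
    subst h1
    have h3 : u = u' := by
      apply word_inj
      funext i
      have h4 : unitOf ω (eOf σ.symm u i) = unitOf ω (eOf σ.symm u' i) :=
        congrFun (congrArg Prod.snd h) i
      have h5 := congrArg (fun z : Fˣ => (z : F)) h4
      simp only [unitOf_val ω hω (eOf_ne hu i), unitOf_val ω hω (eOf_ne hu' i)] at h5
      have h6 := phi_inj ω h2 hω h5
      rw [← M2 (word u i) _ (M3 (σ.symm i)), ← M2 (word u' i) _ (M3 (σ.symm i))]
      exact congrArg (fun z => mul4 z (B1 (σ.symm i))) h6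
    rw [h3]
  rw [himg, Set.InjOn.ncard_image hinj, Set.ncard_coe_finset, Finset.card_sigma,
    Finset.sum_congr rfl (fun σ _ => big σ), sumSign]

end

/-- The monomial automorphism group of the hexacode has order 1080: its diagonal part is the scalars and its permutation parts form the alternating group of degree 6. -/
theorem result (F : Type*) [Field F] [Fintype F] [DecidableEq F] (hF : Fintype.card F = 4) (ω : F) (hω : ω ^ 2 + ω + 1 = 0) : Nat.card {f : Equiv.Perm (Fin 6) × (Fin 6 → Fˣ) // (∀ x ∈ Cfsg.hexacode F ω, Cfsg.monomialMap f.1 f.2 x ∈ Cfsg.hexacode F ω)} = 1080 ∧ (∀ c : Fin 6 → Fˣ, (∀ x ∈ Cfsg.hexacode F ω, Cfsg.monomialMap 1 c x ∈ Cfsg.hexacode F ω) → ∀ i j, c i = c j) ∧ {σ : Equiv.Perm (Fin 6) | ∃ c : Fin 6 → Fˣ, (∀ x ∈ Cfsg.hexacode F ω, Cfsg.monomialMap σ c x ∈ Cfsg.hexacode F ω)} = (alternatingGroup (Fin 6) : Set (Equiv.Perm (Fin 6))) := by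
  have h4 : ((4 : ℕ) : F) = 0 := by rw [← hF]; exact Nat.cast_card_eq_zero F
  have h2 : (2 : F) = 0 := by
    have : (2 : F) * 2 = 0 := by
      have h : ((4 : ℕ) : F) = 2 * 2 := by norm_num
      rw [← h, h4]
    exact mul_self_eq_zero.1 this
  refine ⟨count ω hF h2 hω, ?_, ?_⟩
  · intro c hc i j
    obtain ⟨u, hu, hcu⟩ := C1 ω hF h2 hω 1 c hc
    apply Units.ext
    rw [hcu i, hcu j, diag u hu i j]
  · ext σ
    simp only [Set.mem_ofPred_eq, SetLike.mem_coe, Equiv.Perm.mem_alternatingGroup]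
    have hb := big σ
    constructor
    · rintro ⟨c, hc⟩
      obtain ⟨u, hu, -⟩ := C1 ω hF h2 hω σ c hc
      by_contra hs
      rw [if_neg hs, Finset.card_eq_zero] at hb
      rw [hb] at hu
      exact absurd hu (Finset.notMem_empty u)
    · intro hs
      rw [if_pos hs] at hb
      have hne : (good σ).Nonempty := by
        rw [← Finset.card_pos, hb]; norm_num
      obtain ⟨u, hu⟩ := hne
      exact ⟨fun i => unitOf ω (eOf σ.symm u i),
        C2 ω hF h2 hω σ _ u hu (fun i => unitOf_val ω hω (eOf_ne hu i))⟩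
end Cfsg.Agent.S1611
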