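import Cfsg.Statements.S1629
import Cfsg.Agent.Lib.Helper16.Orth17

set_option autoImplicit false

open Cfsg

namespace Cfsg.Agent.S1629

open Cfsg.Agent.Lib.Helper16

theorem result (m : ℕ) (hm : 3 ≤ m) : Cfsg.IsThreeTranspositionClass {g : ↥(Cfsg.isometryGroup (ZMod 2) (Cfsg.quadFormPlus m (ZMod 2))) | (((g : GL (Fin m ⊕ Fin m) (ZMod 2)) : Matrix (Fin m ⊕ Fin m) (Fin m ⊕ Fin m) (ZMod 2)) - 1).rank = 1} := by
  rw [← qPlus_coe]
  apply three_transp_transfer (bridge (qPlus m (ZMod 2))) _ _ _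
    (three_transp_F2 (qPlus m (ZMod 2)) (by simp) qPlus_nondeg (by rw [finrank_plus]; omega)
      (by rw [finrank_plus]; omega))
  intro g
  exact rank_sub_one_eq_one_iff (qPlus m (ZMod 2)) qPlus_nondeg g

end Cfsg.Agent.S1629
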