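import Cfsg.Statements.S1630
import Cfsg.Agent.Lib.Helper16.Orth17

set_option autoImplicit false

open Cfsg

namespace Cfsg.Agent.S1630

open Cfsg.Agent.Lib.Helper16

theorem result (m : ℕ) (hm : 2 ≤ m) : Cfsg.IsThreeTranspositionClass {g : ↥(Cfsg.isometryGroup (ZMod 2) (Cfsg.quadFormMinus m (ZMod 2) 1 1)) | (((g : GL ((Fin m ⊕ Fin m) ⊕ Fin 2) (ZMod 2)) : Matrix ((Fin m ⊕ Fin m) ⊕ Fin 2) ((Fin m ⊕ Fin m) ⊕ Fin 2) (ZMod 2)) - 1).rank = 1} := by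
  have hab : ∀ z₁ z₂ : ZMod 2, z₁ ^ 2 + 1 * z₁ * z₂ + 1 * z₂ ^ 2 = 0 → z₁ = 0 ∧ z₂ = 0 := by decide
  have hfr : Module.finrank (ZMod 2) ((Fin m ⊕ Fin m) ⊕ Fin 2 → ZMod 2) = 2 * m + 2 := by
    rw [Module.finrank_fintype_fun_eq_card]; simp; ring
  rw [← qMinus_coe]
  apply three_transp_transfer (bridge (qMinus m (ZMod 2) 1 1)) _ _ _
    (three_transp_F2 (qMinus m (ZMod 2) 1 1) (by simp) (qMinus_nondeg 1 1 hab) (by rw [hfr]; omega)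
      (by rw [hfr]; omega))
  intro g
  exact rank_sub_one_eq_one_iff (qMinus m (ZMod 2) 1 1) (qMinus_nondeg 1 1 hab) g

end Cfsg.Agent.S1630
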