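import Cfsg.Statements.S1635
import Mathlib
import Mathlib
import Cfsg.Agent.Lib.Helper3.Golay
import Cfsg.Agent.Lib.Helper11.Golay24Tab
-- import your own Cfsg.Agent.* helpers here

set_option autoImplicit false
open Cfsg

namespace Cfsg.Agent.S1635

open Cfsg.Agent.Lib.Helper3 Cfsg.Agent.Lib.Helper11.G24

theorem add_self2 (u : GolayPt → ZMod 2) : u + u = 0 := by
  funext x
  simp only [Pi.add_apply, Pi.zero_apply]
  generalize u x = a
  revert a; decide

theorem sub_eq_add24 (u v : GolayPt → ZMod 2) : u - v = u + v := by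
  funext x
  simp only [Pi.sub_apply, Pi.add_apply]
  generalize u x = a
  generalize v x = b
  revert a b; decide

theorem norm_eq_pc24 (v : GolayPt → ZMod 2) : hammingNorm v = pc (W v) := by
  rw [← mask_support₂, ← card_eq_pc]
  rfl

theorem W_lt (v : GolayPt → ZMod 2) : W v < 2 ^ 24 := Nat.ofBits_lt_two_pow _

/-- parameters of the light words of a coset. -/
def AA (x : ℕ) : Finset ℕ := (Finset.range 4096).filter (fun c => pc (x ^^^ enc c) ≤ 4)

theorem mem_AA {x c : ℕ} : c ∈ AA x ↔ c < 4096 ∧ pc (x ^^^ enc c) ≤ 4 := by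
  simp only [AA, Finset.mem_filter, Finset.mem_range]

theorem xor_enc_inj {x c d : ℕ} (hc : c < 4096) (hd : d < 4096) (h : x ^^^ enc c = x ^^^ enc d) :
    c = d := by
  have h2 : enc c = enc d := Nat.xor_right_injective h
  rw [← enc_mod c hc, ← enc_mod d hd, h2]

theorem S_image (w : GolayPt → ZMod 2) :
    W '' {v : GolayPt → ZMod 2 | hammingNorm v ≤ 4 ∧ w - v ∈ golayCode} =
      ↑((AA (W w)).image (fun c => W w ^^^ enc c)) := by
  ext z
  simp only [Set.mem_image, Set.mem_ofPred_eq, Finset.coe_image, Finset.mem_coe, mem_AA]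
  constructor
  · rintro ⟨v, ⟨h4, hv⟩, rfl⟩
    rw [sub_eq_add24, mem_golayCode_iff, W_add, inC_iff] at hv
    obtain ⟨c, hc, h⟩ := hv
    have hz : W w ^^^ enc c = W v := by rw [← h, ← Nat.xor_assoc, Nat.xor_self, Nat.zero_xor]
    exact ⟨c, ⟨hc, by rw [hz, ← norm_eq_pc24]; exact h4⟩, hz⟩
  · rintro ⟨c, ⟨hc, h4⟩, rfl⟩
    obtain ⟨g, hg, hgc⟩ := inX_enc c
    refine ⟨w + g, ⟨?_, ?_⟩, ?_⟩
    · rw [norm_eq_pc24, W_add, hgc]; exact h4
    · rw [sub_eq_add24, ← add_assoc, add_self2, zero_add]; exact hg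
    · rw [W_add, hgc]

theorem S_ncard (w : GolayPt → ZMod 2) :
    {v : GolayPt → ZMod 2 | hammingNorm v ≤ 4 ∧ w - v ∈ golayCode}.ncard = (AA (W w)).card := by
  rw [← Set.ncard_image_of_injective _ W_injective, S_image, Set.ncard_coe_finset,
    Finset.card_image_of_injOn]
  intro c hc d hd h
  exact xor_enc_inj (mem_AA.1 hc).1 (mem_AA.1 hd).1 h

theorem pc_xor {a b : ℕ} (ha : a < 2 ^ 24) (hb : b < 2 ^ 24) :
    pc (a ^^^ b) + 2 * pc (a &&& b) = pc a + pc b := by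
  have h : ∀ s t : Finset GolayPt, pc (mask s ^^^ mask t) + 2 * pc (mask s &&& mask t) =
      pc (mask s) + pc (mask t) := by
    intro s t
    rw [← mask_symmDiff, ← mask_inter, ← card_eq_pc, ← card_eq_pc, ← card_eq_pc, ← card_eq_pc]
    have h1 := Finset.card_union_add_card_inter s t
    have h2 : symmDiff s t = (s ∪ t) \ (s ∩ t) := symmDiff_eq_sup_sdiff_inf s t
    have h3 : (s ∩ t) ⊆ s ∪ t := Finset.inter_subset_union
    rw [h2, Finset.card_sdiff_of_subset h3]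
    have h4 := Finset.card_le_card h3
    omega
  have := h (unmask a) (unmask b)
  rwa [mask_unmask ha, mask_unmask hb] at this

theorem min8_aux : allRange (fun c => c == 0 || decide (8 ≤ pc (enc c))) 12 0 = true := by
  decide +kernel

theorem min8 {c : ℕ} (hc : c < 4096) (h0 : c ≠ 0) : 8 ≤ pc (enc c) := by
  have h := forall_lt_of_allRange _ 12 min8_aux c hc
  simp only [Bool.or_eq_true, beq_iff_eq, decide_eq_true_eq] at h
  rcases h with h | h
  · exact absurd h h0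
  · exact h

theorem zlt {x c : ℕ} (hx : x < 2 ^ 24) (hc : c < 4096) : x ^^^ enc c < 2 ^ 24 :=
  Nat.xor_lt_two_pow hx (enc_lt c hc)

theorem pair {x c d : ℕ} (hx : x < 2 ^ 24) (hc : c ∈ AA x) (hd : d ∈ AA x) (hne : c ≠ d) :
    pc (x ^^^ enc c) = 4 ∧ pc (x ^^^ enc d) = 4 ∧ pc ((x ^^^ enc c) &&& (x ^^^ enc d)) = 0 := by
  rw [mem_AA] at hc hd
  have h1 := pc_xor (zlt hx hc.1) (zlt hx hd.1)
  have h2 : (x ^^^ enc c) ^^^ (x ^^^ enc d) = enc (c ^^^ d) := by
    rw [enc_xor, Nat.xor_comm x (enc c), Nat.xor_assoc, ← Nat.xor_assoc x x, Nat.xor_self,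
      Nat.zero_xor]
  have h3 : c ^^^ d ≠ 0 := fun h => hne (Nat.xor_eq_zero_iff.1 h)
  have h4 := min8 (Nat.xor_lt_two_pow (n := 12) hc.1 hd.1) h3
  rw [h2] at h1
  omega

theorem main (x : ℕ) (hx : x < 2 ^ 24) :
    ((AA x).card = 1 ∧ ∃ c ∈ AA x, pc (x ^^^ enc c) ≤ 3) ∨
      ((AA x).card = 6 ∧ ∀ c ∈ AA x, pc (x ^^^ enc c) = 4) := by
  have hc0 : x % 4096 < 4096 := Nat.mod_lt _ (by norm_num)
  obtain ⟨c0, hc0d⟩ : ∃ c0, c0 = x % 4096 := ⟨_, rfl⟩
  rw [← hc0d] at hc0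
  obtain ⟨y, hy⟩ : ∃ y, y = x ^^^ enc c0 := ⟨_, rfl⟩
  have hy0 : y % 4096 = 0 := by
    rw [hy, show (4096 : ℕ) = 2 ^ 12 by norm_num, Nat.xor_mod_two_pow,
      show (2 : ℕ) ^ 12 = 4096 by norm_num, enc_mod c0 hc0, hc0d, Nat.xor_self]
  have hylt : y < 2 ^ 24 := by rw [hy]; exact zlt hx hc0
  obtain ⟨l, hl⟩ := exists_good (y / 4096) (by omega)
  have hyt : 4096 * (y / 4096) = y := by omega
  simp only [good, hyt, Bool.and_eq_true, List.all_eq_true, decide_eq_true_eq, Bool.or_eq_true,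
    beq_iff_eq, List.any_eq_true] at hl
  obtain ⟨⟨hall, hnd⟩, hcase⟩ := hl
  have hz : ∀ d, x ^^^ enc (c0 ^^^ d) = y ^^^ enc d := by
    intro d; rw [enc_xor, ← Nat.xor_assoc, hy]
  have hmem : ∀ d ∈ l, c0 ^^^ d ∈ AA x := by
    intro d hd
    rw [mem_AA]
    exact ⟨Nat.xor_lt_two_pow (n := 12) hc0 (hall d hd).1, by rw [hz]; exact (hall d hd).2⟩
  have huniq : ∀ c ∈ AA x, pc (x ^^^ enc c) ≤ 3 → (AA x).card = 1 := by
    intro c hc h3
    rw [Finset.card_eq_one]
    refine ⟨c, Finset.eq_singleton_iff_unique_mem.2 ⟨hc, fun d hd => ?_⟩⟩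
    by_contra hne
    have := pair hx hc hd (Ne.symm hne)
    omega
  rcases hcase with h6 | ⟨d, hd, h3⟩
  · right
    have hge : 6 ≤ (AA x).card := by
      have hsub : (l.map (fun d => c0 ^^^ d)).toFinset ⊆ AA x := by
        intro c hc
        rw [List.mem_toFinset, List.mem_map] at hc
        obtain ⟨d, hd, rfl⟩ := hc
        exact hmem d hd
      have h2 := Finset.card_le_card hsub
      rw [List.toFinset_card_of_nodup (hnd.map Nat.xor_right_injective), List.length_map, h6] at h2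
      exact h2
    have h4 : ∀ c ∈ AA x, pc (x ^^^ enc c) = 4 := by
      intro c hc
      have h1 : pc (x ^^^ enc c) ≤ 4 := (mem_AA.1 hc).2
      by_contra hne
      have := huniq c hc (by omega)
      omega
    refine ⟨le_antisymm ?_ hge, h4⟩
    have hdisj : (↑(AA x) : Set ℕ).PairwiseDisjoint (fun c => unmask (x ^^^ enc c)) := by
      intro c hc d hd hne
      have h0 := (pair hx hc hd hne).2.2
      show Disjoint (unmask (x ^^^ enc c)) (unmask (x ^^^ enc d))
      rw [Finset.disjoint_iff_inter_eq_empty, ← Finset.card_eq_zero, card_eq_pc, mask_inter,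
        mask_unmask (zlt hx (mem_AA.1 hc).1), mask_unmask (zlt hx (mem_AA.1 hd).1)]
      exact h0
    have hsum := Finset.card_biUnion hdisj
    have hle : ((AA x).biUnion fun c => unmask (x ^^^ enc c)).card ≤ 24 := by
      calc _ ≤ (Finset.univ : Finset GolayPt).card := Finset.card_le_card (Finset.subset_univ _)
        _ = 24 := by decide
    have hs4 : ∑ c ∈ AA x, (unmask (x ^^^ enc c)).card = ∑ c ∈ AA x, 4 := by
      apply Finset.sum_congr rfl
      intro c hc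
      rw [card_eq_pc, mask_unmask (zlt hx (mem_AA.1 hc).1), h4 c hc]
    rw [hs4, Finset.sum_const, smul_eq_mul] at hsum
    omega
  · left
    exact ⟨huniq _ (hmem d hd) (by rw [hz]; exact h3), _, hmem d hd, by rw [hz]; exact h3⟩

/-- Coset leaders of the length-24 code: a coset contains a unique word of weight ≤ 3, or else exactly six words of weight 4 and none lighter. -/
theorem result (w : Cfsg.GolayPt → ZMod 2) : ({v : Cfsg.GolayPt → ZMod 2 | hammingNorm v ≤ 4 ∧ w - v ∈ Cfsg.golayCode}.ncard = 1 ∧ ∃ v : Cfsg.GolayPt → ZMod 2, hammingNorm v ≤ 3 ∧ w - v ∈ Cfsg.golayCode) ∨ ({v : Cfsg.GolayPt → ZMod 2 | hammingNorm v ≤ 4 ∧ w - v ∈ Cfsg.golayCode}.ncard = 6 ∧ ∀ v : Cfsg.GolayPt → ZMod 2, w - v ∈ Cfsg.golayCode → hammingNorm v ≤ 4 → hammingNorm v = 4) := by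
  rw [S_ncard]
  rcases main (W w) (W_lt w) with ⟨h1, c, hc, h3⟩ | ⟨h6, h4⟩
  · left
    refine ⟨h1, ?_⟩
    obtain ⟨g, hg, hgc⟩ := inX_enc c
    exact ⟨w + g, by rw [norm_eq_pc24, W_add, hgc]; exact h3,
      by rw [sub_eq_add24, ← add_assoc, add_self2, zero_add]; exact hg⟩
  · right
    refine ⟨h6, fun v hv hn => ?_⟩
    rw [sub_eq_add24, mem_golayCode_iff, W_add, inC_iff] at hv
    obtain ⟨c, hc, h⟩ := hv
    have hz : W w ^^^ enc c = W v := by rw [← h, ← Nat.xor_assoc, Nat.xor_self, Nat.zero_xor]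
    have hcA : c ∈ AA (W w) := mem_AA.2 ⟨hc, by rw [hz, ← norm_eq_pc24]; exact hn⟩
    rw [norm_eq_pc24, ← hz]
    exact h4 c hcA
end Cfsg.Agent.S1635
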