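import Cfsg.Statements.S1636
import Mathlib
import Mathlib
import Cfsg.Agent.Lib.Helper3.Golay
import Cfsg.Agent.Lib.Helper11.Golay23
-- import your own Cfsg.Agent.* helpers here

set_option autoImplicit false
open Cfsg

namespace Cfsg.Agent.S1636

open Cfsg.Agent.Lib.Helper3 Cfsg.Agent.Lib.Helper11.G23

theorem cnt (n k : ℕ) (h : countRange (fun c => wtIs n (pun c)) 12 0 = k) :
    {u : ZMod 23 → ZMod 2 | u ∈ PN ∧ hammingNorm u = n}.ncard = k := by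
  rw [← h, ← ncard_pun]
  congr 1
  ext u
  simp [wtIs, norm_eq_pc]

theorem cntAll : countRange (fun c => (fun _ => true) (pun c)) 12 0 = 4096 := by decide +kernel

theorem card_PN : PN.ncard = 4096 := by
  have h := ncard_pun (fun _ => true)
  rw [cntAll] at h
  simpa using h

theorem c7 : countRange (fun c => wtIs 7 (pun c)) 12 0 = 253 := by decide +kernel
theorem c8 : countRange (fun c => wtIs 8 (pun c)) 12 0 = 506 := by decide +kernel
theorem c11 : countRange (fun c => wtIs 11 (pun c)) 12 0 = 1288 := by decide +kernel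
theorem c12 : countRange (fun c => wtIs 12 (pun c)) 12 0 = 1288 := by decide +kernel
theorem c15 : countRange (fun c => wtIs 15 (pun c)) 12 0 = 506 := by decide +kernel
theorem c16 : countRange (fun c => wtIs 16 (pun c)) 12 0 = 253 := by decide +kernel

/-- The punctured length-23 code has weight distribution 0^1 7^253 8^506 11^1288 12^1288 15^506 16^253 23^1. -/
theorem result : {u : ZMod 23 → ZMod 2 | ∃ w ∈ Cfsg.golayCode, ∀ x : ZMod 23, u x = w (some x)}.ncard = 4096 ∧ {u : ZMod 23 → ZMod 2 | u ∈ {u : ZMod 23 → ZMod 2 | ∃ w ∈ Cfsg.golayCode, ∀ x : ZMod 23, u x = w (some x)} ∧ hammingNorm u = 7}.ncard = 253 ∧ {u : ZMod 23 → ZMod 2 | u ∈ {u : ZMod 23 → ZMod 2 | ∃ w ∈ Cfsg.golayCode, ∀ x : ZMod 23, u x = w (some x)} ∧ hammingNorm u = 8}.ncard = 506 ∧ {u : ZMod 23 → ZMod 2 | u ∈ {u : ZMod 23 → ZMod 2 | ∃ w ∈ Cfsg.golayCode, ∀ x : ZMod 23, u x = w (some x)} ∧ hammingNorm u = 11}.ncard = 1288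 ∧ {u : ZMod 23 → ZMod 2 | u ∈ {u : ZMod 23 → ZMod 2 | ∃ w ∈ Cfsg.golayCode, ∀ x : ZMod 23, u x = w (some x)} ∧ hammingNorm u = 12}.ncard = 1288 ∧ {u : ZMod 23 → ZMod 2 | u ∈ {u : ZMod 23 → ZMod 2 | ∃ w ∈ Cfsg.golayCode, ∀ x : ZMod 23, u x = w (some x)} ∧ hammingNorm u = 15}.ncard = 506 ∧ {u : ZMod 23 → ZMod 2 | u ∈ {u : ZMod 23 → ZMod 2 | ∃ w ∈ Cfsg.golayCode, ∀ x : ZMod 23, u x = w (some x)} ∧ hammingNorm u = 16}.ncard = 253 ∧ ∀ u ∈ {u : ZMod 23 → ZMod 2 | ∃ w ∈ Cfsg.golayCode, ∀ x : ZMod 23, u x = w (some x)}, u ≠ 0 → 7 ≤ hammingNorm u := by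
  exact ⟨card_PN, cnt 7 253 c7, cnt 8 506 c8, cnt 11 1288 c11, cnt 12 1288 c12, cnt 15 506 c15,
    cnt 16 253 c16, fun u hu h0 => min_wt hu h0⟩
end Cfsg.Agent.S1636
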