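import Cfsg.Statements.S1637
import Mathlib
import Mathlib
import Cfsg.Agent.Lib.Helper3.Golay
import Cfsg.Agent.Lib.Helper11.Golay23
import Cfsg.Agent.Lib.Helper11.Golay23Tab
-- import your own Cfsg.Agent.* helpers here

set_option autoImplicit false
open Cfsg

namespace Cfsg.Agent.S1637

open Cfsg.Agent.Lib.Helper3 Cfsg.Agent.Lib.Helper11.G23

theorem dist_eq (u c : ZMod 23 → ZMod 2) : hammingDist u c = pc (V u ^^^ V c) := by
  rw [dist_eq_norm, norm_eq_pc, V_add]

theorem exists_near (u : ZMod 23 → ZMod 2) : ∃ c ∈ PN, hammingDist u c ≤ 3 := by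
  set x := V u with hx
  have hxlt : x < 8388608 := V_lt u
  have hm : x % 4096 < 4096 := Nat.mod_lt _ (by norm_num)
  set y := x ^^^ pun (x % 4096) with hy
  have hy0 : y % 4096 = 0 := by
    rw [hy, show (4096 : ℕ) = 2 ^ 12 by norm_num, Nat.xor_mod_two_pow,
      show (2 : ℕ) ^ 12 = 4096 by norm_num, pun_mod hm, Nat.xor_self]
  have hylt : y < 8388608 := Nat.xor_lt_two_pow (n := 23) hxlt (pun_lt _)
  have ht : y / 4096 < 2 ^ 11 := by omega
  have hyt : 4096 * (y / 4096) = y := by omega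
  have h := forall_lt_of_allRange _ 11 tab_ok (y / 4096) ht
  simp only [Bool.and_eq_true, decide_eq_true_eq] at h
  rw [hyt] at h
  obtain ⟨h1, h2⟩ := h
  set d := tab.getD (y / 4096) 0 with hd
  have hcd : (x % 4096) ^^^ d < 4096 := Nat.xor_lt_two_pow (n := 12) hm h1
  obtain ⟨v, hv, hvc⟩ := inX_enc ((x % 4096) ^^^ d)
  have hV : V (fun z => v (some z)) = pun ((x % 4096) ^^^ d) := by rw [V_res, hvc]; rfl
  refine ⟨fun z => v (some z), ⟨v, hv, fun _ => rfl⟩, ?_⟩
  rw [dist_eq, hV, pun_xor, ← Nat.xor_assoc]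
  exact h2

/-- The punctured length-23 code is a perfect 3-error-correcting code: each word of length 23 is within distance 3 of exactly one codeword. -/
theorem result (u : ZMod 23 → ZMod 2) : ∃! c : ZMod 23 → ZMod 2, c ∈ {u : ZMod 23 → ZMod 2 | ∃ w ∈ Cfsg.golayCode, ∀ x : ZMod 23, u x = w (some x)} ∧ hammingDist u c ≤ 3 := by
  obtain ⟨c, hc, hd⟩ := exists_near u
  refine ⟨c, ⟨hc, hd⟩, ?_⟩
  rintro c' ⟨hc', hd'⟩
  by_contra hne
  have h1 : c' + c ∈ PN := PN_add hc' hc
  have h2 : c' + c ≠ 0 := by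
    intro h
    apply hne
    rw [← sub_eq_add2, sub_eq_zero] at h
    exact h
  have h3 := min_wt h1 h2
  rw [← dist_eq_norm] at h3
  have h4 := hammingDist_triangle c' u c
  rw [hammingDist_comm c' u] at h4
  omega
end Cfsg.Agent.S1637
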