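import Mathlib
import Cfsg.Statements.S1638
import Cfsg.Agent.Lib.Helper3.PairStab

set_option autoImplicit false
open scoped Pointwise
open Cfsg

namespace Cfsg.Agent.S1638

/-- Fix two points p ≠ q and a pair s of two further points. Among the pairs avoiding p, q and disjoint from s, exactly 30 lie in an octad together with p, q and s and exactly 160 do not; and any two pairs other than s that meet s in equally many points and agree on that octad property are carried to one another by an element of the group of the length-24 code fixing p, q and s. -/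
theorem result (p q : Cfsg.GolayPt) (hpq : p ≠ q) (s : Finset Cfsg.GolayPt) (hs : (s.card = 2 ∧ p ∉ s ∧ q ∉ s)) : {t : Finset Cfsg.GolayPt | (t.card = 2 ∧ p ∉ t ∧ q ∉ t) ∧ Disjoint s t ∧ (∃ o ∈ Cfsg.octads, p ∈ o ∧ q ∈ o ∧ s ∪ t ⊆ o)}.ncard = 30 ∧ {t : Finset Cfsg.GolayPt | (t.card = 2 ∧ p ∉ t ∧ q ∉ t) ∧ Disjoint s t ∧ ¬ (∃ o ∈ Cfsg.octads, p ∈ o ∧ q ∈ o ∧ s ∪ t ⊆ o)}.ncard = 160 ∧ ∀ t t' : Finset Cfsg.GolayPt, (t.card = 2 ∧ p ∉ t ∧ q ∉ t) → (t'.card = 2 ∧ p ∉ t' ∧ q ∉ t') → t ≠ s → t' ≠ s → (s ∩ t).card = (s ∩ t').card → ((∃ o ∈ Cfsg.octads, p ∈ o ∧ q ∈ o ∧ s ∪ t ⊆ o) ↔ (∃ o ∈ Cfsg.octads, p ∈ o ∧ q ∈ o ∧ s ∪ t' ⊆ o)) → ∃ g : Equiv.Perm Cfsg.GolayPt, g ∈ Cfsg.M24 ∧ g p = p ∧ g q = q ∧ g • s = s ∧ g • t = t' := by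
  open Cfsg.Agent.Lib.Helper3 in
  classical
  obtain ⟨hs2, hps, hqs⟩ := hs
  obtain ⟨a, b, hab, rfl⟩ := Finset.card_eq_two.1 hs2
  have hpa : p ≠ a := fun h => hps (by simp [h])
  have hpb : p ≠ b := fun h => hps (by simp [h])
  have hqa : q ≠ a := fun h => hqs (by simp [h])
  have hqb : q ≠ b := fun h => hqs (by simp [h])
  obtain ⟨u, hu, hl, _⟩ := exists_map_list Finset.univ (by decide) [p, q, a, b]
    (by simp [hpq, hpa, hpb, hqa, hqb, hab]) (by simp) (by simp)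
  have hup : u p = pt 0 := hl 0 (by simp)
  have huq : u q = pt 1 := hl 1 (by simp)
  have hua : u a = pt 2 := hl 2 (by simp)
  have hub : u b = pt 3 := hl 3 (by simp)
  have hus : u • ({a, b} : Finset Cfsg.GolayPt) = unmask 12 := by
    have h12 : unmask 12 = {pt 2, pt 3} := by decide
    rw [h12, Finset.smul_finset_insert, Finset.smul_finset_singleton]
    show {u a, u b} = _
    rw [hua, hub]
  have hu4 : u • ({p, q} ∪ {a, b} : Finset Cfsg.GolayPt) = unmask 15 := by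
    have h15 : unmask 15 = {pt 0, pt 1} ∪ unmask 12 := by decide
    rw [h15, Finset.smul_finset_union, hus, Finset.smul_finset_insert, Finset.smul_finset_singleton]
    show {u p, u q} ∪ _ = _
    rw [hup, huq]
  have hav : ∀ t : Finset Cfsg.GolayPt, (p ∉ t ∧ q ∉ t) ↔ mask (unmask 3 ∩ u • t) = 0 := by
    intro t
    rw [mask3_eq_zero_iff, ← hup, ← huq]
    exact and_congr (not_congr (Finset.smul_mem_smul_finset_iff u).symm)
      (not_congr (Finset.smul_mem_smul_finset_iff u).symm)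
  have hint : ∀ t : Finset Cfsg.GolayPt, (({a, b} : Finset Cfsg.GolayPt) ∩ t).card = (unmask 12 ∩ u • t).card := by
    intro t; rw [← hus, card_smul_inter]
  have hoct : ∀ t : Finset Cfsg.GolayPt, (∃ o ∈ Cfsg.octads, p ∈ o ∧ q ∈ o ∧ {a, b} ∪ t ⊆ o) ↔
      (∃ o ∈ Cfsg.octads, unmask 15 ∪ u • t ⊆ o) := by
    intro t
    rw [← hu4, ← Finset.smul_finset_union, exists_octad_smul_iff hu]
    apply exists_congr; intro o
    apply and_congr_right; intro _
    constructor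
    · rintro ⟨h1, h2, h3⟩
      intro x hx
      simp only [Finset.mem_union, Finset.mem_insert, Finset.mem_singleton] at hx
      rcases hx with ((rfl | rfl) | (rfl | rfl)) | hx
      · exact h1
      · exact h2
      · exact h3 (by simp)
      · exact h3 (by simp)
      · exact h3 (by simp [hx])
    · intro h
      refine ⟨h (by simp), h (by simp), ?_⟩
      intro x hx
      apply h
      simp only [Finset.mem_union, Finset.mem_insert, Finset.mem_singleton] at hx ⊢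
      tauto
  have hcls : ∀ t : Finset Cfsg.GolayPt, clsT4 (mask (u • t)) = 8 * mask (unmask 3 ∩ u • t) +
      2 * (({a, b} : Finset Cfsg.GolayPt) ∩ t).card +
      (if ∃ o ∈ Cfsg.octads, p ∈ o ∧ q ∈ o ∧ {a, b} ∪ t ⊆ o then 1 else 0) := by
    intro t
    rw [clsT4_eq, hint]
    congr 1
    exact if_congr (hoct t).symm rfl rfl
  have hdis : ∀ t : Finset Cfsg.GolayPt, Disjoint ({a, b} : Finset Cfsg.GolayPt) t ↔
      (({a, b} : Finset Cfsg.GolayPt) ∩ t).card = 0 := by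
    intro t
    rw [Finset.card_eq_zero, Finset.disjoint_iff_inter_eq_empty]
  have key1 : ∀ t : Finset Cfsg.GolayPt, ((t.card = 2 ∧ p ∉ t ∧ q ∉ t) ∧ Disjoint ({a, b} : Finset Cfsg.GolayPt) t ∧
      (∃ o ∈ Cfsg.octads, p ∈ o ∧ q ∈ o ∧ {a, b} ∪ t ⊆ o)) ↔
      ((u • t).card = 2 ∧ clsT4 (mask (u • t)) = 1) := by
    intro t
    rw [hcls, hdis, hav, Finset.card_smul_finset]
    by_cases h : ∃ o ∈ Cfsg.octads, p ∈ o ∧ q ∈ o ∧ {a, b} ∪ t ⊆ o
    · rw [if_pos h]
      constructor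
      · rintro ⟨⟨h1, h2⟩, h3, _⟩; exact ⟨h1, by omega⟩
      · rintro ⟨h1, h2⟩; exact ⟨⟨h1, by omega⟩, by omega, h⟩
    · rw [if_neg h]
      constructor
      · rintro ⟨_, _, h3⟩; exact absurd h3 h
      · rintro ⟨h1, h2⟩; omega
  have key0 : ∀ t : Finset Cfsg.GolayPt, ((t.card = 2 ∧ p ∉ t ∧ q ∉ t) ∧ Disjoint ({a, b} : Finset Cfsg.GolayPt) t ∧
      ¬ (∃ o ∈ Cfsg.octads, p ∈ o ∧ q ∈ o ∧ {a, b} ∪ t ⊆ o)) ↔
      ((u • t).card = 2 ∧ clsT4 (mask (u • t)) = 0) := by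
    intro t
    rw [hcls, hdis, hav, Finset.card_smul_finset]
    by_cases h : ∃ o ∈ Cfsg.octads, p ∈ o ∧ q ∈ o ∧ {a, b} ∪ t ⊆ o
    · rw [if_pos h]
      constructor
      · rintro ⟨_, _, h3⟩; exact absurd h h3
      · rintro ⟨h1, h2⟩; omega
    · rw [if_neg h]
      constructor
      · rintro ⟨⟨h1, h2⟩, h3, _⟩; exact ⟨h1, by omega⟩
      · rintro ⟨h1, h2⟩; exact ⟨⟨h1, by omega⟩, by omega, h⟩
  refine ⟨?_, ?_, ?_⟩
  · rw [ncard_smul_transfer u (Q := fun V => V.card = 2 ∧ clsT4 (mask V) = 1) key1, ncard_clsT4, cntT4_1]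
  · rw [ncard_smul_transfer u (Q := fun V => V.card = 2 ∧ clsT4 (mask V) = 0) key0, ncard_clsT4, cntT4_0]
  · intro t t' ht ht' _ _ hc hiff
    have e : clsT4 (mask (u • t)) = clsT4 (mask (u • t')) := by
      rw [hcls, hcls, (hav t).1 ht.2, (hav t').1 ht'.2, hc]
      congr 1
      exact if_congr hiff rfl rfl
    obtain ⟨g, hg, hgs⟩ := pair_trans4 (V := u • t) (V' := u • t')
      (by rw [Finset.card_smul_finset, ht.1]) (by rw [Finset.card_smul_finset, ht'.1]) e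
    have h0 : g (pt 0) = pt 0 := fix_of_smul (i := 0) (m := 1) (by norm_num) rfl (hg.2 1 (by simp))
    have h1 : g (pt 1) = pt 1 := fix_of_smul (i := 1) (m := 2) (by norm_num) rfl (hg.2 2 (by simp))
    have h2 : g • unmask 12 = unmask 12 := hg.2 _ (by simp)
    obtain ⟨g', hg', hy, hab'⟩ := conj_back (y := (p, q, ({a, b} : Finset Cfsg.GolayPt))) hu hg.1 (by
      show (g • u • p, g • u • q, g • u • ({a, b} : Finset Cfsg.GolayPt)) = (u • p, u • q, u • ({a, b} : Finset Cfsg.GolayPt))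
      rw [hus, h2, show u • p = pt 0 from hup, show g • pt 0 = pt 0 from h0,
        show u • q = pt 1 from huq, show g • pt 1 = pt 1 from h1]) hgs
    rw [Prod.smul_mk, Prod.smul_mk, Prod.mk.injEq, Prod.mk.injEq] at hy
    exact ⟨g', hg', hy.1, hy.2.1, hy.2.2, hab'⟩

end Cfsg.Agent.S1638
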