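import Mathlib
import Cfsg.Statements.S1639
import Cfsg.Agent.Lib.Helper3.RankData
import Cfsg.Agent.Lib.Helper3.M12Chain

set_option autoImplicit false
open scoped Pointwise
open Cfsg

namespace Cfsg.Agent.S1639

/-- The point stabiliser acts on the 1288 dodecads through the point with rank 4 and subdegrees 1, 165, 330, 792, distinguished by intersection 4, 8, 6 with the fixed dodecad. -/
theorem result (x : Cfsg.GolayPt) (d : Finset Cfsg.GolayPt) (hd : d ∈ Cfsg.dodecads) (hx : x ∈ d) : {d' : Finset Cfsg.GolayPt | d' ∈ Cfsg.dodecads ∧ x ∈ d' ∧ (d ∩ d').card = 4}.ncard = 165 ∧ {d' : Finset Cfsg.GolayPt | d' ∈ Cfsg.dodecads ∧ x ∈ d' ∧ (d ∩ d').card = 8}.ncard = 330 ∧ {d' : Finset Cfsg.GolayPt | d' ∈ Cfsg.dodecads ∧ x ∈ d' ∧ (d ∩ d').card = 6}.ncard = 792 ∧ ∀ d' d'' : Finset Cfsg.GolayPt, d' ∈ Cfsg.dodecads → d'' ∈ Cfsg.dodecads → x ∈ d' → x ∈ d'' → (d ∩ d').card = (d ∩ d'').card → ∃ g : Equiv.Perm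 Cfsg.GolayPt, g ∈ Cfsg.M24 ∧ g x = x ∧ g • d = d ∧ g • d' = d'' := by
  open Cfsg.Agent.Lib.Helper3 in
  obtain ⟨u1, hu1, hu1d⟩ := dodecad_to_D0 hd
  have hx1 : (allow12 0).testBit (idx (u1 x)) = true := by
    have : u1 x ∈ D0 := by rw [← hu1d]; exact Finset.smul_mem_smul_finset hx
    rwa [D0, mem_unmask] at this
  obtain ⟨u2, hu2, hu2d, _, hu2x⟩ := level12_spec 0 (by norm_num) _ hx1
  obtain ⟨u, hu, hud', hux⟩ : ∃ u ∈ Cfsg.M24, u • d = unmask 0x5335f ∧ u x = pt 0 :=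
    ⟨u2 * u1, Cfsg.M24.mul_mem hu2 hu1, by rw [mul_smul, hu1d, hu2d]; rfl, hu2x⟩
  have key : ∀ n s, (s ∈ Cfsg.dodecads ∧ x ∈ s ∧ (d ∩ s).card = n) ↔
      (u • s ∈ CS ∧ ∀ c ∈ [(0xFFFFFF, 12), (1, 1), (0x5335f, n)], (unmask c.1 ∩ u • s).card = c.2) := by
    intro n s
    rw [dod_iff hu, pmem_iff (i := 0) (m := 1) (by norm_num) rfl hux, inter_eq hud']
    simp only [List.forall_mem_cons, List.not_mem_nil, false_imp_iff, implies_true, and_true, and_assoc]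
  refine ⟨?_, ?_, ?_, ?_⟩
  · rw [ncard_smul_transfer u (Q := fun t => t ∈ CS ∧ ∀ c ∈ [(0xFFFFFF, 12), (1, 1), (0x5335f, 4)],
      (unmask c.1 ∩ t).card = c.2) (key 4), ncard_conds _ (by simp), cntE_4]
  · rw [ncard_smul_transfer u (Q := fun t => t ∈ CS ∧ ∀ c ∈ [(0xFFFFFF, 12), (1, 1), (0x5335f, 8)],
      (unmask c.1 ∩ t).card = c.2) (key 8), ncard_conds _ (by simp), cntE_8]
  · rw [ncard_smul_transfer u (Q := fun t => t ∈ CS ∧ ∀ c ∈ [(0xFFFFFF, 12), (1, 1), (0x5335f, 6)],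
      (unmask c.1 ∩ t).card = c.2) (key 6), ncard_conds _ (by simp), cntE_6]
  · intro d' d'' hd' hd'' hx' hx'' h
    have fam : ∀ s, s ∈ Cfsg.dodecads → x ∈ s →
        (u • s ∈ CS ∧ ∀ c ∈ [(0xFFFFFF, 12), (1, 1)], (unmask c.1 ∩ u • s).card = c.2) := by
      intro s hs hxs
      rw [dod_iff hu] at hs
      rw [pmem_iff (i := 0) (m := 1) (by norm_num) rfl hux] at hxs
      simp only [List.forall_mem_cons, List.not_mem_nil, false_imp_iff, implies_true, and_true]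
      exact ⟨hs.1, hs.2, hxs⟩
    obtain ⟨g, hg, hgs⟩ := pair_trans gensE orbE (by simp) (by norm_num) (fam d' hd' hx')
      (fam d'' hd'' hx'') (by rw [← inter_eq hud', ← inter_eq hud', h])
    have h1 : g (pt 0) = pt 0 := fix_of_smul (i := 0) (m := 1) (by norm_num) rfl (hg.2 1 (by simp))
    have h2 : g • unmask 0x5335f = unmask 0x5335f := hg.2 _ (by simp)
    obtain ⟨g', hg', hy, hab⟩ := conj_back (y := (x, d)) hu hg.1 (by
      show (g • u • x, g • u • d) = (u • x, u • d)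
      rw [hud', h2, show u • x = pt 0 from hux, show g • pt 0 = pt 0 from h1]) hgs
    rw [Prod.smul_mk, Prod.mk.injEq] at hy
    exact ⟨g', hg', hy.1, hy.2, hab⟩

end Cfsg.Agent.S1639
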