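import Cfsg.Statements.S1642
import Mathlib
import Cfsg.Agent.Lib.Helper11.LevelThms2
-- import your own Cfsg.Agent.* helpers here

set_option autoImplicit false
open Cfsg

namespace Cfsg.Agent.S1642

open Cfsg.Agent.Lib.Helper11

theorem zfacts (v w : ↥leechLattice) (hv : sqNorm v.1 = 48) (hw : sqNorm w.1 = 48)
    (hvw : dotInt v.1 w.1 = -32) : sqNorm (v + w).1 = 32 ∧ dotInt v.1 (v + w).1 = zot 0 := by
  have e : (v + w).1 = v.1 + w.1 := rfl
  constructor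
  · rw [e, ← dotInt_self, dotInt_add_left, dotInt_comm v.1, dotInt_comm w.1, dotInt_add_left,
      dotInt_add_left, dotInt_self, dotInt_self, hv, hw, dotInt_comm w.1, hvw]
    norm_num
  · rw [e, dotInt_comm, dotInt_add_left, dotInt_self, hv, dotInt_comm, hvw]
    decide

theorem key (v w : ↥leechLattice) :
    {x : ↥Cfsg.leechLattice | Cfsg.sqNorm (x : Cfsg.GolayPt → ℤ) = 32 ∧ Cfsg.dotInt (v : Cfsg.GolayPt → ℤ) (x : Cfsg.GolayPt → ℤ) = 24 ∧ Cfsg.dotInt (w : Cfsg.GolayPt → ℤ) (x : Cfsg.GolayPt → ℤ) = -24} =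
      {x : ↥leechLattice | sqNorm x.1 = 32 ∧ dotInt v.1 x.1 = hat 0 ∧ dotInt (v + w).1 x.1 = hat 1} := by
  have e : (v + w).1 = v.1 + w.1 := rfl
  ext x
  constructor
  · rintro ⟨a, b, c⟩
    refine ⟨a, b, ?_⟩
    rw [e, dotInt_add_left, b, c]
    decide
  · rintro ⟨a, b, c⟩
    refine ⟨a, b, ?_⟩
    have b' : dotInt v.1 x.1 = 24 := b
    have c' : dotInt (v + w).1 x.1 = 0 := c
    rw [e, dotInt_add_left, b'] at c'
    omega

theorem fixw (g : ↥Co0) (v w : ↥leechLattice) (h1 : g • v = v) (h2 : g • (v + w) = v + w) :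
    g • w = w := by
  rw [Co0_add, h1] at h2
  exact add_left_cancel h2


/-- Some involution of the Higman–Sims group acts without fixed points on its 100 points. -/
theorem result (v w : ↥Cfsg.leechLattice) (hv : Cfsg.sqNorm (v : Cfsg.GolayPt → ℤ) = 48) (hw : Cfsg.sqNorm (w : Cfsg.GolayPt → ℤ) = 48) (hvw : Cfsg.dotInt (v : Cfsg.GolayPt → ℤ) (w : Cfsg.GolayPt → ℤ) = -32) : ∃ g : ↥Cfsg.Co0, g • v = v ∧ g • w = w ∧ orderOf g = 2 ∧ ∀ x ∈ {x : ↥Cfsg.leechLattice | Cfsg.sqNorm (x : Cfsg.GolayPt → ℤ) = 32 ∧ Cfsg.dotInt (v : Cfsg.GolayPt → ℤ) (x : Cfsg.GolayPt → ℤ) = 24 ∧ Cfsg.dotInt (w : Cfsg.GolayPt → ℤ) (x : Cfsg.GolayPt → ℤ) = -24}, g • x ≠ x := by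
  obtain ⟨z1, z2⟩ := zfacts v w hv hw hvw
  obtain ⟨h, hh⟩ := chH_base2 (sel3 v (v + w) v) hv z1 z2
  rw [key v w]
  have fixb : ∀ r < 2, hsInv • (h • sel3 v (v + w) v r) = h • sel3 v (v + w) v r := by
    intro r hr
    apply Subtype.ext
    show mAct _ (h • sel3 v (v + w) v r).1 = _
    rw [hh r hr]
    exact hsInv_fix r hr
  have hmove : ∀ x ∈ {x : ↥leechLattice | sqNorm x.1 = 32 ∧ dotInt v.1 x.1 = hat 0 ∧
      dotInt (v + w).1 x.1 = hat 1}, (h⁻¹ * hsInv * h) • x ≠ x := by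
    rintro x ⟨a, b, c⟩ hc
    rw [mul_smul, mul_smul, inv_smul_eq_iff] at hc
    have e : ∀ r < 2, dotInt (bvec chH r) (h • x).1 = dotInt (sel3 v (v + w) v r).1 x.1 := by
      intro r hr
      rw [← hh r hr, Co0_dot]
    exact hsInv_move (h • x).2 (by rw [Co0_sqNorm]; exact a)
      (forall_lt_two.2 ⟨(e 0 (by norm_num)).trans b, (e 1 (by norm_num)).trans c⟩)
      (congrArg Subtype.val hc)
  have g1 : (h⁻¹ * hsInv * h) • v = v := by
    rw [mul_smul, mul_smul]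
    have := fixb 0 (by norm_num)
    rw [show hsInv • h • v = h • v from this, inv_smul_smul]
  have g2 : (h⁻¹ * hsInv * h) • (v + w) = v + w := by
    rw [mul_smul, mul_smul]
    have := fixb 1 (by norm_num)
    rw [show hsInv • h • (v + w) = h • (v + w) from this, inv_smul_smul]
  refine ⟨h⁻¹ * hsInv * h, g1, fixw _ v w g1 g2, ?_, hmove⟩
  apply orderOf_eq_prime
  · have : (h⁻¹ * hsInv * h) ^ 2 = h⁻¹ * (hsInv * hsInv) * h := by
      rw [pow_two]; simp only [mul_assoc, mul_inv_cancel_left]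
    rw [this, hsInv_sq, mul_one, inv_mul_cancel]
  · intro hc
    have hne : {x : ↥leechLattice | sqNorm x.1 = 32 ∧ dotInt v.1 x.1 = hat 0 ∧
        dotInt (v + w).1 x.1 = hat 1}.Nonempty := by
      apply Set.nonempty_of_ncard_ne_zero
      rw [(chH_count2 v (v + w) hv z1 z2).trans ha_cnt]
      norm_num
    obtain ⟨x, hx⟩ := hne
    apply hmove x hx
    rw [hc, one_smul]

end Cfsg.Agent.S1642
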