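import Cfsg.Statements.S1691
import Mathlib

set_option autoImplicit false
open Cfsg

namespace Cfsg.Agent.S1691

open Cfsg.Spor Cfsg.Spor.Fi24

abbrev Rels : Set (FreeGroup Gen) := coxRelators edges ∪ {r | r ∈ extra}

theorem sign_rel : ∀ r ∈ Rels, FreeGroup.lift (fun _ : Gen => (-1 : ℤˣ)) r = 1 := by
  intro r hr
  rcases hr with ⟨x, -, y, -, rfl⟩ | hr
  · simp
  · simp only [extra, Set.mem_setOf_eq, List.mem_cons, List.not_mem_nil, or_false] at hr
    rcases hr with rfl | rfl
    · simp only [map_mul, map_inv, map_pow, FreeGroup.lift_apply_of]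
      decide
    · simp only [map_mul, map_inv, map_pow, FreeGroup.lift_apply_of]
      decide

noncomputable def sgn : Fi24 →* ℤˣ := PresentedGroup.toGroup (f := fun _ : Gen => (-1 : ℤˣ)) sign_rel

noncomputable def q (x : Gen) : Abelianization Fi24 := Abelianization.of (PresentedGroup.of x)

theorem mem_nodes (x : Gen) : x ∈ coxNodes edges := by
  cases x <;> decide

theorem q_rel (x y : Gen) : (q x * q y) ^ coxLabel edges x y = 1 := by
  have h : (PresentedGroup.mk Rels ((FreeGroup.of x * FreeGroup.of y) ^ coxLabel edges x y)) = 1 :=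
    PresentedGroup.one_of_mem (Or.inl ⟨x, mem_nodes x, y, mem_nodes y, rfl⟩)
  have h2 := congrArg (Abelianization.of (G := Fi24)) h
  rw [map_one, map_pow, map_pow, map_mul, map_mul] at h2
  exact h2

theorem q_sq (x : Gen) : q x * q x = 1 := by
  have := q_rel x x
  have e : coxLabel edges x x = 1 := by simp [coxLabel]
  rwa [e, pow_one] at this

theorem q_eq {x y : Gen} (h : coxLabel edges x y = 3) : q x = q y := by
  have h1 := q_rel x y
  rw [h, mul_pow] at h1
  have hx : q x ^ 3 = q x := by rw [pow_succ, pow_two, q_sq, one_mul]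
  have hy : q y ^ 3 = q y := by rw [pow_succ, pow_two, q_sq, one_mul]
  rw [hx, hy] at h1
  calc q x = q x * (q y * q y) := by rw [q_sq, mul_one]
    _ = q y := by rw [← mul_assoc, h1, one_mul]

theorem q_all (x : Gen) : q x = q Gen.d := by
  have hc : q Gen.c = q Gen.d := q_eq (by decide)
  have hb : q Gen.b = q Gen.c := q_eq (by decide)
  have ha : q Gen.a = q Gen.b := q_eq (by decide)
  have hk : q Gen.k = q Gen.a := q_eq (by decide)
  have hl : q Gen.l = q Gen.k := q_eq (by decide)
  have he : q Gen.d = q Gen.e := q_eq (by decide)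
  have hf : q Gen.e = q Gen.f := q_eq (by decide)
  have hg : q Gen.f = q Gen.g := q_eq (by decide)
  have hj : q Gen.g = q Gen.j := q_eq (by decide)
  have hh : q Gen.d = q Gen.h := q_eq (by decide)
  have hi : q Gen.h = q Gen.i := q_eq (by decide)
  cases x
  · rw [hl, hk, ha, hb, hc]
  · rw [hk, ha, hb, hc]
  · rw [ha, hb, hc]
  · rw [hb, hc]
  · rw [hc]
  · rfl
  · rw [← he]
  · rw [← hf, ← he]
  · rw [← hg, ← hf, ← he]
  · rw [← hj, ← hg, ← hf, ← he]
  · rw [← hh]
  · rw [← hi, ← hh]

/-- The commutator subgroup of the presented group Fi₂₄ has index 2 (the presented group is Fi₂₄′:2 with Fi₂₄′ its derived subgroup). -/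
theorem result : (commutator Cfsg.Spor.Fi24).index = 2 := by
  have htop : Subgroup.zpowers (q Gen.d) = ⊤ := by
    have h1 : Subgroup.closure (Set.range (PresentedGroup.of (rels := Rels))) = ⊤ :=
      PresentedGroup.closure_range_of Rels
    have h2 := congrArg (Subgroup.map (Abelianization.of (G := Fi24))) h1
    have hsurj : Function.Surjective (Abelianization.of (G := Fi24)) :=
      QuotientGroup.mk'_surjective _
    rw [MonoidHom.map_closure, Subgroup.map_top_of_surjective _ hsurj] at h2
    rw [eq_top_iff, ← h2, Subgroup.closure_le]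
    rintro _ ⟨_, ⟨x, rfl⟩, rfl⟩
    have : Abelianization.of (PresentedGroup.of (rels := Rels) x) = q Gen.d := q_all x
    rw [this]
    exact Subgroup.mem_zpowers _
  have hne : q Gen.d ≠ 1 := by
    intro h
    have h1 := congrArg (Abelianization.lift sgn) h
    rw [map_one] at h1
    have h2 : Abelianization.lift sgn (q Gen.d) = -1 := by
      unfold q
      rw [Abelianization.lift_apply_of]
      exact PresentedGroup.toGroup.of sign_rel
    rw [h2] at h1
    exact absurd h1 (by decide)
  have hord : orderOf (q Gen.d) = 2 := orderOf_eq_prime (by rw [pow_two, q_sq]) hne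
  have : (commutator Cfsg.Spor.Fi24).index = Nat.card (Abelianization Fi24) := rfl
  rw [this, ← Subgroup.card_top, ← htop, Nat.card_zpowers, hord]

end Cfsg.Agent.S1691
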