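import Cfsg.Statements.S1694
import Cfsg.Agent.Lib.Helper19.OrdSuz.Main
import Cfsg.Agent.Lib.Helper19.OrdSuz.Z
import Cfsg.Agent.Lib.Helper19.OrdSuz.NY
import Cfsg.Agent.Lib.Helper19.OrdSuz.Q0
import Cfsg.Agent.Lib.Helper19.OrdSuz.Q1

set_option autoImplicit false
set_option maxRecDepth 1000000
open Cfsg

namespace Cfsg.Agent.S1694

open Cfsg.Agent.Lib.Helper19.TCS (evn evn_rot evn_rev evn_pair AllS forall_of_allS lift_rels mk_eq_lift cox_swap shapeI prod_rep index_of_equiv orbit_ncard orbit_image ncard_interval fix_of_closure RC)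
open Cfsg.Agent.Lib.Helper19.TC2
open Cfsg.Spor Cfsg.Agent.Lib.Helper19.PresSuz
open Cfsg.Spor.Suz
open Cfsg.Agent.Lib.Helper19 Cfsg.Agent.Lib.Helper19.OrdSuz

theorem faith : ∀ x : Cfsg.Spor.Suz, Suzb.ψ x = 1 → x = 1 :=
  faithful_of_two' Suzb.ψ Suzc.ψ Suzc.z Suzc.HH Suzc.hfix CX.trans CX.coatom (fun x hY hX => joint x hX hY)
    ⟨0, by decide⟩ ⟨9, by decide⟩ (trans2 _ _ CY.trans _ _) (by rw [HH_eq]; exact NY.nontrans)

theorem hlt : ∀ k < 7, ∀ i < Suzb.cB.N, fB Suzb.cB k i < Suzb.cB.N := fB_lt Suzb.hOK gen num_gen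

theorem hA : ∀ i < Suzb.cB.N, app Suzb.cB [1, 2, 3, 2, 3, 5, 1, 2, 3, 2, 3, 5, 1, 2, 3, 2, 3, 5, 1, 2, 3, 2, 3, 5, 1, 2, 3, 2, 3, 5, 1, 2, 3, 2, 3, 5, 1, 2, 3, 2, 3, 5] i = Z.fT i := Z.tA

theorem hltT : ∀ i < Suzb.cB.N, app Suzb.cB [1, 2, 3, 2, 3, 5, 1, 2, 3, 2, 3, 5, 1, 2, 3, 2, 3, 5, 1, 2, 3, 2, 3, 5, 1, 2, 3, 2, 3, 5, 1, 2, 3, 2, 3, 5, 1, 2, 3, 2, 3, 5] i < Suzb.cB.N := app_lt _ (fun k hk => hlt k (by revert k; decide))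

theorem cm0 : evn el [0] * evn el [1, 2, 3, 2, 3, 5, 1, 2, 3, 2, 3, 5, 1, 2, 3, 2, 3, 5, 1, 2, 3, 2, 3, 5, 1, 2, 3, 2, 3, 5, 1, 2, 3, 2, 3, 5, 1, 2, 3, 2, 3, 5] = evn el [1, 2, 3, 2, 3, 5, 1, 2, 3, 2, 3, 5, 1, 2, 3, 2, 3, 5, 1, 2, 3, 2, 3, 5, 1, 2, 3, 2, 3, 5, 1, 2, 3, 2, 3, 5, 1, 2, 3, 2, 3, 5] ^ 1 * evn el [0] := by
  rw [pow_one]
  exact (evn_append el _ _).symm.trans ((eq_of_app (L := 7) Suzb.ψ Suzb.hψ faith _ _ (by decide) (by decide)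
    (comm_tableW Z.fT [1, 2, 3, 2, 3, 5, 1, 2, 3, 2, 3, 5, 1, 2, 3, 2, 3, 5, 1, 2, 3, 2, 3, 5, 1, 2, 3, 2, 3, 5, 1, 2, 3, 2, 3, 5, 1, 2, 3, 2, 3, 5] [0] hA (app_lt _ (fun k hk => hlt k (by revert k; decide))) Z.tB0)).trans
      (evn_append el _ _))

theorem cm1 : evn el [1] * evn el [1, 2, 3, 2, 3, 5, 1, 2, 3, 2, 3, 5, 1, 2, 3, 2, 3, 5, 1, 2, 3, 2, 3, 5, 1, 2, 3, 2, 3, 5, 1, 2, 3, 2, 3, 5, 1, 2, 3, 2, 3, 5] = evn el [1, 2, 3, 2, 3, 5, 1, 2, 3, 2, 3, 5, 1, 2, 3, 2, 3, 5, 1, 2, 3, 2, 3, 5, 1, 2, 3, 2, 3, 5, 1, 2, 3, 2, 3, 5, 1, 2, 3, 2, 3, 5] ^ 1 * evn el [1] := by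
  rw [pow_one]
  exact (evn_append el _ _).symm.trans ((eq_of_app (L := 7) Suzb.ψ Suzb.hψ faith _ _ (by decide) (by decide)
    (comm_tableW Z.fT [1, 2, 3, 2, 3, 5, 1, 2, 3, 2, 3, 5, 1, 2, 3, 2, 3, 5, 1, 2, 3, 2, 3, 5, 1, 2, 3, 2, 3, 5, 1, 2, 3, 2, 3, 5, 1, 2, 3, 2, 3, 5] [1] hA (app_lt _ (fun k hk => hlt k (by revert k; decide))) Z.tB1)).trans
      (evn_append el _ _))

theorem cm2 : evn el [2] * evn el [1, 2, 3, 2, 3, 5, 1, 2, 3, 2, 3, 5, 1, 2, 3, 2, 3, 5, 1, 2, 3, 2, 3, 5, 1, 2, 3, 2, 3, 5, 1, 2, 3, 2, 3, 5, 1, 2, 3, 2, 3, 5] = evn el [1, 2, 3, 2, 3, 5, 1, 2, 3, 2, 3, 5, 1, 2, 3, 2, 3, 5, 1, 2, 3, 2, 3, 5, 1, 2, 3, 2, 3, 5, 1, 2, 3, 2, 3, 5, 1, 2, 3, 2, 3, 5] ^ 1 * evn el [2] := by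
  rw [pow_one]
  exact (evn_append el _ _).symm.trans ((eq_of_app (L := 7) Suzb.ψ Suzb.hψ faith _ _ (by decide) (by decide)
    (comm_tableW Z.fT [1, 2, 3, 2, 3, 5, 1, 2, 3, 2, 3, 5, 1, 2, 3, 2, 3, 5, 1, 2, 3, 2, 3, 5, 1, 2, 3, 2, 3, 5, 1, 2, 3, 2, 3, 5, 1, 2, 3, 2, 3, 5] [2] hA (app_lt _ (fun k hk => hlt k (by revert k; decide))) Z.tB2)).trans
      (evn_append el _ _))

theorem cm3 : evn el [3] * evn el [1, 2, 3, 2, 3, 5, 1, 2, 3, 2, 3, 5, 1, 2, 3, 2, 3, 5, 1, 2, 3, 2, 3, 5, 1, 2, 3, 2, 3, 5, 1, 2, 3, 2, 3, 5, 1, 2, 3, 2, 3, 5] = evn el [1, 2, 3, 2, 3, 5, 1, 2, 3, 2, 3, 5, 1, 2, 3, 2, 3, 5, 1, 2, 3, 2, 3, 5, 1, 2, 3, 2, 3, 5, 1, 2, 3, 2, 3, 5, 1, 2, 3, 2, 3, 5] ^ 2 * evn el [3] := by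
  rw [pow_two, mul_assoc]
  have h := (evn_append el _ _).symm.trans ((eq_of_app (L := 7) Suzb.ψ Suzb.hψ faith _ _ (by decide) (by decide)
    (inv_tableW Z.fT [1, 2, 3, 2, 3, 5, 1, 2, 3, 2, 3, 5, 1, 2, 3, 2, 3, 5, 1, 2, 3, 2, 3, 5, 1, 2, 3, 2, 3, 5, 1, 2, 3, 2, 3, 5, 1, 2, 3, 2, 3, 5] [3] hA (app_lt _ (fun k hk => hlt k (by revert k; decide))) hltT Z.tB3)).trans
      (evn_append el _ _))
  rwa [evn_append] at h

theorem cm4 : evn el [5] * evn el [1, 2, 3, 2, 3, 5, 1, 2, 3, 2, 3, 5, 1, 2, 3, 2, 3, 5, 1, 2, 3, 2, 3, 5, 1, 2, 3, 2, 3, 5, 1, 2, 3, 2, 3, 5, 1, 2, 3, 2, 3, 5] = evn el [1, 2, 3, 2, 3, 5, 1, 2, 3, 2, 3, 5, 1, 2, 3, 2, 3, 5, 1, 2, 3, 2, 3, 5, 1, 2, 3, 2, 3, 5, 1, 2, 3, 2, 3, 5, 1, 2, 3, 2, 3, 5] ^ 1 * evn el [5] := by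
  rw [pow_one]
  exact (evn_append el _ _).symm.trans ((eq_of_app (L := 7) Suzb.ψ Suzb.hψ faith _ _ (by decide) (by decide)
    (comm_tableW Z.fT [1, 2, 3, 2, 3, 5, 1, 2, 3, 2, 3, 5, 1, 2, 3, 2, 3, 5, 1, 2, 3, 2, 3, 5, 1, 2, 3, 2, 3, 5, 1, 2, 3, 2, 3, 5, 1, 2, 3, 2, 3, 5] [5] hA (app_lt _ (fun k hk => hlt k (by revert k; decide))) Z.tB4)).trans
      (evn_append el _ _))

theorem cm5 : evn el [6] * evn el [1, 2, 3, 2, 3, 5, 1, 2, 3, 2, 3, 5, 1, 2, 3, 2, 3, 5, 1, 2, 3, 2, 3, 5, 1, 2, 3, 2, 3, 5, 1, 2, 3, 2, 3, 5, 1, 2, 3, 2, 3, 5] = evn el [1, 2, 3, 2, 3, 5, 1, 2, 3, 2, 3, 5, 1, 2, 3, 2, 3, 5, 1, 2, 3, 2, 3, 5, 1, 2, 3, 2, 3, 5, 1, 2, 3, 2, 3, 5, 1, 2, 3, 2, 3, 5] ^ 1 * evn el [6] := by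
  rw [pow_one]
  exact (evn_append el _ _).symm.trans ((eq_of_app (L := 7) Suzb.ψ Suzb.hψ faith _ _ (by decide) (by decide)
    (comm_tableW Z.fT [1, 2, 3, 2, 3, 5, 1, 2, 3, 2, 3, 5, 1, 2, 3, 2, 3, 5, 1, 2, 3, 2, 3, 5, 1, 2, 3, 2, 3, 5, 1, 2, 3, 2, 3, 5, 1, 2, 3, 2, 3, 5] [6] hA (app_lt _ (fun k hk => hlt k (by revert k; decide))) Z.tB5)).trans
      (evn_append el _ _))

theorem cjAll : ∀ w ∈ Suzb.sgw, ∀ a ∈ Subgroup.zpowers (evn el [1, 2, 3, 2, 3, 5, 1, 2, 3, 2, 3, 5, 1, 2, 3, 2, 3, 5, 1, 2, 3, 2, 3, 5, 1, 2, 3, 2, 3, 5, 1, 2, 3, 2, 3, 5, 1, 2, 3, 2, 3, 5]), evn el w * a * (evn el w)⁻¹ ∈ Subgroup.zpowers (evn el [1, 2, 3, 2, 3, 5, 1, 2, 3, 2, 3, 5, 1, 2, 3, 2, 3, 5, 1, 2, 3, 2, 3, 5, 1, 2, 3, 2, 3, 5, 1, 2, 3, 2, 3, 5, 1, 2, 3, 2, 3, 5]) :=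
  forall_of_allS (l := Suzb.sgw) ⟨conj_zpowers 1 cm0, conj_zpowers 1 cm1, conj_zpowers 1 cm2, conj_zpowers 2 cm3, conj_zpowers 1 cm4, conj_zpowers 1 cm5, trivial⟩

theorem sqAll : ∀ w ∈ Suzb.sgw, evn el w * evn el w = 1 :=
  forall_of_allS (l := Suzb.sgw) ⟨by simp only [evn_single]; exact el_sq _, by simp only [evn_single]; exact el_sq _, by simp only [evn_single]; exact el_sq _, by simp only [evn_single]; exact el_sq _, by simp only [evn_single]; exact el_sq _, by simp only [evn_single]; exact el_sq _, trivial⟩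

theorem hAn : ∀ h ∈ Suzb.HH, ∀ a ∈ Subgroup.zpowers (evn el [1, 2, 3, 2, 3, 5, 1, 2, 3, 2, 3, 5, 1, 2, 3, 2, 3, 5, 1, 2, 3, 2, 3, 5, 1, 2, 3, 2, 3, 5, 1, 2, 3, 2, 3, 5, 1, 2, 3, 2, 3, 5]), h * a * h⁻¹ ∈ Subgroup.zpowers (evn el [1, 2, 3, 2, 3, 5, 1, 2, 3, 2, 3, 5, 1, 2, 3, 2, 3, 5, 1, 2, 3, 2, 3, 5, 1, 2, 3, 2, 3, 5, 1, 2, 3, 2, 3, 5, 1, 2, 3, 2, 3, 5]) := by
  rw [Suzb.hH]
  apply normalizes_of_gens
  · intro s hs
    obtain ⟨w, hw, rfl⟩ := Suzb.h1 s hs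
    exact sqAll w hw
  · intro s hs
    obtain ⟨w, hw, rfl⟩ := Suzb.h1 s hs
    exact cjAll w hw

theorem hcox (x y : ℕ) : (el x * el y) ^ coxLabel edges (gen x) (gen y) = 1 :=
  TCS.of_cox edges extra (node _) (node _)

theorem hperf : commutator Cfsg.Spor.Suz = ⊤ := by
  have sq : ∀ k, Abelianization.of (el k) * Abelianization.of (el k) = 1 := fun k => by
    rw [← map_mul, el_sq, map_one]
  have e0 : Abelianization.of (el 0) = Abelianization.of (el 0) := rfl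
  have e3 : Abelianization.of (el 3) = Abelianization.of (el 3) := rfl
  have e1 : Abelianization.of (el 1) = Abelianization.of (el 0) :=
    (ab_eq_of_odd (sq 1) (sq 0) 2 (by rw [← map_mul, ← map_pow]; exact (congrArg _ (hcox 1 0)).trans (map_one _))).trans e0
  have e2 : Abelianization.of (el 2) = Abelianization.of (el 0) :=
    (ab_eq_of_odd (sq 2) (sq 1) 1 (by rw [← map_mul, ← map_pow]; exact (congrArg _ (hcox 2 1)).trans (map_one _))).trans e1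
  have e5 : Abelianization.of (el 5) = Abelianization.of (el 0) :=
    (ab_eq_of_odd (sq 5) (sq 1) 1 (by rw [← map_mul, ← map_pow]; exact (congrArg _ (hcox 5 1)).trans (map_one _))).trans e1
  have e6 : Abelianization.of (el 6) = Abelianization.of (el 0) :=
    (ab_eq_of_odd (sq 6) (sq 1) 1 (by rw [← map_mul, ← map_pow]; exact (congrArg _ (hcox 6 1)).trans (map_one _))).trans e1
  have e4 : Abelianization.of (el 4) = Abelianization.of (el 3) :=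
    (ab_eq_of_odd (sq 4) (sq 3) 1 (by rw [← map_mul, ← map_pow]; exact (congrArg _ (hcox 4 3)).trans (map_one _))).trans e3
  have all1 : ∀ k < 7, (fun k => decide (k ∈ [0, 1, 2, 5, 6])) k = true → Abelianization.of (el k) = Abelianization.of (el 0) := by
    intro k hk hp
    interval_cases k
    · exact e0
    · exact e1
    · exact e2
    · exact absurd hp (by decide)
    · exact absurd hp (by decide)
    · exact e5
    · exact e6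
  have all2 : ∀ k < 7, (fun k => decide (k ∈ [0, 1, 2, 5, 6])) k = false → Abelianization.of (el k) = Abelianization.of (el 3) := by
    intro k hk hp
    interval_cases k
    · exact absurd hp (by decide)
    · exact absurd hp (by decide)
    · exact absurd hp (by decide)
    · exact e3
    · exact e4
    · exact absurd hp (by decide)
    · exact absurd hp (by decide)
  have h1 : Abelianization.of (el 0) = 1 := by
    have h2 := congrArg Abelianization.of xg0_one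
    rw [evn_hom, map_one, evn_count2 _ (Abelianization.of (el 0)) (Abelianization.of (el 3)) (fun k => decide (k ∈ [0, 1, 2, 5, 6])) _
      (fun k hk => all1 k (by revert k; decide)) (fun k hk => all2 k (by revert k; decide))] at h2
    have n1 : (xg0.map num).countP (fun k => decide (k ∈ [0, 1, 2, 5, 6])) = 2 * 2 + 1 := by decide
    have n2 : (xg0.map num).countP (fun k => !(fun k => decide (k ∈ [0, 1, 2, 5, 6])) k) = 2 * 2 := by decide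
    rw [n1, n2, pow_even_one (sq 3), mul_one] at h2
    exact one_of_odd_pow (sq 0) 2 h2
  have h3 : Abelianization.of (el 3) = 1 := by
    have h2 := congrArg Abelianization.of xg4_one
    rw [evn_hom, map_one, evn_count2 _ (Abelianization.of (el 0)) (Abelianization.of (el 3)) (fun k => decide (k ∈ [0, 1, 2, 5, 6])) _
      (fun k hk => all1 k (by revert k; decide)) (fun k hk => all2 k (by revert k; decide))] at h2
    have n2 : (xg4.map num).countP (fun k => !(fun k => decide (k ∈ [0, 1, 2, 5, 6])) k) = 2 * 16 + 1 := by decide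
    rw [h1, one_pow, one_mul, n2] at h2
    exact one_of_odd_pow (sq 3) 16 h2
  apply perfect_of_gens _ (PresentedGroup.closure_range_of _)
  rintro _ ⟨x, rfl⟩
  cases x
  · exact e0.trans h1
  · exact e1.trans h1
  · exact e2.trans h1
  · exact e3.trans h3
  · exact e4.trans h3
  · exact e5.trans h1
  · exact e6.trans h1

theorem hgen : Subgroup.normalClosure (Subgroup.zpowers (evn el [1, 2, 3, 2, 3, 5, 1, 2, 3, 2, 3, 5, 1, 2, 3, 2, 3, 5, 1, 2, 3, 2, 3, 5, 1, 2, 3, 2, 3, 5, 1, 2, 3, 2, 3, 5, 1, 2, 3, 2, 3, 5]) : Set Cfsg.Spor.Suz) = ⊤ := by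
  apply top_of_comm_quot hperf
  apply comm_of_closure {g | ∃ k ∈ [0, 2, 4, 5], QD.elq k = g}
  · exact top_le_iff.1 (((QD.KKq_top.symm.le).trans Q0.col).trans Q1.col)
  · rintro _ ⟨x, hx, rfl⟩ _ ⟨y, hy, rfl⟩
    simp only [List.mem_cons, List.not_mem_nil, or_false] at hx hy
    rcases hx with rfl | rfl | rfl | rfl <;> rcases hy with rfl | rfl | rfl | rfl <;>
      first | rfl | exact comm_of_sq (QD.elq_sq _) (QD.elq_sq _) (QD.hcoxq _ _)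

theorem simple : IsSimpleGroup Cfsg.Spor.Suz :=
  haveI := nontrivial_of_card card_eq (by decide)
  simple_of_iwasawa Suzb.ψ Suzb.z faith CY.trans Suzb.HH (Subgroup.zpowers (evn el [1, 2, 3, 2, 3, 5, 1, 2, 3, 2, 3, 5, 1, 2, 3, 2, 3, 5, 1, 2, 3, 2, 3, 5, 1, 2, 3, 2, 3, 5, 1, 2, 3, 2, 3, 5, 1, 2, 3, 2, 3, 5])) Suzb.hfix CY.coatom
    inferInstance hAn hgen hperf

/-- The presented sporadic Suzuki group is simple of the expected order (that is, it is a simple group of the order of the sporadic Suzuki group). -/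
theorem result : Cfsg.IsSuz Cfsg.Spor.Suz := by
  exact ⟨simple, card_eq⟩

end Cfsg.Agent.S1694
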