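import Cfsg.Statements.S1717
import Cfsg.Agent.Lib.Helper10.TransvC

set_option autoImplicit false
open Cfsg

namespace Cfsg.Agent.S1717

/-- Let G be a finite group with an involution z whose centraliser C is isomorphic to the centraliser of a transvection of SL(5, 2). Then a Sylow 2-subgroup of C, viewed in G, is a Sylow 2-subgroup of G (its index in G is odd). -/
theorem result {G : Type*} [Group G] [Finite G] (s : Matrix.SpecialLinearGroup (Fin 5) (ZMod 2)) (hs : (s : Matrix (Fin 5) (Fin 5) (ZMod 2)) = Matrix.transvection 0 1 1) (z : G) (hz : orderOf z = 2) (e : (Subgroup.centralizer ({z} : Set G)) ≃* Subgroup.centralizer ({s} : Set (Matrix.SpecialLinearGroup (Fin 5) (ZMod 2)))) (T : Sylow 2 (Subgroup.centralizer ({z} : Set G))) : ¬ 2 ∣ ((T : Subgroup (Subgroup.centralizer ({z} : Set G))).map (Subgroup.subtype (Subgroup.centralizer ({z} : Set G)))).index := by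
  classical
  have hz1 : z ≠ 1 := by
    rintro rfl
    simp at hz
  have hQn : (((Lib.Helper10.TransvC.phi s hs).ker).comap e.toMonoidHom).Normal :=
    (MonoidHom.normal_ker _).comap _
  have hQ'p : IsPGroup 2 (((Lib.Helper10.TransvC.phi s hs).ker).comap e.toMonoidHom) :=
    (Lib.Helper10.TransvC.isPGroup_ker s hs).comap_of_injective e.toMonoidHom e.injective
  have hQT : ((Lib.Helper10.TransvC.phi s hs).ker).comap e.toMonoidHom ≤ T :=
    hQ'p.le_sylow_of_normal T
  have hzmem : z ∈ Subgroup.centralizer ({z} : Set G) :=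
    Subgroup.mem_centralizer_singleton_iff.2 rfl
  have hzc : ∀ c : Subgroup.centralizer ({z} : Set G),
      c * (⟨z, hzmem⟩ : Subgroup.centralizer ({z} : Set G)) = ⟨z, hzmem⟩ * c :=
    fun c => Subtype.ext (Subgroup.mem_centralizer_singleton_iff.1 c.2)
  have hez : ((e ⟨z, hzmem⟩ : Subgroup.centralizer
      ({s} : Set (Matrix.SpecialLinearGroup (Fin 5) (ZMod 2)))) :
      Matrix.SpecialLinearGroup (Fin 5) (ZMod 2)) = s := by
    rcases Lib.Helper10.TransvC.central_of_commQ s hs (e ⟨z, hzmem⟩) (fun q _ => by
      have h1 := congrArg e (hzc (e.symm q))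
      simpa using h1) with h | h
    · exfalso
      have h2 : (⟨z, hzmem⟩ : Subgroup.centralizer ({z} : Set G)) = 1 :=
        e.injective (by rw [h, map_one])
      exact hz1 (congrArg Subtype.val h2)
    · exact h
  have hzT : (⟨z, hzmem⟩ : Subgroup.centralizer ({z} : Set G)) ∈ T := by
    apply hQT
    show e ⟨z, hzmem⟩ ∈ (Lib.Helper10.TransvC.phi s hs).ker
    obtain ⟨q, hq, hqm⟩ := Lib.Helper10.TransvC.tvQ s hs 0 1 (by decide) (by decide) (by decide)
      (Or.inl rfl)
    have : e ⟨z, hzmem⟩ = q := by
      apply Subtype.ext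
      rw [hez]
      apply Subtype.ext
      rw [hqm, hs]
    rw [this]
    exact hq
  apply Lib.Helper10.TransvC.sylow_of_center z hz1 T ⟨_, hzT, rfl⟩
  intro w hw hcw
  rcases Lib.Helper10.TransvC.central_of_commQ s hs (e w) (fun q hq => by
      have hq' : e.symm q ∈ T := hQT (by
        show e (e.symm q) ∈ (Lib.Helper10.TransvC.phi s hs).ker
        simpa using hq)
      have h1 := congrArg e (hcw _ hq')
      simpa using h1) with h | h
  · left
    exact e.injective (by rw [h, map_one])
  · right
    have h2 : e w = e ⟨z, hzmem⟩ := Subtype.ext (h.trans hez.symm)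
    exact congrArg Subtype.val (e.injective h2)

end Cfsg.Agent.S1717
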