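import Cfsg.Statements.S1755
import Mathlib
import Cfsg.Agent.Lib.Helper9.UniqP
import Cfsg.Agent.Lib.Helper10.Components

set_option autoImplicit false
open Cfsg

namespace Cfsg.Agent.S1755

open Cfsg.Agent.Lib.Helper9 Cfsg.Agent.Lib.Helper10

/-- in a cyclic group two involutions coincide -/
theorem cyc_invol_unique {T : Type*} [Group T] [Finite T] [IsCyclic T] (a b : T) (ha : orderOf a = 2)
    (hb : orderOf b = 2) : a = b := by
  have h := cyc_mem_zpowers (p := 2) (by norm_num) a b ha (by rw [← hb, pow_orderOf_eq_one])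
  obtain ⟨k, hk⟩ := Subgroup.mem_zpowers_iff.1 h
  have ha2 : a ^ (2 : ℤ) = 1 := by
    have : a ^ 2 = 1 := by rw [← ha, pow_orderOf_eq_one]
    exact_mod_cast this
  rcases Int.even_or_odd' k with ⟨m, hm | hm⟩
  · exfalso
    rw [hm, zpow_mul, ha2, one_zpow] at hk
    rw [← hk, orderOf_one] at hb
    omega
  · rw [hm, zpow_add, zpow_mul, ha2, one_zpow, one_mul, zpow_one] at hk
    exact hk


theorem aux {G : Type*} [Group G] [Finite G] (z : G) (hz : orderOf z = 2) (C : Subgroup G)
    (hC : C = Subgroup.centralizer ({z} : Set G)) (Q : Subgroup C)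
    (hQdef : Q = Cfsg.generalizedFittingSubgroup ↥C) (hQ : Cfsg.IsOfSymplecticType ↥Q)
    (B : Subgroup Q) (hBc : B.Characteristic) (hBa : IsMulCommutative ↥B) (g : G) :
    ((B.map Q.subtype).map C.subtype).map (MulAut.conj g).toMonoidHom = (B.map Q.subtype).map C.subtype ∨
      ((B.map Q.subtype).map C.subtype).map (MulAut.conj g).toMonoidHom ⊓ (B.map Q.subtype).map C.subtype = ⊥ := by
  haveI hQn : Q.Normal := hQdef ▸ genFitting_normal C
  have hzC : z ∈ C := by
    rw [hC, Subgroup.mem_centralizer_singleton_iff]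
  -- z lies in Q and is central in C
  have hzcent : ∀ c : C, c * (⟨z, hzC⟩ : C) = ⟨z, hzC⟩ * c := by
    intro c
    apply Subtype.ext
    have h0 : (c : G) ∈ Subgroup.centralizer ({z} : Set G) := hC ▸ c.2
    rw [Subgroup.mem_centralizer_singleton_iff] at h0
    exact h0
  have hzQ : (⟨z, hzC⟩ : C) ∈ Q := by
    rw [hQdef]
    apply centralizer_genFitting_le C
    rw [← hQdef, Subgroup.mem_centralizer_iff]
    intro q _
    exact hzcent q
  haveI hBcyc : IsCyclic B := hQ.2 B hBc hBa
  haveI hZcyc : IsCyclic (Subgroup.center Q) := hQ.2 _ inferInstance inferInstance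
  haveI hBn : B.Normal := inferInstance
  -- any involution of B equals z
  have key : ∀ y : Q, y ∈ B → orderOf y = 2 → ((y : C) : G) = z := by
    intro y hy hyo
    have hycent : y ∈ Subgroup.center Q := by
      rw [Subgroup.mem_center_iff]
      intro q
      have h1 : q * y * q⁻¹ ∈ B := hBn.conj_mem y hy q
      have h2 : orderOf (q * y * q⁻¹) = 2 := by
        have : q * y * q⁻¹ = MulAut.conj q y := by simp [MulAut.conj_apply]
        rw [this, MulEquiv.orderOf_eq, hyo]
      have h3 := cyc_invol_unique (T := B) ⟨q * y * q⁻¹, h1⟩ ⟨y, hy⟩ (by rw [Subgroup.orderOf_mk, h2])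
        (by rw [Subgroup.orderOf_mk, hyo])
      have h4 : q * y * q⁻¹ = y := congrArg Subtype.val h3
      calc q * y = (q * y * q⁻¹) * q := by group
        _ = y * q := by rw [h4]
    have hzcent' : (⟨⟨z, hzC⟩, hzQ⟩ : Q) ∈ Subgroup.center Q := by
      rw [Subgroup.mem_center_iff]
      intro q
      apply Subtype.ext
      exact hzcent q
    have hzo : orderOf (⟨⟨z, hzC⟩, hzQ⟩ : Q) = 2 := by
      rw [Subgroup.orderOf_mk, Subgroup.orderOf_mk, hz]
    have h5 := cyc_invol_unique (T := Subgroup.center Q) ⟨y, hycent⟩ ⟨_, hzcent'⟩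
      (by rw [Subgroup.orderOf_mk, hyo]) (by rw [Subgroup.orderOf_mk, hzo])
    have h6 : y = ⟨⟨z, hzC⟩, hzQ⟩ := congrArg Subtype.val h5
    rw [h6]
  set B' : Subgroup G := (B.map Q.subtype).map C.subtype with hB'
  have hB'p : IsPGroup 2 B' := ((hQ.1.to_subgroup B).map _).map _
  have key' : ∀ y ∈ B', orderOf y = 2 → y = z := by
    rintro _ ⟨_, ⟨y, hy, rfl⟩, rfl⟩ hyo
    apply key y hy
    simpa [Subgroup.orderOf_coe] using hyo
  by_cases hbot : B'.map (MulAut.conj g).toMonoidHom ⊓ B' = ⊥
  · right; exact hbot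
  · left
    have hp : IsPGroup 2 ↥(B'.map (MulAut.conj g).toMonoidHom ⊓ B') := hB'p.to_le inf_le_right
    have hdvd : 2 ∣ Nat.card ↥(B'.map (MulAut.conj g).toMonoidHom ⊓ B') := by
      rcases hp.card_eq_or_dvd with h1 | h1
      · exact absurd (Subgroup.card_eq_one.mp h1) hbot
      · exact h1
    obtain ⟨⟨y, hy⟩, hyo⟩ := exists_prime_orderOf_dvd_card' 2 hdvd
    rw [Subgroup.orderOf_mk] at hyo
    have e1 : y = z := key' y hy.2 hyo
    obtain ⟨y', hy', hyy'⟩ := hy.1
    have hyy : g * y' * g⁻¹ = y := by simpa [MulAut.conj_apply] using hyy'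
    have hy'o : orderOf y' = 2 := by
      have : g * y' * g⁻¹ = MulAut.conj g y' := by simp [MulAut.conj_apply]
      rw [← hyo, ← hyy, this, MulEquiv.orderOf_eq]
    have e2 : y' = z := key' y' hy' hy'o
    have hgC : g ∈ C := by
      rw [hC, Subgroup.mem_centralizer_singleton_iff]
      rw [e1, e2] at hyy
      calc g * z = (g * z * g⁻¹) * g := by group
        _ = z * g := by rw [hyy]
    haveI hBQn : (B.map Q.subtype).Normal := ConjAct.normal_of_characteristic_of_normal
    have hconj : ∀ (c : C), ∀ x ∈ B', (c : G) * x * (c : G)⁻¹ ∈ B' := by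
      rintro c _ ⟨x, hx, rfl⟩
      exact ⟨c * x * c⁻¹, hBQn.conj_mem x hx c, by simp⟩
    apply le_antisymm
    · rintro _ ⟨x, hx, rfl⟩
      have := hconj ⟨g, hgC⟩ x hx
      simpa [MulAut.conj_apply] using this
    · intro x hx
      refine ⟨g⁻¹ * x * g, ?_, by simp [MulAut.conj_apply, mul_assoc]⟩
      have := hconj ⟨g, hgC⟩⁻¹ x hx
      simpa using this


/-- Let G be a finite group and let z be an involution of G such that Q, the generalized Fitting subgroup of the centralizer C of z, is a 2-group of symplectic type (every characteristic abelian subgroup of Q is cyclic). Let B be a characteristic abelian subgroup of Q, viewed as a subgroup of G. Then for every g in G, the conjugate of B by g either equals B or meets B trivially. -/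
theorem result {G : Type*} [Group G] [Finite G] (z : G) (hz : orderOf z = 2) (hQ : Cfsg.IsOfSymplecticType ↥(Cfsg.generalizedFittingSubgroup ↥(Subgroup.centralizer ({z} : Set G))))
    (B : Subgroup ↥(Cfsg.generalizedFittingSubgroup ↥(Subgroup.centralizer ({z} : Set G)))) (hBc : B.Characteristic) (hBa : IsMulCommutative ↥B) (g : G) :
    ((B.map (Cfsg.generalizedFittingSubgroup ↥(Subgroup.centralizer ({z} : Set G))).subtype).map (Subgroup.centralizer ({z} : Set G)).subtype).map (MulAut.conj g).toMonoidHom =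
        (B.map (Cfsg.generalizedFittingSubgroup ↥(Subgroup.centralizer ({z} : Set G))).subtype).map (Subgroup.centralizer ({z} : Set G)).subtype ∨
      ((B.map (Cfsg.generalizedFittingSubgroup ↥(Subgroup.centralizer ({z} : Set G))).subtype).map (Subgroup.centralizer ({z} : Set G)).subtype).map (MulAut.conj g).toMonoidHom ⊓
        (B.map (Cfsg.generalizedFittingSubgroup ↥(Subgroup.centralizer ({z} : Set G))).subtype).map (Subgroup.centralizer ({z} : Set G)).subtype = ⊥ := by
  exact aux z hz _ rfl _ rfl hQ B hBc hBa g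

end Cfsg.Agent.S1755
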