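import Cfsg.Statements.S1756
-- import your own Cfsg.Agent.* helpers here

set_option autoImplicit false
open Cfsg

namespace Cfsg.Agent.S1756

theorem comm_central {P : Type*} [Group P] (hcomm : commutator P = Subgroup.center P) (a b : P) :
    a * b * a⁻¹ * b⁻¹ ∈ Subgroup.center P := by
  rw [← hcomm]
  exact Subgroup.commutator_mem_commutator (Subgroup.mem_top a) (Subgroup.mem_top b)

/-- `x ↦ [x, h]` as a homomorphism, when commutators are central. -/
def commHom {P : Type*} [Group P] (hcomm : commutator P = Subgroup.center P) (h : P) : P →* P :=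
  MonoidHom.mk' (fun x => x * h * x⁻¹ * h⁻¹) (by
    intro x y
    have hcen := Subgroup.mem_center_iff.mp (comm_central hcomm y h)
    have e1 : y * h * y⁻¹ = (y * h * y⁻¹ * h⁻¹) * h := by group
    calc x * y * h * (x * y)⁻¹ * h⁻¹ = x * (y * h * y⁻¹) * x⁻¹ * h⁻¹ := by group
      _ = x * ((y * h * y⁻¹ * h⁻¹) * h) * x⁻¹ * h⁻¹ := by rw [← e1]
      _ = (x * (y * h * y⁻¹ * h⁻¹)) * h * x⁻¹ * h⁻¹ := by group
      _ = ((y * h * y⁻¹ * h⁻¹) * x) * h * x⁻¹ * h⁻¹ := by rw [hcen x]
      _ = (y * h * y⁻¹ * h⁻¹) * (x * h * x⁻¹ * h⁻¹) := by group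
      _ = (x * h * x⁻¹ * h⁻¹) * (y * h * y⁻¹ * h⁻¹) := (hcen _).symm)

theorem index_centralizer_le {P : Type*} [Group P] [Finite P]
    (hcomm : commutator P = Subgroup.center P) (hcard : Nat.card (Subgroup.center P) = 2) (h : P) :
    (Subgroup.centralizer ({h} : Set P)).index ≤ 2 := by
  have hk : (commHom hcomm h).ker = Subgroup.centralizer ({h} : Set P) := by
    ext x
    rw [MonoidHom.mem_ker, Subgroup.mem_centralizer_singleton_iff]
    show x * h * x⁻¹ * h⁻¹ = 1 ↔ _
    constructor
    · intro e
      have : x * h = h * x := by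
        calc x * h = (x * h * x⁻¹ * h⁻¹) * (h * x) := by group
          _ = h * x := by rw [e, one_mul]
      exact this
    · intro e
      rw [e]; group
  rw [← hk, Subgroup.index_ker, ← hcard]
  apply Subgroup.card_le_of_le
  rintro _ ⟨x, rfl⟩
  exact comm_central hcomm x h

theorem key {P : Type*} [Group P] [Finite P]
    (hcomm : commutator P = Subgroup.center P) (hcard : Nat.card (Subgroup.center P) = 2)
    (S : Finset P) :
    (Subgroup.centralizer ((Subgroup.center P ⊔ Subgroup.closure (S : Set P) : Subgroup P) : Set P)).index * 2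
      ≤ Nat.card (Subgroup.center P ⊔ Subgroup.closure (S : Set P) : Subgroup P) := by
  classical
  induction S using Finset.induction_on with
  | empty =>
    have : Subgroup.centralizer ((Subgroup.center P : Subgroup P) : Set P) = ⊤ :=
      Subgroup.centralizer_eq_top_iff_subset.mpr (fun x hx => hx)
    simp [this, hcard]
  | insert h S _ ih =>
    set H := Subgroup.center P ⊔ Subgroup.closure (S : Set P) with hH
    have hH' : Subgroup.center P ⊔ Subgroup.closure ((insert h S : Finset P) : Set P)
        = H ⊔ Subgroup.closure {h} := by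
      rw [Finset.coe_insert, Set.insert_eq, Subgroup.closure_union, hH, sup_assoc,
        sup_comm (Subgroup.closure {h})]
    rw [hH']
    by_cases hh : h ∈ H
    · have : H ⊔ Subgroup.closure {h} = H := by
        apply sup_eq_left.mpr
        rw [Subgroup.closure_le]
        intro x hx
        rw [Set.mem_singleton_iff] at hx
        subst hx; exact hh
      rw [this]; exact ih
    · have hle : H ≤ H ⊔ Subgroup.closure {h} := le_sup_left
      have hne : Nat.card H ≠ Nat.card (H ⊔ Subgroup.closure {h} : Subgroup P) := by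
        intro e
        have := Subgroup.eq_of_le_of_card_ge hle e.ge
        apply hh
        rw [this]
        exact (le_sup_right : Subgroup.closure {h} ≤ H ⊔ Subgroup.closure {h})
          (Subgroup.subset_closure (Set.mem_singleton h))
      obtain ⟨k, hk⟩ := Subgroup.card_dvd_of_le hle
      have hpos : 0 < Nat.card (H ⊔ Subgroup.closure {h} : Subgroup P) := Nat.card_pos
      have hk2 : 2 ≤ k := by
        rcases k with _ | _ | k
        · simp at hk; omega
        · simp at hk; omega
        · omega
      have hc : Subgroup.centralizer (H : Set P) ⊓ Subgroup.centralizer ({h} : Set P) ≤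
          Subgroup.centralizer ((H ⊔ Subgroup.closure {h} : Subgroup P) : Set P) := by
        rw [Subgroup.le_centralizer_iff]
        apply sup_le
        · rw [Subgroup.le_centralizer_iff]; exact inf_le_left
        · rw [Subgroup.closure_le]
          intro x hx
          rw [Set.mem_singleton_iff] at hx
          subst hx
          rw [SetLike.mem_coe, Subgroup.mem_centralizer_iff]
          intro g hg
          have := Subgroup.mem_centralizer_singleton_iff.mp (Subgroup.mem_inf.mp hg).2
          exact this
      have h1 : (Subgroup.centralizer ((H ⊔ Subgroup.closure {h} : Subgroup P) : Set P)).index ≤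
          (Subgroup.centralizer (H : Set P)).index * 2 := by
        calc _ ≤ (Subgroup.centralizer (H : Set P) ⊓ Subgroup.centralizer ({h} : Set P)).index :=
              Nat.le_of_dvd (Nat.pos_of_ne_zero Subgroup.index_ne_zero_of_finite)
                (Subgroup.index_dvd_of_le hc)
          _ ≤ (Subgroup.centralizer (H : Set P)).index * (Subgroup.centralizer ({h} : Set P)).index :=
              Subgroup.index_inf_le
          _ ≤ _ := Nat.mul_le_mul_left _ (index_centralizer_le hcomm hcard h)
      calc _ ≤ (Subgroup.centralizer (H : Set P)).index * 2 * 2 := Nat.mul_le_mul_right _ h1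
        _ ≤ Nat.card H * 2 := Nat.mul_le_mul_right _ ih
        _ ≤ Nat.card H * k := Nat.mul_le_mul_left _ hk2
        _ = _ := hk.symm

theorem inner_of_index_two {P : Type*} [Group P] [Finite P]
    (hcomm : commutator P = Subgroup.center P) (hcard : Nat.card (Subgroup.center P) = 2)
    (τ : P ≃* P) (hτ : ∀ x, τ (τ x) = x)
    (F : Subgroup P) (hF : ∀ x, x ∈ F ↔ τ x = x) (hi : F.index ≤ 2) :
    ∃ y : P, ∀ x, τ x = y * x * y⁻¹ := by
  classical
  obtain ⟨⟨z, hzc⟩, hz1, hzu⟩ := (Nat.card_eq_two_iff' (1 : Subgroup.center P)).mp hcard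
  have hz1' : z ≠ 1 := fun e => hz1 (Subtype.ext e)
  have hz : ∀ c ∈ Subgroup.center P, c = 1 ∨ c = z := by
    intro c hc
    by_cases h : c = 1
    · exact Or.inl h
    · right
      have := hzu ⟨c, hc⟩ (fun e => h (congrArg Subtype.val e))
      exact congrArg Subtype.val this
  have hzcen := Subgroup.mem_center_iff.mp hzc
  have hzz : z * z = 1 := by
    rcases hz (z * z) (mul_mem hzc hzc) with h | h
    · exact h
    · exact absurd (mul_eq_left.mp h) hz1'
  -- τ fixes z
  have hτz : τ z = z := by
    have : τ z ∈ Subgroup.center P := by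
      rw [Subgroup.mem_center_iff]
      intro g
      have := hzcen (τ g)
      have h2 := congrArg τ this
      rw [map_mul, map_mul, hτ] at h2
      exact h2
    rcases hz _ this with h | h
    · exact absurd ((map_eq_one_iff τ τ.injective).mp h) hz1'
    · exact h
  have hzF : z ∈ F := (hF z).mpr hτz
  by_cases htop : F = ⊤
  · refine ⟨1, fun x => ?_⟩
    have : x ∈ F := htop ▸ Subgroup.mem_top x
    simpa using (hF x).mp this
  have hi2 : F.index = 2 := by
    have h0 : F.index ≠ 0 := Subgroup.index_ne_zero_of_finite
    have h1 : F.index ≠ 1 := fun e => htop (Subgroup.index_eq_one.mp e)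
    omega
  have hgen : ∀ g c : P, g ∉ F → g * c = c * g → (∀ x ∈ F, x * c = c * x) →
      c ∈ Subgroup.center P := by
    intro g c hg hgc hFc
    rw [Subgroup.mem_center_iff]
    intro x
    by_cases hx : x ∈ F
    · exact hFc x hx
    · have hgi : g⁻¹ ∉ F := fun h => hg (by simpa using inv_mem h)
      have hm : g⁻¹ * x ∈ F := (Subgroup.mul_mem_iff_of_index_two hi2).mpr
        ⟨fun h => absurd h hgi, fun h => absurd h hx⟩
      have h3 := hFc _ hm
      calc x * c = g * ((g⁻¹ * x) * c) := by group
        _ = g * (c * (g⁻¹ * x)) := by rw [h3]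
        _ = (g * c) * (g⁻¹ * x) := by group
        _ = (c * g) * (g⁻¹ * x) := by rw [hgc]
        _ = c * x := by group
  -- τ q = q z off F
  have hq : ∀ q, q ∉ F → τ q = q * z := by
    intro q hqF
    set c := q⁻¹ * τ q with hc
    have hτq : τ q = q * c := by rw [hc]; group
    have hc1 : c ≠ 1 := by
      intro e
      apply hqF
      rw [hF, hτq, e, mul_one]
    -- c centralizes F
    have hcF : ∀ x ∈ F, x * c = c * x := by
      intro x hx
      have hx' := (hF x).mp hx
      have hw := comm_central hcomm x q
      have hwcen := Subgroup.mem_center_iff.mp hw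
      have hτw : τ (x * q * x⁻¹ * q⁻¹) = x * q * x⁻¹ * q⁻¹ := by
        rcases hz _ hw with h | h
        · rw [h, map_one]
        · rw [h, hτz]
      rw [map_mul, map_mul, map_mul, map_inv, map_inv, hx', hτq] at hτw
      have e1 : c * x⁻¹ * c⁻¹ = x⁻¹ := by
        calc c * x⁻¹ * c⁻¹ = (x * q)⁻¹ * (x * (q * c) * x⁻¹ * (q * c)⁻¹) * q := by group
          _ = (x * q)⁻¹ * (x * q * x⁻¹ * q⁻¹) * q := by rw [hτw]
          _ = x⁻¹ := by group
      have e2 : c * x⁻¹ = x⁻¹ * c := by
        calc c * x⁻¹ = (c * x⁻¹ * c⁻¹) * c := by group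
          _ = x⁻¹ * c := by rw [e1]
      calc x * c = x * (c * x⁻¹) * x := by group
        _ = x * (x⁻¹ * c) * x := by rw [e2]
        _ = c * x := by group
    have hτc : τ c = c⁻¹ := by
      have h1 := hτ q
      rw [hτq, map_mul, hτq] at h1
      have h2 : c * τ c = 1 := by
        calc c * τ c = q⁻¹ * (q * c * τ c) := by group
          _ = q⁻¹ * q := by rw [h1]
          _ = 1 := by group
      exact eq_inv_of_mul_eq_one_right h2
    have hqq : c * q * c = q := by
      have h1 := (hF _).mp (Subgroup.mul_self_mem_of_index_two hi2 q)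
      rw [map_mul, hτq] at h1
      calc c * q * c = q⁻¹ * (q * c * (q * c)) := by group
        _ = q⁻¹ * (q * q) := by rw [h1]
        _ = q := by group
    have hcc : c ∈ Subgroup.center P := by
      by_cases hcF' : c ∈ F
      · have h1 := (hF c).mp hcF'
        rw [hτc] at h1
        apply hgen q c hqF _ hcF
        calc q * c = (c * q * c) * c := by rw [hqq]
          _ = c * q * (c * c⁻¹) := by rw [h1]; group
          _ = c * q := by group
      · exact hgen c c hcF' rfl hcF
    rcases hz c hcc with h | h
    · exact absurd h hc1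
    · rw [hτq, h]
  have hcenF : Subgroup.center P ≤ F := by
    intro c hc
    rcases hz c hc with h | h
    · rw [h]; exact one_mem _
    · rw [h]; exact hzF
  obtain ⟨y, hyF, hyc⟩ : ∃ y ∈ Subgroup.centralizer (F : Set P), y ∉ Subgroup.center P := by
    by_contra hcon
    push Not at hcon
    have hle : Subgroup.centralizer (F : Set P) ≤ Subgroup.center P := hcon
    have h1 := Subgroup.card_le_of_le hle
    rw [hcard] at h1
    have hk := key hcomm hcard (Set.toFinite (F : Set P)).toFinset
    rw [Set.Finite.coe_toFinset, Subgroup.closure_eq, sup_eq_right.mpr hcenF] at hk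
    have h2 := F.card_mul_index
    rw [hi2] at h2
    have h3 := (Subgroup.centralizer (F : Set P)).card_mul_index
    have hpos : 0 < Nat.card F := Nat.card_pos
    have h4 : Nat.card (Subgroup.centralizer (F : Set P)) * (Subgroup.centralizer (F : Set P)).index
        ≤ 2 * (Subgroup.centralizer (F : Set P)).index := Nat.mul_le_mul_right _ h1
    omega
  refine ⟨y, fun x => ?_⟩
  have hyF' : ∀ x ∈ F, x * y = y * x := fun x hx => Subgroup.mem_centralizer_iff.mp hyF x hx
  by_cases hx : x ∈ F
  · rw [(hF x).mp hx, ← hyF' x hx]; group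
  · rw [hq x hx]
    rcases hz _ (comm_central hcomm y x) with h | h
    · exfalso
      apply hyc
      apply hgen x y hx _ hyF'
      calc x * y = (y * x * y⁻¹ * x⁻¹)⁻¹ * (y * x) := by group
        _ = y * x := by rw [h]; group
    · calc x * z = z * x := hzcen x
        _ = (y * x * y⁻¹ * x⁻¹) * x := by rw [h]
        _ = y * x * y⁻¹ := by group

/-- Let Q be an extraspecial 2-subgroup of the finite group G (special with centre of order 2) and t an involution of G normalizing Q such that the centralizer of t in Q has index at most 2 in Q. Then t lies in the product of Q with the centralizer of Q. -/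
theorem result {G : Type*} [Group G] [Finite G] (Q : Subgroup G)
    (hQ : Cfsg.IsExtraspecial 2 ↥Q) (t : G) (ht : orderOf t = 2) (htN : t ∈ Subgroup.normalizer (Q : Set G))
    (hi : (Subgroup.centralizer ({t} : Set G) ⊓ Q).relIndex Q ≤ 2) :
    t ∈ Q ⊔ Subgroup.centralizer (Q : Set G) := by
  classical
  obtain ⟨⟨-, -, hcomm⟩, hcard⟩ := hQ
  have htt : t * t = 1 := by
    have := pow_orderOf_eq_one t
    rwa [ht, sq] at this
  have hti : t⁻¹ = t := inv_eq_of_mul_eq_one_left htt
  have hn := Subgroup.mem_normalizer_iff.mp htN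
  let τ : ↥Q ≃* ↥Q :=
    { toFun := fun x => ⟨t * x * t⁻¹, (hn x).mp x.2⟩
      invFun := fun x => ⟨t * x * t⁻¹, (hn x).mp x.2⟩
      left_inv := by
        intro x
        apply Subtype.ext
        show t * (t * x * t⁻¹) * t⁻¹ = x
        calc t * (t * x * t⁻¹) * t⁻¹ = (t * t) * x * (t * t)⁻¹ := by group
          _ = x := by rw [htt]; group
      right_inv := by
        intro x
        apply Subtype.ext
        show t * (t * x * t⁻¹) * t⁻¹ = x
        calc t * (t * x * t⁻¹) * t⁻¹ = (t * t) * x * (t * t)⁻¹ := by group
          _ = x := by rw [htt]; group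
      map_mul' := by
        intro x y
        apply Subtype.ext
        show t * (x * y) * t⁻¹ = (t * x * t⁻¹) * (t * y * t⁻¹)
        group }
  have hτ : ∀ x, τ (τ x) = x := τ.left_inv
  have hF : ∀ x : ↥Q, x ∈ (Subgroup.centralizer ({t} : Set G)).subgroupOf Q ↔ τ x = x := by
    intro x
    rw [Subgroup.mem_subgroupOf, Subgroup.mem_centralizer_singleton_iff]
    constructor
    · intro h
      apply Subtype.ext
      show t * x * t⁻¹ = x
      rw [← h]; group
    · intro h
      have h' : t * x * t⁻¹ = x := congrArg Subtype.val h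
      symm
      calc t * (x : G) = (t * x * t⁻¹) * t := by group
        _ = x * t := by rw [h']
  have hi' : ((Subgroup.centralizer ({t} : Set G)).subgroupOf Q).index ≤ 2 := by
    rw [Subgroup.inf_relIndex_right] at hi
    exact hi
  obtain ⟨y, hy⟩ := inner_of_index_two hcomm hcard τ hτ _ hF hi'
  have hyc : (y : G)⁻¹ * t ∈ Subgroup.centralizer (Q : Set G) := by
    rw [Subgroup.mem_centralizer_iff]
    intro x hx
    have h1 : t * x * t⁻¹ = y * x * (y : G)⁻¹ := congrArg Subtype.val (hy ⟨x, hx⟩)
    calc x * ((y : G)⁻¹ * t) = (y : G)⁻¹ * (y * x * (y : G)⁻¹) * t := by group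
      _ = (y : G)⁻¹ * (t * x * t⁻¹) * t := by rw [h1]
      _ = (y : G)⁻¹ * t * x := by group
  have : t = (y : G) * ((y : G)⁻¹ * t) := by group
  rw [this]
  exact Subgroup.mul_mem_sup y.2 hyc

end Cfsg.Agent.S1756
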