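import Cfsg.Statements.S1780
import Mathlib

set_option autoImplicit false
open Cfsg

namespace Cfsg.Agent.S1780

/-- Let A be a finite abelian 2-group and t an automorphism of A whose order is a power of 2. If every element of A fixed by t² is fixed by t, then t fixes every element of A. -/
theorem result {A : Type*} [CommGroup A] [Finite A]
    (hA : IsPGroup 2 A) (t : MulAut A) (ht : ∃ k : ℕ, orderOf t = 2 ^ k) (hC : ∀ a : A, t (t a) = a → t a = a) :
    ∀ a : A, t a = a := by
  classical
  obtain ⟨k, hk⟩ := ht
  have : Fact (Nat.Prime 2) := ⟨Nat.prime_two⟩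
  obtain ⟨e, he⟩ := IsPGroup.iff_card.mp hA
  let T : AddMonoid.End (Additive A) := MonoidHom.toAdditive t.toMonoidHom
  have hT : ∀ x : Additive A, T x = Additive.ofMul (t x.toMul) := fun x => rfl
  have hTpow : ∀ (n : ℕ) (x : Additive A), (T ^ n) x = Additive.ofMul ((t ^ n) x.toMul) := by
    intro n
    induction n with
    | zero => intro x; simp
    | succ n ih =>
      intro x
      rw [pow_succ', pow_succ']
      change T ((T ^ n) x) = _
      rw [ih, hT]
      rfl
  have hT1 : T ^ (2 ^ k) = 1 := by
    ext x
    rw [hTpow, ← hk, pow_orderOf_eq_one]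
    rfl
  have h2 : IsNilpotent (2 : AddMonoid.End (Additive A)) := by
    refine ⟨e, ?_⟩
    ext x
    have h : ((2 : AddMonoid.End (Additive A)) ^ e) = ((2 ^ e : ℕ) : AddMonoid.End (Additive A)) := by
      push_cast; rfl
    rw [h, AddMonoid.End.natCast_apply, ← he]
    change Additive.ofMul (x.toMul ^ Nat.card A) = 0
    rw [pow_card_eq_one']
    rfl
  have hnil : ∀ j : ℕ, j ≤ k → IsNilpotent (1 + T ^ (2 ^ (k - j))) := by
    intro j
    induction j with
    | zero =>
      intro _
      rw [Nat.sub_zero, hT1]
      have : (1 : AddMonoid.End (Additive A)) + 1 = 2 := by norm_num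
      rw [this]; exact h2
    | succ j ih =>
      intro hj
      have ih' := ih (by omega)
      have hexp : 2 ^ (k - j) = 2 ^ (k - (j + 1)) * 2 := by
        rw [← pow_succ]; congr 1; omega
      set U := T ^ (2 ^ (k - (j + 1))) with hU
      have hU2 : T ^ (2 ^ (k - j)) = U ^ 2 := by
        rw [hexp, pow_mul]
      rw [hU2] at ih'
      have hsq : (1 + U) ^ 2 = (1 + U ^ 2) + 2 * U := by
        rw [pow_two, pow_two, add_mul, mul_add, mul_add, two_mul, one_mul, one_mul, mul_one]; abel
      apply IsNilpotent.of_pow (m := 2)
      rw [hsq]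
      have hc2 : Commute (2 : AddMonoid.End (Additive A)) U := by
        have : (2 : AddMonoid.End (Additive A)) = ((2 : ℕ) : AddMonoid.End (Additive A)) := by norm_num
        rw [this]; exact Nat.cast_commute 2 U
      refine Commute.isNilpotent_add ?_ ih' (Commute.isNilpotent_mul_right hc2 h2)
      have hcU : Commute (1 + U ^ 2) U :=
        (Commute.one_left U).add_left ((Commute.refl U).pow_left 2)
      have hc2' : Commute (1 + U ^ 2) (2 : AddMonoid.End (Additive A)) := by
        have : (2 : AddMonoid.End (Additive A)) = ((2 : ℕ) : AddMonoid.End (Additive A)) := by norm_num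
        rw [this]; exact (Nat.cast_commute 2 _).symm
      exact hc2'.mul_right hcU
  have hν : IsNilpotent (1 + T) := by
    have := hnil k le_rfl
    simpa using this
  obtain ⟨n, hn⟩ := hν
  have hstep : ∀ x : Additive A, T ((1 + T) x) = (1 + T) x → T x = x := by
    intro x hx
    have h1 : (1 + T) x = x + T x := rfl
    rw [h1, map_add] at hx
    have h3 : T (T x) = x := by
      have : T x + T (T x) = T x + x := by rw [hx, add_comm]
      exact add_left_cancel this
    have := hC x.toMul (by
      have h4 : Additive.ofMul (t (t x.toMul)) = x := h3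
      exact congrArg Additive.toMul h4)
    exact congrArg Additive.ofMul this
  have hiter : ∀ (m : ℕ) (x : Additive A), T (((1 + T) ^ m) x) = ((1 + T) ^ m) x → T x = x := by
    intro m
    induction m with
    | zero => intro x hx; simpa using hx
    | succ m ih =>
      intro x hx
      apply ih
      apply hstep
      have : (1 + T) (((1 + T) ^ m) x) = ((1 + T) ^ (m + 1)) x := by
        rw [pow_succ']; rfl
      rw [this]; exact hx
  intro a
  have := hiter n (Additive.ofMul a) (by rw [hn]; simp)
  exact congrArg Additive.toMul this

end Cfsg.Agent.S1780
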