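import Cfsg.Statements.S1781
import Cfsg.Agent.Lib.Helper12.TI
import Cfsg.Agent.S1780

set_option autoImplicit false
open Cfsg

namespace Cfsg.Agent.S1781

open Cfsg.Agent.Lib.Helper12

theorem ti_conj {G : Type*} [Group G] (A : Subgroup G)
    (hti : ∀ h : G, A.map (MulAut.conj h).toMonoidHom = A ∨ A.map (MulAut.conj h).toMonoidHom ⊓ A = ⊥)
    (g x : G) :
    (A.map (MulAut.conj g).toMonoidHom).map (MulAut.conj x).toMonoidHom = A.map (MulAut.conj g).toMonoidHom ∨
      (A.map (MulAut.conj g).toMonoidHom).map (MulAut.conj x).toMonoidHom ⊓ A.map (MulAut.conj g).toMonoidHom = ⊥ := by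
  rcases hti (g⁻¹ * x * g) with h | h
  · left
    ext y
    have h1 := SetLike.ext_iff.mp h (g⁻¹ * y * g)
    rw [mem_map_conj] at h1
    rw [mem_map_conj, mem_map_conj, mem_map_conj, ← h1]
    have : (g⁻¹ * x * g)⁻¹ * (g⁻¹ * y * g) * (g⁻¹ * x * g) = g⁻¹ * (x⁻¹ * y * x) * g := by group
    rw [this]
  · right
    rw [eq_bot_iff]
    intro y hy
    obtain ⟨hy1, hy2⟩ := Subgroup.mem_inf.mp hy
    rw [mem_map_conj, mem_map_conj] at hy1
    rw [mem_map_conj] at hy2
    have h1 : g⁻¹ * y * g ∈ A.map (MulAut.conj (g⁻¹ * x * g)).toMonoidHom ⊓ A := by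
      refine Subgroup.mem_inf.mpr ⟨?_, hy2⟩
      rw [mem_map_conj]
      have : (g⁻¹ * x * g)⁻¹ * (g⁻¹ * y * g) * (g⁻¹ * x * g) = g⁻¹ * (x⁻¹ * y * x) * g := by group
      rw [this]; exact hy1
    rw [h, Subgroup.mem_bot] at h1
    rw [Subgroup.mem_bot]
    have : y = g * (g⁻¹ * y * g) * g⁻¹ := by group
    rw [this, h1]; group

/-- Let A be an abelian 2-subgroup of the finite group G such that every conjugate of A equals A or meets A trivially, and let g ∈ G with g A g⁻¹ ≠ A. Then either the subgroup of those elements of A that normalize g A g⁻¹ is an elementary abelian 2-group, or A and g A g⁻¹ commute elementwise. -/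
theorem result {G : Type*} [Group G] [Finite G] (A : Subgroup G)
    (hA2 : IsPGroup 2 ↥A) (hAa : IsMulCommutative ↥A)
    (hti : ∀ h : G, A.map (MulAut.conj h).toMonoidHom = A ∨ A.map (MulAut.conj h).toMonoidHom ⊓ A = ⊥)
    (g : G) (hg : A.map (MulAut.conj g).toMonoidHom ≠ A) :
    Cfsg.IsElementaryAbelian 2 (A ⊓ Subgroup.normalizer ((A.map (MulAut.conj g).toMonoidHom : Subgroup G) : Set G)) ∨
      ⁅A, A.map (MulAut.conj g).toMonoidHom⁆ = ⊥ := by
  classical
  set B := A.map (MulAut.conj g).toMonoidHom with hB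
  have hBA : B ⊓ A = ⊥ := (hti g).resolve_left hg
  have hAB : A ⊓ B = ⊥ := by rw [inf_comm]; exact hBA
  -- an element commuting with a nontrivial element of `A` normalizes `A`
  have hcomm : ∀ a ∈ A, a ≠ 1 → ∀ b : G, b * a = a * b → A.map (MulAut.conj b).toMonoidHom = A := by
    intro a ha ha1 b hb
    refine (hti b).resolve_right ?_
    intro hbot
    apply ha1
    have : a ∈ A.map (MulAut.conj b).toMonoidHom ⊓ A := by
      refine Subgroup.mem_inf.mpr ⟨?_, ha⟩
      rw [mem_map_conj]
      have : b⁻¹ * a * b = a := by rw [mul_assoc, ← hb]; group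
      rw [this]; exact ha
    rwa [hbot, Subgroup.mem_bot] at this
  by_cases hall : ∀ a ∈ A ⊓ Subgroup.normalizer (B : Set G), a ^ 2 = 1
  · left
    refine ⟨?_, hall⟩
    refine ⟨⟨fun x y => ?_⟩⟩
    apply Subtype.ext
    exact setLike_mul_comm (s := A) (Subgroup.mem_inf.mp x.2).1 (Subgroup.mem_inf.mp y.2).1
  · right
    push Not at hall
    obtain ⟨a, haAN, ha2⟩ := hall
    obtain ⟨haA, haN⟩ := Subgroup.mem_inf.mp haAN
    have ha1 : a ≠ 1 := by rintro rfl; simp at ha2
    have hBc : IsMulCommutative B := Subgroup.map_isMulCommutative A _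
    have hB2 : IsPGroup 2 B := hA2.map _
    let t : MulAut B := B.normalizerMonoidHom ⟨a, haN⟩
    have ht_apply : ∀ b : B, ((t b : B) : G) = a * b * a⁻¹ := fun b => rfl
    have hord : ∃ k : ℕ, orderOf t = 2 ^ k := by
      obtain ⟨k, hk⟩ := hA2 ⟨a, haA⟩
      have h1 : orderOf t ∣ orderOf (⟨a, haN⟩ : Subgroup.normalizer (B : Set G)) := orderOf_map_dvd _ _
      have h2 : orderOf (⟨a, haN⟩ : Subgroup.normalizer (B : Set G)) = orderOf a := Subgroup.orderOf_mk a haN
      have h3 : orderOf a ∣ 2 ^ k := by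
        apply orderOf_dvd_of_pow_eq_one
        have := congrArg Subtype.val hk
        simpa using this
      obtain ⟨j, -, hj⟩ := (Nat.dvd_prime_pow Nat.prime_two).mp ((h2 ▸ h1).trans h3)
      exact ⟨j, hj⟩
    have hfix : ∀ b : B, t (t b) = b → t b = b := by
      intro b hb
      have h1 : a * (a * b * a⁻¹) * a⁻¹ = (b : G) := by
        have := congrArg Subtype.val hb
        rwa [ht_apply, ht_apply] at this
      have h2 : (b : G) * a ^ 2 = a ^ 2 * b := by
        calc (b : G) * a ^ 2 = (a * (a * b * a⁻¹) * a⁻¹) * a ^ 2 := by rw [h1]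
          _ = a ^ 2 * b := by rw [pow_two]; group
      have hbN := hcomm (a ^ 2) (A.pow_mem haA 2) ha2 b h2
      have h3 : a * b * a⁻¹ * (b : G)⁻¹ ∈ A ⊓ B := by
        refine Subgroup.mem_inf.mpr ⟨?_, ?_⟩
        · have : b * a⁻¹ * (b : G)⁻¹ ∈ A := by
            have := conj_mem_map_conj A b a⁻¹ (A.inv_mem haA)
            rwa [hbN] at this
          have h4 : a * b * a⁻¹ * (b : G)⁻¹ = a * (b * a⁻¹ * (b : G)⁻¹) := by group
          rw [h4]
          exact A.mul_mem haA this
        · exact B.mul_mem (t b).2 (B.inv_mem b.2)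
      rw [hAB, Subgroup.mem_bot] at h3
      apply Subtype.ext
      rw [ht_apply]
      exact mul_inv_eq_one.mp h3
    have htriv : ∀ b : B, t b = b := by
      let _ : CommGroup B := { (inferInstance : Group B) with mul_comm := fun x y => mul_comm' x y }
      exact Cfsg.Agent.S1780.result hB2 t hord hfix
    have hBN : B ≤ Subgroup.normalizer (A : Set G) := by
      intro b hb
      rw [Subgroup.mem_normalizer_iff_map_conj_eq]
      apply hcomm a haA ha1 b
      have := congrArg Subtype.val (htriv ⟨b, hb⟩)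
      rw [ht_apply] at this
      have h5 : a * b * a⁻¹ = b := this
      calc b * a = (a * b * a⁻¹) * a := by rw [h5]
        _ = a * b := by group
    refine commutator_eq_bot_of_ti A B (fun x _ => ti_conj A hti g x) ?_ hAB hBN
    rw [hB, Subgroup.card_map_of_injective (MulAut.conj g).injective]

end Cfsg.Agent.S1781
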