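import Cfsg.Statements.S1782
import Cfsg.Agent.Lib.Helper12.TI
import Cfsg.Agent.Lib.Helper12.TwoGroup

set_option autoImplicit false
open Cfsg

namespace Cfsg.Agent.S1782

open Cfsg.Agent.Lib.Helper12

theorem core {S : Type*} [Group S] [Finite S] (hS : IsPGroup 2 S) (R T : Subgroup S)
    (hRx : ∀ x ∈ T, x ∉ Subgroup.normalizer (R : Set S) →
      (∀ a ∈ R, ∀ b ∈ R, a * (x * b * x⁻¹) = (x * b * x⁻¹) * a) ∧ (∀ b ∈ R, x * b * x⁻¹ ∈ R → b = 1))
    (hTr : ∀ r ∈ R, r ∉ Subgroup.normalizer (T : Set S) →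
      (∀ a ∈ T, ∀ b ∈ T, a * (r * b * r⁻¹) = (r * b * r⁻¹) * a) ∧ (∀ b ∈ T, r * b * r⁻¹ ∈ T → b = 1))
    (hΦ : frattini ↥R ≠ ⊥)
    (hx0 : ∃ x ∈ T, x ∉ Subgroup.normalizer (R : Set S))
    (hr0 : ∃ r ∈ R, r ∉ Subgroup.normalizer (T : Set S)) : False := by
  classical
  -- Step A
  obtain ⟨x, hxT, hxN, hxx⟩ : ∃ x ∈ T, x ∉ Subgroup.normalizer (R : Set S) ∧
      x * x ∈ Subgroup.normalizer (R : Set S) := by
    obtain ⟨x0, hx0T, hx0N⟩ := hx0
    have hex : ∃ j : ℕ, x0 ^ (2 ^ j) ∈ Subgroup.normalizer (R : Set S) := by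
      obtain ⟨k, hk⟩ := hS x0
      exact ⟨k, by rw [hk]; exact Subgroup.one_mem _⟩
    have hj0 : Nat.find hex ≠ 0 := by
      intro h0
      have := Nat.find_spec hex
      rw [h0] at this
      simp at this
      exact hx0N this
    obtain ⟨j, hj⟩ := Nat.exists_eq_succ_of_ne_zero hj0
    refine ⟨x0 ^ (2 ^ j), T.pow_mem hx0T _, Nat.find_min hex (by omega), ?_⟩
    have := Nat.find_spec hex
    rw [hj, Nat.succ_eq_add_one, pow_succ, pow_mul, pow_two] at this
    exact this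
  obtain ⟨c1, t1⟩ := hRx x hxT hxN
  -- Step B
  have hsq : ∀ r ∈ R, r ∉ Subgroup.normalizer (T : Set S) → r * r = 1 := by
    intro r hr hrN
    obtain ⟨c2, -⟩ := hTr r hr hrN
    obtain ⟨u, hu⟩ : ∃ u, u = x * r⁻¹ * x⁻¹ := ⟨_, rfl⟩
    obtain ⟨v, hv⟩ : ∃ v, v = r * x * r⁻¹ := ⟨_, rfl⟩
    have E1 : r * u = u * r := by rw [hu]; exact c1 r hr r⁻¹ (R.inv_mem hr)
    have E2 : x⁻¹ * v = v * x⁻¹ := by rw [hv]; exact c2 x⁻¹ (T.inv_mem hxT) x hxT
    have hruv : r * u = v * x⁻¹ := by rw [hu, hv]; group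
    have huu : u * u = r⁻¹ * r⁻¹ * (v * (v * x⁻¹) * x⁻¹) := by
      calc u * u = r⁻¹ * r⁻¹ * (r * (r * u) * u) := by group
        _ = r⁻¹ * r⁻¹ * (r * (u * r) * u) := by rw [E1]
        _ = r⁻¹ * r⁻¹ * ((r * u) * (r * u)) := by group
        _ = r⁻¹ * r⁻¹ * ((v * x⁻¹) * (v * x⁻¹)) := by rw [hruv]
        _ = r⁻¹ * r⁻¹ * (v * (x⁻¹ * v) * x⁻¹) := by group
        _ = r⁻¹ * r⁻¹ * (v * (v * x⁻¹) * x⁻¹) := by rw [E2]
    have hkey : x * (r⁻¹ * r⁻¹) * x⁻¹ = r⁻¹ * ((x * x) * r⁻¹ * (x * x)⁻¹) := by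
      calc x * (r⁻¹ * r⁻¹) * x⁻¹ = u * u := by rw [hu]; group
        _ = r⁻¹ * r⁻¹ * (v * (v * x⁻¹) * x⁻¹) := huu
        _ = r⁻¹ * ((x * x) * r⁻¹ * (x * x)⁻¹) := by rw [hv]; group
    have hmem : x * (r⁻¹ * r⁻¹) * x⁻¹ ∈ R := by
      rw [hkey]
      exact R.mul_mem (R.inv_mem hr) ((Subgroup.mem_normalizer_iff.mp hxx r⁻¹).mp (R.inv_mem hr))
    have := t1 _ (R.mul_mem (R.inv_mem hr) (R.inv_mem hr)) hmem
    have h2 : (r * r)⁻¹ = 1 := by rw [mul_inv_rev]; exact this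
    exact inv_eq_one.mp h2
  -- Step C
  obtain ⟨r, hr, hrN⟩ := hr0
  obtain ⟨c2, t2⟩ := hTr r hr hrN
  obtain ⟨r0, hr0R, hr0sq⟩ : ∃ r0 ∈ R, r0 * r0 ≠ 1 := by
    by_contra hcon
    push Not at hcon
    apply hΦ
    apply frattini_eq_bot_of_sq
    intro y
    exact Subtype.ext (hcon y y.2)
  have hr0N : r0 ∈ Subgroup.normalizer (T : Set S) := by
    by_contra h
    exact hr0sq (hsq r0 hr0R h)
  obtain ⟨z, hzR, hzN, hz1, hzz⟩ : ∃ z ∈ R, z ∈ Subgroup.normalizer (T : Set S) ∧ z ≠ 1 ∧ z * z = 1 := by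
    obtain ⟨k, hk⟩ := hS r0
    have hex : ∃ j : ℕ, r0 ^ (2 ^ j) = 1 := ⟨k, hk⟩
    have hj0 : Nat.find hex ≠ 0 := by
      intro h0
      have := Nat.find_spec hex
      rw [h0] at this
      simp at this
      apply hr0sq
      rw [this, one_mul]
    obtain ⟨j, hj⟩ := Nat.exists_eq_succ_of_ne_zero hj0
    refine ⟨r0 ^ (2 ^ j), R.pow_mem hr0R _, Subgroup.pow_mem _ hr0N _, Nat.find_min hex (by omega), ?_⟩
    have := Nat.find_spec hex
    rw [hj, Nat.succ_eq_add_one, pow_succ, pow_mul, pow_two] at this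
    exact this
  have hrr : r * r = 1 := hsq r hr hrN
  have hrz : r * z = z * r := by
    have h1 : r * z ∉ Subgroup.normalizer (T : Set S) := by
      intro h
      apply hrN
      have := Subgroup.mul_mem _ h (Subgroup.inv_mem _ hzN)
      simpa using this
    have h2 := hsq (r * z) (R.mul_mem hr hzR) h1
    have hzi : z⁻¹ = z := inv_eq_of_mul_eq_one_left hzz
    have hri : r⁻¹ = r := inv_eq_of_mul_eq_one_left hrr
    have h3 : (r * z)⁻¹ = r * z := inv_eq_of_mul_eq_one_left h2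
    calc r * z = (r * z)⁻¹ := h3.symm
      _ = z⁻¹ * r⁻¹ := mul_inv_rev _ _
      _ = z * r := by rw [hzi, hri]
  -- Step D
  obtain ⟨w, hw⟩ : ∃ w, w = x * z⁻¹ * x⁻¹ := ⟨_, rfl⟩
  have hrw : r * w = w * r := by rw [hw]; exact c1 r hr z⁻¹ (R.inv_mem hzR)
  have hcT : z * w ∈ T := by
    have h1 : z * x * z⁻¹ ∈ T := (Subgroup.mem_normalizer_iff.mp hzN x).mp hxT
    have h2 : z * w = z * x * z⁻¹ * x⁻¹ := by rw [hw]; group
    rw [h2]
    exact T.mul_mem h1 (T.inv_mem hxT)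
  have hconj : r * (z * w) * r⁻¹ = z * w := by
    calc r * (z * w) * r⁻¹ = (r * z) * w * r⁻¹ := by group
      _ = (z * r) * w * r⁻¹ := by rw [hrz]
      _ = z * (r * w) * r⁻¹ := by group
      _ = z * (w * r) * r⁻¹ := by rw [hrw]
      _ = z * w := by group
  have hc1 : z * w = 1 := t2 _ hcT (by rw [hconj]; exact hcT)
  have hwz : w = z⁻¹ := eq_inv_of_mul_eq_one_right hc1
  have hz' : z⁻¹ = 1 := t1 z⁻¹ (R.inv_mem hzR) (by rw [← hw, hwz]; exact R.inv_mem hzR)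
  exact hz1 (inv_eq_one.mp hz')

/-- Let S be a finite 2-group and Δ a set of subgroups of S closed under conjugation by S, all of the same order, each with nontrivial Frattini subgroup, and such that two distinct members of Δ meet trivially. Then any two distinct members of Δ commute elementwise. -/
theorem result {S : Type*} [Group S] [Finite S] (hS : IsPGroup 2 S)
    (Δ : Set (Subgroup S)) (hinv : ∀ s : S, ∀ R ∈ Δ, R.map (MulAut.conj s).toMonoidHom ∈ Δ)
    (hΦ : ∀ R ∈ Δ, frattini ↥R ≠ ⊥) (hord : ∀ R ∈ Δ, ∀ T ∈ Δ, Nat.card ↥R = Nat.card ↥T)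
    (hti : ∀ R ∈ Δ, ∀ T ∈ Δ, R = T ∨ R ⊓ T = ⊥) :
    ∀ R ∈ Δ, ∀ T ∈ Δ, R ≠ T → ⁅R, T⁆ = ⊥ := by
  classical
  have : Fact (Nat.Prime 2) := ⟨Nat.prime_two⟩
  have hbot : ∀ R ∈ Δ, R ≠ ⊥ := by
    rintro R hR rfl
    apply hΦ ⊥ hR
    exact Subsingleton.elim _ _
  have hcomm_of : ∀ A B : Subgroup S, ⁅A, B⁆ = ⊥ → ∀ a ∈ A, ∀ b ∈ B, a * b = b * a := by
    intro A B h a ha b hb
    have h1 := Subgroup.commutator_eq_bot_iff_le_centralizer.mp h ha
    exact (Subgroup.mem_centralizer_iff.mp h1 b hb).symm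
  have key : ∀ H : Subgroup S, ∀ R ∈ Δ, ∀ T ∈ Δ, R ≤ H → T ≤ H → R ≠ T → ⁅R, T⁆ = ⊥ := by
    intro H
    induction H using WellFoundedLT.induction with
    | ind H IH =>
      intro R hR T hT hRH hTH hne
      rcases lt_or_eq_of_le (sup_le hRH hTH) with hlt | heq
      · exact IH _ hlt R hR T hT le_sup_left le_sup_right hne
      · by_contra hcon
        have hRT : R ⊓ T = ⊥ := (hti R hR T hT).resolve_left hne
        -- conjugates commute
        have hconj : ∀ X ∈ Δ, ∀ Y ∈ Δ, X ≤ H → Y ≤ H → X ≠ Y → ∀ h ∈ H, h ∉ Subgroup.normalizer (X : Set S) →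
            (∀ a ∈ X, ∀ b ∈ X, a * (h * b * h⁻¹) = (h * b * h⁻¹) * a) ∧ (∀ b ∈ X, h * b * h⁻¹ ∈ X → b = 1) := by
          intro X hX Y hY hXH hYH hXY h hh hhN
          have hXneH : X ≠ H := by
            rintro rfl
            have h1 : X ⊓ Y = ⊥ := (hti X hX Y hY).resolve_left hXY
            rw [inf_eq_right.mpr hYH] at h1
            exact hbot Y hY h1
          obtain ⟨M, hMH, hXM, hMn⟩ := exists_normal_lt hS H X hXH hXneH
          have hXh : X.map (MulAut.conj h).toMonoidHom ∈ Δ := hinv h X hX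
          have hXhne : X ≠ X.map (MulAut.conj h).toMonoidHom := by
            intro heq
            exact hhN (Subgroup.mem_normalizer_iff_map_conj_eq.mpr heq.symm)
          have hXhM : X.map (MulAut.conj h).toMonoidHom ≤ M := by
            rintro _ ⟨b, hb, rfl⟩
            simpa using hMn h hh b (hXM hb)
          have hc := IH M hMH X hX _ hXh hXM hXhM hXhne
          refine ⟨fun a ha b hb => hcomm_of _ _ hc a ha _ (conj_mem_map_conj X h b hb), ?_⟩
          intro b hb hb'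
          have h1 : X ⊓ X.map (MulAut.conj h).toMonoidHom = ⊥ := (hti X hX _ hXh).resolve_left hXhne
          have h2 : h * b * h⁻¹ ∈ X ⊓ X.map (MulAut.conj h).toMonoidHom :=
            Subgroup.mem_inf.mpr ⟨hb', conj_mem_map_conj X h b hb⟩
          rw [h1, Subgroup.mem_bot] at h2
          have h3 : b = h⁻¹ * (h * b * h⁻¹) * h := by group
          rw [h3, h2]; group
        have hTI : ∀ X ∈ Δ, ∀ a : S, X.map (MulAut.conj a).toMonoidHom = X ∨
            X.map (MulAut.conj a).toMonoidHom ⊓ X = ⊥ :=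
          fun X hX a => hti _ (hinv a X hX) X hX
        have hnT : ¬ T ≤ Subgroup.normalizer (R : Set S) := by
          intro hN
          exact hcon (commutator_eq_bot_of_ti R T (fun a _ => hTI T hT a) (hord R hR T hT).le hRT hN)
        have hnR : ¬ R ≤ Subgroup.normalizer (T : Set S) := by
          intro hN
          apply hcon
          rw [Subgroup.commutator_comm]
          exact commutator_eq_bot_of_ti T R (fun a _ => hTI R hR a) (hord T hT R hR).le
            (by rw [inf_comm]; exact hRT) hN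
        refine core hS R T ?_ ?_ (hΦ R hR) ?_ ?_
        · intro x hx hxN
          exact hconj R hR T hT hRH hTH hne x (hTH hx) hxN
        · intro r hr hrN
          exact hconj T hT R hR hTH hRH hne.symm r (hRH hr) hrN
        · simpa [SetLike.le_def] using hnT
        · simpa [SetLike.le_def] using hnR
  intro R hR T hT hne
  exact key ⊤ R hR T hT le_top le_top hne

end Cfsg.Agent.S1782
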