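import Cfsg.Statements.S1785
-- import your own Cfsg.Agent.* helpers here
import Mathlib

set_option autoImplicit false
open Cfsg

namespace Cfsg.Agent.S1785


open Subgroup

variable {X : Type*} [Group X]

theorem relIndex_mul_card' {H K : Subgroup X} (h : H ≤ K) :
    H.relIndex K * Nat.card H = Nat.card K := by
  have := Subgroup.relIndex_mul_relIndex ⊥ H K bot_le h
  rw [Subgroup.relIndex_bot_left, Subgroup.relIndex_bot_left] at this
  rw [mul_comm]; exact this

theorem ea_comm {A : Subgroup X} (hA : Cfsg.IsElementaryAbelian 2 A) :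
    ∀ a ∈ A, ∀ b ∈ A, a * b = b * a :=
  fun a ha b hb => congrArg Subtype.val (hA.1.is_comm.comm ⟨a, ha⟩ ⟨b, hb⟩)

theorem ea_of_le {A B : Subgroup X} (hA : Cfsg.IsElementaryAbelian 2 A) (h : B ≤ A) :
    Cfsg.IsElementaryAbelian 2 B :=
  ⟨⟨⟨fun a b => Subtype.ext (ea_comm hA a (h a.2) b (h b.2))⟩⟩, fun a ha => hA.2 a (h ha)⟩

theorem half [Finite X] (W : Subgroup X) (hW : Cfsg.IsElementaryAbelian 2 W) (t : X)
    (ht : t ^ 2 = 1) (hn : ∀ w ∈ W, t * w * t⁻¹ ∈ W) :
    Nat.card W ≤ Nat.card (W ⊓ centralizer {t} : Subgroup X) ^ 2 := by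
  have hc := ea_comm hW
  have htinv : t⁻¹ = t := by
    rw [inv_eq_iff_mul_eq_one, ← pow_two]; exact ht
  let φ : W →* W := MonoidHom.mk' (fun w => ⟨w * (t * w * t⁻¹), W.mul_mem w.2 (hn w w.2)⟩) (by
    intro a b
    apply Subtype.ext
    change (a : X) * b * (t * ((a : X) * b) * t⁻¹) = (a * (t * a * t⁻¹)) * (b * (t * b * t⁻¹))
    have h1 := hc b b.2 (t * a * t⁻¹) (hn a a.2)
    calc (a : X) * b * (t * ((a : X) * b) * t⁻¹)
        = a * (b * (t * a * t⁻¹)) * (t * b * t⁻¹) := by group
      _ = a * ((t * a * t⁻¹) * b) * (t * b * t⁻¹) := by rw [h1]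
      _ = _ := by group)
  have hker : φ.ker.map W.subtype ≤ W ⊓ centralizer {t} := by
    rintro _ ⟨w, hw, rfl⟩
    refine Subgroup.mem_inf.mpr ⟨w.2, ?_⟩
    rw [mem_centralizer_singleton_iff]
    have h1 : (w : X) * (t * w * t⁻¹) = 1 := congrArg Subtype.val (MonoidHom.mem_ker.mp hw)
    have h2 : (w : X) * w = 1 := by rw [← pow_two]; exact hW.2 w w.2
    have h3 : t * w * t⁻¹ = w := mul_left_cancel (h1.trans h2.symm)
    change (w : X) * t = t * w
    rw [mul_inv_eq_iff_eq_mul] at h3
    exact h3.symm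
  have hrange : φ.range.map W.subtype ≤ W ⊓ centralizer {t} := by
    rintro _ ⟨_, ⟨w, rfl⟩, rfl⟩
    refine Subgroup.mem_inf.mpr ⟨W.mul_mem w.2 (hn w w.2), ?_⟩
    rw [mem_centralizer_singleton_iff]
    change (w : X) * (t * w * t⁻¹) * t = t * ((w : X) * (t * w * t⁻¹))
    have h1 := hc w w.2 (t * w * t⁻¹) (hn w w.2)
    have htt : t * t = 1 := by rw [← pow_two]; exact ht
    have h4 : t * ((w : X) * (t * w * t⁻¹)) * t⁻¹ = (t * w * t⁻¹) * w := by
      calc t * ((w : X) * (t * w * t⁻¹)) * t⁻¹
          = (t * w * t⁻¹) * ((t * t) * w * (t * t)⁻¹) := by group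
        _ = _ := by rw [htt]; simp
    rw [← h1, mul_inv_eq_iff_eq_mul] at h4
    exact h4.symm
  have h1 : Nat.card φ.ker * Nat.card φ.range = Nat.card W := by
    rw [← Subgroup.index_ker]; exact Subgroup.card_mul_index _
  have h2 : Nat.card φ.ker ≤ Nat.card (W ⊓ centralizer {t} : Subgroup X) := by
    rw [← Subgroup.card_map_of_injective W.subtype_injective]
    exact card_le_of_le hker
  have h3 : Nat.card φ.range ≤ Nat.card (W ⊓ centralizer {t} : Subgroup X) := by
    rw [← Subgroup.card_map_of_injective W.subtype_injective]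
    exact card_le_of_le hrange
  rw [← h1, pow_two]
  exact Nat.mul_le_mul h2 h3

theorem fixbound [Finite X] (A : Subgroup X) (hA : Cfsg.IsElementaryAbelian 2 A) :
    ∀ (n : ℕ) (D W : Subgroup X), D.relIndex A = n → D ≤ A → Cfsg.IsElementaryAbelian 2 W →
      (∀ a ∈ A, ∀ w ∈ W, a * w * a⁻¹ ∈ W) → W ≤ centralizer (D : Set X) →
      Nat.card W ≤ Nat.card (W ⊓ centralizer (A : Set X) : Subgroup X) ^ n := by
  intro n
  induction n using Nat.strong_induction_on with
  | _ n ih =>
    intro D W hn hDA hW hnorm hcen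
    by_cases hD : D = A
    · subst hD
      rw [relIndex_self] at hn
      rw [← hn, pow_one, inf_eq_left.mpr hcen]
    · obtain ⟨t, htA, htD⟩ : ∃ t ∈ A, t ∉ D := by
        by_contra hcon
        push Not at hcon
        exact hD (le_antisymm hDA hcon)
      have hD'A : D ⊔ zpowers t ≤ A := sup_le hDA (zpowers_le.mpr htA)
      have hmul := relIndex_mul_relIndex D (D ⊔ zpowers t) A le_sup_left hD'A
      have hk : 2 ≤ D.relIndex (D ⊔ zpowers t) := by
        have h0 : D.relIndex (D ⊔ zpowers t) ≠ 0 :=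
          (show (D.subgroupOf (D ⊔ zpowers t)).index ≠ 0 from Subgroup.index_ne_zero_of_finite)
        have h1 : D.relIndex (D ⊔ zpowers t) ≠ 1 := by
          intro h
          rw [relIndex_eq_one] at h
          exact htD (h (mem_sup_right (mem_zpowers t)))
        omega
      have hn'pos : 0 < (D ⊔ zpowers t).relIndex A := Nat.pos_of_ne_zero
        (show ((D ⊔ zpowers t).subgroupOf A).index ≠ 0 from Subgroup.index_ne_zero_of_finite)
      have h2n : 2 * (D ⊔ zpowers t).relIndex A ≤ n := by
        rw [← hn, ← hmul]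
        exact Nat.mul_le_mul_right _ hk
      have hW' : Cfsg.IsElementaryAbelian 2 (W ⊓ centralizer {t} : Subgroup X) :=
        ea_of_le hW inf_le_left
      have hnorm' : ∀ a ∈ A, ∀ w ∈ (W ⊓ centralizer {t} : Subgroup X),
          a * w * a⁻¹ ∈ (W ⊓ centralizer {t} : Subgroup X) := by
        intro a ha w hw
        obtain ⟨hw1, hw2⟩ := Subgroup.mem_inf.mp hw
        refine Subgroup.mem_inf.mpr ⟨hnorm a ha w hw1, ?_⟩
        rw [mem_centralizer_singleton_iff] at hw2 ⊢
        have hat := ea_comm hA a ha t htA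
        calc a * w * a⁻¹ * t = a * w * (a⁻¹ * t * a) * a⁻¹ := by group
          _ = a * w * (a⁻¹ * (a * t)) * a⁻¹ := by rw [mul_assoc a⁻¹ t a, hat]
          _ = a * (w * t) * a⁻¹ := by group
          _ = a * (t * w) * a⁻¹ := by rw [hw2]
          _ = (a * t) * w * a⁻¹ := by group
          _ = (t * a) * w * a⁻¹ := by rw [hat]
          _ = _ := by group
      have hcen' : (W ⊓ centralizer {t} : Subgroup X) ≤
          centralizer ((D ⊔ zpowers t : Subgroup X) : Set X) := by
        rw [le_centralizer_iff]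
        apply sup_le
        · rw [← le_centralizer_iff]
          exact inf_le_left.trans hcen
        · rw [zpowers_le, mem_centralizer_iff]
          intro w hw
          have hw2 := (Subgroup.mem_inf.mp hw).2
          rw [mem_centralizer_singleton_iff] at hw2
          exact hw2
      have h1 := half W hW t (hA.2 t htA) (hnorm t htA)
      have h2 := ih _ (by omega) (D ⊔ zpowers t) (W ⊓ centralizer {t}) rfl hD'A hW' hnorm' hcen'
      have h3 : Nat.card ((W ⊓ centralizer {t}) ⊓ centralizer (A : Set X) : Subgroup X) ≤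
          Nat.card (W ⊓ centralizer (A : Set X) : Subgroup X) :=
        card_le_of_le (inf_le_inf_right _ inf_le_left)
      have hcpos : 0 < Nat.card (W ⊓ centralizer (A : Set X) : Subgroup X) := Nat.card_pos
      calc Nat.card W ≤ Nat.card (W ⊓ centralizer {t} : Subgroup X) ^ 2 := h1
        _ ≤ (Nat.card (W ⊓ centralizer (A : Set X) : Subgroup X) ^
              (D ⊔ zpowers t).relIndex A) ^ 2 :=
            Nat.pow_le_pow_left (h2.trans (Nat.pow_le_pow_left h3 _)) 2
        _ = Nat.card (W ⊓ centralizer (A : Set X) : Subgroup X) ^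
              (2 * (D ⊔ zpowers t).relIndex A) := by rw [← pow_mul, mul_comm]
        _ ≤ _ := Nat.pow_le_pow_right hcpos h2n

theorem nat_aux (d r : ℕ) (h : r * d = 4 ∨ r * d = 8) : d ^ r < 32 := by
  have hr : r ≤ 8 := by
    rcases h with h | h
    · exact (Nat.le_of_dvd (by norm_num) (Dvd.intro _ h)).trans (by norm_num)
    · exact Nat.le_of_dvd (by norm_num) (Dvd.intro _ h)
  have hd : d ≤ 8 := by
    rcases h with h | h
    · exact (Nat.le_of_dvd (by norm_num) (Dvd.intro_left _ h)).trans (by norm_num)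
    · exact Nat.le_of_dvd (by norm_num) (Dvd.intro_left _ h)
  interval_cases r <;> interval_cases d <;> first | (exfalso; omega) | norm_num

theorem exists_outside [Finite X] (E : Subgroup X) [hEn : E.Normal]
    (hE : Cfsg.IsElementaryAbelian 2 E) (hE32 : 32 ≤ Nat.card E) (A : Subgroup X)
    (hA : Cfsg.IsElementaryAbelian 2 A) (hcard : Nat.card A = 4 ∨ Nat.card A = 8) :
    ∃ e ∈ E, e ∈ centralizer (A : Set X) ∧ e ∉ A := by
  by_contra hcon
  push Not at hcon
  have hle : E ⊓ centralizer (A : Set X) ≤ A ⊓ E := by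
    intro e he
    obtain ⟨h1, h2⟩ := Subgroup.mem_inf.mp he
    exact Subgroup.mem_inf.mpr ⟨hcon e h1 h2, h1⟩
  have hcen : E ≤ centralizer ((A ⊓ E : Subgroup X) : Set X) := by
    intro e he
    rw [mem_centralizer_iff]
    intro d hd
    exact ea_comm hE d (Subgroup.mem_inf.mp hd).2 e he
  have h1 := fixbound A hA _ (A ⊓ E) E rfl inf_le_left hE
    (fun a _ w hw => hEn.conj_mem w hw a) hcen
  have h2 := relIndex_mul_card' (inf_le_left : A ⊓ E ≤ A)
  have h3 := card_le_of_le hle
  have h4 : 32 ≤ Nat.card (A ⊓ E : Subgroup X) ^ (A ⊓ E).relIndex A :=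
    hE32.trans (h1.trans (Nat.pow_le_pow_left h3 _))
  generalize Nat.card (A ⊓ E : Subgroup X) = d at h2 h4
  generalize (A ⊓ E).relIndex A = r at h2 h4
  have h5 := nat_aux d r (by rcases hcard with h | h <;> rw [h] at h2 <;> simp [h2])
  omega

theorem sup_equiv_prod (A B : Subgroup X) (hcomm : ∀ a ∈ A, ∀ b ∈ B, a * b = b * a)
    (h : Disjoint A B) : Nonempty (↥(A ⊔ B) ≃* (A × B)) := by
  have comm : ∀ (a : A) (b : B), Commute (A.subtype a) (B.subtype b) := fun a b =>
    hcomm a.1 a.2 b.1 b.2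
  have hinj : Function.Injective (MonoidHom.noncommCoprod A.subtype B.subtype comm) := by
    rw [MonoidHom.noncommCoprod_injective]
    refine ⟨A.subtype_injective, B.subtype_injective, ?_⟩
    simpa using h
  have hr : (MonoidHom.noncommCoprod A.subtype B.subtype comm).range = A ⊔ B := by
    rw [MonoidHom.noncommCoprod_range]; simp
  exact ⟨((MonoidHom.ofInjective hinj).trans (MulEquiv.subgroupCongr hr)).symm⟩

theorem extend [Finite X] (A : Subgroup X) (hA : Cfsg.IsElementaryAbelian 2 A) (e : X)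
    (he : e ∉ A) (he2 : e ^ 2 = 1) (hc : ∀ a ∈ A, a * e = e * a) :
    Cfsg.IsElementaryAbelian 2 (A ⊔ zpowers e : Subgroup X) ∧
      Nat.card (A ⊔ zpowers e : Subgroup X) = 2 * Nat.card A := by
  have he1 : e ≠ 1 := fun h => he (h ▸ A.one_mem)
  have hord : orderOf e = 2 := orderOf_eq_prime he2 he1
  have hz : ∀ b ∈ zpowers e, b = 1 ∨ b = e := by
    intro b hb
    obtain ⟨k, rfl⟩ := mem_zpowers_iff.mp hb
    rcases Int.even_or_odd' k with ⟨m, rfl | rfl⟩
    · left
      rw [zpow_mul, zpow_ofNat, he2, one_zpow]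
    · right
      rw [zpow_add, zpow_mul, zpow_ofNat, he2, one_zpow, one_mul, zpow_one]
  have hcomm : ∀ a ∈ A, ∀ b ∈ zpowers e, a * b = b * a := by
    intro a ha b hb
    rcases hz b hb with rfl | rfl
    · simp
    · exact hc a ha
  have hdis : Disjoint A (zpowers e) := by
    rw [disjoint_def]
    intro x hxA hxe
    rcases hz x hxe with rfl | rfl
    · rfl
    · exact absurd hxA he
  obtain ⟨f⟩ := sup_equiv_prod A (zpowers e) hcomm hdis
  refine ⟨⟨⟨⟨?_⟩⟩, ?_⟩, ?_⟩
  · intro x y
    apply f.injective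
    rw [map_mul, map_mul]
    apply Prod.ext
    · exact hA.1.is_comm.comm _ _
    · exact (inferInstance : IsMulCommutative (zpowers e)).is_comm.comm _ _
  · intro x hx
    have h1 : (f ⟨x, hx⟩) ^ 2 = 1 := by
      apply Prod.ext
      · apply Subtype.ext
        simpa using hA.2 _ (f ⟨x, hx⟩).1.2
      · apply Subtype.ext
        rcases hz _ (f ⟨x, hx⟩).2.2 with h | h
        · simp [h]
        · simp [h, he2]
    rw [← map_pow] at h1
    have h2 : (⟨x, hx⟩ : ↥(A ⊔ zpowers e)) ^ 2 = 1 := by
      apply f.injective; rw [h1, map_one]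
    have h3 := congrArg Subtype.val h2
    simpa using h3
  · rw [Nat.card_congr f.toEquiv, Nat.card_prod, Nat.card_zpowers, hord, mul_comm]

/-- Let X be a finite 2-group having a normal elementary abelian subgroup of order at least 32. Then (a) for any two elementary abelian subgroups A, B of X of order 8 there is a chain A = A₁, A₂, …, Aₙ = B of elementary abelian subgroups of order 8 in which consecutive members commute elementwise; and (b) every elementary abelian subgroup of X of order 4 is contained in an elementary abelian subgroup of order 8. -/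
theorem result {X : Type*} [Group X] [Finite X]
    (hX : IsPGroup 2 X) (E : Subgroup X) [E.Normal] (hE : Cfsg.IsElementaryAbelian 2 E) (hE32 : 32 ≤ Nat.card ↥E) :
    (∀ A B : Subgroup X, Cfsg.IsElementaryAbelian 2 A → Nat.card ↥A = 8 → Cfsg.IsElementaryAbelian 2 B → Nat.card ↥B = 8 →
        Relation.ReflTransGen
          (fun C D : Subgroup X => Cfsg.IsElementaryAbelian 2 C ∧ Nat.card ↥C = 8 ∧ Cfsg.IsElementaryAbelian 2 D ∧ Nat.card ↥D = 8 ∧ ⁅C, D⁆ = ⊥)
          A B) ∧
      (∀ V : Subgroup X, Cfsg.IsElementaryAbelian 2 V → Nat.card ↥V = 4 →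
        ∃ A : Subgroup X, V ≤ A ∧ Cfsg.IsElementaryAbelian 2 A ∧ Nat.card ↥A = 8) := by
  classical
  have hEc := ea_comm hE
  constructor
  · -- (a)
    have sym : Std.Symm (fun C D : Subgroup X => Cfsg.IsElementaryAbelian 2 C ∧ Nat.card ↥C = 8 ∧
        Cfsg.IsElementaryAbelian 2 D ∧ Nat.card ↥D = 8 ∧ ⁅C, D⁆ = ⊥) := by
      refine ⟨?_⟩
      rintro C D ⟨h1, h2, h3, h4, h5⟩
      exact ⟨h3, h4, h1, h2, by rw [Subgroup.commutator_comm]; exact h5⟩
    have key : ∀ (n : ℕ) (A : Subgroup X), Cfsg.IsElementaryAbelian 2 A → Nat.card ↥A = 8 →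
        8 - Nat.card (A ⊓ E : Subgroup X) = n →
        ∃ A' : Subgroup X, A' ≤ E ∧ Cfsg.IsElementaryAbelian 2 A' ∧ Nat.card ↥A' = 8 ∧
          Relation.ReflTransGen (fun C D : Subgroup X => Cfsg.IsElementaryAbelian 2 C ∧
            Nat.card ↥C = 8 ∧ Cfsg.IsElementaryAbelian 2 D ∧ Nat.card ↥D = 8 ∧ ⁅C, D⁆ = ⊥) A A' := by
      intro n
      induction n using Nat.strong_induction_on with
      | _ n ih =>
        intro A hA hA8 hn
        by_cases hAE : A ≤ E
        · exact ⟨A, hAE, hA, hA8, Relation.ReflTransGen.refl⟩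
        · obtain ⟨e, heE, heC, heA⟩ := exists_outside E hE hE32 A hA (Or.inr hA8)
          have hlt : A ⊓ E < A := lt_of_le_of_ne inf_le_left (fun h => hAE (h ▸ inf_le_right))
          obtain ⟨V, hV⟩ := (Set.toFinite {V : Subgroup X | A ⊓ E ≤ V ∧ V < A}).exists_maximal
            ⟨A ⊓ E, le_rfl, hlt⟩
          obtain ⟨⟨hDV, hVA⟩, hVmax⟩ := hV
          obtain ⟨t, htA, htV⟩ : ∃ t ∈ A, t ∉ V := by
            by_contra hcon
            push Not at hcon
            exact hVA.ne (le_antisymm hVA.le hcon)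
          have hVea := ea_of_le hA hVA.le
          have hVt : V ⊔ Subgroup.zpowers t = A := by
            have hle : V ⊔ Subgroup.zpowers t ≤ A := sup_le hVA.le (Subgroup.zpowers_le.mpr htA)
            by_contra hne
            have h1 := hVmax (y := V ⊔ Subgroup.zpowers t)
              ⟨hDV.trans le_sup_left, lt_of_le_of_ne hle hne⟩ le_sup_left
            exact htV (h1 (Subgroup.mem_sup_right (Subgroup.mem_zpowers t)))
          have hV4 : Nat.card V = 4 := by
            have h1 := (extend V hVea t htV (hA.2 t htA)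
              (fun a ha => ea_comm hA a (hVA.le ha) t htA)).2
            rw [hVt, hA8] at h1
            omega
          have heV : e ∉ V := fun h => heA (hVA.le h)
          have hecomm : ∀ a ∈ A, a * e = e * a := fun a ha =>
            Subgroup.mem_centralizer_iff.mp heC a ha
          obtain ⟨h2ea, h2card⟩ := extend V hVea e heV (hE.2 e heE)
            (fun a ha => hecomm a (hVA.le ha))
          rw [hV4] at h2card
          have hcomm : ⁅A, V ⊔ Subgroup.zpowers e⁆ = ⊥ := by
            rw [Subgroup.commutator_eq_bot_iff_le_centralizer, Subgroup.le_centralizer_iff]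
            apply sup_le
            · intro v hv
              rw [Subgroup.mem_centralizer_iff]
              intro a ha
              exact ea_comm hA a ha v (hVA.le hv)
            · rw [Subgroup.zpowers_le]; exact heC
          have hgrow : Nat.card (A ⊓ E : Subgroup X) <
              Nat.card ((V ⊔ Subgroup.zpowers e) ⊓ E : Subgroup X) := by
            have hle : A ⊓ E ≤ (V ⊔ Subgroup.zpowers e) ⊓ E :=
              le_inf (hDV.trans le_sup_left) inf_le_right
            refine lt_of_le_of_ne (Subgroup.card_le_of_le hle) ?_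
            intro h
            have heq := Subgroup.eq_of_le_of_card_ge hle h.ge
            have : e ∈ A ⊓ E := by
              rw [heq]
              exact Subgroup.mem_inf.mpr
                ⟨Subgroup.mem_sup_right (Subgroup.mem_zpowers e), heE⟩
            exact heA (Subgroup.mem_inf.mp this).1
          have hle8 : Nat.card ((V ⊔ Subgroup.zpowers e) ⊓ E : Subgroup X) ≤ 8 := by
            have := Subgroup.card_le_of_le
              (inf_le_left : (V ⊔ Subgroup.zpowers e) ⊓ E ≤ V ⊔ Subgroup.zpowers e)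
            omega
          obtain ⟨A', h1, h2, h3, h4⟩ := ih (8 - Nat.card ((V ⊔ Subgroup.zpowers e) ⊓ E : Subgroup X))
            (by omega) (V ⊔ Subgroup.zpowers e) h2ea (by omega) rfl
          exact ⟨A', h1, h2, h3, Relation.ReflTransGen.head
            ⟨hA, hA8, h2ea, by omega, hcomm⟩ h4⟩
    intro A B hA hA8 hB hB8
    obtain ⟨A', hA'E, hA'ea, hA'8, hAA'⟩ := key _ A hA hA8 rfl
    obtain ⟨B', hB'E, hB'ea, hB'8, hBB'⟩ := key _ B hB hB8 rfl
    have hmid : ⁅A', B'⁆ = ⊥ := by
      rw [Subgroup.commutator_eq_bot_iff_le_centralizer]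
      intro a ha
      rw [Subgroup.mem_centralizer_iff]
      intro b hb
      exact hEc b (hB'E hb) a (hA'E ha)
    exact (hAA'.tail ⟨hA'ea, hA'8, hB'ea, hB'8, hmid⟩).trans
      (Relation.ReflTransGen.stdSymm.symm _ _ hBB')
  · -- (b)
    intro V hV hV4
    obtain ⟨e, heE, heC, heV⟩ := exists_outside E hE hE32 V hV (Or.inl hV4)
    obtain ⟨h1, h2⟩ := extend V hV e heV (hE.2 e heE)
      (fun a ha => Subgroup.mem_centralizer_iff.mp heC a ha)
    exact ⟨V ⊔ Subgroup.zpowers e, le_sup_left, h1, by omega⟩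

end Cfsg.Agent.S1785
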