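import Cfsg.Statements.S1850
import Cfsg.Agent.Lib.Helper10.CharP3

set_option autoImplicit false
open Cfsg
open Cfsg.Agent.Lib.Helper10

namespace Cfsg.Agent.S1850

/-- Let G be a non-abelian finite simple QTKE-group and T a Sylow 2-subgroup of G. If U is a nontrivial 2-subgroup of G with U ∩ Z(T) ≠ 1, then F*(N_G(U)) = O₂(N_G(U)). -/
theorem result {G : Type*} [Group G] [Finite G] [IsSimpleGroup G]
    (hG : ¬ IsMulCommutative G) (hQ : Cfsg.IsQTKE G) (T : Sylow 2 G) (U : Subgroup G)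
    (hU : IsPGroup 2 ↥U) (hZ : U ⊓ ((T : Subgroup G) ⊓ Subgroup.centralizer ((T : Subgroup G) : Set G)) ≠ ⊥) :
    Subgroup.normalizer (U : Set G) ∈ Cfsg.calHe G := by
  obtain ⟨z, hz, hz1⟩ : ∃ z ∈ U ⊓ ((T : Subgroup G) ⊓
      Subgroup.centralizer ((T : Subgroup G) : Set G)), z ≠ 1 := by
    by_contra hcon
    push Not at hcon
    exact hZ ((Subgroup.eq_bot_iff_forall _).mpr hcon)
  have hzp : IsPGroup 2 (Subgroup.zpowers z) := hU.to_le (Subgroup.zpowers_le.mpr hz.1)
  have hT : (T : Subgroup G) ≤ Subgroup.normalizer ((Subgroup.zpowers z : Subgroup G) : Set G) :=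
    (Subgroup.le_centralizer_iff.mp (Subgroup.zpowers_le.mpr hz.2.2)).trans
      (Subgroup.centralizer_le_normalizer _)
  have hM := hQ.2.2 _ ⟨Subgroup.zpowers z, hzp, Subgroup.zpowers_ne_bot.mpr hz1, rfl⟩ ⟨T, hT⟩
  have h2 := charPT_centralizer_of_normalizer (charPT_iff_centralizer_le.mpr hM)
  rw [centralizer_zpowers_eq] at h2
  exact charPT_iff_genFitting_eq.mp (charPT_normalizer_of_mem hU hz.1 h2)

end Cfsg.Agent.S1850
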