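import Cfsg.Statements.S1851
import Cfsg.Agent.Lib.Helper17.Subn
import Cfsg.Agent.Lib.Helper10.CharP3
import Cfsg.Agent.Lib.Helper1.CoprimeAbelian

set_option autoImplicit false
open Cfsg

namespace Cfsg.Agent.S1851

open Subgroup Cfsg.Agent.Lib
open scoped commutatorElement

variable {G : Type*} [Group G]

theorem mem_omega_iff (Q : Subgroup G) (y : G) :
    y ∈ omegaOne 2 (Q ⊓ centralizer (Q : Set G)) ↔
      y ∈ Q ∧ y ∈ centralizer (Q : Set G) ∧ y ^ 2 = 1 := by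
  constructor
  · intro hy
    unfold omegaOne at hy
    induction hy using Subgroup.closure_induction with
    | mem x hx => exact ⟨hx.1.1, hx.1.2, hx.2⟩
    | one => exact ⟨one_mem _, one_mem _, one_pow _⟩
    | mul a b _ _ ha hb =>
      refine ⟨mul_mem ha.1 hb.1, mul_mem ha.2.1 hb.2.1, ?_⟩
      have hc : Commute a b := (mem_centralizer_iff.mp hb.2.1 a ha.1)
      rw [hc.mul_pow, ha.2.2, hb.2.2, one_mul]
    | inv a _ ha => exact ⟨inv_mem ha.1, inv_mem ha.2.1, by rw [inv_pow, ha.2.2, inv_one]⟩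
  · rintro ⟨h1, h2, h3⟩
    exact subset_closure ⟨⟨h1, h2⟩, h3⟩

theorem pResidual_eq_top_of_perfect {Y : Type*} [Group Y] [Finite Y] (p : ℕ) [Fact p.Prime]
    (h : ⁅(⊤ : Subgroup Y), (⊤ : Subgroup Y)⁆ = ⊤) : pResidual p Y = ⊤ := by
  by_contra hne
  have hq := Helper17.pResidual_quotient_isPGroup (G := Y) (p := p)
  have hs : Group.IsSolvable (Y ⧸ pResidual p Y) := Helper10.isSolvable_of_isPGroup' hq
  have hnt : Nontrivial (Y ⧸ pResidual p Y) := by
    rw [QuotientGroup.nontrivial_iff]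
    exact hne
  have h1 := Group.IsSolvable.commutator_lt_top_of_nontrivial (Y ⧸ pResidual p Y)
  apply h1.ne
  rw [commutator_def]
  have h2 : (⊤ : Subgroup Y).map (QuotientGroup.mk' (pResidual p Y)) = ⊤ := by
    rw [← MonoidHom.range_eq_map]
    exact MonoidHom.range_eq_top.mpr (QuotientGroup.mk'_surjective _)
  rw [← h2, ← map_commutator, h]

theorem opOf_eq_of_perfect [Finite G] {X : Subgroup G} (h : ⁅X, X⁆ = X) :
    Helper17.opOf 2 X = X := by
  have : Fact (Nat.Prime 2) := ⟨Nat.prime_two⟩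
  have h1 : ⁅(⊤ : Subgroup X), (⊤ : Subgroup X)⁆ = ⊤ := by
    apply map_injective X.subtype_injective
    rw [map_commutator, ← MonoidHom.range_eq_map, range_subtype, h]
  show (pResidual 2 X).map X.subtype = X
  rw [pResidual_eq_top_of_perfect 2 h1, ← MonoidHom.range_eq_map, range_subtype]

theorem oddGenerated_eq_of_perfect [Finite G] {X : Subgroup G} (h : ⁅X, X⁆ = X) :
    oddGenerated X = X := by
  have h1 := opOf_eq_of_perfect h
  have h2 := Helper17.pResidual_map_subtype 2 X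
  have h3 : (pResidual 2 X).map X.subtype = X := h1
  unfold oddGenerated
  rw [h2] at h3
  conv_rhs => rw [← h3]
  congr 1
  ext g
  constructor
  · rintro ⟨a, b⟩; exact ⟨a, Nat.coprime_two_right.mpr b⟩
  · rintro ⟨a, b⟩; exact ⟨a, Nat.coprime_two_right.mp b⟩

structure Dat (T X : Subgroup G) : Prop where
  perf : ⁅X, X⁆ = X
  sub : (X.subgroupOf (X ⊔ T)).IsSubnormal
  RleT : pCoreOf 2 (X ⊔ T) ≤ T
  charp : (X ⊔ T) ⊓ centralizer (pCoreOf 2 (X ⊔ T) : Set G) ≤ pCoreOf 2 (X ⊔ T)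
  Rnorm : pCoreOf 2 (X ⊔ T) ≤ normalizer (X : Set G)
  QleR : pCoreOf 2 X ≤ pCoreOf 2 (X ⊔ T)

theorem dat_of [Finite G] (hE : IsOfEvenCharacteristic G) (T : Sylow 2 G) (X : Subgroup G)
    (hX : X ∈ calL (T : Subgroup G)) : Dat (T : Subgroup G) X := by
  have : Fact (Nat.Prime 2) := ⟨Nat.prime_two⟩
  obtain ⟨⟨_, hperf, hsub, _⟩, _, hne⟩ := hX
  obtain ⟨H, hH⟩ : ∃ H, H = X ⊔ (T : Subgroup G) := ⟨_, rfl⟩
  rw [← hH] at hperf hsub hne
  have hXH : X ≤ H := hH ▸ le_sup_left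
  have hTH : (T : Subgroup G) ≤ H := hH ▸ le_sup_right
  have hperf' : ⁅X, X⁆ = X := by
    have h6 := congrArg (Subgroup.map H.subtype) hperf
    rwa [map_commutator, map_subgroupOf_eq_of_le hXH] at h6
  have hRp : IsPGroup 2 (pCoreOf 2 H) := Helper17.pCoreOf_isPGroup 2 H
  have hHR : H ≤ normalizer (pCoreOf 2 H : Set G) := Helper17.le_normalizer_pCoreOf 2 H
  have hRT : pCoreOf 2 H ≤ T := Helper10.le_sylow_of_le_normalizer hRp T (hTH.trans hHR)
  have hRne : pCoreOf 2 H ≠ ⊥ := fun h => hne (Helper17.pCoreOf_eq_bot_iff.mp h)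
  -- the 2-local
  obtain ⟨M, hM⟩ : ∃ M, M = normalizer (pCoreOf 2 H : Set G) := ⟨_, rfl⟩
  have hMloc : IsTwoLocal M := ⟨pCoreOf 2 H, hRp, hRne, hM⟩
  have hHM : H ≤ M := hM ▸ hHR
  have hMc : IsOfCharacteristicTwo M := hE M hMloc ⟨T, hTH.trans hHM⟩
  have hMc' := Helper17.charP_iff.mp hMc
  have hR'T : pCoreOf 2 M ≤ T := Helper10.le_sylow_of_le_normalizer (Helper17.pCoreOf_isPGroup 2 M) T
    ((hTH.trans hHM).trans (Helper17.le_normalizer_pCoreOf 2 M))
  have hR'R : pCoreOf 2 M ≤ pCoreOf 2 H :=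
    Helper17.le_pCoreOf (hR'T.trans hTH) (hHM.trans (Helper17.le_normalizer_pCoreOf 2 M))
      (Helper17.pCoreOf_isPGroup 2 M)
  have hRR' : pCoreOf 2 H ≤ pCoreOf 2 M :=
    Helper17.le_pCoreOf ((Helper17.pCoreOf_le 2 H).trans hHM) (hM ▸ le_rfl) hRp
  have hReq : pCoreOf 2 M = pCoreOf 2 H := le_antisymm hR'R hRR'
  rw [hReq] at hMc'
  have hcharp : H ⊓ centralizer (pCoreOf 2 H : Set G) ≤ pCoreOf 2 H :=
    (inf_le_inf_right _ hHM).trans hMc'
  have hRn : pCoreOf 2 H ≤ normalizer (X : Set G) := by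
    have h1 := Helper17.pCore_le_normalizer_opOf (p := 2) hsub
    rw [opOf_eq_of_perfect hperf] at h1
    apply Helper17.le_normalizer_of_conj_mem
    rintro _ ⟨r, hr, rfl⟩ x hx
    have h2 := Helper17.conj_mem_of_le_normalizer h1 hr
      (show (⟨x, hXH hx⟩ : H) ∈ X.subgroupOf H from hx)
    exact h2
  have hQR : pCoreOf 2 X ≤ pCoreOf 2 H := by
    have hQH : pCoreOf 2 X ≤ H := (Helper17.pCoreOf_le 2 X).trans hXH
    have hsn : ((pCoreOf 2 X).subgroupOf H).IsSubnormal := by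
      have hle : (pCoreOf 2 X).subgroupOf H ≤ X.subgroupOf H :=
        comap_mono (Helper17.pCoreOf_le 2 X)
      refine IsSubnormal.step _ (X.subgroupOf H) hle hsub ?_
      rw [normal_subgroupOf_iff_le_normalizer hle]
      apply Helper17.le_normalizer_of_conj_mem
      intro k hk x hx
      exact Helper17.conj_mem_of_le_normalizer (Helper17.le_normalizer_pCoreOf 2 X) hk hx
    have hp : IsPGroup 2 ((pCoreOf 2 X).subgroupOf H) :=
      (Helper17.pCoreOf_isPGroup 2 X).comap_subtype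
    have h3 := Helper17.subnormal_pgroup_le_pCore hsn hp
    intro q hq
    exact (Helper17.mem_pCoreOf_iff (hQH hq)).mpr (h3 hq)
  subst hH
  exact ⟨hperf', hsub, hRT, hcharp, hRn, hQR⟩

theorem conj_mem_omega {Q : Subgroup G} {g y : G} (hg : g ∈ normalizer (Q : Set G))
    (hy : y ∈ omegaOne 2 (Q ⊓ centralizer (Q : Set G))) :
    g * y * g⁻¹ ∈ omegaOne 2 (Q ⊓ centralizer (Q : Set G)) := by
  rw [mem_omega_iff] at hy ⊢
  refine ⟨(mem_normalizer_iff.mp hg y).mp hy.1, ?_, ?_⟩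
  · exact Helper17.conj_mem_of_le_normalizer (Helper17.normalizer_le_normalizer_centralizer Q)
      hg hy.2.1
  · rw [conj_pow, hy.2.2]; simp

/-- `Ω₁(Z(O₂(Y)))`. -/
abbrev UU (Y : Subgroup G) : Subgroup G :=
  omegaOne 2 (pCoreOf 2 Y ⊓ centralizer (pCoreOf 2 Y : Set G))

theorem moduleV_eq_bot [Finite G] {T K L : Subgroup G} (dK : Dat T K) (dL : Dat T L)
    (hLK : L ≤ K) (hodd : oddGenerated L = L) (h : ⁅UU K, K⁆ = ⊥) : ⁅UU L, L⁆ = ⊥ := by
  have : Fact (Nat.Prime 2) := ⟨Nat.prime_two⟩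
  have hKHK : K ≤ K ⊔ T := le_sup_left
  have hLHL : L ≤ L ⊔ T := le_sup_left
  have hHLHK : L ⊔ T ≤ K ⊔ T := sup_le_sup_right hLK T
  have hW : ⁅UU (K ⊔ T), K⁆ ≤ UU K := by
    rw [commutator_le]
    intro w hw k hk
    have hkN : k ∈ normalizer (pCoreOf 2 (K ⊔ T) : Set G) :=
      Helper17.le_normalizer_pCoreOf 2 _ (hKHK hk)
    have hw' := (mem_omega_iff _ _).mp hw
    have h1 : ⁅w, k⁆ ∈ UU (K ⊔ T) := by
      have e : ⁅w, k⁆ = w * (k * w⁻¹ * k⁻¹) := by rw [commutatorElement_def]; group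
      rw [e]; exact mul_mem hw (conj_mem_omega hkN (inv_mem hw))
    have h2 : ⁅w, k⁆ ∈ K := by
      rw [commutatorElement_def]
      exact mul_mem (Helper17.conj_mem_of_le_normalizer dK.Rnorm hw'.1 hk) (inv_mem hk)
    have h1' := (mem_omega_iff _ _).mp h1
    rw [mem_omega_iff]
    exact ⟨Helper17.inf_pCoreOf_le_pCoreOf hKHK ⟨h1'.1, h2⟩,
      centralizer_le (SetLike.coe_subset_coe.mpr dK.QleR) h1'.2.1, h1'.2.2⟩
  have hKW : ⁅K, UU (K ⊔ T)⁆ = ⊥ := by
    have h2 : ⁅⁅UU (K ⊔ T), K⁆, K⁆ = ⊥ := by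
      rw [eq_bot_iff, ← h]
      exact commutator_mono hW le_rfl
    have h3 : ⁅⁅K, UU (K ⊔ T)⁆, K⁆ = ⊥ := by rw [commutator_comm K]; exact h2
    have h4 := commutator_commutator_eq_bot_of_rotate h3 h2
    rwa [dK.perf] at h4
  have hRKRL : pCoreOf 2 (K ⊔ T) ≤ pCoreOf 2 (L ⊔ T) :=
    Helper17.le_pCoreOf (dK.RleT.trans le_sup_right)
      (hHLHK.trans (Helper17.le_normalizer_pCoreOf 2 _)) (Helper17.pCoreOf_isPGroup 2 _)
  have hII : ∀ v ∈ UU L, v ∈ centralizer (pCoreOf 2 (L ⊔ T) : Set G) →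
      ∀ l ∈ L, l * v = v * l := by
    intro v hv hvc l hl
    have hv' := (mem_omega_iff _ _).mp hv
    have h1 : v ∈ K ⊔ T := (le_sup_right : T ≤ K ⊔ T) (dL.RleT (dL.QleR hv'.1))
    have h2 : v ∈ centralizer (pCoreOf 2 (K ⊔ T) : Set G) :=
      centralizer_le (SetLike.coe_subset_coe.mpr hRKRL) hvc
    have h3 : v ∈ pCoreOf 2 (K ⊔ T) := dK.charp ⟨h1, h2⟩
    have h4 : v ∈ UU (K ⊔ T) := (mem_omega_iff _ _).mpr ⟨h3, h2, hv'.2.2⟩
    exact Helper10.commute_of_commutator_eq_bot hKW l (hLK hl) v h4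
  have hNU : normalizer (pCoreOf 2 L : Set G) ≤ normalizer (UU L : Set G) :=
    Helper17.le_normalizer_of_conj_mem fun k hk y hy => conj_mem_omega hk hy
  have hULQ : UU L ≤ pCoreOf 2 L := fun y hy => ((mem_omega_iff _ _).mp hy).1
  have hIII : ∀ x ∈ L, Odd (orderOf x) → x ∈ centralizer (UU L : Set G) := by
    intro x hx hxo
    have hcomm : IsMulCommutative (UU L) := by
      refine ⟨⟨fun a b => Subtype.ext ?_⟩⟩
      exact mem_centralizer_iff.mp ((mem_omega_iff _ _).mp b.2).2.1 a (hULQ a.2)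
    have hAV : zpowers x ≤ normalizer (UU L : Set G) := by
      rw [zpowers_le]
      exact hNU (Helper17.le_normalizer_pCoreOf 2 L hx)
    have hcop : (Nat.card (zpowers x)).Coprime (Nat.card (UU L)) := by
      have hp2 : IsPGroup 2 (UU L) := (Helper17.pCoreOf_isPGroup 2 L).to_le hULQ
      obtain ⟨n, hn⟩ := IsPGroup.iff_card.mp hp2
      rw [hn, Nat.card_zpowers]
      exact Nat.Coprime.pow_right _ (Nat.coprime_two_right.mpr hxo)
    have hinf := Helper1.coprime_abelian_inf (zpowers x) (UU L) hAV hcop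
    by_contra hnot
    have hB : ⁅UU L, zpowers x⁆ ≠ ⊥ := by
      intro hb
      apply hnot
      have h5 := le_centralizer_iff.mp (commutator_eq_bot_iff_le_centralizer.mp hb)
      exact h5 (mem_zpowers x)
    have hBV : ⁅UU L, zpowers x⁆ ≤ UU L := le_normalizer_iff_commutator_le_left.mp hAV
    have hRLB : pCoreOf 2 (L ⊔ T) ≤ normalizer ((⁅UU L, zpowers x⁆ : Subgroup G) : Set G) := by
      apply Helper17.le_normalizer_of_conj_mem
      intro r hr b hb
      have hmap : (⁅UU L, zpowers x⁆).map (MulAut.conj r).toMonoidHom ≤ ⁅UU L, zpowers x⁆ := by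
        rw [map_commutator, commutator_le]
        rintro _ ⟨v, hv, rfl⟩ _ ⟨a, ha, rfl⟩
        have haL : a ∈ L := (zpowers_le.mpr hx) ha
        have hrN : r ∈ normalizer (pCoreOf 2 L : Set G) :=
          Helper17.normalizer_le_normalizer_pCoreOf 2 L (dL.Rnorm hr)
        have hv' : r * v * r⁻¹ ∈ UU L := conj_mem_omega hrN hv
        have hq1 : a⁻¹ * (r * a * r⁻¹) ∈ L :=
          mul_mem (inv_mem haL) (Helper17.conj_mem_of_le_normalizer dL.Rnorm hr haL)
        have hq2 : a⁻¹ * (r * a * r⁻¹) ∈ pCoreOf 2 (L ⊔ T) := by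
          have h6 := Helper17.conj_mem_of_le_normalizer (Helper17.le_normalizer_pCoreOf 2 (L ⊔ T))
            (hLHL (inv_mem haL)) hr
          have e : a⁻¹ * (r * a * r⁻¹) = (a⁻¹ * r * a⁻¹⁻¹) * r⁻¹ := by group
          rw [e]; exact mul_mem h6 (inv_mem hr)
        have hq : a⁻¹ * (r * a * r⁻¹) ∈ pCoreOf 2 L :=
          Helper17.inf_pCoreOf_le_pCoreOf hLHL ⟨hq2, hq1⟩
        have hqc := mem_centralizer_iff.mp ((mem_omega_iff _ _).mp (inv_mem hv')).2.1 _ hq
        have e2 : ⁅r * v * r⁻¹, r * a * r⁻¹⁆ = ⁅r * v * r⁻¹, a⁆ := by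
          obtain ⟨q, hqdef⟩ : ∃ q, q = a⁻¹ * (r * a * r⁻¹) := ⟨_, rfl⟩
          obtain ⟨v', hv'def⟩ : ∃ v', v' = r * v * r⁻¹ := ⟨_, rfl⟩
          rw [← hqdef, ← hv'def] at hqc
          have e3 : r * a * r⁻¹ = a * q := by rw [hqdef]; group
          rw [e3, ← hv'def, commutatorElement_def, commutatorElement_def]
          calc v' * (a * q) * v'⁻¹ * (a * q)⁻¹ = v' * a * (q * v'⁻¹) * q⁻¹ * a⁻¹ := by group
            _ = v' * a * (v'⁻¹ * q) * q⁻¹ * a⁻¹ := by rw [hqc]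
            _ = v' * a * v'⁻¹ * a⁻¹ := by group
        show ⁅r * v * r⁻¹, r * a * r⁻¹⁆ ∈ _
        rw [e2]
        exact commutator_mem_commutator hv' ha
      exact hmap ⟨b, hb, rfl⟩
    obtain ⟨z, hzB, hz2, hzc⟩ := Helper10.exists_mem_center_of_le_normalizer
      (Helper17.pCoreOf_isPGroup 2 (L ⊔ T)) hB ((hBV.trans hULQ).trans dL.QleR) hRLB
    have hzcent : z ∈ centralizer (pCoreOf 2 (L ⊔ T) : Set G) := by
      rw [mem_centralizer_iff]; exact hzc
    have hzL := hII z (hBV hzB) hzcent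
    have hz1 : z ∈ (UU L ⊓ centralizer ((zpowers x : Subgroup G) : Set G)) ⊓ ⁅UU L, zpowers x⁆ := by
      have hzx : z ∈ centralizer ((zpowers x : Subgroup G) : Set G) := by
        rw [mem_centralizer_iff]
        intro a ha
        exact hzL a ((zpowers_le.mpr hx) ha)
      exact ⟨⟨hBV hzB, hzx⟩, hzB⟩
    rw [hinf, mem_bot] at hz1
    rw [hz1, orderOf_one] at hz2
    omega
  rw [commutator_eq_bot_iff_le_centralizer, le_centralizer_iff]
  conv_lhs => rw [← hodd]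
  unfold oddGenerated
  rw [closure_le]
  intro x hx
  exact hIII x hx.1 hx.2

/-- Let G be a non-abelian finite simple QTKE-group and T a Sylow 2-subgroup of G, and let L be a member of ℒ_f(G, T) (a member of ℒ(G, T) that lies in 𝒳 — L ≠ 1, L = O²(L), F*(L) = O₂(L) — and acts nontrivially on Ω₁(Z(O₂(L)))). Then (1) every member K of ℒ(G, T) containing L is again in ℒ_f(G, T) (a sharper form of (1) also compares the modules [Ω₁(Z(R)), L] and [Ω₁(Z(R')), K] for suitable 2-subgroups R, R'; that comparison is not included); and (2) if L is maximal under inclusion among the members of ℒ_f(G, T), then L is a maximal member of ℒ(G, T), hence a member of ℒ_f*(G, T). -/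
theorem result {G : Type*} [Group G] [Finite G] [IsSimpleGroup G]
    (hG : ¬ IsMulCommutative G) (hQ : Cfsg.IsQTKE G) (T : Sylow 2 G) (L : Subgroup G)
    (hL : L ∈ Cfsg.calLf (T : Subgroup G)) :
    (∀ K ∈ Cfsg.calL (T : Subgroup G), L ≤ K → K ∈ Cfsg.calLf (T : Subgroup G)) ∧
    ((∀ K ∈ Cfsg.calLf (T : Subgroup G), L ≤ K → K = L) → L ∈ Cfsg.calLfMax (T : Subgroup G)) := by
  have : Fact (Nat.Prime 2) := ⟨Nat.prime_two⟩
  have h1 : ∀ K ∈ Cfsg.calL (T : Subgroup G), L ≤ K → K ∈ Cfsg.calLf (T : Subgroup G) := by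
    intro K hK hLK
    have dK := dat_of hQ.2.2 T K hK
    have dL := dat_of hQ.2.2 T L hL.1
    obtain ⟨⟨hLne, hLodd, _⟩, hLV⟩ := hL.2
    refine ⟨hK, ⟨?_, oddGenerated_eq_of_perfect dK.perf, ?_⟩, ?_⟩
    · intro hb
      apply hLne
      rw [eq_bot_iff, ← hb]; exact hLK
    · show generalizedFittingSubgroup K = pCore 2 K
      rw [← Helper10.charPT_iff_genFitting_eq]
      have c1 : Helper10.CharPT 2 ↥(K ⊔ (T : Subgroup G)) :=
        Helper10.charPT_iff_centralizer_le.mpr (Helper17.charP_iff.mpr dK.charp)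
      have c2 := Helper10.charPT_of_isSubnormal c1 _ dK.sub
      exact Helper10.charPT_of_mulEquiv (subgroupOfEquivOfLe le_sup_left) c2
    · intro hb
      exact hLV (moduleV_eq_bot dK dL hLK hLodd hb)
  refine ⟨h1, fun hmax => ⟨⟨hL.1, fun K hK hLK => hmax K (h1 K hK hLK) hLK⟩, hL.2⟩⟩

end Cfsg.Agent.S1851
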