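import Cfsg.Statements.S1960
-- import your own Cfsg.Agent.* helpers here
import Cfsg.Agent.Lib.Helper13.TransferLG

set_option autoImplicit false
open Cfsg

namespace Cfsg.Agent.S1960

open Cfsg.Agent.Lib.Helper13

/-- Let p be a prime, G a finite group with Sylow p-subgroup S, and 𝓦 a set of conjugacy functors for p on G. Suppose that 𝓦 controls transfer in N_G(T) for every nonidentity subgroup T of S for which N_S(T) is a Sylow p-subgroup of N_G(T): for a Sylow p-subgroup T' of N_G(T), the intersection of T' with the derived subgroup of N_G(T) is generated by its intersections with the derived subgroups of the normalizers in N_G(T) of the W(T'), W ∈ 𝓦. Then 𝓦 controls transfer in G: S ∩ G' is generated by the subgroups S ∩ (N_G(W(S)))', W ∈ 𝓦. -/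
theorem result {G : Type*} [Group G] [Finite G] {p : ℕ} [Fact p.Prime] (S : Sylow p G) (𝓦 : Set (Subgroup G → Subgroup G)) (h𝓦 : ∀ W ∈ 𝓦, Cfsg.IsConjugacyFunctor p W) (hloc : ∀ T : Subgroup G, T ≤ (S : Subgroup G) → T ≠ ⊥ → ¬ p ∣ ((S : Subgroup G) ⊓ Subgroup.normalizer ((T : Subgroup G) : Set G)).relIndex (Subgroup.normalizer ((T : Subgroup G) : Set G)) → Cfsg.FamilyControlsTransferIn p 𝓦 (Subgroup.normalizer ((T : Subgroup G) : Set G))) : Cfsg.FamilyControlsTransferIn p 𝓦 ⊤ := by
  refine ⟨S, le_top, S.2, not_dvd_relIndex_top S, le_antisymm ?_ ?_⟩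
  · refine transfer_top_of_local S 𝓦 h𝓦 {U | U ≤ (S : Subgroup G) ∧ FN p (S : Subgroup G) U}
      (fun A hA => by
        obtain ⟨h, h1, h2⟩ := exists_FN_conj S A (S.2.to_le hA)
        exact ⟨_, ⟨h1, h2⟩, h1, ⟨h, rfl⟩, h2⟩) _ (fun W hW => ?_) ?_
    · simp only [top_inf_eq]
      exact le_iSup₂_of_le W hW le_rfl
    · intro V _ hVS hVb hFN
      exact (familyTransfer_le h𝓦 (hloc V hVS hVb hFN) inf_le_right (S.2.to_le inf_le_left) hFN).le
  · exact iSup₂_le fun W hW => inf_le_inf_left _ (Subgroup.commutator_mono le_top le_top)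

end Cfsg.Agent.S1960
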