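import Cfsg.Statements.S1961
-- import your own Cfsg.Agent.* helpers here
import Cfsg.Agent.Lib.Helper13.ControlLG

set_option autoImplicit false
open Cfsg

namespace Cfsg.Agent.S1961

open Cfsg.Agent.Lib.Helper13

/-- Local-to-global control of strong fusion through well-placed subgroups. Let p be a prime, G a finite group with Sylow p-subgroup S, and W a conjugacy functor for p on G. If W controls strong fusion in N_G(T) for every nonidentity subgroup T of S that is well placed in S with respect to W, then W controls strong fusion in G. -/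
theorem result {G : Type*} [Group G] [Finite G] {p : ℕ} [Fact p.Prime] (S : Sylow p G) (W : Subgroup G → Subgroup G) (hW : Cfsg.IsConjugacyFunctor p W) (hloc : ∀ T : Subgroup G, T ≠ ⊥ → Cfsg.IsWellPlaced p W (S : Subgroup G) T → Cfsg.ControlsStrongFusionIn p W (Subgroup.normalizer ((T : Subgroup G) : Set G))) : Cfsg.ControlsStrongFusionIn p W ⊤ := by
  refine controls_iff.mpr ⟨S, le_top, S.2, not_dvd_relIndex_top S, CSF_iff_FCSF.mpr ?_⟩
  refine FCSF_top_of_local S {W} (by rintro W' rfl; exact hW)
    {U | Cfsg.IsWellPlaced p W (S : Subgroup G) U}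
    (fun A hA => by
      obtain ⟨g, hg, -⟩ := exists_wellPlaced_cj S hW A hA
      exact ⟨_, hg, hg.1, ⟨g, rfl⟩, hg.2 0⟩) ?_
  intro V hV hVS hVb hFN
  exact CSF_iff_FCSF.mp
    (CSF_of_controls hW (hloc V hVb hV) inf_le_right (S.2.to_le inf_le_left) hFN)

end Cfsg.Agent.S1961
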