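import Cfsg.Statements.S1962
-- import your own Cfsg.Agent.* helpers here
import Cfsg.Agent.Lib.Helper13.TransferLG

set_option autoImplicit false
open Cfsg

namespace Cfsg.Agent.S1962

open Cfsg.Agent.Lib.Helper13

/-- Local-to-global control of transfer through well-placed subgroups. Let p be a prime, G a finite group with Sylow p-subgroup S, and W a conjugacy functor for p on G. If W controls transfer in N_G(T) for every nonidentity subgroup T of S that is well placed in S with respect to W, then W controls transfer in G: S ∩ G' = S ∩ (N_G(W(S)))'. -/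
theorem result {G : Type*} [Group G] [Finite G] {p : ℕ} [Fact p.Prime] (S : Sylow p G) (W : Subgroup G → Subgroup G) (hW : Cfsg.IsConjugacyFunctor p W) (hloc : ∀ T : Subgroup G, T ≠ ⊥ → Cfsg.IsWellPlaced p W (S : Subgroup G) T → Cfsg.ControlsTransferIn p W (Subgroup.normalizer ((T : Subgroup G) : Set G))) : Cfsg.ControlsTransferIn p W ⊤ := by
  refine ⟨S, le_top, S.2, not_dvd_relIndex_top S, le_antisymm ?_ ?_⟩
  · refine transfer_top_of_local S {W} (by rintro W' rfl; exact hW)
      {U | Cfsg.IsWellPlaced p W (S : Subgroup G) U}
      (fun A hA => by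
        obtain ⟨g, hg, -⟩ := exists_wellPlaced_cj S hW A hA
        exact ⟨_, hg, hg.1, ⟨g, rfl⟩, hg.2 0⟩) _ ?_ ?_
    · rintro W' rfl
      simp only [top_inf_eq]
      exact le_rfl
    · intro V hV hVS hVb hFN
      rw [iSup_singleton]
      exact (transfer_eq hW (hloc V hVb hV) inf_le_right (S.2.to_le inf_le_left) hFN).le
  · exact inf_le_inf_left _ (Subgroup.commutator_mono le_top le_top)

end Cfsg.Agent.S1962
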