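import Cfsg.Statements.S1965
-- import your own Cfsg.Agent.* helpers here
import Cfsg.Agent.Lib.Helper13.Chain

set_option autoImplicit false
open Cfsg

namespace Cfsg.Agent.S1965

open Cfsg.Agent.Lib.Helper13

/-- Let p be a prime, G a finite group with Sylow p-subgroup S and 𝓕 a set of subgroups of S. Suppose that every subgroup T of S is G-conjugate to some member U of 𝓕 for which N_S(U) is a Sylow p-subgroup of N_G(U). Then 𝓕 is a conjugation family for S in G. -/
theorem result {G : Type*} [Group G] [Finite G] {p : ℕ} [Fact p.Prime] (S : Sylow p G) (𝓕 : Set (Subgroup G)) (h𝓕 : ∀ U ∈ 𝓕, U ≤ (S : Subgroup G)) (h : ∀ T : Subgroup G, T ≤ (S : Subgroup G) → ∃ U ∈ 𝓕, (∃ g : G, T.map (MulAut.conj g).toMonoidHom = U) ∧ ¬ p ∣ ((S : Subgroup G) ⊓ Subgroup.normalizer ((U : Subgroup G) : Set G)).relIndex (Subgroup.normalizer ((U : Subgroup G) : Set G))) : Cfsg.IsConjugationFamily 𝓕 (S : Subgroup G) := by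
  refine ⟨h𝓕, fun A g _ hA hAg => ?_⟩
  let D : Subgroup G → Subgroup G := id
  let R : Subgroup G → G → Prop := fun T x => T ∈ 𝓕 ∧ x ∈ Subgroup.normalizer (T : Set G)
  have core := alperin_core S (Chain D R) (fun A B g hB hc => hc.mono B hB)
    (fun A g k h1 h2 => h1.trans k h2)
    (fun A g hc => hc.inv (fun t x hx => ⟨⟨hx.1, inv_mem hx.2⟩, hx.2⟩)) 𝓕
    (fun A hA => by
      obtain ⟨U, hU, ⟨g, hg⟩, hFN⟩ := h A hA
      exact ⟨U, hU, h𝓕 U hU, ⟨g⁻¹, by rw [← hg, map_conj_eq_cj]⟩, hFN⟩)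
    (fun U hU _ _ _ y hy => Chain.single (t := U) ⟨hU, hy⟩ le_rfl)
    (Subgroup.closure A) ((Subgroup.closure_le _).mpr hA) g (cj_closure_le_of_image_subset hAg)
  obtain ⟨n, t, x, hprod, hR, h0, hs⟩ := core.toFin
  exact ⟨n, t, x, hprod, fun i => (hR i).1, fun i => (hR i).2,
    fun h => Subgroup.subset_closure.trans (h0 h), fun i h => image_subset_of_cj_le (hs i h)⟩

end Cfsg.Agent.S1965
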