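import Cfsg.Statements.S1966
-- import your own Cfsg.Agent.* helpers here
import Cfsg.Agent.Lib.Helper17.Core

set_option autoImplicit false
open Cfsg

namespace Cfsg.Agent.S1966

/-- Let p be a prime, G a finite group with Sylow p-subgroup S and 𝓕 a conjugation family for S in G. Then the members of 𝓕 containing O_p(G) still form a conjugation family for S in G. -/
theorem result {G : Type*} [Group G] [Finite G] {p : ℕ} [Fact p.Prime] (S : Sylow p G) (𝓕 : Set (Subgroup G)) (h : Cfsg.IsConjugationFamily 𝓕 (S : Subgroup G)) : Cfsg.IsConjugationFamily {T : Subgroup G | T ∈ 𝓕 ∧ Cfsg.pCore p G ≤ T} (S : Subgroup G) := by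
  have hOS : Cfsg.pCore p G ≤ (S : Subgroup G) := Cfsg.Agent.Lib.Helper17.pCore_le_sylow S
  have hON : (Cfsg.pCore p G).Normal := Subgroup.sSup_normal _ (fun N hN => hN.1)
  refine ⟨fun T hT => h.1 T hT.1, fun A g hne hA hAg => ?_⟩
  obtain ⟨n, T, x, hprod, hT, hx, h0, hs⟩ := h.2 (A ∪ (Cfsg.pCore p G : Set G)) g
    (hne.mono Set.subset_union_left) (Set.union_subset hA hOS) (by
      rintro _ ⟨a, ha | ha, rfl⟩
      · exact hAg ⟨a, ha, rfl⟩
      · apply hOS
        have := hON.conj_mem a ha g⁻¹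
        simpa using this)
  refine ⟨n, T, x, hprod, fun i => ⟨hT i, ?_⟩, hx, fun h => Set.subset_union_left.trans (h0 h),
    fun i h => (Set.image_mono Set.subset_union_left).trans (hs i h)⟩
  obtain ⟨i, hi⟩ := i
  rcases Nat.eq_zero_or_pos i with rfl | hpos
  · exact Set.subset_union_right.trans (h0 hi)
  · obtain ⟨j, rfl⟩ : ∃ j, i = j + 1 := ⟨i - 1, by omega⟩
    intro a ha
    have := hs ⟨j, by omega⟩ hi
    apply this
    refine ⟨((List.ofFn x).take (j + 1)).prod * a * (((List.ofFn x).take (j + 1)).prod)⁻¹,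
      Or.inr (hON.conj_mem a ha _), ?_⟩
    simp only
    group

end Cfsg.Agent.S1966
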