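import Cfsg.Statements.S1967
-- import your own Cfsg.Agent.* helpers here
import Cfsg.Agent.Lib.Helper13.Control

set_option autoImplicit false
open Cfsg

namespace Cfsg.Agent.S1967

open Cfsg.Agent.Lib.Helper13

/-- Let p be a prime, G a finite group with Sylow p-subgroup S and W a conjugacy functor for p on G. Then W controls strong fusion in G if and only if, whenever T ≤ S and g ∈ G satisfy gTg⁻¹ ≤ S, one can write g = n c with n ∈ N_G(W(S)) and c ∈ C_G(T). -/
theorem result {G : Type*} [Group G] [Finite G] {p : ℕ} [Fact p.Prime] (S : Sylow p G) (W : Subgroup G → Subgroup G) (hW : Cfsg.IsConjugacyFunctor p W) : Cfsg.ControlsStrongFusionIn p W ⊤ ↔ ∀ (T : Subgroup G) (g : G), T ≤ (S : Subgroup G) → T.map (MulAut.conj g).toMonoidHom ≤ (S : Subgroup G) → ∃ n ∈ Subgroup.normalizer ((W (S : Subgroup G) : Subgroup G) : Set G), ∃ c ∈ Subgroup.centralizer (T : Set G), g = n * c := by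
  have hSi : ¬ p ∣ (S : Subgroup G).relIndex ⊤ := by
    rw [Subgroup.relIndex_top_right]; exact S.not_dvd_index
  constructor
  · intro h T g hT hTg
    have h1 := CSF_of_controls hW h (R := S) le_top S.2 hSi
    rw [map_conj_eq_cj] at hTg
    obtain ⟨x, hx, e⟩ := h1 T hT g⁻¹ (Subgroup.mem_top _) hTg
    refine ⟨x⁻¹, inv_mem (Subgroup.mem_inf.mp hx).2, x * g, ?_, by group⟩
    rw [Subgroup.mem_centralizer_iff]
    intro a ha
    have := e a ha
    rw [inv_inv] at this
    calc a * (x * g) = x * (x⁻¹ * a * x) * g := by group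
      _ = x * (g * a * g⁻¹) * g := by rw [this]
      _ = x * g * a := by group
  · intro h
    refine controls_iff.mpr ⟨S, le_top, S.2, hSi, ?_⟩
    intro B hB g _ hBg
    obtain ⟨n, hn, c, hc, e⟩ := h B g⁻¹ hB hBg
    refine ⟨n⁻¹, Subgroup.mem_inf.mpr ⟨Subgroup.mem_top _, inv_mem hn⟩, fun a ha => ?_⟩
    have h2 := (Subgroup.mem_centralizer_iff.mp hc) a ha
    have e2 : g = c⁻¹ * n⁻¹ := by rw [← inv_inv g, e]; group
    calc n⁻¹⁻¹ * a * n⁻¹ = n * (a * c) * c⁻¹ * n⁻¹ := by group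
      _ = n * (c * a) * c⁻¹ * n⁻¹ := by rw [h2]
      _ = (n * c) * a * (c⁻¹ * n⁻¹) := by group
      _ = g⁻¹ * a * g := by rw [← e, ← e2]

end Cfsg.Agent.S1967
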