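import Cfsg.Statements.S1968
-- import your own Cfsg.Agent.* helpers here
import Cfsg.Agent.Lib.Helper13.WellPlaced
import Cfsg.Agent.Lib.Helper13.Chain

set_option autoImplicit false
open Cfsg

namespace Cfsg.Agent.S1968

open Cfsg.Agent.Lib.Helper13

theorem chain_fix {G : Type*} [Group G] {ι : Type*} {D : ι → Subgroup G} {R : ι → G → Prop}
    {A0 : Subgroup G} (h : ∀ t x, R t x → A0 ≤ D t → cj A0 x = A0) {A : Subgroup G} {g : G}
    (hc : Chain D R A g) : A = A0 → cj A g = A0 := by
  induction hc with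
  | nil A => intro e; rw [cj_one, e]
  | cons A t x g h1 h2 _ ih =>
    intro e
    rw [← cj_cj]
    apply ih
    rw [e]
    exact h t x h1 (e ▸ h2)

/-- Let p be a prime, G a finite group with Sylow p-subgroup S and W a conjugacy functor for p on G with Z(P) ≤ W(P) for every p-subgroup P. Let A be a subgroup of Z(S) normalized by N_G(W(S)) that is not weakly closed in S with respect to G. Then there is a subgroup T of S, well placed in S with respect to W, such that: A ≤ T; N_G(W(N_S(T))) normalizes A; N_S(T) is a Sylow p-subgroup of N_G(T); A ≤ Z(N_S(T)); and A is not weakly closed in N_S(T) with respect to N_G(T), that is, some N_G(T)-conjugate of A other than A lies in N_S(T). -/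
theorem result {G : Type*} [Group G] [Finite G] {p : ℕ} [Fact p.Prime] (S : Sylow p G) (W : Subgroup G → Subgroup G) (hW : Cfsg.IsConjugacyFunctor p W) (hWZ : ∀ P : Subgroup G, IsPGroup p ↥P → P ⊓ Subgroup.centralizer (P : Set G) ≤ W P) (A : Subgroup G) (hAZ : A ≤ (S : Subgroup G) ⊓ Subgroup.centralizer ((S : Subgroup G) : Set G)) (hAN : Subgroup.normalizer ((W (S : Subgroup G) : Subgroup G) : Set G) ≤ Subgroup.normalizer ((A : Subgroup G) : Set G)) (hnwc : ¬ Cfsg.IsWeaklyClosed A (S : Subgroup G)) : ∃ T : Subgroup G, Cfsg.IsWellPlaced p W (S : Subgroup G) T ∧ A ≤ T ∧ Subgroup.normalizer ((W ((S : Subgroup G) ⊓ Subgroup.normalizer ((T : Subgroup G) : Set G)) : Subgroup G) : Set G) ≤ Subgroup.normalizer ((A : Subgroup G) : Set G) ∧ ¬ p ∣ ((S : Subgroup G) ⊓ Subgroup.normalizer ((T : Subgroup G) : Set G)).relIndex (Subgroup.normalizer ((T : Subgroup G) : Set G)) ∧ A ≤ Subgroup.centralizer (((S : Subgroup G) ⊓ Subgroup.normalizer ((T : Subgroup G) : Set G) : Subgroup G) : Set G) ∧ ∃ g ∈ Subgroup.normalizer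 ((T : Subgroup G) : Set G), A.map (MulAut.conj g).toMonoidHom ≤ (S : Subgroup G) ⊓ Subgroup.normalizer ((T : Subgroup G) : Set G) ∧ A.map (MulAut.conj g).toMonoidHom ≠ A := by
  have hAS : A ≤ (S : Subgroup G) := hAZ.trans inf_le_left
  have hAC : A ≤ Subgroup.centralizer ((S : Subgroup G) : Set G) := hAZ.trans inf_le_right
  -- step 1 : some well placed subgroup
  have step1 : ∃ T : Subgroup G, Cfsg.IsWellPlaced p W (S : Subgroup G) T ∧ A ≤ T ∧
      ¬ Subgroup.normalizer (T : Set G) ≤ Subgroup.normalizer (A : Set G) := by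
    by_contra hcon
    push Not at hcon
    apply hnwc
    refine ⟨hAS, fun g hg => ?_⟩
    rw [map_conj_eq_cj] at hg ⊢
    have core := alperin_core S
      (Chain (id : Subgroup G → Subgroup G)
        (fun T x => Cfsg.IsWellPlaced p W (S : Subgroup G) T ∧ x ∈ Subgroup.normalizer (T : Set G)))
      (fun A B g hB hc => hc.mono B hB)
      (fun A g k h1 h2 => h1.trans k h2)
      (fun A g hc => hc.inv (fun t x hx => ⟨⟨hx.1, inv_mem hx.2⟩, hx.2⟩))
      {T | Cfsg.IsWellPlaced p W (S : Subgroup G) T}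
      (fun A hA => by
        obtain ⟨g, hg, -⟩ := exists_wellPlaced_cj S hW A hA
        exact ⟨_, hg, hg.1, ⟨g, rfl⟩, hg.2 0⟩)
      (fun U hU _ _ _ y hy => Chain.single (t := U) ⟨hU, hy⟩ le_rfl)
      A hAS g⁻¹ hg
    exact chain_fix (fun T x hx hAT => mem_normalizer_iff_cj.mp (hcon T hx.1 hAT hx.2)) core rfl
  -- step 2 : climb
  have step2 : ∀ n : ℕ, ∀ T : Subgroup G, Cfsg.IsWellPlaced p W (S : Subgroup G) T → A ≤ T →
      ¬ Subgroup.normalizer (T : Set G) ≤ Subgroup.normalizer (A : Set G) →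
      Nat.card (S : Subgroup G) - Nat.card ↥((S : Subgroup G) ⊓ Subgroup.normalizer (T : Set G)) = n →
      ∃ T : Subgroup G, Cfsg.IsWellPlaced p W (S : Subgroup G) T ∧ A ≤ T ∧
        ¬ Subgroup.normalizer (T : Set G) ≤ Subgroup.normalizer (A : Set G) ∧
        Subgroup.normalizer ((W ((S : Subgroup G) ⊓ Subgroup.normalizer ((T : Subgroup G) : Set G)) :
          Subgroup G) : Set G) ≤ Subgroup.normalizer ((A : Subgroup G) : Set G) := by
    intro n
    induction n using Nat.strong_induction_on with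
    | _ n ih =>
      intro T hwp hAT hN hn
      by_cases hc : Subgroup.normalizer ((W ((S : Subgroup G) ⊓
          Subgroup.normalizer ((T : Subgroup G) : Set G)) : Subgroup G) : Set G) ≤
          Subgroup.normalizer ((A : Subgroup G) : Set G)
      · exact ⟨T, hwp, hAT, hN, hc⟩
      · have hp' : IsPGroup p ↥((S : Subgroup G) ⊓ Subgroup.normalizer (T : Set G)) :=
          S.2.to_le inf_le_left
        have hlt : (S : Subgroup G) ⊓ Subgroup.normalizer (T : Set G) < S := by
          refine lt_of_le_of_ne inf_le_left (fun e => hc ?_)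
          rw [e]; exact hAN
        have hlt2 := lt_of_lt_of_le (lt_inf_normalizer S.2 hlt)
          (inf_le_inf_left _ (normalizer_le_normalizer_functor hW hp'))
        have c1 := card_lt_card_of_lt hlt2
        have c2 : Nat.card ↥((S : Subgroup G) ⊓ Subgroup.normalizer
          ((W ((S : Subgroup G) ⊓ Subgroup.normalizer (T : Set G)) : Subgroup G) : Set G)) ≤
          Nat.card (S : Subgroup G) := Subgroup.card_le_of_le inf_le_left
        refine ih _ (by omega) _ (wellPlaced_step hW S.2 hwp) ?_ hc rfl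
        refine le_trans ?_ (hWZ _ hp')
        refine le_inf (le_inf hAS (hAT.trans Subgroup.le_normalizer)) ?_
        exact hAC.trans (Subgroup.centralizer_le inf_le_left)
  obtain ⟨T0, h1, h2, h3⟩ := step1
  obtain ⟨T, hwp, hAT, hN, hc⟩ := step2 _ T0 h1 h2 h3 rfl
  refine ⟨T, hwp, hAT, hc, hwp.2 0, hAC.trans (Subgroup.centralizer_le inf_le_left), ?_⟩
  obtain ⟨g, hg, hgA⟩ := SetLike.not_le_iff_exists.mp hN
  refine ⟨g, hg, ?_, ?_⟩
  · rw [map_conj_eq_cj]
    have e : cj T g⁻¹ = T := mem_normalizer_iff_cj.mp (inv_mem hg)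
    exact (cj_mono hAT g⁻¹).trans (by rw [e]; exact le_inf hwp.1 Subgroup.le_normalizer)
  · rw [map_conj_eq_cj]
    intro e
    apply hgA
    have := mem_normalizer_iff_cj.mpr e
    simpa using inv_mem this

end Cfsg.Agent.S1968
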