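import Cfsg.Statements.S1981
-- import your own Cfsg.Agent.* helpers here
import Cfsg.Agent.Lib.Helper13.KSeq

set_option autoImplicit false
open Cfsg

namespace Cfsg.Agent.S1981

open Cfsg.Agent.Lib.Helper13

/-- Let P be a finite p-group generated by its abelian normal subgroups. Then both K-infinity subgroups of P equal P. -/
theorem result {P : Type*} [Group P] [Finite P] {p : ℕ} [Fact p.Prime] (hP : IsPGroup p P) (hgen : ⨆ A ∈ {A : Subgroup P | A.Normal ∧ IsMulCommutative ↥A}, A = ⊤) : Cfsg.kInfLower P = ⊤ ∧ Cfsg.kInfUpper P = ⊤ := by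
  have he : ∀ n, Cfsg.kSeqEven P n = ⊤ := by
    intro n
    rw [eq_top_iff, ← hgen]
    refine iSup₂_le fun A hA => ?_
    have := hA.1
    exact le_sSup ((abelian_normal_mem A hA.2).2 _).1
  have ho : ∀ n, Cfsg.kSeqOdd P n = ⊤ := by
    intro n
    cases n with
    | zero => rfl
    | succ n =>
      rw [eq_top_iff, ← hgen]
      refine iSup₂_le fun A hA => ?_
      have := hA.1
      exact le_sSup ((abelian_normal_mem A hA.2).2 _).2
  constructor
  · rw [eq_top_iff, ← he 0]
    exact le_iSup (Cfsg.kSeqEven P) 0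
  · rw [eq_top_iff]
    exact le_iInf fun n => (ho n).ge

end Cfsg.Agent.S1981
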