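import Cfsg.Statements.S1998
-- import your own Cfsg.Agent.* helpers here
import Cfsg.Agent.Lib.Helper13.SecSmallAction

set_option autoImplicit false
universe u
open Cfsg

namespace Cfsg.Agent.S1998

open Cfsg.Agent.Lib.Helper13
open scoped commutatorElement

/-- Let p be a prime, G a finite group with Sylow p-subgroup S, and 𝓦 a nonempty set of isomorphism-invariant p-group functors (W assigns to every group Q a subgroup W(Q), nontrivial whenever Q is a nontrivial finite p-group, and every isomorphism from a finite p-group Q onto a group R carries W(Q) onto W(R)). Suppose the induced conjugacy functors control transfer in every section of G other than G itself, but not in G. Let T be the subgroup generated by the S ∩ (N_G(W(S)))', W ∈ 𝓦, and M = N_G(T ∩ O_p(G)). Then: C_G(O_p(G)) ≤ O_p(G); M is a proper subgroup of G containing every proper subgroup of G that contains S (the unique maximal subgroup over S); [O_p(G), M] ≤ O_p(G)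 ∩ M' ≤ O_p(G) ∩ T; and every element u of S outside O_p(G) satisfies [X, u, …, u] ≰ Y with p − 1 entries u, for some chief factor X/Y of G with X ≤ O_p(G). -/
theorem result {G : Type u} [Group G] [Finite G] {p : ℕ} [Fact p.Prime] (S : Sylow p G) (𝓦 : Set (∀ (Q : Type u) [Group Q], Subgroup Q)) (h𝓦 : ∀ W ∈ 𝓦, Cfsg.IsCharPFunctor.{u} p W) (hne : 𝓦.Nonempty) (hsec : ∀ (K R : Subgroup G) [hR : (R.subgroupOf K).Normal], (K = ⊤ → R ≠ ⊥) → Cfsg.FamilyControlsTransferIn p ((fun W => Cfsg.inducedFunctor (G := (↥K ⧸ R.subgroupOf K)) W) '' 𝓦) ⊤) (hG : ¬ Cfsg.FamilyControlsTransferIn p ((fun W => Cfsg.inducedFunctor (G := G) W) '' 𝓦) ⊤) (T M : Subgroup G) (hT : T = (⨆ W ∈ 𝓦, (S : Subgroup G) ⊓ ⁅Subgroup.normalizer ((Cfsg.inducedFunctor (G := G) W (S : Subgroup G) : Subgroup G) : Set G), Subgroup.normalizer ((Cfsg.inducedFunctor (G := G) W (S : Subgroup G) : Subgroup G) : Set G)⁆)) (hM : M = Subgroup.normalizer ((T ⊓ Cfsg.pCore p G : Subgroup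 G) : Set G)) : Subgroup.centralizer ((Cfsg.pCore p G : Subgroup G) : Set G) ≤ Cfsg.pCore p G ∧ (M ≠ ⊤ ∧ ∀ H : Subgroup G, (S : Subgroup G) ≤ H → H ≠ ⊤ → H ≤ M) ∧ (⁅Cfsg.pCore p G, M⁆ ≤ Cfsg.pCore p G ⊓ ⁅M, M⁆ ∧ Cfsg.pCore p G ⊓ ⁅M, M⁆ ≤ Cfsg.pCore p G ⊓ T) ∧ ∀ u : G, u ∈ (S : Subgroup G) → u ∉ Cfsg.pCore p G → ∃ U V : Subgroup G, Cfsg.IsChiefFactor U V ∧ U ≤ Cfsg.pCore p G ∧ ¬ Cfsg.iterCommutator U (Subgroup.zpowers u) (p - 1) ≤ V := by
  have hcf := ind_isConjugacyFunctor h𝓦 (X := G)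
  -- control of transfer in the proper sections
  have hprop : ∀ (Z : Type u) [Group Z], Sec G Z → Nat.card Z < Nat.card G → FT p 𝓦 Z := by
    intro Z _ hZ hlt
    obtain ⟨K, R, hR, ⟨e⟩⟩ := hZ.exists_equiv
    refine FT.of_equiv h𝓦 e (hsec K R ?_)
    rintro rfl rfl
    rw [← Nat.card_congr e.toEquiv] at hlt
    have h1 : Nat.card (↥(⊤ : Subgroup G) ⧸ (⊥ : Subgroup G).subgroupOf ⊤) = Nat.card G := by
      have : Nat.card (↥(⊤ : Subgroup G) ⧸ (⊥ : Subgroup G).subgroupOf ⊤) =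
        (⊥ : Subgroup G).relIndex ⊤ := rfl
      rw [this, Subgroup.relIndex_bot_left, Subgroup.card_top]
    omega
  have hI : FTInd p 𝓦 G := by
    refine ⟨fun H hH R hRH hR hRi => ?_, fun K _ hK S => ?_⟩
    · exact FTS_of_familyTransfer hcf (FT.subgroup h𝓦 (hprop ↥H ((Sec.refl G).subgroup H)
        (Cfsg.Agent.Lib.Helper10.card_lt_card_of_ne_top hH))) hRH hR hRi
    · have hlt : Nat.card (G ⧸ K) < Nat.card G := by
        rw [Subgroup.card_eq_card_quotient_mul_card_subgroup K]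
        have h1 : 1 < Nat.card K := by
          rw [Finite.one_lt_card_iff_nontrivial]
          exact (Subgroup.nontrivial_iff_ne_bot K).mpr hK
        have h2 : 0 < Nat.card (G ⧸ K) := Nat.card_pos
        nlinarith
      exact FTS_of_familyTransfer (ind_isConjugacyFunctor h𝓦) (hprop _ ((Sec.refl G).quotient K) hlt)
        le_top (S.2.map _) (not_dvd_relIndex_map_top S _ (QuotientGroup.mk'_surjective K))
  have hnFTS : ¬ FTS (ind 𝓦 G) ⊤ (S : Subgroup G) := fun h =>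
    hG (familyTransfer_iff.mpr ⟨S, le_top, S.2, not_dvd_relIndex_top S, h⟩)
  have hTK : T = TKer (ind 𝓦 G) ⊤ (S : Subgroup G) := by
    rw [hT, TKer_ind]
    simp only [top_inf_eq]
  have hC : Constr p G := by
    by_contra hC
    exact hnFTS (FTS_of_FTInd_not_constr h𝓦 hI hC S)
  have hPS : Cfsg.pCore p G ≤ S := Cfsg.Agent.Lib.Helper5.pCore_le_sylow S
  have hPn : (Cfsg.pCore p G).Normal := inferInstance
  have hnorm : ∀ V : Subgroup G, IsPGroup p V → Subgroup.normalizer (V : Set G) = ⊤ →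
      V ≤ Cfsg.pCore p G := fun V hV hN =>
    Cfsg.Agent.Lib.Helper17.le_pCore (Subgroup.normalizer_eq_top_iff.mp hN) hV
  have hSP : ¬ (S : Subgroup G) ≤ Cfsg.pCore p G := by
    intro h
    apply hnFTS
    obtain ⟨W, hW⟩ := hne
    have hSeq : (S : Subgroup G) = Cfsg.pCore p G := le_antisymm h hPS
    have hSn : Subgroup.normalizer ((S : Subgroup G) : Set G) = ⊤ := by
      rw [hSeq, Subgroup.normalizer_eq_top]
    have h1 := normalizer_le_normalizer_functor (induced_isConjugacyFunctor (X := G) (h𝓦 W hW)) S.2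
    rw [hSn, top_le_iff] at h1
    refine le_trans ?_ (le_TKer_ind ⊤ (S : Subgroup G) hW)
    rw [h1, top_inf_eq]
  have hP := pCore_ne_bot_of_constr hC hSP
  have hPX : ¬ (Cfsg.pCore p G ⊓ ⁅(⊤ : Subgroup G), (⊤ : Subgroup G)⁆ ≤ T) := fun h =>
    hnFTS (FTS_of_pCore_inf_le h𝓦 hI S hSP hP (hTK ▸ h))
  have key1 : ∀ H : Subgroup G, (S : Subgroup G) ≤ H → H ≠ ⊤ → (S : Subgroup G) ⊓ ⁅H, H⁆ ≤ T := by
    intro H hSH hH
    rw [hTK]
    exact (hI.sub H hH _ hSH S.2 (not_dvd_relIndex_of_sylow S hSH)).trans (TKer_mono_left _ le_top _)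
  have key2 : ∀ H : Subgroup G, (S : Subgroup G) ≤ H → H ≠ ⊤ →
      ⁅Cfsg.pCore p G, H⁆ ≤ T ⊓ Cfsg.pCore p G := by
    intro H hSH hH
    refine le_inf (le_trans (le_inf ?_ ?_) (key1 H hSH hH)) (Subgroup.commutator_le_left _ _)
    · exact (Subgroup.commutator_le_left _ _).trans hPS
    · exact Subgroup.commutator_mono (hPS.trans hSH) le_rfl
  have hb2 : ∀ H : Subgroup G, (S : Subgroup G) ≤ H → H ≠ ⊤ → H ≤ M := by
    intro H hSH hH h hh
    rw [hM, mem_normalizer_iff_cj]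
    apply cj_eq_of_le_of_finite
    intro x hx
    rw [mem_cj] at hx
    have e : x = (h * x * h⁻¹) * ⁅(h * x * h⁻¹)⁻¹, h⁻¹⁆ := by
      simp [commutatorElement_def, mul_assoc]
    rw [e]
    exact Subgroup.mul_mem _ hx (key2 H hSH hH (Subgroup.commutator_mem_commutator
      (inv_mem (Subgroup.mem_inf.mp hx).2) (inv_mem hh)))
  have hStop : (S : Subgroup G) ≠ ⊤ := by
    intro h
    apply hSP
    rw [h]
    exact hnorm ⊤ (by rw [← h]; exact S.2) (by rw [Subgroup.normalizer_eq_top])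
  have hS' : ⁅(S : Subgroup G), (S : Subgroup G)⁆ ≤ T :=
    (le_inf (Subgroup.commutator_le_self _) le_rfl).trans (key1 _ le_rfl hStop)
  have hMtop : M ≠ ⊤ := by
    intro hMt
    rw [hM] at hMt
    have hP₀n : (T ⊓ Cfsg.pCore p G).Normal := Subgroup.normalizer_eq_top_iff.mp hMt
    have hPmapn : ((Cfsg.pCore p G).map (QuotientGroup.mk' (T ⊓ Cfsg.pCore p G))).Normal :=
      hPn.map _ (QuotientGroup.mk'_surjective _)
    set Dc := (Subgroup.centralizer (((Cfsg.pCore p G).map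
      (QuotientGroup.mk' (T ⊓ Cfsg.pCore p G)) : Subgroup (G ⧸ (T ⊓ Cfsg.pCore p G))) :
      Set (G ⧸ (T ⊓ Cfsg.pCore p G)))).comap (QuotientGroup.mk' (T ⊓ Cfsg.pCore p G)) with hDc
    have hDcn : Dc.Normal := inferInstance
    have hmemDc : ∀ g : G, (∀ x ∈ Cfsg.pCore p G, ⁅x, g⁆ ∈ T ⊓ Cfsg.pCore p G) → g ∈ Dc := by
      intro g hg
      rw [hDc, Subgroup.mem_comap, Subgroup.mem_centralizer_iff]
      rintro _ ⟨x, hx, rfl⟩
      have h1 := hg x hx
      rw [← QuotientGroup.eq_one_iff] at h1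
      have h2 : ⁅QuotientGroup.mk' (T ⊓ Cfsg.pCore p G) x, QuotientGroup.mk' (T ⊓ Cfsg.pCore p G) g⁆ = 1 :=
        h1
      exact commutatorElement_eq_one_iff_mul_comm.mp h2
    have hHDc : ∀ H : Subgroup G, (S : Subgroup G) ≤ H → H ≠ ⊤ → H ≤ Dc := by
      intro H hSH hH h hh
      exact hmemDc h (fun x hx => key2 H hSH hH (Subgroup.commutator_mem_commutator hx hh))
    have hSDc : (S : Subgroup G) ≤ Dc := hHDc _ le_rfl hStop
    have hNS : Subgroup.normalizer ((S : Subgroup G) : Set G) ≤ Dc :=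
      hHDc _ Subgroup.le_normalizer (fun h => hSP (hnorm _ S.2 h))
    have hDctop : ∀ g : G, g ∈ Dc := by
      intro g
      obtain ⟨c, hc, n, hn, rfl⟩ := frattini_normal S Dc g
      rw [inf_eq_left.mpr hSDc] at hn
      exact Dc.mul_mem hc (hNS hn)
    apply hPX
    intro z hz
    obtain ⟨hz, hz'⟩ := Subgroup.mem_inf.mp hz
    refine mem_of_transfer S T hS' z (hPS hz) hz' ?_
    intro k t _
    have e : (z ^ k)⁻¹ * (t⁻¹ * z ^ k * t) = ⁅(z ^ k)⁻¹, t⁻¹⁆ := by
      simp [commutatorElement_def, mul_assoc]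
    rw [e]
    have h1 := hDctop t⁻¹
    rw [hDc, Subgroup.mem_comap, Subgroup.mem_centralizer_iff] at h1
    have h2 := h1 _ (Subgroup.mem_map_of_mem _ (inv_mem (Subgroup.pow_mem _ hz k)))
    have h3 : QuotientGroup.mk' (T ⊓ Cfsg.pCore p G) ⁅(z ^ k)⁻¹, t⁻¹⁆ = 1 := by
      rw [map_commutatorElement]
      exact commutatorElement_eq_one_iff_mul_comm.mpr h2
    exact (Subgroup.mem_inf.mp ((QuotientGroup.eq_one_iff _).mp h3)).1
  have hSM : (S : Subgroup G) ≤ M := hb2 _ le_rfl hStop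
  refine ⟨hC, ⟨hMtop, hb2⟩, ⟨le_inf (Subgroup.commutator_le_left _ _)
    (Subgroup.commutator_mono (hPS.trans hSM) le_rfl),
    le_inf inf_le_left ((inf_le_inf_right _ hPS).trans (key1 M hSM hMtop))⟩, ?_⟩
  intro u huS huP
  by_contra hcon
  push Not at hcon
  exact hnFTS (FTS_of_small_action h𝓦 hI S u huS huP hcon)

end Cfsg.Agent.S1998
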