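import Cfsg.Statements.S2007
-- import your own Cfsg.Agent.* helpers here
import Cfsg.Agent.Lib.Helper13.Frobenius

set_option autoImplicit false
open Cfsg

namespace Cfsg.Agent.S2007

open Cfsg.Agent.Lib.Helper13

theorem npc_of_centric_normal {H : Type*} [Group H] [Finite H] {p : ℕ} [hp : Fact p.Prime]
    (P : Sylow p H) (T : Subgroup H) [hT : T.Normal]
    (hC : (P : Subgroup H) ⊓ Subgroup.centralizer (T : Set H) ≤ T)
    (hN : ∀ g : H, (orderOf g).Coprime p → g ∈ Subgroup.centralizer (T : Set H)) :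
    ∃ N : Subgroup H, N.Normal ∧ N.IsComplement' (P : Subgroup H) := by
  refine frobenius_npc _ H P rfl ?_
  intro Q hQ g hg hgo
  have hgT := hN g hgo
  rw [Subgroup.mem_centralizer_iff] at hgT ⊢
  intro x hx
  -- z = x⁻¹ g⁻¹ x g
  have hgx : g⁻¹ * x * g ∈ Q := by
    have := conj_mem_cj (g := g) hx
    rwa [mem_normalizer_iff_cj.mp hg] at this
  have hzQ : x⁻¹ * (g⁻¹ * x * g) ∈ Q := mul_mem (inv_mem hx) hgx
  have hzC : x⁻¹ * (g⁻¹ * x * g) ∈ Subgroup.centralizer (T : Set H) := by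
    rw [Subgroup.mem_centralizer_iff]
    intro t ht
    have h1 : x * t * x⁻¹ ∈ T := hT.conj_mem t ht x
    have h2 := hgT t ht
    have h3 := hgT _ h1
    have h4 : g * t * g⁻¹ = t := by rw [← h2]; group
    have h5 : g⁻¹ * (x * t * x⁻¹) * g = x * t * x⁻¹ := by
      calc g⁻¹ * (x * t * x⁻¹) * g = g⁻¹ * ((x * t * x⁻¹) * g) := by group
        _ = g⁻¹ * (g * (x * t * x⁻¹)) := by rw [h3]
        _ = x * t * x⁻¹ := by group
    calc t * (x⁻¹ * (g⁻¹ * x * g)) = x⁻¹ * (x * t * x⁻¹) * g⁻¹ * x * g := by group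
      _ = x⁻¹ * (g⁻¹ * (x * t * x⁻¹) * g) * g⁻¹ * x * g := by rw [h5]
      _ = x⁻¹ * g⁻¹ * x * t * g := by group
      _ = x⁻¹ * g⁻¹ * x * (g * t * g⁻¹) * g := by rw [h4]
      _ = x⁻¹ * (g⁻¹ * x * g) * t := by group
  have hzT : x⁻¹ * (g⁻¹ * x * g) ∈ T := hC (Subgroup.mem_inf.mpr ⟨hQ hzQ, hzC⟩)
  obtain ⟨z, hz⟩ : ∃ z, z = x⁻¹ * (g⁻¹ * x * g) := ⟨_, rfl⟩
  rw [← hz] at hzT hzQ
  have hzg : z * g = g * z := hgT z hzT
  have hstep : g⁻¹ * x * g = x * z := by rw [hz]; group
  have hpow : ∀ n : ℕ, (g ^ n)⁻¹ * x * g ^ n = x * z ^ n := by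
    intro n
    induction n with
    | zero => simp
    | succ n ih =>
      have hc : Commute z g := hzg
      calc (g ^ (n + 1))⁻¹ * x * g ^ (n + 1) = g⁻¹ * ((g ^ n)⁻¹ * x * g ^ n) * g := by
            rw [pow_succ]; group
        _ = g⁻¹ * (x * z ^ n) * g := by rw [ih]
        _ = (g⁻¹ * x * g) * (g⁻¹ * (z ^ n * g)) := by group
        _ = (x * z) * (g⁻¹ * (g * z ^ n)) := by rw [hstep, (hc.pow_left n).eq]
        _ = x * z ^ (n + 1) := by rw [pow_succ']; group
  have h1 := hpow (orderOf g)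
  rw [pow_orderOf_eq_one] at h1
  have h2 : z ^ orderOf g = 1 := by simpa using h1.symm
  have h3 : orderOf z ∣ orderOf g := orderOf_dvd_of_pow_eq_one h2
  obtain ⟨k, hk⟩ := (IsPGroup.iff_orderOf.mp P.2) ⟨z, hQ hzQ⟩
  rw [Subgroup.orderOf_mk] at hk
  have h4 : orderOf z = 1 := by
    have : Nat.Coprime (orderOf z) (orderOf z) := by
      have h5 : Nat.Coprime (orderOf g) (p ^ k) := Nat.Coprime.pow_right k hgo
      rw [← hk] at h5
      exact Nat.Coprime.coprime_dvd_left h3 h5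
    exact (Nat.coprime_self _).mp this
  have h5 : z = 1 := orderOf_eq_one_iff.mp h4
  rw [h5, mul_one] at hstep
  calc x * g = g * (g⁻¹ * x * g) := by group
    _ = g * x := by rw [hstep]

/-- Let p be a prime, G a finite group with Sylow p-subgroup S, and T a normal subgroup of S containing C_S(T). If N_G(T)/C_G(T) is a p-group (every element of N_G(T) of order prime to p centralizes T), then N_G(T) has a normal p-complement. -/
theorem result {G : Type*} [Group G] [Finite G] {p : ℕ} [Fact p.Prime] (S : Sylow p G) (T : Subgroup G) (hTS : T ≤ (S : Subgroup G)) (hTn : (S : Subgroup G) ≤ Subgroup.normalizer ((T : Subgroup G) : Set G)) (hC : (S : Subgroup G) ⊓ Subgroup.centralizer ((T : Subgroup G) : Set G) ≤ T) (hN : ∀ g ∈ Subgroup.normalizer ((T : Subgroup G) : Set G), (orderOf g).Coprime p → g ∈ Subgroup.centralizer ((T : Subgroup G) : Set G)) : Cfsg.HasNormalPComplement p ↥(Subgroup.normalizer ((T : Subgroup G) : Set G)) := by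
  have : (T.subgroupOf (Subgroup.normalizer (T : Set G))).Normal := Subgroup.normal_in_normalizer
  obtain ⟨N, hN1, hN2⟩ := npc_of_centric_normal (S.subtype hTn)
    (T.subgroupOf (Subgroup.normalizer (T : Set G))) (by
      intro x hx
      obtain ⟨h1, h2⟩ := Subgroup.mem_inf.mp hx
      rw [Subgroup.mem_subgroupOf]
      apply hC
      refine Subgroup.mem_inf.mpr ⟨?_, ?_⟩
      · have h1' : x ∈ (S : Subgroup G).subgroupOf (Subgroup.normalizer (T : Set G)) := by simpa using h1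
        exact Subgroup.mem_subgroupOf.mp h1'
      · rw [Subgroup.mem_centralizer_iff] at h2 ⊢
        intro t ht
        have := h2 ⟨t, Subgroup.le_normalizer ht⟩ (Subgroup.mem_subgroupOf.mpr ht)
        exact congrArg Subtype.val this) (by
      intro g hg
      have h1 := hN g g.2 (by rwa [Subgroup.orderOf_coe])
      rw [Subgroup.mem_centralizer_iff] at h1 ⊢
      intro t ht
      exact Subtype.ext (h1 t (Subgroup.mem_subgroupOf.mp ht)))
  exact ⟨_, N, hN1, hN2⟩

end Cfsg.Agent.S2007
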