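import Cfsg.Statements.S2009
-- import your own Cfsg.Agent.* helpers here

set_option autoImplicit false
open Cfsg

namespace Cfsg.Agent.S2009

theorem exists_third {H : Type*} [Group H] [Finite H] (z : H) (E : Subgroup H) (hE : IsKleinFour ↥E) (hzE : z ∈ E) : ∃ e : E, e ≠ 1 ∧ e ≠ ⟨z, hzE⟩ := by
  classical
  by_contra hcon
  push Not at hcon
  haveI : Fintype E := Fintype.ofFinite E
  have h4 : Fintype.card E = 4 := by rw [← Nat.card_eq_fintype_card]; exact IsKleinFour.card_four
  have hsub : (Finset.univ : Finset E) ⊆ {1, ⟨z, hzE⟩} := by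
    intro e _
    by_cases he : e = 1
    · simp [he]
    · simp [hcon e he]
  have h5 := Finset.card_le_card hsub
  have h2 : ({1, ⟨z, hzE⟩} : Finset E).card ≤ 2 := Finset.card_le_two
  rw [Finset.card_univ, h4] at h5
  omega

theorem key {H : Type*} [Group H] [Finite H] (z : H) (hN : ∀ N : Subgroup H, N.Normal → N ≠ ⊤ → N ⊓ Subgroup.centralizer ({z} : Set H) = ⊥) (E : Subgroup H) (hE : IsKleinFour ↥E) (hzE : z ∈ E) (hc : ∀ e ∈ E, e ≠ 1 → IsConj z e) (N : Subgroup H) [hNn : N.Normal] (hNtop : N ≠ ⊤) : N = ⊥ := by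
  classical
  have hfix : ∀ e ∈ E, e ≠ 1 → ∀ n ∈ N, e * n * e⁻¹ = n → n = 1 := by
    intro e he he1 n hn hen
    obtain ⟨c, hc'⟩ := isConj_iff.mp (hc e he he1)
    have h1 : c⁻¹ * n * c ∈ N ⊓ Subgroup.centralizer ({z} : Set H) := by
      refine Subgroup.mem_inf.mpr ⟨?_, ?_⟩
      · have := hNn.conj_mem n hn c⁻¹
        simpa using this
      · rw [Subgroup.mem_centralizer_singleton_iff]
        have h2 : z = c⁻¹ * e * c := by rw [← hc']; group
        have h3 : e * n = n * e := by
          calc e * n = (e * n * e⁻¹) * e := by group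
            _ = n * e := by rw [hen]
        rw [h2]
        calc c⁻¹ * n * c * (c⁻¹ * e * c) = c⁻¹ * (n * e) * c := by group
          _ = c⁻¹ * (e * n) * c := by rw [h3]
          _ = c⁻¹ * e * c * (c⁻¹ * n * c) := by group
    rw [hN N hNn hNtop, Subgroup.mem_bot] at h1
    calc n = c * (c⁻¹ * n * c) * c⁻¹ := by group
      _ = 1 := by rw [h1]; group
  have hsq : ∀ e ∈ E, e * e = 1 := by
    intro e he
    have := IsKleinFour.mul_self (⟨e, he⟩ : E)
    exact congrArg Subtype.val this
  have hinv : ∀ e ∈ E, e ≠ 1 → ∀ n ∈ N, e * n * e⁻¹ = n⁻¹ := by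
    intro e he he1 n hn
    have hfpf : MonoidHom.FixedPointFree (MulAut.conjNormal e : MulAut N) := by
      intro g hg
      have h1 : e * (g : H) * e⁻¹ = g := by
        have := congrArg Subtype.val hg
        simpa using this
      have := hfix e he he1 g g.2 h1
      exact Subtype.ext this
    have hinvol : Function.Involutive (MulAut.conjNormal e : MulAut N) := by
      intro g
      apply Subtype.ext
      simp only [MulAut.conjNormal_apply]
      have h2 := hsq e he
      have h3 : e⁻¹ = e := by
        rw [inv_eq_iff_mul_eq_one]; exact h2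
      rw [h3]
      calc e * (e * (g : H) * e) * e = (e * e) * g * (e * e) := by group
        _ = g := by rw [h2]; group
    have h4 := hfpf.coe_eq_inv_of_involutive hinvol
    have h5 := congrFun h4 ⟨n, hn⟩
    have h6 := congrArg Subtype.val h5
    simpa using h6
  have hex := exists_third z E hE hzE
  obtain ⟨⟨e, he⟩, he1, hez⟩ := hex
  have he1' : e ≠ 1 := fun h => he1 (Subtype.ext h)
  have hez' : e ≠ z := fun h => hez (Subtype.ext h)
  by_cases hz1 : z = 1
  · -- then centralizer is everything
    rw [eq_bot_iff]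
    intro n hn
    have : n ∈ N ⊓ Subgroup.centralizer ({z} : Set H) := by
      refine Subgroup.mem_inf.mpr ⟨hn, ?_⟩
      rw [Subgroup.mem_centralizer_singleton_iff, hz1]; simp
    rwa [hN N hNn hNtop] at this
  have hze : z * e ≠ 1 := by
    intro h
    apply hez'
    have h2 := hsq z hzE
    calc e = (z * z) * e := by rw [h2]; group
      _ = z * (z * e) := by group
      _ = z := by rw [h]; group
  rw [eq_bot_iff]
  intro n hn
  rw [Subgroup.mem_bot]
  apply hfix (z * e) (E.mul_mem hzE he) hze n hn
  have h1 := hinv e he he1' n hn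
  have h2 := hinv z hzE hz1 n⁻¹ (N.inv_mem hn)
  calc z * e * n * (z * e)⁻¹ = z * (e * n * e⁻¹) * z⁻¹ := by group
    _ = z * n⁻¹ * z⁻¹ := by rw [h1]
    _ = n := by rw [h2]; group

/-- Let H be a finite group and z an involution such that every proper normal subgroup of H meets the centralizer of z trivially, and suppose z lies in a Klein four-subgroup E of H all three of whose involutions are conjugate to z in H. Then H is simple. -/
theorem result {H : Type*} [Group H] [Finite H] (z : H) (hz : orderOf z = 2) (hN : ∀ N : Subgroup H, N.Normal → N ≠ ⊤ → N ⊓ Subgroup.centralizer ({z} : Set H) = ⊥) (E : Subgroup H) (hE : IsKleinFour ↥E) (hzE : z ∈ E) (hc : ∀ e ∈ E, e ≠ 1 → IsConj z e) : IsSimpleGroup H := by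
  haveI : Nontrivial H := by
    refine ⟨⟨z, 1, ?_⟩⟩
    intro h
    rw [h, orderOf_one] at hz
    omega
  refine ⟨fun N hNn => ?_⟩
  by_cases hNtop : N = ⊤
  · right; exact hNtop
  · left; exact key z hN E hE hzE hc N hNtop

end Cfsg.Agent.S2009
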