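import Cfsg.Statements.S2008
-- import your own Cfsg.Agent.* helpers here
import Cfsg.Agent.S2009

set_option autoImplicit false
open Cfsg

namespace Cfsg.Agent.S2008

/-- Let H be a finite group and z an involution such that every proper normal subgroup of H meets the centralizer of z trivially, and suppose z lies in a Klein four-subgroup E of H all three of whose involutions are conjugate to z in H. Then H has no non-trivial abelian normal subgroup. -/
theorem result {H : Type*} [Group H] [Finite H] (z : H) (hz : orderOf z = 2) (hN : ∀ N : Subgroup H, N.Normal → N ≠ ⊤ → N ⊓ Subgroup.centralizer ({z} : Set H) = ⊥) (E : Subgroup H) (hE : IsKleinFour ↥E) (hzE : z ∈ E) (hc : ∀ e ∈ E, e ≠ 1 → IsConj z e) (N : Subgroup H) [N.Normal] (hab : IsMulCommutative ↥N) : N = ⊥ := by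
  by_cases hNtop : N = ⊤
  · exfalso
    obtain ⟨⟨e, he⟩, he1, hez⟩ := Cfsg.Agent.S2009.exists_third z E hE hzE
    have he1' : e ≠ 1 := fun h => he1 (Subtype.ext h)
    have hez' : e ≠ z := fun h => hez (Subtype.ext h)
    obtain ⟨c, hc'⟩ := isConj_iff.mp (hc e he he1')
    apply hez'
    have hcz : c * z = z * c := by
      have h1 : (⟨c, by rw [hNtop]; trivial⟩ : N) * ⟨z, by rw [hNtop]; trivial⟩ = ⟨z, by rw [hNtop]; trivial⟩ * ⟨c, by rw [hNtop]; trivial⟩ :=
        hab.is_comm.comm _ _
      exact congrArg Subtype.val h1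
    rw [← hc', hcz]; group
  · exact Cfsg.Agent.S2009.key z hN E hE hzE hc N hNtop

end Cfsg.Agent.S2008
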