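import Cfsg.Statements.S2034
import Cfsg.Agent.Lib.Helper28.SchurM11

set_option autoImplicit false
open Cfsg

namespace Cfsg.Agent.S2034

/-- The Schur multiplier of the Mathieu group M₁₁ (the stabiliser of a dodecad and one of its points in the automorphism group of the length-24 binary code) is trivial; here the Schur multiplier is described through stem extensions, as in the definitions: surjective homomorphisms onto the group from a finite group, whose kernel is central in that finite group and contained in that finite group's commutator subgroup. -/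
theorem result : Cfsg.HasCyclicSchurMultiplier ↥Cfsg.Spor.M11 1 := by
  apply Cfsg.Agent.Lib.Helper28.Schur.trivial_multiplier
  intro p Γ _ _ σ hp hσ hK
  by_cases h2 : p = 2
  · subst h2
    exact Cfsg.Agent.Lib.Helper28.Schur.Cl.two11 σ hσ hK
  by_cases h3 : p = 3
  · subst h3
    exact Cfsg.Agent.Lib.Helper28.Schur.Cl.three11 σ hσ hK
  apply Cfsg.Agent.Lib.Helper28.Schur.false_of_sq_not_dvd hσ hp hK
  rw [Cfsg.Agent.Lib.Helper3.Syl.card11]
  intro hd
  have h5 : p ∣ 2 ^ 4 * 495 := dvd_trans (dvd_pow_self p two_ne_zero) hd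
  have e : 2 ^ 4 * 495 = 2 ^ 4 * (3 ^ 2 * (5 * 11)) := by norm_num
  rw [e] at h5
  have hq : ∀ q : ℕ, q.Prime → p ∣ q → p = q := fun q hq h =>
    (Nat.prime_dvd_prime_iff_eq hp hq).1 h
  rcases (Nat.Prime.dvd_mul hp).1 h5 with h | h
  · exact h2 (hq 2 Nat.prime_two (hp.dvd_of_dvd_pow h))
  rcases (Nat.Prime.dvd_mul hp).1 h with h | h
  · exact h3 (hq 3 Nat.prime_three (hp.dvd_of_dvd_pow h))
  rcases (Nat.Prime.dvd_mul hp).1 h with h | h
  · have := hq 5 (by norm_num) h
    subst this
    revert hd; norm_num
  · have := hq 11 (by norm_num) h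
    subst this
    revert hd; norm_num

end Cfsg.Agent.S2034
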