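import Cfsg.Statements.S2035
import Cfsg.Agent.Lib.Helper28.SchurCov

set_option autoImplicit false
open Cfsg

namespace Cfsg.Agent.S2035

/-- The Schur multiplier of the Mathieu group M₁₂ (the stabiliser of a dodecad in the automorphism group of the length-24 binary code) is cyclic of order 2; here the Schur multiplier is described through stem extensions, as in the definitions: surjective homomorphisms onto the group from a finite group, whose kernel is central in that finite group and contained in that finite group's commutator subgroup. -/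
theorem result : Cfsg.HasCyclicSchurMultiplier ↥Cfsg.Spor.M12 2 := by
  apply Cfsg.Agent.Lib.Helper28.Schur.cyclic2_multiplier
  · exact ⟨Cfsg.Agent.Lib.Helper28.Schur.C12.Gam, inferInstance, inferInstance,
      Cfsg.Agent.Lib.Helper28.Schur.C12.sig, Cfsg.Agent.Lib.Helper28.Schur.C12.sig_stem,
      Cfsg.Agent.Lib.Helper28.Schur.C12.card_ker⟩
  · intro p Γ _ _ σ hp h2 hσ hK
    by_cases h3 : p = 3
    · subst h3
      exact Cfsg.Agent.Lib.Helper28.Schur.Cl.three12 σ hσ hK
    apply Cfsg.Agent.Lib.Helper28.Schur.false_of_sq_not_dvd hσ hp hK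
    rw [Cfsg.Agent.Lib.Helper3.Syl.card12]
    intro hd
    have h5 : p ∣ 2 ^ 6 * 1485 := dvd_trans (dvd_pow_self p two_ne_zero) hd
    have e : 2 ^ 6 * 1485 = 2 ^ 6 * (3 ^ 3 * (5 * 11)) := by norm_num
    rw [e] at h5
    have hq : ∀ q : ℕ, q.Prime → p ∣ q → p = q := fun q hq h =>
      (Nat.prime_dvd_prime_iff_eq hp hq).1 h
    rcases (Nat.Prime.dvd_mul hp).1 h5 with h | h
    · exact h2 (hq 2 Nat.prime_two (hp.dvd_of_dvd_pow h))
    rcases (Nat.Prime.dvd_mul hp).1 h with h | h
    · exact h3 (hq 3 Nat.prime_three (hp.dvd_of_dvd_pow h))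
    rcases (Nat.Prime.dvd_mul hp).1 h with h | h
    · have := hq 5 (by norm_num) h
      subst this
      revert hd; norm_num
    · have := hq 11 (by norm_num) h
      subst this
      revert hd; norm_num
  · apply Cfsg.Agent.Lib.Helper28.Schur.four_of_two
      (⟨Cfsg.Agent.Lib.Helper3.wperm Cfsg.Agent.Lib.Helper28.Schur.D12.p0w,
        Cfsg.Agent.Lib.Helper28.Schur.Cl.mem12 (by decide +kernel)⟩ : ↥Cfsg.Spor.M12)
      (⟨Cfsg.Agent.Lib.Helper3.wperm Cfsg.Agent.Lib.Helper28.Schur.D12.p1w,
        Cfsg.Agent.Lib.Helper28.Schur.Cl.mem12 (by decide +kernel)⟩ : ↥Cfsg.Spor.M12)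
      (Subtype.ext (Cfsg.Agent.Lib.Helper28.Schur.Cl.rel2 (by decide +kernel)))
      (Subtype.ext (Cfsg.Agent.Lib.Helper28.Schur.Cl.rel1 (by decide +kernel)))
    intro Γ _ _ σ hσ hK x y hx hy hxy
    exact Cfsg.Agent.Lib.Helper28.Schur.Cl.two12 σ hσ hK x y (by rw [hx]) (by rw [hy]) hxy

end Cfsg.Agent.S2035
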