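import Cfsg.Statements.S2087
import Mathlib
import Cfsg.Agent.S0495
import Cfsg.Agent.S0249
import Cfsg.Agent.Lib.Helper28.Schur6

set_option autoImplicit false
open Cfsg

namespace Cfsg.Agent.S2087


open Cfsg.Agent.Lib.Helper28.Schur

universe u

theorem key {Γ G : Type*} [Group Γ] [Group G] [Finite Γ] [Finite G] (hG : Nat.card G = 168)
    (s t u g : G) (hs : s * s = 1)
    (hu1 : u * s * u⁻¹ = (s * t) * (s * t))
    (hu2 : u * ((s * t) * (s * t)) * u⁻¹ = s * ((s * t) * (s * t)))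
    (hg : g * s * g⁻¹ = t)
    (hnd : [1, s, t, s * t, t * s, s * t * s, t * s * t, s * t * s * t].Nodup)
    (σ : Γ →* G) (hσ : IsStemExtension σ) (hK : Nat.card σ.ker = 2)
    (x y : Γ) (hx : σ x = s) (hy : σ y = (s * t) * (s * t)) (hxy : x * y = y * x) : False := by
  have hk2 : ∀ k ∈ σ.ker, k * k = 1 := by
    intro k hk
    have h1 := pow_card_eq_one' (G := σ.ker) (x := ⟨k, hk⟩)
    rw [hK] at h1
    have h2 := congrArg Subtype.val h1
    simpa [pow_two] using h2
  have hkc : ∀ k ∈ σ.ker, ∀ z, z * k = k * z :=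
    fun k hk z => Subgroup.mem_center_iff.1 (hσ.2.1 hk) z
  have sq_eq : ∀ p q : Γ, σ p = σ q → p * p = q * q := by
    intro p q h
    obtain ⟨k, hk, e⟩ : ∃ k ∈ σ.ker, p = q * k :=
      ⟨q⁻¹ * p, by rw [MonoidHom.mem_ker, map_mul, map_inv, h, inv_mul_cancel], by group⟩
    have c := hkc k hk
    have k2 := hk2 k hk
    calc p * p = (q * k) * (q * k) := by rw [← e]
      _ = q * (k * q) * k := by group
      _ = q * (q * k) * k := by rw [← c q]
      _ = q * q * (k * k) := by group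
      _ = q * q := by rw [k2, mul_one]
  have conj_sq : ∀ U z : Γ, z * z ∈ σ.ker → (U * z * U⁻¹) * (U * z * U⁻¹) = z * z := by
    intro U z hz
    have : (U * z * U⁻¹) * (U * z * U⁻¹) = U * (z * z) * U⁻¹ := by group
    rw [this, hkc _ hz U, mul_inv_cancel_right]
  obtain ⟨U, hU⟩ := hσ.1 u
  obtain ⟨Gg, hGg⟩ := hσ.1 g
  have hxxK : x * x ∈ σ.ker := by rw [MonoidHom.mem_ker, map_mul, hx, hs]
  have e1 : (U * x * U⁻¹) * (U * x * U⁻¹) = y * y :=
    sq_eq _ _ (by rw [map_mul, map_mul, map_inv, hU, hx, hy, hu1])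
  have hxy2 : x * x = y * y := (conj_sq U x hxxK).symm.trans e1
  have hyyK : y * y ∈ σ.ker := hxy2 ▸ hxxK
  have e2 : (U * y * U⁻¹) * (U * y * U⁻¹) = (x * y) * (x * y) :=
    sq_eq _ _ (by rw [map_mul, map_mul, map_inv, hU, hy, hu2, map_mul, hx, hy])
  have e3 : (x * y) * (x * y) = (x * x) * (y * y) := by
    calc x * y * (x * y) = x * (y * x) * y := by group
      _ = x * (x * y) * y := by rw [hxy]
      _ = _ := by group
  have hx1 : x * x = 1 := by
    have : y * y = (x * x) * (y * y) := (conj_sq U y hyyK).symm.trans (e2.trans e3)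
    exact mul_eq_right.1 this.symm
  have hy1 : y * y = 1 := hxy2.symm.trans hx1
  obtain ⟨T, hTdef⟩ : ∃ T, T = Gg * x * Gg⁻¹ := ⟨_, rfl⟩
  have hT : σ T = t := by rw [hTdef, map_mul, map_mul, map_inv, hGg, hx, hg]
  have hTT : T * T = 1 := by
    rw [hTdef, conj_sq Gg x hxxK, hx1]
  obtain ⟨w, hw⟩ : ∃ w, w = x * T := ⟨_, rfl⟩
  have hw4 : w ^ 4 = 1 := by
    have h1 : (w * w) * (w * w) = y * y :=
      sq_eq (w * w) y (by rw [hw, map_mul, map_mul, hx, hT, hy])
    rw [hy1] at h1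
    rw [← h1, show (4 : ℕ) = 2 + 2 from rfl, pow_add, pow_two]
  have hxi : x⁻¹ = x := inv_eq_of_mul_eq_one_left hx1
  have hTi : T⁻¹ = T := inv_eq_of_mul_eq_one_left hTT
  have hconj : x * w * x⁻¹ = w⁻¹ := by
    rw [hw, mul_inv_rev, hxi, hTi, ← mul_assoc, hx1, one_mul]
  have hnorm : Subgroup.zpowers x ≤ Subgroup.normalizer (Subgroup.zpowers w : Set Γ) := by
    rw [Subgroup.zpowers_le]
    apply mem_normalizer_of_conj
    intro n hn
    obtain ⟨i, rfl⟩ := Subgroup.mem_zpowers_iff.1 hn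
    have : x * w ^ i * x⁻¹ = (x * w * x⁻¹) ^ i := by
      rw [conj_zpow]
    rw [this, hconj]
    exact Subgroup.zpow_mem _ (Subgroup.inv_mem _ (Subgroup.mem_zpowers w)) i
  have hcard := card_sup_le _ _ hnorm
  have hcx : Nat.card (Subgroup.zpowers x) ≤ 2 := by
    rw [Nat.card_zpowers]
    exact Nat.le_of_dvd (by norm_num) (orderOf_dvd_of_pow_eq_one (by rw [pow_two, hx1]))
  have hcw : Nat.card (Subgroup.zpowers w) ≤ 4 := by
    rw [Nat.card_zpowers]
    exact Nat.le_of_dvd (by norm_num) (orderOf_dvd_of_pow_eq_one hw4)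
  have hQ8 : Nat.card (Subgroup.zpowers x ⊔ Subgroup.zpowers w : Subgroup Γ) ≤ 8 := by
    calc _ ≤ _ := hcard
      _ ≤ 2 * 4 := Nat.mul_le_mul hcx hcw
  have hxQ : x ∈ (Subgroup.zpowers x ⊔ Subgroup.zpowers w : Subgroup Γ) :=
    (le_sup_left : Subgroup.zpowers x ≤ _) (Subgroup.mem_zpowers x)
  have hwQ : w ∈ (Subgroup.zpowers x ⊔ Subgroup.zpowers w : Subgroup Γ) :=
    (le_sup_right : Subgroup.zpowers w ≤ _) (Subgroup.mem_zpowers w)
  have hsM : s ∈ (Subgroup.zpowers x ⊔ Subgroup.zpowers w : Subgroup Γ).map σ := ⟨x, hxQ, hx⟩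
  have htM : t ∈ (Subgroup.zpowers x ⊔ Subgroup.zpowers w : Subgroup Γ).map σ := by
    refine ⟨x⁻¹ * w, Subgroup.mul_mem _ (Subgroup.inv_mem _ hxQ) hwQ, ?_⟩
    rw [hw, inv_mul_cancel_left, hT]
  refine false_of_complement hσ Nat.prime_two hK _ 8 21 hQ8 ?_ (by rw [hG]) (by norm_num)
  generalize (Subgroup.zpowers x ⊔ Subgroup.zpowers w : Subgroup Γ).map σ = M at hsM htM
  classical
  have hsub : ([1, s, t, s * t, t * s, s * t * s, t * s * t, s * t * s * t].toFinset : Set G) ⊆ M := by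
    intro z hz
    simp only [List.coe_toFinset, List.mem_cons, List.not_mem_nil, or_false, Set.mem_ofPred_eq] at hz
    rcases hz with rfl | rfl | rfl | rfl | rfl | rfl | rfl | rfl
    · exact M.one_mem
    · exact hsM
    · exact htM
    · exact M.mul_mem hsM htM
    · exact M.mul_mem htM hsM
    · exact M.mul_mem (M.mul_mem hsM htM) hsM
    · exact M.mul_mem (M.mul_mem htM hsM) htM
    · exact M.mul_mem (M.mul_mem (M.mul_mem hsM htM) hsM) htM
  have h8 : [1, s, t, s * t, t * s, s * t * s, t * s * t, s * t * s * t].toFinset.card = 8 := by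
    rw [List.toFinset_card_of_nodup hnd]; rfl
  have := Set.ncard_le_ncard hsub (Set.toFinite _)
  rw [Set.ncard_coe_finset, h8] at this
  exact this

theorem stem_transport {Γ Γ' G G' : Type*} [Group Γ] [Group Γ'] [Group G] [Group G']
    (σ : Γ →* G) (hσ : IsStemExtension σ) (f : Γ' ≃* Γ) (e : G ≃* G') :
    IsStemExtension (e.toMonoidHom.comp (σ.comp f.toMonoidHom)) ∧
      Nat.card (e.toMonoidHom.comp (σ.comp f.toMonoidHom)).ker = Nat.card σ.ker := by
  have hmem : ∀ x : Γ', x ∈ (e.toMonoidHom.comp (σ.comp f.toMonoidHom)).ker ↔ f x ∈ σ.ker := by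
    intro x
    rw [MonoidHom.mem_ker, MonoidHom.mem_ker]
    show e (σ (f x)) = 1 ↔ _
    rw [MulEquiv.map_eq_one_iff]
  refine ⟨⟨?_, ?_, ?_⟩, ?_⟩
  · exact e.surjective.comp (hσ.1.comp f.surjective)
  · intro x hx
    have h1 := Subgroup.mem_center_iff.1 (hσ.2.1 ((hmem x).1 hx))
    rw [Subgroup.mem_center_iff]
    intro g
    apply f.injective
    rw [map_mul, map_mul, h1]
  · intro x hx
    have h1 : f x ∈ commutator Γ := hσ.2.2 ((hmem x).1 hx)
    have h2 : (commutator Γ).map f.symm.toMonoidHom ≤ commutator Γ' := by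
      rw [commutator_def, Subgroup.map_commutator, commutator_def]
      exact Subgroup.commutator_mono le_top le_top
    have h3 : f.symm (f x) ∈ (commutator Γ).map f.symm.toMonoidHom := ⟨f x, h1, rfl⟩
    rw [MulEquiv.symm_apply_apply] at h3
    exact h2 h3
  · apply Nat.card_congr
    exact
      { toFun := fun x => ⟨f x.1, (hmem x.1).1 x.2⟩
        invFun := fun y => ⟨f.symm y.1, (hmem _).2 (by rw [MulEquiv.apply_symm_apply]; exact y.2)⟩
        left_inv := fun x => Subtype.ext (f.symm_apply_apply _)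
        right_inv := fun y => Subtype.ext (f.apply_symm_apply _) }

open Cfsg.Agent.Lib.Helper15.S168 in
theorem exists_elts0 : ∃ s t u g : Γ₀, s * s = 1 ∧ u * s * u⁻¹ = (s * t) * (s * t) ∧
    u * ((s * t) * (s * t)) * u⁻¹ = s * ((s * t) * (s * t)) ∧ g * s * g⁻¹ = t ∧
    [1, s, t, s * t, t * s, s * t * s, t * s * t, s * t * s * t].Nodup ∧
    s * ((s * t) * (s * t)) = ((s * t) * (s * t)) * s ∧
    ((s * t) * (s * t)) * ((s * t) * (s * t)) = 1 := by
  have ha : a ∈ Γ₀ := Subgroup.subset_closure (by simp)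
  have hb : b ∈ Γ₀ := Subgroup.subset_closure (by simp)
  have ht : t ∈ Γ₀ := Subgroup.subset_closure (by simp)
  refine ⟨⟨t, ht⟩, ⟨a, ha⟩ * ⟨a, ha⟩ * ⟨t, ht⟩ * ⟨a, ha⟩ * ⟨t, ht⟩, ⟨b, hb⟩ * ⟨a, ha⟩ * ⟨a, ha⟩,
    ⟨a, ha⟩, ?_, ?_, ?_, ?_, ?_, ?_, ?_⟩
  · apply Subtype.ext; show t * t = 1; decide
  · apply Subtype.ext
    show (b * a * a) * t * (b * a * a)⁻¹ = (t * (a * a * t * a * t)) * (t * (a * a * t * a * t))
    decide
  · apply Subtype.ext
    show (b * a * a) * ((t * (a * a * t * a * t)) * (t * (a * a * t * a * t))) * (b * a * a)⁻¹ =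
      t * ((t * (a * a * t * a * t)) * (t * (a * a * t * a * t)))
    decide
  · apply Subtype.ext
    show a * t * a⁻¹ = a * a * t * a * t
    decide
  · apply List.Nodup.of_map (Subtype.val)
    show [1, t, (a * a * t * a * t), t * (a * a * t * a * t), (a * a * t * a * t) * t,
      t * (a * a * t * a * t) * t, (a * a * t * a * t) * t * (a * a * t * a * t),
      t * (a * a * t * a * t) * t * (a * a * t * a * t)].Nodup
    decide
  · apply Subtype.ext
    show t * ((t * (a * a * t * a * t)) * (t * (a * a * t * a * t))) =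
      ((t * (a * a * t * a * t)) * (t * (a * a * t * a * t))) * t
    decide
  · apply Subtype.ext
    show ((t * (a * a * t * a * t)) * (t * (a * a * t * a * t))) *
      ((t * (a * a * t * a * t)) * (t * (a * a * t * a * t))) = 1
    decide

theorem exists_elts {G : Type*} [Group G] [Finite G] [IsSimpleGroup G] (hG : Nat.card G = 168) :
    ∃ s t u g : G, s * s = 1 ∧ u * s * u⁻¹ = (s * t) * (s * t) ∧
    u * ((s * t) * (s * t)) * u⁻¹ = s * ((s * t) * (s * t)) ∧ g * s * g⁻¹ = t ∧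
    [1, s, t, s * t, t * s, s * t * s, t * s * t, s * t * s * t].Nodup ∧
    s * ((s * t) * (s * t)) = ((s * t) * (s * t)) * s ∧
    ((s * t) * (s * t)) * ((s * t) * (s * t)) = 1 := by
  obtain ⟨e⟩ := Cfsg.Agent.Lib.Helper15.S168.exists_iso hG
  obtain ⟨s, t, u, g, h1, h2, h3, h4, h5, h6, h7⟩ := exists_elts0
  refine ⟨e.symm s, e.symm t, e.symm u, e.symm g, ?_, ?_, ?_, ?_, ?_, ?_, ?_⟩
  · simpa using congrArg e.symm h1
  · simpa using congrArg e.symm h2
  · simpa using congrArg e.symm h3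
  · simpa using congrArg e.symm h4
  · simpa using List.Nodup.map e.symm.injective h5
  · simpa using congrArg e.symm h6
  · simpa using congrArg e.symm h7

theorem cover7 : IsStemExtension (QuotientGroup.mk'
      (Subgroup.center (Matrix.SpecialLinearGroup (Fin 2) (ZMod 7)))) ∧
    Nat.card (QuotientGroup.mk'
      (Subgroup.center (Matrix.SpecialLinearGroup (Fin 2) (ZMod 7)))).ker = 2 := by
  have h20 : (2 : ZMod 7) ≠ 0 := by decide
  have h21 : (2 : ZMod 7) ^ 2 ≠ 1 := by decide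
  have : Fact (Nat.Prime 7) := ⟨by norm_num⟩
  refine ⟨⟨QuotientGroup.mk'_surjective _, ?_, ?_⟩, ?_⟩
  · rw [QuotientGroup.ker_mk']
  · rw [Matrix.SL2.commutator_eq_top (F := ZMod 7) (a := 2) h20 h21]
    exact le_top
  · rw [QuotientGroup.ker_mk', Cfsg.Agent.Lib.Helper12.card_center_SL 2 (by norm_num),
      Cfsg.Agent.Lib.Helper12.card_units_eq, ZMod.card]
    rfl


/-- Exceptional Schur multiplier: over the field with 2 elements, PSL₃ has Schur multiplier cyclic of order 2 (here the Schur multiplier is described through stem extensions, as in the definitions). -/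
theorem result {F : Type*} [Field F] [Fintype F] (hF : Fintype.card F = 2) : Cfsg.HasCyclicSchurMultiplier (Matrix.ProjectiveSpecialLinearGroup (Fin 3) F) 2 := by
  have : Fact (Nat.Prime 7) := ⟨by norm_num⟩
  have hfin : Finite (Matrix.ProjectiveSpecialLinearGroup (Fin 3) F) := by
    unfold Matrix.ProjectiveSpecialLinearGroup; infer_instance
  have hs : IsSimpleGroup (Matrix.ProjectiveSpecialLinearGroup (Fin 3) F) :=
    Cfsg.Agent.S0249.result 3 le_rfl
  have hc : Nat.card (Matrix.ProjectiveSpecialLinearGroup (Fin 3) F) = 168 := by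
    have h1 := Cfsg.Agent.S0243.result hF 3 (by norm_num)
    simp only [Fin.prod_univ_three] at h1
    norm_num at h1
    omega
  obtain ⟨s, t, u, g, h1, h2, h3, h4, h5, h6, h7⟩ := exists_elts hc
  apply cyclic2_multiplier
  · obtain ⟨e⟩ := Cfsg.Agent.S0495.result hc (F := ZMod 7) (by rw [ZMod.card])
    have := stem_transport _ cover7.1 (MulEquiv.ulift (α := Matrix.SpecialLinearGroup (Fin 2) (ZMod 7)))
      e.symm
    exact ⟨_, inferInstance, inferInstance, _, this.1, this.2.trans cover7.2⟩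
  · intro p Γ _ _ σ hp hp2 hσ hK
    apply false_of_sq_not_dvd hσ hp hK
    rw [hc]
    intro hd
    have hle := Nat.le_of_dvd (by norm_num) hd
    have : p ≤ 12 := by nlinarith
    interval_cases p <;> revert hd hp hp2 <;> decide
  · apply four_of_two s ((s * t) * (s * t)) h6 h7
    intro Γ _ _ σ hσ hK x y hx hy hxy
    exact key hc s t u g h1 h2 h3 h4 h5 σ hσ hK x y hx hy hxy

end Cfsg.Agent.S2087
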