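import Cfsg.Statements.S2158
import Cfsg.Agent.Lib.Helper8.Misc1

set_option autoImplicit false
open Cfsg

namespace Cfsg.Agent.S2158

/-- In a Chevalley group of type G₂, B₂, D₄, F₄, E₆, E₇ or E₈ over any field, an element of the group whose matrix is the diagonal matrix `ĥ(χ)` of a character `χ` of the root lattice already lies in the diagonal subgroup H (the non-trivial inclusion of the statement that the group meets the group of all such diagonal matrices in H). -/
theorem result {F : Type*} [Field F] (D : Cfsg.Lie.ChevalleyDatum) (hD : D ∈ [Cfsg.Lie.chevG2, Cfsg.Lie.chevB2, Cfsg.Lie.chevD4, Cfsg.Lie.chevF4, Cfsg.Lie.chevE6, Cfsg.Lie.chevE7, Cfsg.Lie.chevE8]) (χ : ℕ → Fˣ) (hχ : D.IsRootCharacter χ) (g : GL D.Idx F) (hg : g ∈ D.group F)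
    (hgχ : (g : Matrix D.Idx D.Idx F) = D.charDiag F χ) : g ∈ D.diagonalSubgroup F := by
  have hD' : D ∈ Cfsg.Agent.Lib.Helper8.allData := by simpa [Cfsg.Agent.Lib.Helper8.allData] using hD
  have hmul : D.charDiag F χ * D.charDiag F (fun r => (χ r)⁻¹) = 1 := by
    unfold Cfsg.Lie.ChevalleyDatum.charDiag
    rw [Matrix.diagonal_mul_diagonal, ← Matrix.diagonal_one]
    congr 1
    funext k
    rcases k with k | k <;> simp
  have hinv : ((g⁻¹ : GL D.Idx F) : Matrix D.Idx D.Idx F) = D.charDiag F (fun r => (χ r)⁻¹) := by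
    have h1 : (g : Matrix D.Idx D.Idx F) * ((g⁻¹ : GL D.Idx F) : Matrix D.Idx D.Idx F) = 1 := by
      rw [← Units.val_mul, mul_inv_cancel, Units.val_one]
    have h2 : ((g⁻¹ : GL D.Idx F) : Matrix D.Idx D.Idx F) * (g : Matrix D.Idx D.Idx F) = 1 := by
      rw [← Units.val_mul, inv_mul_cancel, Units.val_one]
    calc ((g⁻¹ : GL D.Idx F) : Matrix D.Idx D.Idx F)
        = ((g⁻¹ : GL D.Idx F) : Matrix D.Idx D.Idx F) * (D.charDiag F χ * D.charDiag F (fun r => (χ r)⁻¹)) := by
          rw [hmul, mul_one]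
      _ = D.charDiag F (fun r => (χ r)⁻¹) := by rw [← mul_assoc, ← hgχ, h2, one_mul]
  exact Cfsg.Agent.Lib.Helper8.mem_diag_of_diagonal hD' hg _ _ hgχ hinv

end Cfsg.Agent.S2158
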