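import Cfsg.Statements.S2160
import Cfsg.Agent.Lib.Helper8.FieldAut

set_option autoImplicit false
open Cfsg

namespace Cfsg.Agent.S2160

/-- In a Chevalley group of type G₂, B₂, D₄, F₄, E₆, E₇ or E₈ over a finite field, every field automorphism commutes with every graph automorphism. -/
theorem result {F : Type*} [Field F] [Finite F] (D : Cfsg.Lie.ChevalleyDatum) (hD : D ∈ [Cfsg.Lie.chevG2, Cfsg.Lie.chevB2, Cfsg.Lie.chevD4, Cfsg.Lie.chevF4, Cfsg.Lie.chevE6, Cfsg.Lie.chevE7, Cfsg.Lie.chevE8]) (f g : ↥(D.group F) ≃* ↥(D.group F))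
    (hf : D.IsFieldAut f) (hg : D.IsGraphAut g) (y : ↥(D.group F)) : f (g y) = g (f y) := by
  have hD' : D ∈ Cfsg.Agent.Lib.Helper8.allData := by simpa [Cfsg.Agent.Lib.Helper8.allData] using hD
  obtain ⟨σ, hσ⟩ := hf
  obtain ⟨π, -, hπ⟩ := hg
  let E : Subgroup ↥(D.group F) := (f.toMonoidHom.comp g.toMonoidHom).eqLocus (g.toMonoidHom.comp f.toMonoidHom)
  have hpos : ∀ (i : ℕ) (hi : i < D.rank) (t : F),
      Cfsg.Agent.Lib.Helper8.xG hD' F (D.simple i) t ∈ E.map (D.group F).subtype := by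
    intro i hi t
    refine ⟨⟨_, Cfsg.Agent.Lib.Helper8.xG_mem_group hD' (D.simple i) t⟩, ?_, rfl⟩
    show f (g _) = g (f _)
    apply Subtype.ext
    apply Units.ext
    have h1 := (hπ ⟨_, Cfsg.Agent.Lib.Helper8.xG_mem_group hD' (D.simple i) t⟩ ⟨i, hi⟩ t).1 rfl
    have h2 := hσ _ _ _ (Cfsg.Agent.Lib.Helper8.simple_lt hD' (π ⟨i, hi⟩).2) h1
    have h3 := hσ ⟨_, Cfsg.Agent.Lib.Helper8.xG_mem_group hD' (D.simple i) t⟩ _ t
      (Cfsg.Agent.Lib.Helper8.simple_lt hD' hi) rfl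
    have h4 := (hπ _ ⟨i, hi⟩ _).1 h3
    rw [h2, h4, map_pow]
  have hneg : ∀ (i : ℕ) (hi : i < D.rank) (t : F),
      Cfsg.Agent.Lib.Helper8.xG hD' F (D.neg (D.simple i)) t ∈ E.map (D.group F).subtype := by
    intro i hi t
    refine ⟨⟨_, Cfsg.Agent.Lib.Helper8.xG_mem_group hD' (D.neg (D.simple i)) t⟩, ?_, rfl⟩
    show f (g _) = g (f _)
    apply Subtype.ext
    apply Units.ext
    have h1 := (hπ ⟨_, Cfsg.Agent.Lib.Helper8.xG_mem_group hD' (D.neg (D.simple i)) t⟩ ⟨i, hi⟩ t).2 rfl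
    have h2 := hσ _ _ _ (Cfsg.Agent.Lib.Helper8.neg_lt' hD' _
      (Cfsg.Agent.Lib.Helper8.simple_lt hD' (π ⟨i, hi⟩).2)) h1
    have h3 := hσ ⟨_, Cfsg.Agent.Lib.Helper8.xG_mem_group hD' (D.neg (D.simple i)) t⟩ _ t
      (Cfsg.Agent.Lib.Helper8.neg_lt' hD' _ (Cfsg.Agent.Lib.Helper8.simple_lt hD' hi)) rfl
    have h4 := (hπ _ ⟨i, hi⟩ _).2 h3
    rw [h2, h4, map_pow]
  have hall : D.group F ≤ E.map (D.group F).subtype := by
    conv_lhs => rw [Cfsg.Agent.Lib.Helper8.group_eq_closure hD']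
    rw [Subgroup.closure_le]
    rintro x ⟨r, t, rfl⟩
    by_cases hr : r < D.nroots
    · refine Cfsg.Agent.Lib.Helper8.xG_mem_of_simple hD' ?_ hpos hr t
      intro i hi
      show Cfsg.Agent.Lib.Helper8.nG hD' F (D.simple i) 1 ∈ _
      unfold Cfsg.Agent.Lib.Helper8.nG
      exact Subgroup.mul_mem _ (Subgroup.mul_mem _ (hpos i hi _) (hneg i hi _)) (hpos i hi _)
    · have : Cfsg.Agent.Lib.Helper8.xG hD' F r t = 1 := by
        apply Units.ext
        rw [Cfsg.Agent.Lib.Helper8.xG_coe, Cfsg.Lie.ChevalleyDatum.x, dif_neg hr]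
        rfl
      rw [this]
      exact Subgroup.one_mem _
  obtain ⟨y', hy', e⟩ := hall y.2
  have : y' = y := Subtype.ext e
  rw [← this]
  exact hy'

end Cfsg.Agent.S2160
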