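import Cfsg.Statements.S2161
import Cfsg.Agent.Lib.Helper8.PermAut

set_option autoImplicit false
open Cfsg

namespace Cfsg.Agent.S2161

/-- For the Chevalley groups of types D₄ and E₆ (one root length) over any field: if `π` is a symmetry of the Dynkin diagram and `φ` is an automorphism sending `x_{p_i}(t)` to `x_{p_{π i}}(t)` and `x_{-p_i}(t)` to `x_{-p_{π i}}(t)` for every fundamental root `p_i`, then for every root `r` there is a sign `ε = ±1` with `φ(x_r(t)) = x_{π·r}(ε t)` for all `t`, where `π·r` is the root whose coefficients are those of `r` permuted by `π`. -/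
theorem result {F : Type*} [Field F] (D : Cfsg.Lie.ChevalleyDatum) (hD : D ∈ [Cfsg.Lie.chevD4, Cfsg.Lie.chevE6])
    (π : Equiv.Perm (Fin D.rank)) (hπ : D.IsDiagramSymmetry π) (φ : ↥(D.group F) ≃* ↥(D.group F))
    (hφ : ∀ (g : ↥(D.group F)) (i : Fin D.rank) (t : F),
      (((g : GL D.Idx F) : Matrix D.Idx D.Idx F) = D.x F (D.simple i) t →
        ((φ g : GL D.Idx F) : Matrix D.Idx D.Idx F) = D.x F (D.simple (π i)) t) ∧
      (((g : GL D.Idx F) : Matrix D.Idx D.Idx F) = D.x F (D.neg (D.simple i)) t →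
        ((φ g : GL D.Idx F) : Matrix D.Idx D.Idx F) = D.x F (D.neg (D.simple (π i))) t))
    (r : ℕ) (hr : r < D.nroots) :
    ∃ ε : F, (ε = 1 ∨ ε = -1) ∧ ∀ (g : ↥(D.group F)) (t : F),
      ((g : GL D.Idx F) : Matrix D.Idx D.Idx F) = D.x F r t →
        ((φ g : GL D.Idx F) : Matrix D.Idx D.Idx F) = D.x F (D.permRoot π r) (ε * t) := by
  have hD' : D ∈ Lib.Helper8.allData := by
    simp only [List.mem_cons, List.not_mem_nil, or_false] at hD
    rcases hD with rfl | rfl <;> simp [Lib.Helper8.allData]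
  have hok : Lib.Helper8.permOK D := by
    simp only [List.mem_cons, List.not_mem_nil, or_false] at hD
    rcases hD with rfl | rfl
    · exact Lib.Helper8.permOK_D4
    · exact Lib.Helper8.permOK_E6
  obtain ⟨ε, hε, h⟩ := Lib.Helper8.graph_on_roots hD' hok π hπ φ
    (fun i t => Units.ext (by
      rw [Lib.Helper8.xG_coe]
      exact (hφ (Lib.Helper8.xS hD' (D.simple i) t) i t).1 (Lib.Helper8.xG_coe hD' F _ _)))
    (fun i t => Units.ext (by
      rw [Lib.Helper8.xG_coe]
      exact (hφ (Lib.Helper8.xS hD' (D.neg (D.simple i)) t) i t).2 (Lib.Helper8.xG_coe hD' F _ _))) hr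
  refine ⟨ε, hε, fun g t hg => ?_⟩
  have hg' : g = Lib.Helper8.xS hD' r t := Subtype.ext (Units.ext (by rw [hg]; exact (Lib.Helper8.xG_coe hD' F _ _).symm))
  rw [hg', h t, Lib.Helper8.xG_coe]

end Cfsg.Agent.S2161
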