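import Cfsg.Statements.S2329
import Cfsg.Agent.Lib.Helper14.GL2
import Cfsg.Agent.Lib.Helper14.Unipotent

set_option autoImplicit false
open Cfsg

namespace Cfsg.Agent.S2329

open Matrix Cfsg.Agent.Lib.Helper14 Cfsg.Agent.Lib.Helper14.GL2

theorem order_p_facts {F : Type*} [Field F] (p : ℕ) [Fact p.Prime] [CharP F p]
    (g : Matrix.GeneralLinearGroup (Fin 2) F) (hg : orderOf g = p) :
    ¬ IsScal (g : Matrix (Fin 2) (Fin 2) F) ∧ (g : Matrix (Fin 2) (Fin 2) F).trace = 2 ∧
      (g : Matrix (Fin 2) (Fin 2) F).det = 1 := by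
  have hp : p.Prime := Fact.out
  have h1 : g ^ (p ^ 1) = 1 := by rw [pow_one, ← hg]; exact pow_orderOf_eq_one g
  rw [gl_pow_char_pow_eq_one_iff] at h1
  have h2 : ((g : Matrix (Fin 2) (Fin 2) F) - 1) ^ 2 = 0 := nilp_pow_card _ ⟨_, h1⟩
  have hne : (g : Matrix (Fin 2) (Fin 2) F) ≠ 1 := by
    intro h
    have : g = 1 := Units.ext h
    rw [this, orderOf_one] at hg
    exact hp.one_lt.ne hg
  set M := (g : Matrix (Fin 2) (Fin 2) F) with hM
  have e00 := congrFun (congrFun h2 0) 0
  have e01 := congrFun (congrFun h2 0) 1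
  have e10 := congrFun (congrFun h2 1) 0
  have e11 := congrFun (congrFun h2 1) 1
  simp only [pow_two, Matrix.mul_apply, Fin.sum_univ_two, Matrix.sub_apply, Matrix.one_apply,
    Matrix.zero_apply] at e00 e01 e10 e11
  simp at e00 e01 e10 e11
  -- a := M00 - 1, d := M11 - 1, b := M01, c := M10
  have htr : M 0 0 + M 1 1 = 2 := by
    by_contra hcon
    have hs : (M 0 0 - 1) + (M 1 1 - 1) ≠ 0 := by
      intro h; apply hcon; linear_combination h
    have hb : M 0 1 = 0 := by
      have : M 0 1 * ((M 0 0 - 1) + (M 1 1 - 1)) = 0 := by linear_combination e01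
      exact (mul_eq_zero.mp this).resolve_right hs
    have hc : M 1 0 = 0 := by
      have : M 1 0 * ((M 0 0 - 1) + (M 1 1 - 1)) = 0 := by linear_combination e10
      exact (mul_eq_zero.mp this).resolve_right hs
    have ha : M 0 0 - 1 = 0 := by
      have : (M 0 0 - 1) * (M 0 0 - 1) = 0 := by rw [hb] at e00; linear_combination e00
      exact mul_self_eq_zero.mp this
    have hd : M 1 1 - 1 = 0 := by
      have : (M 1 1 - 1) * (M 1 1 - 1) = 0 := by rw [hb] at e11; linear_combination e11
      exact mul_self_eq_zero.mp this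
    exact hs (by rw [ha, hd, add_zero])
  refine ⟨?_, ?_, ?_⟩
  · rintro ⟨hb, hc, had⟩
    apply hne
    have ha : M 0 0 - 1 = 0 := by
      have : (M 0 0 - 1) * (M 0 0 - 1) = 0 := by rw [hb] at e00; linear_combination e00
      exact mul_self_eq_zero.mp this
    ext i j
    fin_cases i <;> fin_cases j <;> simp
    · exact sub_eq_zero.mp ha
    · exact hb
    · exact hc
    · rw [← had]; exact sub_eq_zero.mp ha
  · rw [trace_fin_two]; exact htr
  · rw [det_fin_two]
    have : M 1 1 = 2 - M 0 0 := by linear_combination htr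
    rw [this]
    linear_combination (-1 : F) * e00

/-- Over a finite field of characteristic p, any two elements of order p of GL₂ are conjugate: there is a single conjugacy class of non-identity unipotent elements. -/
theorem result {F : Type*} [Field F] [Fintype F] (p : ℕ) [Fact p.Prime] [CharP F p] (g h : Matrix.GeneralLinearGroup (Fin 2) F)
    (hg : orderOf g = p) (hh : orderOf h = p) : IsConj g h := by
  obtain ⟨g1, g2, g3⟩ := order_p_facts p g hg
  obtain ⟨h1, h2, h3⟩ := order_p_facts p h hh
  exact isConj_GL_of_trace_det g h g1 h1 (g2.trans h2.symm) (g3.trans h3.symm)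

end Cfsg.Agent.S2329
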