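import Cfsg.Statements.S2301
import Cfsg.Agent.Lib.Helper14.SL2Cent
import Cfsg.Agent.Lib.Helper14.ClassCard
import Cfsg.Agent.S2329

set_option autoImplicit false
open Cfsg

namespace Cfsg.Agent.S2301

open Matrix Cfsg.Agent.Lib.Helper14 Cfsg.Agent.Lib.Helper14.GL2 Cfsg.Agent.Lib.Helper14.SL2

variable {F : Type*} [Field F]

theorem conj_upp (p : ℕ) [Fact p.Prime] [CharP F p]
    (g : Matrix.SpecialLinearGroup (Fin 2) F) (hg : orderOf g = p) :
    ∃ b : F, b ≠ 0 ∧ IsConj g (upp (1 : F) b (one_pow 2)) := by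
  have h1 : orderOf (Matrix.SpecialLinearGroup.toGL g) = p := by
    rw [orderOf_injective _ Matrix.SpecialLinearGroup.toGL_injective g, hg]
  obtain ⟨hs, ht, -⟩ := Cfsg.Agent.S2329.order_p_facts p _ h1
  change ¬ IsScal (g : Matrix (Fin 2) (Fin 2) F) at hs
  change (g : Matrix (Fin 2) (Fin 2) F).trace = 2 at ht
  obtain ⟨x, y, hxy⟩ := exists_Qf_ne_zero hs
  refine ⟨-Qf (g : Matrix (Fin 2) (Fin 2) F) x y, neg_ne_zero.mpr hxy, ?_⟩
  apply isConj_SL_of_trace_Qf g _ _ x y 0 1 hxy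
  · rw [Qf_upp]; ring
  · rw [trace_upp, ht]; ring

theorem orderOf_upp (p : ℕ) [Fact p.Prime] [CharP F p] (b : F) (hb : b ≠ 0) :
    orderOf (upp (1 : F) b (one_pow 2)) = p := by
  have hp : p.Prime := Fact.out
  rw [← orderOf_injective _ Matrix.SpecialLinearGroup.toGL_injective]
  apply orderOf_eq_prime
  · have := (gl_pow_char_pow_eq_one_iff p (Matrix.SpecialLinearGroup.toGL (upp (1 : F) b (one_pow 2))) 1).mpr ?_
    · rwa [pow_one] at this
    · have h2 : ((Matrix.SpecialLinearGroup.toGL (upp (1 : F) b (one_pow 2)) : GL (Fin 2) F) : Matrix (Fin 2) (Fin 2) F) - 1 = !![0, b; 0, 0] := by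
        rw [Matrix.SpecialLinearGroup.coe_GL_coe_matrix]
        ext i j
        fin_cases i <;> fin_cases j <;> simp [upp]
      rw [h2, pow_one]
      apply pow_eq_zero_of_le hp.two_le
      ext i j
      fin_cases i <;> fin_cases j <;> simp [pow_two, Matrix.mul_apply, Fin.sum_univ_two]
  · intro h
    have h3 := congrArg (fun x : GL (Fin 2) F => (x : Matrix (Fin 2) (Fin 2) F) 0 1) h
    simp [upp] at h3
    exact hb h3

theorem isConj_upp_iff (b b' : F) (hb : b ≠ 0) (hb' : b' ≠ 0) :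
    IsConj (upp (1 : F) b (one_pow 2)) (upp (1 : F) b' (one_pow 2)) ↔ IsSquare (b * b') := by
  constructor
  · intro hc
    obtain ⟨x', y', hq⟩ := Qf_of_isConj hc 0 1
    rw [Qf_upp, Qf_upp] at hq
    refine ⟨b' * y', ?_⟩
    linear_combination b' * hq
  · rintro ⟨w, hw⟩
    apply isConj_SL_of_trace_Qf _ _ _ 0 1 0 (w / b')
    · rw [Qf_upp]; simpa using hb
    · rw [Qf_upp, Qf_upp]
      field_simp
      linear_combination hw
    · rw [trace_upp, trace_upp]

theorem eq_upp (g : Matrix.SpecialLinearGroup (Fin 2) F) (h00 : (g : Matrix (Fin 2) (Fin 2) F) 0 0 = 1)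
    (h11 : (g : Matrix (Fin 2) (Fin 2) F) 1 1 = 1) (h10 : (g : Matrix (Fin 2) (Fin 2) F) 1 0 = 0) :
    g = upp (1 : F) ((g : Matrix (Fin 2) (Fin 2) F) 0 1) (one_pow 2) := by
  apply Subtype.ext
  ext i j
  fin_cases i <;> fin_cases j <;> simp [upp, h00, h11, h10]

/-- Over a finite field with q elements of odd characteristic p, the elements of order p of SL₂ (the non-identity unipotent elements) fall into exactly two conjugacy classes, each of size (q² − 1)/2; two upper unitriangular matrices with non-zero off-diagonal entries b and b′ are conjugate exactly when bb′ is a square. -/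
theorem result {F : Type*} [Field F] [Fintype F] (p : ℕ) [Fact p.Prime] [CharP F p] (hp : p ≠ 2) :
    Nat.card {C : ConjClasses (Matrix.SpecialLinearGroup (Fin 2) F) // ∃ g : Matrix.SpecialLinearGroup (Fin 2) F, orderOf g = p ∧ ConjClasses.mk g = C} = 2 ∧
    (∀ g : Matrix.SpecialLinearGroup (Fin 2) F, orderOf g = p → Nat.card (ConjClasses.mk g).carrier = (Fintype.card F ^ 2 - 1) / 2) ∧
    ∀ g h : Matrix.SpecialLinearGroup (Fin 2) F, (g : Matrix (Fin 2) (Fin 2) F) 0 0 = 1 → (g : Matrix (Fin 2) (Fin 2) F) 1 1 = 1 → (g : Matrix (Fin 2) (Fin 2) F) 1 0 = 0 → (g : Matrix (Fin 2) (Fin 2) F) 0 1 ≠ 0 →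
      (h : Matrix (Fin 2) (Fin 2) F) 0 0 = 1 → (h : Matrix (Fin 2) (Fin 2) F) 1 1 = 1 → (h : Matrix (Fin 2) (Fin 2) F) 1 0 = 0 → (h : Matrix (Fin 2) (Fin 2) F) 0 1 ≠ 0 →
      (IsConj g h ↔ IsSquare ((g : Matrix (Fin 2) (Fin 2) F) 0 1 * (h : Matrix (Fin 2) (Fin 2) F) 0 1)) := by
  have hchar : ringChar F ≠ 2 := by rw [ringChar.eq F p]; exact hp
  have hodd : Fintype.card F % 2 = 1 := FiniteField.odd_card_of_char_ne_two hchar
  have h2 : (2 : F) ≠ 0 := two_ne_zero_of_odd hodd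
  obtain ⟨ε, hε⟩ := FiniteField.exists_nonsquare hchar
  have hε0 : ε ≠ 0 := by rintro rfl; exact hε IsSquare.zero
  refine ⟨?_, ?_, ?_⟩
  · rw [Nat.card_eq_two_iff]
    refine ⟨⟨ConjClasses.mk (upp (1 : F) 1 (one_pow 2)), _, orderOf_upp p 1 one_ne_zero, rfl⟩,
      ⟨ConjClasses.mk (upp (1 : F) ε (one_pow 2)), _, orderOf_upp p ε hε0, rfl⟩, ?_, ?_⟩
    · intro h
      have h' := congrArg Subtype.val h
      rw [ConjClasses.mk_eq_mk_iff_isConj, isConj_upp_iff _ _ one_ne_zero hε0, one_mul] at h'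
      exact hε h'
    · rw [Set.eq_univ_iff_forall]
      rintro ⟨C, g, hg, rfl⟩
      obtain ⟨b, hb, hc⟩ := conj_upp p g hg
      by_cases hsq : IsSquare b
      · left
        apply Subtype.ext
        change ConjClasses.mk g = ConjClasses.mk _
        rw [ConjClasses.mk_eq_mk_iff_isConj]
        refine hc.trans ((isConj_upp_iff _ _ hb one_ne_zero).mpr ?_)
        rwa [mul_one]
      · right
        apply Subtype.ext
        change ConjClasses.mk g = ConjClasses.mk _
        rw [ConjClasses.mk_eq_mk_iff_isConj]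
        exact hc.trans ((isConj_upp_iff _ _ hb hε0).mpr (isSquare_mul_of_not_isSquare hodd hsq hε))
  · intro g hg
    obtain ⟨b, hb, hc⟩ := conj_upp p g hg
    rw [ConjClasses.mk_eq_mk_iff_isConj.mpr hc]
    have h1 := card_carrier_mul_card_centralizer (upp (1 : F) b (one_pow 2))
    rw [card_centralizer_upp _ _ _ hb, card_sq_eq_one_of_two_ne_zero h2, card_SL2] at h1
    have h3 : Nat.card (ConjClasses.mk (upp (1 : F) b (one_pow 2))).carrier * 2 = Fintype.card F ^ 2 - 1 := by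
      apply Nat.eq_of_mul_eq_mul_left (Fintype.card_pos (α := F))
      rw [← h1]; ring
    omega
  · intro g h g00 g11 g10 g01 h00 h11 h10 h01
    rw [eq_upp g g00 g11 g10, eq_upp h h00 h11 h10]
    rw [isConj_upp_iff _ _ g01 h01]
    simp [upp]

end Cfsg.Agent.S2301
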