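import Cfsg.Statements.S2302
import Cfsg.Agent.Lib.Helper14.SL2Cent
import Cfsg.Agent.Lib.Helper14.ClassCard
import Cfsg.Agent.S2329

set_option autoImplicit false
open Cfsg

namespace Cfsg.Agent.S2302

open Matrix Cfsg.Agent.Lib.Helper14 Cfsg.Agent.Lib.Helper14.GL2 Cfsg.Agent.Lib.Helper14.SL2

theorem conj_upp {F : Type*} [Field F] [Fintype F] [CharP F 2]
    (g : Matrix.SpecialLinearGroup (Fin 2) F) (hg : orderOf g = 2) :
    IsConj g (upp (1 : F) 1 (one_pow 2)) := by
  have h1 : orderOf (Matrix.SpecialLinearGroup.toGL g) = 2 := by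
    rw [orderOf_injective _ Matrix.SpecialLinearGroup.toGL_injective g, hg]
  obtain ⟨hs, ht, -⟩ := Cfsg.Agent.S2329.order_p_facts 2 _ h1
  change ¬ IsScal (g : Matrix (Fin 2) (Fin 2) F) at hs
  change (g : Matrix (Fin 2) (Fin 2) F).trace = 2 at ht
  obtain ⟨x, y, hxy⟩ := exists_Qf_ne_zero hs
  have hchar : ringChar F = 2 := ringChar.eq F 2
  obtain ⟨w, hw⟩ := FiniteField.isSquare_of_char_two hchar (-Qf (g : Matrix (Fin 2) (Fin 2) F) x y)
  apply isConj_SL_of_trace_Qf g _ _ x y 0 w hxy
  · rw [Qf_upp]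
    linear_combination hw
  · rw [trace_upp, ht]; ring

/-- Over a finite field with q elements of characteristic 2, the involutions of SL₂ (the non-identity unipotent elements) form a single conjugacy class, of size q² − 1. -/
theorem result {F : Type*} [Field F] [Fintype F] [CharP F 2] (g h : Matrix.SpecialLinearGroup (Fin 2) F) (hg : orderOf g = 2) (hh : orderOf h = 2) :
    IsConj g h ∧ Nat.card (ConjClasses.mk g).carrier = Fintype.card F ^ 2 - 1 := by
  have hg' := conj_upp g hg
  have hh' := conj_upp h hh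
  refine ⟨hg'.trans hh'.symm, ?_⟩
  rw [ConjClasses.mk_eq_mk_iff_isConj.mpr hg']
  have h1 := card_carrier_mul_card_centralizer (upp (1 : F) 1 (one_pow 2))
  have h22 : (2 : F) = 0 := CharP.cast_eq_zero F 2
  rw [card_centralizer_upp _ _ _ one_ne_zero, card_sq_eq_one_of_two_eq_zero h22, card_SL2, one_mul,
    mul_comm] at h1
  exact Nat.eq_of_mul_eq_mul_left Fintype.card_pos h1

end Cfsg.Agent.S2302
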