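import Cfsg.Statements.S2303
import Cfsg.Agent.Lib.Helper12.SL2Conic

set_option autoImplicit false
open Cfsg

namespace Cfsg.Agent.S2303

open Matrix Cfsg.Agent.Lib.Helper12

/-- Over a finite field with q elements: a diagonal element of GL₂ with two distinct diagonal entries has centralizer of order (q − 1)² (so q(q + 1) conjugates), and an element of GL₂ with no eigenvector in F² has centralizer of order q² − 1 (so q(q − 1) conjugates). -/
theorem result {F : Type*} [Field F] [Fintype F] (g : Matrix.GeneralLinearGroup (Fin 2) F) :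
    ((g : Matrix (Fin 2) (Fin 2) F) 0 1 = 0 → (g : Matrix (Fin 2) (Fin 2) F) 1 0 = 0 → (g : Matrix (Fin 2) (Fin 2) F) 0 0 ≠ (g : Matrix (Fin 2) (Fin 2) F) 1 1 →
      Nat.card (Subgroup.centralizer ({g} : Set (Matrix.GeneralLinearGroup (Fin 2) F))) = (Fintype.card F - 1) ^ 2) ∧
    ((∀ (c : F) (v : Fin 2 → F), v ≠ 0 → (g : Matrix (Fin 2) (Fin 2) F).mulVec v ≠ c • v) →
      Nat.card (Subgroup.centralizer ({g} : Set (Matrix.GeneralLinearGroup (Fin 2) F))) = Fintype.card F ^ 2 - 1) := by
  classical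
  constructor
  · intro h01 h10 hne
    have hcard : (Fintype.card F - 1) ^ 2 = Nat.card (Fˣ × Fˣ) := by
      rw [Nat.card_prod, Nat.card_eq_fintype_card, Fintype.card_units, pow_two]
    rw [hcard]
    symm
    apply Nat.card_congr
    have hdet : ∀ p : Fˣ × Fˣ, (!![(p.1 : F), 0; 0, (p.2 : F)] : Matrix (Fin 2) (Fin 2) F).det ≠ 0 := by
      intro p
      rw [Matrix.det_fin_two_of]
      simp
    have hg : (g : Matrix (Fin 2) (Fin 2) F) =
        !![(g : Matrix (Fin 2) (Fin 2) F) 0 0, 0; 0, (g : Matrix (Fin 2) (Fin 2) F) 1 1] := by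
      ext i j
      fin_cases i <;> fin_cases j <;> simp [h01, h10]
    refine Equiv.ofBijective (fun p => ⟨Matrix.GeneralLinearGroup.mkOfDetNeZero _ (hdet p), ?_⟩)
      ⟨?_, ?_⟩
    · apply Subgroup.mem_centralizer_singleton_iff.mpr
      apply Units.ext
      show (!![(p.1 : F), 0; 0, (p.2 : F)] : Matrix (Fin 2) (Fin 2) F) * (g : Matrix (Fin 2) (Fin 2) F) =
        (g : Matrix (Fin 2) (Fin 2) F) * !![(p.1 : F), 0; 0, (p.2 : F)]
      rw [hg]
      ext i j
      fin_cases i <;> fin_cases j <;> simp [Matrix.mul_apply, Fin.sum_univ_two, mul_comm]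
    · intro p p' h
      have h1 : (!![(p.1 : F), 0; 0, (p.2 : F)] : Matrix (Fin 2) (Fin 2) F) =
          !![(p'.1 : F), 0; 0, (p'.2 : F)] :=
        congrArg (fun z : Subgroup.centralizer ({g} : Set (Matrix.GeneralLinearGroup (Fin 2) F)) =>
          ((z : Matrix.GeneralLinearGroup (Fin 2) F) : Matrix (Fin 2) (Fin 2) F)) h
      have e0 := congrFun (congrFun h1 0) 0
      have e1 := congrFun (congrFun h1 1) 1
      simp at e0 e1
      exact Prod.ext (Units.ext e0) (Units.ext e1)
    · rintro ⟨h, hh⟩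
      rw [Subgroup.mem_centralizer_singleton_iff] at hh
      have hc : (h : Matrix (Fin 2) (Fin 2) F) * (g : Matrix (Fin 2) (Fin 2) F) =
          (g : Matrix (Fin 2) (Fin 2) F) * (h : Matrix (Fin 2) (Fin 2) F) :=
        congrArg (fun z : Matrix.GeneralLinearGroup (Fin 2) F => (z : Matrix (Fin 2) (Fin 2) F)) hh
      have e01 := congrFun (congrFun hc 0) 1
      have e10 := congrFun (congrFun hc 1) 0
      simp only [Matrix.mul_apply, Fin.sum_univ_two, h01, h10, mul_zero, zero_mul, zero_add,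
        add_zero] at e01 e10
      have hd : (g : Matrix (Fin 2) (Fin 2) F) 0 0 - (g : Matrix (Fin 2) (Fin 2) F) 1 1 ≠ 0 :=
        sub_ne_zero.mpr hne
      have k01 : (h : Matrix (Fin 2) (Fin 2) F) 0 1 = 0 := by
        have : (h : Matrix (Fin 2) (Fin 2) F) 0 1 *
            ((g : Matrix (Fin 2) (Fin 2) F) 0 0 - (g : Matrix (Fin 2) (Fin 2) F) 1 1) = 0 := by
          linear_combination -e01
        exact (mul_eq_zero.mp this).resolve_right hd
      have k10 : (h : Matrix (Fin 2) (Fin 2) F) 1 0 = 0 := by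
        have : (h : Matrix (Fin 2) (Fin 2) F) 1 0 *
            ((g : Matrix (Fin 2) (Fin 2) F) 0 0 - (g : Matrix (Fin 2) (Fin 2) F) 1 1) = 0 := by
          linear_combination e10
        exact (mul_eq_zero.mp this).resolve_right hd
      have hdh : (h : Matrix (Fin 2) (Fin 2) F).det ≠ 0 := by
        have := (Matrix.isUnit_iff_isUnit_det _).mp h.isUnit
        exact this.ne_zero
      rw [Matrix.det_fin_two, k01, k10, mul_zero, sub_zero] at hdh
      have k00 : (h : Matrix (Fin 2) (Fin 2) F) 0 0 ≠ 0 := left_ne_zero_of_mul hdh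
      have k11 : (h : Matrix (Fin 2) (Fin 2) F) 1 1 ≠ 0 := right_ne_zero_of_mul hdh
      refine ⟨(Units.mk0 _ k00, Units.mk0 _ k11), ?_⟩
      apply Subtype.ext
      apply Units.ext
      show (!![(h : Matrix (Fin 2) (Fin 2) F) 0 0, 0; 0, (h : Matrix (Fin 2) (Fin 2) F) 1 1] :
        Matrix (Fin 2) (Fin 2) F) = (h : Matrix (Fin 2) (Fin 2) F)
      ext i j
      fin_cases i <;> fin_cases j <;> simp [k01, k10]
  · intro hno
    exact (singer_centralizer g (by norm_num) (irr_of_no_eigen _ hno)).2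


end Cfsg.Agent.S2303
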