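import Cfsg.Statements.S2306
import Cfsg.Agent.Lib.Helper2.SL2a

set_option autoImplicit false
open Cfsg

namespace Cfsg.Agent.S2306

open Cfsg.Agent.Lib.Helper2

/-- Over a finite field F, for a multiplicative character α of F, the function induced to SL₂ from the linear character b ↦ α(b₁₁) of the upper triangular subgroup is an irreducible character if and only if α² ≠ 1. -/
theorem result {F : Type*} [Field F] [Fintype F] [DecidableEq F] (α : MulChar F ℂ) :
    Cfsg.IsIrrCharacter (Matrix.SpecialLinearGroup (Fin 2) F) (Cfsg.indFun ((Cfsg.upperTriangularGL 2 F).comap Matrix.SpecialLinearGroup.toGL) (fun b => α (((b : Matrix.SpecialLinearGroup (Fin 2) F) : Matrix (Fin 2) (Fin 2) F) 0 0))) ↔ α ^ 2 ≠ 1 := by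
  show Cfsg.IsIrrCharacter _ (Cfsg.indFun _ (SL2c.lam1 α)) ↔ _
  have h := SL2c.inner_ind1 α α
  rw [if_pos rfl] at h
  have hiff : α = α⁻¹ ↔ α ^ 2 = 1 := by
    rw [pow_two, eq_inv_iff_mul_eq_one]
  constructor
  · intro hirr h2
    rw [irr_norm_one hirr, if_pos (hiff.2 h2)] at h
    norm_num at h
  · intro h2
    rw [if_neg (fun h3 => h2 (hiff.1 h3)), add_zero] at h
    exact isIrrCharacter_of_norm_one (IsCharacter.ind _ (SL2c.lam1_isCharacter α)) h

end Cfsg.Agent.S2306
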