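import Cfsg.Statements.S2307
import Cfsg.Agent.Lib.Helper2.SL2u

set_option autoImplicit false
open Cfsg

namespace Cfsg.Agent.S2307

open Cfsg.Agent.Lib.Helper2

/-- Over a finite field F with q elements, q odd, let α be the multiplicative character of F of order 2. The character of SL₂ induced from the linear character b ↦ α(b₁₁) of the upper triangular subgroup is the sum of two distinct irreducible characters, each of degree (q + 1)/2, which are conjugate under GL₂: some fixed element of GL₂ conjugates the one into the other. -/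
theorem result {F : Type*} [Field F] [Fintype F] [DecidableEq F] (hodd : Odd (Fintype.card F)) (α : MulChar F ℂ)
    (hα : α ^ 2 = 1) (hα1 : α ≠ 1) :
    ∃ χ₁ χ₂ : Matrix.SpecialLinearGroup (Fin 2) F → ℂ, Cfsg.IsIrrCharacter (Matrix.SpecialLinearGroup (Fin 2) F) χ₁ ∧ Cfsg.IsIrrCharacter (Matrix.SpecialLinearGroup (Fin 2) F) χ₂ ∧ χ₁ ≠ χ₂ ∧
      Cfsg.indFun ((Cfsg.upperTriangularGL 2 F).comap Matrix.SpecialLinearGroup.toGL) (fun b => α (((b : Matrix.SpecialLinearGroup (Fin 2) F) : Matrix (Fin 2) (Fin 2) F) 0 0)) = χ₁ + χ₂ ∧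
      χ₁ 1 = (((Fintype.card F + 1) / 2 : ℕ) : ℂ) ∧ χ₂ 1 = (((Fintype.card F + 1) / 2 : ℕ) : ℂ) ∧
      ∃ x : Matrix.GeneralLinearGroup (Fin 2) F, ∀ g h : Matrix.SpecialLinearGroup (Fin 2) F,
        Matrix.SpecialLinearGroup.toGL h = x * Matrix.SpecialLinearGroup.toGL g * x⁻¹ → χ₂ h = χ₁ g := by
  have hαinv : α = α⁻¹ := by
    rw [eq_inv_iff_mul_eq_one, ← sq]; exact hα
  have hψ : Cfsg.IsIrrCharacter _ (GL2.II α 1) := GL2.II_irr hα1
  have hres : SL2r.res (GL2.II α 1) = Cfsg.indFun _ (SL2c.lam1 α) := by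
    have := SL2r.res_II α 1
    simpa using this
  have hnorm : Cfsg.classInner (SL2r.res (GL2.II α 1)) (SL2r.res (GL2.II α 1)) = 2 := by
    rw [SL2r.norm_res_II]
    simp only [inv_one, mul_one]
    rw [if_pos hαinv]; norm_num
  have hchar := SL2r.res_isCharacter (IsIrrCharacter.isCharacter hψ)
  have hne0 : SL2r.res (GL2.II α 1) ≠ 0 := by
    intro h
    have := congrFun h 1
    rw [SL2r.res_one, GL2.II_one] at this
    exact SL2r.qne' this
  obtain ⟨χ₁, h₁, c₁⟩ := IsCharacter.exists_constituent hchar hne0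
  rcases SL2r.split_of_norm hchar h₁ c₁ (Or.inr hnorm) with h | ⟨χ₂, h₂, hne, heq⟩
  · exfalso
    rw [h, irr_norm_one h₁] at hnorm
    norm_num at hnorm
  · have c₂ : Cfsg.classInner (SL2r.res (GL2.II α 1)) χ₂ ≠ 0 := by
      rw [heq, classInner_add_left, irr_orthogonal h₁ h₂ hne.symm, irr_norm_one h₂]
      simp
    obtain ⟨x, hx⟩ := SL2r.clifford_conj hψ h₂ h₁ c₂ c₁
    have hd : χ₁ 1 = χ₂ 1 := hx 1 1 (by simp)
    have hsum : χ₁ 1 + χ₂ 1 = (Fintype.card F : ℂ) + 1 := by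
      have := congrFun heq 1
      rw [SL2r.res_one, GL2.II_one] at this
      exact this.symm
    obtain ⟨k, hk⟩ := hodd
    have hhalf : (((Fintype.card F + 1) / 2 : ℕ) : ℂ) = ((Fintype.card F : ℂ) + 1) / 2 := by
      have : (Fintype.card F + 1) / 2 = k + 1 := by omega
      rw [this, hk]; push_cast; ring
    refine ⟨χ₁, χ₂, h₁, h₂, hne.symm, ?_, ?_, ?_, x, fun g h hgh => (hx g h hgh).symm⟩
    · show Cfsg.indFun _ (SL2c.lam1 α) = χ₁ + χ₂
      rw [← hres, heq]
    · rw [hhalf]; linear_combination (hsum + hd) / 2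
    · rw [hhalf]; linear_combination (hsum - hd) / 2

end Cfsg.Agent.S2307
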