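import Cfsg.Statements.S2308
import Cfsg.Agent.Lib.Helper2.SL2x
import Cfsg.Agent.Lib.Helper2.Brauer3

set_option autoImplicit false
open Cfsg

namespace Cfsg.Agent.S2308

open Cfsg.Agent.Lib.Helper2

/-- Values of the permutation character of GL₂ over a finite field F with q elements on the cosets of its upper triangular subgroup (equivalently, the number of lines of F² that an element maps to themselves): q + 1 at a scalar matrix, 2 at a diagonal matrix with two different diagonal entries, 0 at an element with no eigenvector in F², and 1 at an upper triangular matrix with equal diagonal entries and non-zero upper right entry. -/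
theorem result {F : Type*} [Field F] [Fintype F] (g : Matrix.GeneralLinearGroup (Fin 2) F) :
    ((∃ a : F, (g : Matrix (Fin 2) (Fin 2) F) = a • (1 : Matrix (Fin 2) (Fin 2) F)) → Cfsg.fixedPointCharacter (Cfsg.upperTriangularGL 2 F) g = Fintype.card F + 1) ∧
    ((g : Matrix (Fin 2) (Fin 2) F) 0 1 = 0 → (g : Matrix (Fin 2) (Fin 2) F) 1 0 = 0 → (g : Matrix (Fin 2) (Fin 2) F) 0 0 ≠ (g : Matrix (Fin 2) (Fin 2) F) 1 1 →
      Cfsg.fixedPointCharacter (Cfsg.upperTriangularGL 2 F) g = 2) ∧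
    ((∀ (c : F) (v : Fin 2 → F), v ≠ 0 → (g : Matrix (Fin 2) (Fin 2) F).mulVec v ≠ c • v) → Cfsg.fixedPointCharacter (Cfsg.upperTriangularGL 2 F) g = 0) ∧
    ((g : Matrix (Fin 2) (Fin 2) F) 1 0 = 0 → (g : Matrix (Fin 2) (Fin 2) F) 0 0 = (g : Matrix (Fin 2) (Fin 2) F) 1 1 → (g : Matrix (Fin 2) (Fin 2) F) 0 1 ≠ 0 →
      Cfsg.fixedPointCharacter (Cfsg.upperTriangularGL 2 F) g = 1) := by
  classical
  have hlam : GL2.lam (1 : MulChar F ℂ) 1 = fun _ => (1 : ℂ) := by
    funext b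
    obtain ⟨n0, n1⟩ := GL2.bor_diag_ne b
    simp only [GL2.lam]
    rw [MulChar.one_apply (isUnit_iff_ne_zero.2 n0), MulChar.one_apply (isUnit_iff_ne_zero.2 n1),
      mul_one]
  have hval : Cfsg.fixedPointCharacter (Cfsg.upperTriangularGL 2 F) g =
      GL2.II (1 : MulChar F ℂ) 1 g := by
    rw [GL2.II, hlam, ind_one_eq_natCast]
    rfl
  rw [hval]
  haveI : Fintype (MulChar F ℂ) := Fintype.ofFinite _
  refine ⟨fun hs => ?_, fun h01 h10 hne => ?_, fun hg => GL2.II_elliptic 1 1 _ hg,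
    fun h10 h00 h01 => ?_⟩
  · obtain ⟨a, ha⟩ := hs
    have h01 : (g : Matrix (Fin 2) (Fin 2) F) 0 1 = 0 := by rw [ha]; simp
    have h10 : (g : Matrix (Fin 2) (Fin 2) F) 1 0 = 0 := by rw [ha]; simp
    have h00 : (g : Matrix (Fin 2) (Fin 2) F) 0 0 = (g : Matrix (Fin 2) (Fin 2) F) 1 1 := by
      rw [ha]; simp
    obtain ⟨n0, n1⟩ := GL2.bor_diag_ne ⟨g, (GL2.mem_bor _).2 h10⟩
    have hgl : g = GL2.bmk (Units.mk0 _ n0) (Units.mk0 _ n0) 0 := by
      apply Units.ext
      rw [GL2.bmk_coe]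
      ext i j
      fin_cases i <;> fin_cases j <;> simp [h10, h00, h01]
    rw [hgl, SL2r.II_scalar 1 1, MulChar.one_apply_coe, mul_one, mul_one]
  · obtain ⟨a, d, ha, hd, hgl⟩ := GL2.eq_bmk_of_diag g h01 h10
    have had : a ≠ d := by
      intro h; apply hne; rw [← ha, ← hd, h]
    rw [hgl, GL2.val_split (IsCharacter.isClassFunction (GL2.II_isCharacter 1 1)) a d had,
      GL2.sum_inner_II (fun x y => x (a : F) * y (d : F)), MulChar.one_apply_coe,
      MulChar.one_apply_coe]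
    norm_num
  · obtain ⟨n0, n1⟩ := GL2.bor_diag_ne ⟨g, (GL2.mem_bor _).2 h10⟩
    have hgl : g = GL2.bmk (Units.mk0 _ n0) (Units.mk0 _ n0)
        ((g : Matrix (Fin 2) (Fin 2) F) 0 1) := by
      apply Units.ext
      rw [GL2.bmk_coe]
      ext i j
      fin_cases i <;> fin_cases j <;> simp [h10, h00]
    rw [hgl, SL2r.II_zu 1 1 _ _ h01, MulChar.one_apply_coe, mul_one]

end Cfsg.Agent.S2308
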