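import Cfsg.Statements.S2309
import Cfsg.Agent.Lib.Helper2.GL2f

set_option autoImplicit false
open Cfsg

namespace Cfsg.Agent.S2309

open Cfsg.Agent.Lib.Helper2

/-- Over a finite field F with q elements: every irreducible complex character of GL₂ of degree q − 1 vanishes at every diagonal matrix with two distinct entries, and every irreducible complex character of degree q + 1 vanishes at every element with no eigenvector in F². -/
theorem result {F : Type*} [Field F] [Fintype F] (χ : Matrix.GeneralLinearGroup (Fin 2) F → ℂ) (hχ : Cfsg.IsIrrCharacter (Matrix.GeneralLinearGroup (Fin 2) F) χ) (g : Matrix.GeneralLinearGroup (Fin 2) F) :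
    (χ 1 = (Fintype.card F : ℂ) - 1 → (g : Matrix (Fin 2) (Fin 2) F) 0 1 = 0 → (g : Matrix (Fin 2) (Fin 2) F) 1 0 = 0 → (g : Matrix (Fin 2) (Fin 2) F) 0 0 ≠ (g : Matrix (Fin 2) (Fin 2) F) 1 1 → χ g = 0) ∧
    (χ 1 = (Fintype.card F : ℂ) + 1 → (∀ (c : F) (v : Fin 2 → F), v ≠ 0 → (g : Matrix (Fin 2) (Fin 2) F).mulVec v ≠ c • v) → χ g = 0) := by
  classical
  have hq2 : 2 ≤ Fintype.card F := Fintype.one_lt_card
  have hQ : ∀ k : ℕ, (Fintype.card F : ℂ) = k → Fintype.card F = k :=
    fun k h => by exact_mod_cast h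
  constructor
  · intro h1 h01 h10 hne
    obtain ⟨a, d, ha, hd, rfl⟩ := GL2.eq_bmk_of_diag g h01 h10
    have had : a ≠ d := by
      intro h; apply hne; rw [← ha, ← hd, h]
    rcases GL2.classify hχ with ⟨α, rfl⟩ | ⟨α, rfl⟩ | ⟨α, β, _, rfl⟩ | ⟨hc, _⟩
    · exfalso
      rw [GL2.dl_one] at h1
      have h2 : Fintype.card F = 2 := hQ 2 (by push_cast; linear_combination -h1)
      have h3 : Fintype.card Fˣ = 1 := by rw [Fintype.card_units, h2]
      exact had ((Fintype.card_le_one_iff.1 h3.le) a d)
    · exfalso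
      rw [GL2.St_one] at h1
      have : (1 : ℂ) = 0 := by linear_combination h1
      norm_num at this
    · exfalso
      rw [GL2.II_one] at h1
      have : (2 : ℂ) = 0 := by linear_combination h1
      norm_num at this
    · exact GL2.cusp_split hχ hc a d had
  · intro h1 hg
    rcases GL2.classify hχ with ⟨α, rfl⟩ | ⟨α, rfl⟩ | ⟨α, β, _, rfl⟩ | ⟨hc, h2⟩
    · exfalso
      rw [GL2.dl_one] at h1
      have := hQ 0 (by push_cast; linear_combination -h1)
      omega
    · exfalso
      rw [GL2.St_one] at h1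
      have : (1 : ℂ) = 0 := by linear_combination -h1
      norm_num at this
    · exact GL2.II_elliptic α β g hg
    · exfalso
      rw [h2] at h1
      have : (2 : ℂ) = 0 := by linear_combination -h1
      norm_num at this

end Cfsg.Agent.S2309
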