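import Cfsg.Statements.S2310
import Cfsg.Agent.Lib.Helper2.GL2f

set_option autoImplicit false
open Cfsg

namespace Cfsg.Agent.S2310

open Cfsg.Agent.Lib.Helper2

/-- Over a finite field F with q ≥ 3 elements, let u be the upper unitriangular matrix of GL₂ with off-diagonal entry 1. An irreducible complex character χ of GL₂ takes at u the value 1 if χ has degree 1 or q + 1, the value −1 if χ has degree q − 1, and the value 0 if χ has degree q. -/
theorem result {F : Type*} [Field F] [Fintype F] (hq : 3 ≤ Fintype.card F) (χ : Matrix.GeneralLinearGroup (Fin 2) F → ℂ) (hχ : Cfsg.IsIrrCharacter (Matrix.GeneralLinearGroup (Fin 2) F) χ)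
    (u : Matrix.GeneralLinearGroup (Fin 2) F) (hu : (u : Matrix (Fin 2) (Fin 2) F) = !![1, 1; 0, 1]) :
    (χ 1 = 1 → χ u = 1) ∧ (χ 1 = (Fintype.card F : ℂ) + 1 → χ u = 1) ∧
    (χ 1 = (Fintype.card F : ℂ) - 1 → χ u = -1) ∧ (χ 1 = (Fintype.card F : ℂ) → χ u = 0) := by
  classical
  have hQ : ∀ k : ℕ, (Fintype.card F : ℂ) = k → Fintype.card F = k :=
    fun k h => by exact_mod_cast h
  have hu' : u = GL2.bmk 1 1 1 := by
    apply Units.ext
    rw [hu, GL2.bmk_coe]
    simp
  subst hu'
  rcases GL2.classify hχ with ⟨α, rfl⟩ | ⟨α, rfl⟩ | ⟨α, β, _, rfl⟩ | ⟨hc, h2⟩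
  · rw [GL2.dl_one, GL2.dl_unip]
    refine ⟨fun _ => rfl, fun _ => rfl, fun h => ?_, fun h => ?_⟩
    · exfalso
      have := hQ 2 (by push_cast; linear_combination -h)
      omega
    · exfalso
      have := hQ 1 (by push_cast; linear_combination -h)
      omega
  · rw [GL2.St_one, GL2.St_unip]
    refine ⟨fun h => ?_, fun h => ?_, fun h => ?_, fun _ => rfl⟩
    · exfalso
      have := hQ 1 (by push_cast; linear_combination h)
      omega
    · exfalso
      have : (1 : ℂ) = 0 := by linear_combination -h
      norm_num at this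
    · exfalso
      have : (1 : ℂ) = 0 := by linear_combination h
      norm_num at this
  · rw [GL2.II_one, GL2.II_unip]
    refine ⟨fun _ => rfl, fun _ => rfl, fun h => ?_, fun h => ?_⟩
    · exfalso
      have : (2 : ℂ) = 0 := by linear_combination h
      norm_num at this
    · exfalso
      have : (1 : ℂ) = 0 := by linear_combination h
      norm_num at this
  · rw [h2, GL2.cusp_unip hχ hc h2]
    refine ⟨fun h => ?_, fun h => ?_, fun _ => rfl, fun h => ?_⟩
    · exfalso
      have := hQ 2 (by push_cast; linear_combination h)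
      omega
    · exfalso
      have : (2 : ℂ) = 0 := by linear_combination -h
      norm_num at this
    · exfalso
      have : (1 : ℂ) = 0 := by linear_combination -h
      norm_num at this

end Cfsg.Agent.S2310
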