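import Cfsg.Statements.S2320
import Cfsg.Agent.Lib.Helper2.GL2f

set_option autoImplicit false
open Cfsg

namespace Cfsg.Agent.S2320

open Cfsg.Agent.Lib.Helper2

/-- Over a finite field F with q elements, every irreducible complex character of GL₂ of degree q takes a value of absolute value 1 at every diagonal matrix with two different diagonal entries and at every element with no eigenvector in F². -/
theorem result {F : Type*} [Field F] [Fintype F] (χ : Matrix.GeneralLinearGroup (Fin 2) F → ℂ) (hχ : Cfsg.IsIrrCharacter (Matrix.GeneralLinearGroup (Fin 2) F) χ) (hdeg : χ 1 = (Fintype.card F : ℂ)) (g : Matrix.GeneralLinearGroup (Fin 2) F) :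
    ((g : Matrix (Fin 2) (Fin 2) F) 0 1 = 0 → (g : Matrix (Fin 2) (Fin 2) F) 1 0 = 0 → (g : Matrix (Fin 2) (Fin 2) F) 0 0 ≠ (g : Matrix (Fin 2) (Fin 2) F) 1 1 → ‖χ g‖ = 1) ∧
    ((∀ (c : F) (v : Fin 2 → F), v ≠ 0 → (g : Matrix (Fin 2) (Fin 2) F).mulVec v ≠ c • v) → ‖χ g‖ = 1) := by
  classical
  have hq2 : 2 ≤ Fintype.card F := Fintype.one_lt_card
  have hQ : ∀ k : ℕ, (Fintype.card F : ℂ) = k → Fintype.card F = k :=
    fun k h => by exact_mod_cast h
  rcases GL2.classify hχ with ⟨α, rfl⟩ | ⟨α, rfl⟩ | ⟨α, β, _, rfl⟩ | ⟨hc, h2⟩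
  · exfalso
    rw [GL2.dl_one] at hdeg
    have := hQ 1 (by push_cast; linear_combination -hdeg)
    omega
  · constructor
    · intro h01 h10 hne
      obtain ⟨a, d, ha, hd, rfl⟩ := GL2.eq_bmk_of_diag g h01 h10
      have had : a ≠ d := by
        intro h; apply hne; rw [← ha, ← hd, h]
      rw [GL2.St_split α a d had, norm_mul, GL2.norm_mulChar, GL2.norm_mulChar, mul_one]
    · intro hg
      rw [GL2.St, Pi.sub_apply, GL2.II_elliptic α α g hg, zero_sub, norm_neg, GL2.norm_dl]
  · exfalso
    rw [GL2.II_one] at hdeg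
    have : (1 : ℂ) = 0 := by linear_combination hdeg
    norm_num at this
  · exfalso
    rw [h2] at hdeg
    have : (1 : ℂ) = 0 := by linear_combination -hdeg
    norm_num at this

end Cfsg.Agent.S2320
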