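import Cfsg.Statements.S2322
import Cfsg.Agent.Lib.Helper2.SL2y
import Cfsg.Agent.S2309
import Cfsg.Agent.S2298

set_option autoImplicit false
open Cfsg

namespace Cfsg.Agent.S2322

open Cfsg.Agent.Lib.Helper2

/-- Over a finite field F with q elements, q odd: every irreducible complex character of SL₂ of degree q − 1 or (q − 1)/2 vanishes at every diagonal matrix whose diagonal entry a has a² ≠ 1, and every irreducible complex character of degree q + 1 or (q + 1)/2 vanishes at every element with no eigenvector in F². -/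
theorem result {F : Type*} [Field F] [Fintype F] (hodd : Odd (Fintype.card F)) (χ : Matrix.SpecialLinearGroup (Fin 2) F → ℂ) (hχ : Cfsg.IsIrrCharacter (Matrix.SpecialLinearGroup (Fin 2) F) χ) (g : Matrix.SpecialLinearGroup (Fin 2) F) :
    ((χ 1 = (Fintype.card F : ℂ) - 1 ∨ χ 1 = (((Fintype.card F - 1) / 2 : ℕ) : ℂ)) →
      (g : Matrix (Fin 2) (Fin 2) F) 0 1 = 0 → (g : Matrix (Fin 2) (Fin 2) F) 1 0 = 0 → (g : Matrix (Fin 2) (Fin 2) F) 0 0 ^ 2 ≠ 1 → χ g = 0) ∧
    ((χ 1 = (Fintype.card F : ℂ) + 1 ∨ χ 1 = (((Fintype.card F + 1) / 2 : ℕ) : ℂ)) →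
      (∀ (c : F) (v : Fin 2 → F), v ≠ 0 → (g : Matrix (Fin 2) (Fin 2) F).mulVec v ≠ c • v) → χ g = 0) := by
  classical
  have key : ∀ a b : ℕ, (a : ℂ) = b → a = b := fun a b h => by exact_mod_cast h
  have hodd0 := hodd
  obtain ⟨k, hk⟩ := hodd
  have hq2 : 2 ≤ Fintype.card F := Fintype.one_lt_card
  have e1 : (Fintype.card F + 1) / 2 = k + 1 := by omega
  have e2 : (Fintype.card F - 1) / 2 = k := by omega
  have htr : (g : Matrix (Fin 2) (Fin 2) F).trace ^ 2 ≠ 4 →
      ∃ ψ : Matrix.GeneralLinearGroup (Fin 2) F → ℂ, Cfsg.IsIrrCharacter _ ψ ∧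
        ((ψ 1 = χ 1 ∧ ψ (Matrix.SpecialLinearGroup.toGL g) = χ g) ∨
          (ψ 1 = 2 * χ 1 ∧ ψ (Matrix.SpecialLinearGroup.toGL g) = 2 * χ g)) := by
    intro h4
    obtain ⟨ψ, hψ, h | ⟨χ', hχ', hne, heq, x, hx⟩⟩ := SL2r.classify_sl hχ
    · exact ⟨ψ, hψ, Or.inl ⟨by rw [← h, SL2r.res_one], by rw [← h]; rfl⟩⟩
    · have h1 : χ' 1 = χ 1 := hx 1 1 (by simp)
      have h2 := SL2r.conj_stable hodd0
        (IsCharacter.isClassFunction (IsIrrCharacter.isCharacter hχ')) x hx g h4
      refine ⟨ψ, hψ, Or.inr ⟨?_, ?_⟩⟩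
      · have := congrFun heq 1
        rw [SL2r.res_one, Pi.add_apply, h1] at this
        rw [this]; ring
      · have := congrFun heq g
        rw [Pi.add_apply, h2] at this
        show SL2r.res ψ g = _
        rw [this]; ring
  have hnat : ∀ ψ : Matrix.GeneralLinearGroup (Fin 2) F → ℂ, Cfsg.IsIrrCharacter _ ψ →
      ∀ m : ℕ, ψ 1 = (m : ℂ) → (m = 1 ∨ m + 1 = Fintype.card F ∨ m = Fintype.card F ∨
        m = Fintype.card F + 1) := by
    intro ψ hψ m hm
    rcases (Cfsg.Agent.S2298.result (F := F)).1 ψ hψ with h | h | h | h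
    · left; exact key m 1 (by rw [← hm, h]; simp)
    · right; left; exact key (m + 1) _ (by push_cast; rw [← hm, h]; ring)
    · right; right; left; exact key m _ (by rw [← hm, h])
    · right; right; right; exact key m _ (by push_cast; rw [← hm, h])
  constructor
  · intro hd h01 h10 hne
    have hdet : (g : Matrix (Fin 2) (Fin 2) F) 0 0 * (g : Matrix (Fin 2) (Fin 2) F) 1 1 = 1 := by
      have := g.2
      rw [Matrix.det_fin_two, h01, zero_mul, sub_zero] at this
      exact this
    have hne' : (g : Matrix (Fin 2) (Fin 2) F) 0 0 ≠ (g : Matrix (Fin 2) (Fin 2) F) 1 1 := by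
      intro h6
      apply hne
      rw [sq]
      nth_rewrite 2 [h6]
      exact hdet
    have h4 : (g : Matrix (Fin 2) (Fin 2) F).trace ^ 2 ≠ 4 := by
      rw [Matrix.trace_fin_two]
      intro h
      have h5 : ((g : Matrix (Fin 2) (Fin 2) F) 0 0 - (g : Matrix (Fin 2) (Fin 2) F) 1 1) ^ 2 = 0 := by
        linear_combination h - 4 * hdet
      exact hne' (sub_eq_zero.1 ((pow_eq_zero_iff two_ne_zero).1 h5))
    have hk2 : 2 ≤ k := by
      by_contra hcon
      have hq3 : Fintype.card F = 3 := by omega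
      apply hne
      have h00 : (g : Matrix (Fin 2) (Fin 2) F) 0 0 ≠ 0 := by
        intro h0
        rw [h0, zero_mul] at hdet
        exact zero_ne_one hdet
      have := FiniteField.pow_card_sub_one_eq_one _ h00
      rwa [hq3] at this
    obtain ⟨ψ, hψ, hcase⟩ := htr h4
    have h9 := (Cfsg.Agent.S2309.result ψ hψ (Matrix.SpecialLinearGroup.toGL g)).1
    rcases hcase with ⟨c1, c2⟩ | ⟨c1, c2⟩
    · rw [← c2]
      rcases hd with hd | hd
      · exact h9 (by rw [c1, hd]) h01 h10 hne'
      · exfalso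
        have := hnat ψ hψ k (by rw [c1, hd, e2])
        omega
    · have h0 : ψ (Matrix.SpecialLinearGroup.toGL g) = 0 := by
        rcases hd with hd | hd
        · exfalso
          have := hnat ψ hψ (2 * Fintype.card F - 2) (by
            rw [c1, hd, Nat.cast_sub (by omega)]; push_cast; ring)
          omega
        · exact h9 (by rw [c1, hd, e2, hk]; push_cast; ring) h01 h10 hne'
      rw [h0] at c2
      linear_combination -c2 / 2
  · intro hd hg
    have h4 := SL2r.elliptic_trace hodd0 g hg
    obtain ⟨ψ, hψ, hcase⟩ := htr h4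
    have h9 := (Cfsg.Agent.S2309.result ψ hψ (Matrix.SpecialLinearGroup.toGL g)).2
    rcases hcase with ⟨c1, c2⟩ | ⟨c1, c2⟩
    · rcases hd with hd | hd
      · rw [← c2]
        exact h9 (by rw [c1, hd]) hg
      · have h5 := hnat ψ hψ (k + 1) (by rw [c1, hd, e1])
        have hk1 : k = 1 := by omega
        have hq3 : Fintype.card F = 3 := by omega
        apply SL2r.corner hq3 hχ (by rw [hd, e1, hk1]; norm_num)
        have h3F : (3 : F) = 0 := by
          have := Nat.cast_card_eq_zero F
          rw [hq3] at this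
          exact_mod_cast this
        have ht3 := FiniteField.pow_card ((g : Matrix (Fin 2) (Fin 2) F).trace)
        rw [hq3] at ht3
        have h6 : (g : Matrix (Fin 2) (Fin 2) F).trace *
            ((g : Matrix (Fin 2) (Fin 2) F).trace ^ 2 - 1) = 0 := by linear_combination ht3
        rcases mul_eq_zero.1 h6 with h | h
        · exact h
        · exfalso
          apply h4
          linear_combination h - h3F
    · have h0 : ψ (Matrix.SpecialLinearGroup.toGL g) = 0 := by
        rcases hd with hd | hd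
        · exfalso
          have := hnat ψ hψ (2 * Fintype.card F + 2) (by rw [c1, hd]; push_cast; ring)
          omega
        · exact h9 (by rw [c1, hd, e1, hk]; push_cast; ring) hg
      rw [h0] at c2
      linear_combination -c2 / 2

end Cfsg.Agent.S2322
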