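import Cfsg.Statements.S2323
import Cfsg.Agent.Lib.Helper2.SL2s
import Cfsg.Agent.S2310
import Cfsg.Agent.S2298

set_option autoImplicit false
open Cfsg

namespace Cfsg.Agent.S2323

open Cfsg.Agent.Lib.Helper2

/-- Over a finite field F with q ≥ 4 elements, let u be the upper unitriangular matrix of SL₂ with off-diagonal entry 1. An irreducible complex character of SL₂ takes at u the value 1 if its degree is q + 1 and the value −1 if its degree is q − 1. -/
theorem result {F : Type*} [Field F] [Fintype F] (hq : 4 ≤ Fintype.card F) (χ : Matrix.SpecialLinearGroup (Fin 2) F → ℂ) (hχ : Cfsg.IsIrrCharacter (Matrix.SpecialLinearGroup (Fin 2) F) χ)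
    (u : Matrix.SpecialLinearGroup (Fin 2) F) (hu : (u : Matrix (Fin 2) (Fin 2) F) = !![1, 1; 0, 1]) :
    (χ 1 = (Fintype.card F : ℂ) + 1 → χ u = 1) ∧ (χ 1 = (Fintype.card F : ℂ) - 1 → χ u = -1) := by
  classical
  have key : ∀ a b : ℕ, (a : ℂ) = b → a = b := fun a b h => by exact_mod_cast h
  have hu' : ((Matrix.SpecialLinearGroup.toGL u : Matrix.GeneralLinearGroup (Fin 2) F) :
      Matrix (Fin 2) (Fin 2) F) = !![1, 1; 0, 1] := hu
  obtain ⟨ψ, hψ, h | ⟨χ', hχ', hne, heq, x, hx⟩⟩ := SL2r.classify_sl hχ
  · have h1 : χ 1 = ψ 1 := by rw [← h]; simp [SL2r.res]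
    have h2 : χ u = ψ (Matrix.SpecialLinearGroup.toGL u) := by rw [← h]; rfl
    have h3 := Cfsg.Agent.S2310.result (by omega) ψ hψ _ hu'
    rw [h1, h2]
    exact ⟨h3.2.1, h3.2.2.1⟩
  · have h1 : χ' 1 = χ 1 := hx 1 1 (by simp)
    have h2 : ψ 1 = 2 * χ 1 := by
      have := congrFun heq 1
      simp only [SL2r.res, map_one, Pi.add_apply, h1] at this
      rw [this]; ring
    have h3 := (Cfsg.Agent.S2298.result (F := F)).1 ψ hψ
    rw [h2] at h3
    refine ⟨fun hd => ?_, fun hd => ?_⟩
    · exfalso
      rw [hd] at h3
      rcases h3 with h | h | h | h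
      · have := key (2 * Fintype.card F + 2) 1 (by push_cast; linear_combination h)
        omega
      · have := key (2 * Fintype.card F + 3) (Fintype.card F) (by push_cast; linear_combination h)
        omega
      · have := key (2 * Fintype.card F + 2) (Fintype.card F) (by push_cast; linear_combination h)
        omega
      · have := key (2 * Fintype.card F + 2) (Fintype.card F + 1)
          (by push_cast; linear_combination h)
        omega
    · exfalso
      rw [hd] at h3
      rcases h3 with h | h | h | h
      · have := key (2 * Fintype.card F) 3 (by push_cast; linear_combination h)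
        omega
      · have := key (2 * Fintype.card F) (Fintype.card F + 1) (by push_cast; linear_combination h)
        omega
      · have := key (2 * Fintype.card F) (Fintype.card F + 2) (by push_cast; linear_combination h)
        omega
      · have := key (2 * Fintype.card F) (Fintype.card F + 3)
          (by push_cast; linear_combination h)
        omega

end Cfsg.Agent.S2323
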