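import Cfsg.Statements.S2324
import Cfsg.Agent.Lib.Helper2.SL2za
import Cfsg.Agent.S2299

set_option autoImplicit false
open Cfsg

namespace Cfsg.Agent.S2324

open Cfsg.Agent.Lib.Helper2
theorem core {F : Type*} [Field F] [Fintype F] [DecidableEq F] (hodd : Odd (Fintype.card F))
    (hq : 5 ≤ Fintype.card F)
    {χ : Matrix.SpecialLinearGroup (Fin 2) F → ℂ} (hχ : Cfsg.IsIrrCharacter _ χ) (ε : ℂ)
    (hε : ε = 1 ∨ ε = -1) (h1 : 2 * χ 1 = (Fintype.card F : ℂ) + ε) :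
    ∃ χ' : Matrix.SpecialLinearGroup (Fin 2) F → ℂ, Cfsg.IsIrrCharacter _ χ' ∧ χ' ≠ χ ∧
      χ' 1 = χ 1 ∧ χ (SL2c.smk 1 1) + χ' (SL2c.smk 1 1) = ε ∧
      (χ (SL2c.smk 1 1) - χ' (SL2c.smk 1 1)) ^ 2 =
        (-1 : ℂ) ^ ((Fintype.card F - 1) / 2) * (Fintype.card F : ℂ) := by
  have key : ∀ z : ℤ, (Fintype.card F : ℂ) = z → z < 5 → False := by
    intro z hz h5
    have : (Fintype.card F : ℤ) = z := by exact_mod_cast hz
    omega
  obtain ⟨ψ, hψ, h | ⟨χ', hχ', hne, hres, x, hx⟩⟩ := SL2r.classify_sl hχ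
  · exfalso
    have h2 : ψ 1 = χ 1 := by rw [← h, SL2r.res_one]
    rw [← h2] at h1
    rcases GL2.classify hψ with ⟨α, rfl⟩ | ⟨α, rfl⟩ | ⟨α, β, -, rfl⟩ | ⟨-, h3⟩
    · rw [GL2.dl_one] at h1
      rcases hε with rfl | rfl
      · exact key 1 (by push_cast; linear_combination -h1) (by norm_num)
      · exact key 3 (by push_cast; linear_combination -h1) (by norm_num)
    · rw [GL2.St_one] at h1
      rcases hε with rfl | rfl
      · exact key 1 (by push_cast; linear_combination h1) (by norm_num)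
      · exact key (-1) (by push_cast; linear_combination h1) (by norm_num)
    · rw [GL2.II_one] at h1
      rcases hε with rfl | rfl
      · exact key (-1) (by push_cast; linear_combination h1) (by norm_num)
      · exact key (-3) (by push_cast; linear_combination h1) (by norm_num)
    · rw [h3] at h1
      rcases hε with rfl | rfl
      · exact key 3 (by push_cast; linear_combination h1) (by norm_num)
      · exact key 1 (by push_cast; linear_combination h1) (by norm_num)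
  · have e1 : χ' 1 = χ 1 := hx 1 1 (by simp)
    have e2 : ψ 1 = (Fintype.card F : ℂ) + ε := by
      have e0 : SL2r.res ψ 1 = ψ 1 := by rw [SL2r.res_one]
      rw [← e0, hres, Pi.add_apply, e1, ← h1]; ring
    have e3 : ψ (GL2.bmk 1 1 1) = χ (SL2c.smk 1 1) + χ' (SL2c.smk 1 1) := by
      have : SL2r.res ψ (SL2c.smk 1 1) = χ (SL2c.smk 1 1) + χ' (SL2c.smk 1 1) := by
        rw [hres, Pi.add_apply]
      rw [← this, SL2r.res, SL2c.toGL_smk, inv_one]
    refine ⟨χ', hχ', hne, e1, ?_, SL2r.half_value hodd hψ hχ hχ' hne hres x hx⟩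
    rw [← e3]
    rcases GL2.classify hψ with ⟨α, rfl⟩ | ⟨α, rfl⟩ | ⟨α, β, -, rfl⟩ | ⟨hc, h3⟩
    · exfalso
      rw [GL2.dl_one] at e2
      rcases hε with rfl | rfl
      · exact key 0 (by push_cast; linear_combination -e2) (by norm_num)
      · exact key 2 (by push_cast; linear_combination -e2) (by norm_num)
    · exfalso
      rw [GL2.St_one] at e2
      rcases hε with rfl | rfl
      · exact one_ne_zero (α := ℂ) (by linear_combination -e2)
      · exact one_ne_zero (α := ℂ) (by linear_combination e2)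
    · rw [GL2.II_one] at e2
      rw [GL2.II_unip]
      linear_combination e2
    · rw [GL2.cusp_unip hψ hc h3]
      rw [h3] at e2
      linear_combination e2

/-- Over a finite field F with q elements, q odd and q ≥ 5, let u be the upper unitriangular matrix of SL₂ with off-diagonal entry 1 and let δ = (−1)^((q−1)/2). Every irreducible complex character χ of SL₂ of degree (q + 1)/2 satisfies (2χ(u) − 1)² = δq, and every irreducible complex character χ of degree (q − 1)/2 satisfies (2χ(u) + 1)² = δq; that is, χ(u) = (1 ± √(δq))/2 in the first case and χ(u) = (−1 ± √(δq))/2 in the second. Moreover two different irreducible characters of degree (q + 1)/2 take the two different values (their values at u add up to 1), and likewise for degree (q − 1)/2 (values adding up to −1). -/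
theorem result {F : Type*} [Field F] [Fintype F] (hodd : Odd (Fintype.card F)) (hq : 5 ≤ Fintype.card F)
    (u : Matrix.SpecialLinearGroup (Fin 2) F) (hu : (u : Matrix (Fin 2) (Fin 2) F) = !![1, 1; 0, 1]) :
    (∀ χ : Matrix.SpecialLinearGroup (Fin 2) F → ℂ, Cfsg.IsIrrCharacter (Matrix.SpecialLinearGroup (Fin 2) F) χ → χ 1 = (((Fintype.card F + 1) / 2 : ℕ) : ℂ) → (2 * χ u - 1) ^ 2 = (-1 : ℂ) ^ ((Fintype.card F - 1) / 2) * (Fintype.card F : ℂ)) ∧
    (∀ χ : Matrix.SpecialLinearGroup (Fin 2) F → ℂ, Cfsg.IsIrrCharacter (Matrix.SpecialLinearGroup (Fin 2) F) χ → χ 1 = (((Fintype.card F - 1) / 2 : ℕ) : ℂ) → (2 * χ u + 1) ^ 2 = (-1 : ℂ) ^ ((Fintype.card F - 1) / 2) * (Fintype.card F : ℂ)) ∧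
    (∀ χ₁ χ₂ : Matrix.SpecialLinearGroup (Fin 2) F → ℂ, Cfsg.IsIrrCharacter (Matrix.SpecialLinearGroup (Fin 2) F) χ₁ → Cfsg.IsIrrCharacter (Matrix.SpecialLinearGroup (Fin 2) F) χ₂ → χ₁ ≠ χ₂ →
      χ₁ 1 = (((Fintype.card F + 1) / 2 : ℕ) : ℂ) → χ₂ 1 = (((Fintype.card F + 1) / 2 : ℕ) : ℂ) → χ₁ u + χ₂ u = 1) ∧
    (∀ χ₁ χ₂ : Matrix.SpecialLinearGroup (Fin 2) F → ℂ, Cfsg.IsIrrCharacter (Matrix.SpecialLinearGroup (Fin 2) F) χ₁ → Cfsg.IsIrrCharacter (Matrix.SpecialLinearGroup (Fin 2) F) χ₂ → χ₁ ≠ χ₂ →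
      χ₁ 1 = (((Fintype.card F - 1) / 2 : ℕ) : ℂ) → χ₂ 1 = (((Fintype.card F - 1) / 2 : ℕ) : ℂ) → χ₁ u + χ₂ u = -1) := by
  classical
  have hu1 : u = SL2c.smk 1 1 := by
    apply Subtype.ext
    rw [hu, SL2c.smk_coe]
    simp
  subst hu1
  obtain ⟨k, hk⟩ := hodd
  have hodd : Odd (Fintype.card F) := ⟨k, hk⟩
  have hp : (2 : ℂ) * (((Fintype.card F + 1) / 2 : ℕ) : ℂ) = (Fintype.card F : ℂ) + 1 := by
    have : 2 * ((Fintype.card F + 1) / 2) = Fintype.card F + 1 := by omega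
    exact_mod_cast this
  have hm : (2 : ℂ) * (((Fintype.card F - 1) / 2 : ℕ) : ℂ) = (Fintype.card F : ℂ) + (-1) := by
    have : 2 * ((Fintype.card F - 1) / 2) + 1 = Fintype.card F := by omega
    have h2 : (2 : ℂ) * (((Fintype.card F - 1) / 2 : ℕ) : ℂ) + 1 = (Fintype.card F : ℂ) := by
      exact_mod_cast this
    linear_combination h2
  obtain ⟨-, -, -, -, c5, c6⟩ := (Cfsg.Agent.S2299.result (F := F) hodd).2 hq
  have huniq : ∀ (z : ℂ), Nat.card {χ : Cfsg.IrrCharacter (Matrix.SpecialLinearGroup (Fin 2) F) //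
      (χ : Matrix.SpecialLinearGroup (Fin 2) F → ℂ) 1 = z} = 2 →
      ∀ χ₁ χ₂ χ₃ : Matrix.SpecialLinearGroup (Fin 2) F → ℂ, Cfsg.IsIrrCharacter _ χ₁ →
      Cfsg.IsIrrCharacter _ χ₂ → Cfsg.IsIrrCharacter _ χ₃ → χ₁ 1 = z → χ₂ 1 = z → χ₃ 1 = z →
      χ₁ ≠ χ₂ → χ₃ ≠ χ₁ → χ₃ = χ₂ := by
    intro z hz χ₁ χ₂ χ₃ i1 i2 i3 d1 d2 d3 n12 n31
    obtain ⟨y, -, hy⟩ := (Nat.card_eq_two_iff' (⟨⟨χ₁, i1⟩, d1⟩ :
      {χ : Cfsg.IrrCharacter (Matrix.SpecialLinearGroup (Fin 2) F) //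
      (χ : Matrix.SpecialLinearGroup (Fin 2) F → ℂ) 1 = z})).1 hz
    have a2 := hy ⟨⟨χ₂, i2⟩, d2⟩ (fun h => n12 (congrArg (fun t => t.1.1) h).symm)
    have a3 := hy ⟨⟨χ₃, i3⟩, d3⟩ (fun h => n31 (congrArg (fun t => t.1.1) h))
    exact congrArg (fun t => t.1.1) (a3.trans a2.symm)
  refine ⟨?_, ?_, ?_, ?_⟩
  · intro χ hχ h1
    obtain ⟨χ', -, -, -, e1, e2⟩ := core hodd hq hχ 1 (Or.inl rfl) (by rw [h1, hp])
    rw [← e2]
    congr 1
    linear_combination e1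
  · intro χ hχ h1
    obtain ⟨χ', -, -, -, e1, e2⟩ := core hodd hq hχ (-1) (Or.inr rfl) (by rw [h1, hm])
    rw [← e2]
    congr 1
    linear_combination e1
  · intro χ₁ χ₂ i1 i2 n12 d1 d2
    obtain ⟨χ', i3, n3, d3, e1, -⟩ := core hodd hq i1 1 (Or.inl rfl) (by rw [d1, hp])
    rw [← huniq _ c5 χ₁ χ₂ χ' i1 i2 i3 d1 d2 (d3.trans d1) n12 n3]
    exact e1
  · intro χ₁ χ₂ i1 i2 n12 d1 d2
    obtain ⟨χ', i3, n3, d3, e1, -⟩ := core hodd hq i1 (-1) (Or.inr rfl) (by rw [d1, hm])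
    rw [← huniq _ c6 χ₁ χ₂ χ' i1 i2 i3 d1 d2 (d3.trans d1) n12 n3]
    exact e1

end Cfsg.Agent.S2324
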