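import Cfsg.Statements.S2330
import Cfsg.Agent.Lib.Helper14.GL2

set_option autoImplicit false
open Cfsg

namespace Cfsg.Agent.S2330

open Matrix Cfsg.Agent.Lib.Helper14.GL2

variable {F : Type*} [Field F]

theorem det_scal (a : Fˣ) : ((a : F) • (1 : Matrix (Fin 2) (Fin 2) F)).det ≠ 0 := by
  simp

/-- representatives of the conjugacy classes -/
noncomputable def rep : Fˣ ⊕ (F × Fˣ) → GL (Fin 2) F
  | Sum.inl a => Matrix.GeneralLinearGroup.mkOfDetNeZero ((a : F) • (1 : Matrix (Fin 2) (Fin 2) F)) (det_scal a)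
  | Sum.inr td => Matrix.GeneralLinearGroup.mkOfDetNeZero (comp td.1 (td.2 : F))
      (by rw [det_comp]; exact td.2.ne_zero)

theorem conj_scal (a : Fˣ) (h : GL (Fin 2) F) (hc : IsConj (rep (Sum.inl a)) h) :
    (h : Matrix (Fin 2) (Fin 2) F) = (a : F) • (1 : Matrix (Fin 2) (Fin 2) F) := by
  obtain ⟨c, hc⟩ := isConj_iff.mp hc
  have h1 : c * rep (Sum.inl a) = rep (Sum.inl a) * c := by
    apply Units.ext
    change (c : Matrix (Fin 2) (Fin 2) F) * ((a : F) • (1 : Matrix (Fin 2) (Fin 2) F)) =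
      ((a : F) • (1 : Matrix (Fin 2) (Fin 2) F)) * (c : Matrix (Fin 2) (Fin 2) F)
    simp
  rw [h1, mul_inv_cancel_right] at hc
  rw [← hc]
  rfl

theorem trace_det_conj (g h : GL (Fin 2) F) (hc : IsConj g h) :
    (g : Matrix (Fin 2) (Fin 2) F).trace = (h : Matrix (Fin 2) (Fin 2) F).trace ∧
    (g : Matrix (Fin 2) (Fin 2) F).det = (h : Matrix (Fin 2) (Fin 2) F).det := by
  obtain ⟨c, hc⟩ := isConj_iff.mp hc
  rw [← hc]
  constructor
  · change _ = ((c : Matrix (Fin 2) (Fin 2) F) * (g : Matrix (Fin 2) (Fin 2) F) * ((c⁻¹ : GL (Fin 2) F) : Matrix (Fin 2) (Fin 2) F)).trace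
    rw [Matrix.trace_mul_comm, ← Matrix.mul_assoc]
    have : ((c⁻¹ : GL (Fin 2) F) : Matrix (Fin 2) (Fin 2) F) * (c : Matrix (Fin 2) (Fin 2) F) = 1 := by
      rw [← Units.val_mul, inv_mul_cancel]; rfl
    rw [this, Matrix.one_mul]
  · change _ = ((c : Matrix (Fin 2) (Fin 2) F) * (g : Matrix (Fin 2) (Fin 2) F) * ((c⁻¹ : GL (Fin 2) F) : Matrix (Fin 2) (Fin 2) F)).det
    rw [det_mul, det_mul, mul_comm, ← mul_assoc, ← det_mul]
    have : ((c⁻¹ : GL (Fin 2) F) : Matrix (Fin 2) (Fin 2) F) * (c : Matrix (Fin 2) (Fin 2) F) = 1 := by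
      rw [← Units.val_mul, inv_mul_cancel]; rfl
    rw [this, det_one, one_mul]

theorem rep_bij : Function.Bijective (fun r : Fˣ ⊕ (F × Fˣ) => ConjClasses.mk (rep r)) := by
  constructor
  · intro r r' hrr
    have hc : IsConj (rep r) (rep r') := ConjClasses.mk_eq_mk_iff_isConj.mp hrr
    rcases r with a | ⟨t, d⟩ <;> rcases r' with a' | ⟨t', d'⟩
    · have h1 := conj_scal a _ hc
      have h2 := congrFun (congrFun h1 0) 0
      change ((a' : F) • (1 : Matrix (Fin 2) (Fin 2) F)) 0 0 = ((a : F) • (1 : Matrix (Fin 2) (Fin 2) F)) 0 0 at h2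
      simp at h2
      rw [Units.ext h2]
    · exfalso
      have h1 := conj_scal a _ hc
      exact not_isScal_comp t' (d' : F) ((isScal_iff _).mpr ⟨a, h1⟩)
    · exfalso
      have h1 := conj_scal a' _ hc.symm
      exact not_isScal_comp t (d : F) ((isScal_iff _).mpr ⟨a', h1⟩)
    · obtain ⟨h1, h2⟩ := trace_det_conj _ _ hc
      change (comp t (d : F)).trace = (comp t' (d' : F)).trace at h1
      change (comp t (d : F)).det = (comp t' (d' : F)).det at h2
      rw [trace_comp, trace_comp] at h1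
      rw [det_comp, det_comp] at h2
      rw [h1, Units.ext h2]
  · intro C
    obtain ⟨g, rfl⟩ := ConjClasses.exists_rep C
    by_cases hs : IsScal (g : Matrix (Fin 2) (Fin 2) F)
    · obtain ⟨a, ha⟩ := (isScal_iff _).mp hs
      have ha0 : a ≠ 0 := by
        intro h0
        have hdet : (g : Matrix (Fin 2) (Fin 2) F).det ≠ 0 := by
          have := (Matrix.isUnit_iff_isUnit_det _).mp g.isUnit
          exact this.ne_zero
        rw [ha, h0] at hdet
        simp at hdet
      refine ⟨Sum.inl (Units.mk0 a ha0), ?_⟩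
      change ConjClasses.mk _ = ConjClasses.mk g
      congr 1
      apply Units.ext
      exact ha.symm
    · have hdet : (g : Matrix (Fin 2) (Fin 2) F).det ≠ 0 := by
        have := (Matrix.isUnit_iff_isUnit_det _).mp g.isUnit
        exact this.ne_zero
      refine ⟨Sum.inr ((g : Matrix (Fin 2) (Fin 2) F).trace, Units.mk0 _ hdet), ?_⟩
      change ConjClasses.mk _ = ConjClasses.mk g
      rw [ConjClasses.mk_eq_mk_iff_isConj]
      apply isConj_GL_of_trace_det
      · exact not_isScal_comp _ _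
      · exact hs
      · exact trace_comp _ _
      · exact det_comp _ _

/-- Over a finite field with q elements, the general linear group GL₂ has exactly q² − 1 conjugacy classes. -/
theorem result {F : Type*} [Field F] [Fintype F] :
    Nat.card (ConjClasses (Matrix.GeneralLinearGroup (Fin 2) F)) = Fintype.card F ^ 2 - 1 := by
  rw [← Nat.card_congr (Equiv.ofBijective _ (rep_bij (F := F)))]
  have hq : 2 ≤ Fintype.card F := Fintype.one_lt_card
  classical
  rw [Nat.card_eq_fintype_card, Fintype.card_sum, Fintype.card_prod, Fintype.card_units]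
  obtain ⟨k, hk⟩ : ∃ k, Fintype.card F = k + 1 := ⟨Fintype.card F - 1, by omega⟩
  rw [hk]
  simp only [Nat.add_sub_cancel]
  have : (k + 1) ^ 2 = (k + (k + 1) * k) + 1 := by ring
  omega

end Cfsg.Agent.S2330
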