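import Cfsg.Statements.S2331
import Cfsg.Agent.Lib.Helper14.SL2

set_option autoImplicit false
open Cfsg

namespace Cfsg.Agent.S2331

open Matrix Cfsg.Agent.Lib.Helper14.GL2 Cfsg.Agent.Lib.Helper14.SL2

variable {F : Type*} [Field F]

/-- representatives of the conjugacy classes -/
def rep : Option F → Matrix.SpecialLinearGroup (Fin 2) F
  | none => 1
  | some t => compSL t

theorem isScal_one : IsScal ((1 : Matrix.SpecialLinearGroup (Fin 2) F) : Matrix (Fin 2) (Fin 2) F) := by
  simp [IsScal]

theorem rep_bij [Fintype F] [CharP F 2] :
    Function.Bijective (fun r : Option F => ConjClasses.mk (rep r)) := by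
  constructor
  · intro r r' hrr
    have hc : IsConj (rep r) (rep r') := ConjClasses.mk_eq_mk_iff_isConj.mp hrr
    rcases r with _ | t <;> rcases r' with _ | t'
    · rfl
    · exfalso
      have h1 := eq_of_isConj_of_isScal isScal_one hc
      change compSL t' = 1 at h1
      exact not_isScal_compSL t' (h1 ▸ isScal_one)
    · exfalso
      have h1 := eq_of_isConj_of_isScal isScal_one hc.symm
      change compSL t = 1 at h1
      exact not_isScal_compSL t (h1 ▸ isScal_one)
    · have h1 := trace_conj hc
      change ((compSL t : Matrix.SpecialLinearGroup (Fin 2) F) : Matrix (Fin 2) (Fin 2) F).trace =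
        ((compSL t' : Matrix.SpecialLinearGroup (Fin 2) F) : Matrix (Fin 2) (Fin 2) F).trace at h1
      rw [trace_compSL, trace_compSL] at h1
      rw [h1]
  · intro C
    obtain ⟨g, rfl⟩ := ConjClasses.exists_rep C
    by_cases hs : IsScal (g : Matrix (Fin 2) (Fin 2) F)
    · refine ⟨none, ?_⟩
      change ConjClasses.mk 1 = ConjClasses.mk g
      congr 1
      obtain ⟨a, ha⟩ := (isScal_iff _).mp hs
      have hdet := g.2
      rw [ha] at hdet
      simp at hdet
      have ha1 : a = 1 := by
        rcases hdet with h | h
        · exact h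
        · have h22 : (2 : F) = 0 := CharP.cast_eq_zero F 2
          rw [h]
          linear_combination (-1 : F) * h22
      apply Subtype.ext
      rw [ha, ha1]
      simp
    · obtain ⟨x, y, hxy⟩ := exists_Qf_ne_zero hs
      refine ⟨some (g : Matrix (Fin 2) (Fin 2) F).trace, ?_⟩
      change ConjClasses.mk (compSL _) = ConjClasses.mk g
      rw [ConjClasses.mk_eq_mk_iff_isConj]
      apply IsConj.symm
      have hchar : ringChar F = 2 := ringChar.eq F 2
      obtain ⟨s, hs⟩ := FiniteField.isSquare_of_char_two hchar (Qf (g : Matrix (Fin 2) (Fin 2) F) x y)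
      apply isConj_SL_of_trace_Qf g _ (trace_compSL _).symm x y s 0 hxy
      rw [Qf_compSL, hs]
      ring

/-- Over a finite field with q elements, q even, the special linear group SL₂ has exactly q + 1 conjugacy classes. -/
theorem result {F : Type*} [Field F] [Fintype F] [CharP F 2] :
    Nat.card (ConjClasses (Matrix.SpecialLinearGroup (Fin 2) F)) = Fintype.card F + 1 := by
  rw [← Nat.card_congr (Equiv.ofBijective _ (rep_bij (F := F)))]
  rw [Nat.card_eq_fintype_card, Fintype.card_option]

end Cfsg.Agent.S2331
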