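import Cfsg.Statements.S2367
import Mathlib
import Mathlib
-- import your own Cfsg.Agent.* helpers here

set_option autoImplicit false
open Cfsg

namespace Cfsg.Agent.S2367



open Nat in
theorem mem_of_dvd_prod {p : ℕ} (hp : p.Prime) : ∀ (L : List (ℕ × ℕ)),
    p ∣ (L.map (fun x => x.1 ^ x.2)).prod → (∀ x ∈ L, x.1.Prime) → ∃ x ∈ L, p = x.1 := by
  intro L
  induction L with
  | nil =>
    intro h _
    simp only [List.map_nil, List.prod_nil, Nat.dvd_one] at h
    exact absurd h hp.one_lt.ne'
  | cons y L ih =>
    intro h hpr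
    rw [List.map_cons, List.prod_cons] at h
    rcases (hp.dvd_mul).1 h with h1 | h1
    · exact ⟨y, List.mem_cons_self, (Nat.prime_dvd_prime_iff_eq hp (hpr y List.mem_cons_self)).1
        (hp.dvd_of_dvd_pow h1)⟩
    · obtain ⟨x, hx, hpx⟩ := ih h1 (fun x hx => hpr x (List.mem_cons_of_mem _ hx))
      exact ⟨x, List.mem_cons_of_mem _ hx, hpx⟩

theorem spor_core (N a : ℕ) (L : List (ℕ × ℕ))
    (hN : N = 2 ^ a * (L.map (fun x => x.1 ^ x.2)).prod) (hpr : ∀ x ∈ L, x.1.Prime)
    (hchk : ∀ x ∈ L, x.1 ^ 3 < 2 ^ a ∨ ¬ x.1 ^ 3 ∣ N) :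
    ∀ p : ℕ, p.Prime → p ≠ 2 → N.factorization p = 3 → p ^ 3 < 2 ^ (N.factorization 2) := by
  intro p hp h2 h3
  have hN0 : N ≠ 0 := by
    rintro rfl
    simp at h3
  have hd : p ^ 3 ∣ N := by
    have := Nat.ordProj_dvd N p
    rwa [h3] at this
  have hpN : p ∣ N := dvd_trans (dvd_pow_self p (by norm_num)) hd
  have ha : a ≤ N.factorization 2 :=
    (Nat.prime_two.pow_dvd_iff_le_factorization hN0).1 ⟨_, hN⟩
  have hpL : p ∣ (L.map (fun x => x.1 ^ x.2)).prod := by
    rw [hN] at hpN
    rcases (hp.dvd_mul).1 hpN with h | h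
    · exact absurd ((Nat.prime_dvd_prime_iff_eq hp Nat.prime_two).1 (hp.dvd_of_dvd_pow h)) h2
    · exact h
  obtain ⟨x, hx, rfl⟩ := mem_of_dvd_prod hp L hpL hpr
  rcases hchk x hx with h | h
  · exact lt_of_lt_of_le h (Nat.pow_le_pow_right (by norm_num) ha)
  · exact absurd hd h

theorem fm {a b : ℕ} (q : ℕ) (h : a ≤ b) : (a.factorial).factorization q ≤ (b.factorial).factorization q :=
  (Nat.factorization_le_iff_dvd (Nat.factorial_ne_zero _) (Nat.factorial_ne_zero _)).2
    (Nat.factorial_dvd_factorial h) q

theorem cube_lt : ∀ p : ℕ, 5 ≤ p → p ^ 3 < 2 ^ (p + 5) := by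
  intro p hp
  induction p, hp using Nat.le_induction with
  | base => norm_num
  | succ p hp ih =>
    have h1 : (p + 1) ^ 3 ≤ 2 * p ^ 3 := by nlinarith [mul_le_mul hp hp (by norm_num) (by omega)]
    calc (p + 1) ^ 3 ≤ 2 * p ^ 3 := h1
      _ < 2 * 2 ^ (p + 5) := by omega
      _ = 2 ^ (p + 1 + 5) := by ring

theorem legendre (p n : ℕ) (hp : p.Prime) :
    (n.factorial).factorization p = ((n / p).factorial).factorization p + n / p := by
  haveI := Fact.mk hp
  rw [Nat.factorization_def _ hp, Nat.factorization_def _ hp]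
  conv_lhs => rw [← Nat.div_add_mod n p]
  rw [padicValNat_factorial_mul_add _ (Nat.mod_lt _ hp.pos), padicValNat_factorial_mul]

theorem alt_core (n N p : ℕ) (hN : 2 * N = n.factorial) (hp : p.Prime) (hodd : p ≠ 2)
    (h3 : N.factorization p = 3) : p ^ 3 < 2 ^ (N.factorization 2) := by
  have hN0 : N ≠ 0 := by
    rintro rfl
    simp at h3
  have hf : ∀ q, (n.factorial).factorization q = (if q = 2 then 1 else 0) + N.factorization q := by
    intro q
    rw [← hN, Nat.factorization_mul two_ne_zero hN0, Nat.prime_two.factorization,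
      Finsupp.add_apply, Finsupp.single_apply]
    simp only [eq_comm]
  have hv : (n.factorial).factorization p = 3 := by rw [hf, if_neg hodd, zero_add, h3]
  have h2 : (n.factorial).factorization 2 = 1 + N.factorization 2 := by rw [hf, if_pos rfl]
  rw [legendre p n hp] at hv
  have hk : n / p ≤ 3 := by omega
  have hp2 : ¬ p ∣ 2 := fun h => hodd ((Nat.prime_dvd_prime_iff_eq hp Nat.prime_two).1 h)
  have hk3 : n / p = 3 ∧ p ≠ 3 := by
    generalize n / p = k at hv hk
    interval_cases k
    · simp at hv
    · simp at hv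
    · rw [show Nat.factorial 2 = 2 from rfl, Nat.factorization_eq_zero_of_not_dvd hp2] at hv
      omega
    · refine ⟨rfl, ?_⟩
      rintro rfl
      have h6 : (Nat.factorial 3).factorization 3 = 1 := by
        rw [show Nat.factorial 3 = 3 * 2 from rfl, Nat.factorization_mul (by norm_num) (by norm_num),
          Finsupp.add_apply, Nat.prime_three.factorization_self,
          Nat.factorization_eq_zero_of_not_dvd (by norm_num)]
      omega
  have hp5 : 5 ≤ p := by
    have h1 := hp.two_le
    rcases Nat.lt_or_ge p 5 with h | h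
    · interval_cases p
      · exact absurd rfl hodd
      · exact absurd rfl hk3.2
      · exact absurd hp (by norm_num)
    · exact h
  have hn : 3 * p ≤ n := by
    have := Nat.div_mul_le_self n p
    rw [hk3.1] at this
    exact this
  have e1 : ((2 * (p + 2)).factorial).factorization 2 ≤ (n.factorial).factorization 2 :=
    fm 2 (by omega)
  have e2 := Nat.factorization_factorial_mul (n := p + 2) Nat.prime_two
  have e3 : ((2 * 3).factorial).factorization 2 ≤ ((p + 2).factorial).factorization 2 :=
    fm 2 (by omega)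
  have e4 := Nat.factorization_factorial_mul (n := 3) Nat.prime_two
  have e5 : ((2 * 1).factorial).factorization 2 ≤ ((3).factorial).factorization 2 := fm 2 (by omega)
  have e6 := Nat.factorization_factorial_mul (n := 1) Nat.prime_two
  have hge : p + 5 ≤ N.factorization 2 := by omega
  exact lt_of_lt_of_le (cube_lt p hp5) (Nat.pow_le_pow_right (by norm_num) hge)

/-- Let G be an alternating group of degree at least 5 or a simple group with the order of one of the 26 sporadic groups, and let p be an odd prime such that p³ is the exact power of p dividing the order of G. Then p³ is less than the 2-part of the order of G. -/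
theorem result {G : Type*} [Group G] [Finite G] (hG : Cfsg.IsAlternating G ∨ Cfsg.IsSporadic G)
    (p : ℕ) (hp : p.Prime) (hodd : p ≠ 2) (h3 : (Nat.card G).factorization p = 3) :
    p ^ 3 < 2 ^ (Nat.card G).factorization 2 := by
  rcases hG with ⟨n, hn, ⟨e⟩⟩ | hS
  · haveI : Nontrivial (Fin n) := Fin.nontrivial_iff_two_le.2 (by omega)
    have h1 : 2 * Nat.card G = n.factorial := by
      rw [Nat.card_congr e.toEquiv, two_mul_nat_card_alternatingGroup, Nat.card_perm, Nat.card_eq_fintype_card,
        Fintype.card_fin]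
    exact alt_core n _ p h1 hp hodd h3
  · rcases hS with h | h | h | h | h | h | h | h | h | h | h | h | h | h | h | h | h | h | h | h | h | h | h | h | h | h
    · rw [h.2] at h3 ⊢
      exact spor_core 7920 4 [(3, 2), (5, 1), (11, 1)] (by norm_num) (by simp only [List.mem_cons, List.not_mem_nil, or_false, forall_eq_or_imp, forall_eq]; norm_num) (by decide +kernel) p hp hodd h3
    · rw [h.2] at h3 ⊢
      exact spor_core 95040 6 [(3, 3), (5, 1), (11, 1)] (by norm_num) (by simp only [List.mem_cons, List.not_mem_nil, or_false, forall_eq_or_imp, forall_eq]; norm_num) (by decide +kernel) p hp hodd h3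
    · rw [h.2] at h3 ⊢
      exact spor_core 443520 7 [(3, 2), (5, 1), (7, 1), (11, 1)] (by norm_num) (by simp only [List.mem_cons, List.not_mem_nil, or_false, forall_eq_or_imp, forall_eq]; norm_num) (by decide +kernel) p hp hodd h3
    · rw [h.2] at h3 ⊢
      exact spor_core 10200960 7 [(3, 2), (5, 1), (7, 1), (11, 1), (23, 1)] (by norm_num) (by simp only [List.mem_cons, List.not_mem_nil, or_false, forall_eq_or_imp, forall_eq]; norm_num) (by decide +kernel) p hp hodd h3
    · rw [h.2] at h3 ⊢
      exact spor_core 244823040 10 [(3, 3), (5, 1), (7, 1), (11, 1), (23, 1)] (by norm_num) (by simp only [List.mem_cons, List.not_mem_nil, or_false, forall_eq_or_imp, forall_eq]; norm_num) (by decide +kernel) p hp hodd h3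
    · rw [h.2] at h3 ⊢
      exact spor_core 175560 3 [(3, 1), (5, 1), (7, 1), (11, 1), (19, 1)] (by norm_num) (by simp only [List.mem_cons, List.not_mem_nil, or_false, forall_eq_or_imp, forall_eq]; norm_num) (by decide +kernel) p hp hodd h3
    · rw [h.2] at h3 ⊢
      exact spor_core 604800 7 [(3, 3), (5, 2), (7, 1)] (by norm_num) (by simp only [List.mem_cons, List.not_mem_nil, or_false, forall_eq_or_imp, forall_eq]; norm_num) (by decide +kernel) p hp hodd h3
    · rw [h.2] at h3 ⊢
      exact spor_core 50232960 7 [(3, 5), (5, 1), (17, 1), (19, 1)] (by norm_num) (by simp only [List.mem_cons, List.not_mem_nil, or_false, forall_eq_or_imp, forall_eq]; norm_num) (by decide +kernel) p hp hodd h3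
    · rw [h.2] at h3 ⊢
      exact spor_core 86775571046077562880 21 [(3, 3), (5, 1), (7, 1), (11, 3), (23, 1), (29, 1), (31, 1), (37, 1), (43, 1)] (by norm_num) (by simp only [List.mem_cons, List.not_mem_nil, or_false, forall_eq_or_imp, forall_eq]; norm_num) (by decide +kernel) p hp hodd h3
    · rw [h.2] at h3 ⊢
      exact spor_core 4157776806543360000 21 [(3, 9), (5, 4), (7, 2), (11, 1), (13, 1), (23, 1)] (by norm_num) (by simp only [List.mem_cons, List.not_mem_nil, or_false, forall_eq_or_imp, forall_eq]; norm_num) (by decide +kernel) p hp hodd h3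
    · rw [h.2] at h3 ⊢
      exact spor_core 42305421312000 18 [(3, 6), (5, 3), (7, 1), (11, 1), (23, 1)] (by norm_num) (by simp only [List.mem_cons, List.not_mem_nil, or_false, forall_eq_or_imp, forall_eq]; norm_num) (by decide +kernel) p hp hodd h3
    · rw [h.2] at h3 ⊢
      exact spor_core 495766656000 10 [(3, 7), (5, 3), (7, 1), (11, 1), (23, 1)] (by norm_num) (by simp only [List.mem_cons, List.not_mem_nil, or_false, forall_eq_or_imp, forall_eq]; norm_num) (by decide +kernel) p hp hodd h3
    · rw [h.2] at h3 ⊢
      exact spor_core 64561751654400 17 [(3, 9), (5, 2), (7, 1), (11, 1), (13, 1)] (by norm_num) (by simp only [List.mem_cons, List.not_mem_nil, or_false, forall_eq_or_imp, forall_eq]; norm_num) (by decide +kernel) p hp hodd h3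
    · rw [h.2] at h3 ⊢
      exact spor_core 4089470473293004800 18 [(3, 13), (5, 2), (7, 1), (11, 1), (13, 1), (17, 1), (23, 1)] (by norm_num) (by simp only [List.mem_cons, List.not_mem_nil, or_false, forall_eq_or_imp, forall_eq]; norm_num) (by decide +kernel) p hp hodd h3
    · rw [h.2] at h3 ⊢
      exact spor_core 1255205709190661721292800 21 [(3, 16), (5, 2), (7, 3), (11, 1), (13, 1), (17, 1), (23, 1), (29, 1)] (by norm_num) (by simp only [List.mem_cons, List.not_mem_nil, or_false, forall_eq_or_imp, forall_eq]; norm_num) (by decide +kernel) p hp hodd h3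
    · rw [h.2] at h3 ⊢
      exact spor_core 44352000 9 [(3, 2), (5, 3), (7, 1), (11, 1)] (by norm_num) (by simp only [List.mem_cons, List.not_mem_nil, or_false, forall_eq_or_imp, forall_eq]; norm_num) (by decide +kernel) p hp hodd h3
    · rw [h.2] at h3 ⊢
      exact spor_core 898128000 7 [(3, 6), (5, 3), (7, 1), (11, 1)] (by norm_num) (by simp only [List.mem_cons, List.not_mem_nil, or_false, forall_eq_or_imp, forall_eq]; norm_num) (by decide +kernel) p hp hodd h3
    · rw [h.2] at h3 ⊢
      exact spor_core 4030387200 10 [(3, 3), (5, 2), (7, 3), (17, 1)] (by norm_num) (by simp only [List.mem_cons, List.not_mem_nil, or_false, forall_eq_or_imp, forall_eq]; norm_num) (by decide +kernel) p hp hodd h3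
    · rw [h.2] at h3 ⊢
      exact spor_core 145926144000 14 [(3, 3), (5, 3), (7, 1), (13, 1), (29, 1)] (by norm_num) (by simp only [List.mem_cons, List.not_mem_nil, or_false, forall_eq_or_imp, forall_eq]; norm_num) (by decide +kernel) p hp hodd h3
    · rw [h.2] at h3 ⊢
      exact spor_core 448345497600 13 [(3, 7), (5, 2), (7, 1), (11, 1), (13, 1)] (by norm_num) (by simp only [List.mem_cons, List.not_mem_nil, or_false, forall_eq_or_imp, forall_eq]; norm_num) (by decide +kernel) p hp hodd h3
    · rw [h.2] at h3 ⊢
      exact spor_core 460815505920 9 [(3, 4), (5, 1), (7, 3), (11, 1), (19, 1), (31, 1)] (by norm_num) (by simp only [List.mem_cons, List.not_mem_nil, or_false, forall_eq_or_imp, forall_eq]; norm_num) (by decide +kernel) p hp hodd h3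
    · rw [h.2] at h3 ⊢
      exact spor_core 273030912000000 14 [(3, 6), (5, 6), (7, 1), (11, 1), (19, 1)] (by norm_num) (by simp only [List.mem_cons, List.not_mem_nil, or_false, forall_eq_or_imp, forall_eq]; norm_num) (by decide +kernel) p hp hodd h3
    · rw [h.2] at h3 ⊢
      exact spor_core 51765179004000000 8 [(3, 7), (5, 6), (7, 1), (11, 1), (31, 1), (37, 1), (67, 1)] (by norm_num) (by simp only [List.mem_cons, List.not_mem_nil, or_false, forall_eq_or_imp, forall_eq]; norm_num) (by decide +kernel) p hp hodd h3
    · rw [h.2] at h3 ⊢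
      exact spor_core 90745943887872000 15 [(3, 10), (5, 3), (7, 2), (13, 1), (19, 1), (31, 1)] (by norm_num) (by simp only [List.mem_cons, List.not_mem_nil, or_false, forall_eq_or_imp, forall_eq]; norm_num) (by decide +kernel) p hp hodd h3
    · rw [h.2] at h3 ⊢
      exact spor_core 4154781481226426191177580544000000 41 [(3, 13), (5, 6), (7, 2), (11, 1), (13, 1), (17, 1), (19, 1), (23, 1), (31, 1), (47, 1)] (by norm_num) (by simp only [List.mem_cons, List.not_mem_nil, or_false, forall_eq_or_imp, forall_eq]; norm_num) (by decide +kernel) p hp hodd h3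
    · rw [h.2] at h3 ⊢
      exact spor_core 808017424794512875886459904961710757005754368000000000 46 [(3, 20), (5, 9), (7, 6), (11, 2), (13, 3), (17, 1), (19, 1), (23, 1), (29, 1), (31, 1), (41, 1), (47, 1), (59, 1), (71, 1)] (by norm_num) (by simp only [List.mem_cons, List.not_mem_nil, or_false, forall_eq_or_imp, forall_eq]; norm_num) (by decide +kernel) p hp hodd h3
end Cfsg.Agent.S2367
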