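import Cfsg.Statements.S2368
import Cfsg.Agent.Lib.Helper14.Unipotent

set_option autoImplicit false
open Cfsg

namespace Cfsg.Agent.S2368

/-- The shift matrix. -/
def shiftMat (F : Type*) [Field F] (m : ℕ) : Matrix (Fin m) (Fin m) F :=
  Matrix.of fun i j => if j.val = i.val + 1 then 1 else 0

theorem shiftMat_pow (F : Type*) [Field F] (m k : ℕ) (i j : Fin m) :
    (shiftMat F m ^ k) i j = if j.val = i.val + k then 1 else 0 := by
  induction k generalizing i j with
  | zero =>
    simp only [pow_zero, add_zero, Matrix.one_apply]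
    by_cases h : i = j
    · simp [h]
    · have : ¬ j.val = i.val := fun h' => h (Fin.ext h'.symm)
      simp [h, this]
  | succ k ih =>
    rw [pow_succ, Matrix.mul_apply]
    have hs : ∀ b c : Fin m, shiftMat F m b c = if c.val = b.val + 1 then 1 else 0 :=
      fun _ _ => rfl
    simp only [ih, hs]
    by_cases h : j.val = i.val + (k + 1)
    · rw [if_pos h]
      have hlt : i.val + k < m := by have := j.isLt; omega
      rw [Finset.sum_eq_single (⟨i.val + k, hlt⟩ : Fin m)]
      · have : i.val + (k + 1) = i.val + k + 1 := by omega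
        simp [h, this]
      · intro b _ hb
        have : ¬ b.val = i.val + k := fun h' => hb (Fin.ext h')
        simp [this]
      · simp
    · rw [if_neg h]
      apply Finset.sum_eq_zero
      intro b _
      by_cases h1 : b.val = i.val + k
      · have : ¬ j.val = b.val + 1 := by omega
        simp [this]
      · simp [h1]

/-- Let F be a finite field of characteristic p and m ≥ 1. Every element of GL(m, F) of p-power order has order less than p·m, and GL(m, F) has an element of p-power order at least m; so the largest order of a p-element of GL(m, F) is the least power of p that is at least m. -/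
theorem result {F : Type*} [Field F] [Fintype F] (p : ℕ) [Fact p.Prime] [CharP F p] (m : ℕ) (hm : 1 ≤ m) :
    (∀ g : Matrix.GeneralLinearGroup (Fin m) F, (∃ j : ℕ, orderOf g = p ^ j) → orderOf g < p * m) ∧
      ∃ g : Matrix.GeneralLinearGroup (Fin m) F, (∃ j : ℕ, orderOf g = p ^ j) ∧ m ≤ orderOf g := by
  have hp : p.Prime := Fact.out
  constructor
  · rintro g ⟨j, hj⟩
    have h1 : g ^ (p ^ j) = 1 := by rw [← hj]; exact pow_orderOf_eq_one g
    rw [Cfsg.Agent.Lib.Helper14.gl_pow_char_pow_eq_one_iff] at h1
    have hnil : IsNilpotent ((g : Matrix (Fin m) (Fin m) F) - 1) := ⟨_, h1⟩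
    have h2 := (Cfsg.Agent.Lib.Helper14.gl_unipotent_order p m g hnil).1
    have h3 : orderOf g ≤ p ^ Nat.clog p m := Nat.le_of_dvd (pow_pos hp.pos _) h2
    refine lt_of_le_of_lt h3 ?_
    rcases Nat.lt_or_ge 1 m with hm1 | hm1
    · have h4 := Nat.pow_pred_clog_lt_self hp.one_lt hm1
      have h5 : 0 < Nat.clog p m := Nat.clog_pos hp.one_lt hm1
      have h6 : p ^ Nat.clog p m = p * p ^ (Nat.clog p m).pred := by
        rw [← pow_succ']
        congr 1
        exact (Nat.succ_pred_eq_of_pos h5).symm
      rw [h6]
      exact Nat.mul_lt_mul_of_pos_left h4 hp.pos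
    · have : m = 1 := le_antisymm hm1 hm
      subst this
      simp [hp.one_lt]
  · have hNm : shiftMat F m ^ m = 0 := by
      ext i j
      rw [shiftMat_pow]
      have := j.isLt
      have : ¬ j.val = i.val + m := by omega
      simp [this]
    have hnil : IsNilpotent (shiftMat F m) := ⟨m, hNm⟩
    have hunit : IsUnit (1 + shiftMat F m) := hnil.isUnit_one_add
    obtain ⟨g, hg⟩ := hunit
    have hg1 : (g : Matrix (Fin m) (Fin m) F) - 1 = shiftMat F m := by rw [hg]; simp
    have hnil' : IsNilpotent ((g : Matrix (Fin m) (Fin m) F) - 1) := by rw [hg1]; exact hnil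
    have hne : ((g : Matrix (Fin m) (Fin m) F) - 1) ^ (m - 1) ≠ 0 := by
      rw [hg1]
      intro h0
      have := congrFun (congrFun h0 ⟨0, by omega⟩) ⟨m - 1, by omega⟩
      rw [shiftMat_pow] at this
      simp at this
    have hord := (Cfsg.Agent.Lib.Helper14.gl_unipotent_order p m g hnil').2 hne
    exact ⟨g, ⟨_, hord⟩, by rw [hord]; exact Nat.le_pow_clog hp.one_lt m⟩

end Cfsg.Agent.S2368
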