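import Cfsg.Statements.S2370
import Cfsg.Agent.Lib.Helper8.HtF4

set_option autoImplicit false
open Cfsg

namespace Cfsg.Agent.S2370

/-- Let q = 2^(2m+1) with m ≥ 1. Every element of 2-power order of the large Ree group ²F₄(q) has order at most 32. -/
theorem result {K : Type*} [Field K] [Fintype K] (m : ℕ) (hm : 1 ≤ m) (hK : Fintype.card K = 2 ^ (2 * m + 1))
    (x : ↥(Cfsg.Lie.twistedF4 K (2 ^ m))) (hx : ∃ j : ℕ, orderOf x = 2 ^ j) : orderOf x ≤ 32 := by
  classical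
  have hc : CharP K 2 := by
    obtain ⟨p, hp⟩ := CharP.exists K
    have hpp : Fact p.Prime := ⟨CharP.char_is_prime K p⟩
    obtain ⟨n, -, hn⟩ := FiniteField.card K p
    rw [hK] at hn
    have h1 : p ∣ 2 ^ (2 * m + 1) := by rw [hn]; exact dvd_pow_self p n.ne_zero
    have h2 := (Nat.prime_dvd_prime_iff_eq hpp.out Nat.prime_two).mp (hpp.out.dvd_of_dvd_pow h1)
    rw [← h2]; exact hp
  have hle := Cfsg.Agent.Lib.Helper8.genSubgroup_le_group Cfsg.Agent.Lib.Helper8.F4_mem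
    (Cfsg.Lie.f4Words K (2 ^ m))
  let g : ↥(Cfsg.Lie.chevF4.group K) := ⟨(x : GL Cfsg.Lie.chevF4.Idx K), hle x.2⟩
  have ho : orderOf g = orderOf x := by
    rw [← Subgroup.orderOf_coe g, ← Subgroup.orderOf_coe x]
  have h32 := Cfsg.Agent.Lib.Helper8.F4_two_elt g (by rw [ho]; exact hx)
  have h1 : orderOf g ∣ 32 := orderOf_dvd_of_pow_eq_one h32
  rw [← ho]
  exact Nat.le_of_dvd (by norm_num) h1

end Cfsg.Agent.S2370
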