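import Cfsg.Statements.S2379
import Cfsg.Agent.Lib.Helper6.SylLarge
import Cfsg.Agent.Lib.Helper14.ClassCard

set_option autoImplicit false
open Cfsg

namespace Cfsg.Agent.S2379

open Cfsg.Agent.Lib.Helper6.SylLarge Cfsg.Agent.Lib.Helper14

theorem finish {G X : Type*} [Group G] [Finite G] [Group X] (r : ℕ) [Fact r.Prime] (P : Sylow r G)
    (Θ : X →* G) (hΘ : Function.Injective Θ)
    (hcard : Nat.card X = r ^ (Nat.card G).factorization r) :
    Nonempty (↥(P : Subgroup G) ≃* X) := by
  have h : Nat.card Θ.range = r ^ (Nat.card G).factorization r := by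
    rw [← Nat.card_congr (MonoidHom.ofInjective hΘ).toEquiv, hcard]
  exact ⟨(Sylow.equiv P (Sylow.ofCard Θ.range h)).trans (MonoidHom.ofInjective hΘ).symm⟩

theorem card_X (m a : ℕ) (hm0 : m ≠ 0) : Nat.card (Fin a → Multiplicative (ZMod m)) = m ^ a := by
  have : NeZero m := ⟨hm0⟩
  rw [Nat.card_fun, Nat.card_eq_fintype_card (α := Fin _), Fintype.card_fin]
  congr 1
  exact Nat.card_zmod _

/-- Sylow subgroups of `SL_n(q)` for large primes. Let `F` be a field with `q` elements and `r` a prime with `r > n` and `r ∤ q` (so `r` does not divide the order `n!` of the Weyl group). Let `d` be the multiplicative order of `q` modulo `r`, `a` the number of integers `i` with `2 ≤ i ≤ n` divisible by `d` (the degrees of the Weyl group are `2, …, n`), and `m` the `r`-part of the value at `q` of the `d`-th cyclotomic polynomial. Then every Sylow `r`-subgroup of `SL_n(q)` is a direct product of `a` cyclic groups of order `m`. -/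
theorem result {F : Type*} [Field F] [Fintype F] {q : ℕ} (hq : Fintype.card F = q) (n : ℕ)
    (r : ℕ) [Fact r.Prime] (hrn : n < r) (hrq : ¬ r ∣ q) (P : Sylow r (Matrix.SpecialLinearGroup (Fin n) F)) :
    Nonempty (↥(P : Subgroup (Matrix.SpecialLinearGroup (Fin n) F)) ≃*
      (Fin ((Finset.Icc 2 n).filter (fun i => orderOf (q : ZMod r) ∣ i)).card →
        Multiplicative (ZMod (r ^ padicValNat r ((Polynomial.cyclotomic (orderOf (q : ZMod r)) ℤ).eval (q : ℤ)).natAbs)))) := by
  classical
  have hr : r.Prime := Fact.out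
  have hq2 : 2 ≤ q := by rw [← hq]; exact Fintype.one_lt_card
  rw [← E_eq hrq hq2]
  set d := orderOf (q : ZMod r) with hd
  set E := (q ^ d - 1).factorization r with hE
  have hm0 : r ^ E ≠ 0 := pow_ne_zero _ hr.ne_zero
  have hmd : r ^ E ∣ Fintype.card F ^ d - 1 := by rw [hq]; exact Nat.ordProj_dvd _ _
  rcases Nat.eq_zero_or_pos n with rfl | hn
  · -- trivial group
    have hc : ((Finset.Icc 2 0).filter (fun i => d ∣ i)).card = 0 := by simp
    rw [hc]
    have : Subsingleton (Matrix.SpecialLinearGroup (Fin 0) F) :=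
      ⟨fun a b => Subtype.ext (Subsingleton.elim _ _)⟩
    have : Unique ↥(P : Subgroup (Matrix.SpecialLinearGroup (Fin 0) F)) :=
      ⟨⟨1⟩, fun a => Subsingleton.elim _ _⟩
    exact ⟨MulEquiv.ofUnique⟩
  have hSL := card_SL_mul (F := F) n hn
  rw [hq] at hSL
  have hSL0 : Nat.card (Matrix.SpecialLinearGroup (Fin n) F) ≠ 0 := Nat.card_pos.ne'
  have hq10 : q - 1 ≠ 0 := by omega
  have hfac : (Nat.card (Matrix.SpecialLinearGroup (Fin n) F)).factorization r
      + (q - 1).factorization r = E * (n / d) := by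
    rw [← fac_GL hrq hq2 n hrn, ← hq, ← Matrix.card_GL_field, hq, ← hSL,
      Nat.factorization_mul hSL0 hq10, Finsupp.add_apply]
  by_cases hd1 : d = 1
  · have hc : ((Finset.Icc 2 n).filter (fun i => d ∣ i)).card = n - 1 := by
      rw [hd1]; simp
    rw [hc]
    obtain ⟨k, rfl⟩ : ∃ k, n = k + 1 := ⟨n - 1, by omega⟩
    have hE1 : (q - 1).factorization r = E := by rw [hE, hd1, pow_one]
    obtain ⟨Θ, hΘ⟩ := exists_embed_SL_one (F := F) k (r ^ E) (by
      rw [hd1, pow_one] at hmd; exact hmd)
    refine finish r P Θ hΘ ?_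
    rw [card_X _ _ hm0, ← pow_mul]
    congr 1
    rw [hE1, hd1, Nat.div_one] at hfac
    have : E * (k + 1) = E * k + E := by ring
    simp only [Nat.add_sub_cancel]
    omega
  · have hd0 : 0 < d := d_pos hrq
    have hc : ((Finset.Icc 2 n).filter (fun i => d ∣ i)).card = n / d := by
      rw [← Nat.Ioc_filter_dvd_card_eq_div]
      congr 1
      ext x
      simp only [Finset.mem_filter, Finset.mem_Icc, Finset.mem_Ioc]
      constructor
      · rintro ⟨⟨h1, h2⟩, h3⟩
        exact ⟨⟨by omega, h2⟩, h3⟩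
      · rintro ⟨⟨h1, h2⟩, h3⟩
        refine ⟨⟨?_, h2⟩, h3⟩
        by_contra hx
        have : x = 1 := by omega
        rw [this, Nat.dvd_one] at h3
        exact hd1 h3
    rw [hc]
    have hnd : ¬ r ∣ q - 1 := by
      have := (dvd_iff hrq 1).not.mpr (by rw [Nat.dvd_one]; exact hd1)
      rwa [pow_one] at this
    obtain ⟨Θ, hΘ⟩ := exists_embed_SL (F := F) n d (n / d) (r ^ E) hd0 (Nat.div_mul_le_self n d)
      hmd hm0 (by
        rw [hq]
        exact Nat.Coprime.pow_left _ ((Nat.Prime.coprime_iff_not_dvd hr).mpr hnd))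
    refine finish r P Θ hΘ ?_
    rw [card_X _ _ hm0, ← pow_mul]
    congr 1
    rw [Nat.factorization_eq_zero_of_not_dvd hnd] at hfac
    omega

end Cfsg.Agent.S2379
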