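import Cfsg.Statements.S2380
import Cfsg.Agent.Lib.Helper6.SylLarge

set_option autoImplicit false
open scoped MatrixGroups
open Cfsg

namespace Cfsg.Agent.S2380

open Cfsg.Agent.Lib.Helper6.SylLarge

/-- Sylow subgroups of `GL_n(q)` for large primes. Let `F` be a field with `q` elements and `r` a prime with `r > n` and `r ∤ q`. Let `d` be the multiplicative order of `q` modulo `r` and `m` the `r`-part of the value at `q` of the `d`-th cyclotomic polynomial. Then every Sylow `r`-subgroup of `GL_n(q)` is a direct product of `⌊n/d⌋` cyclic groups of order `m` (the degrees of the Weyl group being `1, …, n`). -/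
theorem result {F : Type*} [Field F] [Fintype F] {q : ℕ} (hq : Fintype.card F = q) (n : ℕ)
    (r : ℕ) [Fact r.Prime] (hrn : n < r) (hrq : ¬ r ∣ q) (P : Sylow r (GL (Fin n) F)) :
    Nonempty (↥(P : Subgroup (GL (Fin n) F)) ≃*
      (Fin (n / orderOf (q : ZMod r)) →
        Multiplicative (ZMod (r ^ padicValNat r ((Polynomial.cyclotomic (orderOf (q : ZMod r)) ℤ).eval (q : ℤ)).natAbs)))) := by
  classical
  have hq2 : 2 ≤ q := by rw [← hq]; exact Fintype.one_lt_card
  rw [← E_eq hrq hq2]
  set d := orderOf (q : ZMod r) with hd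
  set E := (q ^ d - 1).factorization r with hE
  obtain ⟨Θ, hΘ⟩ := exists_embed (F := F) n d (n / d) (r ^ E) (d_pos hrq) (Nat.div_mul_le_self n d)
    (by rw [hq]; exact Nat.ordProj_dvd _ _)
  have hcard : Nat.card Θ.range = r ^ (Nat.card (GL (Fin n) F)).factorization r := by
    rw [← Nat.card_congr (MonoidHom.ofInjective hΘ).toEquiv, Matrix.card_GL_field, hq,
      fac_GL hrq hq2 n hrn, Nat.card_fun, Nat.card_eq_fintype_card (α := Fin _), Fintype.card_fin]
    have : NeZero (r ^ E) := ⟨pow_ne_zero _ (Fact.out : r.Prime).ne_zero⟩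
    have h1 : Nat.card (Multiplicative (ZMod (r ^ E))) = r ^ E := Nat.card_zmod _
    rw [h1, ← pow_mul]
  exact ⟨(Sylow.equiv P (Sylow.ofCard Θ.range hcard)).trans (MonoidHom.ofInjective hΘ).symm⟩

end Cfsg.Agent.S2380
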