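import Cfsg.Statements.S2381
import Cfsg.Agent.Lib.Helper6.SylLargeSp

set_option autoImplicit false
open Cfsg

namespace Cfsg.Agent.S2381

open Cfsg.Agent.Lib.Helper6.SylLarge Cfsg.Agent.Lib.Helper6.SylLargeSp Cfsg.Agent.Lib.Helper12

theorem finish {G X : Type*} [Group G] [Finite G] [Group X] (r : ℕ) [Fact r.Prime] (P : Sylow r G)
    (Θ : X →* G) (hΘ : Function.Injective Θ)
    (hcard : Nat.card X = r ^ (Nat.card G).factorization r) :
    Nonempty (↥(P : Subgroup G) ≃* X) := by
  have h : Nat.card Θ.range = r ^ (Nat.card G).factorization r := by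
    rw [← Nat.card_congr (MonoidHom.ofInjective hΘ).toEquiv, hcard]
  exact ⟨(Sylow.equiv P (Sylow.ofCard Θ.range h)).trans (MonoidHom.ofInjective hΘ).symm⟩

theorem card_X (m a : ℕ) (hm0 : m ≠ 0) : Nat.card (Fin a → Multiplicative (ZMod m)) = m ^ a := by
  have : NeZero m := ⟨hm0⟩
  rw [Nat.card_fun, Nat.card_eq_fintype_card (α := Fin _), Fintype.card_fin]
  congr 1
  exact Nat.card_zmod _

/-- Sylow subgroups of `Sp_{2n}(q)` for large primes. Let `F` be a field with `q` elements and `r` an odd prime with `r > n` and `r ∤ q` (so `r` does not divide the order `2^n n!` of the Weyl group). Let `d` be the multiplicative order of `q` modulo `r`, `a` the number of `i` with `1 ≤ i ≤ n` and `d ∣ 2i` (the degrees being `2, 4, …, 2n`), and `m` the `r`-part of the value at `q` of the `d`-th cyclotomic polynomial. Then every Sylow `r`-subgroup of the symplectic group `Sp_{2n}(q)` is a direct product of `a` cyclic groups of order `m`. -/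
theorem result {F : Type*} [Field F] [Fintype F] {q : ℕ} (hq : Fintype.card F = q) (n : ℕ)
    (r : ℕ) [Fact r.Prime] (hr2 : r ≠ 2) (hrn : n < r) (hrq : ¬ r ∣ q) (P : Sylow r ↥(Matrix.symplecticGroup (Fin n) F)) :
    Nonempty (↥(P : Subgroup ↥(Matrix.symplecticGroup (Fin n) F)) ≃*
      (Fin ((Finset.Icc 1 n).filter (fun i => orderOf (q : ZMod r) ∣ 2 * i)).card →
        Multiplicative (ZMod (r ^ padicValNat r ((Polynomial.cyclotomic (orderOf (q : ZMod r)) ℤ).eval (q : ℤ)).natAbs)))) := by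
  classical
  have hr : r.Prime := Fact.out
  have hq2 : 2 ≤ q := by rw [← hq]; exact Fintype.one_lt_card
  rw [← E_eq hrq hq2]
  set d := orderOf (q : ZMod r) with hd
  set E := (q ^ d - 1).factorization r with hE
  have hd0 : 0 < d := d_pos hrq
  have hm0 : r ^ E ≠ 0 := pow_ne_zero _ hr.ne_zero
  have hmd : r ^ E ∣ q ^ d - 1 := Nat.ordProj_dvd _ _
  have hfac : (Nat.card (Matrix.symplecticGroup (Fin n) F)).factorization r
      = E * ((Finset.Icc 1 n).filter (fun i => d ∣ 2 * i)).card := by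
    rw [card_Sp hq n, fac_Sp hrq hq2 hr2 n hrn]
  have hIcc : ∀ e : ℕ, ((Finset.Icc 1 n).filter (fun i => e ∣ i)).card = n / e := by
    intro e
    rw [← Nat.Ioc_filter_dvd_card_eq_div]
    rfl
  rcases Nat.even_or_odd' d with ⟨d', hd' | hd'⟩
  · -- `d = 2 d'`
    have hd'0 : 0 < d' := by omega
    have hc : ((Finset.Icc 1 n).filter (fun i => d ∣ 2 * i)).card = n / d' := by
      rw [← hIcc]
      congr 1
      ext x
      simp only [Finset.mem_filter]
      rw [hd', Nat.mul_dvd_mul_iff_left (by norm_num)]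
    rw [hc] at hfac ⊢
    have hne : q ^ d - 1 ≠ 0 := by
      have := Nat.one_lt_pow hd0.ne' (show 1 < q by omega)
      omega
    have hE1 : 1 ≤ E := hr.factorization_pos_of_dvd hne ((dvd_iff hrq d).mpr dvd_rfl)
    have hm3 : 3 ≤ r ^ E := by
      have h1 : r ^ 1 ≤ r ^ E := Nat.pow_le_pow_right hr.pos hE1
      have h2 := hr.two_le
      rw [pow_one] at h1
      omega
    have hmq : r ^ E ∣ Fintype.card F ^ d' + 1 := by
      rw [hq]
      obtain ⟨y, hy⟩ : ∃ y, q ^ d' = y + 1 :=
        ⟨q ^ d' - 1, by have := Nat.one_le_pow d' q (by omega); omega⟩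
      have h1 : q ^ d - 1 = y * (q ^ d' + 1) := by
        rw [hd', two_mul, pow_add, hy]
        have : (y + 1) * (y + 1) = y * (y + 1 + 1) + 1 := by ring
        omega
      rw [h1] at hmd
      refine Nat.Coprime.dvd_of_dvd_mul_left ?_ hmd
      apply Nat.Coprime.pow_left
      rw [Nat.Prime.coprime_iff_not_dvd hr]
      intro hry
      have h2 : r ∣ q ^ d' - 1 := by rw [hy, Nat.add_sub_cancel]; exact hry
      rw [dvd_iff hrq] at h2
      have := Nat.le_of_dvd hd'0 h2
      omega
    obtain ⟨Θ, hΘ⟩ := exists_embed_Sp_even (F := F) n d' (n / d') (r ^ E) hd'0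
      (Nat.div_mul_le_self n d') hmq hm3
    refine finish r P Θ hΘ ?_
    rw [card_X _ _ hm0, ← pow_mul, hfac]
  · -- `d` odd
    have hc : ((Finset.Icc 1 n).filter (fun i => d ∣ 2 * i)).card = n / d := by
      rw [← hIcc]
      congr 1
      ext x
      simp only [Finset.mem_filter]
      have hcop : Nat.Coprime d 2 := by
        rw [Nat.coprime_two_right]; exact ⟨d', hd'⟩
      rw [hcop.dvd_mul_left]
    rw [hc] at hfac ⊢
    obtain ⟨Θ, hΘ⟩ := exists_embed (F := F) n d (n / d) (r ^ E) hd0 (Nat.div_mul_le_self n d)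
      (by rw [hq]; exact hmd)
    obtain ⟨φ, hφ⟩ := exists_GL_Sp (F := F) n
    refine finish r P (φ.comp Θ) (hφ.comp hΘ) ?_
    rw [card_X _ _ hm0, ← pow_mul, hfac]

end Cfsg.Agent.S2381
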