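import Cfsg.Statements.S2569

set_option autoImplicit false
open Cfsg

namespace Cfsg.Agent.S2569

open Polynomial

theorem exists_comm_det {F : Type*} [Field F] [Finite F] {V : Type*} [AddCommGroup V] [Module F V]
    [Finite V] [Nontrivial V] (f : Module.End F V) (hf : f.IsSemisimple) (δ : F) :
    ∃ c : Module.End F V, c ∘ₗ f = f ∘ₗ c ∧ LinearMap.det c = δ := by
  classical
  haveI : IsSemisimpleModule F[X] (Module.AEval' f) := hf
  haveI : Nontrivial (Module.AEval' f) := (Module.AEval'.of f).toEquiv.symm.nontrivial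
  haveI : Finite (Module.AEval' f) := Finite.of_equiv _ (Module.AEval'.of f).toEquiv
  obtain ⟨W, hW⟩ := IsSemisimpleModule.exists_simple_submodule F[X] (Module.AEval' f)
  obtain ⟨W', hc⟩ := exists_isCompl W
  obtain ⟨I, hI, ⟨φ⟩⟩ := isSimpleModule_iff_quot_maximal.mp hW
  letI : Field (F[X] ⧸ I) := Ideal.Quotient.field I
  haveI : Finite (F[X] ⧸ I) := Finite.of_equiv _ φ.toEquiv
  obtain ⟨l, hl⟩ := FiniteField.norm_surjective F (F[X] ⧸ I) δ
  let a : W →ₗ[F[X]] W := φ.symm.toLinearMap ∘ₗ (LinearMap.mulLeft F[X] l) ∘ₗ φ.toLinearMap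
  let e := Submodule.prodEquivOfIsCompl W W' hc
  let c : Module.AEval' f →ₗ[F[X]] Module.AEval' f :=
    e.toLinearMap ∘ₗ (a.prodMap LinearMap.id) ∘ₗ e.symm.toLinearMap
  let o := Module.AEval'.of f
  refine ⟨o.symm.toLinearMap ∘ₗ (c.restrictScalars F) ∘ₗ o.toLinearMap, ?_, ?_⟩
  · ext v
    simp only [LinearMap.comp_apply, LinearEquiv.coe_coe, LinearMap.restrictScalars_apply]
    have h1 : o (f v) = (X : F[X]) • o v := (Module.AEval'.X_smul_of f v).symm
    rw [h1, map_smul]
    apply o.injective
    rw [LinearEquiv.apply_symm_apply]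
    have h2 := Module.AEval'.X_smul_of f (o.symm (c (o v)))
    rw [← h2]
    congr 1
  · have hC : c.restrictScalars F = (e.restrictScalars F).toLinearMap ∘ₗ
        ((a.restrictScalars F).prodMap LinearMap.id) ∘ₗ
          (e.restrictScalars F).symm.toLinearMap := rfl
    have ha : a.restrictScalars F = (φ.restrictScalars F).symm.toLinearMap ∘ₗ
        (LinearMap.mulLeft F l) ∘ₗ (φ.restrictScalars F).toLinearMap := rfl
    have h1 := LinearMap.det_conj (c.restrictScalars F) o.symm
    rw [LinearEquiv.symm_symm] at h1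
    rw [h1, hC, LinearMap.det_conj, LinearMap.det_prodMap, LinearMap.det_id, mul_one, ha]
    have h2 := LinearMap.det_conj (LinearMap.mulLeft F l) (φ.restrictScalars F).symm
    rw [LinearEquiv.symm_symm] at h2
    rw [h2, ← hl, Algebra.norm_apply]
    rfl

/-- In GL_n over a finite field of characteristic p, the conjugacy class of a semisimple element (an element of order prime to p) under the special linear group is its whole GL-conjugacy class: for every such x and every invertible g there is h of determinant one with h x h⁻¹ = g x g⁻¹. -/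
theorem result {F : Type*} [Field F] [Fintype F] {p : ℕ} [Fact p.Prime] [CharP F p] {n : ℕ} (x g : GL (Fin n) F) (hx : (orderOf x).Coprime p) : ∃ h : GL (Fin n) F, (h : Matrix (Fin n) (Fin n) F).det = 1 ∧ h * x * h⁻¹ = g * x * g⁻¹ := by
  classical
  rcases Nat.eq_zero_or_pos n with hn | hn
  · subst hn
    exact ⟨g, Matrix.det_isEmpty, rfl⟩
  haveI : Nonempty (Fin n) := ⟨⟨0, hn⟩⟩
  set f : Module.End F (Fin n → F) := Matrix.toLin' (x : Matrix (Fin n) (Fin n) F) with hf
  have hm : ((orderOf x : ℕ) : F) ≠ 0 := by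
    intro h
    rw [CharP.cast_eq_zero_iff F p] at h
    have := Nat.Coprime.eq_one_of_dvd hx.symm h
    exact (Fact.out : p.Prime).one_lt.ne' this
  have hsq : Squarefree (X ^ orderOf x - 1 : F[X]) :=
    ((Polynomial.X_pow_sub_one_separable_iff).mpr hm).squarefree
  have hae : Polynomial.aeval f (X ^ orderOf x - 1 : F[X]) = 0 := by
    simp only [map_sub, map_pow, aeval_X, map_one]
    rw [hf, ← Matrix.toLin'_pow, ← Units.val_pow_eq_pow_val, pow_orderOf_eq_one, Units.val_one,
      Matrix.toLin'_one]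
    exact sub_self _
  have hss := Module.End.isSemisimple_of_squarefree_aeval_eq_zero hsq hae
  obtain ⟨c, hcf, hcd⟩ := exists_comm_det f hss (g : Matrix (Fin n) (Fin n) F).det
  set C := LinearMap.toMatrix' c with hC
  have hCd : C.det = (g : Matrix (Fin n) (Fin n) F).det := by
    rw [hC, LinearMap.det_toMatrix', hcd]
  have hCx : C * (x : Matrix (Fin n) (Fin n) F) = (x : Matrix (Fin n) (Fin n) F) * C := by
    have := congrArg LinearMap.toMatrix' hcf
    rw [LinearMap.toMatrix'_comp, LinearMap.toMatrix'_comp, hf, LinearMap.toMatrix'_toLin'] at this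
    exact this
  have hgne : (g : Matrix (Fin n) (Fin n) F).det ≠ 0 := Matrix.GeneralLinearGroup.det_ne_zero g
  have hne : C.det ≠ 0 := by rw [hCd]; exact hgne
  let c' : GL (Fin n) F := Matrix.GeneralLinearGroup.mkOfDetNeZero C hne
  have hc' : c' * x = x * c' := Units.ext hCx
  refine ⟨g * c'⁻¹, ?_, ?_⟩
  · have h1 : ((g * c'⁻¹ : GL (Fin n) F) : Matrix (Fin n) (Fin n) F) * C
        = (g : Matrix (Fin n) (Fin n) F) := by
      have : (g * c'⁻¹) * c' = g := by group
      exact congrArg Units.val this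
    have h2 := congrArg Matrix.det h1
    rw [Matrix.det_mul, hCd] at h2
    exact mul_right_cancel₀ hgne (h2.trans (one_mul _).symm)
  · have h3 : c'⁻¹ * x * c' = x := by rw [mul_assoc, ← hc', inv_mul_cancel_left]
    calc g * c'⁻¹ * x * (g * c'⁻¹)⁻¹ = g * (c'⁻¹ * x * c') * g⁻¹ := by group
      _ = g * x * g⁻¹ := by rw [h3]


end Cfsg.Agent.S2569
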