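import Cfsg.Statements.S2388
import Cfsg.Agent.S2569

set_option autoImplicit false
open Cfsg

namespace Cfsg.Agent.S2388

open Polynomial

universe u v

section
variable (F : Type u) [Field F]

/-- characteristic polynomial of multiplication by `X`. -/
noncomputable def chi (M : Type u) [AddCommGroup M] [Module F M] [Module F[X] M]
    [IsScalarTower F F[X] M] [Module.Finite F M] : F[X] :=
  ((LinearMap.lsmul F[X] M X).restrictScalars F).charpoly

theorem chi_congr {M N : Type u} [AddCommGroup M] [Module F M] [Module F[X] M]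
    [IsScalarTower F F[X] M] [Module.Finite F M] [AddCommGroup N] [Module F N] [Module F[X] N]
    [IsScalarTower F F[X] N] [Module.Finite F N] (φ : M ≃ₗ[F[X]] N) : chi F M = chi F N := by
  rw [chi, chi, ← LinearEquiv.charpoly_conj (φ.restrictScalars F)]
  congr 1
  ext n
  simp [LinearEquiv.conj_apply]

theorem chi_prod (M N : Type u) [AddCommGroup M] [Module F M] [Module F[X] M]
    [IsScalarTower F F[X] M] [Module.Finite F M] [AddCommGroup N] [Module F N] [Module F[X] N]
    [IsScalarTower F F[X] N] [Module.Finite F N] : chi F (M × N) = chi F M * chi F N := by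
  rw [chi, chi, chi, ← LinearMap.charpoly_prodMap]
  rfl

theorem chi_quot (Q : F[X]) (hQ : Q ≠ 0) [Module.Finite F (F[X] ⧸ Ideal.span {Q})] :
    chi F (F[X] ⧸ Ideal.span {Q}) = Q * C Q.leadingCoeff⁻¹ := by
  classical
  haveI : Module.Finite F (AdjoinRoot Q) := (AdjoinRoot.powerBasis hQ).finite
  rw [← AdjoinRoot.minpoly_root hQ]
  have h1 := charpoly_leftMulMatrix (AdjoinRoot.powerBasis hQ)
  rw [AdjoinRoot.powerBasis_gen] at h1
  rw [← h1, Algebra.leftMulMatrix_apply, LinearMap.charpoly_toMatrix]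
  rw [chi]
  congr 1

theorem exists_simple_of_dvd [Finite F] (Q : F[X]) (hQ : Irreducible Q) : ∀ (k : ℕ) (M : Type u)
    [AddCommGroup M] [Module F M] [Module F[X] M] [IsScalarTower F F[X] M] [Finite M]
    [IsSemisimpleModule F[X] M], Nat.card M ≤ k → Q ∣ chi F M →
    ∃ S : Submodule F[X] M, Nonempty (S ≃ₗ[F[X]] (F[X] ⧸ Ideal.span {Q})) := by
  intro k
  induction k with
  | zero =>
    intro M _ _ _ _ _ _ hk _
    have := Nat.card_pos (α := M)
    omega
  | succ k ih =>
    intro M _ _ _ _ _ _ hk hdvd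
    by_cases hnt : Nontrivial M
    swap
    · exfalso
      rw [not_nontrivial_iff_subsingleton] at hnt
      have h1 : chi F M = 1 := by
        rw [chi]
        apply (Polynomial.Monic.natDegree_eq_zero (LinearMap.charpoly_monic _)).mp
        rw [LinearMap.charpoly_natDegree]
        exact Module.finrank_zero_of_subsingleton
      rw [h1] at hdvd
      exact hQ.not_isUnit (isUnit_of_dvd_one hdvd)
    obtain ⟨W, hW⟩ := IsSemisimpleModule.exists_simple_submodule F[X] M
    obtain ⟨U, hc⟩ := exists_isCompl W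
    obtain ⟨I, hI, ⟨φ⟩⟩ := isSimpleModule_iff_quot_maximal.mp hW
    obtain ⟨Q1, rfl⟩ : ∃ Q1, I = Ideal.span {Q1} := ⟨_, (Submodule.IsPrincipal.span_singleton_generator I).symm⟩
    haveI : Finite (F[X] ⧸ Ideal.span {Q1}) := Finite.of_equiv _ φ.toEquiv
    have hQ1 : Q1 ≠ 0 := by
      rintro rfl
      have hinj : Function.Injective (Ideal.Quotient.mk (Ideal.span {(0 : F[X])})) := by
        rw [injective_iff_map_eq_zero]
        intro a ha
        rw [Ideal.Quotient.eq_zero_iff_mem, Ideal.mem_span_singleton, zero_dvd_iff] at ha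
        exact ha
      haveI := Finite.of_injective _ hinj
      exact not_finite F[X]
    have e := Submodule.prodEquivOfIsCompl W U hc
    have h2 : chi F M = (Q1 * C Q1.leadingCoeff⁻¹) * chi F U := by
      rw [← chi_congr F e, chi_prod, chi_congr F φ, chi_quot F Q1 hQ1]
    rw [h2] at hdvd
    have hQ1irr : Irreducible Q1 := by
      have hp : (Ideal.span {Q1}).IsPrime := hI.isPrime
      rw [Ideal.span_singleton_prime hQ1] at hp
      exact hp.irreducible
    rcases hQ.prime.dvd_or_dvd hdvd with h3 | h3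
    · have h4 : Q ∣ Q1 := by
        rcases hQ.prime.dvd_or_dvd h3 with h5 | h5
        · exact h5
        · exfalso
          have : IsUnit (C Q1.leadingCoeff⁻¹) := by
            rw [Polynomial.isUnit_C]
            exact (inv_ne_zero (leadingCoeff_ne_zero.mpr hQ1)).isUnit
          exact hQ.not_isUnit (isUnit_of_dvd_unit h5 this)
      have h5 : Associated Q Q1 := hQ.associated_of_dvd hQ1irr h4
      have h6 : Ideal.span {Q} = Ideal.span {Q1} := Ideal.span_singleton_eq_span_singleton.mpr h5
      rw [h6]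
      exact ⟨W, ⟨φ⟩⟩
    · have hlt : Nat.card U ≤ k := by
        have h7 : Nat.card M = Nat.card W * Nat.card U := by
          rw [← Nat.card_prod]
          exact (Nat.card_congr e.toEquiv).symm
        have h8 : 1 < Nat.card W := by
          haveI : Nontrivial W := IsSimpleModule.nontrivial F[X] W
          exact Finite.one_lt_card
        have h9 := Nat.card_pos (α := U)
        nlinarith
      obtain ⟨S, ⟨ψ⟩⟩ := ih U hlt h3
      exact ⟨S.map U.subtype,
        ⟨(Submodule.equivMapOfInjective U.subtype U.injective_subtype S).symm.trans ψ⟩⟩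

theorem exists_decomp [Finite F] (M : Type u)
    [AddCommGroup M] [Module F M] [Module F[X] M] [IsScalarTower F F[X] M] [Finite M]
    [IsSemisimpleModule F[X] M] [Nontrivial M] :
    ∃ (W U : Submodule F[X] M) (Q1 : F[X]), IsCompl W U ∧ Irreducible Q1 ∧
      Nonempty (W ≃ₗ[F[X]] (F[X] ⧸ Ideal.span {Q1})) ∧ Nat.card U < Nat.card M := by
  obtain ⟨W, hW⟩ := IsSemisimpleModule.exists_simple_submodule F[X] M
  obtain ⟨U, hc⟩ := exists_isCompl W
  obtain ⟨I, hI, ⟨φ⟩⟩ := isSimpleModule_iff_quot_maximal.mp hW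
  obtain ⟨Q1, rfl⟩ : ∃ Q1, I = Ideal.span {Q1} :=
    ⟨_, (Submodule.IsPrincipal.span_singleton_generator I).symm⟩
  haveI : Finite (F[X] ⧸ Ideal.span {Q1}) := Finite.of_equiv _ φ.toEquiv
  have hQ1 : Q1 ≠ 0 := by
    rintro rfl
    have hinj : Function.Injective (Ideal.Quotient.mk (Ideal.span {(0 : F[X])})) := by
      rw [injective_iff_map_eq_zero]
      intro a ha
      rw [Ideal.Quotient.eq_zero_iff_mem, Ideal.mem_span_singleton, zero_dvd_iff] at ha
      exact ha
    haveI := Finite.of_injective _ hinj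
    exact not_finite F[X]
  have e := Submodule.prodEquivOfIsCompl W U hc
  have hQ1irr : Irreducible Q1 := by
    have hp : (Ideal.span {Q1}).IsPrime := hI.isPrime
    rw [Ideal.span_singleton_prime hQ1] at hp
    exact hp.irreducible
  refine ⟨W, U, Q1, hc, hQ1irr, ⟨φ⟩, ?_⟩
  have h7 : Nat.card M = Nat.card W * Nat.card U := by
    rw [← Nat.card_prod]
    exact (Nat.card_congr e.toEquiv).symm
  have h8 : 1 < Nat.card W := by
    haveI : Nontrivial W := IsSimpleModule.nontrivial F[X] W
    exact Finite.one_lt_card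
  have h9 := Nat.card_pos (α := U)
  nlinarith

theorem chi_ne_zero (M : Type u) [AddCommGroup M] [Module F M] [Module F[X] M]
    [IsScalarTower F F[X] M] [Module.Finite F M] : chi F M ≠ 0 :=
  (LinearMap.charpoly_monic _).ne_zero

theorem iso_of_chi_eq [Finite F] : ∀ (k : ℕ) (M M' : Type u)
    [AddCommGroup M] [Module F M] [Module F[X] M] [IsScalarTower F F[X] M] [Finite M]
    [IsSemisimpleModule F[X] M]
    [AddCommGroup M'] [Module F M'] [Module F[X] M'] [IsScalarTower F F[X] M'] [Finite M']
    [IsSemisimpleModule F[X] M'], Nat.card M ≤ k → chi F M = chi F M' →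
    Nonempty (M ≃ₗ[F[X]] M') := by
  intro k
  induction k with
  | zero =>
    intro M M' _ _ _ _ _ _ _ _ _ _ _ _ hk _
    have := Nat.card_pos (α := M)
    omega
  | succ k ih =>
    intro M M' _ _ _ _ _ _ _ _ _ _ _ _ hk hchi
    by_cases hnt : Nontrivial M
    swap
    · rw [not_nontrivial_iff_subsingleton] at hnt
      have h1 : Module.finrank F M' = 0 := by
        have h2 : (chi F M').natDegree = Module.finrank F M' := LinearMap.charpoly_natDegree _
        have h3 : (chi F M).natDegree = Module.finrank F M := LinearMap.charpoly_natDegree _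
        rw [← h2, ← hchi, h3]
        exact Module.finrank_zero_of_subsingleton
      haveI : Subsingleton M' := Module.finrank_zero_iff.mp h1
      exact ⟨LinearEquiv.ofSubsingleton M M'⟩
    obtain ⟨W, U, Q1, hc, hirr, ⟨φ⟩, hlt⟩ := exists_decomp F M
    haveI : Finite (F[X] ⧸ Ideal.span {Q1}) := Finite.of_equiv _ φ.toEquiv
    have e := Submodule.prodEquivOfIsCompl W U hc
    have h2 : chi F M = chi F (F[X] ⧸ Ideal.span {Q1}) * chi F U := by
      rw [← chi_congr F e, chi_prod, chi_congr F φ]
    have hdvd : Q1 ∣ chi F M' := by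
      rw [← hchi, h2, chi_quot F Q1 hirr.ne_zero]
      exact Dvd.dvd.mul_right (Dvd.intro _ rfl) _
    obtain ⟨S, ⟨ψ⟩⟩ := exists_simple_of_dvd F Q1 hirr _ M' le_rfl hdvd
    obtain ⟨U', hc'⟩ := exists_isCompl S
    have e' := Submodule.prodEquivOfIsCompl S U' hc'
    have h3 : chi F M' = chi F (F[X] ⧸ Ideal.span {Q1}) * chi F U' := by
      rw [← chi_congr F e', chi_prod, chi_congr F ψ]
    have h4 : chi F U = chi F U' := by
      rw [h2, h3] at hchi
      exact mul_left_cancel₀ (chi_ne_zero F _) hchi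
    obtain ⟨θ⟩ := ih U U' (by omega) h4
    exact ⟨e.symm.trans (((φ.trans ψ.symm).prodCongr θ).trans e')⟩

theorem chi_aeval {V : Type u} [AddCommGroup V] [Module F V] [Module.Finite F V]
    (f : Module.End F V) : chi F (Module.AEval' f) = f.charpoly := by
  rw [chi, ← LinearEquiv.charpoly_conj (Module.AEval'.of f) f]
  congr 1
  apply LinearMap.ext
  intro m
  obtain ⟨v, rfl⟩ := (Module.AEval'.of f).surjective m
  rw [LinearEquiv.conj_apply_apply, LinearEquiv.symm_apply_apply]
  exact Module.AEval'.X_smul_of f v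

end

theorem semisimple_of_order {F : Type u} [Field F] [Fintype F] {p : ℕ} [Fact p.Prime] [CharP F p]
    {n : ℕ} (x : GL (Fin n) F) (hx : (orderOf x).Coprime p) :
    Module.End.IsSemisimple (Matrix.toLin' (x : Matrix (Fin n) (Fin n) F)) := by
  have hm : ((orderOf x : ℕ) : F) ≠ 0 := by
    intro h
    rw [CharP.cast_eq_zero_iff F p] at h
    have := Nat.Coprime.eq_one_of_dvd hx.symm h
    exact (Fact.out : p.Prime).one_lt.ne' this
  have hsq : Squarefree (X ^ orderOf x - 1 : F[X]) :=
    ((Polynomial.X_pow_sub_one_separable_iff).mpr hm).squarefree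
  have hae : Polynomial.aeval (Matrix.toLin' (x : Matrix (Fin n) (Fin n) F))
      (X ^ orderOf x - 1 : F[X]) = 0 := by
    simp only [map_sub, map_pow, aeval_X, map_one]
    rw [← Matrix.toLin'_pow, ← Units.val_pow_eq_pow_val, pow_orderOf_eq_one, Units.val_one,
      Matrix.toLin'_one]
    exact sub_self _
  exact Module.End.isSemisimple_of_squarefree_aeval_eq_zero hsq hae

theorem gl_conj {F : Type u} [Field F] [Fintype F] {n : ℕ} (A B : Matrix (Fin n) (Fin n) F)
    (hA : Module.End.IsSemisimple (Matrix.toLin' A)) (hB : Module.End.IsSemisimple (Matrix.toLin' B))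
    (hc : A.charpoly = B.charpoly) : ∃ γ : GL (Fin n) F,
      (γ : Matrix (Fin n) (Fin n) F) * A = B * (γ : Matrix (Fin n) (Fin n) F) := by
  classical
  haveI : IsSemisimpleModule F[X] (Module.AEval' (Matrix.toLin' A)) := hA
  haveI : IsSemisimpleModule F[X] (Module.AEval' (Matrix.toLin' B)) := hB
  haveI : Finite (Module.AEval' (Matrix.toLin' A)) :=
    Finite.of_equiv _ (Module.AEval'.of (Matrix.toLin' A)).toEquiv
  haveI : Finite (Module.AEval' (Matrix.toLin' B)) :=
    Finite.of_equiv _ (Module.AEval'.of (Matrix.toLin' B)).toEquiv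
  have hchi : chi F (Module.AEval' (Matrix.toLin' A)) = chi F (Module.AEval' (Matrix.toLin' B)) := by
    rw [chi_aeval, chi_aeval, Matrix.charpoly_toLin', Matrix.charpoly_toLin', hc]
  obtain ⟨θ⟩ := iso_of_chi_eq F _ (Module.AEval' (Matrix.toLin' A))
    (Module.AEval' (Matrix.toLin' B)) le_rfl hchi
  let oA := Module.AEval'.of (Matrix.toLin' A)
  let oB := Module.AEval'.of (Matrix.toLin' B)
  let e : (Fin n → F) ≃ₗ[F] (Fin n → F) := (oA.trans (θ.restrictScalars F)).trans oB.symm
  have he : e.toLinearMap ∘ₗ Matrix.toLin' A = Matrix.toLin' B ∘ₗ e.toLinearMap := by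
    apply LinearMap.ext
    intro v
    show oB.symm (θ (oA (Matrix.toLin' A v))) = Matrix.toLin' B (oB.symm (θ (oA v)))
    have h1 : oA (Matrix.toLin' A v) = (X : F[X]) • oA v :=
      (Module.AEval'.X_smul_of (Matrix.toLin' A) v).symm
    rw [h1, map_smul]
    apply oB.injective
    rw [LinearEquiv.apply_symm_apply]
    have h2 := Module.AEval'.X_smul_of (Matrix.toLin' B) (oB.symm (θ (oA v)))
    rw [← h2]
    congr 1
  refine ⟨⟨LinearMap.toMatrix' e.toLinearMap, LinearMap.toMatrix' e.symm.toLinearMap, ?_, ?_⟩, ?_⟩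
  · rw [← LinearMap.toMatrix'_comp, LinearEquiv.comp_symm, LinearMap.toMatrix'_id]
  · rw [← LinearMap.toMatrix'_comp, LinearEquiv.symm_comp, LinearMap.toMatrix'_id]
  · have := congrArg LinearMap.toMatrix' he
    rw [LinearMap.toMatrix'_comp, LinearMap.toMatrix'_comp, LinearMap.toMatrix'_toLin',
      LinearMap.toMatrix'_toLin'] at this
    exact this

/-- In `SL_n(q)`, `q` a power of the prime `p`, two elements of order prime to `p` with the same characteristic polynomial are conjugate in `SL_n(q)` (not merely in `GL_n`). -/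
theorem result {F : Type*} [Field F] [Fintype F] (p : ℕ) [Fact p.Prime] [CharP F p] (n : ℕ)
    (g h : Matrix.SpecialLinearGroup (Fin n) F) (hg : (orderOf g).Coprime p) (hh : (orderOf h).Coprime p)
    (hc : (g : Matrix (Fin n) (Fin n) F).charpoly = (h : Matrix (Fin n) (Fin n) F).charpoly) : IsConj g h := by
  classical
  have hgo : orderOf (Matrix.SpecialLinearGroup.toGL g) = orderOf g :=
    orderOf_injective _ Matrix.SpecialLinearGroup.toGL_injective g
  have hho : orderOf (Matrix.SpecialLinearGroup.toGL h) = orderOf h :=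
    orderOf_injective _ Matrix.SpecialLinearGroup.toGL_injective h
  have hA := semisimple_of_order (p := p) (Matrix.SpecialLinearGroup.toGL g) (by rw [hgo]; exact hg)
  have hB := semisimple_of_order (p := p) (Matrix.SpecialLinearGroup.toGL h) (by rw [hho]; exact hh)
  obtain ⟨γ, hγ⟩ := gl_conj _ _ hA hB hc
  obtain ⟨η, hη1, hη2⟩ := Cfsg.Agent.S2569.result (p := p) (Matrix.SpecialLinearGroup.toGL g) γ
    (by rw [hgo]; exact hg)
  have h1 : γ * Matrix.SpecialLinearGroup.toGL g * γ⁻¹ = Matrix.SpecialLinearGroup.toGL h := by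
    rw [mul_inv_eq_iff_eq_mul]
    exact Units.ext hγ
  rw [h1, mul_inv_eq_iff_eq_mul] at hη2
  rw [isConj_iff]
  obtain ⟨s, hs⟩ : ∃ s : Matrix.SpecialLinearGroup (Fin n) F,
      (s : Matrix (Fin n) (Fin n) F) = (η : Matrix (Fin n) (Fin n) F) := ⟨⟨η, hη1⟩, rfl⟩
  refine ⟨s, ?_⟩
  rw [mul_inv_eq_iff_eq_mul]
  apply Subtype.ext
  rw [Matrix.SpecialLinearGroup.coe_mul, Matrix.SpecialLinearGroup.coe_mul, hs]
  exact congrArg Units.val hη2


end Cfsg.Agent.S2388
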