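import Cfsg.Statements.S2387
import Cfsg.Agent.S2388

set_option autoImplicit false
open scoped MatrixGroups
open Cfsg

namespace Cfsg.Agent.S2387

open Polynomial
open Cfsg.Agent.S2388

universe u

theorem exists_module {F : Type u} [Field F] [Fintype F] (p : ℕ) [Fact p.Prime] [CharP F p] :
    ∀ (k : ℕ) (f : F[X]), f.Monic → f.natDegree ≤ k → f.coeff 0 ≠ 0 →
    ∃ (M : Type u) (_ : AddCommGroup M) (_ : Module F M) (_ : Module F[X] M)
      (_ : IsScalarTower F F[X] M) (_ : Finite M),
      chi F M = f ∧ ∃ m : ℕ, 0 < m ∧ m.Coprime p ∧ ∀ x : M, (X ^ m : F[X]) • x = x := by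
  intro k
  induction k with
  | zero =>
    intro f hf hd _
    have h1 : f = 1 := (Polynomial.Monic.natDegree_eq_zero hf).mp (by omega)
    refine ⟨PUnit, inferInstance, inferInstance, inferInstance, inferInstance, inferInstance, ?_,
      1, one_pos, Nat.coprime_one_left p, fun x => Subsingleton.elim _ _⟩
    rw [h1, chi]
    apply (Polynomial.Monic.natDegree_eq_zero (LinearMap.charpoly_monic _)).mp
    rw [LinearMap.charpoly_natDegree]
    exact Module.finrank_zero_of_subsingleton
  | succ k ih =>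
    intro f hf hd h0
    by_cases hd0 : f.natDegree = 0
    · exact ih f hf (by omega) h0
    obtain ⟨Q, hQ, r, hr⟩ := Polynomial.exists_irreducible_of_natDegree_pos (Nat.pos_of_ne_zero hd0)
    have hc : Q.leadingCoeff ≠ 0 := leadingCoeff_ne_zero.mpr hQ.ne_zero
    have hf' : f = (Q * C Q.leadingCoeff⁻¹) * (C Q.leadingCoeff * r) := by
      have : (C Q.leadingCoeff⁻¹ * C Q.leadingCoeff : F[X]) = 1 := by
        rw [← C_mul, inv_mul_cancel₀ hc, C_1]
      calc f = Q * r := hr
        _ = Q * (C Q.leadingCoeff⁻¹ * C Q.leadingCoeff) * r := by rw [this, mul_one]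
        _ = _ := by ring
    have hmon : (Q * C Q.leadingCoeff⁻¹).Monic := monic_mul_leadingCoeff_inv hQ.ne_zero
    have hf'mon : (C Q.leadingCoeff * r).Monic := hmon.of_mul_monic_left (hf' ▸ hf)
    have hdeg : f.natDegree = (Q * C Q.leadingCoeff⁻¹).natDegree
        + (C Q.leadingCoeff * r).natDegree := by
      conv_lhs => rw [hf']
      exact hmon.natDegree_mul hf'mon
    have hQdeg : 0 < (Q * C Q.leadingCoeff⁻¹).natDegree := by
      rw [natDegree_mul_leadingCoeff_inv _ hQ.ne_zero]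
      exact hQ.natDegree_pos
    have h0' : (C Q.leadingCoeff * r).coeff 0 ≠ 0 := by
      intro h; apply h0; rw [hf', mul_coeff_zero, h, mul_zero]
    have hQ0 : Q.coeff 0 ≠ 0 := by
      intro h; apply h0; rw [hr, mul_coeff_zero, h, zero_mul]
    obtain ⟨M', i1, i2, i3, i4, i5, hchi, m', hm'0, hm'p, hm'⟩ := ih _ hf'mon (by omega) h0'
    haveI : Fact (Irreducible Q) := ⟨hQ⟩
    haveI hfin : Module.Finite F (AdjoinRoot Q) := (AdjoinRoot.powerBasis hQ.ne_zero).finite
    haveI hfin2 : Finite (AdjoinRoot Q) := Module.finite_of_finite F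
    haveI hfin3 : Finite (F[X] ⧸ Ideal.span {Q}) := hfin2
    letI : Fintype (AdjoinRoot Q) := Fintype.ofFinite _
    haveI : CharP (AdjoinRoot Q) p :=
      charP_of_injective_algebraMap (algebraMap F (AdjoinRoot Q)).injective p
    have hroot : AdjoinRoot.root Q ≠ 0 := by
      intro h
      have h1 : Q ∣ X := by
        rw [← AdjoinRoot.mk_eq_zero, AdjoinRoot.mk_X]; exact h
      have h2 : X ∣ Q := (hQ.associated_of_dvd irreducible_X h1).symm.dvd
      exact hQ0 (X_dvd_iff.mp h2)
    have hpow := FiniteField.pow_card_sub_one_eq_one _ hroot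
    have hcop : (Fintype.card (AdjoinRoot Q) - 1).Coprime p := by
      obtain ⟨e, _, he⟩ := FiniteField.card (AdjoinRoot Q) p
      have hpd : p ∣ Fintype.card (AdjoinRoot Q) := by
        rw [he]; exact dvd_pow_self p e.ne_zero
      have hpos : 0 < Fintype.card (AdjoinRoot Q) := Fintype.card_pos
      apply Nat.Coprime.symm
      rw [Nat.Prime.coprime_iff_not_dvd (Fact.out : p.Prime)]
      intro h
      have : p ∣ 1 := by
        have h3 : Fintype.card (AdjoinRoot Q) = (Fintype.card (AdjoinRoot Q) - 1) + 1 := by omega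
        rw [h3] at hpd
        exact (Nat.dvd_add_right h).mp hpd
      exact (Fact.out : p.Prime).one_lt.ne' (Nat.dvd_one.mp this)
    have hcpos : 0 < Fintype.card (AdjoinRoot Q) - 1 := by
      have := Fintype.one_lt_card (α := AdjoinRoot Q)
      omega
    refine ⟨(F[X] ⧸ Ideal.span {Q}) × M', inferInstance, inferInstance, inferInstance,
      inferInstance, inferInstance, ?_, (Fintype.card (AdjoinRoot Q) - 1) * m',
      Nat.mul_pos hcpos hm'0, Nat.Coprime.mul_left hcop hm'p, ?_⟩
    · rw [chi_prod, chi_quot F Q hQ.ne_zero, hchi, ← hf']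
    · rintro ⟨y, x⟩
      have hy : (X ^ (Fintype.card (AdjoinRoot Q) - 1) : F[X]) • y = y := by
        obtain ⟨a, rfl⟩ := Ideal.Quotient.mk_surjective y
        have : (X ^ (Fintype.card (AdjoinRoot Q) - 1) : F[X]) • (Ideal.Quotient.mk (Ideal.span {Q}) a)
            = (AdjoinRoot.root Q) ^ (Fintype.card (AdjoinRoot Q) - 1) * AdjoinRoot.mk Q a := by
          rw [← AdjoinRoot.mk_X, ← map_pow, ← map_mul]
          rfl
        rw [this, hpow, one_mul]
        rfl
      have hy2 : ∀ j : ℕ, ((X ^ (Fintype.card (AdjoinRoot Q) - 1) : F[X]) ^ j) • y = y := by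
        intro j
        induction j with
        | zero => simp
        | succ j ihj => rw [pow_succ, mul_smul, hy, ihj]
      have hx2 : ∀ j : ℕ, ((X ^ m' : F[X]) ^ j) • x = x := by
        intro j
        induction j with
        | zero => simp
        | succ j ihj => rw [pow_succ, mul_smul, hm', ihj]
      ext
      · show (X ^ ((Fintype.card (AdjoinRoot Q) - 1) * m') : F[X]) • y = y
        rw [pow_mul, hy2]
      · show (X ^ ((Fintype.card (AdjoinRoot Q) - 1) * m') : F[X]) • x = x
        rw [mul_comm, pow_mul, hx2]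

theorem exists_gl {F : Type u} [Field F] [Fintype F] (p : ℕ) [Fact p.Prime] [CharP F p] (n : ℕ)
    (f : F[X]) (hf : f.Monic) (hd : f.natDegree = n) (h0 : f.coeff 0 ≠ 0) :
    ∃ g : GL (Fin n) F, (g : Matrix (Fin n) (Fin n) F).charpoly = f ∧ (orderOf g).Coprime p := by
  classical
  obtain ⟨M, i1, i2, i3, i4, i5, hchi, m, hm0, hmp, hm⟩ := exists_module p _ f hf le_rfl h0
  have hrank : Module.finrank F M = n := by
    rw [← hd, ← hchi]; exact (LinearMap.charpoly_natDegree _).symm
  let b : Module.Basis (Fin n) F M := Module.finBasisOfFinrankEq F M hrank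
  set μ : M →ₗ[F] M := (LinearMap.lsmul F[X] M X).restrictScalars F with hμ
  have hμpow : ∀ j : ℕ, ∀ x : M, (μ ^ j) x = (X ^ j : F[X]) • x := by
    intro j
    induction j with
    | zero => intro x; simp
    | succ j ih =>
      intro x
      rw [pow_succ, Module.End.mul_apply, ih, pow_succ, mul_smul]
      rfl
  set A := LinearMap.toMatrix b b μ with hA
  have hAm : A ^ m = 1 := by
    rw [hA, LinearMap.toMatrix_pow]
    have : μ ^ m = LinearMap.id := LinearMap.ext fun x => by rw [hμpow, hm]; rfl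
    rw [this, LinearMap.toMatrix_id]
  have hAc : A.charpoly = f := by rw [hA, LinearMap.charpoly_toMatrix]; exact hchi
  obtain ⟨m1, rfl⟩ : ∃ m1, m = m1 + 1 := ⟨m - 1, by omega⟩
  let g : GL (Fin n) F := ⟨A, A ^ m1, by rw [← pow_succ', hAm], by rw [← pow_succ, hAm]⟩
  refine ⟨g, hAc, ?_⟩
  have hg : g ^ (m1 + 1) = 1 := Units.ext (by rw [Units.val_pow_eq_pow_val]; exact hAm)
  exact Nat.Coprime.coprime_dvd_left (orderOf_dvd_of_pow_eq_one hg) hmp

theorem card_T {F : Type u} [Field F] [Fintype F] (n : ℕ) (hn : 1 ≤ n) :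
    Nat.card {f : F[X] // f.Monic ∧ f.natDegree = n ∧ f.coeff 0 ≠ 0}
      = (Fintype.card F - 1) * Fintype.card F ^ (n - 1) := by
  classical
  obtain ⟨k, rfl⟩ : ∃ k, n = k + 1 := ⟨n - 1, by omega⟩
  let E0 : {p : F[X] // p.Monic ∧ p.natDegree = k + 1} ≃ (Fin (k + 1) → F) :=
    (monicEquivDegreeLT (k + 1)).trans (degreeLTEquiv F (k + 1)).toEquiv
  have key : ∀ P, (E0 P) 0 = P.1.coeff 0 := by
    rintro ⟨P, hP, hPd⟩
    show (P.eraseLead).coeff 0 = P.coeff 0
    rw [eraseLead_coeff_of_ne]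
    rw [hPd]; omega
  let E1 : {f : F[X] // f.Monic ∧ f.natDegree = k + 1 ∧ f.coeff 0 ≠ 0}
      ≃ {v : Fin (k + 1) → F // v 0 ≠ 0} :=
    { toFun := fun f => ⟨E0 ⟨f.1, f.2.1, f.2.2.1⟩, by rw [key]; exact f.2.2.2⟩
      invFun := fun v => ⟨(E0.symm v.1).1, (E0.symm v.1).2.1, (E0.symm v.1).2.2, by
        rw [← key, Equiv.apply_symm_apply]; exact v.2⟩
      left_inv := fun f => by
        apply Subtype.ext
        simp
      right_inv := fun v => by
        apply Subtype.ext
        simp }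
  let E2 : {v : Fin (k + 1) → F // v 0 ≠ 0} ≃ {s : F × (Fin k → F) // s.1 ≠ 0} :=
    (Fin.consEquiv (fun _ => F)).symm.subtypeEquiv (fun v => Iff.rfl)
  let E3 : {s : F × (Fin k → F) // s.1 ≠ 0} ≃ {a : F // a ≠ 0} × (Fin k → F) :=
    Equiv.prodSubtypeFstEquivSubtypeProd (p := fun a : F => a ≠ 0)
  rw [Nat.card_congr ((E1.trans E2).trans E3), Nat.card_prod, Nat.card_congr unitsEquivNeZero.symm,
    Nat.card_eq_fintype_card, Fintype.card_units, Nat.card_eq_fintype_card, Fintype.card_fun,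
    Fintype.card_fin, Nat.add_sub_cancel]

/-- In `GL_n(q)` with `n ≥ 1`, `q` a power of the prime `p`, the number of conjugacy classes of elements of order prime to `p` (diagonalisable over the algebraic closure; determined by the characteristic polynomial) is `(q - 1) q^(n-1)`. -/
theorem result {F : Type*} [Field F] [Fintype F] {q : ℕ} (hq : Fintype.card F = q) (p : ℕ) [Fact p.Prime] [CharP F p] (n : ℕ) (hn : 1 ≤ n) :
    Nat.card {c : ConjClasses (GL (Fin n) F) // ∃ g : GL (Fin n) F, ConjClasses.mk g = c ∧ (orderOf g).Coprime p} = (q - 1) * q ^ (n - 1) := by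
  classical
  subst hq
  rw [← card_T n hn]
  have hout : ∀ c : ConjClasses (GL (Fin n) F), ConjClasses.mk (Quotient.out c) = c :=
    fun c => Quotient.out_eq c
  have hord : ∀ c : {c : ConjClasses (GL (Fin n) F) // ∃ g : GL (Fin n) F,
      ConjClasses.mk g = c ∧ (orderOf g).Coprime p}, (orderOf (Quotient.out c.1)).Coprime p := by
    rintro ⟨c, g, hg, hgp⟩
    have h1 : IsConj (Quotient.out c) g :=
      ConjClasses.mk_eq_mk_iff_isConj.mp ((hout c).trans hg.symm)
    obtain ⟨γ, hγ⟩ := isConj_iff.mp h1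
    have h2 := (MulAut.conj γ).orderOf_eq (Quotient.out c)
    rw [MulAut.conj_apply, hγ] at h2
    show (orderOf (Quotient.out c)).Coprime p
    rw [← h2]; exact hgp
  let Φ : {c : ConjClasses (GL (Fin n) F) // ∃ g : GL (Fin n) F,
      ConjClasses.mk g = c ∧ (orderOf g).Coprime p} →
      {f : F[X] // f.Monic ∧ f.natDegree = n ∧ f.coeff 0 ≠ 0} := fun c =>
    ⟨((Quotient.out c.1 : GL (Fin n) F) : Matrix (Fin n) (Fin n) F).charpoly,
      Matrix.charpoly_monic _, by rw [Matrix.charpoly_natDegree_eq_dim, Fintype.card_fin], by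
        intro h
        have h1 := Matrix.det_eq_sign_charpoly_coeff
          ((Quotient.out c.1 : GL (Fin n) F) : Matrix (Fin n) (Fin n) F)
        rw [h, mul_zero] at h1
        exact Matrix.GeneralLinearGroup.det_ne_zero _ h1⟩
  apply Nat.card_congr (Equiv.ofBijective Φ ⟨?_, ?_⟩)
  · intro c c' hcc
    have heq : ((Quotient.out c.1 : GL (Fin n) F) : Matrix (Fin n) (Fin n) F).charpoly
        = ((Quotient.out c'.1 : GL (Fin n) F) : Matrix (Fin n) (Fin n) F).charpoly :=
      congrArg Subtype.val hcc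
    obtain ⟨γ, hγ⟩ := gl_conj _ _ (semisimple_of_order (p := p) _ (hord c))
      (semisimple_of_order (p := p) _ (hord c')) heq
    have h1 : IsConj (Quotient.out c.1) (Quotient.out c'.1) :=
      isConj_iff.mpr ⟨γ, by rw [mul_inv_eq_iff_eq_mul]; exact Units.ext hγ⟩
    apply Subtype.ext
    rw [← hout c.1, ← hout c'.1]
    exact ConjClasses.mk_eq_mk_iff_isConj.mpr h1
  · rintro ⟨f, hf, hd, h0⟩
    obtain ⟨g, hgc, hgp⟩ := exists_gl p n f hf hd h0
    refine ⟨⟨ConjClasses.mk g, g, rfl, hgp⟩, Subtype.ext ?_⟩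
    show ((Quotient.out (ConjClasses.mk g) : GL (Fin n) F) : Matrix (Fin n) (Fin n) F).charpoly = f
    have h1 : IsConj (Quotient.out (ConjClasses.mk g)) g :=
      ConjClasses.mk_eq_mk_iff_isConj.mp (hout _)
    obtain ⟨o, ho⟩ : ∃ o, o = Quotient.out (ConjClasses.mk g) := ⟨_, rfl⟩
    rw [← ho] at h1 ⊢
    obtain ⟨γ, hγ⟩ := isConj_iff.mp h1
    have h2 : (g : Matrix (Fin n) (Fin n) F) = (γ : Matrix (Fin n) (Fin n) F)
        * (o : Matrix (Fin n) (Fin n) F) * ((γ⁻¹ : GL (Fin n) F) : Matrix (Fin n) (Fin n) F) := by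
      rw [← hγ]; rfl
    rw [← hgc, h2, Matrix.coe_units_inv]
    exact (Matrix.charpoly_units_conj γ _).symm


end Cfsg.Agent.S2387
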