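import Cfsg.Statements.S2384
import Cfsg.Agent.S2387

set_option autoImplicit false
open Cfsg

namespace Cfsg.Agent.S2384

open Polynomial
open Cfsg.Agent.S2388 Cfsg.Agent.S2387

universe u

theorem card_T' {F : Type u} [Field F] [Fintype F] (n : ℕ) (hn : 1 ≤ n) (a : F) :
    Nat.card {f : F[X] // f.Monic ∧ f.natDegree = n ∧ f.coeff 0 = a}
      = Fintype.card F ^ (n - 1) := by
  classical
  obtain ⟨k, rfl⟩ : ∃ k, n = k + 1 := ⟨n - 1, by omega⟩
  let E0 : {p : F[X] // p.Monic ∧ p.natDegree = k + 1} ≃ (Fin (k + 1) → F) :=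
    (monicEquivDegreeLT (k + 1)).trans (degreeLTEquiv F (k + 1)).toEquiv
  have key : ∀ P, (E0 P) 0 = P.1.coeff 0 := by
    rintro ⟨P, hP, hPd⟩
    show (P.eraseLead).coeff 0 = P.coeff 0
    rw [eraseLead_coeff_of_ne]
    rw [hPd]; omega
  let E1 : {f : F[X] // f.Monic ∧ f.natDegree = k + 1 ∧ f.coeff 0 = a}
      ≃ {v : Fin (k + 1) → F // v 0 = a} :=
    { toFun := fun f => ⟨E0 ⟨f.1, f.2.1, f.2.2.1⟩, by rw [key]; exact f.2.2.2⟩
      invFun := fun v => ⟨(E0.symm v.1).1, (E0.symm v.1).2.1, (E0.symm v.1).2.2, by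
        rw [← key, Equiv.apply_symm_apply]; exact v.2⟩
      left_inv := fun f => by
        apply Subtype.ext
        simp
      right_inv := fun v => by
        apply Subtype.ext
        simp }
  let E2 : {v : Fin (k + 1) → F // v 0 = a} ≃ {s : F × (Fin k → F) // s.1 = a} :=
    (Fin.consEquiv (fun _ => F)).symm.subtypeEquiv (fun v => Iff.rfl)
  let E3 : {s : F × (Fin k → F) // s.1 = a} ≃ {x : F // x = a} × (Fin k → F) :=
    Equiv.prodSubtypeFstEquivSubtypeProd (p := fun x : F => x = a)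
  rw [Nat.card_congr ((E1.trans E2).trans E3), Nat.card_prod, Nat.card_eq_fintype_card,
    Fintype.card_subtype_eq, one_mul, Nat.card_eq_fintype_card, Fintype.card_fun,
    Fintype.card_fin, Nat.add_sub_cancel]

/-- In `SL_n(q)`, `q` a power of the prime `p`, the number of conjugacy classes of elements of order prime to `p` (the semisimple classes) is `q^(n-1)`. -/
theorem result {F : Type*} [Field F] [Fintype F] {q : ℕ} (hq : Fintype.card F = q) (p : ℕ) [Fact p.Prime] [CharP F p] (n : ℕ) (hn : 1 ≤ n) :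
    Nat.card {c : ConjClasses (Matrix.SpecialLinearGroup (Fin n) F) //
      ∃ g : Matrix.SpecialLinearGroup (Fin n) F, ConjClasses.mk g = c ∧ (orderOf g).Coprime p} = q ^ (n - 1) := by
  classical
  subst hq
  rw [← card_T' n hn ((-1 : F) ^ n)]
  have hout : ∀ c : ConjClasses (Matrix.SpecialLinearGroup (Fin n) F),
      ConjClasses.mk (Quotient.out c) = c := fun c => Quotient.out_eq c
  have hord : ∀ c : {c : ConjClasses (Matrix.SpecialLinearGroup (Fin n) F) //
      ∃ g : Matrix.SpecialLinearGroup (Fin n) F,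
      ConjClasses.mk g = c ∧ (orderOf g).Coprime p}, (orderOf (Quotient.out c.1)).Coprime p := by
    rintro ⟨c, g, hg, hgp⟩
    have h1 : IsConj (Quotient.out c) g :=
      ConjClasses.mk_eq_mk_iff_isConj.mp ((hout c).trans hg.symm)
    obtain ⟨γ, hγ⟩ := isConj_iff.mp h1
    have h2 := (MulAut.conj γ).orderOf_eq (Quotient.out c)
    rw [MulAut.conj_apply, hγ] at h2
    show (orderOf (Quotient.out c)).Coprime p
    rw [← h2]; exact hgp
  have hsq : ((-1 : F) ^ n) * ((-1 : F) ^ n) = 1 := by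
    rw [← mul_pow]; simp
  let Φ : {c : ConjClasses (Matrix.SpecialLinearGroup (Fin n) F) //
      ∃ g : Matrix.SpecialLinearGroup (Fin n) F,
      ConjClasses.mk g = c ∧ (orderOf g).Coprime p} →
      {f : F[X] // f.Monic ∧ f.natDegree = n ∧ f.coeff 0 = (-1 : F) ^ n} := fun c =>
    ⟨((Quotient.out c.1 : Matrix.SpecialLinearGroup (Fin n) F) :
        Matrix (Fin n) (Fin n) F).charpoly,
      Matrix.charpoly_monic _, by rw [Matrix.charpoly_natDegree_eq_dim, Fintype.card_fin], by
        have h1 := Matrix.det_eq_sign_charpoly_coeff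
          ((Quotient.out c.1 : Matrix.SpecialLinearGroup (Fin n) F) : Matrix (Fin n) (Fin n) F)
        rw [(Quotient.out c.1).2, Fintype.card_fin] at h1
        calc _ = ((-1 : F) ^ n * (-1 : F) ^ n) * _ := by rw [hsq, one_mul]
          _ = (-1 : F) ^ n * ((-1 : F) ^ n * _) := by rw [mul_assoc]
          _ = (-1 : F) ^ n := by rw [← h1, mul_one]⟩
  apply Nat.card_congr (Equiv.ofBijective Φ ⟨?_, ?_⟩)
  · intro c c' hcc
    have heq : ((Quotient.out c.1 : Matrix.SpecialLinearGroup (Fin n) F) :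
        Matrix (Fin n) (Fin n) F).charpoly
        = ((Quotient.out c'.1 : Matrix.SpecialLinearGroup (Fin n) F) :
        Matrix (Fin n) (Fin n) F).charpoly :=
      congrArg Subtype.val hcc
    have h1 : IsConj (Quotient.out c.1) (Quotient.out c'.1) :=
      Cfsg.Agent.S2388.result p n _ _ (hord c) (hord c') heq
    apply Subtype.ext
    rw [← hout c.1, ← hout c'.1]
    exact ConjClasses.mk_eq_mk_iff_isConj.mpr h1
  · rintro ⟨f, hf, hd, h0⟩
    have h0' : f.coeff 0 ≠ 0 := by
      rw [h0]; exact pow_ne_zero _ (neg_ne_zero.mpr one_ne_zero)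
    obtain ⟨g, hgc, hgp⟩ := exists_gl p n f hf hd h0'
    have hdet : (g : Matrix (Fin n) (Fin n) F).det = 1 := by
      rw [Matrix.det_eq_sign_charpoly_coeff, hgc, h0, Fintype.card_fin, hsq]
    obtain ⟨s, hs⟩ : ∃ s : Matrix.SpecialLinearGroup (Fin n) F,
      (s : Matrix (Fin n) (Fin n) F) = (g : Matrix (Fin n) (Fin n) F) := ⟨⟨g, hdet⟩, rfl⟩
    have hsg : Matrix.SpecialLinearGroup.toGL s = g := Units.ext hs
    have hso : orderOf s = orderOf g := by
      rw [← hsg]
      exact (orderOf_injective _ Matrix.SpecialLinearGroup.toGL_injective s).symm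
    refine ⟨⟨ConjClasses.mk s, s, rfl, by rw [hso]; exact hgp⟩, Subtype.ext ?_⟩
    show ((Quotient.out (ConjClasses.mk s) : Matrix.SpecialLinearGroup (Fin n) F) :
      Matrix (Fin n) (Fin n) F).charpoly = f
    have h1 : IsConj (Quotient.out (ConjClasses.mk s)) s :=
      ConjClasses.mk_eq_mk_iff_isConj.mp (hout _)
    obtain ⟨o, ho⟩ : ∃ o, o = Quotient.out (ConjClasses.mk s) := ⟨_, rfl⟩
    rw [← ho] at h1 ⊢
    obtain ⟨γ, hγ⟩ := isConj_iff.mp h1
    have h2 : (g : Matrix (Fin n) (Fin n) F)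
        = ((Matrix.SpecialLinearGroup.toGL γ : GL (Fin n) F) : Matrix (Fin n) (Fin n) F)
        * (o : Matrix (Fin n) (Fin n) F)
        * (((Matrix.SpecialLinearGroup.toGL γ)⁻¹ : GL (Fin n) F) : Matrix (Fin n) (Fin n) F) := by
      rw [← hsg, ← hγ, map_mul, map_mul, map_inv]; rfl
    rw [← hgc, h2, Matrix.coe_units_inv]
    exact (Matrix.charpoly_units_conj _ _).symm


end Cfsg.Agent.S2384
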