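import Cfsg.Statements.S2391
import Mathlib

set_option autoImplicit false
open Cfsg

namespace Cfsg.Agent.S2391

section
variable {F : Type*} [Field F] {n : ℕ}

def TT (U : Subgroup (Matrix.SpecialLinearGroup (Fin n) F)) (X : Submodule F (Fin n → F)) :
    Submodule F (Fin n → F) where
  carrier := {v | ∀ u ∈ U, (u : Matrix (Fin n) (Fin n) F).mulVec v - v ∈ X}
  add_mem' := by
    intro a b ha hb u hu
    have : (u : Matrix (Fin n) (Fin n) F).mulVec (a + b) - (a + b) =
        ((u : Matrix (Fin n) (Fin n) F).mulVec a - a) + ((u : Matrix (Fin n) (Fin n) F).mulVec b - b) := by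
      rw [Matrix.mulVec_add]; abel
    rw [this]
    exact X.add_mem (ha u hu) (hb u hu)
  zero_mem' := by
    intro u _
    rw [Matrix.mulVec_zero, sub_zero]
    exact X.zero_mem
  smul_mem' := by
    intro c a ha u hu
    have : (u : Matrix (Fin n) (Fin n) F).mulVec (c • a) - (c • a) =
        c • ((u : Matrix (Fin n) (Fin n) F).mulVec a - a) := by
      rw [Matrix.mulVec_smul, smul_sub]
    rw [this]
    exact X.smul_mem c (ha u hu)

theorem mem_TT {U : Subgroup (Matrix.SpecialLinearGroup (Fin n) F)} {X : Submodule F (Fin n → F)}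
    {v : Fin n → F} : v ∈ TT U X ↔ ∀ u ∈ U, (u : Matrix (Fin n) (Fin n) F).mulVec v - v ∈ X := Iff.rfl

def WW (U : Subgroup (Matrix.SpecialLinearGroup (Fin n) F)) : ℕ → Submodule F (Fin n → F)
  | 0 => ⊥
  | (j + 1) => TT U (WW U j)

theorem WW_le_succ (U : Subgroup (Matrix.SpecialLinearGroup (Fin n) F)) (j : ℕ) :
    WW U j ≤ WW U (j + 1) := by
  induction j with
  | zero => exact bot_le
  | succ j ih =>
    intro v hv u hu
    exact ih (hv u hu)

theorem WW_inv (U : Subgroup (Matrix.SpecialLinearGroup (Fin n) F)) (j : ℕ) :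
    ∀ u ∈ U, ∀ v ∈ WW U j, (u : Matrix (Fin n) (Fin n) F).mulVec v ∈ WW U j := by
  intro u hu v hv
  cases j with
  | zero =>
    have : v = 0 := by simpa [WW] using hv
    rw [this, Matrix.mulVec_zero]
    exact Submodule.zero_mem _
  | succ j =>
    have h1 : (u : Matrix (Fin n) (Fin n) F).mulVec v - v ∈ WW U (j + 1) := WW_le_succ U j (hv u hu)
    have := (WW U (j + 1)).add_mem h1 hv
    simpa using this

theorem WW_norm (U : Subgroup (Matrix.SpecialLinearGroup (Fin n) F)) (j : ℕ) :
    ∀ g ∈ Subgroup.normalizer (U : Set (Matrix.SpecialLinearGroup (Fin n) F)), ∀ v ∈ WW U j,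
      (g : Matrix (Fin n) (Fin n) F).mulVec v ∈ WW U j := by
  induction j with
  | zero =>
    intro g _ v hv
    have : v = 0 := by simpa [WW] using hv
    rw [this, Matrix.mulVec_zero]
    exact Submodule.zero_mem _
  | succ j ih =>
    intro g hg v hv u hu
    have hu' : g⁻¹ * u * g ∈ U := by
      have := (Subgroup.mem_normalizer_iff.mp (inv_mem hg) u).mp hu
      simpa using this
    have h1 : u * g = g * (g⁻¹ * u * g) := by group
    have h2 : (u : Matrix (Fin n) (Fin n) F).mulVec ((g : Matrix (Fin n) (Fin n) F).mulVec v) =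
        (g : Matrix (Fin n) (Fin n) F).mulVec (((g⁻¹ * u * g : Matrix.SpecialLinearGroup (Fin n) F) :
          Matrix (Fin n) (Fin n) F).mulVec v) := by
      rw [Matrix.mulVec_mulVec, Matrix.mulVec_mulVec, ← Matrix.SpecialLinearGroup.coe_mul,
        ← Matrix.SpecialLinearGroup.coe_mul, h1]
    rw [h2, ← Matrix.mulVec_sub]
    exact ih g hg _ (hv _ hu')

theorem lt_TT [Finite F] (p : ℕ) [hp : Fact p.Prime] [CharP F p]
    (U : Subgroup (Matrix.SpecialLinearGroup (Fin n) F)) (hU : IsPGroup p ↥U)
    (X : Submodule F (Fin n → F))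
    (hX : ∀ u ∈ U, ∀ v ∈ X, (u : Matrix (Fin n) (Fin n) F).mulVec v ∈ X) (hne : X ≠ ⊤) :
    X < TT U X := by
  classical
  have hle : X ≤ TT U X := fun v hv u hu => X.sub_mem (hX u hu v hv) hv
  refine lt_of_le_of_ne hle ?_
  intro heq
  have hcm : ∀ u : U, X ≤ X.comap (Matrix.mulVecLin ((u : Matrix.SpecialLinearGroup (Fin n) F) : Matrix (Fin n) (Fin n) F)) := by
    intro u v hv
    exact hX u.1 u.2 v hv
  letI : MulAction ↥U ((Fin n → F) ⧸ X) :=
    { smul := fun u x => X.mapQ X (Matrix.mulVecLin ((u : Matrix.SpecialLinearGroup (Fin n) F) : Matrix (Fin n) (Fin n) F)) (hcm u) x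
      one_smul := by
        intro x
        induction x using Submodule.Quotient.induction_on with
        | H v =>
          show X.mapQ X _ _ (Submodule.Quotient.mk v) = _
          rw [Submodule.mapQ_apply]
          simp
      mul_smul := by
        intro a b x
        induction x using Submodule.Quotient.induction_on with
        | H v =>
          show X.mapQ X _ _ (Submodule.Quotient.mk v) = X.mapQ X _ _ (X.mapQ X _ _ (Submodule.Quotient.mk v))
          rw [Submodule.mapQ_apply, Submodule.mapQ_apply, Submodule.mapQ_apply]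
          simp [Matrix.mulVec_mulVec] }
  have hsm : ∀ (u : U) (v : Fin n → F), u • (Submodule.Quotient.mk v : (Fin n → F) ⧸ X) =
      Submodule.Quotient.mk (((u : Matrix.SpecialLinearGroup (Fin n) F) : Matrix (Fin n) (Fin n) F).mulVec v) := by
    intro u v
    show X.mapQ X _ _ (Submodule.Quotient.mk v) = _
    rw [Submodule.mapQ_apply]; rfl
  haveI : Nontrivial ((Fin n → F) ⧸ X) := Submodule.Quotient.nontrivial_iff.mpr hne
  haveI : Finite ((Fin n → F) ⧸ X) := Finite.of_surjective _ (Submodule.Quotient.mk_surjective X)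
  have hdvd : p ∣ Nat.card ((Fin n → F) ⧸ X) := by
    obtain ⟨x, hx⟩ := exists_ne (0 : (Fin n → F) ⧸ X)
    have h1 : addOrderOf x = p := by
      apply addOrderOf_eq_prime _ hx
      rw [← Nat.cast_smul_eq_nsmul F, CharP.cast_eq_zero, zero_smul]
    rw [← h1]
    exact addOrderOf_dvd_natCard x
  have h0 : (0 : (Fin n → F) ⧸ X) ∈ MulAction.fixedPoints ↥U ((Fin n → F) ⧸ X) := by
    intro u
    have := hsm u 0
    rw [Matrix.mulVec_zero] at this
    exact this
  obtain ⟨b, hb, hb0⟩ := hU.exists_fixed_point_of_prime_dvd_card_of_fixed_point _ hdvd h0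
  induction b using Submodule.Quotient.induction_on with
  | H v =>
    apply hb0
    symm
    rw [Submodule.Quotient.mk_eq_zero, heq]
    intro u hu
    have := hb ⟨u, hu⟩
    rw [hsm, Submodule.Quotient.eq] at this
    exact this
end

/-- The Borel–Tits property of `SL_n(q)` in flag form: for a field `F` of characteristic `p` with finitely many elements and a non-trivial `p`-subgroup `U` of `SL_n(F)`, there is a flag `0 = V₀ < V₁ < ⋯ < V_{k+1} = F^n` with at least one proper non-zero member such that every element of the normaliser of `U` maps each `V_i` onto itself and every element of `U` acts trivially on each quotient `V_{i+1}/V_i` (so the normaliser lies in the parabolic subgroup of the flag and `U` in its unipotent radical). -/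
theorem result {F : Type*} [Field F] [Fintype F] (p : ℕ) [Fact p.Prime] [CharP F p] (n : ℕ)
    (U : Subgroup (Matrix.SpecialLinearGroup (Fin n) F)) (hU : IsPGroup p ↥U) (hne : U ≠ ⊥) :
    ∃ (k : ℕ) (V : Fin (k + 2) → Submodule F (Fin n → F)), 1 ≤ k ∧ StrictMono V ∧ V 0 = ⊥ ∧ V (Fin.last (k + 1)) = ⊤ ∧
      (∀ g ∈ Subgroup.normalizer (U : Set (Matrix.SpecialLinearGroup (Fin n) F)), ∀ i, (V i).map (Matrix.mulVecLin (g : Matrix (Fin n) (Fin n) F)) = V i) ∧
      (∀ u ∈ U, ∀ i : Fin (k + 1), ∀ v ∈ V i.succ, (u : Matrix (Fin n) (Fin n) F).mulVec v - v ∈ V (Fin.castSucc i)) := by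
  classical
  have hstep : ∀ j, WW U j ≠ ⊤ → WW U j < WW U (j + 1) := fun j hj =>
    lt_TT p U hU (WW U j) (WW_inv U j) hj
  have hrank : ∀ j, WW U j = ⊤ ∨ j ≤ Module.finrank F (WW U j) := by
    intro j
    induction j with
    | zero => right; exact Nat.zero_le _
    | succ j ih =>
      by_cases hj : WW U j = ⊤
      · left
        exact top_le_iff.mp (hj ▸ WW_le_succ U j)
      · right
        have h1 := ih.resolve_left hj
        have h2 := Submodule.finrank_lt_finrank_of_lt (hstep j hj)
        omega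
  have hex : ∃ j, WW U j = ⊤ := by
    refine ⟨n + 1, (hrank (n + 1)).resolve_right ?_⟩
    intro h
    have := Submodule.finrank_le (WW U (n + 1))
    rw [Module.finrank_fin_fun] at this
    omega
  have h1 : WW U 1 ≠ ⊤ := by
    intro h
    apply hne
    rw [eq_bot_iff]
    intro u hu
    rw [Subgroup.mem_bot]
    apply Subtype.ext
    apply Matrix.ext_of_mulVec_single
    intro i
    have h2 : (Pi.single i 1 : Fin n → F) ∈ WW U 1 := by rw [h]; trivial
    have h3 := h2 u hu
    have h4 : (u : Matrix (Fin n) (Fin n) F).mulVec (Pi.single i 1) - Pi.single i 1 = 0 := by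
      simpa [WW] using h3
    rw [sub_eq_zero] at h4
    rw [h4]
    exact (Matrix.one_mulVec _).symm
  have hN2 : 2 ≤ Nat.find hex := by
    by_contra hcon
    push Not at hcon
    have hs := Nat.find_spec hex
    have : Nat.find hex = 0 ∨ Nat.find hex = 1 := by omega
    rcases this with h | h
    · rw [h] at hs
      exact h1 (top_le_iff.mp (hs ▸ WW_le_succ U 0))
    · rw [h] at hs
      exact h1 hs
  obtain ⟨k, hk⟩ : ∃ k, Nat.find hex = k + 1 := ⟨Nat.find hex - 1, by omega⟩
  refine ⟨k, fun i => WW U i.val, by omega, ?_, rfl, ?_, ?_, ?_⟩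
  · rw [Fin.strictMono_iff_lt_succ]
    intro i
    simp only [Fin.val_castSucc, Fin.val_succ]
    apply hstep
    apply Nat.find_min hex
    rw [hk]
    exact i.2
  · simp only [Fin.val_last]
    rw [← hk]
    exact Nat.find_spec hex
  · intro g hg i
    apply le_antisymm
    · rintro _ ⟨v, hv, rfl⟩
      exact WW_norm U _ g hg v hv
    · intro v hv
      refine ⟨(g⁻¹ : Matrix.SpecialLinearGroup (Fin n) F).1.mulVec v, WW_norm U _ g⁻¹ (inv_mem hg) v hv, ?_⟩
      show (g : Matrix (Fin n) (Fin n) F).mulVec ((g⁻¹ : Matrix.SpecialLinearGroup (Fin n) F).1.mulVec v) = v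
      rw [Matrix.mulVec_mulVec]
      have : (g : Matrix (Fin n) (Fin n) F) * (g⁻¹ : Matrix.SpecialLinearGroup (Fin n) F).1 = 1 := by
        have := congrArg Subtype.val (mul_inv_cancel g)
        exact this
      rw [this, Matrix.one_mulVec]
  · intro u hu i v hv
    simp only [Fin.val_castSucc, Fin.val_succ] at hv ⊢
    exact hv u hu

end Cfsg.Agent.S2391
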