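import Cfsg.Statements.S2402
import Cfsg.Agent.Lib.Helper12.SLnGen

set_option autoImplicit false
open Cfsg

namespace Cfsg.Agent.S2402

open Matrix Matrix.SpecialLinearGroup Cfsg.Agent.Lib.Helper12
open scoped commutatorElement Fin.NatCast Fin.CommRing

theorem exists_sq_add_sq {K : Type*} [Field K] [Fintype K] (c : K) : ∃ a b : K, a ^ 2 + b ^ 2 = c := by
  classical
  by_cases h : Fintype.card K % 2 = 1
  · obtain ⟨a, b, hab⟩ : ∃ a b, (Polynomial.X ^ 2 : Polynomial K).eval a +
        (Polynomial.X ^ 2 - Polynomial.C c : Polynomial K).eval b = 0 :=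
      FiniteField.exists_root_sum_quadratic (Polynomial.degree_X_pow 2)
        (Polynomial.degree_X_pow_sub_C (by decide) _) h
    refine ⟨a, b, ?_⟩
    simp at hab
    linear_combination hab
  · have h2 : ringChar K = 2 := FiniteField.even_card_iff_char_two.mpr (by omega)
    obtain ⟨a, ha⟩ := FiniteField.isSquare_of_char_two h2 c
    exact ⟨a, 0, by rw [ha]; ring⟩

theorem diag_smul {K : Type*} [Field K] {m : ℕ} (δ : SpecialLinearGroup (Fin m) K) (d : Fin m → K)
    (hδ : (δ : Matrix (Fin m) (Fin m) K) = Matrix.diagonal d) (v : Fin m → K) (i : Fin m) :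
    (δ • v) i = d i * v i := by
  rw [Matrix.SpecialLinearGroup.smul_def, hδ]
  exact Matrix.mulVec_diagonal d v i

theorem gen_aux {K : Type*} [Field K] [Fintype K] (hK : 3 < Fintype.card K) (n : ℕ) (hn : 1 ≤ n)
    (k : Kˣ) (hk : ∀ u : Kˣ, u ∈ Subgroup.zpowers k)
    (h x w : Matrix.SpecialLinearGroup (Fin (n + 1)) K)
    (hh : (h : Matrix (Fin (n + 1)) (Fin (n + 1)) K) =
      Matrix.diagonal (fun i => if i.val = 0 then (k : K) else if i.val = 1 then ((k⁻¹ : Kˣ) : K) else 1))
    (hx : (x : Matrix (Fin (n + 1)) (Fin (n + 1)) K) = Matrix.transvection (0 : Fin (n + 1)) (1 : Fin (n + 1)) 1)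
    (hw : (w : Matrix (Fin (n + 1)) (Fin (n + 1)) K) =
      Matrix.of (fun i j => if j.val = i.val + 1 then 1 else if i.val = n ∧ j.val = 0 then (-1) ^ n else 0)) :
    Subgroup.closure ({h, x * w} : Set (Matrix.SpecialLinearGroup (Fin (n + 1)) K)) = ⊤ := by
  classical
  set H := Subgroup.closure ({h, x * w} : Set (Matrix.SpecialLinearGroup (Fin (n + 1)) K)) with hH
  have hhH : h ∈ H := Subgroup.subset_closure (by simp)
  have hyH : x * w ∈ H := Subgroup.subset_closure (by simp)
  haveI : Nontrivial (Fin (n + 1)) := Fin.nontrivial_iff_two_le.mpr (by omega)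
  obtain ⟨s, hss, hwv⟩ := cyc_smul n w hw
  have h01 : (0 : Fin (n + 1)) ≠ 1 := zero_ne_one
  have hx' : x = SpecialLinearGroup.transvection h01 1 := by
    apply Subtype.ext
    rw [hx]
    rfl
  set hd : Fin (n + 1) → K :=
    fun i => if i.val = 0 then (k : K) else if i.val = 1 then ((k⁻¹ : Kˣ) : K) else 1 with hhd
  have hk0 : (k : K) ≠ 0 := k.ne_zero
  have hord : orderOf k = Fintype.card K - 1 := by
    rw [orderOf_eq_card_of_forall_mem_zpowers hk, Nat.card_eq_fintype_card, Fintype.card_units]
  have hk2 : (k : K) ^ 2 ≠ 1 := by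
    intro h2
    have : k ^ 2 = 1 := Units.ext (by simpa using h2)
    have := Nat.le_of_dvd (by norm_num) (orderOf_dvd_of_pow_eq_one this)
    omega
  have hk1 : (k : K) ≠ 1 := by
    intro h1
    apply hk2
    rw [h1, one_pow]
  have hd0 : hd 0 = k := by simp [hhd]
  have hv1 : (1 : Fin (n + 1)).val = 1 := by
    rw [Fin.val_one']; exact Nat.mod_eq_of_lt (by omega)
  have hd1 : hd 1 = (k : K)⁻¹ := by
    simp only [hhd, hv1]
    simp
  have hdne : ∀ i, hd i ≠ 0 := by
    intro i
    simp only [hhd]
    split_ifs <;> simp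
  have hd2 : hd (1 + 1) = 1 ∨ hd (1 + 1) = k := by
    simp only [hhd]
    split_ifs with h1 h2
    · right; rfl
    · exfalso
      rw [Fin.val_add, hv1] at h1 h2
      rcases Nat.lt_or_ge 2 (n + 1) with h3 | h3
      · rw [Nat.mod_eq_of_lt h3] at h2; omega
      · have : n = 1 := by omega
        subst this
        simp at h1
    · left; rfl
  -- the shifted diagonal element
  have hdet : (Matrix.diagonal (fun i => hd (i + 1))).det = 1 := by
    rw [Matrix.det_diagonal]
    have h1 := h.2
    rw [hh, Matrix.det_diagonal] at h1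
    rw [← h1]
    exact Equiv.prod_comp (Equiv.addRight (1 : Fin (n + 1))) hd
  set D : SpecialLinearGroup (Fin (n + 1)) K := ⟨Matrix.diagonal (fun i => hd (i + 1)), hdet⟩ with hD
  have hDv : ∀ (v : Fin (n + 1) → K) (i : Fin (n + 1)), (D • v) i = hd (i + 1) * v i := fun v i => diag_smul D _ rfl v i
  have hhv : ∀ (v : Fin (n + 1) → K) (i : Fin (n + 1)), (h • v) i = hd i * v i := fun v i => diag_smul h _ hh v i
  set a : K := (hd (1 + 1) - hd 1) / hd (1 + 1) with ha
  have ha0 : a ≠ 0 := by
    rw [ha]
    apply div_ne_zero _ (hdne _)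
    rw [hd1]
    rcases hd2 with h2 | h2
    · rw [h2]
      intro h3
      apply hk1
      field_simp at h3
      linear_combination h3
    · rw [h2]
      intro h3
      apply hk2
      field_simp at h3
      linear_combination h3
  have hu : SpecialLinearGroup.transvection h01 a * D * (x * w) = x * w * h := by
    apply sl_ext_smul
    intro v
    ext i
    rw [hx']
    simp only [mul_smul, transvection_smul]
    by_cases hi : i = 0
    · subst hi
      simp only [Function.update_self, hDv, hwv, hhv, Function.update_of_ne h01.symm, zero_add]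
      have := hdne (1 + 1)
      rw [ha]
      field_simp
      ring
    · simp only [Function.update_of_ne hi, hDv, hwv, hhv]
      ring
  have huH : SpecialLinearGroup.transvection h01 a * D ∈ H := by
    have : SpecialLinearGroup.transvection h01 a * D = x * w * h * (x * w)⁻¹ := by
      rw [← hu, mul_inv_cancel_right]
    rw [this]
    exact H.mul_mem (H.mul_mem hyH hhH) (H.inv_mem hyH)
  have hz : h * (SpecialLinearGroup.transvection h01 a * D) =
      SpecialLinearGroup.transvection h01 (a * ((k : K) ^ 2 - 1)) *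
        (SpecialLinearGroup.transvection h01 a * D) * h := by
    apply sl_ext_smul
    intro v
    ext i
    simp only [mul_smul, transvection_smul]
    by_cases hi : i = 0
    · subst hi
      simp only [Function.update_self, hDv, hhv, Function.update_of_ne h01.symm, zero_add, hd0, hd1]
      field_simp
      ring
    · simp only [Function.update_of_ne hi, hDv, hhv]
      ring
  have hc0 : SpecialLinearGroup.transvection h01 (a * ((k : K) ^ 2 - 1)) ∈ H := by
    have : SpecialLinearGroup.transvection h01 (a * ((k : K) ^ 2 - 1)) =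
        h * (SpecialLinearGroup.transvection h01 a * D) * h⁻¹ *
          (SpecialLinearGroup.transvection h01 a * D)⁻¹ := by
      rw [hz]; group
    rw [this]
    exact H.mul_mem (H.mul_mem (H.mul_mem hhH huH) (H.inv_mem hhH)) (H.inv_mem huH)
  set c₀ : K := a * ((k : K) ^ 2 - 1) with hc₀
  have hc₀ne : c₀ ≠ 0 := mul_ne_zero ha0 (sub_ne_zero.mpr hk2)
  -- conjugation by h
  have hconj : ∀ c : K, SpecialLinearGroup.transvection h01 c ∈ H →
      SpecialLinearGroup.transvection h01 ((k : K) ^ 2 * c) ∈ H := by
    intro c hc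
    have h1 : h * SpecialLinearGroup.transvection h01 c =
        SpecialLinearGroup.transvection h01 ((k : K) ^ 2 * c) * h := by
      apply sl_ext_smul
      intro v
      ext i
      simp only [mul_smul, transvection_smul]
      by_cases hi : i = 0
      · subst hi
        simp only [Function.update_self, hhv, hd0, hd1]
        field_simp
      · simp only [Function.update_of_ne hi, hhv]
    have : SpecialLinearGroup.transvection h01 ((k : K) ^ 2 * c) =
        h * SpecialLinearGroup.transvection h01 c * h⁻¹ := by
      rw [h1, mul_inv_cancel_right]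
    rw [this]
    exact H.mul_mem (H.mul_mem hhH hc) (H.inv_mem hhH)
  have hpow : ∀ m : ℕ, SpecialLinearGroup.transvection h01 (((k : K) ^ m) ^ 2 * c₀) ∈ H := by
    intro m
    induction m with
    | zero => simpa using hc0
    | succ m ih =>
      have := hconj _ ih
      have h2 : (k : K) ^ 2 * (((k : K) ^ m) ^ 2 * c₀) = ((k : K) ^ (m + 1)) ^ 2 * c₀ := by ring
      rwa [h2] at this
  have hzero : SpecialLinearGroup.transvection h01 (0 : K) ∈ H := by
    have : SpecialLinearGroup.transvection h01 (0 : K) = 1 := by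
      apply Subtype.ext
      simp
    rw [this]; exact H.one_mem
  have hsq : ∀ b : K, SpecialLinearGroup.transvection h01 (b ^ 2 * c₀) ∈ H := by
    intro b
    by_cases hb : b = 0
    · subst hb
      simpa using hzero
    · have h1 : Units.mk0 b hb ∈ Submonoid.powers k :=
        mem_powers_iff_mem_zpowers.mpr (hk _)
      obtain ⟨m, hm⟩ := h1
      have h2 : (k : K) ^ m = b := by
        have := congrArg Units.val hm
        simpa using this
      rw [← h2]
      exact hpow m
  have hall : ∀ (h' : (0 : Fin (n + 1)) ≠ 1) (c : K), SpecialLinearGroup.transvection h' c ∈ H := by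
    intro _ c
    obtain ⟨b1, b2, hb⟩ := exists_sq_add_sq (c / c₀)
    have h1 : c = b1 ^ 2 * c₀ + b2 ^ 2 * c₀ := by
      rw [← add_mul, hb]
      field_simp
    rw [h1, SpecialLinearGroup.transvection_add]
    exact H.mul_mem (hsq b1) (hsq b2)
  have hxH : x ∈ H := by rw [hx']; exact hall _ _
  have hwH : w ∈ H := by
    have : w = x⁻¹ * (x * w) := by group
    rw [this]
    exact H.mul_mem (H.inv_mem hxH) hyH
  exact cyc_gen n hn w s hss hwv H hwH hall

/-- Explicit two-element generation of `PSL_{n+1}(K)` for a finite field `K` with more than three elements: let `k` generate the multiplicative group of `K`, `h = diag(k, k⁻¹, 1, …, 1)`, `x = 1 + E₁₂` (the elementary transvection) and `w` the monomial matrix with entries `1` in positions `(i, i+1)` and `(−1)^n` in position `(n+1, 1)`. Then `h` and `x·w` generate `SL_{n+1}(K)` modulo its centre: the subgroup they generate together with the centre is everything. -/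
theorem result {K : Type*} [Field K] [Fintype K] (hK : 3 < Fintype.card K) (n : ℕ) (hn : 1 ≤ n)
    (k : Kˣ) (hk : ∀ u : Kˣ, u ∈ Subgroup.zpowers k)
    (h x w : Matrix.SpecialLinearGroup (Fin (n + 1)) K)
    (hh : (h : Matrix (Fin (n + 1)) (Fin (n + 1)) K) =
      Matrix.diagonal (fun i => if i.val = 0 then (k : K) else if i.val = 1 then ((k⁻¹ : Kˣ) : K) else 1))
    (hx : (x : Matrix (Fin (n + 1)) (Fin (n + 1)) K) = Matrix.transvection (0 : Fin (n + 1)) (1 : Fin (n + 1)) 1)
    (hw : (w : Matrix (Fin (n + 1)) (Fin (n + 1)) K) =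
      Matrix.of (fun i j => if j.val = i.val + 1 then 1 else if i.val = n ∧ j.val = 0 then (-1) ^ n else 0)) :
    Subgroup.closure ({h, x * w} : Set (Matrix.SpecialLinearGroup (Fin (n + 1)) K)) ⊔
      Subgroup.center (Matrix.SpecialLinearGroup (Fin (n + 1)) K) = ⊤ := by
  rw [gen_aux hK n hn k hk h x w hh hx hw]
  exact top_sup_eq _


end Cfsg.Agent.S2402
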