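import Cfsg.Statements.S2403
import Cfsg.Agent.Lib.Helper12.SLn

set_option autoImplicit false
open Cfsg

namespace Cfsg.Agent.S2403

open Matrix Matrix.SpecialLinearGroup Cfsg.Agent.Lib.Helper12
open scoped commutatorElement Fin.NatCast Fin.CommRing

theorem small_field {K : Type*} [Field K] [Fintype K] (hK : Fintype.card K ≤ 3) (c : K) :
    c = 0 ∨ c = 1 ∨ c = -1 := by
  classical
  by_contra hcon
  push Not at hcon
  obtain ⟨h0, h1, h2⟩ := hcon
  by_cases h : (1 : K) = -1
  · have hc : ({0, 1, c} : Finset K).card = 3 := by
      rw [Finset.card_insert_of_notMem, Finset.card_insert_of_notMem, Finset.card_singleton]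
      · simpa using h1.symm
      · simp [h0.symm]
    have h3 : Fintype.card K = 3 := le_antisymm hK (hc ▸ Finset.card_le_univ _)
    have h4 : ((Fintype.card K : ℕ) : K) = 0 := Nat.cast_card_eq_zero K
    rw [h3] at h4
    push_cast at h4
    have : (1 : K) = 0 := by linear_combination h4 - h
    exact one_ne_zero this
  · have hc : ({0, 1, -1, c} : Finset K).card = 4 := by
      rw [Finset.card_insert_of_notMem, Finset.card_insert_of_notMem,
        Finset.card_insert_of_notMem, Finset.card_singleton]
      · simpa using h2.symm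
      · simp [h, h1.symm]
      · simp [h0.symm]
    have := Finset.card_le_univ ({0, 1, -1, c} : Finset K)
    omega

theorem gen_aux {K : Type*} [Field K] [Fintype K] (hK : Fintype.card K ≤ 3) (n : ℕ) (hn : 1 ≤ n)
    (x w : Matrix.SpecialLinearGroup (Fin (n + 1)) K)
    (hx : (x : Matrix (Fin (n + 1)) (Fin (n + 1)) K) = Matrix.transvection (0 : Fin (n + 1)) (1 : Fin (n + 1)) 1)
    (hw : (w : Matrix (Fin (n + 1)) (Fin (n + 1)) K) =
      Matrix.of (fun i j => if j.val = i.val + 1 then 1 else if i.val = n ∧ j.val = 0 then (-1) ^ n else 0)) :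
    Subgroup.closure ({x, w} : Set (Matrix.SpecialLinearGroup (Fin (n + 1)) K)) = ⊤ := by
  classical
  set H := Subgroup.closure ({x, w} : Set (Matrix.SpecialLinearGroup (Fin (n + 1)) K)) with hH
  have hxH : x ∈ H := Subgroup.subset_closure (by simp)
  have hwH : w ∈ H := Subgroup.subset_closure (by simp)
  haveI : Nontrivial (Fin (n + 1)) := Fin.nontrivial_iff_two_le.mpr (by omega)
  -- the action of w
  set s : Fin (n + 1) → K := fun i => (w : Matrix (Fin (n + 1)) (Fin (n + 1)) K) i (i + 1) with hs
  have hss : ∀ i, s i * s i = 1 := by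
    intro i
    simp only [hs, hw, Matrix.of_apply, Fin.val_add_one]
    by_cases hi : i = Fin.last n
    · subst hi
      simp [← mul_pow]
    · simp [hi]
  have hwv : ∀ (v : Fin (n + 1) → K) (i : Fin (n + 1)), (w • v) i = s i * v (i + 1) := by
    intro v i
    rw [Matrix.SpecialLinearGroup.smul_def]
    show ∑ j, (w : Matrix (Fin (n + 1)) (Fin (n + 1)) K) i j * v j = _
    rw [Finset.sum_eq_single (i + 1)]
    · intro j _ hj
      have : (w : Matrix (Fin (n + 1)) (Fin (n + 1)) K) i j = 0 := by
        rw [hw, Matrix.of_apply]
        have hj' : j.val ≠ (i + 1).val := fun h => hj (Fin.ext h)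
        rw [Fin.val_add_one] at hj'
        by_cases hi : i = Fin.last n
        · rw [if_pos hi] at hj'
          have hi' : i.val = n := by rw [hi]; rfl
          have := j.2
          rw [if_neg (by omega), if_neg (by omega)]
        · rw [if_neg hi] at hj'
          have hi' : i.val ≠ n := fun h => hi (Fin.ext h)
          rw [if_neg hj', if_neg (by tauto)]
      rw [this, zero_mul]
    · intro h; exact absurd (Finset.mem_univ _) h
  -- shifting
  have hshift : ∀ (i j : Fin (n + 1)) (hij : i ≠ j) (hij' : i + 1 ≠ j + 1) (c : K),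
      w * SpecialLinearGroup.transvection hij' c =
        SpecialLinearGroup.transvection hij (c * s i * s j) * w := by
    intro i j hij hij' c
    apply sl_ext_smul
    intro v
    ext k
    rw [mul_smul, mul_smul, hwv, transvection_smul, transvection_smul]
    by_cases hk : k = i
    · subst hk
      rw [Function.update_self, Function.update_self, hwv, hwv]
      linear_combination (-(c * s k * v (j + 1))) * hss j
    · have hk' : k + 1 ≠ i + 1 := fun h => hk (add_right_cancel h)
      rw [Function.update_of_ne hk, Function.update_of_ne hk', hwv]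
  set P : Fin (n + 1) → Fin (n + 1) → Prop := fun i j =>
    ∀ (h : i ≠ j) (c : K), SpecialLinearGroup.transvection h c ∈ H with hP
  have hPshift : ∀ i j, P i j → P (i + 1) (j + 1) := by
    intro i j hPij hij' c
    have hij : i ≠ j := fun h => hij' (by rw [h])
    have h1 := hshift i j hij hij' c
    have h2 : SpecialLinearGroup.transvection hij' c =
        w⁻¹ * (SpecialLinearGroup.transvection hij (c * s i * s j) * w) := by
      rw [← h1, inv_mul_cancel_left]
    rw [h2]
    exact H.mul_mem (H.inv_mem hwH) (H.mul_mem (hPij hij _) hwH)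
  have hP01 : P 0 1 := by
    intro h c
    have hx' : x = SpecialLinearGroup.transvection h 1 := by
      apply Subtype.ext
      rw [hx]
      rfl
    rcases small_field hK c with rfl | rfl | rfl
    · have : SpecialLinearGroup.transvection h (0 : K) = 1 := by
        apply Subtype.ext
        simp [SpecialLinearGroup.transvection_coe]
      rw [this]; exact H.one_mem
    · rw [← hx']; exact hxH
    · rw [← SpecialLinearGroup.transvection_inv, ← hx']; exact H.inv_mem hxH
  have hP1 : ∀ k : ℕ, P (k : Fin (n + 1)) ((k : Fin (n + 1)) + 1) := by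
    intro k
    induction k with
    | zero => simpa using hP01
    | succ k ih =>
      have := hPshift _ _ ih
      rwa [← Nat.cast_succ] at this
  have hP1' : ∀ i : Fin (n + 1), P i (i + 1) := by
    intro i
    have := hP1 i.val
    rwa [Fin.cast_val_eq_self] at this
  have hne : ∀ d : ℕ, 1 ≤ d → d ≤ n → (d : Fin (n + 1)) ≠ 0 := by
    intro d h1 h2 h
    rw [Fin.natCast_eq_zero] at h
    have := Nat.le_of_dvd (by omega) h
    omega
  have hPd : ∀ d : ℕ, 1 ≤ d → d ≤ n → ∀ i : Fin (n + 1), P i (i + (d : Fin (n + 1))) := by
    intro d hd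
    induction d, hd using Nat.le_induction with
    | base => intro _ i; simpa using hP1' i
    | succ d hd ih =>
      intro hdn i hij c
      have h1 : i ≠ i + (d : Fin (n + 1)) := by
        intro h
        exact hne d hd (by omega) (by simpa using h.symm)
      have h2 : i + (d : Fin (n + 1)) ≠ i + ((d + 1 : ℕ) : Fin (n + 1)) := by
        intro h
        rw [Nat.cast_succ, ← add_assoc] at h
        have : (1 : Fin (n + 1)) = 0 := by simpa using h.symm
        exact one_ne_zero this
      have h3 := transvection_commutator hij h1 h2 c 1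
      rw [mul_one] at h3
      rw [← h3]
      have h4 := ih (by omega) i h1 c
      have h5 : SpecialLinearGroup.transvection h2 (1 : K) ∈ H := by
        have := hP1' (i + (d : Fin (n + 1)))
        have h6 : i + (d : Fin (n + 1)) + 1 = i + ((d + 1 : ℕ) : Fin (n + 1)) := by
          rw [Nat.cast_succ, add_assoc]
        rw [h6] at this
        exact this h2 1
      exact Subgroup.commutator_mem_commutator h4 h5 |> fun h => (Subgroup.commutator_le_self H) h
  refine le_antisymm le_top (fun A _ => transvection_induction _ ?_ (fun _ _ => H.mul_mem) A)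
  intro i j hij c
  have h1 : j = i + (((j - i).val : ℕ) : Fin (n + 1)) := by
    rw [Fin.cast_val_eq_self]; ring
  have h2 : 1 ≤ (j - i).val := by
    rw [Nat.one_le_iff_ne_zero]
    intro h
    have : j - i = 0 := Fin.ext h
    exact hij (sub_eq_zero.mp this).symm
  have h3 : (j - i).val ≤ n := Nat.lt_succ_iff.mp (j - i).2
  have h4 := hPd _ h2 h3 i
  rw [← h1] at h4
  exact h4 hij c

/-- Explicit two-element generation of `PSL_{n+1}(K)` over the fields with two or three elements: with `x = 1 + E₁₂` and `w` the monomial matrix with entries `1` in positions `(i, i+1)` and `(−1)^n` in position `(n+1, 1)`, the elements `x` and `w` generate `SL_{n+1}(K)` modulo its centre. -/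
theorem result {K : Type*} [Field K] [Fintype K] (hK : Fintype.card K ≤ 3) (n : ℕ) (hn : 1 ≤ n)
    (x w : Matrix.SpecialLinearGroup (Fin (n + 1)) K)
    (hx : (x : Matrix (Fin (n + 1)) (Fin (n + 1)) K) = Matrix.transvection (0 : Fin (n + 1)) (1 : Fin (n + 1)) 1)
    (hw : (w : Matrix (Fin (n + 1)) (Fin (n + 1)) K) =
      Matrix.of (fun i j => if j.val = i.val + 1 then 1 else if i.val = n ∧ j.val = 0 then (-1) ^ n else 0)) :
    Subgroup.closure ({x, w} : Set (Matrix.SpecialLinearGroup (Fin (n + 1)) K)) ⊔
      Subgroup.center (Matrix.SpecialLinearGroup (Fin (n + 1)) K) = ⊤ := by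
  rw [gen_aux hK n hn x w hx hw]
  exact top_sup_eq _


end Cfsg.Agent.S2403
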