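import Cfsg.Statements.S2410
-- import your own Cfsg.Agent.* helpers here
import Cfsg.Agent.Lib.Helper29.SzMore

set_option autoImplicit false
open Cfsg

namespace Cfsg.Agent.S2410

open Cfsg.Agent.Lib.Helper29.Sz in
theorem gen_aux {F : Type*} [Field F] [Finite F] {m : ℕ} (hG : Good F m)
    (hex : ∃ t : F, t ≠ 0 ∧ t ≠ 1) :
    ∃ a b : ↥(Cfsg.Sz F m), Subgroup.closure ({a, b} : Set ↥(Cfsg.Sz F m)) = ⊤ := by
  obtain ⟨κ, hκ⟩ := IsCyclic.exists_generator (α := Fˣ)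
  let φ : Fˣ →* Cfsg.Sz F m :=
    { toFun := fun k => ⟨hh m k, hh_mem hG k⟩
      map_one' := Subtype.ext (hh_one m)
      map_mul' := fun k k' => Subtype.ext (hh_mul m k k') }
  let tt : F → F → Cfsg.Sz F m := fun a b => ⟨T m a b, T_mem hG a b⟩
  let W : Cfsg.Sz F m := ⟨w, w_mem hG⟩
  refine ⟨φ κ, tt 1 0 * W, ?_⟩
  set L := Subgroup.closure ({φ κ, tt 1 0 * W} : Set ↥(Cfsg.Sz F m)) with hL
  have hA : φ κ ∈ L := Subgroup.subset_closure (by simp)
  have hB : tt 1 0 * W ∈ L := Subgroup.subset_closure (by simp)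
  have hH : ∀ k : Fˣ, φ k ∈ L := by
    intro k
    obtain ⟨n, rfl⟩ := Subgroup.mem_zpowers_iff.1 (hκ k)
    rw [map_zpow]
    exact L.zpow_mem hA n
  have hκ1 : κ ≠ 1 := by
    rintro rfl
    obtain ⟨t, h0, h1⟩ := hex
    obtain ⟨n, hn⟩ := Subgroup.mem_zpowers_iff.1 (hκ (Units.mk0 t h0))
    rw [one_zpow] at hn
    apply h1
    have := congrArg Units.val hn
    simpa using this.symm
  have tt_mul : ∀ a b c d : F, tt a b * tt c d = tt (a + c) (b + d + sg m a * c) :=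
    fun a b c d => Subtype.ext (T_mul hG hex a b c d)
  have tt_inv : ∀ a b : F, (tt a b)⁻¹ = tt a (b + sg m a * a) :=
    fun a b => Subtype.ext (T_inv hG hex a b)
  have φ_tt : ∀ (k : Fˣ) (a b : F), φ k * tt a b * (φ k)⁻¹ =
      tt (sg m (k : F) * a) ((k : F) ^ 2 * sg m (k : F) * b) := by
    intro k a b
    rw [mul_inv_eq_iff_eq_mul]
    exact Subtype.ext (hh_T hG hex k a b)
  have W_φ : W * φ κ * W⁻¹ = φ κ⁻¹ := by
    rw [mul_inv_eq_iff_eq_mul]
    apply Subtype.ext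
    have := hh_w (m := m) (κ⁻¹)
    rw [inv_inv] at this
    exact this.symm
  -- a first element of `U`
  obtain ⟨a₀, b₀, ha₀, hab₀⟩ : ∃ a₀ b₀ : F, a₀ ≠ 0 ∧ tt a₀ b₀ ∈ L := by
    have h1 : (tt 1 0 * W) * φ κ * (tt 1 0 * W)⁻¹ * φ κ ∈ L :=
      L.mul_mem (L.mul_mem (L.mul_mem hB hA) (L.inv_mem hB)) hA
    have h2 : (tt 1 0 * W) * φ κ * (tt 1 0 * W)⁻¹ * φ κ =
        tt 1 0 * (φ κ⁻¹ * (tt 1 0)⁻¹ * (φ κ⁻¹)⁻¹) := by
      have e1 : (tt 1 0 * W) * φ κ * (tt 1 0 * W)⁻¹ * φ κ =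
          tt 1 0 * (W * φ κ * W⁻¹) * (tt 1 0)⁻¹ * φ κ := by group
      have e2 : φ κ = (φ κ⁻¹)⁻¹ := by rw [map_inv, inv_inv]
      rw [e1, W_φ]
      conv_lhs => rw [e2]
      simp only [mul_assoc]
    rw [h2, tt_inv, φ_tt, tt_mul] at h1
    refine ⟨_, _, ?_, h1⟩
    intro h0
    have h3 : sg m ((κ⁻¹ : Fˣ) : F) = 1 := by
      have := hG.eq_of_add_eq_zero h0
      rw [mul_one] at this
      exact this.symm
    have h4 := hG.eq_one_of_sg h3
    apply hκ1
    have h5 : κ⁻¹ = 1 := Units.ext h4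
    simpa using h5
  -- all first coordinates
  have hfirst : ∀ a : F, a ≠ 0 → ∃ b : F, tt a b ∈ L := by
    intro a ha
    obtain ⟨k, hk⟩ : ∃ k : F, sg m k = a / a₀ :=
      Finite.surjective_of_injective (f := sg m) (fun x y h => hG.sg_inj h) (a / a₀)
    have hk0 : k ≠ 0 := by
      rintro rfl
      rw [sg_zero] at hk
      exact div_ne_zero ha ha₀ hk.symm
    have h1 : φ (Units.mk0 k hk0) * tt a₀ b₀ * (φ (Units.mk0 k hk0))⁻¹ ∈ L :=
      L.mul_mem (L.mul_mem (hH _) hab₀) (L.inv_mem (hH _))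
    rw [φ_tt, Units.val_mk0, hk, div_mul_cancel₀ _ ha₀] at h1
    exact ⟨_, h1⟩
  have hZ : ∀ c : F, tt 0 c ∈ L := by
    intro c
    obtain ⟨l, hl⟩ := mul_sg_surj hG c
    by_cases hl0 : l = 0
    · subst hl0
      rw [zero_mul] at hl
      subst hl
      have : tt 0 0 = 1 := Subtype.ext (T_zero hG hex)
      rw [this]
      exact L.one_mem
    · obtain ⟨b, hb⟩ := hfirst l hl0
      have h1 := L.mul_mem hb hb
      rw [tt_mul] at h1
      have e1 : l + l = 0 := hG.add_self l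
      have e2 : b + b + sg m l * l = c := by rw [hG.add_self b, zero_add, mul_comm, hl]
      rwa [e1, e2] at h1
  have hU : Usub hG hex ≤ L := by
    rintro u ⟨a, b, hu⟩
    have hu' : u = tt a b := Subtype.ext hu
    rw [hu']
    by_cases ha : a = 0
    · subst ha
      exact hZ b
    · obtain ⟨b', hb'⟩ := hfirst a ha
      have h1 := L.mul_mem (hZ (b + b')) hb'
      rw [tt_mul] at h1
      have e2 : b + b' + b' + sg m 0 * a = b := by
        rw [sg_zero, zero_mul, add_zero, add_assoc, hG.add_self b', add_zero]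
      rwa [zero_add, e2] at h1
  apply eq_top_of_Usub_le hG hex L hU hB
  show (T m 1 0 * w) • Cfsg.suzukiPointInfinity F ≠ Cfsg.suzukiPointInfinity F
  rw [mul_smul, w_infty m, T_from_zero hG]
  exact ppt_ne_infty m 1 0

/-- The Suzuki group over the field with `2^(2m+1)` elements, `m ≥ 1` (realised as the stabiliser in `SL₄` of the Suzuki–Tits ovoid), is generated by two of its elements. -/
theorem result {F : Type*} [Field F] [Fintype F] {m : ℕ} (hm : 1 ≤ m) (hF : Fintype.card F = 2 ^ (2 * m + 1)) :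
    ∃ a b : ↥(Cfsg.Sz F m), Subgroup.closure ({a, b} : Set ↥(Cfsg.Sz F m)) = ⊤ := by
  exact gen_aux (Cfsg.Agent.Lib.Helper29.Sz.good_of_card hF)
    (Cfsg.Agent.Lib.Helper29.Sz.exists_ne_zero_one hm hF)

end Cfsg.Agent.S2410
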