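import Cfsg.Statements.S2416
import Cfsg.Agent.Lib.Helper8.GenN

set_option autoImplicit false
open scoped MatrixGroups
open Cfsg

namespace Cfsg.Agent.S2416

/-- A Chevalley group of type G₂, B₂, D₄, F₄, E₆, E₇ or E₈ over a finite field lies in (indeed equals) the subgroup generated by its monomial subgroup `N` and a single fundamental root subgroup `X_p`, where `p` is a short fundamental root if there are two root lengths (any fundamental root otherwise), provided the characteristic is not 2 for types B₂, F₄ and not 3 for type G₂ (and the field has more than two elements for B₂, G₂). -/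
theorem result {K : Type*} [Field K] [Finite K] (D : Cfsg.Lie.ChevalleyDatum) (hD : D ∈ [Cfsg.Lie.chevG2, Cfsg.Lie.chevB2, Cfsg.Lie.chevD4, Cfsg.Lie.chevF4, Cfsg.Lie.chevE6, Cfsg.Lie.chevE7, Cfsg.Lie.chevE8])
    (hK : D ∈ [Cfsg.Lie.chevB2, Cfsg.Lie.chevG2] → ∃ x : K, x ≠ 0 ∧ x ≠ 1)
    (h2 : D ∈ [Cfsg.Lie.chevB2, Cfsg.Lie.chevF4] → ringChar K ≠ 2) (h3 : D = Cfsg.Lie.chevG2 → ringChar K ≠ 3)
    (i : ℕ) (hi : i < D.rank) (hshort : D.isLong (D.simple i) = false) :
    D.group K ≤ D.monomialSubgroup K ⊔ D.rootSubgroup K (D.simple i) := by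
  have hD' : D ∈ Lib.Helper8.allData := hD
  have h3' : ringChar K ≠ 3 → ∀ m ∈ [3], ((m : ℕ) : K) ≠ 0 := by
    intro h m hm
    rw [List.mem_singleton] at hm
    subst hm
    intro h0
    have h1 := (ringChar.spec K 3).mp h0
    rcases (Nat.dvd_prime Nat.prime_three).mp h1 with h2 | h2
    · exact CharP.ringChar_ne_one h2
    · exact h h2
  have h2' : ringChar K ≠ 2 → ∀ m ∈ [2], ((m : ℕ) : K) ≠ 0 := by
    intro h m hm
    rw [List.mem_singleton] at hm
    subst hm
    intro h0
    have h1 := (ringChar.spec K 2).mp h0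
    rcases (Nat.dvd_prime Nat.prime_two).mp h1 with h2 | h2
    · exact CharP.ringChar_ne_one h2
    · exact h h2
  simp only [List.mem_cons, List.not_mem_nil, or_false] at hD
  rcases hD with rfl | rfl | rfl | rfl | rfl | rfl | rfl
  · exact Lib.Helper8.gen1 hD' (h3' (h3 rfl)) Lib.Helper8.chkGen1_G2 hi hshort
  · exact Lib.Helper8.gen1 hD' (h2' (h2 (by simp))) Lib.Helper8.chkGen1_B2 hi hshort
  · exact Lib.Helper8.gen1 hD' (zs := []) (by simp) Lib.Helper8.chkGen1_D4 hi hshort
  · exact Lib.Helper8.gen1 hD' (h2' (h2 (by simp))) Lib.Helper8.chkGen1_F4 hi hshort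
  · exact Lib.Helper8.gen1 hD' (zs := []) (by simp) Lib.Helper8.chkGen1_E6 hi hshort
  · exact Lib.Helper8.gen1 hD' (zs := []) (by simp) Lib.Helper8.chkGen1_E7 hi hshort
  · exact Lib.Helper8.gen1 hD' (zs := []) (by simp) Lib.Helper8.chkGen1_E8 hi hshort

end Cfsg.Agent.S2416
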