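import Cfsg.Statements.S2420
import Mathlib
import Cfsg.Agent.Lib.Helper6.GLStab

set_option autoImplicit false
open scoped MatrixGroups
open Cfsg

namespace Cfsg.Agent.S2420

open Matrix Cfsg.Agent.Lib.Helper6

variable {n : ℕ}

/-- extension of the composition by zero. -/
def mu' (μ : Fin n → ℕ) (k : ℕ) : ℕ := if h : k < n then μ ⟨k, h⟩ else 0

/-- partial sums. -/
def PS (μ : Fin n → ℕ) (l : ℕ) : ℕ := ∑ k ∈ Finset.range l, mu' μ k

/-- the label as a function on `ℕ`. -/
def cl (μ : Fin n → ℕ) (x : ℕ) : ℕ :=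
  (Finset.univ.filter fun j : Fin n => PS μ (j.val + 1) ≤ x).card

/-- the end of the block of `x`. -/
def Dn (μ : Fin n → ℕ) (x : ℕ) : ℕ := PS μ (cl μ x + 1)

theorem PS_mono (μ : Fin n → ℕ) : Monotone (PS μ) :=
  fun _ _ h => Finset.sum_le_sum_of_subset (Finset.range_mono h)

theorem PS_succ (μ : Fin n → ℕ) (l : ℕ) : PS μ (l + 1) = PS μ l + mu' μ l :=
  Finset.sum_range_succ _ _

theorem mu'_fin (μ : Fin n → ℕ) (i : Fin n) : mu' μ i.val = μ i := by
  simp [mu']

theorem PS_n (μ : Fin n → ℕ) (hμ : ∑ i, μ i = n) : PS μ n = n := by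
  unfold PS
  rw [← Fin.sum_univ_eq_sum_range]
  conv_rhs => rw [← hμ]
  exact Finset.sum_congr rfl fun i _ => mu'_fin μ i

theorem PS_le (μ : Fin n → ℕ) (hμ : ∑ i, μ i = n) (l : ℕ) (hl : l ≤ n + 1) : PS μ l ≤ n := by
  have h1 : PS μ (n + 1) = n := by
    rw [PS_succ, PS_n μ hμ]
    simp [mu']
  calc PS μ l ≤ PS μ (n + 1) := PS_mono μ hl
    _ = n := h1

theorem sum_filter_le (μ : Fin n → ℕ) (j : Fin n) :
    ∑ k ∈ Finset.univ.filter (fun k : Fin n => k ≤ j), μ k = PS μ (j.val + 1) := by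
  unfold PS
  rw [Finset.sum_filter]
  have h1 : ∀ k : Fin n, (if k ≤ j then μ k else 0)
      = (fun t : ℕ => if t ≤ j.val then mu' μ t else 0) k.val := by
    intro k
    simp only [mu'_fin, Fin.le_def]
  rw [Finset.sum_congr rfl fun k _ => h1 k, Fin.sum_univ_eq_sum_range
    (fun t : ℕ => if t ≤ j.val then mu' μ t else 0), ← Finset.sum_filter]
  congr 1
  ext t
  simp only [Finset.mem_filter, Finset.mem_range]
  have := j.2
  omega

theorem compLabel_eq (μ : Fin n → ℕ) (i : Fin n) : Cfsg.compLabel μ i = cl μ i.val := by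
  unfold Cfsg.compLabel cl
  simp only [sum_filter_le]

theorem cl_mono (μ : Fin n → ℕ) : Monotone (cl μ) := by
  intro a b h
  unfold cl
  apply Finset.card_le_card
  intro j hj
  simp only [Finset.mem_filter, Finset.mem_univ, true_and] at hj ⊢
  omega

theorem cl_le (μ : Fin n → ℕ) (x : ℕ) : cl μ x ≤ n := by
  unfold cl
  calc _ ≤ (Finset.univ : Finset (Fin n)).card := Finset.card_filter_le _ _
    _ = n := by simp

theorem Dn_mono (μ : Fin n → ℕ) : Monotone (Dn μ) := by
  intro a b h
  exact PS_mono μ (Nat.succ_le_succ (cl_mono μ h))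

theorem Dn_le (μ : Fin n → ℕ) (hμ : ∑ i, μ i = n) (x : ℕ) : Dn μ x ≤ n :=
  PS_le μ hμ _ (Nat.succ_le_succ (cl_le μ x))

theorem cl_eq (μ : Fin n → ℕ) {l x : ℕ} (hl : l < n) (h1 : PS μ l ≤ x) (h2 : x < PS μ (l + 1)) :
    cl μ x = l := by
  unfold cl
  have : Finset.univ.filter (fun j : Fin n => PS μ (j.val + 1) ≤ x)
      = Finset.univ.filter (fun j : Fin n => j < ⟨l, hl⟩) := by
    ext j
    simp only [Finset.mem_filter, Finset.mem_univ, true_and, Fin.lt_def]
    constructor
    · intro h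
      by_contra hc
      have := PS_mono μ (show l + 1 ≤ j.val + 1 by omega)
      omega
    · intro h
      have := PS_mono μ (show j.val + 1 ≤ l by omega)
      omega
  rw [this, show Finset.univ.filter (fun j : Fin n => j < ⟨l, hl⟩) = Finset.Iio ⟨l, hl⟩ from by
    ext; simp, Fin.card_Iio]

theorem exists_block (μ : Fin n → ℕ) (x : ℕ) : ∀ L : ℕ, x < PS μ L →
    ∃ l < L, PS μ l ≤ x ∧ x < PS μ (l + 1) := by
  intro L
  induction L with
  | zero => intro h; simp [PS] at h
  | succ L ih =>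
    intro h
    by_cases hx : x < PS μ L
    · obtain ⟨l, hl, h1, h2⟩ := ih hx
      exact ⟨l, by omega, h1, h2⟩
    · exact ⟨L, by omega, by omega, h⟩

theorem label_lt_iff (μ : Fin n → ℕ) (hμ : ∑ i, μ i = n) (i j : Fin n) :
    Cfsg.compLabel μ j < Cfsg.compLabel μ i ↔ Dn μ j.val ≤ i.val := by
  rw [compLabel_eq, compLabel_eq]
  obtain ⟨l, hl, h1, h2⟩ := exists_block μ j.val n (by rw [PS_n μ hμ]; exact j.2)
  obtain ⟨l', hl', h1', h2'⟩ := exists_block μ i.val n (by rw [PS_n μ hμ]; exact i.2)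
  unfold Dn
  rw [cl_eq μ hl h1 h2, cl_eq μ hl' h1' h2']
  constructor
  · intro h
    have := PS_mono μ (show l + 1 ≤ l' by omega)
    omega
  · intro h
    by_contra hc
    have := PS_mono μ (show l' + 1 ≤ l + 1 by omega)
    omega

theorem lt_Dn (μ : Fin n → ℕ) (hμ : ∑ i, μ i = n) (x : ℕ) (hx : x < n) : x < Dn μ x := by
  obtain ⟨l, hl, h1, h2⟩ := exists_block μ x n (by rw [PS_n μ hμ]; exact hx)
  unfold Dn
  rw [cl_eq μ hl h1 h2]
  exact h2

theorem prod_Dn (μ : Fin n → ℕ) (φ : ℕ → ℕ) : ∀ L ≤ n,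
    ∏ t ∈ Finset.range (PS μ L), φ (Dn μ t - t)
      = ∏ l ∈ Finset.range L, ∏ j ∈ Finset.range (mu' μ l), φ (j + 1) := by
  intro L
  induction L with
  | zero => intro _; simp [PS]
  | succ L ih =>
    intro hL
    rw [PS_succ, Finset.prod_range_add, ih (by omega), Finset.prod_range_succ]
    congr 1
    rw [← Finset.prod_range_reflect]
    apply Finset.prod_congr rfl
    intro o ho
    rw [Finset.mem_range] at ho
    have h1 : ∀ o' < mu' μ L, Dn μ (PS μ L + o') = PS μ L + mu' μ L := by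
      intro o' ho'
      unfold Dn
      rw [cl_eq μ (show L < n by omega) (by omega) (by rw [PS_succ]; omega), PS_succ]
    rw [h1 _ (by omega)]
    congr 1
    omega

variable {F : Type*} [Field F]

/-- frames adapted to the flag (in reversed order). -/
def AdFr (F : Type*) [Field F] (μ : Fin n → ℕ) (k : ℕ) (c : Fin k → (Fin n → F)) : Prop :=
  LinearIndependent F c ∧ ∀ j : Fin k, c j ∈ coordSub F n (Dn μ (k - 1 - j.val))

/-- peeling off the first vector. -/
def adFrEquiv (F : Type*) [Field F] (μ : Fin n → ℕ) (k : ℕ) :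
    {c : Fin (k + 1) → (Fin n → F) // AdFr F μ (k + 1) c} ≃
      Σ c : {c : Fin k → (Fin n → F) // AdFr F μ k c},
        {v : Fin n → F // v ∈ coordSub F n (Dn μ k) ∧
          v ∉ Submodule.span F (Set.range c.1)} where
  toFun s := ⟨⟨Fin.tail s.1, (linearIndependent_finSucc.mp s.2.1).1, fun j => by
      have := s.2.2 j.succ
      have e : k + 1 - 1 - j.succ.val = k - 1 - j.val := by simp; omega
      rw [e] at this
      exact this⟩,
    ⟨s.1 0, by simpa using s.2.2 0, (linearIndependent_finSucc.mp s.2.1).2⟩⟩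
  invFun p := ⟨Fin.cons p.2.1 p.1.1, linearIndependent_finCons.mpr ⟨p.1.2.1, p.2.2.2⟩, by
      intro j
      refine Fin.cases ?_ (fun j => ?_) j
      · simpa using p.2.2.1
      · have e : k + 1 - 1 - j.succ.val = k - 1 - j.val := by simp; omega
        rw [e, Fin.cons_succ]
        exact p.1.2.2 j⟩
  left_inv _ := by simp only [Fin.cons_self_tail, Subtype.coe_eta]
  right_inv := fun ⟨⟨_, _⟩, ⟨_, _⟩⟩ => rfl

theorem coordSub_mono {a b : ℕ} (h : a ≤ b) : coordSub F n a ≤ coordSub F n b := by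
  intro v hv i hi
  exact hv i (by omega)

theorem card_adExt [Fintype F] (μ : Fin n → ℕ) (hμ : ∑ i, μ i = n) {k : ℕ}
    (c : Fin k → (Fin n → F)) (hc : AdFr F μ k c) :
    Nat.card {v : Fin n → F // v ∈ coordSub F n (Dn μ k) ∧
          v ∉ Submodule.span F (Set.range c)}
      = Fintype.card F ^ (Dn μ k) - Fintype.card F ^ k := by
  classical
  have hUP : ((Submodule.span F (Set.range c) : Submodule F (Fin n → F)) : Set (Fin n → F))
      ⊆ (coordSub F n (Dn μ k) : Set (Fin n → F)) := by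
    have : Submodule.span F (Set.range c) ≤ coordSub F n (Dn μ k) := by
      rw [Submodule.span_le]
      rintro _ ⟨j, rfl⟩
      exact coordSub_mono (Dn_mono μ (by omega)) (hc.2 j)
    exact this
  have hcU : ((Submodule.span F (Set.range c) : Submodule F (Fin n → F)) : Set (Fin n → F)).ncard
      = Fintype.card F ^ k := by
    rw [← Nat.card_coe_set_eq]
    show Nat.card (Submodule.span F (Set.range c)) = _
    rw [Module.natCard_eq_pow_finrank (K := F), finrank_span_eq_card hc.1, Fintype.card_fin,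
      Nat.card_eq_fintype_card]
  have hcP : ((coordSub F n (Dn μ k) : Submodule F (Fin n → F)) : Set (Fin n → F)).ncard
      = Fintype.card F ^ (Dn μ k) := by
    rw [← Nat.card_coe_set_eq]
    show Nat.card (coordSub F n (Dn μ k)) = _
    rw [Module.natCard_eq_pow_finrank (K := F), finrank_coordSub F n _ (Dn_le μ hμ k),
      Nat.card_eq_fintype_card]
  rw [← hcU, ← hcP, ← Set.ncard_sdiff hUP (Set.toFinite _), ← Nat.card_coe_set_eq]
  rfl

theorem card_adFr [Fintype F] (μ : Fin n → ℕ) (hμ : ∑ i, μ i = n) (k : ℕ) :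
    Nat.card {c : Fin k → (Fin n → F) // AdFr F μ k c}
      = ∏ t ∈ Finset.range k, (Fintype.card F ^ (Dn μ t) - Fintype.card F ^ t) := by
  classical
  induction k with
  | zero =>
    rw [Finset.range_zero, Finset.prod_empty, Nat.card_eq_one_iff_unique]
    refine ⟨⟨fun a b => Subtype.ext (funext fun i => i.elim0)⟩,
      ⟨⟨fun i => i.elim0, linearIndependent_empty_type, fun i => i.elim0⟩⟩⟩
  | succ k ih =>
    haveI : Fintype {c : Fin k → (Fin n → F) // AdFr F μ k c} := Fintype.ofFinite _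
    rw [Nat.card_congr (adFrEquiv F μ k), Nat.card_sigma, Finset.prod_range_succ, ← ih,
      Finset.sum_congr rfl (fun c _ => card_adExt μ hμ c.1 c.2), Finset.sum_const, Finset.card_univ,
      smul_eq_mul, Nat.card_eq_fintype_card]

theorem card_parabolic [Fintype F] (μ : Fin n → ℕ) (hμ : ∑ i, μ i = n) :
    Nat.card (Cfsg.parabolicGL n F μ)
      = ∏ t ∈ Finset.range n, (Fintype.card F ^ (Dn μ t) - Fintype.card F ^ t) := by
  classical
  rw [← card_adFr μ hμ n]
  have e1 : ↥(Cfsg.parabolicGL n F μ) ≃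
      {s : {s : Fin n → Fin n → F // LinearIndependent F s} //
        ∀ j : Fin n, s.1 j ∈ coordSub F n (Dn μ j.val)} := by
    refine Equiv.subtypeEquiv (Matrix.equiv_GL_linearindependent n) ?_
    intro g
    constructor
    · intro h j i hi
      exact h ((label_lt_iff μ hμ i j).mpr hi)
    · intro h i j hlt
      exact h j i ((label_lt_iff μ hμ i j).mp hlt)
  have e2 : {s : {s : Fin n → Fin n → F // LinearIndependent F s} //
        ∀ j : Fin n, s.1 j ∈ coordSub F n (Dn μ j.val)} ≃
      {c : Fin n → (Fin n → F) // AdFr F μ n c} :=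
    { toFun := fun s => ⟨s.1.1 ∘ Fin.rev, s.1.2.comp _ Fin.rev_injective, fun j => by
        have := s.2 (Fin.rev j)
        have e : (Fin.rev j).val = n - 1 - j.val := by rw [Fin.val_rev]; omega
        rw [e] at this
        exact this⟩
      invFun := fun c => ⟨⟨c.1 ∘ Fin.rev, c.2.1.comp _ Fin.rev_injective⟩, fun j => by
        have := c.2.2 (Fin.rev j)
        have e : n - 1 - (Fin.rev j).val = j.val := by rw [Fin.val_rev]; have := j.2; omega
        rw [e] at this
        exact this⟩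
      left_inv := fun s => by
        apply Subtype.ext
        apply Subtype.ext
        funext j
        simp
      right_inv := fun c => by
        apply Subtype.ext
        funext j
        simp }
  exact Nat.card_congr (e1.trans e2)

/-- The number of partial flags of a given type: for a composition `μ` of `n` (with `n` parts, zeros allowed) and a field with `q` elements, the index of the standard parabolic subgroup `P_μ` in `GL_n(q)` times `∏_i {μ_i}` equals `{n}`, where `{r}` denotes the product over `k = 1, …, r` of the q-integers `1 + q + ⋯ + q^(k−1)`. -/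
theorem result {F : Type*} [Field F] [Fintype F] {q : ℕ} (hq : Fintype.card F = q) {n : ℕ} (μ : Fin n → ℕ) (hμ : ∑ i, μ i = n) :
    Nat.card (GL (Fin n) F ⧸ Cfsg.parabolicGL n F μ) * ∏ i : Fin n, ∏ j ∈ Finset.range (μ i), ∑ l ∈ Finset.range (j + 1), q ^ l =
      ∏ j ∈ Finset.range n, ∑ l ∈ Finset.range (j + 1), q ^ l := by
  classical
  have hq2 : 2 ≤ q := by rw [← hq]; exact Fintype.one_lt_card
  obtain ⟨x, rfl⟩ : ∃ x, q = x + 1 := ⟨q - 1, by omega⟩
  have hx : 0 < x := by omega
  obtain ⟨G, hG⟩ : ∃ G : ℕ → ℕ, ∀ m, G m = ∑ l ∈ Finset.range m, (x + 1) ^ l := ⟨_, fun _ => rfl⟩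
  have hgeo : ∀ m, G m * x + 1 = (x + 1) ^ m := fun m => by rw [hG]; exact geom_sum_mul_add x m
  have hsub : ∀ a t, t ≤ a → (x + 1) ^ a - (x + 1) ^ t = (x + 1) ^ t * x * G (a - t) := by
    intro a t h
    obtain ⟨d, rfl⟩ := Nat.exists_eq_add_of_le h
    rw [Nat.add_sub_cancel_left, pow_add, ← hgeo d, mul_add, mul_one, Nat.add_sub_cancel]
    ring
  have h1 := (Cfsg.parabolicGL n F μ).index_mul_card
  rw [card_parabolic μ hμ, Matrix.card_GL_field, hq,
    Fin.prod_univ_eq_prod_range (fun i => (x + 1) ^ n - (x + 1) ^ i) n,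
    Finset.prod_congr rfl (fun t ht => hsub (Dn μ t) t
      (lt_Dn μ hμ t (Finset.mem_range.mp ht)).le),
    Finset.prod_congr rfl (fun t ht => hsub n t (Finset.mem_range.mp ht).le)] at h1
  simp only [Finset.prod_mul_distrib] at h1
  have hC : 0 < (∏ t ∈ Finset.range n, (x + 1) ^ t) * ∏ _t ∈ Finset.range n, x :=
    Nat.mul_pos (Finset.prod_pos fun t _ => pow_pos (by omega) _) (Finset.prod_pos fun _ _ => hx)
  have h2 : (Cfsg.parabolicGL n F μ).index * ∏ t ∈ Finset.range n, G (Dn μ t - t)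
      = ∏ t ∈ Finset.range n, G (n - t) := by
    apply Nat.eq_of_mul_eq_mul_left hC
    rw [← h1]; ring
  have h3 := prod_Dn μ G n le_rfl
  rw [PS_n μ hμ] at h3
  have h4 : ∏ l ∈ Finset.range n, ∏ j ∈ Finset.range (mu' μ l), G (j + 1)
      = ∏ i : Fin n, ∏ j ∈ Finset.range (μ i), G (j + 1) := by
    rw [← Fin.prod_univ_eq_prod_range (fun l => ∏ j ∈ Finset.range (mu' μ l), G (j + 1)) n]
    exact Finset.prod_congr rfl (fun i _ => by rw [mu'_fin])
  have h5 : ∏ t ∈ Finset.range n, G (n - t) = ∏ j ∈ Finset.range n, G (j + 1) := by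
    rw [← Finset.prod_range_reflect (fun j => G (j + 1)) n]
    apply Finset.prod_congr rfl
    intro t ht
    rw [Finset.mem_range] at ht
    congr 1
    omega
  simp only [← hG]
  change (Cfsg.parabolicGL n F μ).index * _ = _
  rw [← h4, ← h3, h2, h5]


end Cfsg.Agent.S2420
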