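import Cfsg.Statements.S2428
import Cfsg.Agent.Lib.Helper12.SL2Dicyclic

set_option autoImplicit false
open Cfsg

namespace Cfsg.Agent.S2428

open Matrix Cfsg.Agent.Lib.Helper12
open scoped MatrixGroups

/-- Let F be a finite field with q elements, q odd, and let d be a diagonal element of SL₂ over F whose diagonal entry a has a² ≠ 1 (such d exist exactly when q > 3). Then the centraliser of d is precisely the diagonal subgroup T; the normaliser of T has order 2(q − 1) and exactly (q + 5)/2 conjugacy classes; and every element of that normaliser outside T has square equal to −1. -/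
theorem result {F : Type*} [Field F] [Fintype F] (hodd : Odd (Fintype.card F))
    (d : Matrix.SpecialLinearGroup (Fin 2) F) (hd01 : (d : Matrix (Fin 2) (Fin 2) F) 0 1 = 0) (hd10 : (d : Matrix (Fin 2) (Fin 2) F) 1 0 = 0) (hda : (d : Matrix (Fin 2) (Fin 2) F) 0 0 ^ 2 ≠ 1) :
    (∀ g : Matrix.SpecialLinearGroup (Fin 2) F, g ∈ Subgroup.centralizer ({d} : Set (Matrix.SpecialLinearGroup (Fin 2) F)) ↔ ((g : Matrix (Fin 2) (Fin 2) F) 0 1 = 0 ∧ (g : Matrix (Fin 2) (Fin 2) F) 1 0 = 0)) ∧
    Nat.card (Subgroup.normalizer ((Subgroup.centralizer ({d} : Set (Matrix.SpecialLinearGroup (Fin 2) F))) : Set (Matrix.SpecialLinearGroup (Fin 2) F))) = 2 * (Fintype.card F - 1) ∧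
    Nat.card (ConjClasses (Subgroup.normalizer ((Subgroup.centralizer ({d} : Set (Matrix.SpecialLinearGroup (Fin 2) F))) : Set (Matrix.SpecialLinearGroup (Fin 2) F)))) = (Fintype.card F + 5) / 2 ∧
    ∀ g : Matrix.SpecialLinearGroup (Fin 2) F, g ∈ Subgroup.normalizer ((Subgroup.centralizer ({d} : Set (Matrix.SpecialLinearGroup (Fin 2) F))) : Set (Matrix.SpecialLinearGroup (Fin 2) F)) →
      g ∉ Subgroup.centralizer ({d} : Set (Matrix.SpecialLinearGroup (Fin 2) F)) → ((g * g) : Matrix (Fin 2) (Fin 2) F) = -1 := by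
  classical
  have hodd' : Fintype.card F % 2 = 1 := Nat.odd_iff.mp hodd
  have h2 : (2 : F) ≠ 0 := Cfsg.Agent.Lib.Helper14.SL2.two_ne_zero_of_odd hodd'
  have hdet := sl2_det d
  change (d : Matrix (Fin 2) (Fin 2) F) 0 0 * (d : Matrix (Fin 2) (Fin 2) F) 1 1 -
    (d : Matrix (Fin 2) (Fin 2) F) 0 1 * (d : Matrix (Fin 2) (Fin 2) F) 1 0 = 1 at hdet
  rw [hd01, zero_mul, sub_zero] at hdet
  set a := (d : Matrix (Fin 2) (Fin 2) F) 0 0 with ha
  set b := (d : Matrix (Fin 2) (Fin 2) F) 1 1 with hb
  have htr : (d : Matrix (Fin 2) (Fin 2) F).trace = a + b := Matrix.trace_fin_two _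
  have hne : a - b ≠ 0 := by
    intro h
    apply hda
    have : a = b := sub_eq_zero.mp h
    rw [pow_two]
    nth_rewrite 2 [this]
    exact hdet
  have hroot : a ^ 2 - (d : Matrix (Fin 2) (Fin 2) F).trace * a + 1 = 0 := by
    rw [htr]
    linear_combination -hdet
  have hd4 : (d : Matrix (Fin 2) (Fin 2) F).trace ^ 2 ≠ 4 := by
    rw [htr]
    intro h
    have : (a - b) ^ 2 = 0 := by linear_combination h - 4 * hdet
    exact hne (pow_eq_zero_iff (by norm_num) |>.mp this)
  have hcard := card_centralizer_split d a hroot hda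
  have hq : 2 ≤ Fintype.card F := Fintype.one_lt_card
  refine ⟨?_, ?_, ?_, ?_⟩
  · intro g
    rw [Subgroup.mem_centralizer_singleton_iff]
    constructor
    · intro h
      have e01 := congrArg (fun z : SL(2, F) => z 0 1) h
      have e10 := congrArg (fun z : SL(2, F) => z 1 0) h
      simp only [sl2_mul_01, sl2_mul_10] at e01 e10
      change (g : Matrix (Fin 2) (Fin 2) F) 0 0 * (d : Matrix (Fin 2) (Fin 2) F) 0 1 +
        (g : Matrix (Fin 2) (Fin 2) F) 0 1 * b = a * (g : Matrix (Fin 2) (Fin 2) F) 0 1 +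
        (d : Matrix (Fin 2) (Fin 2) F) 0 1 * (g : Matrix (Fin 2) (Fin 2) F) 1 1 at e01
      change (g : Matrix (Fin 2) (Fin 2) F) 1 0 * a +
        (g : Matrix (Fin 2) (Fin 2) F) 1 1 * (d : Matrix (Fin 2) (Fin 2) F) 1 0 =
        (d : Matrix (Fin 2) (Fin 2) F) 1 0 * (g : Matrix (Fin 2) (Fin 2) F) 0 0 +
        b * (g : Matrix (Fin 2) (Fin 2) F) 1 0 at e10
      rw [hd01] at e01
      rw [hd10] at e10
      constructor
      · have : (g : Matrix (Fin 2) (Fin 2) F) 0 1 * (a - b) = 0 := by linear_combination -e01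
        exact (mul_eq_zero.mp this).resolve_right hne
      · have : (g : Matrix (Fin 2) (Fin 2) F) 1 0 * (a - b) = 0 := by linear_combination e10
        exact (mul_eq_zero.mp this).resolve_right hne
    · rintro ⟨h01, h10⟩
      change g 0 1 = 0 at h01
      change g 1 0 = 0 at h10
      change d 0 1 = 0 at hd01
      change d 1 0 = 0 at hd10
      apply sl2_ext <;>
        simp only [sl2_mul_00, sl2_mul_01, sl2_mul_10, sl2_mul_11, h01, h10, hd01, hd10] <;> ring
  · rw [card_normalizer_centralizer hodd' d hd4, hcard]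
  · have := card_conjClasses_normalizer hodd' d hd4
    rw [hcard] at this
    omega
  · intro g hg hgc
    rcases (mem_normalizer_centralizer_iff h2 d g hd4).mp hg with h | h
    · exfalso
      apply hgc
      rw [Subgroup.mem_centralizer_singleton_iff]
      calc g * d = (g * d * g⁻¹) * g := by group
        _ = d * g := by rw [h]
    · have h3 := sq_eq_neg_one_of_conj_inv h2 d g hd4 h
      have h4 := congrArg (fun z : SL(2, F) => (z : Matrix (Fin 2) (Fin 2) F)) h3
      simpa using h4


end Cfsg.Agent.S2428
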