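import Cfsg.Statements.S2429
import Cfsg.Agent.Lib.Helper12.SL2Dicyclic

set_option autoImplicit false
open Cfsg

namespace Cfsg.Agent.S2429

open Matrix Cfsg.Agent.Lib.Helper12
open scoped MatrixGroups

section
variable {F : Type*} [Field F] [Fintype F]

omit [Fintype F] in
theorem mem_center_of_isScal2' (g : SL(2, F)) (hg : IsScal2 (g : Matrix (Fin 2) (Fin 2) F)) :
    g ∈ Subgroup.center SL(2, F) := by
  obtain ⟨h1, h2, h3⟩ := hg
  apply Matrix.SpecialLinearGroup.mem_center_iff.mpr
  refine ⟨(g : Matrix (Fin 2) (Fin 2) F) 0 0, ?_, ?_⟩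
  · rw [Fintype.card_fin]
    have hd := sl2_det g
    change (g : Matrix (Fin 2) (Fin 2) F) 0 0 * (g : Matrix (Fin 2) (Fin 2) F) 1 1 -
      (g : Matrix (Fin 2) (Fin 2) F) 0 1 * (g : Matrix (Fin 2) (Fin 2) F) 1 0 = 1 at hd
    rw [h1, ← h3] at hd
    linear_combination hd
  · ext i j
    fin_cases i <;> fin_cases j <;> simp [h1, h2, h3]

theorem not_isSquare_disc (h2 : (2 : F) ≠ 0) (t : F) (hroot : ∀ a : F, a ^ 2 - t * a + 1 ≠ 0) :
    ¬ IsSquare (t ^ 2 - 4) := by
  rintro ⟨r, hr⟩
  apply hroot ((t + r) / 2)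
  field_simp
  linear_combination -hr

theorem isSquare_mul_of_not [DecidableEq F] (a b : F) (ha : ¬ IsSquare a) (hb : ¬ IsSquare b) :
    IsSquare (a * b) := by
  have ha0 : a ≠ 0 := by
    rintro rfl
    exact ha (IsSquare.zero)
  have hb0 : b ≠ 0 := by
    rintro rfl
    exact hb (IsSquare.zero)
  rw [← quadraticChar_one_iff_isSquare (mul_ne_zero ha0 hb0), map_mul,
    quadraticChar_neg_one_iff_not_isSquare.mpr ha, quadraticChar_neg_one_iff_not_isSquare.mpr hb]
  norm_num

end

/-- Let F be a finite field with q elements, q odd. Then SL₂ over F contains a cyclic subgroup T′ of order q + 1 (a non-split torus) with the following properties: T′ is its own centraliser, and indeed the centraliser of each element of T′ other than 1 and −1 is exactly T′; every element of SL₂ having no eigenvector in F² is conjugate to an element of T′; the normaliser of T′ has order 2(q + 1) and exactly (q + 7)/2 conjugacy classes; and every element of that normaliser outside T′ has square −1.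 -/
theorem result {F : Type*} [Field F] [Fintype F] (hodd : Odd (Fintype.card F)) :
    ∃ T' : Subgroup (Matrix.SpecialLinearGroup (Fin 2) F), IsCyclic T' ∧ Nat.card T' = Fintype.card F + 1 ∧
      Subgroup.centralizer ((T' : Set (Matrix.SpecialLinearGroup (Fin 2) F))) = T' ∧
      (∀ g : Matrix.SpecialLinearGroup (Fin 2) F, g ∈ T' → (g : Matrix (Fin 2) (Fin 2) F) ≠ 1 → (g : Matrix (Fin 2) (Fin 2) F) ≠ -1 → Subgroup.centralizer ({g} : Set (Matrix.SpecialLinearGroup (Fin 2) F)) = T') ∧
      (∀ g : Matrix.SpecialLinearGroup (Fin 2) F, (∀ (c : F) (v : Fin 2 → F), v ≠ 0 → (g : Matrix (Fin 2) (Fin 2) F).mulVec v ≠ c • v) → ∃ h : Matrix.SpecialLinearGroup (Fin 2) F, h * g * h⁻¹ ∈ T') ∧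
      Nat.card (Subgroup.normalizer (T' : Set (Matrix.SpecialLinearGroup (Fin 2) F))) = 2 * (Fintype.card F + 1) ∧
      Nat.card (ConjClasses (Subgroup.normalizer (T' : Set (Matrix.SpecialLinearGroup (Fin 2) F)))) = (Fintype.card F + 7) / 2 ∧
      ∀ g : Matrix.SpecialLinearGroup (Fin 2) F, g ∈ Subgroup.normalizer (T' : Set (Matrix.SpecialLinearGroup (Fin 2) F)) → g ∉ T' → ((g * g) : Matrix (Fin 2) (Fin 2) F) = -1 := by
  classical
  have hodd' : Fintype.card F % 2 = 1 := Nat.odd_iff.mp hodd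
  have h2 : (2 : F) ≠ 0 := Cfsg.Agent.Lib.Helper14.SL2.two_ne_zero_of_odd hodd'
  obtain ⟨g₀, hroot₀⟩ := exists_no_root (F := F)
  have hno₀ := no_eigen_of_no_root g₀ hroot₀
  have hd₀ := trace_sq_ne_four_of_no_eigen g₀ hno₀ h2
  have hns₀ := not_isScal2_of_trace g₀ hd₀
  obtain ⟨hcyc, hcard⟩ := centralizer_SL2_irred g₀ hno₀
  have hg₀m : g₀ ∈ Subgroup.centralizer ({g₀} : Set SL(2, F)) :=
    Subgroup.mem_centralizer_singleton_iff.mpr rfl
  refine ⟨Subgroup.centralizer ({g₀} : Set SL(2, F)), hcyc, hcard, ?_, ?_, ?_, ?_, ?_, ?_⟩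
  · ext x
    constructor
    · intro hx
      rw [Subgroup.mem_centralizer_singleton_iff]
      exact ((Subgroup.mem_centralizer_iff.mp hx) g₀ hg₀m).symm
    · intro hx
      rw [Subgroup.mem_centralizer_iff]
      intro y hy
      exact comm_of_mem_centralizer g₀ hns₀ y x hy hx
  · intro g hg hg1 hgm1
    have hgns : ¬ IsScal2 (g : Matrix (Fin 2) (Fin 2) F) := by
      intro hs
      rcases (Cfsg.Agent.Lib.Helper27.PSL2.mem_center_iff g).mp (mem_center_of_isScal2' g hs) with h | h
      · apply hg1; rw [h]; rfl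
      · apply hgm1; rw [h]; simp
    have hg₀g : g₀ ∈ Subgroup.centralizer ({g} : Set SL(2, F)) := by
      rw [Subgroup.mem_centralizer_singleton_iff]
      exact (Subgroup.mem_centralizer_singleton_iff.mp hg).symm
    ext x
    constructor
    · intro hx
      rw [Subgroup.mem_centralizer_singleton_iff]
      exact comm_of_mem_centralizer g hgns x g₀ hx hg₀g
    · intro hx
      rw [Subgroup.mem_centralizer_singleton_iff]
      exact comm_of_mem_centralizer g₀ hns₀ x g hx hg
  · intro g hno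
    have hroot : ∀ a : F, a ^ 2 - (g : Matrix (Fin 2) (Fin 2) F).trace * a + 1 ≠ 0 := by
      intro a ha
      obtain ⟨v, hv, hgv⟩ := (exists_eigen_iff g a).mpr ha
      exact hno a v hv hgv
    have hd := trace_sq_ne_four_of_no_eigen g hno h2
    set t := (g : Matrix (Fin 2) (Fin 2) F).trace with ht
    set t₀ := (g₀ : Matrix (Fin 2) (Fin 2) F).trace with ht₀
    obtain ⟨s, hs⟩ := isSquare_mul_of_not _ _ (not_isSquare_disc h2 t hroot)
      (not_isSquare_disc h2 t₀ hroot₀)
    have hD₀ : t₀ ^ 2 - 4 ≠ 0 := sub_ne_zero.mpr hd₀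
    have hdet : (linComb (g₀ : Matrix (Fin 2) (Fin 2) F) ((t - s / (t₀ ^ 2 - 4) * t₀) / 2)
        (s / (t₀ ^ 2 - 4))).det = 1 := by
      rw [det_linComb, g₀.det_coe, one_mul, ← ht₀]
      field_simp
      linear_combination (t₀ ^ 2 - 4) * hs
    have htr : (linComb (g₀ : Matrix (Fin 2) (Fin 2) F) ((t - s / (t₀ ^ 2 - 4) * t₀) / 2)
        (s / (t₀ ^ 2 - 4))).trace = t := by
      rw [trace_linComb, ← ht₀]
      field_simp
      ring
    obtain ⟨h, hh⟩ := isConj_iff.mp (isConj_of_trace_eq hodd' g (⟨_, hdet⟩ : SL(2, F)) htr.symm hd)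
    refine ⟨h, ?_⟩
    rw [hh]
    apply Subgroup.mem_centralizer_singleton_iff.mpr
    apply Subtype.ext
    exact linComb_comm _ _ _
  · rw [card_normalizer_centralizer hodd' g₀ hd₀, hcard]
  · have := card_conjClasses_normalizer hodd' g₀ hd₀
    rw [hcard] at this
    omega
  · intro g hg hgc
    rcases (mem_normalizer_centralizer_iff h2 g₀ g hd₀).mp hg with h | h
    · exfalso
      apply hgc
      rw [Subgroup.mem_centralizer_singleton_iff]
      calc g * g₀ = (g * g₀ * g⁻¹) * g := by group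
        _ = g₀ * g := by rw [h]
    · have h3 := sq_eq_neg_one_of_conj_inv h2 g₀ g hd₀ h
      have h4 := congrArg (fun z : SL(2, F) => (z : Matrix (Fin 2) (Fin 2) F)) h3
      simpa using h4


end Cfsg.Agent.S2429
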