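import Cfsg.Statements.S2430
import Cfsg.Agent.Lib.Helper12.SL2Norm

set_option autoImplicit false
open Cfsg

namespace Cfsg.Agent.S2430

open Matrix Cfsg.Agent.Lib.Helper12
open scoped MatrixGroups

section
variable {F : Type*} [Field F] [Fintype F]

theorem core (hodd : Fintype.card F % 2 = 1) (ℓ : ℕ) [Fact ℓ.Prime] (hℓ : ℓ ≠ 2)
    (P : Sylow ℓ SL(2, F)) (hdiv : ℓ ∣ Fintype.card F - 1 ∨ ℓ ∣ Fintype.card F + 1) :
    ∃ g : SL(2, F), (g : Matrix (Fin 2) (Fin 2) F).trace ^ 2 ≠ 4 ∧
      ℓ ∣ Nat.card (Subgroup.centralizer ({g} : Set SL(2, F))) ∧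
      Subgroup.centralizer ((P : Subgroup SL(2, F)) : Set SL(2, F)) =
        Subgroup.centralizer ({g} : Set SL(2, F)) ∧
      Subgroup.normalizer ((P : Subgroup SL(2, F)) : Set SL(2, F)) =
        Subgroup.normalizer ((Subgroup.centralizer ({g} : Set SL(2, F)) : Subgroup SL(2, F)) :
          Set SL(2, F)) := by
  classical
  have h2 : (2 : F) ≠ 0 := Cfsg.Agent.Lib.Helper14.SL2.two_ne_zero_of_odd hodd
  have hℓp : ℓ.Prime := Fact.out
  obtain ⟨p, hp⟩ := CharP.exists F
  haveI : Fact p.Prime := ⟨CharP.char_is_prime F p⟩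
  have hpp : p.Prime := Fact.out
  have hq : 2 ≤ Fintype.card F := Fintype.one_lt_card
  have hpq : p ∣ Fintype.card F := by
    rw [← CharP.cast_eq_zero_iff F p]
    exact Nat.cast_card_eq_zero F
  have hℓne : ℓ ≠ p := by
    rintro rfl
    rcases hdiv with h | h
    · have h3 : ℓ ∣ Fintype.card F - (Fintype.card F - 1) := Nat.dvd_sub hpq h
      have h4 : Fintype.card F - (Fintype.card F - 1) = 1 := by omega
      rw [h4] at h3
      exact hpp.one_lt.ne' (Nat.dvd_one.mp h3)
    · have h3 : ℓ ∣ Fintype.card F + 1 - Fintype.card F := Nat.dvd_sub h hpq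
      have h4 : Fintype.card F + 1 - Fintype.card F = 1 := by omega
      rw [h4] at h3
      exact hpp.one_lt.ne' (Nat.dvd_one.mp h3)
  have hcard : ℓ ∣ Nat.card SL(2, F) := by
    rw [card_SL2]
    obtain ⟨k, hk⟩ : ∃ k, Fintype.card F = k + 1 := ⟨Fintype.card F - 1, by omega⟩
    have e0 : (k + 1) ^ 2 - 1 = k * (k + 2) := by
      have : (k + 1) ^ 2 = k * (k + 2) + 1 := by ring
      rw [this]; rfl
    rw [hk] at hdiv ⊢
    rw [e0]
    rw [Nat.add_sub_cancel] at hdiv
    rcases hdiv with h | h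
    · exact Dvd.dvd.mul_left (Dvd.dvd.mul_right h _) _
    · exact Dvd.dvd.mul_left (Dvd.dvd.mul_left h _) _
  have hPne : (P : Subgroup SL(2, F)) ≠ ⊥ := P.ne_bot_of_dvd_card hcard
  haveI : Nontrivial (P : Subgroup SL(2, F)) := (Subgroup.nontrivial_iff_ne_bot _).mpr hPne
  haveI := P.isPGroup'.center_nontrivial
  obtain ⟨z, hz⟩ := exists_ne (1 : Subgroup.center (P : Subgroup SL(2, F)))
  set g : SL(2, F) := ((z : (P : Subgroup SL(2, F))) : SL(2, F)) with hg
  have hgP : g ∈ (P : Subgroup SL(2, F)) := (z : (P : Subgroup SL(2, F))).2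
  have hg1 : g ≠ 1 := by
    intro h
    apply hz
    apply Subtype.ext
    apply Subtype.ext
    exact h
  have hgc : ∀ x ∈ (P : Subgroup SL(2, F)), x * g = g * x := by
    intro x hx
    have := Subgroup.mem_center_iff.mp z.2 ⟨x, hx⟩
    exact congrArg Subtype.val this
  obtain ⟨n, hn⟩ := P.isPGroup' ⟨g, hgP⟩
  have hgn : g ^ (ℓ ^ n) = 1 := congrArg Subtype.val hn
  have hd : (g : Matrix (Fin 2) (Fin 2) F).trace ^ 2 ≠ 4 := by
    intro h4
    have ha2 : ((g : Matrix (Fin 2) (Fin 2) F).trace / 2) ^ 2 = 1 := by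
      field_simp
      linear_combination h4
    have hp1 := pow_char_eq_scalar p g _ ha2 (by field_simp)
    have h2p : g ^ (p * 2) = 1 := by
      apply Subtype.ext
      rw [Matrix.SpecialLinearGroup.coe_pow, pow_mul, hp1, smul_pow, one_pow, ← pow_mul, mul_comm,
        pow_mul, ha2, one_pow, one_smul]
      rfl
    have h5 : orderOf g ∣ p * 2 := orderOf_dvd_of_pow_eq_one h2p
    have h6 : orderOf g ∣ ℓ ^ n := orderOf_dvd_of_pow_eq_one hgn
    have hcop : Nat.Coprime (ℓ ^ n) (p * 2) := by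
      apply Nat.Coprime.pow_left
      apply Nat.Coprime.mul_right
      · exact (Nat.coprime_primes hℓp hpp).mpr hℓne
      · exact (Nat.coprime_primes hℓp Nat.prime_two).mpr hℓ
    have h7 : orderOf g ∣ 1 := by
      rw [← hcop]
      exact Nat.dvd_gcd h6 h5
    exact hg1 (orderOf_eq_one_iff.mp (Nat.dvd_one.mp h7))
  have hns := not_isScal2_of_trace g hd
  have hPT : ∀ x ∈ (P : Subgroup SL(2, F)), x ∈ Subgroup.centralizer ({g} : Set SL(2, F)) :=
    fun x hx => Subgroup.mem_centralizer_singleton_iff.mpr (hgc x hx)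
  have hC : Subgroup.centralizer ((P : Subgroup SL(2, F)) : Set SL(2, F)) =
      Subgroup.centralizer ({g} : Set SL(2, F)) := by
    ext x
    constructor
    · intro hx
      rw [Subgroup.mem_centralizer_singleton_iff]
      exact ((Subgroup.mem_centralizer_iff.mp hx) g hgP).symm
    · intro hx
      rw [Subgroup.mem_centralizer_iff]
      intro y hy
      exact comm_of_mem_centralizer g hns y x (hPT y hy) hx
  refine ⟨g, hd, ?_, hC, ?_⟩
  · apply Dvd.dvd.trans _ (orderOf_dvd_card_centralizer g)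
    obtain ⟨m, -, hm⟩ := (Nat.dvd_prime_pow hℓp).mp (orderOf_dvd_of_pow_eq_one hgn)
    rw [hm]
    apply dvd_pow_self
    rintro rfl
    rw [pow_zero] at hm
    exact hg1 (orderOf_eq_one_iff.mp hm)
  · apply le_antisymm
    · apply le_normalizer_of_forall
      intro k hk x hx
      rw [← hC] at hx ⊢
      rw [Subgroup.mem_centralizer_iff] at hx ⊢
      intro y hy
      have hy' : k⁻¹ * y * k⁻¹⁻¹ ∈ (P : Subgroup SL(2, F)) :=
        (Subgroup.mem_normalizer_iff.mp (Subgroup.inv_mem _ hk) y).mp hy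
      have := hx _ hy'
      calc y * (k * x * k⁻¹) = k * ((k⁻¹ * y * k⁻¹⁻¹) * x) * k⁻¹ := by group
        _ = k * (x * (k⁻¹ * y * k⁻¹⁻¹)) * k⁻¹ := by rw [this]
        _ = k * x * k⁻¹ * y := by group
    · apply le_normalizer_of_forall
      intro k hk x hx
      have hxT := (Subgroup.mem_normalizer_iff.mp hk x).mp (hPT x hx)
      obtain ⟨m, hm⟩ := P.isPGroup' ⟨x, hx⟩
      have hxm : x ^ (ℓ ^ m) = 1 := congrArg Subtype.val hm
      apply mem_sylow_of_comm P _ _ m
      · rw [conj_pow, hxm]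
        group
      · intro y hy
        exact comm_of_mem_centralizer g hns y _ (hPT y hy) hxT

theorem two_of_dvd (ℓ q : ℕ) (hq : 1 ≤ q) (h1 : ℓ ∣ q - 1) (h2 : ℓ ∣ q + 1) : ℓ ∣ 2 := by
  have h3 : ℓ ∣ q + 1 - (q - 1) := Nat.dvd_sub h2 h1
  have h4 : q + 1 - (q - 1) = 2 := by omega
  rwa [h4] at h3

end

/-- Let F be a finite field with q elements, q odd, ℓ an odd prime, and P a Sylow ℓ-subgroup of SL₂ over F. If ℓ divides q − 1, the centraliser of P is cyclic of order q − 1 (a split torus) and the normaliser of P has order 2(q − 1); if ℓ divides q + 1, the centraliser of P is cyclic of order q + 1 (a non-split torus) and the normaliser of P has order 2(q + 1). -/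
theorem result {F : Type*} [Field F] [Fintype F] (hodd : Odd (Fintype.card F)) (ℓ : ℕ) [Fact ℓ.Prime] (hℓ : ℓ ≠ 2)
    (P : Sylow ℓ (Matrix.SpecialLinearGroup (Fin 2) F)) :
    (ℓ ∣ Fintype.card F - 1 →
      Nat.card (Subgroup.centralizer ((P : Subgroup (Matrix.SpecialLinearGroup (Fin 2) F)) : Set (Matrix.SpecialLinearGroup (Fin 2) F))) = Fintype.card F - 1 ∧
      IsCyclic (Subgroup.centralizer ((P : Subgroup (Matrix.SpecialLinearGroup (Fin 2) F)) : Set (Matrix.SpecialLinearGroup (Fin 2) F))) ∧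
      Nat.card (Subgroup.normalizer ((P : Subgroup (Matrix.SpecialLinearGroup (Fin 2) F)) : Set (Matrix.SpecialLinearGroup (Fin 2) F))) = 2 * (Fintype.card F - 1)) ∧
    (ℓ ∣ Fintype.card F + 1 →
      Nat.card (Subgroup.centralizer ((P : Subgroup (Matrix.SpecialLinearGroup (Fin 2) F)) : Set (Matrix.SpecialLinearGroup (Fin 2) F))) = Fintype.card F + 1 ∧
      IsCyclic (Subgroup.centralizer ((P : Subgroup (Matrix.SpecialLinearGroup (Fin 2) F)) : Set (Matrix.SpecialLinearGroup (Fin 2) F))) ∧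
      Nat.card (Subgroup.normalizer ((P : Subgroup (Matrix.SpecialLinearGroup (Fin 2) F)) : Set (Matrix.SpecialLinearGroup (Fin 2) F))) = 2 * (Fintype.card F + 1)) := by
  classical
  have hodd' : Fintype.card F % 2 = 1 := Nat.odd_iff.mp hodd
  have hℓp : ℓ.Prime := Fact.out
  have hq : 1 ≤ Fintype.card F := Fintype.card_pos
  have hno2 : ¬ ℓ ∣ 2 := by
    intro h
    exact hℓ ((Nat.prime_dvd_prime_iff_eq hℓp Nat.prime_two).mp h)
  constructor
  · intro hdiv
    obtain ⟨g, hd, hℓg, hC, hN⟩ := core hodd' ℓ hℓ P (Or.inl hdiv)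
    rw [hC, hN, card_normalizer_centralizer hodd' g hd]
    by_cases hroot : ∃ a : F, a ^ 2 - (g : Matrix (Fin 2) (Fin 2) F).trace * a + 1 = 0
    · obtain ⟨a, ha⟩ := hroot
      have ha2 : a ^ 2 ≠ 1 := by
        intro h
        apply hd
        obtain ⟨ha0, hta⟩ := trace_eq_of_root ha
        rw [hta]
        field_simp
        linear_combination (a ^ 2 - 1) * h
      rw [card_centralizer_split g a ha ha2]
      exact ⟨rfl, isCyclic_centralizer_split g a ha ha2, rfl⟩
    · push Not at hroot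
      exfalso
      rw [(centralizer_SL2_irred g (no_eigen_of_no_root g hroot)).2] at hℓg
      exact hno2 (two_of_dvd ℓ _ hq hdiv hℓg)
  · intro hdiv
    obtain ⟨g, hd, hℓg, hC, hN⟩ := core hodd' ℓ hℓ P (Or.inr hdiv)
    rw [hC, hN, card_normalizer_centralizer hodd' g hd]
    by_cases hroot : ∃ a : F, a ^ 2 - (g : Matrix (Fin 2) (Fin 2) F).trace * a + 1 = 0
    · obtain ⟨a, ha⟩ := hroot
      have ha2 : a ^ 2 ≠ 1 := by
        intro h
        apply hd
        obtain ⟨ha0, hta⟩ := trace_eq_of_root ha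
        rw [hta]
        field_simp
        linear_combination (a ^ 2 - 1) * h
      exfalso
      rw [card_centralizer_split g a ha ha2] at hℓg
      exact hno2 (two_of_dvd ℓ _ hq hℓg hdiv)
    · push Not at hroot
      obtain ⟨h1, h3⟩ := centralizer_SL2_irred g (no_eigen_of_no_root g hroot)
      rw [h3]
      exact ⟨rfl, h1, rfl⟩


end Cfsg.Agent.S2430
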