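import Cfsg.Statements.S2433
import Cfsg.Agent.Lib.Helper2.SL2x

set_option autoImplicit false
open Cfsg

namespace Cfsg.Agent.S2433

open Cfsg.Agent.Lib.Helper2

/-- Let F be a finite field with q elements, q odd, α a multiplicative character of F, and R(α) the function on SL₂ induced from the linear character b ↦ α(b₁₁) of the upper triangular subgroup. Then R(α) takes the value α(a) + α(a⁻¹) at a diagonal element with entries a, a⁻¹, a² ≠ 1; the value 0 at every element with no eigenvector in F²; the value α(ε) at an upper triangular element with both diagonal entries ε and non-zero upper right entry; and the value (q + 1)α(ε) at the scalar element ε (ε = ±1). -/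
theorem result {F : Type*} [Field F] [Fintype F] [DecidableEq F] (hodd : Odd (Fintype.card F)) (α : MulChar F ℂ) (g : Matrix.SpecialLinearGroup (Fin 2) F) :
    ((g : Matrix (Fin 2) (Fin 2) F) 0 1 = 0 → (g : Matrix (Fin 2) (Fin 2) F) 1 0 = 0 → (g : Matrix (Fin 2) (Fin 2) F) 0 0 ^ 2 ≠ 1 →
      (Cfsg.indFun ((Cfsg.upperTriangularGL 2 F).comap Matrix.SpecialLinearGroup.toGL) (fun b => α (((b : Matrix.SpecialLinearGroup (Fin 2) F) : Matrix (Fin 2) (Fin 2) F) 0 0))) g = α ((g : Matrix (Fin 2) (Fin 2) F) 0 0) + α ((g : Matrix (Fin 2) (Fin 2) F) 1 1)) ∧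
    ((∀ (c : F) (v : Fin 2 → F), v ≠ 0 → (g : Matrix (Fin 2) (Fin 2) F).mulVec v ≠ c • v) → (Cfsg.indFun ((Cfsg.upperTriangularGL 2 F).comap Matrix.SpecialLinearGroup.toGL) (fun b => α (((b : Matrix.SpecialLinearGroup (Fin 2) F) : Matrix (Fin 2) (Fin 2) F) 0 0))) g = 0) ∧
    ((g : Matrix (Fin 2) (Fin 2) F) 1 0 = 0 → (g : Matrix (Fin 2) (Fin 2) F) 0 0 = (g : Matrix (Fin 2) (Fin 2) F) 1 1 → (g : Matrix (Fin 2) (Fin 2) F) 0 1 ≠ 0 →
      (Cfsg.indFun ((Cfsg.upperTriangularGL 2 F).comap Matrix.SpecialLinearGroup.toGL) (fun b => α (((b : Matrix.SpecialLinearGroup (Fin 2) F) : Matrix (Fin 2) (Fin 2) F) 0 0))) g = α ((g : Matrix (Fin 2) (Fin 2) F) 0 0)) ∧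
    ((g : Matrix (Fin 2) (Fin 2) F) 0 1 = 0 → (g : Matrix (Fin 2) (Fin 2) F) 1 0 = 0 → (g : Matrix (Fin 2) (Fin 2) F) 0 0 = (g : Matrix (Fin 2) (Fin 2) F) 1 1 →
      (Cfsg.indFun ((Cfsg.upperTriangularGL 2 F).comap Matrix.SpecialLinearGroup.toGL) (fun b => α (((b : Matrix.SpecialLinearGroup (Fin 2) F) : Matrix (Fin 2) (Fin 2) F) 0 0))) g = ((Fintype.card F : ℂ) + 1) * α ((g : Matrix (Fin 2) (Fin 2) F) 0 0)) := by
  have hres : SL2r.res (GL2.II α 1) = Cfsg.indFun _ (SL2c.lam1 α) := by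
    have := SL2r.res_II α 1
    simpa using this
  have hval : (Cfsg.indFun ((Cfsg.upperTriangularGL 2 F).comap Matrix.SpecialLinearGroup.toGL)
      (fun b => α (((b : Matrix.SpecialLinearGroup (Fin 2) F) : Matrix (Fin 2) (Fin 2) F) 0 0))) g =
      GL2.II α 1 (Matrix.SpecialLinearGroup.toGL g) := by
    show Cfsg.indFun _ (SL2c.lam1 α) g = _
    rw [← hres]; rfl
  rw [hval]
  have hdet : (g : Matrix (Fin 2) (Fin 2) F).det = 1 := g.2
  haveI : Fintype (MulChar F ℂ) := Fintype.ofFinite _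
  refine ⟨fun h01 h10 hne => ?_, fun hg => GL2.II_elliptic α 1 _ hg, fun h10 h00 h01 => ?_,
    fun h01 h10 h00 => ?_⟩
  · obtain ⟨a, d, ha, hd, hgl⟩ := GL2.eq_bmk_of_diag (Matrix.SpecialLinearGroup.toGL g) h01 h10
    have ha' : (a : F) = (g : Matrix (Fin 2) (Fin 2) F) 0 0 := ha
    have hd' : (d : F) = (g : Matrix (Fin 2) (Fin 2) F) 1 1 := hd
    have had1 : (a : F) * d = 1 := by
      rw [Matrix.det_fin_two, h01, zero_mul, sub_zero, ← ha', ← hd'] at hdet
      exact hdet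
    have had : a ≠ d := by
      intro h
      apply hne
      rw [← ha', sq]
      rw [← h] at had1
      exact had1
    rw [hgl, GL2.val_split (IsCharacter.isClassFunction (GL2.II_isCharacter α 1)) a d had,
      GL2.sum_inner_II (fun x y => x (a : F) * y (d : F)), MulChar.one_apply_coe,
      MulChar.one_apply_coe, ← ha', ← hd']
    ring
  · obtain ⟨n0, n1⟩ := GL2.bor_diag_ne ⟨Matrix.SpecialLinearGroup.toGL g,
      (GL2.mem_bor _).2 h10⟩
    have hgl : Matrix.SpecialLinearGroup.toGL g = GL2.bmk (Units.mk0 _ n0) (Units.mk0 _ n0)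
        ((g : Matrix (Fin 2) (Fin 2) F) 0 1) := by
      apply Units.ext
      rw [GL2.bmk_coe]
      ext i j
      fin_cases i <;> fin_cases j <;> simp [h10, h00]
    rw [hgl, SL2r.II_zu α 1 _ _ h01, MulChar.one_apply_coe, mul_one]
    rfl
  · obtain ⟨n0, n1⟩ := GL2.bor_diag_ne ⟨Matrix.SpecialLinearGroup.toGL g,
      (GL2.mem_bor _).2 h10⟩
    have hgl : Matrix.SpecialLinearGroup.toGL g = GL2.bmk (Units.mk0 _ n0) (Units.mk0 _ n0) 0 := by
      apply Units.ext
      rw [GL2.bmk_coe]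
      ext i j
      fin_cases i <;> fin_cases j <;> simp [h10, h00, h01]
    rw [hgl, SL2r.II_scalar α 1, MulChar.one_apply_coe, mul_one]
    rfl

end Cfsg.Agent.S2433
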