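import Cfsg.Statements.S2437
import Cfsg.Agent.Lib.Helper2.SL2y

set_option autoImplicit false
open Cfsg

namespace Cfsg.Agent.S2437

open Cfsg.Agent.Lib.Helper2
theorem comm_iff {F : Type*} [Field F] (a a' : Fˣ) (c c' : F) :
    SL2c.smk a c * SL2c.smk a' c' = SL2c.smk a' c' * SL2c.smk a c ↔
      c' * ((a : F) - ((a⁻¹ : Fˣ) : F)) = c * ((a' : F) - ((a'⁻¹ : Fˣ) : F)) := by
  constructor
  · intro h
    have h1 := congrArg (fun g : Matrix.SpecialLinearGroup (Fin 2) F =>
      (g : Matrix (Fin 2) (Fin 2) F) 0 1) h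
    simp only [Matrix.SpecialLinearGroup.coe_mul, SL2c.smk_coe, Matrix.mul_apply,
      Fin.sum_univ_two] at h1
    simp at h1
    rw [Units.val_inv_eq_inv_val, Units.val_inv_eq_inv_val]
    linear_combination h1
  · intro h
    apply Subtype.ext
    rw [Matrix.SpecialLinearGroup.coe_mul, Matrix.SpecialLinearGroup.coe_mul, SL2c.smk_coe,
      SL2c.smk_coe]
    ext i j
    fin_cases i <;> fin_cases j <;> simp [Matrix.mul_apply, Fin.sum_univ_two, mul_comm]
    rw [Units.val_inv_eq_inv_val, Units.val_inv_eq_inv_val] at h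
    linear_combination h

theorem s_zero_iff {F : Type*} [Field F] (a : Fˣ) :
    (a : F) - ((a⁻¹ : Fˣ) : F) = 0 ↔ a = 1 ∨ a = -1 := by
  constructor
  · intro h
    have h4 : (a : F) * ((a⁻¹ : Fˣ) : F) = 1 := by simp
    have h6 : (a : F) * a = 1 := by linear_combination (a : F) * h + h4
    rcases mul_self_eq_one_iff.1 h6 with h | h
    · exact Or.inl (Units.ext h)
    · exact Or.inr (Units.ext (by simpa using h))
  · rintro (rfl | rfl) <;> simp

/-- Over a finite field F with q elements, q odd, the upper triangular subgroup of SL₂ (a Borel subgroup, of order q(q − 1)) has exactly q + 3 conjugacy classes. -/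
theorem result {F : Type*} [Field F] [Fintype F] (hodd : Odd (Fintype.card F)) :
    Nat.card (ConjClasses ((Cfsg.upperTriangularGL 2 F).comap Matrix.SpecialLinearGroup.toGL)) = Fintype.card F + 3 := by
  classical
  have hodd' : Fintype.card F % 2 = 1 := Nat.odd_iff.1 hodd
  have h2F : (2 : F) ≠ 0 := Cfsg.Agent.Lib.Helper14.SL2.two_ne_zero_of_odd hodd'
  have hne1 : (1 : Fˣ) ≠ -1 := by
    intro h
    have h3 : (1 : F) = -1 := by simpa using congrArg Units.val h
    exact h2F (by linear_combination h3)
  set q := Fintype.card F with hq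
  have hq3 : 3 ≤ q := by
    have : 1 < q := Fintype.one_lt_card
    omega
  set s : Fˣ → F := fun a => (a : F) - ((a⁻¹ : Fˣ) : F) with hs
  have hU : Fintype.card Fˣ = q - 1 := Fintype.card_units F
  have hZ : (Finset.univ.filter (fun a : Fˣ => s a = 0)).card = 2 := by
    have : Finset.univ.filter (fun a : Fˣ => s a = 0) = {1, -1} := by
      ext a
      simp only [Finset.mem_filter, Finset.mem_univ, true_and, Finset.mem_insert,
        Finset.mem_singleton]
      exact s_zero_iff a
    rw [this, Finset.card_pair hne1]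
  have hmain := card_comm_eq_card_conjClasses_mul_card
    (↥((Cfsg.upperTriangularGL 2 F).comap Matrix.SpecialLinearGroup.toGL))
  have hB : Nat.card (↥((Cfsg.upperTriangularGL 2 F).comap Matrix.SpecialLinearGroup.toGL)) =
      (q - 1) * q := by
    rw [Nat.card_congr (SL2c.sEquiv (F := F)).symm, Nat.card_prod, Nat.card_eq_fintype_card,
      Nat.card_eq_fintype_card, hU]
  have hN : Nat.card {p : (↥((Cfsg.upperTriangularGL 2 F).comap Matrix.SpecialLinearGroup.toGL)) ×
      (↥((Cfsg.upperTriangularGL 2 F).comap Matrix.SpecialLinearGroup.toGL)) //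
      Commute p.1 p.2} =
      ∑ x : Fˣ × F, ∑ y : Fˣ × F, if y.2 * s x.1 = x.2 * s y.1 then 1 else 0 := by
    rw [← Nat.card_congr ((Equiv.prodCongr (SL2c.sEquiv (F := F)) (SL2c.sEquiv (F := F))).subtypeEquiv
      (p := fun p : (Fˣ × F) × (Fˣ × F) => p.2.2 * s p.1.1 = p.1.2 * s p.2.1) (fun p => by
        rw [commute_iff_eq, Subtype.ext_iff]
        simp only [Equiv.prodCongr_apply, Prod.map_fst, Prod.map_snd, Subgroup.coe_mul,
          SL2c.sEquiv_coe]
        exact (comm_iff _ _ _ _).symm)),
      Nat.card_eq_fintype_card, Fintype.card_subtype, Finset.card_filter, Fintype.sum_prod_type]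
  have hf : ∀ (a : Fˣ) (c : F), (∑ y : Fˣ × F, if y.2 * s a = c * s y.1 then 1 else 0) =
      if s a = 0 then (if c = 0 then (q - 1) * q else 2 * q) else q - 1 := by
    intro a c
    rw [Fintype.sum_prod_type]
    split_ifs with h1 h2
    · simp [h1, h2, hU, hq]
    · have : ∀ a' : Fˣ, (∑ c' : F, if c' * s a = c * s a' then 1 else 0) =
          if s a' = 0 then q else 0 := by
        intro a'
        by_cases h3 : s a' = 0
        · simp [h1, h3, hq]
        · have : ¬ (0 = c * s a') := fun h => (mul_ne_zero h2 h3) h.symm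
          simp [h1, h3, this]
      simp only [this]
      rw [← Finset.sum_filter, Finset.sum_const, hZ, smul_eq_mul]
    · have : ∀ a' : Fˣ, (∑ c' : F, if c' * s a = c * s a' then 1 else 0) = 1 := by
        intro a'
        have e : ∀ c' : F, (c' * s a = c * s a') ↔ c' = c * s a' / s a := fun c' =>
          (eq_div_iff h1).symm
        simp only [e]
        rw [Finset.sum_ite_eq' Finset.univ _ (fun _ => 1), if_pos (Finset.mem_univ _)]
      simp only [this]
      rw [Finset.sum_const, Finset.card_univ, hU, smul_eq_mul, mul_one]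
  have hg : ∀ a : Fˣ, (∑ c : F, ∑ y : Fˣ × F, if y.2 * s a = c * s y.1 then 1 else 0) =
      if s a = 0 then (q - 1) * q + (q - 1) * (2 * q) else q * (q - 1) := by
    intro a
    simp only [hf]
    split_ifs with h1
    · rw [← Finset.add_sum_erase Finset.univ _ (Finset.mem_univ (0 : F)), if_pos rfl]
      congr 1
      rw [Finset.sum_congr rfl (fun c hc => if_neg (Finset.ne_of_mem_erase hc)), Finset.sum_const,
        Finset.card_erase_of_mem (Finset.mem_univ _), Finset.card_univ, smul_eq_mul]
    · rw [Finset.sum_const, Finset.card_univ, smul_eq_mul]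
  have htot : (∑ x : Fˣ × F, ∑ y : Fˣ × F, if y.2 * s x.1 = x.2 * s y.1 then 1 else 0) =
      2 * ((q - 1) * q + (q - 1) * (2 * q)) + (q - 1 - 2) * (q * (q - 1)) := by
    rw [Fintype.sum_prod_type]
    simp only [hg]
    rw [Finset.sum_ite, Finset.sum_const, Finset.sum_const, hZ, smul_eq_mul, smul_eq_mul]
    congr 2
    have := Finset.card_filter_add_card_filter_not (s := (Finset.univ : Finset Fˣ))
      (fun a : Fˣ => s a = 0)
    rw [hZ, Finset.card_univ, hU] at this
    omega
  rw [hN, htot, hB] at hmain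
  obtain ⟨k, hk⟩ : ∃ k, q = k + 3 := ⟨q - 3, by omega⟩
  rw [hk] at hmain ⊢
  have e1 : k + 3 - 1 = k + 2 := by omega
  have e2 : k + 2 - 2 = k := by omega
  rw [e1, e2] at hmain
  have hpos : 0 < (k + 2) * (k + 3) := by positivity
  apply Nat.eq_of_mul_eq_mul_right hpos
  rw [← hmain]
  ring

end Cfsg.Agent.S2437
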