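import Cfsg.Statements.S2438
import Cfsg.Agent.Lib.Helper2.SL2x
import Cfsg.Agent.S2310
import Cfsg.Agent.S2298

set_option autoImplicit false
open Cfsg

namespace Cfsg.Agent.S2438

open Cfsg.Agent.Lib.Helper2
theorem sum_filter_U {F : Type*} [Field F] [Fintype F] [DecidableEq F]
    (χ : Matrix.SpecialLinearGroup (Fin 2) F → ℂ) :
    (∑ g : Matrix.SpecialLinearGroup (Fin 2) F, if (g : Matrix (Fin 2) (Fin 2) F) 1 0 = 0 ∧
      (g : Matrix (Fin 2) (Fin 2) F) 0 0 = 1 ∧ (g : Matrix (Fin 2) (Fin 2) F) 1 1 = 1 then χ g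
      else 0) = ∑ c : F, χ (SL2c.smk 1 c) := by
  rw [← Finset.sum_filter]
  symm
  refine Finset.sum_bij (fun c _ => SL2c.smk 1 c) ?_ ?_ ?_ ?_
  · intro c _
    rw [Finset.mem_filter]
    refine ⟨Finset.mem_univ _, ?_⟩
    simp [SL2c.smk_coe]
  · intro a _ b _ h
    have := congrArg (fun g : Matrix.SpecialLinearGroup (Fin 2) F =>
      (g : Matrix (Fin 2) (Fin 2) F) 0 1) h
    simpa [SL2c.smk_coe] using this
  · intro g hg
    obtain ⟨_, h10, h00, h11⟩ := Finset.mem_filter.1 hg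
    refine ⟨(g : Matrix (Fin 2) (Fin 2) F) 0 1, Finset.mem_univ _, ?_⟩
    apply Subtype.ext
    rw [SL2c.smk_coe]
    ext i j
    fin_cases i <;> fin_cases j <;> simp [h10, h00, h11]
  · intro c _; rfl

/-- Let F be a finite field with q elements, q odd, q ≥ 5, U the upper unitriangular subgroup of SL₂ over F, and χ an irreducible complex character. The sum of the values of χ over U equals 2q, q, 0, q, 0 according as the degree of χ is q + 1, q, q − 1, (q + 1)/2, (q − 1)/2; so among these five degrees the sum vanishes exactly for the degrees q − 1 and (q − 1)/2, i.e. the irreducible characters of those two degrees are the ones whose restriction to U does not contain the trivial character (the cuspidal characters), while those of degree q + 1, q and (q + 1)/2 are not cuspidal. -/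
theorem result {F : Type*} [Field F] [Fintype F] [DecidableEq F] (hodd : Odd (Fintype.card F)) (hq : 5 ≤ Fintype.card F)
    (χ : Matrix.SpecialLinearGroup (Fin 2) F → ℂ) (hχ : Cfsg.IsIrrCharacter (Matrix.SpecialLinearGroup (Fin 2) F) χ) :
    (χ 1 = (Fintype.card F : ℂ) + 1 →
      (∑ g : Matrix.SpecialLinearGroup (Fin 2) F, if (g : Matrix (Fin 2) (Fin 2) F) 1 0 = 0 ∧ (g : Matrix (Fin 2) (Fin 2) F) 0 0 = 1 ∧ (g : Matrix (Fin 2) (Fin 2) F) 1 1 = 1 then χ g else 0) = 2 * (Fintype.card F : ℂ)) ∧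
    (χ 1 = (Fintype.card F : ℂ) →
      (∑ g : Matrix.SpecialLinearGroup (Fin 2) F, if (g : Matrix (Fin 2) (Fin 2) F) 1 0 = 0 ∧ (g : Matrix (Fin 2) (Fin 2) F) 0 0 = 1 ∧ (g : Matrix (Fin 2) (Fin 2) F) 1 1 = 1 then χ g else 0) = (Fintype.card F : ℂ)) ∧
    (χ 1 = (Fintype.card F : ℂ) - 1 →
      (∑ g : Matrix.SpecialLinearGroup (Fin 2) F, if (g : Matrix (Fin 2) (Fin 2) F) 1 0 = 0 ∧ (g : Matrix (Fin 2) (Fin 2) F) 0 0 = 1 ∧ (g : Matrix (Fin 2) (Fin 2) F) 1 1 = 1 then χ g else 0) = 0) ∧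
    (χ 1 = (((Fintype.card F + 1) / 2 : ℕ) : ℂ) →
      (∑ g : Matrix.SpecialLinearGroup (Fin 2) F, if (g : Matrix (Fin 2) (Fin 2) F) 1 0 = 0 ∧ (g : Matrix (Fin 2) (Fin 2) F) 0 0 = 1 ∧ (g : Matrix (Fin 2) (Fin 2) F) 1 1 = 1 then χ g else 0) = (Fintype.card F : ℂ)) ∧
    (χ 1 = (((Fintype.card F - 1) / 2 : ℕ) : ℂ) →
      (∑ g : Matrix.SpecialLinearGroup (Fin 2) F, if (g : Matrix (Fin 2) (Fin 2) F) 1 0 = 0 ∧ (g : Matrix (Fin 2) (Fin 2) F) 0 0 = 1 ∧ (g : Matrix (Fin 2) (Fin 2) F) 1 1 = 1 then χ g else 0) = 0) := by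
  have key : ∀ a b : ℕ, (a : ℂ) = b → a = b := fun a b h => by exact_mod_cast h
  obtain ⟨k, hk⟩ := hodd
  have e1 : (Fintype.card F + 1) / 2 = k + 1 := by omega
  have e2 : (Fintype.card F - 1) / 2 = k := by omega
  simp only [sum_filter_U]
  have hU : ∀ ψ : Matrix.GeneralLinearGroup (Fin 2) F → ℂ, Cfsg.IsIrrCharacter _ ψ →
      ∑ c : F, ψ (GL2.bmk 1 1 c) = ψ 1 + ((Fintype.card F : ℂ) - 1) * ψ (GL2.bmk 1 1 1) := by
    intro ψ hψ
    have := SL2r.sumU (IsCharacter.isClassFunction (IsIrrCharacter.isCharacter hψ)) 1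
    rwa [GL2.bmk_one] at this
  obtain ⟨ψ, hψ, h | ⟨χ', hχ', hne, heq, x, hx⟩⟩ := SL2r.classify_sl hχ
  all_goals
    have h3 := Cfsg.Agent.S2310.result (by omega) ψ hψ (GL2.bmk 1 1 1)
      (by rw [GL2.bmk_coe]; simp)
    have hdeg := (Cfsg.Agent.S2298.result (F := F)).1 ψ hψ
    have hnat : ∀ m : ℕ, ψ 1 = (m : ℂ) → (m = 1 ∨ m + 1 = Fintype.card F ∨ m = Fintype.card F ∨
        m = Fintype.card F + 1) := by
      intro m hm
      rcases hdeg with h | h | h | h
      · left; exact key m 1 (by rw [← hm, h]; simp)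
      · right; left; exact key (m + 1) _ (by push_cast; rw [← hm, h]; ring)
      · right; right; left; exact key m _ (by rw [← hm, h])
      · right; right; right; exact key m _ (by push_cast; rw [← hm, h])
  · have h1 : χ 1 = ψ 1 := by rw [← h, SL2r.res_one]
    have h2 : ∑ c : F, χ (SL2c.smk 1 c) = ∑ c : F, ψ (GL2.bmk 1 1 c) := by
      rw [← h]
      refine Finset.sum_congr rfl fun c _ => ?_
      simp only [SL2r.res, SL2c.toGL_smk, inv_one]
    rw [h2, hU ψ hψ, h1]
    refine ⟨fun hd => ?_, fun hd => ?_, fun hd => ?_, fun hd => ?_, fun hd => ?_⟩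
    · rw [hd, h3.2.1 hd]; ring
    · rw [hd, h3.2.2.2 hd]; ring
    · rw [hd, h3.2.2.1 hd]; ring
    · exfalso
      have := hnat _ hd
      omega
    · exfalso
      have := hnat _ hd
      omega
  · have h1 : χ' 1 = χ 1 := hx 1 1 (by simp)
    have h2 : ψ 1 = 2 * χ 1 := by
      have := congrFun heq 1
      rw [SL2r.res_one, Pi.add_apply, h1] at this
      rw [this]; ring
    obtain ⟨d, hd⟩ := SL2r.conj_smk (IsCharacter.isClassFunction (IsIrrCharacter.isCharacter hχ'))
      x hx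
    have hA : ∑ c : F, χ' (SL2c.smk 1 c) = ∑ c : F, χ (SL2c.smk 1 c) := by
      rw [← Equiv.sum_comp (Equiv.mulLeft₀ (d : F) d.ne_zero) (fun c => χ' (SL2c.smk 1 c))]
      exact Finset.sum_congr rfl fun c _ => hd 1 c
    have hS : 2 * ∑ c : F, χ (SL2c.smk 1 c) = ∑ c : F, ψ (GL2.bmk 1 1 c) := by
      have h4 : ∀ c : F, ψ (GL2.bmk 1 1 c) = χ (SL2c.smk 1 c) + χ' (SL2c.smk 1 c) := by
        intro c
        have := congrFun heq (SL2c.smk 1 c)
        simp only [SL2r.res, SL2c.toGL_smk, inv_one, Pi.add_apply] at this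
        exact this
      rw [Finset.sum_congr rfl fun c _ => h4 c, Finset.sum_add_distrib, hA]; ring
    rw [hU ψ hψ] at hS
    refine ⟨fun hd => ?_, fun hd => ?_, fun hd => ?_, fun hd => ?_, fun hd => ?_⟩
    · exfalso
      have := hnat (2 * Fintype.card F + 2) (by rw [h2, hd]; push_cast; ring)
      omega
    · exfalso
      have := hnat (2 * Fintype.card F) (by rw [h2, hd]; push_cast; ring)
      omega
    · exfalso
      have := hnat (2 * Fintype.card F - 2) (by
        rw [h2, hd, Nat.cast_sub (by omega)]; push_cast; ring)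
      omega
    · have h5 : ψ 1 = (Fintype.card F : ℂ) + 1 := by
        rw [h2, hd, e1, hk]; push_cast; ring
      rw [h5, h3.2.1 h5] at hS
      linear_combination hS / 2
    · have h5 : ψ 1 = (Fintype.card F : ℂ) - 1 := by
        rw [h2, hd, e2, hk]; push_cast; ring
      rw [h5, h3.2.2.1 h5] at hS
      linear_combination hS / 2

end Cfsg.Agent.S2438
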