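import Cfsg.Statements.S2532
-- import your own Cfsg.Agent.* helpers here
import Mathlib

set_option autoImplicit false
open Cfsg

namespace Cfsg.Agent.S2532


open Equiv.Perm in
/-- the diagonal embedding of `Perm β` into `Perm (α × β)` -/
def pr (α β : Type) : Equiv.Perm β →* Equiv.Perm (α × β) where
  toFun σ := Equiv.prodCongrRight (fun _ => σ)
  map_one' := by ext ⟨a, b⟩ <;> rfl
  map_mul' σ τ := by ext ⟨a, b⟩ <;> rfl

theorem pr_apply (α β : Type) (σ : Equiv.Perm β) (a : α) (b : β) :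
    pr α β σ (a, b) = (a, σ b) := rfl

theorem pr_inj (α β : Type) [Nonempty α] : Function.Injective (pr α β) := by
  intro σ τ h
  obtain ⟨a⟩ := ‹Nonempty α›
  ext b
  have := congrArg (fun f : Equiv.Perm (α × β) => (f (a, b)).2) h
  simpa [pr_apply] using this

theorem points {X : Type} [Fintype X] [DecidableEq X] (H : Subgroup (Equiv.Perm X)) (r : ℕ)
    (hm : Nat.card H * 2 ^ Nat.card H * r ≤ Nat.card X) :
    ∃ x : Fin r → X, (∀ i j, ∀ h ∈ H, h (x i) = x j → i = j) ∧
      (∀ i j, ∀ h ∈ H, h (x i) = x i → h (x j) = x j) := by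
  classical
  let Ω := MulAction.orbitRel.Quotient H X
  let rep : Ω → X := Quotient.out
  let st : Ω → Set H := fun ω => {h : H | (h : Equiv.Perm X) (rep ω) = rep ω}
  have hsurj : Function.Surjective (fun p : H × Ω => (p.1 : Equiv.Perm X) (rep p.2)) := by
    intro z
    have h1 : (Quotient.mk'' (rep (Quotient.mk'' z : Ω)) : Ω) = Quotient.mk'' z :=
      Quotient.out_eq' _
    have h2 : (MulAction.orbitRel H X).r (rep (Quotient.mk'' z : Ω)) z := Quotient.exact' h1
    have h3 : z ∈ MulAction.orbit H (rep (Quotient.mk'' z : Ω)) := by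
      have := (MulAction.orbitRel H X).symm h2
      exact MulAction.orbitRel_apply.1 this
    obtain ⟨h, hh⟩ := h3
    exact ⟨(h, Quotient.mk'' z), hh⟩
  have hc1 : Nat.card X ≤ Nat.card H * Nat.card Ω := by
    have := Nat.card_le_card_of_surjective _ hsurj
    rwa [Nat.card_prod] at this
  have hpos : 0 < Nat.card H := Nat.card_pos
  have hc2 : 2 ^ Nat.card H * r ≤ Nat.card Ω := by
    have : Nat.card H * (2 ^ Nat.card H * r) ≤ Nat.card H * Nat.card Ω := by
      calc Nat.card H * (2 ^ Nat.card H * r) = Nat.card H * 2 ^ Nat.card H * r := by ring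
        _ ≤ Nat.card X := hm
        _ ≤ _ := hc1
    exact Nat.le_of_mul_le_mul_left this hpos
  have hc3 : Fintype.card (Set H) * r ≤ Fintype.card Ω := by
    rw [Fintype.card_set, ← Nat.card_eq_fintype_card, ← Nat.card_eq_fintype_card]
    exact hc2
  obtain ⟨y, hy⟩ := Fintype.exists_le_card_fiber_of_mul_le_card st hc3
  have hemb : Nonempty (Fin r ↪ ↥(Finset.univ.filter (fun ω => st ω = y))) := by
    apply Function.Embedding.nonempty_of_card_le
    rw [Fintype.card_fin, Fintype.card_coe]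
    exact hy
  obtain ⟨e⟩ := hemb
  refine ⟨fun i => rep (e i).1, ?_, ?_⟩
  · intro i j h hh hij
    have h1 : (MulAction.orbitRel H X).r (rep (e j).1) (rep (e i).1) := by
      apply MulAction.orbitRel_apply.2
      exact ⟨⟨h, hh⟩, hij⟩
    have h2 : (Quotient.mk'' (rep (e j).1) : Ω) = Quotient.mk'' (rep (e i).1) :=
      Quotient.sound' h1
    have h3 : (e j).1 = (e i).1 := by
      have a1 : (Quotient.mk'' (rep (e j).1) : Ω) = (e j).1 := Quotient.out_eq' _
      have a2 : (Quotient.mk'' (rep (e i).1) : Ω) = (e i).1 := Quotient.out_eq' _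
      rw [← a1, ← a2, h2]
    exact (e.injective (Subtype.ext h3)).symm
  · intro i j h hh hi
    have h1 : st (e i).1 = y := (Finset.mem_filter.1 (e i).2).2
    have h2 : st (e j).1 = y := (Finset.mem_filter.1 (e j).2).2
    have h3 : (⟨h, hh⟩ : H) ∈ st (e i).1 := hi
    rw [h1, ← h2] at h3
    exact h3

theorem embed {X : Type} [Fintype X] [DecidableEq X] (H : Subgroup (Equiv.Perm X)) (r : ℕ)
    (hm : Nat.card H * 2 ^ Nat.card H * r ≤ Nat.card X) :
    ∃ φ : Equiv.Perm (Fin r) →* Equiv.Perm X, Function.Injective φ ∧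
      (∀ σ, Equiv.Perm.sign σ = 1 → Equiv.Perm.sign (φ σ) = 1) ∧
      ∀ σ, ∀ h ∈ H, h * φ σ = φ σ * h := by
  classical
  rcases Nat.eq_zero_or_pos r with hr | hr
  · subst hr
    refine ⟨1, fun a b _ => Subsingleton.elim a b, fun σ _ => by simp, fun σ h _ => by simp⟩
  obtain ⟨x, hx1, hx2⟩ := points H r hm
  let i0 : Fin r := ⟨0, hr⟩
  let O := {y : X // ∃ h ∈ H, h (x i0) = y}
  have hc : ∀ y : O, ∃ h : Equiv.Perm X, h ∈ H ∧ h (x i0) = y.1 := fun y => y.2
  choose c hcH hcy using hc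
  let emb : O × Fin r → X := fun p => (c p.1) (x p.2)
  have hinj : Function.Injective emb := by
    rintro ⟨y, i⟩ ⟨y', j⟩ h
    have h0 : c y (x i) = c y' (x j) := h
    have h1 : ((c y')⁻¹ * c y) (x i) = x j := by
      rw [Equiv.Perm.mul_apply, h0, Equiv.Perm.inv_def, Equiv.symm_apply_apply]
    have hmem : (c y')⁻¹ * c y ∈ H := H.mul_mem (H.inv_mem (hcH y')) (hcH y)
    have hij : i = j := hx1 i j _ hmem h1
    subst hij
    have h2 := hx2 i i0 _ hmem h1
    rw [Equiv.Perm.mul_apply, Equiv.Perm.inv_eq_iff_eq, hcy, hcy] at h2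
    have : y = y' := Subtype.ext h2
    rw [this]
  haveI : Nonempty O := ⟨⟨x i0, 1, H.one_mem, rfl⟩⟩
  let e' : O × Fin r ≃ {z // z ∈ Set.range emb} := Equiv.ofInjective emb hinj
  have he' : ∀ p, ((e' p : {z // z ∈ Set.range emb}) : X) = emb p := fun p => rfl
  let φ : Equiv.Perm (Fin r) →* Equiv.Perm X :=
    (Equiv.Perm.extendDomainHom e').comp (pr O (Fin r))
  have hφ1 : ∀ σ p, φ σ (emb p) = emb (p.1, σ p.2) := by
    intro σ p
    have := Equiv.Perm.extendDomain_apply_image (pr O (Fin r) σ) e' p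
    rw [he', he'] at this
    exact this
  have hφ2 : ∀ σ z, z ∉ Set.range emb → φ σ z = z := by
    intro σ z hz
    exact Equiv.Perm.extendDomain_apply_not_subtype (pr O (Fin r) σ) e' hz
  have hk : ∀ h (hh : h ∈ H) (y : O) (i : Fin r), ∃ y' : O, ∀ i, h (emb (y, i)) = emb (y', i) := by
    intro h hh y _
    refine ⟨⟨h y.1, h * c y, H.mul_mem hh (hcH y), by rw [Equiv.Perm.mul_apply, hcy]⟩, ?_⟩
    intro i
    set y' : O := ⟨h y.1, h * c y, H.mul_mem hh (hcH y), by rw [Equiv.Perm.mul_apply, hcy]⟩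
    have hmem : (c y')⁻¹ * (h * c y) ∈ H :=
      H.mul_mem (H.inv_mem (hcH y')) (H.mul_mem hh (hcH y))
    have h1 : ((c y')⁻¹ * (h * c y)) (x i0) = x i0 := by
      rw [Equiv.Perm.mul_apply, Equiv.Perm.mul_apply, hcy, Equiv.Perm.inv_eq_iff_eq, hcy]
    have h2 := hx2 i0 i _ hmem h1
    rw [Equiv.Perm.mul_apply, Equiv.Perm.mul_apply, Equiv.Perm.inv_eq_iff_eq] at h2
    exact h2
  refine ⟨φ, ?_, ?_, ?_⟩
  · exact (Equiv.Perm.extendDomainHom_injective e').comp (pr_inj O (Fin r))
  · intro σ hσ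
    have h1 : Equiv.Perm.sign (φ σ) = Equiv.Perm.sign (pr O (Fin r) σ) :=
      Equiv.Perm.sign_extendDomain _ e'
    rw [h1]
    have h2 : Equiv.Perm.sign (pr O (Fin r) σ) = ∏ _k : O, Equiv.Perm.sign σ :=
      Equiv.Perm.sign_prodCongrRight (fun _ => σ)
    rw [h2, hσ]
    simp
  · intro σ h hh
    ext z
    rw [Equiv.Perm.mul_apply, Equiv.Perm.mul_apply]
    by_cases hz : z ∈ Set.range emb
    · obtain ⟨⟨y, i⟩, rfl⟩ := hz
      obtain ⟨y', hy'⟩ := hk h hh y i
      rw [hφ1, hy', hy', hφ1]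
    · have hz' : h z ∉ Set.range emb := by
        rintro ⟨⟨y, i⟩, hyi⟩
        apply hz
        obtain ⟨y', hy'⟩ := hk h⁻¹ (H.inv_mem hh) y i
        refine ⟨(y', i), ?_⟩
        rw [← hy', hyi, Equiv.Perm.inv_def, Equiv.symm_apply_apply]
      rw [hφ2 σ z hz, hφ2 σ _ hz']

/-- There is a function `f` of two natural-number arguments such that, whenever `m ≥ f(n, r)`, every subgroup of order `n` of the alternating group of degree `m` centralizes some subgroup of that alternating group isomorphic to the alternating group of degree `r`. -/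
theorem result :
    ∃ f : ℕ → ℕ → ℕ, ∀ (m r : ℕ) (H : Subgroup ↥(alternatingGroup (Fin m))), f (Nat.card H) r ≤ m →
      ∃ K : Subgroup ↥(alternatingGroup (Fin m)), Nonempty (↥K ≃* ↥(alternatingGroup (Fin r))) ∧
        K ≤ Subgroup.centralizer (H : Set ↥(alternatingGroup (Fin m))) := by
  classical
  refine ⟨fun n r => n * 2 ^ n * r, fun m r H hm => ?_⟩
  have hcard : Nat.card (H.map (alternatingGroup (Fin m)).subtype) = Nat.card H :=
    Subgroup.card_map_of_injective (Subgroup.subtype_injective _)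
  have hm' : Nat.card (H.map (alternatingGroup (Fin m)).subtype) *
      2 ^ Nat.card (H.map (alternatingGroup (Fin m)).subtype) * r ≤ Nat.card (Fin m) := by
    rw [hcard, Nat.card_fin]
    exact hm
  obtain ⟨φ, hinj, hsign, hcomm⟩ := embed (H.map (alternatingGroup (Fin m)).subtype) r hm'
  let ψ : ↥(alternatingGroup (Fin r)) →* ↥(alternatingGroup (Fin m)) :=
    (φ.comp (alternatingGroup (Fin r)).subtype).codRestrict (alternatingGroup (Fin m))
      (fun σ => Equiv.Perm.mem_alternatingGroup.2 (hsign σ (Equiv.Perm.mem_alternatingGroup.1 σ.2)))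
  have hψ : Function.Injective ψ := by
    intro a b hab
    have : φ a = φ b := congrArg Subtype.val hab
    exact Subtype.ext (hinj this)
  refine ⟨ψ.range, ⟨(MonoidHom.ofInjective hψ).symm⟩, ?_⟩
  rintro _ ⟨σ, rfl⟩
  rw [Subgroup.mem_centralizer_iff]
  intro h hh
  apply Subtype.ext
  exact hcomm σ h.1 ⟨h, hh, rfl⟩

end Cfsg.Agent.S2532
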