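import Cfsg.Statements.S2540
import Mathlib
import Cfsg.Agent.Lib.Helper12.SLn
import Cfsg.Agent.Lib.Helper12.GLCard

set_option autoImplicit false
open Cfsg

namespace Cfsg.Agent.S2540

open Matrix Matrix.SpecialLinearGroup
open scoped commutatorElement

variable {F : Type*} [Field F]

theorem field_cond (hF : 4 ≤ Nat.card F) : ∃ a : F, a ≠ 0 ∧ a ^ 2 ≠ 1 := by
  have : Finite F := (Nat.card_pos_iff.1 (by omega)).2
  obtain ⟨x, hx⟩ : IsCyclic Fˣ := by infer_instance
  refine ⟨x, Units.ne_zero x, fun h ↦ ?_⟩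
  grw [Nat.card_eq_card_units_add_one F, ← orderOf_eq_card_of_forall_mem_zpowers hx,
    orderOf_le_of_pow_eq_one zero_lt_two (Units.ext <| by simpa using h)] at hF
  omega

theorem core (n : ℕ) (hP : commutator (SpecialLinearGroup (Fin n) F) = ⊤)
    (hS : IsSimpleGroup (Matrix.ProjectiveSpecialLinearGroup (Fin n) F))
    (G : Subgroup (Matrix.GeneralLinearGroup (Fin n) F))
    (hG : ∀ s : Matrix.SpecialLinearGroup (Fin n) F, ∀ g ∈ G,
      (Matrix.SpecialLinearGroup.toGL s) * g * (Matrix.SpecialLinearGroup.toGL s)⁻¹ ∈ G) :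
    (∀ g ∈ G, ∃ c : F, (g : Matrix (Fin n) (Fin n) F) = c • (1 : Matrix (Fin n) (Fin n) F)) ∨
    (Matrix.SpecialLinearGroup.toGL : Matrix.SpecialLinearGroup (Fin n) F →* _).range ≤ G := by
  classical
  set ι : SpecialLinearGroup (Fin n) F →* GL (Fin n) F := toGL with hι
  let N : Subgroup (SpecialLinearGroup (Fin n) F) := G.comap ι
  have hN : N.Normal := by
    constructor
    intro x hx s
    show ι (s * x * s⁻¹) ∈ G
    rw [map_mul, map_mul, map_inv]
    exact hG s _ hx
  let π := QuotientGroup.mk' (Subgroup.center (SpecialLinearGroup (Fin n) F))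
  have hNπ : (N.map π).Normal := hN.map π (QuotientGroup.mk'_surjective _)
  rcases hNπ.eq_bot_or_eq_top with hbot | htop
  · left
    have hNZ : N ≤ Subgroup.center (SpecialLinearGroup (Fin n) F) := by
      intro x hx
      have : π x ∈ N.map π := Subgroup.mem_map_of_mem _ hx
      rw [hbot, Subgroup.mem_bot] at this
      exact (QuotientGroup.eq_one_iff x).mp this
    set S : Subgroup (GL (Fin n) F) := ι.range with hSdef
    have hSS : ⁅S, S⁆ = S := by
      rw [hSdef, MonoidHom.range_eq_map, ← Subgroup.map_commutator]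
      congr 1
    have hSG : ⁅S, G⁆ ≤ (Subgroup.center (SpecialLinearGroup (Fin n) F)).map ι := by
      rw [Subgroup.commutator_le]
      rintro _ ⟨s, rfl⟩ g hg
      have h1 : ⁅ι s, g⁆ ∈ G := by
        rw [commutatorElement_def]
        exact G.mul_mem (hG s g hg) (G.inv_mem hg)
      have h2 : ⁅ι s, g⁆ ∈ ι.range := by
        rw [hι, Cfsg.Agent.Lib.Helper12.range_toGL_eq_ker_det, MonoidHom.mem_ker,
          commutatorElement_def]
        simp [mul_comm]
      obtain ⟨c, hc⟩ := h2
      exact ⟨c, hNZ (show ι c ∈ G by rw [hc]; exact h1), hc⟩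
    have hZS : ⁅(Subgroup.center (SpecialLinearGroup (Fin n) F)).map ι, S⁆ = ⊥ := by
      rw [hSdef, MonoidHom.range_eq_map, ← Subgroup.map_commutator]
      have : ⁅Subgroup.center (SpecialLinearGroup (Fin n) F),
          (⊤ : Subgroup (SpecialLinearGroup (Fin n) F))⁆ = ⊥ := by
        rw [Subgroup.commutator_eq_bot_iff_le_centralizer, Subgroup.coe_top,
          Subgroup.centralizer_univ]
      rw [this, Subgroup.map_bot]
    have h1 : ⁅⁅S, G⁆, S⁆ = ⊥ := by
      rw [eq_bot_iff, ← hZS]
      exact Subgroup.commutator_mono hSG le_rfl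
    have h2 : ⁅⁅G, S⁆, S⁆ = ⊥ := by rw [Subgroup.commutator_comm G S]; exact h1
    have h3 : ⁅⁅S, S⁆, G⁆ = ⊥ := Subgroup.commutator_commutator_eq_bot_of_rotate h1 h2
    rw [hSS, Subgroup.commutator_eq_bot_iff_le_centralizer] at h3
    intro g hg
    have h4 : (g : Matrix (Fin n) (Fin n) F) ∈ Set.range (Matrix.scalar (Fin n)) := by
      apply Matrix.mem_range_scalar_of_commute_transvectionStruct
      intro t
      have h5 : ι ⟨t.toMatrix, t.det⟩ ∈ Subgroup.centralizer (G : Set (GL (Fin n) F)) :=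
        h3 ⟨_, rfl⟩
      have h6 := Subgroup.mem_centralizer_iff.mp h5 g hg
      have h7 := congrArg Units.val h6
      exact h7.symm
    obtain ⟨c, hc⟩ := h4
    exact ⟨c, by rw [← hc]; simp [Matrix.smul_one_eq_diagonal]⟩
  · right
    have hNtop : N = ⊤ := by
      rw [eq_top_iff, ← hP, commutator_def, Subgroup.commutator_le]
      intro x _ y _
      have : π y ∈ N.map π := by rw [htop]; trivial
      obtain ⟨m, hm, hmy⟩ := this
      have hz : m⁻¹ * y ∈ Subgroup.center (SpecialLinearGroup (Fin n) F) := by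
        rw [← QuotientGroup.eq_one_iff]
        show π (m⁻¹ * y) = 1
        rw [map_mul, map_inv, hmy]; simp
      have hzc := Subgroup.mem_center_iff.mp hz
      have hy : y = m * (m⁻¹ * y) := by group
      have : ⁅x, y⁆ = (x * m * x⁻¹) * m⁻¹ := by
        rw [commutatorElement_def]
        set z := m⁻¹ * y with hzdef
        rw [hy]
        calc x * (m * z) * x⁻¹ * (m * z)⁻¹ = x * m * (z * x⁻¹) * z⁻¹ * m⁻¹ := by group
          _ = x * m * (x⁻¹ * z) * z⁻¹ * m⁻¹ := by rw [hzc x⁻¹]
          _ = _ := by group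
      rw [this]
      exact N.mul_mem (hN.conj_mem m hm x) (N.inv_mem hm)
    rintro _ ⟨s, rfl⟩
    have : s ∈ N := by rw [hNtop]; trivial
    exact this

/-- Let F be a finite field and n ≥ 1, excluding the case n = 2 with #F ≤ 3. A subgroup of GL_n(F) that is normalized by every element of SL_n(F) either consists of scalar matrices or contains SL_n(F). -/
theorem result {F : Type*} [Field F] [Fintype F] (n : ℕ) (hn : 1 ≤ n) (hex : ¬ (n = 2 ∧ Fintype.card F ≤ 3)) (G : Subgroup (Matrix.GeneralLinearGroup (Fin n) F)) (hG : ∀ s : Matrix.SpecialLinearGroup (Fin n) F, ∀ g ∈ G, (Matrix.SpecialLinearGroup.toGL s) * g * (Matrix.SpecialLinearGroup.toGL s)⁻¹ ∈ G) : (∀ g ∈ G, ∃ c : F, (g : Matrix (Fin n) (Fin n) F) = c • (1 : Matrix (Fin n) (Fin n) F)) ∨ (Matrix.SpecialLinearGroup.toGL : Matrix.SpecialLinearGroup (Fin n) F →* _).range ≤ G := by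
  rcases Nat.lt_or_ge n 2 with h1 | h2
  · right
    obtain rfl : n = 1 := by omega
    rintro _ ⟨s, rfl⟩
    have : s = 1 := by
      apply Matrix.SpecialLinearGroup.ext
      intro i j
      have h := s.det_coe
      rw [Matrix.det_fin_one] at h
      fin_cases i; fin_cases j
      simpa using h
    rw [this, map_one]
    exact G.one_mem
  · rcases Nat.lt_or_ge n 3 with h3 | h3
    · obtain rfl : n = 2 := by omega
      have hq : 4 ≤ Nat.card F := by
        rw [Nat.card_eq_fintype_card]
        by_contra hcon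
        exact hex ⟨rfl, by omega⟩
      obtain ⟨a, ha, ha2⟩ := field_cond hq
      exact core 2 (SL2.commutator_eq_top ha ha2)
        (Matrix.ProjectiveSpecialLinearGroup.rank_two_simple hq) G hG
    · exact core n (Cfsg.Agent.Lib.Helper12.sl_commutator_eq_top n h3)
        (Cfsg.Agent.Lib.Helper12.psl_isSimpleGroup n h3) G hG


end Cfsg.Agent.S2540
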