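import Cfsg.Statements.S2541
import Mathlib

set_option autoImplicit false
open Cfsg

namespace Cfsg.Agent.S2541

/-- Let F be a field with 9 elements. The symmetric group S_6 is not isomorphic to PGL_2(F) (although both have index-2 subgroups isomorphic to A_6). -/
theorem result {F : Type*} [Field F] [Fintype F] (hF : Fintype.card F = 9) : ¬ Nonempty (Equiv.Perm (Fin 6) ≃* Matrix.ProjGenLinGroup (Fin 2) F) := by
  classical
  rintro ⟨e⟩
  have h60 : ∀ σ : Equiv.Perm (Fin 6), σ ^ 60 = 1 := by
    intro σ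
    apply orderOf_dvd_iff_pow_eq_one.1
    rw [← Equiv.Perm.lcm_cycleType, Multiset.lcm_dvd]
    intro b hb
    have h1 : 2 ≤ b := Equiv.Perm.two_le_of_mem_cycleType hb
    have h2 : b ≤ 6 := by
      have h3 := Multiset.le_sum_of_mem hb
      have h4 := Equiv.Perm.sum_cycleType_le σ
      simp at h4
      omega
    interval_cases b <;> norm_num
  have hx60 : ∀ x : Matrix.ProjGenLinGroup (Fin 2) F, x ^ 60 = 1 := by
    intro x
    have h1 := h60 (e.symm x)
    have h2 := congrArg e h1
    rwa [map_pow, e.apply_symm_apply, map_one] at h2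
  obtain ⟨a, ha⟩ := IsCyclic.exists_generator (α := Fˣ)
  have hoa : orderOf a = 8 := by
    rw [orderOf_eq_card_of_forall_mem_zpowers ha, Nat.card_eq_fintype_card, Fintype.card_units, hF]
  have ha4 : a ^ 60 ≠ 1 := by
    intro h
    have h1 := orderOf_dvd_of_pow_eq_one h
    rw [hoa] at h1
    norm_num at h1
  let g : GL (Fin 2) F := Matrix.GeneralLinearGroup.mkOfDetNeZero !![(a : F), 0; 0, 1]
    (by simp [Matrix.det_fin_two])
  let w : GL (Fin 2) F := Matrix.GeneralLinearGroup.mkOfDetNeZero !![0, 1; 1, 0]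
    (by simp [Matrix.det_fin_two])
  have hg := hx60 (Matrix.ProjGenLinGroup.mk g)
  rw [← map_pow, Matrix.ProjGenLinGroup.mk_eq_one, Subgroup.mem_center_iff] at hg
  have h1 := hg w
  have hgp : ∀ k : ℕ, ((g ^ k : GL (Fin 2) F) : Matrix (Fin 2) (Fin 2) F)
      = !![((a ^ k : Fˣ) : F), 0; 0, 1] := by
    intro k
    induction k with
    | zero => simp [Matrix.one_fin_two]
    | succ k ih =>
      rw [pow_succ, Units.val_mul, ih]
      simp [g, Matrix.GeneralLinearGroup.mkOfDetNeZero, Matrix.mul_fin_two, pow_succ]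
  have h2 := congrArg (fun m : GL (Fin 2) F => (m : Matrix (Fin 2) (Fin 2) F) 0 1) h1
  simp only [Units.val_mul, hgp] at h2
  simp [w, Matrix.GeneralLinearGroup.mkOfDetNeZero, Matrix.mul_fin_two] at h2
  apply ha4
  apply Units.ext
  simp [← h2]

end Cfsg.Agent.S2541
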