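import Cfsg.Statements.S2542
import Mathlib
import Cfsg.Agent.Lib.Helper15.PSL11b
import Cfsg.Agent.S0243
import Cfsg.Agent.S3377
import Cfsg.Agent.S0675

set_option autoImplicit false
open Cfsg

namespace Cfsg.Agent.S2542

open Matrix

abbrev S11 := Matrix.SpecialLinearGroup (Fin 2) (ZMod 11)
def x0 : S11 := ⟨!![0,10;1,0], by decide⟩
def y0 : S11 := ⟨!![0,8;4,1], by decide⟩

theorem y3 : y0^3 = -1 := by decide
theorem x2 : (y0 * (y0⁻¹ * x0))^2 = -1 := by decide
theorem v5 : (y0⁻¹ * x0)^5 = 1 ∨ (y0⁻¹ * x0)^5 = -1 := by decide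
theorem negc : (-1 : S11) ∈ Subgroup.center S11 := by
  rw [Subgroup.mem_center_iff]
  intro g
  simp
theorem ync : y0 ∉ Subgroup.center S11 := by
  rw [Subgroup.mem_center_iff]
  intro h
  exact absurd (h x0) (by decide)

theorem key {G : Type*} [Group G] [Finite G] [IsSimpleGroup G] (h : Nat.card G = 660) (U V : G)
    (hU : U^3 = 1) (hV : V^5 = 1) (hUV : (U*V)^2 = 1) (hU1 : U ≠ 1) :
    ∃ H : Subgroup G, H.index = 11 ∧ Nonempty (H ≃* alternatingGroup (Fin 5)) ∧
      MulAction.IsMultiplyPretransitive G (G ⧸ H) 2 := by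
  classical
  obtain ⟨e⟩ := Cfsg.Agent.S3377.result
  have hrel : ∀ r ∈ ({FreeGroup.of (0 : Fin 2) ^ 3, FreeGroup.of (1 : Fin 2) ^ 5,
        (FreeGroup.of (0 : Fin 2) * FreeGroup.of 1) ^ 2} : Set (FreeGroup (Fin 2))),
      FreeGroup.lift (![U, V] : Fin 2 → G) r = 1 := by
    intro r hr
    simp only [Set.mem_insert_iff, Set.mem_singleton_iff] at hr
    rcases hr with rfl | rfl | rfl <;> simp [hU, hV, hUV]
  let ψ := PresentedGroup.toGroup hrel
  let θ : alternatingGroup (Fin 5) →* G := ψ.comp e.symm.toMonoidHom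
  have hθ : Function.Injective θ := by
    rw [← MonoidHom.ker_eq_bot_iff]
    rcases θ.normal_ker.eq_bot_or_eq_top with hk | hk
    · exact hk
    · exfalso
      apply hU1
      have h1 : e (PresentedGroup.of 0) ∈ θ.ker := by rw [hk]; trivial
      have h2 : θ (e (PresentedGroup.of 0)) = U := by
        show ψ (e.symm (e (PresentedGroup.of 0))) = U
        rw [e.symm_apply_apply]
        simp [ψ]
      rw [← h2]; exact h1
  have hHc : Nat.card θ.range = 60 := by
    rw [← Nat.card_congr (MonoidHom.ofInjective hθ).toEquiv]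
    have := two_mul_nat_card_alternatingGroup (α := Fin 5)
    rw [Nat.card_perm, Nat.card_fin] at this
    have h5 : (5 : ℕ).factorial = 120 := by decide
    omega
  have hidx : θ.range.index = 11 := by
    have := θ.range.card_mul_index
    rw [hHc, h] at this; omega
  refine ⟨θ.range, hidx, ⟨(MonoidHom.ofInjective hθ).symm⟩, ?_⟩
  have : Fintype (G ⧸ θ.range) := Fintype.ofFinite _
  have hcard : Fintype.card (G ⧸ θ.range) = 11 := by
    rw [← Nat.card_eq_fintype_card, ← Subgroup.index_eq_card, hidx]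
  let τ := MulAction.toPermHom G (G ⧸ θ.range)
  have htr : MulAction.IsPretransitive τ.range (G ⧸ θ.range) := ⟨fun x y => by
    obtain ⟨g, hg⟩ := MulAction.exists_smul_eq G x y
    exact ⟨⟨τ g, g, rfl⟩, hg⟩⟩
  rcases Cfsg.Agent.S0675.result (by rw [hcard]; norm_num) τ.range with hs | h2
  · exfalso
    have hτ : Function.Injective τ := by
      rw [← MonoidHom.ker_eq_bot_iff]
      rcases τ.normal_ker.eq_bot_or_eq_top with hk | hk
      · exact hk
      · exfalso
        have hss : Subsingleton (G ⧸ θ.range) := ⟨fun x y => by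
          obtain ⟨g, hg⟩ := MulAction.exists_smul_eq G x y
          have hg1 : τ g = 1 := by
            have : g ∈ τ.ker := by rw [hk]; trivial
            exact this
          have : τ g x = x := by rw [hg1]; rfl
          rw [← hg]; exact this.symm⟩
        have := Fintype.card_le_one_iff_subsingleton.mpr hss
        omega
    have hsG : Group.IsSolvable G :=
      Group.isSolvable_of_isSolvable_injective (f := τ.rangeRestrict)
        (by
          intro x y hxy
          exact hτ (congrArg Subtype.val hxy))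
    have hcomm := IsSimpleGroup.comm_iff_isSolvable.mpr hsG
    have hn : θ.range.Normal := ⟨fun n hn g => by rw [hcomm g n, mul_inv_cancel_right]; exact hn⟩
    rcases hn.eq_bot_or_eq_top with hb | hb
    · rw [hb] at hHc; simp at hHc
    · rw [hb] at hHc; simp [h] at hHc
  · refine ⟨fun x y => ?_⟩
    obtain ⟨⟨γ, g, rfl⟩, hg⟩ := h2.exists_smul_eq x y
    exact ⟨g, hg⟩

/-- Let F be a field with 11 elements. PSL_2(F) has a subgroup H of index 11 isomorphic to the alternating group A_5, and the action of PSL_2(F) on the cosets of H is 2-transitive (of degree 11). -/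
theorem result {F : Type*} [Field F] [Fintype F] (hF : Fintype.card F = 11) : ∃ H : Subgroup (Matrix.ProjectiveSpecialLinearGroup (Fin 2) F), H.index = 11 ∧ Nonempty (H ≃* alternatingGroup (Fin 5)) ∧ MulAction.IsMultiplyPretransitive (Matrix.ProjectiveSpecialLinearGroup (Fin 2) F) ((Matrix.ProjectiveSpecialLinearGroup (Fin 2) F) ⧸ H) 2 := by
  have hfin : Finite (Matrix.ProjectiveSpecialLinearGroup (Fin 2) F) := by
    unfold Matrix.ProjectiveSpecialLinearGroup; infer_instance
  have hs : IsSimpleGroup (Matrix.ProjectiveSpecialLinearGroup (Fin 2) F) :=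
    Matrix.ProjectiveSpecialLinearGroup.rank_two_simple (by rw [Nat.card_eq_fintype_card, hF]; norm_num)
  have hc : Nat.card (Matrix.ProjectiveSpecialLinearGroup (Fin 2) F) = 660 := by
    have hc0 := Cfsg.Agent.S0243.result hF 2 le_rfl
    simp only [Fin.prod_univ_two] at hc0
    norm_num at hc0
    omega
  have : Fact (Nat.Prime 11) := ⟨by norm_num⟩
  obtain ⟨e⟩ := Cfsg.Agent.Lib.Helper15.PSL11.iso_psl hc (F := ZMod 11) (by simp)
    (Cfsg.Agent.S0243.result (by simp) 2 le_rfl)
  have hq : ∀ z : S11, z = 1 ∨ z = -1 →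
      (QuotientGroup.mk z : Matrix.ProjectiveSpecialLinearGroup (Fin 2) (ZMod 11)) = 1 := by
    intro z hz
    rw [QuotientGroup.eq_one_iff]
    rcases hz with rfl | rfl
    · exact Subgroup.one_mem _
    · exact negc
  apply key hc (e.symm (QuotientGroup.mk y0)) (e.symm (QuotientGroup.mk (y0⁻¹ * x0)))
  · rw [← map_pow, ← QuotientGroup.mk_pow, hq _ (Or.inr y3), map_one]
  · rw [← map_pow, ← QuotientGroup.mk_pow, hq _ v5, map_one]
  · rw [← map_mul, ← QuotientGroup.mk_mul, ← map_pow, ← QuotientGroup.mk_pow, hq _ (Or.inr x2), map_one]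
  · intro h0
    have h1 : (QuotientGroup.mk y0 : Matrix.ProjectiveSpecialLinearGroup (Fin 2) (ZMod 11)) = 1 := by
      have := congrArg e h0
      rwa [e.apply_symm_apply, map_one] at this
    rw [QuotientGroup.eq_one_iff] at h1
    exact ync h1

end Cfsg.Agent.S2542
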