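import Cfsg.Statements.S2552
import Mathlib

set_option autoImplicit false
open Cfsg

namespace Cfsg.Agent.S2552


/-- Let F be a finite field and n ≥ 1. For every k, the special linear group SL_n(F) acts transitively on the set of k-dimensional subspaces of F^n: any two subspaces of the same dimension are carried onto each other by some matrix of determinant 1. -/
theorem result {F : Type*} [Field F] [Fintype F] (n : ℕ) (hn : 1 ≤ n) (U₁ U₂ : Submodule F (Fin n → F)) (h : Module.finrank F U₁ = Module.finrank F U₂) : ∃ g : Matrix.SpecialLinearGroup (Fin n) F, U₁.map ((Matrix.SpecialLinearGroup.toLin' g : (Fin n → F) ≃ₗ[F] (Fin n → F)) : (Fin n → F) →ₗ[F] (Fin n → F)) = U₂ := by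
  classical
  by_cases hU : U₁ = ⊥
  · subst hU
    have h2 : U₂ = ⊥ := by
      rw [finrank_bot] at h
      exact Submodule.finrank_eq_zero.mp h.symm
    subst h2
    exact ⟨1, by simp⟩
  obtain ⟨u, huU, hu0⟩ := Submodule.exists_mem_ne_zero_of_ne_bot hU
  obtain ⟨g0, hg0⟩ := Submodule.exists_linearEquiv_restrict_eq (LinearEquiv.ofFinrankEq U₁ U₂ h)
  have hmap0 : U₁.map (g0 : (Fin n → F) →ₗ[F] (Fin n → F)) = U₂ := by
    ext y
    constructor
    · rintro ⟨x, hx, rfl⟩
      have := hg0 ⟨x, hx⟩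
      simp only [LinearEquiv.coe_coe]
      rw [← this]
      exact Subtype.mem _
    · intro hy
      refine ⟨((LinearEquiv.ofFinrankEq U₁ U₂ h).symm ⟨y, hy⟩ : U₁), Subtype.mem _, ?_⟩
      simp only [LinearEquiv.coe_coe]
      rw [← hg0]
      simp
  obtain ⟨j, hj⟩ : ∃ j, u j ≠ 0 := by
    by_contra hcon
    push Not at hcon
    exact hu0 (funext hcon)
  let ψ : Module.Dual F (Fin n → F) := (u j)⁻¹ • LinearMap.proj j
  have hψ : ψ u = 1 := by simp [ψ, hj]
  set d : F := LinearMap.det (g0 : (Fin n → F) →ₗ[F] (Fin n → F)) with hd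
  have hd0 : d ≠ 0 := by
    have := (LinearEquiv.isUnit_det' g0).ne_zero
    exact this
  let hh : (Fin n → F) →ₗ[F] (Fin n → F) := LinearMap.transvection ψ ((d⁻¹ - 1) • u)
  have hdet : LinearMap.det hh = d⁻¹ := by
    rw [LinearMap.transvection.det]
    simp [hψ]
  have hhmap : U₁.map hh = U₁ := by
    ext y
    constructor
    · rintro ⟨x, hx, rfl⟩
      rw [LinearMap.transvection.apply]
      exact U₁.add_mem hx (U₁.smul_mem _ (U₁.smul_mem _ huU))
    · intro hy
      refine ⟨y - ((1 - d) * ψ y) • u, U₁.sub_mem hy (U₁.smul_mem _ huU), ?_⟩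
      rw [LinearMap.transvection.apply]
      simp only [map_sub, map_smul, hψ, smul_eq_mul, mul_one]
      rw [smul_smul, sub_add, sub_eq_self, sub_eq_zero]
      congr 1
      field_simp
      ring
  let e : (Fin n → F) →ₗ[F] (Fin n → F) := (g0 : (Fin n → F) →ₗ[F] (Fin n → F)) ∘ₗ hh
  have hedet : (LinearMap.toMatrix' e).det = 1 := by
    rw [LinearMap.det_toMatrix', LinearMap.det_comp, hdet, ← hd, mul_inv_cancel₀ hd0]
  obtain ⟨A, hA⟩ : ∃ A : Matrix.SpecialLinearGroup (Fin n) F,
      (A : Matrix (Fin n) (Fin n) F) = LinearMap.toMatrix' e := ⟨⟨_, hedet⟩, rfl⟩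
  refine ⟨A, ?_⟩
  have : ((Matrix.SpecialLinearGroup.toLin' A : (Fin n → F) ≃ₗ[F] (Fin n → F)) :
      (Fin n → F) →ₗ[F] (Fin n → F)) = e := by
    rw [Matrix.SpecialLinearGroup.toLin'_to_linearMap, hA]
    exact Matrix.toLin'_toMatrix' e
  rw [this, Submodule.map_comp, hhmap, hmap0]


end Cfsg.Agent.S2552
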