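import Cfsg.Statements.S2561
import Mathlib
import Cfsg.Agent.Lib.Helper15.F2Classify

set_option autoImplicit false
open Cfsg

namespace Cfsg.Agent.S2561

open Cfsg.Agent.Lib.Helper15

open Classical in
theorem gaussSum_eq_count {V : Type*} [Fintype V] (q : V → ZMod 2) :
    gaussSum q = 2 * (Fintype.card {v // q v = 0} : ℤ) - Fintype.card V := by
  unfold Cfsg.Agent.Lib.Helper15.gaussSum chi2
  rw [Finset.sum_ite, Finset.sum_const, Finset.sum_const, Fintype.card_subtype]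
  have h := Finset.card_filter_add_card_filter_not (s := (Finset.univ : Finset V)) (fun v => q v = 0)
  rw [Finset.card_univ] at h
  simp only [nsmul_eq_mul, mul_one, mul_neg]
  omega

noncomputable def Psi (m : ℕ) (w : VP m) : VP m → ZMod 2 :=
  fun v => Cfsg.quadFormPlus m (ZMod 2) v + pol m (ZMod 2) v w

theorem isQ_Psi (m : ℕ) (w : VP m) : IsQ m (Psi m w) := (isQ_plus m).translate w

theorem Psi_injective (m : ℕ) : Function.Injective (Psi m) := by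
  intro w w' h
  by_contra hne
  obtain ⟨y, hy⟩ := pol_nondeg (w - w') (sub_ne_zero.mpr hne)
  apply hy
  have h1 : pol m (ZMod 2) y w = pol m (ZMod 2) y w' := by
    have := congrFun h y
    exact add_left_cancel this
  have h2 : pol m (ZMod 2) y w = pol m (ZMod 2) y (w - w') + pol m (ZMod 2) y w' := by
    rw [← pol_add_right, sub_add_cancel]
  rw [h1] at h2
  exact (add_eq_right.mp h2.symm)

theorem Psi_surjective (m : ℕ) (q : VP m → ZMod 2) (hq : IsQ m q) : ∃ w, Psi m w = q := by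
  obtain ⟨w, hw⟩ := (isQ_plus m).exists_eq_translate hq
  exact ⟨w, funext fun v => (hw v).symm⟩

theorem gaussSum_Psi (m : ℕ) (w : VP m) :
    gaussSum (Psi m w) = chi2 (Cfsg.quadFormPlus m (ZMod 2) w) * 2 ^ m := by
  rw [← gaussSum_plus m]
  exact (isQ_plus m).gaussSum_translate w

theorem card_subtype_Psi (m : ℕ) (P : (VP m → ZMod 2) → Prop) :
    Nat.card {q : VP m → ZMod 2 // IsQ m q ∧ P q} = Nat.card {w : VP m // P (Psi m w)} := by
  symm
  apply Nat.card_congr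
  refine Equiv.ofBijective (fun w => ⟨Psi m w.1, isQ_Psi m w.1, w.2⟩) ⟨?_, ?_⟩
  · intro a b h
    exact Subtype.ext (Psi_injective m (congrArg Subtype.val h))
  · rintro ⟨q, hq, hP⟩
    obtain ⟨w, rfl⟩ := Psi_surjective m q hq
    exact ⟨⟨w, hP⟩, rfl⟩

theorem card_zero_plus (k : ℕ) :
    Nat.card {w : VP (k + 1) // Cfsg.quadFormPlus (k + 1) (ZMod 2) w = 0} = 2 ^ (2 * k + 1) + 2 ^ k := by
  classical
  rw [Nat.card_eq_fintype_card]
  have h := gaussSum_eq_count (Cfsg.quadFormPlus (k + 1) (ZMod 2))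
  rw [gaussSum_plus, card_plus] at h
  have h2 : (2 : ℤ) * (Fintype.card {w : VP (k + 1) // Cfsg.quadFormPlus (k + 1) (ZMod 2) w = 0} : ℤ)
      = 2 * ((2 ^ (2 * k + 1) + 2 ^ k : ℕ) : ℤ) := by
    push_cast at h ⊢
    have e1 : (2 : ℤ) ^ (2 * (k + 1)) = 2 * 2 ^ (2 * k + 1) := by ring
    have e2 : (2 : ℤ) ^ (k + 1) = 2 * 2 ^ k := by ring
    rw [e1, e2] at h
    linarith
  have h3 := mul_left_cancel₀ (by norm_num : (2 : ℤ) ≠ 0) h2
  convert (Int.natCast_inj.mp h3) using 2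

theorem card_one_plus (k : ℕ) :
    Nat.card {w : VP (k + 1) // ¬ Cfsg.quadFormPlus (k + 1) (ZMod 2) w = 0} = 2 ^ (2 * k + 1) - 2 ^ k := by
  classical
  have h0 := card_zero_plus k
  rw [Nat.card_eq_fintype_card] at h0 ⊢
  rw [Fintype.card_subtype_compl, card_plus]
  have e1 : 2 ^ (2 * (k + 1)) = 2 * 2 ^ (2 * k + 1) := by ring
  have : Fintype.card {w : VP (k + 1) // Cfsg.quadFormPlus (k + 1) (ZMod 2) w = 0} = 2 ^ (2 * k + 1) + 2 ^ k := by
    convert h0 using 2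
  rw [this, e1]
  omega

theorem main (k : ℕ) :
    Nat.card {q : VP (k + 1) → ZMod 2 // IsQ (k + 1) q} = 2 ^ (2 * (k + 1)) ∧
    (∀ q : VP (k + 1) → ZMod 2, IsQ (k + 1) q →
      (∃ g : VP (k + 1) ≃ₗ[ZMod 2] VP (k + 1), ∀ v, q v = Cfsg.quadFormPlus (k + 1) (ZMod 2) (g v)) ∨
      (∃ g : VP (k + 1) ≃ₗ[ZMod 2] VM k, ∀ v, q v = Cfsg.quadFormMinus k (ZMod 2) 1 1 (g v))) ∧
    Nat.card {q : VP (k + 1) → ZMod 2 // IsQ (k + 1) q ∧
      ∃ g : VP (k + 1) ≃ₗ[ZMod 2] VP (k + 1), ∀ v, q v = Cfsg.quadFormPlus (k + 1) (ZMod 2) (g v)}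
        = 2 ^ (2 * k + 1) + 2 ^ k ∧
    Nat.card {q : VP (k + 1) → ZMod 2 // IsQ (k + 1) q ∧
      ∃ g : VP (k + 1) ≃ₗ[ZMod 2] VM k, ∀ v, q v = Cfsg.quadFormMinus k (ZMod 2) 1 1 (g v)}
        = 2 ^ (2 * k + 1) - 2 ^ k := by
  have hpos : (0 : ℤ) < 2 ^ (k + 1) := by positivity
  refine ⟨?_, ?_, ?_, ?_⟩
  · have h := card_subtype_Psi (k + 1) (fun _ => True)
    simp only [and_true] at h
    rw [h, ← card_plus (k + 1), ← Nat.card_eq_fintype_card]
    exact Nat.card_congr (Equiv.subtypeUnivEquiv (fun _ => trivial))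
  · intro q hq
    rcases hq.gaussSum_eq_or with h | h
    · exact Or.inl (hq.plus_iff.mpr h)
    · exact Or.inr (hq.minus_iff.mpr h)
  · rw [card_subtype_Psi, ← card_zero_plus k]
    apply Nat.card_congr
    apply Equiv.subtypeEquivRight
    intro w
    rw [(isQ_Psi (k + 1) w).plus_iff, gaussSum_Psi]
    constructor
    · intro h
      by_contra hne
      rw [zmod2_eq_one_of_ne_zero hne, chi2_one] at h
      omega
    · intro h
      rw [h, chi2_zero, one_mul]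
  · rw [card_subtype_Psi, ← card_one_plus k]
    apply Nat.card_congr
    apply Equiv.subtypeEquivRight
    intro w
    rw [(isQ_Psi (k + 1) w).minus_iff, gaussSum_Psi]
    constructor
    · intro h hne
      rw [hne, chi2_zero] at h
      omega
    · intro h
      rw [zmod2_eq_one_of_ne_zero h, chi2_one]
      ring

/-- Fix the non-singular alternating form on the 2m-dimensional space over the field of two elements obtained by polarizing the plus-type form Σ xᵢyᵢ (m ≥ 1). The functions q on the space with q(u + v) = q(u) + q(v) + f(u, v) (the quadratic forms polarizing to f) number 2^(2m); each is equivalent under an invertible linear map either to the plus-type form or to the minus-type form Σ xᵢyᵢ + (z₁² + z₁z₂ + z₂²); and those of plus type number 2^(2m−1) + 2^(m−1), those of minus type 2^(2m−1) − 2^(m−1). -/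
theorem result (m : ℕ) (hm : 1 ≤ m) :
    Nat.card {q : (Fin m ⊕ Fin m → ZMod 2) → ZMod 2 // (∀ u v : (Fin m ⊕ Fin m → ZMod 2), q (u + v) = q u + q v + (Cfsg.quadFormPlus m (ZMod 2) (u + v) - Cfsg.quadFormPlus m (ZMod 2) u - Cfsg.quadFormPlus m (ZMod 2) v))} = 2 ^ (2 * m) ∧
    (∀ q : (Fin m ⊕ Fin m → ZMod 2) → ZMod 2, (∀ u v : (Fin m ⊕ Fin m → ZMod 2), q (u + v) = q u + q v + (Cfsg.quadFormPlus m (ZMod 2) (u + v) - Cfsg.quadFormPlus m (ZMod 2) u - Cfsg.quadFormPlus m (ZMod 2) v)) →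
      (∃ g : (Fin m ⊕ Fin m → ZMod 2) ≃ₗ[ZMod 2] (Fin m ⊕ Fin m → ZMod 2), ∀ v, q v = Cfsg.quadFormPlus m (ZMod 2) (g v)) ∨
      (∃ g : (Fin m ⊕ Fin m → ZMod 2) ≃ₗ[ZMod 2] ((Fin (m - 1) ⊕ Fin (m - 1)) ⊕ Fin 2 → ZMod 2), ∀ v, q v = Cfsg.quadFormMinus (m - 1) (ZMod 2) 1 1 (g v))) ∧
    Nat.card {q : (Fin m ⊕ Fin m → ZMod 2) → ZMod 2 // (∀ u v : (Fin m ⊕ Fin m → ZMod 2), q (u + v) = q u + q v + (Cfsg.quadFormPlus m (ZMod 2) (u + v) - Cfsg.quadFormPlus m (ZMod 2) u - Cfsg.quadFormPlus m (ZMod 2) v)) ∧ ∃ g : (Fin m ⊕ Fin m → ZMod 2) ≃ₗ[ZMod 2] (Fin m ⊕ Fin m → ZMod 2), ∀ v, q v = Cfsg.quadFormPlus m (ZMod 2) (g v)} = 2 ^ (2 * m - 1) + 2 ^ (m - 1) ∧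
    Nat.card {q : (Fin m ⊕ Fin m → ZMod 2) → ZMod 2 // (∀ u v : (Fin m ⊕ Fin m → ZMod 2), q (u + v) = q u + q v + (Cfsg.quadFormPlus m (ZMod 2) (u + v) - Cfsg.quadFormPlus m (ZMod 2) u - Cfsg.quadFormPlus m (ZMod 2) v)) ∧ ∃ g : (Fin m ⊕ Fin m → ZMod 2) ≃ₗ[ZMod 2] ((Fin (m - 1) ⊕ Fin (m - 1)) ⊕ Fin 2 → ZMod 2), ∀ v, q v = Cfsg.quadFormMinus (m - 1) (ZMod 2) 1 1 (g v)} = 2 ^ (2 * m - 1) - 2 ^ (m - 1) := by
  obtain ⟨k, rfl⟩ : ∃ k, m = k + 1 := ⟨m - 1, by omega⟩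
  have h := main k
  have e1 : 2 * (k + 1) - 1 = 2 * k + 1 := by omega
  rw [e1]
  exact h

end Cfsg.Agent.S2561
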