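import Cfsg.Statements.S2564
import Mathlib
import Cfsg.Agent.Lib.Helper15.PlusPolar
import Cfsg.Agent.Lib.Helper15.F2Gauss

set_option autoImplicit false
open Cfsg

namespace Cfsg.Agent.S2564

open Cfsg.Agent.Lib.Helper15

/-- On the 2m-dimensional space over the field of two elements (m ≥ 1) let f be the alternating form obtained by polarizing the plus-type form Σ xᵢyᵢ, and let q be any quadratic form polarizing to f. For a vector w, the function q + f(·, w) again polarizes to f, and it is equivalent to q under an invertible linear map (that is, has the same type) if and only if q(w) = 0. -/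
theorem result (m : ℕ) (hm : 1 ≤ m) (q : (Fin m ⊕ Fin m → ZMod 2) → ZMod 2) (hq : (∀ u v : (Fin m ⊕ Fin m → ZMod 2), q (u + v) = q u + q v + (Cfsg.quadFormPlus m (ZMod 2) (u + v) - Cfsg.quadFormPlus m (ZMod 2) u - Cfsg.quadFormPlus m (ZMod 2) v))) (w : (Fin m ⊕ Fin m → ZMod 2)) :
    (∀ u v : (Fin m ⊕ Fin m → ZMod 2), (q (u + v) + (Cfsg.quadFormPlus m (ZMod 2) (u + v + w) - Cfsg.quadFormPlus m (ZMod 2) (u + v) - Cfsg.quadFormPlus m (ZMod 2) w)) =
        (q u + (Cfsg.quadFormPlus m (ZMod 2) (u + w) - Cfsg.quadFormPlus m (ZMod 2) u - Cfsg.quadFormPlus m (ZMod 2) w)) + (q v + (Cfsg.quadFormPlus m (ZMod 2) (v + w) - Cfsg.quadFormPlus m (ZMod 2) v - Cfsg.quadFormPlus m (ZMod 2) w)) +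
        (Cfsg.quadFormPlus m (ZMod 2) (u + v) - Cfsg.quadFormPlus m (ZMod 2) u - Cfsg.quadFormPlus m (ZMod 2) v)) ∧
    ((∃ g : (Fin m ⊕ Fin m → ZMod 2) ≃ₗ[ZMod 2] (Fin m ⊕ Fin m → ZMod 2), ∀ v, q v + (Cfsg.quadFormPlus m (ZMod 2) (v + w) - Cfsg.quadFormPlus m (ZMod 2) v - Cfsg.quadFormPlus m (ZMod 2) w) = q (g v)) ↔ q w = 0) := by
  classical
  have hq' : ∀ u v, q (u + v) = q u + q v + pol m (ZMod 2) u v := hq
  have hq0 : q 0 = 0 := by
    have h2 := hq' 0 0
    have h3 : pol m (ZMod 2) 0 0 = 0 := by simp [pol_eq]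
    rw [h3] at h2
    simp only [add_zero] at h2
    generalize q 0 = a at h2; revert a; decide
  constructor
  · intro u v
    show q (u + v) + pol m (ZMod 2) (u + v) w = (q u + pol m (ZMod 2) u w) + (q v + pol m (ZMod 2) v w)
      + pol m (ZMod 2) u v
    rw [hq', pol_add_left]
    ring
  · show (∃ g : (Fin m ⊕ Fin m → ZMod 2) ≃ₗ[ZMod 2] (Fin m ⊕ Fin m → ZMod 2),
      ∀ v, q v + pol m (ZMod 2) v w = q (g v)) ↔ q w = 0
    constructor
    · rintro ⟨g, hg⟩
      by_contra hw
      have hw1 : q w = 1 := zmod2_eq_one_of_ne_zero hw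
      have h1 := gaussSum_translate (pol m (ZMod 2)) q hq' w
      have h2 : gaussSum (fun v => q v + pol m (ZMod 2) v w) = gaussSum q := by
        rw [← gaussSum_comp_equiv q g.toEquiv]
        congr 1
        funext v
        exact hg v
      rw [h2, hw1, chi2_one] at h1
      have h3 := gaussSum_ne_zero (pol m (ZMod 2)) q hq' pol_add_left pol_nondeg
      omega
    · intro hw
      have hww : pol m (ZMod 2) w w = 0 := by
        rw [pol_self]
        have : (2 : ZMod 2) = 0 := by decide
        rw [this, zero_mul]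
      let g₀ : (Fin m ⊕ Fin m → ZMod 2) →ₗ[ZMod 2] (Fin m ⊕ Fin m → ZMod 2) :=
        { toFun := fun v => v + pol m (ZMod 2) v w • w
          map_add' := by
            intro x y
            rw [pol_add_left, add_smul]
            abel
          map_smul' := by
            intro c x
            rw [pol_smul_left, RingHom.id_apply, smul_add, mul_smul] }
      have hinv : Function.Involutive g₀ := by
        intro v
        show (v + pol m (ZMod 2) v w • w) + pol m (ZMod 2) (v + pol m (ZMod 2) v w • w) w • w = v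
        rw [pol_add_left, pol_smul_left, hww, mul_zero, add_zero, add_assoc, ← add_smul]
        have : ∀ a : ZMod 2, a + a = 0 := by decide
        rw [this, zero_smul, add_zero]
      refine ⟨LinearEquiv.ofInvolutive g₀ hinv, ?_⟩
      intro v
      show q v + pol m (ZMod 2) v w = q (v + pol m (ZMod 2) v w • w)
      rw [hq', pol_smul_right]
      have hc : ∀ c : ZMod 2, q (c • w) = 0 := by
        intro c
        have : c = 0 ∨ c = 1 := by revert c; decide
        rcases this with rfl | rfl
        · rw [zero_smul, hq0]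
        · rw [one_smul, hw]
      rw [hc, add_zero]
      have : ∀ a : ZMod 2, a * a = a := by decide
      rw [this]

end Cfsg.Agent.S2564
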