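import Cfsg.Statements.S2565
import Cfsg.Agent.S0825

set_option autoImplicit false
open Cfsg

namespace Cfsg.Agent.S2565


/-- The commutator subgroup of the full orthogonal group of the plus-type form Σ xᵢyᵢ in dimension 6 over the field of two elements (the group Ω⁺₆(2), of index 2) is isomorphic to the alternating group of degree 8. -/
theorem result :
    (Cfsg.Omega (ZMod 2) (Cfsg.quadFormPlus 3 (ZMod 2))).index = 2 ∧
    Nonempty (↥(Cfsg.Omega (ZMod 2) (Cfsg.quadFormPlus 3 (ZMod 2))) ≃* alternatingGroup (Fin 8)) := by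
  obtain ⟨e⟩ := Cfsg.Agent.S0825.result (F := ZMod 2) (by simp [ZMod.card])
  have h1 : (Cfsg.Omega (ZMod 2) (Cfsg.quadFormPlus 3 (ZMod 2))).map e.toMonoidHom
      = alternatingGroup (Fin 8) := by
    rw [← alternatingGroup.commutator_perm_eq (by simp)]
    show (commutator _).map e.toMonoidHom = commutator _
    rw [commutator_def, commutator_def, Subgroup.map_commutator]
    have : (⊤ : Subgroup ↥(Cfsg.isometryGroup (ZMod 2) (Cfsg.quadFormPlus 3 (ZMod 2)))).map e.toMonoidHom = ⊤ := by
      rw [← MonoidHom.range_eq_map, MonoidHom.range_eq_top]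
      exact e.surjective
    rw [this]
  constructor
  · rw [← Subgroup.index_map_of_bijective (f := e.toMonoidHom) e.bijective, h1]
    exact alternatingGroup.index_eq_two
  · exact ⟨(e.subgroupMap _).trans (MulEquiv.subgroupCongr h1)⟩


end Cfsg.Agent.S2565
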