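import Cfsg.Statements.S2566
import Cfsg.Agent.Lib.Helper12.O4Plus
import Cfsg.Agent.S0250
import Cfsg.Agent.S0287

set_option autoImplicit false
open Cfsg

namespace Cfsg.Agent.S2566

open Matrix MatrixGroups Cfsg.Agent.Lib.Helper12

/-- The full orthogonal group of the plus-type form x₁y₁ + x₂y₂ in dimension 4 over the field of two elements has order 72 and is isomorphic to the wreath product of the symmetric group of degree 3 by a group of order 2: it has a normal subgroup isomorphic to the direct product of two symmetric groups of degree 3, of index 2, whose two direct factors are interchanged by conjugation by some element. -/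
theorem result :
    Nat.card ↥(Cfsg.isometryGroup (ZMod 2) (Cfsg.quadFormPlus 2 (ZMod 2))) = 72 ∧
    ∃ (A B : Subgroup ↥(Cfsg.isometryGroup (ZMod 2) (Cfsg.quadFormPlus 2 (ZMod 2)))),
      Nonempty (↥A ≃* Equiv.Perm (Fin 3)) ∧ Nonempty (↥B ≃* Equiv.Perm (Fin 3)) ∧ A ⊓ B = ⊥ ∧ (∀ a ∈ A, ∀ b ∈ B, a * b = b * a) ∧
      (A ⊔ B).index = 2 ∧ ∃ g : ↥(Cfsg.isometryGroup (ZMod 2) (Cfsg.quadFormPlus 2 (ZMod 2))), A.map (MulAut.conj g).toMonoidHom = B := by
  have hF : Fintype.card (ZMod 2) = 2 := ZMod.card 2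
  have hcard : Nat.card ↥(Cfsg.isometryGroup (ZMod 2) (Cfsg.quadFormPlus 2 (ZMod 2))) = 72 := by
    rw [Cfsg.Agent.S0287.result hF 2 (by norm_num)]
    simp [Finset.prod_range_succ]
  refine ⟨hcard, ?_⟩
  obtain ⟨f, hf⟩ := exists_detIso_hom (ZMod 2)
  obtain ⟨e⟩ := Cfsg.Agent.S0250.result hF
  let a := f.comp (lmulH (ZMod 2))
  let b := f.comp (rmulH (ZMod 2))
  have ha : Function.Injective a := hf.comp lmulH_injective
  have hb : Function.Injective b := hf.comp rmulH_injective
  have hcomm : ∀ g h, Commute (a g) (b h) := by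
    intro g h
    exact (lmul_rmul_comm g h).map f
  have hint : a.range ⊓ b.range = ⊥ := by
    rw [Subgroup.eq_bot_iff_forall]
    rintro x ⟨⟨g, rfl⟩, ⟨h, hh⟩⟩
    have h1 : rmulH (ZMod 2) h = lmulH (ZMod 2) g := hf hh
    have h2 : ∀ X : Matrix (Fin 2) (Fin 2) (ZMod 2), X * (h⁻¹).1 = g.1 * X := by
      intro X
      have := congrArg (fun T : detIso (ZMod 2) => (T : Matrix (Fin 2) (Fin 2) (ZMod 2) ≃ₗ[ZMod 2] Matrix (Fin 2) (Fin 2) (ZMod 2)) X) h1
      exact this
    have h3 : (h⁻¹).1 = g.1 := by simpa using h2 1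
    rw [h3] at h2
    have e1 := h2 !![0, 1; 0, 0]
    have e2 := h2 !![0, 0; 1, 0]
    have e1a := congrFun (congrFun e1 0) 0
    have e1b := congrFun (congrFun e1 0) 1
    have e2a := congrFun (congrFun e2 1) 1
    simp [Matrix.mul_apply, Fin.sum_univ_two] at e1a e1b e2a
    have hdet := g.2
    rw [det_fin_two, e1a, e2a] at hdet
    have hg : g = 1 := by
      apply Subtype.ext
      have h00 : g.1 0 0 = 1 := by
        have : ∀ c d : ZMod 2, d = c → c * d - 0 * 0 = 1 → c = 1 := by decide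
        exact this _ _ e1b hdet
      ext i j
      fin_cases i <;> fin_cases j
      · exact h00
      · exact e2a
      · exact e1a
      · show g.1 1 1 = 1
        rw [e1b, h00]
    rw [hg, map_one]
  refine ⟨a.range, b.range, ⟨(MonoidHom.ofInjective ha).symm.trans e⟩,
    ⟨(MonoidHom.ofInjective hb).symm.trans e⟩, hint, ?_, ?_, f (trI (ZMod 2)), ?_⟩
  · rintro _ ⟨g, rfl⟩ _ ⟨h, rfl⟩
    exact hcomm g h
  · let γ := a.noncommCoprod b hcomm
    have hγ : Function.Injective γ := by
      rw [injective_iff_map_eq_one]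
      rintro ⟨g, h⟩ hgh
      have h1 : a g * b h = 1 := hgh
      have h2 : a g = b h⁻¹ := by rw [map_inv]; exact eq_inv_of_mul_eq_one_left h1
      have h3 : a g ∈ a.range ⊓ b.range := ⟨⟨g, rfl⟩, ⟨h⁻¹, h2.symm⟩⟩
      rw [hint, Subgroup.mem_bot] at h3
      have hg : g = 1 := ha (by rw [h3, map_one])
      rw [h3, one_mul] at h1
      have hh : h = 1 := hb (by rw [h1, map_one])
      rw [hg, hh]; rfl
    have h6 : Nat.card SL(2, ZMod 2) = 6 := by
      rw [Nat.card_congr e.toEquiv, Nat.card_eq_fintype_card, Fintype.card_perm, Fintype.card_fin]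
      rfl
    have h36 : Nat.card (a.range ⊔ b.range : Subgroup _) = 36 := by
      rw [← MonoidHom.noncommCoprod_range a b hcomm,
        ← Nat.card_congr (MonoidHom.ofInjective hγ).toEquiv, Nat.card_prod, h6]
    have h4 := (a.range ⊔ b.range).card_mul_index
    rw [h36, hcard] at h4
    omega
  · ext x
    constructor
    · rintro ⟨_, ⟨s, rfl⟩, rfl⟩
      refine ⟨(s.transpose)⁻¹, ?_⟩
      show f (rmulH (ZMod 2) (s.transpose)⁻¹) = f (trI (ZMod 2)) * f (lmulH (ZMod 2) s) * (f (trI (ZMod 2)))⁻¹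
      rw [← trI_conj_lmul, map_mul, map_mul, map_inv]
    · rintro ⟨h, rfl⟩
      refine ⟨a (h⁻¹).transpose, ⟨_, rfl⟩, ?_⟩
      show f (trI (ZMod 2)) * f (lmulH (ZMod 2) (h⁻¹).transpose) * (f (trI (ZMod 2)))⁻¹ = f (rmulH (ZMod 2) h)
      have this : ((h⁻¹).transpose).transpose = h⁻¹ := by
        apply Subtype.ext
        show (((h⁻¹).1)ᵀ)ᵀ = (h⁻¹).1
        rw [transpose_transpose]
      rw [← map_inv, ← map_mul, ← map_mul, trI_conj_lmul, this, inv_inv]


end Cfsg.Agent.S2566
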