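import Cfsg.Statements.S2567
import Mathlib

set_option autoImplicit false
open Cfsg

namespace Cfsg.Agent.S2567

/-- Lifting elements of prime order from PGL to GL: let F be a finite field with q elements, r a prime not dividing q − 1, and x an element of order r in GL_n(F) modulo its centre (the scalar matrices). Then x has exactly one preimage in GL_n(F) of order r. -/
theorem result {F : Type*} [Field F] [Fintype F] {q n r : ℕ} (hF : Fintype.card F = q) (hr : r.Prime) (hdiv : ¬ r ∣ q - 1) (x : GL (Fin n) F ⧸ Subgroup.center (GL (Fin n) F)) (hx : orderOf x = r) : ∃! g : GL (Fin n) F, (QuotientGroup.mk g : GL (Fin n) F ⧸ Subgroup.center (GL (Fin n) F)) = x ∧ orderOf g = r := by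
  classical
  haveI : Fact r.Prime := ⟨hr⟩
  have hcop : (Nat.card Fˣ).Coprime r := by
    rw [Nat.card_eq_fintype_card, Fintype.card_units, hF]
    exact ((Nat.Prime.coprime_iff_not_dvd hr).2 hdiv).symm
  obtain ⟨g0, rfl⟩ := QuotientGroup.mk_surjective x
  have h1 : g0 ^ r ∈ Subgroup.center (GL (Fin n) F) := by
    rw [← QuotientGroup.eq_one_iff, QuotientGroup.mk_pow, ← hx, pow_orderOf_eq_one]
  have hcen : ∀ u : Fˣ, Matrix.GeneralLinearGroup.scalar (Fin n) u ∈
      Subgroup.center (GL (Fin n) F) := by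
    intro u
    rw [Matrix.GeneralLinearGroup.center_eq_range_scalar]
    exact ⟨u, rfl⟩
  rw [Matrix.GeneralLinearGroup.center_eq_range_scalar] at h1
  obtain ⟨l, hl⟩ := h1
  obtain ⟨μ, hμ⟩ : ∃ μ : Fˣ, μ ^ r = l :=
    ⟨(powCoprime hcop).symm l, (powCoprime hcop).apply_symm_apply l⟩
  obtain ⟨g, hgdef⟩ : ∃ g, g = g0 * Matrix.GeneralLinearGroup.scalar (Fin n) μ⁻¹ := ⟨_, rfl⟩
  have hmk : (QuotientGroup.mk g : GL (Fin n) F ⧸ Subgroup.center (GL (Fin n) F))
      = QuotientGroup.mk g0 := by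
    rw [hgdef, QuotientGroup.mk_mul, (QuotientGroup.eq_one_iff _).2 (hcen _), mul_one]
  have hgr : g ^ r = 1 := by
    have hc : Commute g0 (Matrix.GeneralLinearGroup.scalar (Fin n) μ⁻¹) :=
      Subgroup.mem_center_iff.1 (hcen μ⁻¹) g0
    rw [hgdef, hc.mul_pow, ← hl, ← map_pow, ← map_mul, inv_pow, hμ, mul_inv_cancel, map_one]
  have hg1 : g ≠ 1 := by
    intro h
    rw [h, QuotientGroup.mk_one] at hmk
    rw [← hmk, orderOf_one] at hx
    exact hr.one_lt.ne hx
  refine ⟨g, ⟨hmk, orderOf_eq_prime hgr hg1⟩, ?_⟩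
  rintro g' ⟨hg'1, hg'2⟩
  have h2 : g⁻¹ * g' ∈ Subgroup.center (GL (Fin n) F) := QuotientGroup.eq.1 (hmk.trans hg'1.symm)
  rw [Matrix.GeneralLinearGroup.center_eq_range_scalar] at h2
  obtain ⟨ν, hν⟩ := h2
  have hg' : g' = g * Matrix.GeneralLinearGroup.scalar (Fin n) ν := by rw [hν]; group
  have hz : (Matrix.GeneralLinearGroup.scalar (Fin n) ν) ^ r = 1 := by
    have hc : Commute g (Matrix.GeneralLinearGroup.scalar (Fin n) ν) :=
      Subgroup.mem_center_iff.1 (hcen ν) g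
    have h3 := pow_orderOf_eq_one g'
    rw [hg'2, hg', hc.mul_pow, hgr, one_mul] at h3
    exact h3
  have ho1 : orderOf (Matrix.GeneralLinearGroup.scalar (Fin n) ν) ∣ r := orderOf_dvd_of_pow_eq_one hz
  have ho2 : orderOf (Matrix.GeneralLinearGroup.scalar (Fin n) ν) ∣ Nat.card Fˣ :=
    (orderOf_map_dvd (Matrix.GeneralLinearGroup.scalar (Fin n)) ν).trans (orderOf_dvd_natCard ν)
  have ho3 : orderOf (Matrix.GeneralLinearGroup.scalar (Fin n) ν) = 1 :=
    Nat.eq_one_of_dvd_coprimes hcop ho2 ho1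
  rw [hg', orderOf_eq_one_iff.1 ho3, mul_one]

end Cfsg.Agent.S2567
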