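import Cfsg.Statements.S2571
import Mathlib
import Cfsg.Agent.Lib.Helper15.RegNilpCyclic

set_option autoImplicit false
open Cfsg

namespace Cfsg.Agent.S2571

/-- Centraliser of a regular unipotent element in GL_n(q): if u is an invertible n × n matrix over the field with q elements, n ≥ 1, with (u − 1)^n = 0 and rank(u − 1) = n − 1 (a single unipotent Jordan block), then its centraliser in GL_n(q) has order (q − 1) q^(n−1). -/
theorem result {F : Type*} [Field F] [Fintype F] {q n : ℕ} (hF : Fintype.card F = q) (hn : 1 ≤ n) (u : GL (Fin n) F) (hnil : ((u : Matrix (Fin n) (Fin n) F) - 1) ^ n = 0) (hreg : ((u : Matrix (Fin n) (Fin n) F) - 1).rank = n - 1) : Nat.card ↥(Subgroup.centralizer ({u} : Set (GL (Fin n) F))) = (q - 1) * q ^ (n - 1) := by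
  classical
  obtain ⟨A, hA⟩ : ∃ A : Matrix (Fin n) (Fin n) F, A = (u : Matrix (Fin n) (Fin n) F) - 1 := ⟨_, rfl⟩
  rw [← hA] at hnil hreg
  have hcard : Fintype.card (Fin n) = n := Fintype.card_fin n
  have hnil' : A ^ Fintype.card (Fin n) = 0 := by rw [hcard]; exact hnil
  have hreg' : A.rank = Fintype.card (Fin n) - 1 := by rw [hcard]; exact hreg
  have hn' : 1 ≤ Fintype.card (Fin n) := by rw [hcard]; exact hn
  obtain ⟨v₀, hv₀⟩ := Cfsg.Agent.Lib.Helper15.exists_cyclic_vector A hnil' hreg' hn'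
  have hcomm : ∀ g : GL (Fin n) F, g ∈ Subgroup.centralizer ({u} : Set (GL (Fin n) F)) ↔
      Commute (g : Matrix (Fin n) (Fin n) F) A := by
    intro g
    rw [Subgroup.mem_centralizer_singleton_iff, hA]
    constructor
    · intro h
      have h' : (g : Matrix (Fin n) (Fin n) F) * u = u * g := by
        rw [← Units.val_mul, ← Units.val_mul, h]
      exact Commute.sub_right h' (Commute.one_right _)
    · intro h
      have h' : Commute (g : Matrix (Fin n) (Fin n) F) (((u : Matrix (Fin n) (Fin n) F) - 1) + 1) :=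
        h.add_right (Commute.one_right _)
      rw [sub_add_cancel] at h'
      apply Units.ext
      rw [Units.val_mul, Units.val_mul]
      exact h'.eq
  let Φ : Subgroup.centralizer ({u} : Set (GL (Fin n) F)) →
      {w : Fin n → F // ¬ (w ∈ LinearMap.ker (Matrix.mulVecLin (A ^ (Fintype.card (Fin n) - 1))))} :=
    fun g => ⟨((g : GL (Fin n) F) : Matrix (Fin n) (Fin n) F).mulVec v₀, by
      have h1 := (Cfsg.Agent.Lib.Helper15.isUnit_iff_of_commute A hnil' hreg' hn' v₀ hv₀
        ((hcomm g).mp g.2)).mp (g : GL (Fin n) F).isUnit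
      exact h1⟩
  have hΦ : Function.Bijective Φ := by
    constructor
    · intro g h hgh
      have h1 : ((g : GL (Fin n) F) : Matrix (Fin n) (Fin n) F).mulVec v₀
          = ((h : GL (Fin n) F) : Matrix (Fin n) (Fin n) F).mulVec v₀ := congrArg Subtype.val hgh
      have h2 := Cfsg.Agent.Lib.Helper15.eq_of_commute_of_mulVec_eq A hnil' hreg' v₀ hv₀
        ((hcomm g).mp g.2) ((hcomm h).mp h.2) h1
      exact Subtype.ext (Units.ext h2)
    · rintro ⟨w, hw⟩
      obtain ⟨p, hp⟩ := Cfsg.Agent.Lib.Helper15.polyEval_surjective A hnil' hreg' v₀ hv₀ w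
      have hc : Commute (Polynomial.aeval A p) A :=
        (Cfsg.Agent.Lib.Helper15.commute_aeval (Commute.refl A) p).symm
      have hu : IsUnit (Polynomial.aeval A p) := by
        rw [Cfsg.Agent.Lib.Helper15.isUnit_iff_of_commute A hnil' hreg' hn' v₀ hv₀ hc, hp]
        exact hw
      refine ⟨⟨hu.unit, (hcomm _).mpr hc⟩, ?_⟩
      apply Subtype.ext
      exact hp
  rw [Nat.card_congr (Equiv.ofBijective Φ hΦ), Nat.card_eq_fintype_card, Fintype.card_subtype_compl,
    Fintype.card_pi_const, hF]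
  have h3 : Fintype.card (LinearMap.ker (Matrix.mulVecLin (A ^ (Fintype.card (Fin n) - 1)))) = q ^ (n - 1) := by
    rw [Module.card_eq_pow_finrank (K := F),
      Cfsg.Agent.Lib.Helper15.matrix_finrank_ker_pow A hnil' hreg' _ (Nat.sub_le _ _), hF, hcard]
  have h4 : Fintype.card {x // x ∈ LinearMap.ker (Matrix.mulVecLin (A ^ (Fintype.card (Fin n) - 1)))} = q ^ (n - 1) := by
    rw [← h3]
  rw [h4]
  obtain ⟨k, rfl⟩ : ∃ k, n = k + 1 := ⟨n - 1, by omega⟩
  simp only [Nat.add_sub_cancel]
  rw [Nat.sub_mul, one_mul, pow_succ']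

end Cfsg.Agent.S2571
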