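import Cfsg.Statements.S2572
import Mathlib
import Cfsg.Agent.Lib.Helper12.Transv

set_option autoImplicit false
open Cfsg

namespace Cfsg.Agent.S2572

open Matrix

variable {F : Type*} [Field F]

theorem det_col0 {n : ℕ} (M : Matrix (Fin (n+1)) (Fin (n+1)) F)
    (h : ∀ i : Fin n, M i.succ 0 = 0) :
    M.det = M 0 0 * (M.submatrix Fin.succ Fin.succ).det := by
  rw [Matrix.det_succ_column_zero, Fin.sum_univ_succ]
  simp [h]

theorem det_row0 {n : ℕ} (M : Matrix (Fin (n+1)) (Fin (n+1)) F)
    (h : ∀ j : Fin n, M 0 j.succ = 0) :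
    M.det = M 0 0 * (M.submatrix Fin.succ Fin.succ).det := by
  rw [Matrix.det_succ_row_zero, Fin.sum_univ_succ]
  simp [h]

/-- shape predicate -/
def Shape {m : ℕ} (M : Matrix (Fin (m+2)) (Fin (m+2)) F) : Prop :=
  (∀ i : Fin (m+1), M i.succ 0 = 0) ∧ (∀ j : Fin m, M 1 j.succ.succ = 0) ∧ M 0 0 = M 1 1

theorem commute_iff_shape {m : ℕ} (M : Matrix (Fin (m+2)) (Fin (m+2)) F) :
    M * Matrix.transvection 0 1 1 = Matrix.transvection 0 1 1 * M ↔ Shape M := by
  unfold Shape
  rw [Matrix.transvection, mul_add, add_mul, mul_one, one_mul, add_right_inj]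
  have hL : ∀ i j, (M * (Matrix.single 0 1 1 : Matrix (Fin (m+2)) (Fin (m+2)) F)) i j =
      if j = 1 then M i 0 else 0 := by
    intro i j
    by_cases hj : j = 1
    · subst hj; simp [Matrix.mul_apply, Matrix.single_apply]
    · simp [Matrix.mul_apply, Matrix.single_apply, hj, Ne.symm hj]
  have hR : ∀ i j, ((Matrix.single 0 1 1 : Matrix (Fin (m+2)) (Fin (m+2)) F) * M) i j =
      if i = 0 then M 1 j else 0 := by
    intro i j
    by_cases hi : i = 0
    · subst hi; simp [Matrix.mul_apply, Matrix.single_apply]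
    · simp [Matrix.mul_apply, Matrix.single_apply, hi, Ne.symm hi]
  have h1ss : ∀ j : Fin m, (j.succ.succ : Fin (m+2)) ≠ 1 := by
    intro j h; have := congrArg Fin.val h; simp at this
  constructor
  · intro h
    refine ⟨fun i => ?_, fun j => ?_, ?_⟩
    · have := congrFun (congrFun h i.succ) 1
      rw [hL, hR] at this
      simpa [Fin.succ_ne_zero] using this
    · have := congrFun (congrFun h 0) j.succ.succ
      rw [hL, hR] at this
      simpa [h1ss j] using this.symm
    · have := congrFun (congrFun h 0) 1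
      rw [hL, hR] at this
      simpa using this
  · rintro ⟨h1, h2, h3⟩
    ext i j
    rw [hL, hR]
    refine Fin.cases ?_ (fun i' => ?_) i
    · refine Fin.cases ?_ (fun j' => ?_) j
      · have : M 1 0 = 0 := h1 0
        simp [this]
      · refine Fin.cases ?_ (fun j'' => ?_) j'
        · simpa using h3
        · simp [h1ss j'', h2 j'']
    · simp [Fin.succ_ne_zero, h1 i']

/-- the parametrised matrix -/
def mkM {m : ℕ} (a : F) (r : Fin (m+1) → F) (c : Fin m → F) (A : Matrix (Fin m) (Fin m) F) :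
    Matrix (Fin (m+2)) (Fin (m+2)) F :=
  fun i j => Fin.cases (Fin.cases a r j)
    (fun i' => Fin.cases 0 (fun j' =>
      Fin.cases (Fin.cases a (fun _ => 0) j')
        (fun i'' => Fin.cases (c i'') (fun j'' => A i'' j'') j') i') j) i

theorem mkM_shape {m : ℕ} (a : F) (r : Fin (m+1) → F) (c : Fin m → F)
    (A : Matrix (Fin m) (Fin m) F) : Shape (mkM a r c A) := by
  refine ⟨fun i => rfl, fun j => rfl, rfl⟩

theorem det_of_shape {m : ℕ} (M : Matrix (Fin (m+2)) (Fin (m+2)) F) (h : Shape M) :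
    M.det = M 0 0 * (M 1 1 * (M.submatrix (fun i : Fin m => i.succ.succ)
      (fun i : Fin m => i.succ.succ)).det) := by
  rw [det_col0 M h.1, det_row0 (M.submatrix Fin.succ Fin.succ) (fun j => h.2.1 j)]
  rfl

theorem eq_mkM {m : ℕ} (M : Matrix (Fin (m+2)) (Fin (m+2)) F) (h : Shape M) :
    M = mkM (M 0 0) (fun j => M 0 j.succ) (fun i => M i.succ.succ 1)
      (M.submatrix (fun i : Fin m => i.succ.succ) (fun i : Fin m => i.succ.succ)) := by
  ext i j
  refine Fin.cases ?_ (fun i' => ?_) i
  · refine Fin.cases ?_ (fun j' => ?_) j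
    · rfl
    · rfl
  · refine Fin.cases ?_ (fun j' => ?_) j
    · exact h.1 i'
    · refine Fin.cases ?_ (fun i'' => ?_) i'
      · refine Fin.cases ?_ (fun j'' => ?_) j'
        · exact h.2.2.symm
        · exact h.2.1 j''
      · refine Fin.cases ?_ (fun j'' => ?_) j'
        · rfl
        · rfl

theorem det_mkM {m : ℕ} (a : F) (r : Fin (m+1) → F) (c : Fin m → F)
    (A : Matrix (Fin m) (Fin m) F) :
    (mkM a r c A).det = a * (a * A.det) := by
  rw [det_of_shape _ (mkM_shape _ _ _ _)]
  have : ((mkM a r c A).submatrix (fun i : Fin m => i.succ.succ)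
      (fun i : Fin m => i.succ.succ)) = A := by
    ext i j; rfl
  rw [this]
  rfl

/-- the parametrised element of `GL` -/
noncomputable def mkGL {m : ℕ} (a : Fˣ) (r : Fin (m+1) → F) (c : Fin m → F)
    (A : GL (Fin m) F) : GL (Fin (m+2)) F :=
  Matrix.GeneralLinearGroup.mkOfDetNeZero (mkM (a : F) r c (A : Matrix (Fin m) (Fin m) F)) (by
    rw [det_mkM]
    have h1 : (A : Matrix (Fin m) (Fin m) F).det ≠ 0 := by
      have := A.det.ne_zero
      simpa using this
    exact mul_ne_zero a.ne_zero (mul_ne_zero a.ne_zero h1))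

theorem coe_mkGL {m : ℕ} (a : Fˣ) (r : Fin (m+1) → F) (c : Fin m → F)
    (A : GL (Fin m) F) :
    (mkGL a r c A : Matrix (Fin (m+2)) (Fin (m+2)) F) =
      mkM (a : F) r c (A : Matrix (Fin m) (Fin m) F) := rfl

theorem card_centralizer_std [Fintype F] {m : ℕ} (T : GL (Fin (m+2)) F)
    (hT : (T : Matrix (Fin (m+2)) (Fin (m+2)) F) = Matrix.transvection 0 1 1) :
    Nat.card (Subgroup.centralizer ({T} : Set (GL (Fin (m+2)) F))) =
      Nat.card (Fˣ × (Fin (m+1) → F) × (Fin m → F) × GL (Fin m) F) := by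
  classical
  let P := Fˣ × (Fin (m+1) → F) × (Fin m → F) × GL (Fin m) F
  have hmem : ∀ p : P, mkGL p.1 p.2.1 p.2.2.1 p.2.2.2 ∈
      Subgroup.centralizer ({T} : Set (GL (Fin (m+2)) F)) := by
    intro p
    refine Subgroup.mem_centralizer_singleton_iff.mpr ?_
    apply Units.ext
    have := (commute_iff_shape _).mpr (mkM_shape (p.1 : F) p.2.1 p.2.2.1
      (p.2.2.2 : Matrix (Fin m) (Fin m) F))
    rw [Units.val_mul, Units.val_mul, hT, coe_mkGL]
    exact this
  let f : P → Subgroup.centralizer ({T} : Set (GL (Fin (m+2)) F)) :=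
    fun p => ⟨mkGL p.1 p.2.1 p.2.2.1 p.2.2.2, hmem p⟩
  have hf : Function.Bijective f := by
    constructor
    · intro p q hpq
      have h0 : mkGL p.1 p.2.1 p.2.2.1 p.2.2.2 = mkGL q.1 q.2.1 q.2.2.1 q.2.2.2 :=
        congrArg Subtype.val hpq
      have h1 : mkM (p.1 : F) p.2.1 p.2.2.1 (p.2.2.2 : Matrix (Fin m) (Fin m) F) =
          mkM (q.1 : F) q.2.1 q.2.2.1 (q.2.2.2 : Matrix (Fin m) (Fin m) F) := by
        rw [← coe_mkGL, ← coe_mkGL, h0]
      refine Prod.ext ?_ (Prod.ext ?_ (Prod.ext ?_ ?_))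
      · apply Units.ext
        exact congrFun (congrFun h1 0) 0
      · funext j
        exact congrFun (congrFun h1 0) j.succ
      · funext i
        exact congrFun (congrFun h1 i.succ.succ) 1
      · apply Units.ext
        ext i j
        exact congrFun (congrFun h1 i.succ.succ) j.succ.succ
    · intro g
      have hsh : Shape ((g.1 : GL (Fin (m+2)) F) : Matrix (Fin (m+2)) (Fin (m+2)) F) := by
        rw [← commute_iff_shape, ← hT]
        have := Subgroup.mem_centralizer_singleton_iff.mp g.2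
        have h2 := congrArg Units.val this
        simpa using h2
      have hd := det_of_shape _ hsh
      have hdet : ((g.1 : GL (Fin (m+2)) F) : Matrix (Fin (m+2)) (Fin (m+2)) F).det ≠ 0 := by
        have := (g.1 : GL (Fin (m+2)) F).det.ne_zero
        simpa using this
      rw [hd] at hdet
      have h00 := left_ne_zero_of_mul hdet
      have hA := right_ne_zero_of_mul (right_ne_zero_of_mul hdet)
      refine ⟨(Units.mk0 _ h00, fun j => (g.1 : Matrix (Fin (m+2)) (Fin (m+2)) F) 0 j.succ,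
        fun i => (g.1 : Matrix (Fin (m+2)) (Fin (m+2)) F) i.succ.succ 1,
        Matrix.GeneralLinearGroup.mkOfDetNeZero _ hA), ?_⟩
      apply Subtype.ext
      apply Units.ext
      exact (eq_mkM _ hsh).symm
  exact (Nat.card_congr (Equiv.ofBijective f hf)).symm

theorem card_centralizer_conj {G : Type*} [Group G] (t g : G) :
    Nat.card (Subgroup.centralizer ({t} : Set G)) =
      Nat.card (Subgroup.centralizer ({g⁻¹ * t * g} : Set G)) := by
  refine Nat.card_congr
    { toFun := fun x => ⟨g⁻¹ * x.1 * g, ?_⟩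
      invFun := fun y => ⟨g * y.1 * g⁻¹, ?_⟩
      left_inv := fun x => by apply Subtype.ext; simp [mul_assoc]
      right_inv := fun y => by apply Subtype.ext; simp [mul_assoc] }
  · have := Subgroup.mem_centralizer_singleton_iff.mp x.2
    refine Subgroup.mem_centralizer_singleton_iff.mpr ?_
    calc g⁻¹ * x.1 * g * (g⁻¹ * t * g) = g⁻¹ * (x.1 * t) * g := by group
      _ = g⁻¹ * (t * x.1) * g := by rw [this]
      _ = _ := by group
  · have := Subgroup.mem_centralizer_singleton_iff.mp y.2
    refine Subgroup.mem_centralizer_singleton_iff.mpr ?_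
    calc g * y.1 * g⁻¹ * t = g * (y.1 * (g⁻¹ * t * g)) * g⁻¹ := by group
      _ = g * ((g⁻¹ * t * g) * y.1) * g⁻¹ := by rw [this]
      _ = _ := by group

/-- Centraliser of a transvection in GL_n(q), n ≥ 2: if t − 1 has rank one and square zero, the centraliser of t in GL_n(q) has order q^(2n−3) (q − 1) |GL_(n−2)(q)| (a group of order q^(2n−3) extended by GL_1(q) × GL_(n−2)(q)). -/
theorem result {F : Type*} [Field F] [Fintype F] {q n : ℕ} (hF : Fintype.card F = q) (hn : 2 ≤ n) (t : GL (Fin n) F) (ht : Cfsg.IsTransvection (t : Matrix (Fin n) (Fin n) F)) : Nat.card ↥(Subgroup.centralizer ({t} : Set (GL (Fin n) F))) = q ^ (2 * n - 3) * (q - 1) * ∏ i : Fin (n - 2), (q ^ (n - 2) - q ^ (i : ℕ)) := by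
  classical
  obtain ⟨m, rfl⟩ : ∃ m, n = m + 2 := ⟨n - 2, by omega⟩
  have h01 : (0 : Fin (m + 2)) ≠ 1 := by simp [Fin.ext_iff]
  change Nat.card _ = q ^ (2 * (m + 2) - 3) * (q - 1) * ∏ i : Fin m, (q ^ m - q ^ (i : ℕ))
  obtain ⟨G, hG⟩ := Cfsg.Agent.Lib.Helper12.exists_GL_conj_transvection _ ht.1 ht.2 0 1 h01
  rw [card_centralizer_conj t G, card_centralizer_std (G⁻¹ * t * G)]
  · rw [Nat.card_prod, Nat.card_prod, Nat.card_prod, Matrix.card_GL_field, hF,
      Nat.card_eq_fintype_card, Fintype.card_units, hF, Nat.card_eq_fintype_card,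
      Nat.card_eq_fintype_card, Fintype.card_fun, Fintype.card_fun, hF, Fintype.card_fin,
      Fintype.card_fin]
    have e1 : 2 * (m + 2) - 3 = (m + 1) + m := by omega
    rw [e1, pow_add]
    ring
  · rw [mul_assoc, Units.val_mul, Units.val_mul, hG, ← mul_assoc, ← Units.val_mul, inv_mul_cancel]
    simp


end Cfsg.Agent.S2572
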