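import Cfsg.Statements.S2574
import Mathlib
import Cfsg.Agent.Lib.Helper15.RegNilp

set_option autoImplicit false
open Cfsg

namespace Cfsg.Agent.S2574

open Module LinearMap in
theorem ker_pow_eq_range_pow {K V : Type*} [Field K] [AddCommGroup V] [Module K V]
    [FiniteDimensional K V] (N : End K V) (h : finrank K (ker N) ≤ 1)
    (hn : N ^ finrank K V = 0) (k : ℕ) (hk : k ≤ finrank K V) :
    ker (N ^ k) = range (N ^ (finrank K V - k)) := by
  symm
  apply Submodule.eq_of_le_of_finrank_eq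
  · rintro _ ⟨x, rfl⟩
    rw [LinearMap.mem_ker, ← Module.End.mul_apply, ← pow_add, Nat.add_sub_cancel' hk, hn]
    simp
  · have h1 := (N ^ (finrank K V - k)).finrank_range_add_finrank_ker
    rw [Cfsg.Agent.Lib.Helper15.finrank_ker_pow_eq N h hn _ (Nat.sub_le _ _)] at h1
    rw [Cfsg.Agent.Lib.Helper15.finrank_ker_pow_eq N h hn _ hk]
    omega

open Module LinearMap in
theorem matrix_ker_pow_eq_range_pow {K ι : Type*} [Field K] [Fintype ι] [DecidableEq ι]
    (A : Matrix ι ι K) (hnil : A ^ Fintype.card ι = 0)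
    (hreg : A.rank = Fintype.card ι - 1) (k : ℕ) (hk : k ≤ Fintype.card ι) :
    ker (Matrix.mulVecLin (A ^ k)) = range (Matrix.mulVecLin (A ^ (Fintype.card ι - k))) := by
  rw [Cfsg.Agent.Lib.Helper15.mulVecLin_pow, Cfsg.Agent.Lib.Helper15.mulVecLin_pow]
  have h := ker_pow_eq_range_pow (Matrix.mulVecLin A)
    (Cfsg.Agent.Lib.Helper15.finrank_ker_mulVecLin_le_one A hreg)
    (Cfsg.Agent.Lib.Helper15.mulVecLin_pow_finrank_eq_zero A hnil) k
    (by rw [Module.finrank_fintype_fun_eq_card]; exact hk)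
  rw [Module.finrank_fintype_fun_eq_card] at h
  exact h

theorem form_key {F : Type*} [Field F] {m : ℕ}
    (A B : Matrix (Fin m ⊕ Fin m) (Fin m ⊕ Fin m) F) (hAB : A * B = 1) (hBA : B * A = 1)
    (hf : ∀ x y, Cfsg.sympForm m F (A.mulVec x) (A.mulVec y) = Cfsg.sympForm m F x y) (k : ℕ) :
    ∀ x y, ((A - 1) ^ k).mulVec y = 0 → Cfsg.sympForm m F (((A - 1) ^ k).mulVec x) y = 0 := by
  induction k with
  | zero =>
    intro x y hy
    have : y = 0 := by simpa using hy
    subst this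
    simp [Cfsg.sympForm]
  | succ k ih =>
    intro x y hy
    have hy' : y = A.mulVec (B.mulVec y) := by
      rw [Matrix.mulVec_mulVec, hAB, Matrix.one_mulVec]
    have hcomm : Commute (A - 1) B := by
      unfold Commute SemiconjBy
      rw [sub_mul, mul_sub, hAB, hBA]; simp
    have hz : ((A - 1) ^ k).mulVec ((A - 1).mulVec (B.mulVec y)) = 0 := by
      rw [Matrix.mulVec_mulVec, Matrix.mulVec_mulVec, ← pow_succ, (hcomm.pow_left (k + 1)).eq,
        ← Matrix.mulVec_mulVec, hy, Matrix.mulVec_zero]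
    have h1 := ih x _ hz
    have key : ∀ a z, Cfsg.sympForm m F ((A - 1).mulVec a) (A.mulVec z)
        = - Cfsg.sympForm m F a ((A - 1).mulVec z) := by
      intro a z
      have h2 := hf a z
      simp only [Cfsg.sympForm, Matrix.sub_mulVec, Matrix.one_mulVec, sub_dotProduct,
        Matrix.mulVec_sub, dotProduct_sub] at h2 ⊢
      rw [h2]; ring
    rw [pow_succ', ← Matrix.mulVec_mulVec, hy', key, h1, neg_zero]

/-- A regular unipotent element of the symplectic group has totally isotropic small invariant subspaces: over a finite field, if u ∈ Sp_2m(F) satisfies (u − 1)^(2m) = 0 and rank(u − 1) = 2m − 1, and W is a u-invariant subspace with 2 dim W ≤ 2m, then the alternating form vanishes identically on W. -/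
theorem result {F : Type*} [Field F] [Finite F] {m : ℕ} (u : Matrix.symplecticGroup (Fin m) F) (hnil : ((u : Matrix (Fin m ⊕ Fin m) (Fin m ⊕ Fin m) F) - 1) ^ (2 * m) = 0) (hreg : ((u : Matrix (Fin m ⊕ Fin m) (Fin m ⊕ Fin m) F) - 1).rank = 2 * m - 1) (W : Submodule F (Fin m ⊕ Fin m → F)) (hW : ∀ v ∈ W, (u : Matrix (Fin m ⊕ Fin m) (Fin m ⊕ Fin m) F).mulVec v ∈ W) (hdim : 2 * Module.finrank F W ≤ 2 * m) : ∀ v ∈ W, ∀ w ∈ W, Cfsg.sympForm m F v w = 0 := by
  classical
  set A : Matrix (Fin m ⊕ Fin m) (Fin m ⊕ Fin m) F := (u : Matrix (Fin m ⊕ Fin m) (Fin m ⊕ Fin m) F) with hA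
  set B : Matrix (Fin m ⊕ Fin m) (Fin m ⊕ Fin m) F := ((u⁻¹ : Matrix.symplecticGroup (Fin m) F) : Matrix (Fin m ⊕ Fin m) (Fin m ⊕ Fin m) F) with hB
  have hAB : A * B = 1 := by
    rw [hA, hB, ← Submonoid.coe_mul, mul_inv_cancel, Submonoid.coe_one]
  have hBA : B * A = 1 := by
    rw [hA, hB, ← Submonoid.coe_mul, inv_mul_cancel, Submonoid.coe_one]
  have hJ : A.transpose * Matrix.J (Fin m) F * A = Matrix.J (Fin m) F :=
    SymplecticGroup.mem_iff'.mp u.2
  have hf : ∀ x y, Cfsg.sympForm m F (A.mulVec x) (A.mulVec y) = Cfsg.sympForm m F x y := by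
    intro x y
    unfold Cfsg.sympForm
    rw [Matrix.mulVec_mulVec, Matrix.dotProduct_mulVec, Matrix.vecMul_mulVec,
      ← Matrix.mul_assoc, hJ, Matrix.dotProduct_mulVec]
  have hcard : Fintype.card (Fin m ⊕ Fin m) = 2 * m := by simp; ring
  have hnil' : (A - 1) ^ Fintype.card (Fin m ⊕ Fin m) = 0 := by rw [hcard]; exact hnil
  have hreg' : (A - 1).rank = Fintype.card (Fin m ⊕ Fin m) - 1 := by rw [hcard]; exact hreg
  have hWinv : ∀ v ∈ W, (A - 1).mulVec v ∈ W := by
    intro v hv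
    rw [Matrix.sub_mulVec, Matrix.one_mulVec]
    exact W.sub_mem (hW v hv) hv
  have hWeq := Cfsg.Agent.Lib.Helper15.matrix_eq_ker_pow_of_invariant (A - 1) hnil' hreg' W hWinv
  obtain ⟨d, hd⟩ : ∃ d, d = Module.finrank F W := ⟨_, rfl⟩
  rw [← hd] at hWeq hdim
  have hdle : d ≤ Fintype.card (Fin m ⊕ Fin m) := by rw [hcard]; omega
  have h3 := matrix_ker_pow_eq_range_pow (A - 1) hnil' hreg' d hdle
  rw [← hWeq, hcard] at h3
  intro v hv w hw
  rw [h3] at hv
  obtain ⟨x, rfl⟩ := hv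
  rw [hWeq] at hw
  have hw0 : ((A - 1) ^ d).mulVec w = 0 := hw
  have hw1 : ((A - 1) ^ (2 * m - d)).mulVec w = 0 := by
    have : 2 * m - d = (2 * m - d - d) + d := by omega
    rw [this, pow_add, ← Matrix.mulVec_mulVec, hw0, Matrix.mulVec_zero]
  exact form_key A B hAB hBA hf _ x w hw1

end Cfsg.Agent.S2574
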