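import Cfsg.Statements.S2576
import Mathlib
import Cfsg.Agent.Lib.Helper29.TwoPart

set_option autoImplicit false
open Cfsg

namespace Cfsg.Agent.S2576

/-- Which involutions of PGL_2m(q) coming from a scalar of the quadratic extension field lie in PSL_2m(q), q odd: let μ generate the Sylow 2-subgroup of the multiplicative group of the field with q elements (μ has order the 2-part of q − 1) and let t be the block-diagonal matrix with m diagonal blocks [[0, 1], [μ, 0]] (so t² is the scalar μ and t is an involution modulo scalars). Then some non-zero scalar multiple of t has determinant one if and only if q ≡ 3 (mod 4) or the 2-part of q − 1 is less than the 2-part of 2m. -/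
theorem result {F : Type*} [Field F] [Fintype F] {q : ℕ} (hF : Fintype.card F = q) (hq : Odd q) {m : ℕ} (hm : 1 ≤ m) (μ : F) (hμ : orderOf μ = 2 ^ padicValNat 2 (q - 1)) : (∃ c : F, c ≠ 0 ∧ (c • Matrix.blockDiagonal (fun _ : Fin m => !![(0 : F), 1; μ, 0])).det = 1) ↔ (q % 4 = 3 ∨ padicValNat 2 (q - 1) < padicValNat 2 (2 * m)) := by
  classical
  subst hF
  have hpos : Fintype.card F - 1 ≠ 0 := by
    have := Fintype.one_lt_card (α := F)
    omega
  obtain ⟨r, hr, hqr⟩ := Cfsg.Agent.Lib.Helper29.TwoPart.decomp hpos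
  obtain ⟨m', hm', hmm⟩ := Cfsg.Agent.Lib.Helper29.TwoPart.decomp (n := m) (by omega)
  have hv : padicValNat 2 (2 * m) = 1 + padicValNat 2 m := by
    rw [padicValNat.mul two_ne_zero (by omega), padicValNat.self (by norm_num)]
  rw [hv]
  generalize padicValNat 2 (Fintype.card F - 1) = s at *
  have hsb' : ∀ k, k ≤ padicValNat 2 m → 2 ^ k ∣ m := fun k hk =>
    (padicValNat_dvd_iff_le (p := 2) (a := m) (by omega)).2 hk
  generalize padicValNat 2 m = b at *
  have hs1 : 1 ≤ s := by
    by_contra h
    have : s = 0 := by omega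
    rw [this, pow_zero, one_mul] at hqr
    obtain ⟨k, hk⟩ := hq
    obtain ⟨l, hl⟩ := hr
    omega
  have hdet : ∀ c : F, (c • Matrix.blockDiagonal
      (fun _ : Fin m => !![(0 : F), 1; μ, 0])).det = c ^ (2 * m) * (-μ) ^ m := by
    intro c
    rw [Matrix.det_smul, Matrix.det_blockDiagonal]
    simp [Matrix.det_fin_two_of]
  simp only [hdet]
  have hμ1 : μ ^ (2 ^ (s - 1)) = -1 :=
    Cfsg.Agent.Lib.Helper29.TwoPart.pow_eq_neg_one μ (s - 1) (by rw [hμ]; congr 1; omega)
  constructor
  · rintro ⟨c, hc0, hc⟩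
    by_contra hcon
    push Not at hcon
    obtain ⟨h3, hbs⟩ := hcon
    have hs2 : 2 ≤ s := by
      by_contra h
      have : s = 1 := by omega
      rw [this, pow_one] at hqr
      obtain ⟨l, hl⟩ := hr
      omega
    have hν : (-μ) ^ (2 ^ (s - 1)) = -1 := by
      rw [neg_pow, hμ1, Even.neg_one_pow (Nat.even_pow.2 ⟨even_two, by omega⟩), one_mul]
    have hy : (c ^ 2 * -μ) ^ m = 1 := by
      rw [mul_pow, ← pow_mul]; exact hc
    have hyh : (c ^ 2 * -μ) ^ (2 ^ (s - 1) * r) = -1 := by
      rw [mul_pow, ← pow_mul, pow_mul (-μ), hν, hr.neg_one_pow]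
      have : 2 * (2 ^ (s - 1) * r) = Fintype.card F - 1 := by
        rw [hqr, ← mul_assoc, ← pow_succ']
        congr 2
        omega
      rw [this, FiniteField.pow_card_sub_one_eq_one c hc0, one_mul]
    have h1 : (c ^ 2 * -μ) ^ (2 ^ (s - 1) * r * m') = -1 := by
      rw [pow_mul, hyh, hm'.neg_one_pow]
    have h2 : 2 ^ (s - 1) * r * m' = m * (2 ^ (s - 1 - b) * r) := by
      conv_rhs => rw [hmm]
      have : 2 ^ (s - 1) = 2 ^ b * 2 ^ (s - 1 - b) := by
        rw [← pow_add]; congr 1; omega
      rw [this]; ring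
    rw [h2, pow_mul, hy, one_pow] at h1
    exact Cfsg.Agent.Lib.Helper29.TwoPart.neg_one_ne_one hq h1.symm
  · rintro (h | h)
    · have hs' : s = 1 := by
        by_contra hne
        obtain ⟨k, hk⟩ : 4 ∣ 2 ^ s := by
          have : s = 2 + (s - 2) := by omega
          rw [this, pow_add]
          exact ⟨_, rfl⟩
        rw [hk] at hqr
        have : Fintype.card F - 1 = 4 * (k * r) := by rw [hqr]; ring
        omega
      have hμ' : μ = -1 := by
        have := hμ1
        rw [hs'] at this
        simpa using this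
      exact ⟨1, one_ne_zero, by rw [hμ']; simp⟩
    · obtain ⟨k, hk⟩ := hsb' s (by omega)
      refine ⟨1, one_ne_zero, ?_⟩
      have h1 : μ ^ (2 ^ s) = 1 := by rw [← hμ, pow_orderOf_eq_one]
      rw [one_pow, one_mul, hk, pow_mul, neg_pow, h1, mul_one,
        Even.neg_one_pow (Nat.even_pow.2 ⟨even_two, by omega⟩), one_pow]

end Cfsg.Agent.S2576
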