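import Cfsg.Statements.S2579
import Mathlib
import Cfsg.Agent.Lib.Helper12.Transv

set_option autoImplicit false
open Cfsg

namespace Cfsg.Agent.S2579


/-- In SL_n(F) with n ≥ 3, over a finite field F, any two transvections (matrices t with t − 1 of rank one and square zero) are conjugate by an element of SL_n(F). -/
theorem result {F : Type*} [Field F] [Finite F] {n : ℕ} (hn : 3 ≤ n) (s t : Matrix.SpecialLinearGroup (Fin n) F) (hs : Cfsg.IsTransvection (s : Matrix (Fin n) (Fin n) F)) (ht : Cfsg.IsTransvection (t : Matrix (Fin n) (Fin n) F)) : IsConj s t := by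
  have h0 : (⟨0, by omega⟩ : Fin n) ≠ ⟨1, by omega⟩ := by simp [Fin.ext_iff]
  have h1 : (⟨0, by omega⟩ : Fin n) ≠ ⟨2, by omega⟩ := by simp [Fin.ext_iff]
  have h2 : (⟨1, by omega⟩ : Fin n) ≠ ⟨2, by omega⟩ := by simp [Fin.ext_iff]
  obtain ⟨G, hG⟩ := Cfsg.Agent.Lib.Helper12.exists_SL_conj_transvection_one _ hs.1 hs.2 _ _ _ h0 h1 h2
  obtain ⟨H, hH⟩ := Cfsg.Agent.Lib.Helper12.exists_SL_conj_transvection_one _ ht.1 ht.2 _ _ _ h0 h1 h2
  -- s G = G T, t H = H T
  rw [isConj_iff]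
  refine ⟨H * G⁻¹, ?_⟩
  have e1 : G⁻¹ * s * G = H⁻¹ * t * H := by
    apply Matrix.SpecialLinearGroup.ext
    intro i j
    have a1 : ((G⁻¹ * s * G : Matrix.SpecialLinearGroup (Fin n) F) : Matrix (Fin n) (Fin n) F) =
        Matrix.transvection ⟨0, by omega⟩ ⟨1, by omega⟩ 1 := by
      rw [mul_assoc, Matrix.SpecialLinearGroup.coe_mul, Matrix.SpecialLinearGroup.coe_mul, hG,
        ← mul_assoc, ← Matrix.SpecialLinearGroup.coe_mul, inv_mul_cancel]
      simp
    have a2 : ((H⁻¹ * t * H : Matrix.SpecialLinearGroup (Fin n) F) : Matrix (Fin n) (Fin n) F) =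
        Matrix.transvection ⟨0, by omega⟩ ⟨1, by omega⟩ 1 := by
      rw [mul_assoc, Matrix.SpecialLinearGroup.coe_mul, Matrix.SpecialLinearGroup.coe_mul, hH,
        ← mul_assoc, ← Matrix.SpecialLinearGroup.coe_mul, inv_mul_cancel]
      simp
    rw [a1, a2]
  calc H * G⁻¹ * s * (H * G⁻¹)⁻¹ = H * (G⁻¹ * s * G) * H⁻¹ := by group
    _ = H * (H⁻¹ * t * H) * H⁻¹ := by rw [e1]
    _ = t := by group


end Cfsg.Agent.S2579
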