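import Cfsg.Statements.S2585
import Mathlib
import Cfsg.Agent.Lib.Helper15.PlusPolar

set_option autoImplicit false
open Cfsg

namespace Cfsg.Agent.S2585

open Cfsg.Agent.Lib.Helper15

variable {F : Type*} [Field F] {m : ℕ}

theorem riesz_lin (l : (Fin m ⊕ Fin m → F) →ₗ[F] F) :
    ∃ w : Fin m ⊕ Fin m → F, ∀ v, l v = pol m F v w := by
  classical
  refine ⟨Sum.elim (fun i => l (Pi.single (.inr i) 1)) (fun i => l (Pi.single (.inl i) 1)), ?_⟩
  intro v
  rw [LinearMap.pi_apply_eq_sum_univ l v, Fintype.sum_sum_type, pol_eq, Finset.sum_add_distrib]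
  congr 1
  · apply Finset.sum_congr rfl
    intro i _
    simp only [smul_eq_mul, Sum.elim_inr]
    congr 2
    funext j
    simp [Pi.single_apply, eq_comm]
  · apply Finset.sum_congr rfl
    intro i _
    simp only [smul_eq_mul, Sum.elim_inl]
    rw [mul_comm]
    congr 2
    funext j
    simp [Pi.single_apply, eq_comm]

theorem symp_eq_pol (h2 : (2 : F) = 0) (u v : Fin m ⊕ Fin m → F) :
    Cfsg.sympForm m F u v = pol m F u v := by
  have hneg : ∀ x : F, -x = x := by
    intro x
    linear_combination (-x) * h2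
  rw [pol_eq]
  unfold Cfsg.sympForm Matrix.J
  rw [dotProduct, Fintype.sum_sum_type, Finset.sum_add_distrib]
  congr 1
  · apply Finset.sum_congr rfl
    intro i _
    congr 1
    simp [Matrix.mulVec, dotProduct, Matrix.fromBlocks, Matrix.one_apply, hneg]
  · apply Finset.sum_congr rfl
    intro i _
    rw [mul_comm]
    congr 1
    simp [Matrix.mulVec, dotProduct, Matrix.fromBlocks, Matrix.one_apply]

theorem plus_smul (c : F) (v : Fin m ⊕ Fin m → F) :
    Cfsg.quadFormPlus m F (c • v) = c ^ 2 * Cfsg.quadFormPlus m F v := by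
  unfold Cfsg.quadFormPlus
  rw [Finset.mul_sum]
  apply Finset.sum_congr rfl
  intro i _
  simp only [Pi.smul_apply, smul_eq_mul]
  ring

theorem plus_add (u v : Fin m ⊕ Fin m → F) :
    Cfsg.quadFormPlus m F (u + v) = Cfsg.quadFormPlus m F u + Cfsg.quadFormPlus m F v + pol m F u v := by
  unfold pol; ring

/-- `quadFormPlus` as a quadratic form -/
noncomputable def Q0 (m : ℕ) (F : Type*) [Field F] : QuadraticForm F (Fin m ⊕ Fin m → F) :=
  ∑ i : Fin m, QuadraticMap.linMulLin (LinearMap.proj (Sum.inl i)) (LinearMap.proj (Sum.inr i))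

theorem Q0_apply (v : Fin m ⊕ Fin m → F) : Q0 m F v = Cfsg.quadFormPlus m F v := by
  unfold Q0 Cfsg.quadFormPlus
  rw [QuadraticMap.sum_apply]
  rfl

/-- `v ↦ pol v a` as a linear map -/
noncomputable def polLin (a : Fin m ⊕ Fin m → F) : (Fin m ⊕ Fin m → F) →ₗ[F] F where
  toFun v := pol m F v a
  map_add' x y := pol_add_left x y a
  map_smul' c x := pol_smul_left c x a

/-- Over a finite field of characteristic two every element of the symplectic group is orthogonal for a suitable quadratic form: for each A in Sp_2m(F) there is a quadratic form Q on F^(2m) whose polar form is the alternating form defining Sp_2m(F) (so Q is non-degenerate) and which A preserves. Equivalently, for m ≥ 1, Sp_2m(F) is the union of the conjugates of its two orthogonal subgroups O⁺_2m(F) and O⁻_2m(F). -/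
theorem result {F : Type*} [Field F] [Fintype F] [CharP F 2] {m : ℕ} (A : Matrix.symplecticGroup (Fin m) F) : ∃ Q : QuadraticForm F (Fin m ⊕ Fin m → F), (∀ u v : Fin m ⊕ Fin m → F, QuadraticMap.polar ⇑Q u v = Cfsg.sympForm m F u v) ∧ ∀ v : Fin m ⊕ Fin m → F, Q ((A : Matrix (Fin m ⊕ Fin m) (Fin m ⊕ Fin m) F).mulVec v) = Q v := by
  classical
  have h2 : (2 : F) = 0 := by
    have := CharP.cast_eq_zero F 2
    exact_mod_cast this
  have hneg : ∀ x : F, -x = x := by
    intro x
    linear_combination (-x) * h2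
  obtain ⟨M, hM⟩ : ∃ M : Matrix (Fin m ⊕ Fin m) (Fin m ⊕ Fin m) F, M = (A : Matrix (Fin m ⊕ Fin m) (Fin m ⊕ Fin m) F) := ⟨_, rfl⟩
  obtain ⟨B, hB⟩ : ∃ B : Matrix (Fin m ⊕ Fin m) (Fin m ⊕ Fin m) F, B = ((A⁻¹ : Matrix.symplecticGroup (Fin m) F) : Matrix (Fin m ⊕ Fin m) (Fin m ⊕ Fin m) F) := ⟨_, rfl⟩
  have hMB : M * B = 1 := by
    rw [hM, hB, ← Submonoid.coe_mul, mul_inv_cancel, Submonoid.coe_one]
  have hBM : B * M = 1 := by
    rw [hM, hB, ← Submonoid.coe_mul, inv_mul_cancel, Submonoid.coe_one]
  have hJ : M.transpose * Matrix.J (Fin m) F * M = Matrix.J (Fin m) F := by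
    rw [hM]; exact SymplecticGroup.mem_iff'.mp A.2
  have hf : ∀ x y, pol m F (M.mulVec x) (M.mulVec y) = pol m F x y := by
    intro x y
    rw [← symp_eq_pol h2, ← symp_eq_pol h2]
    unfold Cfsg.sympForm
    rw [Matrix.mulVec_mulVec, Matrix.dotProduct_mulVec, Matrix.vecMul_mulVec,
      ← Matrix.mul_assoc, hJ, Matrix.dotProduct_mulVec]
  have hMBv : ∀ x, M.mulVec (B.mulVec x) = x := by
    intro x; rw [Matrix.mulVec_mulVec, hMB, Matrix.one_mulVec]
  -- adjointness
  have hadj : ∀ x y, pol m F (M.mulVec x) y = pol m F x (B.mulVec y) := by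
    intro x y
    rw [← hf x (B.mulVec y), hMBv]
  have hadj' : ∀ x y, pol m F (B.mulVec x) y = pol m F x (M.mulVec y) := by
    intro x y
    rw [← hf (B.mulVec x) y, hMBv]
  -- the defect
  let D : (Fin m ⊕ Fin m → F) → F := fun v => Cfsg.quadFormPlus m F (M.mulVec v) - Cfsg.quadFormPlus m F v
  have hDadd : ∀ u v, D (u + v) = D u + D v := by
    intro u v
    simp only [D]
    rw [Matrix.mulVec_add, plus_add, plus_add, hf]
    ring
  have hDsmul : ∀ (c : F) v, D (c • v) = c ^ 2 * D v := by
    intro c v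
    simp only [D]
    rw [Matrix.mulVec_smul, plus_smul, plus_smul]
    ring
  let L : (Fin m ⊕ Fin m → F) →ₗ[F] F :=
    { toFun := fun v => (frobeniusEquiv F 2).symm (D v)
      map_add' := by
        intro u v
        rw [hDadd, map_add]
      map_smul' := by
        intro c v
        rw [hDsmul, map_mul, frobeniusEquiv_symm_pow, RingHom.id_apply, smul_eq_mul] }
  have hL : ∀ v, (L v) ^ 2 = D v := fun v => frobeniusEquiv_symm_pow_p F 2 (D v)
  obtain ⟨w, hw⟩ := riesz_lin L
  have hrange : w ∈ LinearMap.range (Matrix.mulVecLin (B + 1)) := by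
    by_contra hcon
    obtain ⟨φ, hφw, hφ⟩ := Submodule.exists_le_ker_of_notMem hcon
    obtain ⟨u, hu⟩ := riesz_lin φ
    have h1 : ∀ a, pol m F a (M.mulVec u + u) = 0 := by
      intro a
      have h3 : φ ((B + 1).mulVec a) = 0 := hφ ⟨a, rfl⟩
      rw [hu, Matrix.add_mulVec, Matrix.one_mulVec, pol_add_left, hadj'] at h3
      rw [pol_add_right, h3]
    have h4 : M.mulVec u + u = 0 := by
      by_contra hne
      obtain ⟨y, hy⟩ := pol_nondeg _ hne
      exact hy (h1 y)
    have h5 : M.mulVec u = u := by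
      have := eq_neg_of_add_eq_zero_left h4
      rw [this]
      funext j
      exact hneg _
    apply hφw
    rw [hu, pol_comm, ← hw]
    have h6 := hL u
    simp only [D] at h6
    rw [h5, sub_self] at h6
    exact pow_eq_zero_iff (two_ne_zero) |>.mp h6
  obtain ⟨a, ha⟩ := hrange
  have ha' : B.mulVec a + a = w := by
    have : (B + 1).mulVec a = w := ha
    rwa [Matrix.add_mulVec, Matrix.one_mulVec] at this
  refine ⟨Q0 m F + QuadraticMap.linMulLin (polLin a) (polLin a), ?_, ?_⟩
  · intro u v
    rw [symp_eq_pol h2]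
    unfold QuadraticMap.polar
    simp only [QuadraticMap.add_apply, Q0_apply, QuadraticMap.linMulLin_apply, map_add, plus_add]
    linear_combination (polLin a u * polLin a v) * h2
  · intro v
    rw [← hM]
    simp only [QuadraticMap.add_apply, Q0_apply, QuadraticMap.linMulLin_apply]
    show Cfsg.quadFormPlus m F (M.mulVec v) + pol m F (M.mulVec v) a * pol m F (M.mulVec v) a
      = Cfsg.quadFormPlus m F v + pol m F v a * pol m F v a
    have h7 : pol m F v (B.mulVec a) + pol m F v a = L v := by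
      rw [hw, ← ha', pol_add_right]
    have h8 := hL v
    rw [← h7] at h8
    simp only [D] at h8
    rw [hadj]
    linear_combination (-1 : F) * h8 + (pol m F v (B.mulVec a) * pol m F v a + pol m F v (B.mulVec a) ^ 2
      ) * h2

end Cfsg.Agent.S2585
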