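import Cfsg.Statements.S2593
import Cfsg.Agent.Lib.Helper16.SpInv4

set_option autoImplicit false

open Cfsg

namespace Cfsg.Agent.S2593

open Cfsg.Agent.Lib.Helper16 Cfsg.Agent.Lib.Helper6

theorem result {F : Type*} [Field F] [Fintype F] [CharP F 2] {m : ℕ} (hm : 1 ≤ m) : Nat.card {C : ConjClasses ↥(Matrix.symplecticGroup (Fin m) F) // ∃ g : Matrix.symplecticGroup (Fin m) F, ConjClasses.mk g = C ∧ orderOf g = 2} = m + m / 2 := by
  classical
  have h2 : (2 : F) = 0 := CharTwo.two_eq_zero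
  have hsq : ∀ a : F, ∃ c, c * c = a := fun a => by
    obtain ⟨c, hc⟩ := FiniteField.isSquare_of_char_two (ringChar.eq F 2) a
    exact ⟨c, hc.symm⟩
  let alt : Matrix.symplecticGroup (Fin m) F → Prop := fun t =>
    ∀ v, sympForm m F v ((t : Matrix (Fin m ⊕ Fin m) (Fin m ⊕ Fin m) F).mulVec v) = 0
  let rk : Matrix.symplecticGroup (Fin m) F → ℕ := fun t =>
    ((t : Matrix (Fin m ⊕ Fin m) (Fin m ⊕ Fin m) F) - 1).rank
  let spec : Fin m ⊕ Fin (m / 2) → Matrix.symplecticGroup (Fin m) F → Prop := fun x t =>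
    t * t = 1 ∧ rk t = Sum.elim (fun i : Fin m => (i : ℕ) + 1) (fun j : Fin (m / 2) => 2 * ((j : ℕ) + 1)) x ∧
      (alt t ↔ x.isRight = true)
  have H1 : ∀ x, ∃ t, spec x t := by
    rintro (i | j)
    · obtain ⟨t, h1, h3, h4⟩ := SpInv.exists_nonalt (F := F) (m := m) h2 ((i : ℕ) + 1) (by omega)
        (by have := i.2; omega)
      exact ⟨t, h1, h3, by simpa [alt] using h4⟩
    · obtain ⟨t, h1, h3, h4⟩ := SpInv.exists_alt (F := F) (m := m) h2 ((j : ℕ) + 1)
        (by have := j.2; omega)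
      exact ⟨t, h1, h3, by simpa [alt] using h4⟩
  have H5 : ∀ x t, spec x t → orderOf t = 2 := by
    intro x t ⟨h1, h3, _⟩
    apply orderOf_eq_prime (by rw [sq, h1])
    rintro rfl
    have : rk (1 : Matrix.symplecticGroup (Fin m) F) = 0 := by simp [rk]
    rw [this] at h3
    rcases x with i | j <;> simp at h3
  have H2 : ∀ t, orderOf t = 2 → ∃ x, spec x t := by
    intro t ht
    have h1 : t * t = 1 := by rw [← sq, ← ht, pow_orderOf_eq_one]
    have hne : t ≠ 1 := by
      rintro rfl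
      simp at ht
    have h3 := SpInv.rank_le h2 h1
    have h4 := SpInv.rank_pos hne
    by_cases ha : alt t
    · obtain ⟨k, hk⟩ := SpInv.even_rank_of_alt h2 h1 ha
      refine ⟨Sum.inr ⟨k - 1, by omega⟩, h1, ?_, by simpa using ha⟩
      show ((t : Matrix (Fin m ⊕ Fin m) (Fin m ⊕ Fin m) F) - 1).rank = 2 * (k - 1 + 1)
      omega
    · refine ⟨Sum.inl ⟨rk t - 1, by simp only [rk]; omega⟩, h1, ?_, by simpa using ha⟩
      show ((t : Matrix (Fin m ⊕ Fin m) (Fin m ⊕ Fin m) F) - 1).rank =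
        ((t : Matrix (Fin m ⊕ Fin m) (Fin m ⊕ Fin m) F) - 1).rank - 1 + 1
      omega
  have H3 : ∀ x t t', spec x t → spec x t' → IsConj t t' := by
    intro x t t' ⟨h1, h3, h4⟩ ⟨h1', h3', h4'⟩
    rw [SpInv.isConj_iff_inv h2 hsq h1 h1']
    exact ⟨h3.trans h3'.symm, h4.trans h4'.symm⟩
  have H4 : ∀ x x' t t', spec x t → spec x' t' → IsConj t t' → x = x' := by
    intro x x' t t' ⟨h1, h3, h4⟩ ⟨h1', h3', h4'⟩ hc
    rw [SpInv.isConj_iff_inv h2 hsq h1 h1'] at hc
    obtain ⟨e1, e2⟩ := hc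
    have e1' : rk t = rk t' := e1
    have e2' : alt t ↔ alt t' := e2
    rw [h3, h3'] at e1'
    rw [h4, h4'] at e2'
    rcases x with i | j <;> rcases x' with i' | j'
    · simp only [Sum.elim_inl] at e1'
      congr 1; apply Fin.ext; omega
    · simp at e2'
    · simp at e2'
    · simp only [Sum.elim_inr] at e1'
      congr 1; apply Fin.ext; omega
  have hbij : Function.Bijective (fun x : Fin m ⊕ Fin (m / 2) =>
      (⟨ConjClasses.mk (H1 x).choose, (H1 x).choose, rfl, H5 x _ (H1 x).choose_spec⟩ :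
        {C : ConjClasses ↥(Matrix.symplecticGroup (Fin m) F) //
          ∃ g : Matrix.symplecticGroup (Fin m) F, ConjClasses.mk g = C ∧ orderOf g = 2})) := by
    constructor
    · intro x x' h
      have h' := congrArg Subtype.val h
      simp only [ConjClasses.mk_eq_mk_iff_isConj] at h'
      exact H4 x x' _ _ (H1 x).choose_spec (H1 x').choose_spec h'
    · rintro ⟨_, g, rfl, hg⟩
      obtain ⟨x, hx⟩ := H2 g hg
      refine ⟨x, Subtype.ext ?_⟩
      simp only [ConjClasses.mk_eq_mk_iff_isConj]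
      exact H3 x _ _ (H1 x).choose_spec hx
  rw [← Nat.card_congr (Equiv.ofBijective _ hbij)]
  simp

end Cfsg.Agent.S2593
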