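import Cfsg.Statements.S2594
import Cfsg.Agent.Lib.Helper12.SpTransv

set_option autoImplicit false
open Cfsg

namespace Cfsg.Agent.S2594

open Matrix Cfsg Cfsg.Agent.Lib.Helper6 Cfsg.Agent.Lib.Helper12

theorem centralizer_eq_spFix {F : Type*} [Field F] [CharP F 2] {m : ℕ}
    (t : symplecticGroup (Fin m) F) (v : Fin m ⊕ Fin m → F) (hv : v ≠ 0)
    (htv : ∀ x, (t : Matrix (Fin m ⊕ Fin m) (Fin m ⊕ Fin m) F) *ᵥ x = x + (sympForm m F x v) • v) :
    Subgroup.centralizer ({t} : Set (symplecticGroup (Fin m) F)) = spFix m v := by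
  ext g
  rw [Subgroup.mem_centralizer_singleton_iff]
  constructor
  · intro h
    have hx : ∀ x, (sympForm m F x v) • ((g : Matrix (Fin m ⊕ Fin m) (Fin m ⊕ Fin m) F) *ᵥ v)
        = (sympForm m F ((g : Matrix (Fin m ⊕ Fin m) (Fin m ⊕ Fin m) F) *ᵥ x) v) • v := by
      intro x
      have h1 := congrArg (fun A : symplecticGroup (Fin m) F =>
        (A : Matrix (Fin m ⊕ Fin m) (Fin m ⊕ Fin m) F) *ᵥ x) h
      simp only [Submonoid.coe_mul, ← Matrix.mulVec_mulVec] at h1
      rw [htv, htv, Matrix.mulVec_add, Matrix.mulVec_smul] at h1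
      exact add_left_cancel h1
    obtain ⟨x0, hx0⟩ := exists_sympForm_eq_one m v hv
    have hx0' : sympForm m F x0 v = 1 := by
      rw [sympForm_swap, hx0, CharTwo.neg_eq]
    set l := sympForm m F ((g : Matrix (Fin m ⊕ Fin m) (Fin m ⊕ Fin m) F) *ᵥ x0) v with hl
    have hgv : (g : Matrix (Fin m ⊕ Fin m) (Fin m ⊕ Fin m) F) *ᵥ v = l • v := by
      have := hx x0
      rwa [hx0', one_smul] at this
    have h2 : l * l = 1 := by
      have h3 := sympForm_mulVec m g x0 v
      rw [hgv, sympForm_smul_right, ← hl, hx0'] at h3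
      exact h3
    have h4 : l = 1 := by
      have : (l + 1) * (l + 1) = 0 := by
        have h22 : (2 : F) = 0 := CharTwo.two_eq_zero
        linear_combination h2 + (l + 1) * h22
      have h5 : l + 1 = 0 := by
        rcases mul_eq_zero.mp this with h | h <;> exact h
      rw [← CharTwo.neg_eq (1 : F)]
      exact eq_neg_of_add_eq_zero_left h5
    change (g : Matrix (Fin m ⊕ Fin m) (Fin m ⊕ Fin m) F) *ᵥ v = v
    rw [hgv, h4, one_smul]
  · intro h
    have hgv : (g : Matrix (Fin m ⊕ Fin m) (Fin m ⊕ Fin m) F) *ᵥ v = v := h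
    apply Subtype.ext
    rw [Submonoid.coe_mul, Submonoid.coe_mul]
    ext i j
    have : ((g : Matrix (Fin m ⊕ Fin m) (Fin m ⊕ Fin m) F)
          * (t : Matrix (Fin m ⊕ Fin m) (Fin m ⊕ Fin m) F)) *ᵥ (Pi.single j 1)
        = ((t : Matrix (Fin m ⊕ Fin m) (Fin m ⊕ Fin m) F)
          * (g : Matrix (Fin m ⊕ Fin m) (Fin m ⊕ Fin m) F)) *ᵥ (Pi.single j 1) := by
      rw [← Matrix.mulVec_mulVec, ← Matrix.mulVec_mulVec, htv, htv, Matrix.mulVec_add,
        Matrix.mulVec_smul, hgv]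
      congr 2
      conv_rhs => rw [← hgv]
      rw [sympForm_mulVec]
    have h2 := congrFun this i
    simpa using h2

/-- Over a finite field with q elements, q even, an element t of Sp_2m(F) with rank(t − 1) = 1 (a symplectic transvection) has centraliser in Sp_2m(F) of order q^(2m−1) · |Sp_(2m−2)(q)| = q^(2m−1) · q^((m−1)²) · Π_(i=1)^(m−1) (q^(2i) − 1). -/
theorem result {F : Type*} [Field F] [Fintype F] [CharP F 2] {q : ℕ} (hF : Fintype.card F = q) {m : ℕ} (hm : 1 ≤ m) (t : Matrix.symplecticGroup (Fin m) F) (ht : ((t : Matrix (Fin m ⊕ Fin m) (Fin m ⊕ Fin m) F) - 1).rank = 1) : Nat.card ↥(Subgroup.centralizer ({t} : Set ↥(Matrix.symplecticGroup (Fin m) F))) = q ^ (2 * m - 1) * (q ^ ((m - 1) ^ 2) * ∏ i : Fin (m - 1), (q ^ (2 * ((i : ℕ) + 1)) - 1)) := by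
  classical
  obtain ⟨a, c, ha, hc, hta⟩ := exists_transvection_of_rank_one t ht
  obtain ⟨d, hd⟩ := FiniteField.isSquare_of_char_two (CharP.ringChar_of_prime_eq_zero Nat.prime_two
    (CharTwo.two_eq_zero (R := F))) c
  have hd0 : d ≠ 0 := by
    rintro rfl
    exact hc (by rw [hd, mul_zero])
  have hv : d • a ≠ 0 := smul_ne_zero hd0 ha
  have htv : ∀ x, (t : Matrix (Fin m ⊕ Fin m) (Fin m ⊕ Fin m) F) *ᵥ x
      = x + (sympForm m F x (d • a)) • (d • a) := by
    intro x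
    rw [hta, sympForm_smul_right, smul_smul, hd]
    congr 2
    ring
  rw [centralizer_eq_spFix t (d • a) hv htv]
  have h1 := card_spFix m (d • a) hv
  rw [card_Sp hF m, hF] at h1
  obtain ⟨k, rfl⟩ : ∃ k, m = k + 1 := ⟨m - 1, by omega⟩
  have hq : 2 ≤ q := by rw [← hF]; exact Fintype.one_lt_card
  have hpos : 0 < q ^ (2 * (k + 1)) - 1 := by
    have : 2 ≤ q ^ (2 * (k + 1)) := le_trans hq (Nat.le_self_pow (by omega) q)
    omega
  apply Nat.eq_of_mul_eq_mul_left hpos
  rw [h1, Finset.prod_range_succ, Nat.add_sub_cancel, ← Finset.prod_range (fun i => q ^ (2 * (i + 1)) - 1)]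
  have e1 : (k + 1) ^ 2 = (2 * (k + 1) - 1) + k ^ 2 := by
    have : 2 * (k + 1) - 1 = 2 * k + 1 := by omega
    rw [this]; ring
  rw [e1, pow_add]
  ring


end Cfsg.Agent.S2594
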