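import Cfsg.Statements.S2595
import Cfsg.Agent.Lib.Helper16.OInv4
import Cfsg.Agent.Lib.Helper16.POAut13

set_option autoImplicit false

open Cfsg

namespace Cfsg.Agent.S2595

open Cfsg.Agent.Lib.Helper16 Cfsg.Agent.Lib.Helper6

theorem result {F : Type*} [Field F] [Fintype F] [CharP F 2] {m : ℕ} (hm : 1 ≤ m) : Nat.card {C : ConjClasses ↥(Cfsg.isometryGroup F (Cfsg.quadFormPlus m F)) // ∃ g : ↥(Cfsg.isometryGroup F (Cfsg.quadFormPlus m F)), ConjClasses.mk g = C ∧ orderOf g = 2} = m + m / 2 := by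
  have h2 : (2 : F) = 0 := CharTwo.two_eq_zero
  have hsq : ∀ a : F, ∃ c, c * c = a := fun a => by
    obtain ⟨c, hc⟩ := FiniteField.isSquare_of_char_two (ringChar.eq F 2) a
    exact ⟨c, hc.symm⟩
  rw [← qPlus_coe]
  have hs := qPlus_hyp (m := m) (F := F)
  obtain ⟨k1, k2, k3⟩ := OInv.hyp_on h2 hs (fun i : Fin 0 => (i.elim0 : Fin m ⊕ Fin m → F))
    linearIndependent_empty_type (fun _ j => j.elim0) (fun j => j.elim0) (fun j => j.elim0)
  refine OInv.card_classes h2 hsq qPlus_nondeg m m (by simp [two_mul]) _ k1 k2 k3 (by simp)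
    _ (hyp_e_li _ _ _ hs) (fun i j => hs.2.2.2.1 i j) hs.1 (by simp) ?_
  intro U hU
  have := POAut.ts_finrank_le (Q := qPlus m F) qPlus_nondeg U hU
  have h5 : Module.finrank F (Fin m ⊕ Fin m → F) = 2 * m := by simp [two_mul]
  omega

end Cfsg.Agent.S2595
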