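import Cfsg.Statements.S2596
import Cfsg.Agent.Lib.Helper16.OInv4

set_option autoImplicit false

open Cfsg

namespace Cfsg.Agent.S2596

open Cfsg.Agent.Lib.Helper16 Cfsg.Agent.Lib.Helper6

theorem result {F : Type*} [Field F] [Fintype F] [CharP F 2] {m : ℕ} (hm : 1 ≤ m) (a b : F) (hab : ∀ z₁ z₂ : F, z₁ ^ 2 + a * z₁ * z₂ + b * z₂ ^ 2 = 0 → z₁ = 0 ∧ z₂ = 0) : Nat.card {C : ConjClasses ↥(Cfsg.isometryGroup F (Cfsg.quadFormMinus (m - 1) F a b)) // ∃ g : ↥(Cfsg.isometryGroup F (Cfsg.quadFormMinus (m - 1) F a b)), ConjClasses.mk g = C ∧ orderOf g = 2} = m + (m - 1) / 2 := by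
  classical
  have h2 : (2 : F) = 0 := CharTwo.two_eq_zero
  have hsq : ∀ a : F, ∃ c, c * c = a := fun a => by
    obtain ⟨c, hc⟩ := FiniteField.isSquare_of_char_two (ringChar.eq F 2) a
    exact ⟨c, hc.symm⟩
  rw [← qMinus_coe]
  have hs := qMinus_hyp (m := m - 1) (F := F) a b
  obtain ⟨k1, k2, k3⟩ := OInv.hyp_on h2 hs
    (fun _ : Fin 1 => (Pi.single (Sum.inr 0) 1 : (Fin (m - 1) ⊕ Fin (m - 1)) ⊕ Fin 2 → F))
    (by
      rw [Fintype.linearIndependent_iff]
      intro g hg i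
      have := congrFun hg (Sum.inr 0)
      simp at this
      rw [Subsingleton.elim i 0]; exact this)
    (fun i j => by
      constructor <;> (rw [qMinus_coe, polar_minus]; simp [Pi.single_apply]))
    (fun i j => by rw [qMinus_coe, polar_minus]; simp [Pi.single_apply, h2])
    (fun j => by rw [qMinus_apply]; simp [quadFormMinus, Pi.single_apply])
  refine OInv.card_classes h2 hsq (qMinus_nondeg a b hab) m (m - 1)
    (by simp; omega) _ k1 k2 k3 (by simp; omega)
    _ (hyp_e_li _ _ _ hs) (fun i j => hs.2.2.2.1 i j) hs.1 (by simp) ?_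
  intro U hU
  exact witt_index_le _ (qMinus_nondeg a b hab) _ _ hs (fun w hw hw0 => qMinus_aniso a b hab w hw hw0) U hU

end Cfsg.Agent.S2596
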