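import Cfsg.Statements.S2597
import Cfsg.Agent.Lib.Helper16.OInv6
import Cfsg.Agent.Lib.Helper16.POAut13

set_option autoImplicit false

open Cfsg

namespace Cfsg.Agent.S2597

open Cfsg.Agent.Lib.Helper16 Cfsg.Agent.Lib.Helper6

theorem result {F : Type*} [Field F] [Fintype F] [CharP F 2] {m : ℕ} (hm : 1 ≤ m) (h : Fintype.card F ≠ 2 ∨ m ≠ 2) : Nat.card {C : ConjClasses ↥(Cfsg.Omega F (Cfsg.quadFormPlus m F)) // ∃ g : ↥(Cfsg.Omega F (Cfsg.quadFormPlus m F)), ConjClasses.mk g = C ∧ orderOf g = 2} = 2 * (m / 2) + (if Even m then 1 else 0) := by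
  classical
  have h2 : (2 : F) = 0 := CharTwo.two_eq_zero
  have hsq : ∀ a : F, ∃ c, c * c = a := fun a => by
    obtain ⟨c, hc⟩ := FiniteField.isSquare_of_char_two (ringChar.eq F 2) a
    exact ⟨c, hc.symm⟩
  rw [← qPlus_coe]
  have hs := qPlus_hyp (m := m) (F := F)
  have hB := qPlus_nondeg (m := m) (F := F)
  have h5 : Module.finrank F (Fin m ⊕ Fin m → F) = 2 * m := by simp [two_mul]
  have hw' : ∀ U : Submodule F (Fin m ⊕ Fin m → F),
      (∀ u ∈ U, qPlus m F u = 0) → Module.finrank F U ≤ m := fun U hU => by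
    have := POAut.ts_finrank_le (Q := qPlus m F) hB U hU
    omega
  have hgen := cartan_dieudonne (qPlus m F) hB (by
    rcases h with h | h
    · exact Or.inl h
    · right; rw [h5]; omega)
  obtain ⟨ε, hε1, hε2⟩ := exists_dickson _ h2 hB hgen
  obtain ⟨k1, k2, k3⟩ := OInv.hyp_on h2 hs (fun i : Fin 0 => (i.elim0 : Fin m ⊕ Fin m → F))
    linearIndependent_empty_type (fun _ j => j.elim0) (fun j => j.elim0) (fun j => j.elim0)
  -- the reference maximal totally singular subspace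
  set U₀ : Submodule F (Fin m ⊕ Fin m → F) := Submodule.span F (Set.range
    (fun i : Fin m => (Pi.single (Sum.inl i) 1 : Fin m ⊕ Fin m → F))) with hU₀def
  have hU₀ : IsMTS (qPlus m F) U₀ := by
    refine ⟨fun u hu => (span_singular _ _ hs.1 hs.2.2.2.1 u hu).1, ?_⟩
    rw [hU₀def, finrank_span_eq_card (hyp_e_li _ _ _ hs), h5]; simp
  let exc : ↥(isometryGroup F ⇑(qPlus m F)) → Prop := fun t =>
    (((t : GL (Fin m ⊕ Fin m) F) : Matrix (Fin m ⊕ Fin m) (Fin m ⊕ Fin m) F) - 1).rank = m ∧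
      ∀ v, QuadraticMap.polarBilin (qPlus m F) v
        (Matrix.mulVec ((t : GL (Fin m ⊕ Fin m) F) : Matrix (Fin m ⊕ Fin m) (Fin m ⊕ Fin m) F) v) = 0
  have := OInv.card_classes_omega h2 hsq hB m m (if Even m then 1 else 0) hm
    (by simp [two_mul]) le_rfl (by split_ifs <;> omega) _ k1 k2 k3 (by simp)
    _ (hyp_e_li _ _ _ hs) (fun i j => hs.2.2.2.1 i j) hs.1 (by simp) hw' ε hε1 hε2
    (fun t => exc t ∧ Odd (Module.finrank F
      ↥(U₀ ⊓ LinearMap.range (OInv.NG (t : GL (Fin m ⊕ Fin m) F)))))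
    (fun t h => h.1)
    (fun t s g ht h1 h3 hg => by
      rw [mul_inv_eq_iff_eq_mul] at hg
      have hg' : (g : GL (Fin m ⊕ Fin m) F) * (t : GL (Fin m ⊕ Fin m) F) =
          (s : GL (Fin m ⊕ Fin m) F) * (g : GL (Fin m ⊕ Fin m) F) := by
        rw [← Subgroup.coe_mul, hg, Subgroup.coe_mul]
      have hU : IsMTS (qPlus m F) (LinearMap.range (OInv.NG (t : GL (Fin m ⊕ Fin m) F))) :=
        ⟨OInv.range_singular h2 h3, by rw [← OInv.rank_eq, h1, h5]⟩
      obtain ⟨e1, e2⟩ := OInv.inv_of_conj (OInv.PB_of_iso g.2) hg'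
      have hexct : exc t := ⟨h1, h3⟩
      have hexcs : exc s := ⟨e1 ▸ h1, e2.1 h3⟩
      rw [← hε1, OInv.mem_omega_iff_parity h2 hB hgen hU₀ hU g, OInv.range_conj hg']
      simp only [hexct, hexcs, true_and, Nat.odd_iff]
      omega)
    (fun he t ht hexc => by
      have hev : Even m := hexc.1 ▸ OInv.even_rank_of_alt h2 hB ht hexc.2
      rw [if_pos hev] at he
      omega)
    (fun he => by
      by_cases hev : Even m
      · exact ⟨hev, rfl⟩
      · rw [if_neg hev] at he; omega)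
  rw [this]; ring

end Cfsg.Agent.S2597
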