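import Cfsg.Statements.S2598
import Cfsg.Agent.Lib.Helper16.OInv6

set_option autoImplicit false

open Cfsg

namespace Cfsg.Agent.S2598

open Cfsg.Agent.Lib.Helper16 Cfsg.Agent.Lib.Helper6

theorem result {F : Type*} [Field F] [Fintype F] [CharP F 2] {m : ℕ} (hm : 1 ≤ m) (a b : F) (hab : ∀ z₁ z₂ : F, z₁ ^ 2 + a * z₁ * z₂ + b * z₂ ^ 2 = 0 → z₁ = 0 ∧ z₂ = 0) : Nat.card {C : ConjClasses ↥(Cfsg.Omega F (Cfsg.quadFormMinus (m - 1) F a b)) // ∃ g : ↥(Cfsg.Omega F (Cfsg.quadFormMinus (m - 1) F a b)), ConjClasses.mk g = C ∧ orderOf g = 2} = m / 2 + (m - 1) / 2 := by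
  classical
  have h2 : (2 : F) = 0 := CharTwo.two_eq_zero
  have hsq : ∀ a : F, ∃ c, c * c = a := fun a => by
    obtain ⟨c, hc⟩ := FiniteField.isSquare_of_char_two (ringChar.eq F 2) a
    exact ⟨c, hc.symm⟩
  rw [← qMinus_coe]
  have hs := qMinus_hyp (m := m - 1) (F := F) a b
  have hB := qMinus_nondeg (m := m - 1) a b hab
  have hw' : ∀ U : Submodule F ((Fin (m - 1) ⊕ Fin (m - 1)) ⊕ Fin 2 → F),
      (∀ u ∈ U, qMinus (m - 1) F a b u = 0) → Module.finrank F U ≤ m - 1 := fun U hU =>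
    witt_index_le _ hB _ _ hs (fun w hw hw0 => qMinus_aniso a b hab w hw hw0) U hU
  have hgen : Subgroup.closure (Set.range (reflE (qMinus (m - 1) F a b))) =
      OG (qMinus (m - 1) F a b) := by
    by_cases hm2 : m = 2
    · apply cartan_dieudonne' _ hB
      intro w u hw hu huw hw0
      have hts : ∀ x ∈ Submodule.span F {w, u}, qMinus (m - 1) F a b x = 0 := by
        intro x hx
        obtain ⟨α, β, rfl⟩ := Submodule.mem_span_pair.1 hx
        rw [QuadraticMap.map_add (⇑(qMinus (m - 1) F a b)), QuadraticMap.map_smul,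
          QuadraticMap.map_smul, hw, hu, QuadraticMap.polar_smul_left,
          QuadraticMap.polar_smul_right, QuadraticMap.polar_comm]
        have : QuadraticMap.polar (⇑(qMinus (m - 1) F a b)) u w = 0 := huw
        rw [this]; simp
      have h1 := hw' _ hts
      have h3 : Submodule.span F {w} ≤ Submodule.span F {w, u} :=
        Submodule.span_mono (by simp)
      have h4 : Module.finrank F (Submodule.span F {w}) = 1 := finrank_span_singleton hw0
      have h5 : Submodule.span F {w} = Submodule.span F {w, u} :=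
        Submodule.eq_of_le_of_finrank_le h3 (by omega)
      rw [h5]
      exact Submodule.subset_span (by simp)
    · exact cartan_dieudonne _ hB (Or.inr (by simp; omega))
  obtain ⟨ε, hε1, hε2⟩ := exists_dickson _ h2 hB hgen
  obtain ⟨k1, k2, k3⟩ := OInv.hyp_on h2 hs
    (fun _ : Fin 1 => (Pi.single (Sum.inr 0) 1 : (Fin (m - 1) ⊕ Fin (m - 1)) ⊕ Fin 2 → F))
    (by
      rw [Fintype.linearIndependent_iff]
      intro g hg i
      have := congrFun hg (Sum.inr 0)
      simp at this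
      rw [Subsingleton.elim i 0]; exact this)
    (fun i j => by
      constructor <;> (rw [qMinus_coe, polar_minus]; simp [Pi.single_apply]))
    (fun i j => by rw [qMinus_coe, polar_minus]; simp [Pi.single_apply, h2])
    (fun j => by rw [qMinus_apply]; simp [quadFormMinus, Pi.single_apply])
  have hnoexc : ∀ t : ↥(isometryGroup F ⇑(qMinus (m - 1) F a b)),
      ¬ ((((t : GL ((Fin (m - 1) ⊕ Fin (m - 1)) ⊕ Fin 2) F) :
        Matrix ((Fin (m - 1) ⊕ Fin (m - 1)) ⊕ Fin 2) ((Fin (m - 1) ⊕ Fin (m - 1)) ⊕ Fin 2) F) - 1).rank = m ∧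
      ∀ v, QuadraticMap.polarBilin (qMinus (m - 1) F a b) v
        (Matrix.mulVec ((t : GL ((Fin (m - 1) ⊕ Fin (m - 1)) ⊕ Fin 2) F) :
          Matrix ((Fin (m - 1) ⊕ Fin (m - 1)) ⊕ Fin 2) ((Fin (m - 1) ⊕ Fin (m - 1)) ⊕ Fin 2) F) v) = 0) := by
    rintro t ⟨h1, h3⟩
    have := hw' _ (OInv.range_singular h2 h3)
    rw [← OInv.rank_eq] at this
    omega
  have := OInv.card_classes_omega h2 hsq hB m (m - 1) 0 hm
    (by simp; omega) (by omega) (by omega) _ k1 k2 k3 (by simp; omega)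
    _ (hyp_e_li _ _ _ hs) (fun i j => hs.2.2.2.1 i j) hs.1 (by simp) hw' ε hε1 hε2
    (fun _ => False) (fun _ h => h.elim) (fun t s g _ h1 h3 _ => absurd ⟨h1, h3⟩ (hnoexc t))
    (fun _ t _ => hnoexc t) (fun h => absurd h (by omega))
  rw [this, add_zero]

end Cfsg.Agent.S2598
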