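import Cfsg.Statements.S2599

set_option autoImplicit false
open Cfsg

namespace Cfsg.Agent.S2599

open Module QuadraticMap Matrix

theorem result {F : Type*} [Field F] [Fintype F] {p : ℕ} [Fact p.Prime] [CharP F p] {n : ℕ} (Q : QuadraticForm F (Fin n → F)) (hQ : (QuadraticMap.polarBilin Q).Nondegenerate) (x : ↥(Cfsg.isometryGroup F ⇑Q)) (hx : (orderOf x).Coprime p) (U : Submodule F (Fin n → F)) (hU0 : U ≠ ⊥) (hUx : ∀ u ∈ U, ((x : Matrix.GeneralLinearGroup (Fin n) F) : Matrix (Fin n) (Fin n) F).mulVec u ∈ U) (hirr : ∀ W : Submodule F (Fin n → F), W ≤ U → (∀ w ∈ W, ((x : Matrix.GeneralLinearGroup (Fin n) F) : Matrix (Fin n) (Fin n) F).mulVec w ∈ W) → W = ⊥ ∨ W = U) : U ⊓ LinearMap.BilinForm.orthogonal (QuadraticMap.polarBilin Q) U = ⊥ ∨ (∀ u ∈ U, Q u = 0) ∨ (p = 2 ∧ Module.finrank F U = 1 ∧ (∃ u ∈ U, Q u ≠ 0) ∧ ∀ u ∈ U, ((x : Matrix.GeneralLinearGroup (Fin n) F) : Matrix (Fin n) (Fin n) F).mulVec u = u) := by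
  set A : Matrix (Fin n) (Fin n) F := ((x : Matrix.GeneralLinearGroup (Fin n) F) : Matrix (Fin n) (Fin n) F) with hA
  have hiso : ∀ u, Q (A *ᵥ u) = Q u := fun u => x.2 u u
  have hpol : ∀ u v, polar Q (A *ᵥ u) (A *ᵥ v) = polar Q u v := by
    intro u v
    simp only [polar, ← Matrix.mulVec_add, hiso]
  have hinj : Function.Injective (fun u => A *ᵥ u) := by
    intro u v huv
    have := congrArg (fun w => ((x⁻¹ : ↥(Cfsg.isometryGroup F ⇑Q)).1 : Matrix (Fin n) (Fin n) F) *ᵥ w) huv
    simpa [hA, Matrix.mulVec_mulVec] using this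
  -- A maps U onto U
  let T : U →ₗ[F] U := (Matrix.mulVecLin A).restrict hUx
  have hTinj : Function.Injective T := by
    intro u v huv
    apply Subtype.ext
    apply hinj
    exact congrArg Subtype.val huv
  have hTsurj : Function.Surjective T := LinearMap.injective_iff_surjective.1 hTinj
  have hsurj : ∀ u ∈ U, ∃ u' ∈ U, A *ᵥ u' = u := by
    intro u hu
    obtain ⟨u', hu'⟩ := hTsurj ⟨u, hu⟩
    exact ⟨u', u'.2, congrArg Subtype.val hu'⟩
  have hmem : ∀ w, w ∈ LinearMap.BilinForm.orthogonal (polarBilin Q) U ↔ ∀ u ∈ U, polar Q u w = 0 := by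
    intro w
    rw [LinearMap.BilinForm.mem_orthogonal_iff]
    simp only [polarBilin_apply_apply]
  rcases hirr (U ⊓ LinearMap.BilinForm.orthogonal (polarBilin Q) U) inf_le_left (by
    intro w hw
    obtain ⟨hw1, hw2⟩ := Submodule.mem_inf.1 hw
    refine Submodule.mem_inf.2 ⟨hUx w hw1, (hmem _).2 ?_⟩
    intro u hu
    obtain ⟨u', hu', rfl⟩ := hsurj u hu
    rw [hpol]
    exact (hmem w).1 hw2 u' hu') with h | h
  · exact Or.inl h
  right
  have hiso0 : ∀ u ∈ U, ∀ v ∈ U, polar Q u v = 0 := by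
    intro u hu v hv
    have : v ∈ U ⊓ LinearMap.BilinForm.orthogonal (polarBilin Q) U := by rw [h]; exact hv
    exact (hmem v).1 (Submodule.mem_inf.1 this).2 u hu
  have hadd : ∀ u ∈ U, ∀ v ∈ U, Q (u + v) = Q u + Q v := by
    intro u hu v hv
    rw [QuadraticMap.map_add (⇑Q), hiso0 u hu v hv, add_zero]
  let U₀ : Submodule F (Fin n → F) :=
    { carrier := {u | u ∈ U ∧ Q u = 0}
      add_mem' := fun {a b} ha hb => ⟨U.add_mem ha.1 hb.1, by rw [hadd a ha.1 b hb.1, ha.2, hb.2, add_zero]⟩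
      zero_mem' := ⟨U.zero_mem, by simp⟩
      smul_mem' := fun c a ha => ⟨U.smul_mem c ha.1, by rw [QuadraticMap.map_smul, ha.2, smul_zero]⟩ }
  rcases hirr U₀ (fun u hu => hu.1) (fun w hw => ⟨hUx w hw.1, by rw [hiso]; exact hw.2⟩) with h0 | h0
  · right
    have han : ∀ u ∈ U, Q u = 0 → u = 0 := by
      intro u hu hu0
      have : u ∈ U₀ := ⟨hu, hu0⟩
      rw [h0] at this
      simpa using this
    obtain ⟨u, hu, hune⟩ := (Submodule.ne_bot_iff U).1 hU0
    have hQu : Q u ≠ 0 := fun h => hune (han u hu h)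
    have h2 : (2 : F) = 0 := by
      have := hiso0 u hu u hu
      rw [polar_self] at this
      simpa [hQu] using this
    have hp2 : p = 2 := by
      have : (p : ℕ) ∣ 2 := (CharP.cast_eq_zero_iff F p 2).1 (by exact_mod_cast h2)
      exact (Nat.prime_dvd_prime_iff_eq (Fact.out) Nat.prime_two).1 this
    have hch : ringChar F = 2 := CharP.ringChar_of_prime_eq_zero Nat.prime_two (by exact_mod_cast h2)
    have hspan : ∀ v ∈ U, ∃ a : F, a • u = v := by
      intro v hv
      obtain ⟨a, ha⟩ := FiniteField.isSquare_of_char_two hch (Q v / Q u)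
      refine ⟨a, ?_⟩
      have h3 : Q (a • u + v) = 0 := by
        rw [hadd _ (U.smul_mem a hu) v hv, QuadraticMap.map_smul, ← ha, smul_eq_mul]
        field_simp
        linear_combination (Q v) * h2
      have h4 := han _ (U.add_mem (U.smul_mem a hu) hv) h3
      have h5 : a • u = -v := eq_neg_iff_add_eq_zero.2 h4
      rw [h5]
      have : (2 : F) • v = 0 := by rw [h2, zero_smul]
      rw [two_smul] at this
      exact neg_eq_iff_add_eq_zero.2 this
    refine ⟨hp2, ?_, ⟨u, hu, hQu⟩, ?_⟩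
    · rw [finrank_eq_one_iff_of_nonzero' (⟨u, hu⟩ : U) (fun h => hune (congrArg Subtype.val h))]
      intro w
      obtain ⟨a, ha⟩ := hspan w w.2
      exact ⟨a, Subtype.ext ha⟩
    · have hfix : A *ᵥ u = u := by
        obtain ⟨l, hl⟩ := hspan _ (hUx u hu)
        have h6 := hiso u
        rw [← hl, QuadraticMap.map_smul, smul_eq_mul] at h6
        have h7 : l * l = 1 := by
          apply mul_right_cancel₀ hQu
          rw [h6, one_mul]
        have h8 : (l - 1) * (l - 1) = 0 := by linear_combination h7 - l * h2 + h2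
        have h9 : l = 1 := by
          have := mul_self_eq_zero.1 h8
          exact sub_eq_zero.1 this
        rw [← hl, h9, one_smul]
      intro v hv
      obtain ⟨a, rfl⟩ := hspan v hv
      rw [Matrix.mulVec_smul, hfix]
  · left
    intro u hu
    have : u ∈ U₀ := by rw [h0]; exact hu
    exact this.2

end Cfsg.Agent.S2599
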