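import Cfsg.Statements.S2610
import Cfsg.Agent.Lib.Helper16.Orth8

set_option autoImplicit false

open Cfsg

namespace Cfsg.Agent.S2610

open Cfsg.Agent.Lib.Helper16 Module

theorem result {F : Type*} [Field F] [Fintype F] (h2 : (2 : F) ≠ 0) {n : ℕ} (hn : 2 ≤ n) (he : Even n) (Q : QuadraticForm F (Fin n → F)) (hQ : (QuadraticMap.polarBilin Q).Nondegenerate) : (∃ g : ↥(Cfsg.isometryGroup F ⇑Q), g ∈ Cfsg.Omega F ⇑Q ∧ ((g : Matrix.GeneralLinearGroup (Fin n) F) : Matrix (Fin n) (Fin n) F) = -1) ↔ IsSquare (Matrix.of (fun i j : Fin n => QuadraticMap.polar ⇑Q (Pi.single i 1) (Pi.single j 1))).det := by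
  haveI : Invertible (2 : F) := invertibleOfNonzero h2
  have hsymm : (QuadraticMap.polarBilin Q).IsSymm := ⟨fun x y => by
    rw [QuadraticMap.polarBilin_apply_apply, QuadraticMap.polarBilin_apply_apply,
      QuadraticMap.polar_comm]; rfl⟩
  have hfr : finrank F (Fin n → F) = n := Module.finrank_fin_fun F
  obtain ⟨b, hb⟩ : ∃ b : Basis (Fin n) F (Fin n → F), (QuadraticMap.polarBilin Q).IsOrthoᵢ b := by
    have := LinearMap.BilinForm.exists_orthogonal_basis hsymm
    rwa [hfr] at this
  have ho : ∀ i j, i ≠ j → QuadraticMap.polarBilin Q (b i) (b j) = 0 := hb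
  have hq : ∀ i, Q (b i) ≠ 0 := by
    intro i hi
    have := LinearMap.BilinForm.iIsOrtho.not_isOrtho_basis_self_of_nondegenerate hb hQ i
    apply this
    rw [QuadraticMap.polarBilin_apply_apply, QuadraticMap.polar_self, hi, smul_zero]
  rw [exists_Omega_iff Q (-1) (((List.ofFn b).map (rO Q)).prod) ?_, prod_mem_comm_iff_odd Q h2 hQ]
  · rw [List.length_ofFn, List.map_ofFn, List.prod_ofFn]
    obtain ⟨r, hr, hdet⟩ := gram_det' (Pi.basisFun F (Fin n)) b (QuadraticMap.polarBilin Q)
    have hstd : LinearMap.BilinForm.toMatrix (Pi.basisFun F (Fin n)) (QuadraticMap.polarBilin Q) =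
        Matrix.of (fun i j : Fin n => QuadraticMap.polar ⇑Q (Pi.single i 1) (Pi.single j 1)) := by
      ext i j
      simp [LinearMap.BilinForm.toMatrix_apply]
    have hdiag : LinearMap.BilinForm.toMatrix b (QuadraticMap.polarBilin Q) =
        Matrix.diagonal (fun i => 2 * Q (b i)) := by
      ext i j
      rw [LinearMap.BilinForm.toMatrix_apply]
      by_cases hij : i = j
      · subst hij
        rw [Matrix.diagonal_apply_eq, QuadraticMap.polarBilin_apply_apply, QuadraticMap.polar_self,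
          two_smul, two_mul]
      · rw [Matrix.diagonal_apply_ne _ hij, ho i j hij]
    rw [hstd, hdiag, Matrix.det_diagonal, Finset.prod_mul_distrib, Finset.prod_const,
      Finset.card_univ, Fintype.card_fin] at hdet
    obtain ⟨k, hk⟩ := he
    have h3 : (2 : F) ^ n = ((2 : F) ^ k) ^ 2 := by rw [hk, ← pow_mul]; congr 1; ring
    rw [h3] at hdet
    have h4 : IsSquare (∏ i, Q (b i)) ↔ IsSquare (((2 : F) ^ k) ^ 2 * ∏ i, Q (b i)) :=
      (isSquare_sq_mul (pow_ne_zero _ h2)).symm
    simp only [Function.comp]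
    rw [h4, hdet, isSquare_sq_mul hr]
    simp [hk]
  · intro v hv
    rw [List.mem_ofFn] at hv
    obtain ⟨i, rfl⟩ := hv
    exact hq i
  · intro x
    rw [coe_prod_rO, prod_refl_orth_basis Q b ho hq, Matrix.neg_mulVec, Matrix.one_mulVec]

end Cfsg.Agent.S2610
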