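import Cfsg.Statements.S2626

set_option autoImplicit false
open Cfsg

namespace Cfsg.Agent.S2626

open Matrix

theorem map_mem_commutator {G H : Type*} [Group G] [Group H] (f : G →* H) {x : G}
    (hx : x ∈ commutator G) : f x ∈ commutator H := by
  have h1 : f x ∈ (commutator G).map f := Subgroup.mem_map_of_mem f hx
  rw [commutator_def, Subgroup.map_commutator] at h1
  rw [commutator_def]
  exact Subgroup.commutator_mono le_top le_top h1

def blockHom (m n : Type) [Fintype m] [Fintype n] [DecidableEq m] [DecidableEq n] (F : Type*) [Field F] :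
    Matrix m m F × Matrix n n F →* Matrix (m ⊕ n) (m ⊕ n) F where
  toFun p := fromBlocks p.1 0 0 p.2
  map_one' := fromBlocks_one
  map_mul' := by intro a b; simp [fromBlocks_multiply]

def glBlock (m n : Type) [Fintype m] [Fintype n] [DecidableEq m] [DecidableEq n] (F : Type*) [Field F] :
    GL m F × GL n F →* GL (m ⊕ n) F :=
  (Units.map (blockHom m n F)).comp (MulEquiv.prodUnits.symm.toMonoidHom)

theorem glBlock_coe {m n : Type} [Fintype m] [Fintype n] [DecidableEq m] [DecidableEq n] {F : Type*} [Field F]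
    (a : GL m F) (b : GL n F) :
    ((glBlock m n F (a, b) : GL (m ⊕ n) F) : Matrix (m ⊕ n) (m ⊕ n) F) =
      fromBlocks (a : Matrix m m F) 0 0 (b : Matrix n n F) := rfl

theorem mem_iso {ι : Type} [Fintype ι] [DecidableEq ι] {F : Type*} [Field F] (Q : (ι → F) → F) (g : GL ι F) :
    g ∈ isometryGroup F Q ↔ ∀ u, Q ((g : Matrix ι ι F) *ᵥ u) = Q u :=
  ⟨fun h u => h u u, fun h u _ => h u⟩

def isoBlock {m n : Type} [Fintype m] [Fintype n] [DecidableEq m] [DecidableEq n] {F : Type*} [Field F]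
    (Q₁ : (m → F) → F) (Q₂ : (n → F) → F) :
    ↥(isometryGroup F Q₁) × ↥(isometryGroup F Q₂) →*
      ↥(isometryGroup F (fun v : m ⊕ n → F => Q₁ (v ∘ Sum.inl) + Q₂ (v ∘ Sum.inr))) :=
  ((glBlock m n F).comp (MonoidHom.prodMap (isometryGroup F Q₁).subtype (isometryGroup F Q₂).subtype)).codRestrict _
    (by
      rintro ⟨a, b⟩
      rw [mem_iso]
      intro u
      have ha := (mem_iso Q₁ a.1).1 a.2 (u ∘ Sum.inl)
      have hb := (mem_iso Q₂ b.1).1 b.2 (u ∘ Sum.inr)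
      simp only [MonoidHom.comp_apply, MonoidHom.prodMap_def, MonoidHom.prod_apply, MonoidHom.coe_fst,
        MonoidHom.coe_snd, Subgroup.subtype_apply, glBlock_coe, fromBlocks_mulVec, zero_mulVec, add_zero, zero_add,
        Sum.elim_comp_inl, Sum.elim_comp_inr]
      rw [ha, hb])

theorem result {F : Type*} [Field F] [Fintype F] {k l : ℕ} (Q₁ : QuadraticForm F (Fin k → F)) (Q₂ : QuadraticForm F (Fin l → F)) (h₁ : (QuadraticMap.polarBilin Q₁).Nondegenerate) (h₂ : (QuadraticMap.polarBilin Q₂).Nondegenerate) (g₁ : ↥(Cfsg.isometryGroup F ⇑Q₁)) (g₂ : ↥(Cfsg.isometryGroup F ⇑Q₂)) (hg₁ : g₁ ∈ Cfsg.Omega F ⇑Q₁) (hg₂ : g₂ ∈ Cfsg.Omega F ⇑Q₂) : ∃ g : ↥(Cfsg.isometryGroup F (fun v : Fin k ⊕ Fin l → F => Q₁ (v ∘ Sum.inl) + Q₂ (v ∘ Sum.inr))), g ∈ Cfsg.Omega F (fun v : Fin k ⊕ Fin l → F => Q₁ (v ∘ Sum.inl) + Q₂ (v ∘ Sum.inr)) ∧ ((g : Matrix.GeneralLinearGroup (Fin k ⊕ Fin l) F) : Matrix (Fin k ⊕ Fin l) (Fin k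 ⊕ Fin l) F) = Matrix.fromBlocks ((g₁ : Matrix.GeneralLinearGroup (Fin k) F) : Matrix (Fin k) (Fin k) F) 0 0 ((g₂ : Matrix.GeneralLinearGroup (Fin l) F) : Matrix (Fin l) (Fin l) F) := by
  refine ⟨isoBlock (⇑Q₁) (⇑Q₂) (g₁, g₂), ?_, rfl⟩
  have e : (g₁, g₂) = (MonoidHom.inl _ _ g₁) * (MonoidHom.inr _ _ g₂) := by simp
  rw [e, map_mul]
  exact mul_mem (map_mem_commutator ((isoBlock (⇑Q₁) (⇑Q₂)).comp (MonoidHom.inl _ _)) hg₁)
    (map_mem_commutator ((isoBlock (⇑Q₁) (⇑Q₂)).comp (MonoidHom.inr _ _)) hg₂)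

end Cfsg.Agent.S2626
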