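import Cfsg.Statements.S2611
import Cfsg.Agent.Lib.Helper16.Orth13
import Cfsg.Agent.S2612
import Cfsg.Agent.S2626

set_option autoImplicit false

open Cfsg

namespace Cfsg.Agent.S2611

open Cfsg.Agent.Lib.Helper16 Cfsg.Agent.Lib.Helper6 Matrix Cfsg.Agent.S2612

/-- inverse transpose -/
def invT (n : Type) [Fintype n] [DecidableEq n] (F : Type*) [Field F] : GL n F →* GL n F where
  toFun A := ⟨((A⁻¹ : GL n F) : Matrix n n F)ᵀ, (A : Matrix n n F)ᵀ,
    by rw [← transpose_mul, Units.mul_inv, transpose_one],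
    by rw [← transpose_mul, Units.inv_mul, transpose_one]⟩
  map_one' := by
    apply Units.ext
    simp
  map_mul' A B := by
    apply Units.ext
    simp [_root_.mul_inv_rev, transpose_mul]

variable {F : Type*} [Field F] {m : ℕ}

theorem plus_eq_dot (v : Fin m ⊕ Fin m → F) :
    qPlus m F v = (v ∘ Sum.inl) ⬝ᵥ (v ∘ Sum.inr) := by
  rw [qPlus_apply]; rfl

/-- the embedding `A ↦ diag(A, A⁻ᵀ)` -/
noncomputable def del (F : Type*) [Field F] (m : ℕ) : GL (Fin m) F →* ↥(isometryGroup F ⇑(qPlus m F)) :=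
  ((S2626.glBlock (Fin m) (Fin m) F).comp
    (MonoidHom.prod (MonoidHom.id _) (invT (Fin m) F))).codRestrict _ (by
      intro A
      rw [S2626.mem_iso]
      intro u
      rw [plus_eq_dot, plus_eq_dot]
      simp only [MonoidHom.comp_apply, MonoidHom.prod_apply, MonoidHom.id_apply, S2626.glBlock_coe,
        fromBlocks_mulVec, zero_mulVec, add_zero, zero_add, Sum.elim_comp_inl, Sum.elim_comp_inr]
      change ((A : Matrix (Fin m) (Fin m) F) *ᵥ (u ∘ Sum.inl)) ⬝ᵥ
        (((A⁻¹ : GL (Fin m) F) : Matrix (Fin m) (Fin m) F)ᵀ *ᵥ (u ∘ Sum.inr)) = _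
      rw [mulVec_transpose, dotProduct_comm, ← dotProduct_mulVec, mulVec_mulVec, Units.inv_mul,
        one_mulVec, dotProduct_comm])

theorem del_coe (A : GL (Fin m) F) :
    (((del F m A : ↥(isometryGroup F ⇑(qPlus m F))) : GL (Fin m ⊕ Fin m) F) :
      Matrix (Fin m ⊕ Fin m) (Fin m ⊕ Fin m) F) =
      fromBlocks (A : Matrix (Fin m) (Fin m) F) 0 0 ((A : Matrix (Fin m) (Fin m) F)⁻¹)ᵀ := by
  rw [← coe_units_inv]; rfl

/-- the vectors for a diagonal matrix -/
noncomputable def dList (D : Fin m → F) : ℕ → List (Fin m ⊕ Fin m → F)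
  | 0 => []
  | (i + 1) => (if h : i < m then
      [Pi.single (Sum.inl ⟨i, h⟩) 1 - Pi.single (Sum.inr ⟨i, h⟩) 1,
        Pi.single (Sum.inl ⟨i, h⟩) 1 - D ⟨i, h⟩ • Pi.single (Sum.inr ⟨i, h⟩) 1]
      else []) ++ dList D i

theorem dList_succ (D : Fin m → F) (i : ℕ) (h : i < m) :
    dList D (i + 1) =
      (Pi.single (Sum.inl ⟨i, h⟩) 1 - Pi.single (Sum.inr ⟨i, h⟩) 1) ::
        (Pi.single (Sum.inl ⟨i, h⟩) 1 - D ⟨i, h⟩ • Pi.single (Sum.inr ⟨i, h⟩) 1) :: dList D i := by
  rw [dList, dif_pos h]; rfl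

theorem Q_e (j : Fin m) : qPlus m F (Pi.single (Sum.inl j) 1) = 0 := by
  rw [qPlus_apply, quadFormPlus]; simp

theorem Q_f (j : Fin m) : qPlus m F (Pi.single (Sum.inr j) 1) = 0 := by
  rw [qPlus_apply, quadFormPlus]; simp

theorem dList_props (D : Fin m → F) (hD : ∀ j, D j ≠ 0) (i : ℕ) (hi : i ≤ m) :
    (∀ v ∈ dList D i, qPlus m F v ≠ 0) ∧
      ((dList D i).map (fun v => qPlus m F v)).prod =
        ∏ j ∈ Finset.range i, (if h : j < m then D ⟨j, h⟩ else 1) ∧
      ∀ x, ((dList D i).map (reflE (qPlus m F))).prod x =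
        fun k => (if (Sum.elim (fun j : Fin m => (j : ℕ)) (fun j : Fin m => (j : ℕ)) k) < i then
          Sum.elim D (fun j => (D j)⁻¹) k else 1) * x k := by
  induction i with
  | zero =>
    refine ⟨by simp [dList], by simp [dList], ?_⟩
    intro x
    simp [dList]
  | succ i ih =>
    obtain ⟨h1, h3, h4⟩ := ih (by omega)
    have hm : i < m := by omega
    have hef : QuadraticMap.polarBilin (qPlus m F) (Pi.single (Sum.inl ⟨i, hm⟩) 1)
        (Pi.single (Sum.inr ⟨i, hm⟩) 1) = 1 := by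
      rw [polar_f]; simp
    obtain ⟨hq1, hq2⟩ := hyp_rot_Q (qPlus m F) (Pi.single (Sum.inl ⟨i, hm⟩) 1)
      (Pi.single (Sum.inr ⟨i, hm⟩) 1) (Q_e _) (Q_f _) hef (D ⟨i, hm⟩)
    rw [dList_succ D i hm]
    refine ⟨?_, ?_, ?_⟩
    · intro v hv
      simp only [List.mem_cons] at hv
      rcases hv with rfl | rfl | hv
      · rw [hq1]; simp
      · rw [hq2]; simpa using hD _
      · exact h1 v hv
    · simp only [List.map_cons, List.prod_cons, h3, hq1, hq2]
      rw [Finset.prod_range_succ, dif_pos hm]; ring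
    · intro x
      simp only [List.map_cons, List.prod_cons, LinearEquiv.mul_apply, h4]
      rw [hyp_rot_apply (qPlus m F) _ _ (Q_e _) (Q_f _) hef (D ⟨i, hm⟩) (hD _), polar_e, polar_f]
      ext k
      rcases k with k | k
      · by_cases hk : (k : ℕ) = i
        · have hk' : k = ⟨i, hm⟩ := Fin.ext hk
          subst hk'
          simp
          ring
        · have hk' : k ≠ ⟨i, hm⟩ := fun h => hk (by rw [h])
          by_cases h9 : (k : ℕ) < i
          · have h8 : (k : ℕ) < i + 1 := by omega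
            simp [hk', h8, h9]
          · have h8 : ¬ (k : ℕ) < i + 1 := by omega
            simp [hk', h8, h9]
      · by_cases hk : (k : ℕ) = i
        · have hk' : k = ⟨i, hm⟩ := Fin.ext hk
          subst hk'
          simp
          ring
        · have hk' : k ≠ ⟨i, hm⟩ := fun h => hk (by rw [h])
          by_cases h9 : (k : ℕ) < i
          · have h8 : (k : ℕ) < i + 1 := by omega
            simp [hk', h8, h9]
          · have h8 : ¬ (k : ℕ) < i + 1 := by omega
            simp [hk', h8, h9]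

theorem theta_prod_iff [Fintype F] {V : Type*} [AddCommGroup V] [Module F V] (Q : QuadraticForm F V)
    (θ : ↥(OG Q) →* ℤˣ)
    (hθ1 : ∀ v, Q v ≠ 0 → IsSquare (Q v) → θ (rO Q v) = 1)
    (hθ2 : ∀ v, Q v ≠ 0 → ¬ IsSquare (Q v) → θ (rO Q v) = -1)
    (vs : List V) (hvs : ∀ v ∈ vs, Q v ≠ 0) :
    θ ((vs.map (rO Q)).prod) = 1 ↔ IsSquare (vs.map (fun v => Q v)).prod := by
  rw [hom_prod_nsq Q θ vs (fun v hv => hθ1 v (hvs v hv)) (fun v hv => hθ2 v (hvs v hv)),
    neg_one_pow_units, isSquare_prod_iff Q vs hvs]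

theorem coe_mkOfDetNeZero {n : Type} [Fintype n] [DecidableEq n] (A : Matrix n n F) (h : A.det ≠ 0) :
    ((GeneralLinearGroup.mkOfDetNeZero A h : GL n F) : Matrix n n F) = A := rfl

theorem theta_del [Fintype F] (h2 : (2 : F) ≠ 0) (θ : ↥(OG (qPlus m F)) →* ℤˣ)
    (hθ1 : ∀ v, qPlus m F v ≠ 0 → IsSquare (qPlus m F v) → θ (rO (qPlus m F) v) = 1)
    (hθ2 : ∀ v, qPlus m F v ≠ 0 → ¬ IsSquare (qPlus m F v) → θ (rO (qPlus m F) v) = -1)
    (A : GL (Fin m) F) :
    θ (bridge _ (del F m A)) = 1 ↔ IsSquare (A : Matrix (Fin m) (Fin m) F).det := by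
  let Θ : GL (Fin m) F →* ℤˣ := θ.comp ((bridge (qPlus m F)).toMonoidHom.comp (del F m))
  have key : ∀ M : Matrix (Fin m) (Fin m) F, M.det ≠ 0 →
      ∀ A : GL (Fin m) F, (A : Matrix (Fin m) (Fin m) F) = M → (Θ A = 1 ↔ IsSquare M.det) := by
    intro M hM
    apply diagonal_transvection_induction_of_det_ne_zero (fun M => ∀ A : GL (Fin m) F,
      (A : Matrix (Fin m) (Fin m) F) = M → (Θ A = 1 ↔ IsSquare M.det)) M hM
    · intro D hD A hA
      have hD' : ∀ j, D j ≠ 0 := by
        rw [det_diagonal] at hD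
        intro j hj
        exact hD (Finset.prod_eq_zero (Finset.mem_univ j) hj)
      obtain ⟨h1, h3, h4⟩ := dList_props D hD' m le_rfl
      have hinv : (diagonal D)⁻¹ = diagonal (fun j => (D j)⁻¹) := by
        apply Matrix.inv_eq_right_inv
        rw [diagonal_mul_diagonal]
        simp [mul_inv_cancel₀ (hD' _)]
      have hb : bridge _ (del F m A) = ((dList D m).map (rO (qPlus m F))).prod := by
        apply bridge_eq_of_mulVec
        intro x
        rw [del_coe, hA, coe_prod_rO, h4, fromBlocks_mulVec, hinv, diagonal_transpose]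
        ext (k | k)
        · simp [mulVec_diagonal]
        · simp [mulVec_diagonal]
      change θ (bridge _ (del F m A)) = 1 ↔ _
      rw [hb, theta_prod_iff _ θ hθ1 hθ2 _ h1, h3, det_diagonal,
        ← Fin.prod_univ_eq_prod_range (fun j => if h : j < m then D ⟨j, h⟩ else 1) m]
      simp
    · intro t A hA
      haveI : NeZero (2 : F) := ⟨h2⟩
      have hdet : (transvection t.i t.j (t.c / 2)).det ≠ 0 := by
        rw [det_transvection_of_ne _ _ t.hij]; exact one_ne_zero
      have hAB : A = GeneralLinearGroup.mkOfDetNeZero _ hdet * GeneralLinearGroup.mkOfDetNeZero _ hdet := by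
        apply Units.ext
        rw [Units.val_mul, coe_mkOfDetNeZero, transvection_mul_transvection_same _ _ t.hij, hA,
          add_halves]
        rfl
      rw [hAB, map_mul, Int.units_mul_self, TransvectionStruct.det]
      simp
    · intro A B hA hB PA PB C hC
      have hCAB : C = GeneralLinearGroup.mkOfDetNeZero A hA * GeneralLinearGroup.mkOfDetNeZero B hB := by
        apply Units.ext
        rw [Units.val_mul, coe_mkOfDetNeZero, coe_mkOfDetNeZero, hC]
      have a := PA (GeneralLinearGroup.mkOfDetNeZero A hA) rfl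
      have b := PB (GeneralLinearGroup.mkOfDetNeZero B hB) rfl
      rw [hCAB, map_mul, det_mul, isSquare_mul_iff hA hB, ← a, ← b]
      rcases Int.units_eq_one_or (Θ (GeneralLinearGroup.mkOfDetNeZero A hA)) with h | h <;>
        rcases Int.units_eq_one_or (Θ (GeneralLinearGroup.mkOfDetNeZero B hB)) with h' | h' <;>
        simp [h, h']
  exact key _ (by
    have := A.isUnit
    rw [Matrix.isUnit_iff_isUnit_det] at this
    exact this.ne_zero) A rfl

theorem del_even_length [Fintype F] (A : GL (Fin m) F) (vs : List (Fin m ⊕ Fin m → F))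
    (hvs : ∀ v ∈ vs, qPlus m F v ≠ 0)
    (hg : bridge (qPlus m F) (del F m A) = (vs.map (rO (qPlus m F))).prod) : Even vs.length := by
  have hpar := parity_of_list stdU_mts stdU_mts (del F m A) vs hvs hg
  rw [inf_idem, stdU_finrank, Nat.sub_self, zero_add] at hpar
  apply hpar.1
  have hst : bridge (qPlus m F) (del F m A) ∈ stabO (qPlus m F)
      (LinearMap.ker (LinearMap.funLeft F F (Sum.inr : Fin m → Fin m ⊕ Fin m))) := by
    apply mem_stabO_of_le
    intro w hw
    rw [bridge_apply, del_coe, fromBlocks_mulVec, LinearMap.mem_ker]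
    have hw' : w ∘ Sum.inr = 0 := LinearMap.mem_ker.1 hw
    ext k
    rw [LinearMap.funLeft_apply]
    simp [hw']
  rw [mem_stabO] at hst
  rw [mulVecLin_eq_bridge, hst, inf_idem, stdU_finrank, Nat.sub_self]
  exact Even.zero

theorem result {F : Type*} [Field F] [Fintype F] {m : ℕ} (hm : 1 ≤ m) (h : Fintype.card F ≠ 2 ∨ m ≠ 2) (A : GL (Fin m) F) : (∃ g : ↥(Cfsg.isometryGroup F (Cfsg.quadFormPlus m F)), g ∈ Cfsg.Omega F (Cfsg.quadFormPlus m F) ∧ ((g : Matrix.GeneralLinearGroup (Fin m ⊕ Fin m) F) : Matrix (Fin m ⊕ Fin m) (Fin m ⊕ Fin m) F) = Matrix.fromBlocks (A : Matrix (Fin m) (Fin m) F) 0 0 ((A : Matrix (Fin m) (Fin m) F)⁻¹).transpose) ↔ IsSquare (A : Matrix (Fin m) (Fin m) F).det := by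
  rw [← qPlus_coe]
  have H : Fintype.card F ≠ 2 ∨ Module.finrank F (Fin m ⊕ Fin m → F) ≠ 4 := by
    rw [finrank_plus]
    rcases h with h | h
    · exact Or.inl h
    · right; omega
  rw [exists_Omega_iff (qPlus m F) _ (bridge _ (del F m A)) (by
    intro x
    rw [bridge_apply, del_coe])]
  obtain ⟨vs, hvs, hgv⟩ := exists_list_refl (qPlus m F) qPlus_nondeg H (bridge _ (del F m A))
  have hev := del_even_length A vs hvs hgv
  by_cases h2 : (2 : F) = 0
  · have hch : ringChar F = 2 := CharP.ringChar_of_prime_eq_zero Nat.prime_two (by exact_mod_cast h2)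
    rw [hgv, prod_mem_comm_iff_even _ h2 qPlus_nondeg H vs hvs]
    exact ⟨fun _ => FiniteField.isSquare_of_char_two hch _, fun _ => hev⟩
  · obtain ⟨ε, θ, hε, hθ1, hθ2, hiff⟩ := omega_iff_odd (qPlus m F) h2 qPlus_nondeg
    rw [hiff, theta_del h2 θ hθ1 hθ2 A, hgv, hom_prod_len _ ε vs (fun v hv => hε v (hvs v hv)),
      hev.neg_one_pow]
    simp

end Cfsg.Agent.S2611
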