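import Cfsg.Statements.S2615
import Cfsg.Agent.Lib.Helper16.Orth7
import Cfsg.Agent.Lib.Helper16.StdForms

set_option autoImplicit false

open Cfsg

namespace Cfsg.Agent.S2615

open Cfsg.Agent.Lib.Helper16

theorem result {F : Type*} [Field F] [Fintype F] {q : ℕ} (hF : Fintype.card F = q) (hq : Odd q) {m : ℕ} (a b : F) (hab : ∀ z₁ z₂ : F, z₁ ^ 2 + a * z₁ * z₂ + b * z₂ ^ 2 = 0 → z₁ = 0 ∧ z₂ = 0) (i : ℕ) (hi : 1 ≤ i) (him : i + 1 ≤ m) : (∃ g : ↥(Cfsg.isometryGroup F (Cfsg.quadFormMinus (m - 1) F a b)), g ∈ Cfsg.Omega F (Cfsg.quadFormMinus (m - 1) F a b) ∧ ((g : Matrix.GeneralLinearGroup ((Fin (m - 1) ⊕ Fin (m - 1)) ⊕ Fin 2) F) : Matrix ((Fin (m - 1) ⊕ Fin (m - 1)) ⊕ Fin 2) ((Fin (m - 1) ⊕ Fin (m - 1)) ⊕ Fin 2) F) = Matrix.diagonal (fun k : (Fin (m - 1) ⊕ Fin (m - 1)) ⊕ Fin 2 => if (Sum.elim (Sum.elim (fun j : Fin (m - 1) => (j : ℕ)) (fun j : Fin (m - 1) => (j : ℕ))) (fun _ : Fin 2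 => i) k) < i then (-1 : F) else 1)) ↔ q ^ i % 4 = 1 := by
  have h2 : (2 : F) ≠ 0 := two_ne_zero_of_odd_card (by rw [hF]; exact hq)
  rw [← isSquare_neg_one_pow_iff_mod4 hF hq i, ← qMinus_coe]
  apply diag_neg_iff (qMinus (m - 1) F a b) h2 (qMinus_nondeg a b hab) (fun j => Sum.inl (Sum.inl j)) (fun j => Sum.inl (Sum.inr j))
    (Sum.elim (Sum.elim (fun j : Fin (m - 1) => (j : ℕ)) (fun j : Fin (m - 1) => (j : ℕ))) (fun _ : Fin 2 => i)) _ _ _ _ _ _ _ i (by omega)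
  · intro k hk
    rcases k with (j | j) | j
    · exact ⟨j, Or.inl rfl⟩
    · exact ⟨j, Or.inr rfl⟩
    · simp at hk
  · intro j
    rw [qMinus_apply, quadFormMinus]
    simp
  · intro j
    rw [qMinus_apply, quadFormMinus]
    simp
  · intro j x
    rw [QuadraticMap.polarBilin_apply_apply, qMinus_coe, polar_minus]
    simp [Pi.single_apply]
  · intro j x
    rw [QuadraticMap.polarBilin_apply_apply, qMinus_coe, polar_minus]
    simp [Pi.single_apply]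
  · intro j; simp
  · intro j; simp
  · intro j; simp

end Cfsg.Agent.S2615
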