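import Cfsg.Statements.S2616
import Cfsg.Agent.Lib.Helper16.QuadForm

set_option autoImplicit false
open Cfsg

namespace Cfsg.Agent.S2616

open Cfsg.Agent.Lib.Helper16 Module QuadraticMap

/-- In an anisotropic plane with nondegenerate polar form there is a standard pair. -/
theorem elliptic_pair {F V : Type*} [Field F] [Finite F] [AddCommGroup V] [Module F V] [FiniteDimensional F V]
    (Q : QuadraticForm F V) (W : Submodule F V) (hW : finrank F W = 2) (han : ∀ w ∈ W, Q w = 0 → w = 0)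
    (hnd : ∀ w ∈ W, (∀ w' ∈ W, polar Q w w' = 0) → w = 0) :
    ∃ x ∈ W, ∃ y ∈ W, Q x = 1 ∧ polar Q x y = 1 ∧ y ∉ Submodule.span F {x} := by
  obtain ⟨x, hx1⟩ := represents_one_of_aniso (restr Q W) (by omega)
    (fun v hv => Subtype.ext (han v v.2 hv))
  rw [restr_apply] at hx1
  have hx0 : (x : V) ≠ 0 := by
    intro h; rw [h] at hx1; simp at hx1
  obtain ⟨z, hzW, hz⟩ : ∃ z ∈ W, z ∉ Submodule.span F {(x : V)} := by
    by_contra hcon
    push Not at hcon
    have hle : W ≤ Submodule.span F {(x : V)} := hcon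
    have h1 := Submodule.finrank_mono hle
    have h2 := finrank_span_singleton (K := F) hx0
    omega
  obtain ⟨w', hw'W, hw'⟩ : ∃ w' ∈ W, polar Q x w' = 1 := by
    have : ∃ u ∈ W, polar Q x u ≠ 0 := by
      by_contra hcon
      push Not at hcon
      exact hx0 (hnd x x.2 hcon)
    obtain ⟨u, huW, hu⟩ := this
    exact ⟨(polar Q x u)⁻¹ • u, W.smul_mem _ huW, by rw [polar_smul_right, smul_eq_mul, inv_mul_cancel₀ hu]⟩
  by_cases hc : w' ∈ Submodule.span F {(x : V)}
  · refine ⟨x, x.2, z + (1 - polar Q x z) • w', W.add_mem hzW (W.smul_mem _ hw'W), hx1, ?_, ?_⟩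
    · rw [polar_add_right, polar_smul_right, hw']; simp
    · intro h
      apply hz
      have := Submodule.sub_mem _ h (Submodule.smul_mem _ (1 - polar Q x z) hc)
      simpa using this
  · exact ⟨x, x.2, w', hw'W, hx1, hw', hc⟩

theorem result {F V : Type*} [Field F] [Finite F] [AddCommGroup V] [Module F V] [FiniteDimensional F V] {m : ℕ} (hm : 1 ≤ m) (hV : Module.finrank F V = 2 * m) (Q : QuadraticForm F V) (hQ : (QuadraticMap.polarBilin Q).Nondegenerate) : (∃ b : Module.Basis (Fin m ⊕ Fin m) F V, (∀ i, Q (b (Sum.inl i)) = 0 ∧ Q (b (Sum.inr i)) = 0) ∧ (∀ i j, QuadraticMap.polar ⇑Q (b (Sum.inl i)) (b (Sum.inr j)) = if i = j then 1 else 0) ∧ (∀ i j, QuadraticMap.polar ⇑Q (b (Sum.inl i)) (b (Sum.inl j)) = 0 ∧ QuadraticMap.polar ⇑Q (b (Sum.inr i)) (b (Sum.inr j)) = 0)) ∨ (∃ (b : Module.Basis ((Fin (m - 1) ⊕ Fin (m - 1)) ⊕ Fin 2) F V) (ζ : F), (∀ t : F, t ^ 2 + t + ζ ≠ 0) ∧ (∀ i, Q (b (Sum.inl (Sum.inl i))) = 0 ∧ Q (b (Sum.inl (Sum.inr i))) = 0) ∧ (∀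 i j, QuadraticMap.polar ⇑Q (b (Sum.inl (Sum.inl i))) (b (Sum.inl (Sum.inr j))) = if i = j then 1 else 0) ∧ (∀ i j, QuadraticMap.polar ⇑Q (b (Sum.inl (Sum.inl i))) (b (Sum.inl (Sum.inl j))) = 0 ∧ QuadraticMap.polar ⇑Q (b (Sum.inl (Sum.inr i))) (b (Sum.inl (Sum.inr j))) = 0) ∧ (∀ i (k : Fin 2), QuadraticMap.polar ⇑Q (b (Sum.inl (Sum.inl i))) (b (Sum.inr k)) = 0 ∧ QuadraticMap.polar ⇑Q (b (Sum.inl (Sum.inr i))) (b (Sum.inr k)) = 0) ∧ Q (b (Sum.inr 0)) = 1 ∧ QuadraticMap.polar ⇑Q (b (Sum.inr 0)) (b (Sum.inr 1)) = 1 ∧ Q (b (Sum.inr 1)) = ζ) := by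
  obtain ⟨k, e, f, W, hs, hW1, hW2, hW3, hW4⟩ := witt_decomp (2 * m) V Q hQ hV
  have hle := aniso_finrank_le Q W hW2
  have hW : finrank F W = 0 ∨ finrank F W = 2 := by omega
  rcases hW with hW | hW
  · left
    obtain rfl : k = m := by omega
    have hli := hyp_linIndep Q e f hs (fun i : Fin 0 => (i.elim0 : V)) (linearIndependent_empty_type)
      (fun _ j => j.elim0)
    have hli' := hli.comp Sum.inl Sum.inl_injective
    obtain ⟨b, hb⟩ := exists_basis_of_li _ hli' (by simp [hV]; ring)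
    obtain ⟨h1, h2, h3, h4, h5⟩ := hs
    refine ⟨b, ?_, ?_, ?_⟩
    · intro i
      simp only [hb, Function.comp, Sum.elim_inl, Sum.elim_inr]
      exact ⟨h1 i, h2 i⟩
    · intro i j
      simp only [hb, Function.comp, Sum.elim_inl, Sum.elim_inr]
      exact h3 i j
    · intro i j
      simp only [hb, Function.comp, Sum.elim_inl, Sum.elim_inr]
      exact ⟨h4 i j, h5 i j⟩
  · right
    obtain rfl : k = m - 1 := by omega
    obtain ⟨x, hxW, y, hyW, hx1, hxy, hy⟩ := elliptic_pair Q W hW hW2 hW4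
    have hx0 : x ≠ 0 := by
      intro h; rw [h] at hx1; simp at hx1
    have hc : LinearIndependent F ![x, y] := by
      rw [LinearIndependent.pair_iff]
      intro s t hst
      have ht : t = 0 := by
        by_contra ht
        apply hy
        rw [Submodule.mem_span_singleton]
        refine ⟨-(t⁻¹ * s), ?_⟩
        have h1 : y = t⁻¹ • (t • y) := by rw [smul_smul, inv_mul_cancel₀ ht, one_smul]
        have h2 : t • y = -(s • x) := eq_neg_iff_add_eq_zero.2 (by rw [add_comm]; exact hst)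
        rw [h1, h2]
        simp [smul_smul]
      subst ht
      simp only [zero_smul, add_zero, smul_eq_zero] at hst
      exact ⟨hst.resolve_right hx0, rfl⟩
    have hli := hyp_linIndep Q e f hs ![x, y] hc (by
      intro i j
      fin_cases j
      · exact hW1 i x hxW
      · exact hW1 i y hyW)
    obtain ⟨b, hb⟩ := exists_basis_of_li _ hli (by simp [hV]; omega)
    obtain ⟨h1, h2, h3, h4, h5⟩ := hs
    refine ⟨b, Q y, ?_, ?_, ?_, ?_, ?_, ?_, ?_, ?_⟩
    · intro t ht
      have h0 : Q (t • x + y) = 0 := by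
        rw [QuadraticMap.map_add (⇑Q), QuadraticMap.map_smul, polar_smul_left, hx1, hxy]
        simp only [smul_eq_mul, mul_one]
        linear_combination ht
      have := hW2 _ (W.add_mem (W.smul_mem _ hxW) hyW) h0
      apply hy
      rw [Submodule.mem_span_singleton]
      exact ⟨-t, by rw [neg_smul]; exact (eq_neg_iff_add_eq_zero.2 (by rw [add_comm]; exact this)).symm⟩
    · intro i
      simp only [hb, Sum.elim_inl, Sum.elim_inr]
      exact ⟨h1 i, h2 i⟩
    · intro i j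
      simp only [hb, Sum.elim_inl, Sum.elim_inr]
      exact h3 i j
    · intro i j
      simp only [hb, Sum.elim_inl, Sum.elim_inr]
      exact ⟨h4 i j, h5 i j⟩
    · intro i j
      simp only [hb, Sum.elim_inl, Sum.elim_inr]
      fin_cases j
      · exact hW1 i x hxW
      · exact hW1 i y hyW
    · simpa [hb] using hx1
    · simpa [hb] using hxy
    · simp [hb]

end Cfsg.Agent.S2616
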