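import Cfsg.Statements.S2617
import Cfsg.Agent.Lib.Helper16.StdForms

set_option autoImplicit false
open Cfsg

namespace Cfsg.Agent.S2617

open Cfsg.Agent.Lib.Helper16 Module QuadraticMap

theorem result {F : Type*} [Field F] [Finite F] {m : ℕ} (hm : 1 ≤ m) (ζ : F) (hζ : ∀ t : F, t ^ 2 + t + ζ ≠ 0) (g : (Fin m ⊕ Fin m → F) ≃ₗ[F] ((Fin (m - 1) ⊕ Fin (m - 1)) ⊕ Fin 2 → F)) : ¬ (∀ v : Fin m ⊕ Fin m → F, Cfsg.quadFormMinus (m - 1) F 1 ζ (g v) = Cfsg.quadFormPlus m F v) := by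
  intro hg
  have hab : ∀ z₁ z₂ : F, z₁ ^ 2 + 1 * z₁ * z₂ + ζ * z₂ ^ 2 = 0 → z₁ = 0 ∧ z₂ = 0 := by
    intro z₁ z₂ h
    by_cases hz : z₂ = 0
    · subst hz
      simp at h
      exact ⟨h, rfl⟩
    · exfalso
      apply hζ (z₁ / z₂)
      field_simp
      linear_combination h
  let ι : (Fin m → F) →ₗ[F] (Fin m ⊕ Fin m → F) :=
    LinearMap.pi (fun x => Sum.elim (fun i => LinearMap.proj i) (fun _ => 0) x)
  have hι : Function.Injective ι := by
    intro x y hxy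
    ext i
    have := congrFun hxy (Sum.inl i)
    simpa [ι] using this
  let φ : (Fin m → F) →ₗ[F] ((Fin (m - 1) ⊕ Fin (m - 1)) ⊕ Fin 2 → F) := (g : _ →ₗ[F] _).comp ι
  have hφ : Function.Injective φ := g.injective.comp hι
  have hU : ∀ u ∈ LinearMap.range φ, qMinus (m - 1) F 1 ζ u = 0 := by
    rintro _ ⟨x, rfl⟩
    rw [qMinus_apply]
    change quadFormMinus (m - 1) F 1 ζ (g (ι x)) = 0
    rw [hg]
    simp [quadFormPlus, ι]
  have := witt_index_le (qMinus (m - 1) F 1 ζ) (qMinus_nondeg 1 ζ hab) _ _ (qMinus_hyp 1 ζ)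
    (qMinus_aniso 1 ζ hab) (LinearMap.range φ) hU
  rw [LinearMap.finrank_range_of_inj hφ] at this
  simp at this
  omega

end Cfsg.Agent.S2617
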