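import Cfsg.Statements.S2618
import Cfsg.Agent.Lib.Helper16.QuadForm

set_option autoImplicit false
open Cfsg

namespace Cfsg.Agent.S2618

open Cfsg.Agent.Lib.Helper16 Module

theorem result {F V : Type*} [Field F] [Finite F] [AddCommGroup V] [Module F V] [FiniteDimensional F V] {m : ℕ} (hV : Module.finrank F V = 2 * m + 1) (Q : QuadraticForm F V) (hQ : (QuadraticMap.polarBilin Q).Nondegenerate) : ∃ b : Module.Basis (Unit ⊕ (Fin m ⊕ Fin m)) F V, Q (b (Sum.inl ())) ≠ 0 ∧ (∀ i, QuadraticMap.polar ⇑Q (b (Sum.inl ())) (b (Sum.inr (Sum.inl i))) = 0 ∧ QuadraticMap.polar ⇑Q (b (Sum.inl ())) (b (Sum.inr (Sum.inr i))) = 0) ∧ (∀ i, Q (b (Sum.inr (Sum.inl i))) = 0 ∧ Q (b (Sum.inr (Sum.inr i))) = 0) ∧ (∀ i j, QuadraticMap.polar ⇑Q (b (Sum.inr (Sum.inl i))) (b (Sum.inr (Sum.inr j))) = if i = j then 1 else 0) ∧ (∀ i j, QuadraticMap.polar ⇑Q (b (Sum.inr (Sum.inl i))) (b (Sum.inr (Sum.inl j))) = 0 ∧ QuadraticMap.polar ⇑Q (b (Sum.inr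 (Sum.inr i))) (b (Sum.inr (Sum.inr j))) = 0) := by
  obtain ⟨k, e, f, W, hs, hW1, hW2, hW3, hW4⟩ := witt_decomp (2 * m + 1) V Q hQ hV
  have hle := aniso_finrank_le Q W hW2
  have hW : finrank F W = 1 := by omega
  obtain rfl : k = m := by omega
  obtain ⟨x, hx⟩ : ∃ x : W, x ≠ 0 := by
    have : 0 < finrank F W := by omega
    exact (Module.finrank_pos_iff_exists_ne_zero).1 this
  have hx' : (x : V) ≠ 0 := fun h => hx (Subtype.ext h)
  have hli := hyp_linIndep Q e f hs (fun _ : Unit => (x : V)) (by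
    rw [linearIndependent_unique_iff]; exact hx') (fun i _ => hW1 i x x.2)
  have hli' := hli.comp Sum.swap Sum.swap_leftInverse.injective
  obtain ⟨b, hb⟩ := exists_basis_of_li _ hli' (by simp [hV]; ring)
  obtain ⟨h1, h2, h3, h4, h5⟩ := hs
  refine ⟨b, ?_, ?_, ?_, ?_, ?_⟩
  · simp only [hb, Function.comp, Sum.swap_inl, Sum.elim_inr]
    exact fun h => hx' (hW2 x x.2 h)
  · intro i
    simp only [hb, Function.comp, Sum.swap_inl, Sum.swap_inr, Sum.elim_inr, Sum.elim_inl]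
    rw [QuadraticMap.polar_comm, QuadraticMap.polar_comm _ _ (f i)]
    exact hW1 i x x.2
  · intro i
    simp only [hb, Function.comp, Sum.swap_inr, Sum.elim_inr, Sum.elim_inl]
    exact ⟨h1 i, h2 i⟩
  · intro i j
    simp only [hb, Function.comp, Sum.swap_inr, Sum.elim_inr, Sum.elim_inl]
    exact h3 i j
  · intro i j
    simp only [hb, Function.comp, Sum.swap_inr, Sum.elim_inr, Sum.elim_inl]
    exact ⟨h4 i j, h5 i j⟩

end Cfsg.Agent.S2618
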