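import Cfsg.Statements.S2619

set_option autoImplicit false
open Cfsg

namespace Cfsg.Agent.S2619

open Matrix

theorem uniq {F V ι : Type*} [Field F] [AddCommGroup V] [Module F V] [Fintype ι]
    (b : Module.Basis ι F V) (Q Q' : QuadraticForm F V)
    (h1 : QuadraticMap.polarBilin Q = QuadraticMap.polarBilin Q') (h2 : ∀ i, Q (b i) = Q' (b i)) : Q = Q' := by
  have hp : ∀ u v, QuadraticMap.polar Q u v = QuadraticMap.polar Q' u v := by
    intro u v
    have := congrArg (fun f => f u v) h1
    simpa using this
  let f : V →+ F :=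
    { toFun := fun v => Q v - Q' v
      map_zero' := by simp
      map_add' := by
        intro u v
        have := hp u v
        simp only [QuadraticMap.polar] at this
        linear_combination this }
  ext v
  have hf : f v = 0 := by
    conv_lhs => rw [← b.sum_repr v]
    rw [map_sum]
    apply Finset.sum_eq_zero
    intro i _
    change Q (b.repr v i • b i) - Q' (b.repr v i • b i) = 0
    rw [QuadraticMap.map_smul, QuadraticMap.map_smul, h2]
    simp
  exact sub_eq_zero.1 hf

theorem result {F V ι : Type*} [Field F] [Finite F] [CharP F 2] [AddCommGroup V] [Module F V] [Fintype ι] (b : Module.Basis ι F V) (B : LinearMap.BilinForm F V) (hB : B.IsAlt) (c : ι → F) : ∃! Q : QuadraticForm F V, QuadraticMap.polarBilin Q = B ∧ ∀ i, Q (b i) = c i := by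
  classical
  letI : LinearOrder ι := LinearOrder.lift' (Fintype.equivFin ι) (Equiv.injective _)
  set M : Matrix ι ι F := fun i j => if i < j then B (b i) (b j) else if i = j then c i else 0 with hM
  set A : LinearMap.BilinForm F V := Matrix.toBilin b M with hA
  have hAb : ∀ i j, A (b i) (b j) = M i j := by
    intro i j
    rw [hA, ← LinearMap.BilinForm.toMatrix_apply b, LinearMap.BilinForm.toMatrix_toBilin]
  have h2 : ∀ x : F, x + x = 0 := fun x => CharTwo.add_self_eq_zero x
  have e1 : QuadraticMap.polarBilin (LinearMap.BilinMap.toQuadraticMap A) = B := by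
    rw [LinearMap.BilinMap.polarBilin_toQuadraticMap]
    refine b.ext fun i => b.ext fun j => ?_
    simp only [LinearMap.add_apply, LinearMap.flip_apply, hAb, hM]
    rcases lt_trichotomy i j with h | h | h
    · simp [h, not_lt.2 h.le, h.ne']
    · subst h
      simp [h2, hB.self_eq_zero]
    · have : B (b j) (b i) = B (b i) (b j) := by
        have := hB.neg_eq (b j) (b i)
        rw [← this, CharTwo.neg_eq]
      simp [h, not_lt.2 h.le, h.ne', this]
  have e2 : ∀ i, LinearMap.BilinMap.toQuadraticMap A (b i) = c i := by
    intro i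
    rw [LinearMap.BilinMap.toQuadraticMap_apply, hAb]
    simp [hM]
  refine ⟨LinearMap.BilinMap.toQuadraticMap A, ⟨e1, e2⟩, ?_⟩
  rintro Q' ⟨hQ1, hQ2⟩
  exact uniq b _ _ (hQ1.trans e1.symm) (fun i => (hQ2 i).trans (e2 i).symm)

end Cfsg.Agent.S2619
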