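import Cfsg.Statements.S2620
import Cfsg.Agent.Lib.Helper16.StdForms

set_option autoImplicit false
open Cfsg

namespace Cfsg.Agent.S2620

open Cfsg.Agent.Lib.Helper16 Module QuadraticMap

theorem result {F : Type*} [Field F] [Fintype F] {q : ℕ} (hF : Fintype.card F = q) (hq : Odd q) {m : ℕ} (hm : 1 ≤ m) {ι : Type*} [Fintype ι] [DecidableEq ι] (b : Module.Basis ι F (Fin m ⊕ Fin m → F)) : IsSquare (Matrix.of (fun i j : ι => QuadraticMap.polar (Cfsg.quadFormPlus m F) (b i) (b j))).det ↔ Even (m * (q - 1) / 2) := by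
  have e : Matrix.of (fun i j : ι => QuadraticMap.polar (Cfsg.quadFormPlus m F) (b i) (b j)) =
      LinearMap.BilinForm.toMatrix b (polarBilin (qPlus m F)) := by
    ext i j
    rw [LinearMap.BilinForm.toMatrix_apply, polarBilin_apply_apply, qPlus_coe]; rfl
  obtain ⟨r, hr, h⟩ := gram_det' (Pi.basisFun F (Fin m ⊕ Fin m)) b (polarBilin (qPlus m F))
  rw [e, h, isSquare_sq_mul hr, gram_plus_det, isSquare_neg_one_pow, FiniteField.isSquare_neg_one_iff, hF]
  obtain ⟨k, rfl⟩ := hq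
  have h1 : m * (2 * k + 1 - 1) / 2 = m * k := by
    rw [Nat.add_sub_cancel, mul_left_comm, Nat.mul_div_cancel_left _ (by norm_num)]
  rw [h1, Nat.even_mul]
  have h2 : (2 * k + 1) % 4 ≠ 3 ↔ Even k := by
    rw [Nat.even_iff]; omega
  rw [h2]

end Cfsg.Agent.S2620
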