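import Cfsg.Statements.S2621
import Cfsg.Agent.Lib.Helper16.StdForms

set_option autoImplicit false
open Cfsg

namespace Cfsg.Agent.S2621

open Cfsg.Agent.Lib.Helper16 Module QuadraticMap

theorem result {F : Type*} [Field F] [Fintype F] {q : ℕ} (hF : Fintype.card F = q) (hq : Odd q) {m : ℕ} (hm : 1 ≤ m) (a c : F) (hac : ∀ z₁ z₂ : F, z₁ ^ 2 + a * z₁ * z₂ + c * z₂ ^ 2 = 0 → z₁ = 0 ∧ z₂ = 0) {ι : Type*} [Fintype ι] [DecidableEq ι] (b : Module.Basis ι F ((Fin (m - 1) ⊕ Fin (m - 1)) ⊕ Fin 2 → F)) : IsSquare (Matrix.of (fun i j : ι => QuadraticMap.polar (Cfsg.quadFormMinus (m - 1) F a c) (b i) (b j))).det ↔ ¬ Even (m * (q - 1) / 2) := by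
  have e : Matrix.of (fun i j : ι => QuadraticMap.polar (Cfsg.quadFormMinus (m - 1) F a c) (b i) (b j)) =
      LinearMap.BilinForm.toMatrix b (polarBilin (qMinus (m - 1) F a c)) := by
    ext i j
    rw [LinearMap.BilinForm.toMatrix_apply, polarBilin_apply_apply, qMinus_coe]; rfl
  have h2 : (2 : F) ≠ 0 := by
    intro h
    have hch : ringChar F = 2 := CharP.ringChar_of_prime_eq_zero Nat.prime_two (by exact_mod_cast h)
    have := FiniteField.even_card_of_char_two hch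
    rw [hF] at this
    exact (Nat.not_even_iff_odd.2 hq) (Nat.even_iff.2 this)
  have hD : ¬ IsSquare (a ^ 2 - 4 * c) := by
    rintro ⟨s, hs⟩
    have := hac ((-a + s) / 2) 1 (by field_simp; linear_combination -hs)
    exact one_ne_zero this.2
  have hD0 : a ^ 2 - 4 * c ≠ 0 := by
    intro h; apply hD; rw [h]; exact ⟨0, by simp⟩
  obtain ⟨r, hr, h⟩ := gram_det' (Pi.basisFun F ((Fin (m - 1) ⊕ Fin (m - 1)) ⊕ Fin 2)) b
    (polarBilin (qMinus (m - 1) F a c))
  have e2 : (-1 : F) ^ (m - 1) * (4 * c - a ^ 2) = (-1) ^ m * (a ^ 2 - 4 * c) := by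
    have hk : m = (m - 1) + 1 := by omega
    conv_rhs => rw [hk, pow_succ]
    ring
  rw [e, h, isSquare_sq_mul hr, gram_minus_det, e2,
    isSquare_mul_iff (pow_ne_zero _ (neg_ne_zero.2 one_ne_zero)) hD0, isSquare_neg_one_pow,
    FiniteField.isSquare_neg_one_iff, hF]
  simp only [hD, iff_false]
  obtain ⟨k, rfl⟩ := hq
  have h1 : m * (2 * k + 1 - 1) / 2 = m * k := by
    rw [Nat.add_sub_cancel, mul_left_comm, Nat.mul_div_cancel_left _ (by norm_num)]
  rw [h1, Nat.even_mul]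
  have h3 : (2 * k + 1) % 4 ≠ 3 ↔ Even k := by
    rw [Nat.even_iff]; omega
  rw [h3]

end Cfsg.Agent.S2621
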