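import Cfsg.Statements.S2622
import Cfsg.Agent.Lib.Helper16.QuadForm

set_option autoImplicit false
open Cfsg

namespace Cfsg.Agent.S2622

open Cfsg.Agent.Lib.Helper16 Module

universe u v

variable {F : Type u} [Field F] [Finite F] [CharP F 2]

theorem choose_vec {V : Type v} [AddCommGroup V] [Module F V] [FiniteDimensional F V] (n : ℕ)
    (hV : finrank F V = n + 1) (B : LinearMap.BilinForm F V) (hS : B.IsSymm) (hB : B.Nondegenerate)
    (hna : ∃ v : V, B v v ≠ 0) : ∃ v, B v v = 1 ∧ (n = 0 ∨ ∃ u, B v u = 0 ∧ B u u ≠ 0) := by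
  obtain ⟨v₀, hv₀⟩ := hna
  have h2 : ∀ x : F, x + x = 0 := fun x => CharTwo.add_self_eq_zero x
  obtain ⟨s, hs⟩ := FiniteField.isSquare_of_char_two (F := F) (ringChar.eq F 2) (B v₀ v₀)
  have hs0 : s ≠ 0 := by rintro rfl; simp at hs; exact hv₀ hs
  obtain ⟨v₁, hv₁⟩ : ∃ v₁, B v₁ v₁ = 1 := ⟨s⁻¹ • v₀, by simp [hs]; field_simp⟩
  by_cases hn : n = 0
  · exact ⟨v₁, hv₁, Or.inl hn⟩
  by_cases hc : ∃ u, B v₁ u = 0 ∧ B u u ≠ 0
  · exact ⟨v₁, hv₁, Or.inr hc⟩
  push Not at hc
  have hv₁0 : v₁ ≠ 0 := by rintro rfl; simp at hv₁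
  -- a nonzero vector orthogonal to v₁
  obtain ⟨g, hg⟩ : ∃ g, g ∉ Submodule.span F {v₁} := by
    by_contra hcon
    push Not at hcon
    have htop : Submodule.span F {v₁} = ⊤ := by rw [eq_top_iff]; intro x _; exact hcon x
    have h1 := finrank_span_singleton (K := F) hv₁0
    rw [htop, finrank_top] at h1
    omega
  set e := g - B v₁ g • v₁ with he
  have he0 : e ≠ 0 := by
    intro h
    apply hg
    rw [Submodule.mem_span_singleton]
    exact ⟨B v₁ g, (sub_eq_zero.1 h).symm⟩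
  have hve : B v₁ e = 0 := by simp [he, hv₁]
  obtain ⟨g', hg'⟩ : ∃ g', B e g' ≠ 0 := by
    by_contra hcon
    push Not at hcon
    exact he0 (hB.1 e hcon)
  set f₀ := g' - B v₁ g' • v₁ with hf₀
  have hvf₀ : B v₁ f₀ = 0 := by simp [hf₀, hv₁]
  have hev : B e v₁ = 0 := by rw [hS.eq]; exact hve
  have hef₀ : B e f₀ = B e g' := by simp [hf₀, hev]
  set f := (B e g')⁻¹ • f₀ with hf
  have hvf : B v₁ f = 0 := by simp [hf, hvf₀]
  have hef : B e f = 1 := by simp [hf, hef₀, hg']
  have hfv : B f v₁ = 0 := by rw [hS.eq]; exact hvf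
  refine ⟨v₁ + e, ?_, Or.inr ⟨v₁ + f, ?_, ?_⟩⟩
  · simp [hv₁, hve, hev, hc e hve]
  · simp [hv₁, hvf, hev, hef, h2]
  · simp [hv₁, hvf, hfv, hc f hvf]

theorem orthonormal_family : ∀ (n : ℕ) (V : Type v) [AddCommGroup V] [Module F V] [FiniteDimensional F V]
    (B : LinearMap.BilinForm F V), finrank F V = n → B.IsSymm → B.Nondegenerate → (∃ v : V, B v v ≠ 0) →
    ∃ u : Fin n → V, ∀ i j, B (u i) (u j) = if i = j then 1 else 0 := by
  intro n
  induction n with
  | zero => intro V _ _ _ B _ _ _ _; exact ⟨Fin.elim0, fun i => i.elim0⟩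
  | succ n ih =>
    intro V _ _ _ B hV hS hB hna
    obtain ⟨v, hv, hor⟩ := choose_vec n hV B hS hB hna
    have hv0 : v ≠ 0 := by rintro rfl; simp at hv
    have hd : Disjoint (Submodule.span F {v}) (B.orthogonal (Submodule.span F {v})) := by
      rw [Submodule.disjoint_def]
      intro x hx hx'
      obtain ⟨a, rfl⟩ := Submodule.mem_span_singleton.1 hx
      have := LinearMap.BilinForm.mem_orthogonal_iff.1 hx' v (Submodule.mem_span_singleton_self v)
      simp [hv] at this
      simp [this]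
    obtain ⟨hB', hfin⟩ := bilin_orth_nondeg B hB hS.isRefl _ hd
    rw [finrank_span_singleton hv0] at hfin
    set V' := B.orthogonal (Submodule.span F {v}) with hV'
    have hvx : ∀ x : V', B v x = 0 := fun x =>
      LinearMap.BilinForm.mem_orthogonal_iff.1 x.2 v (Submodule.mem_span_singleton_self v)
    have hmem : ∀ x, B v x = 0 → x ∈ V' := by
      intro x hx
      rw [hV', LinearMap.BilinForm.mem_orthogonal_iff]
      intro y hy
      obtain ⟨a, rfl⟩ := Submodule.mem_span_singleton.1 hy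
      simp [hx]
    have hu' : ∃ u' : Fin n → V', ∀ i j, B (u' i) (u' j) = if i = j then 1 else 0 := by
      rcases hor with rfl | ⟨u, hvu, huu⟩
      · exact ⟨Fin.elim0, fun i => i.elim0⟩
      · obtain ⟨u', hu'⟩ := ih V' (B.restrict V') (by omega) (hS.restrict V') hB' ⟨⟨u, hmem u hvu⟩, by simpa using huu⟩
        exact ⟨u', fun i j => by simpa using hu' i j⟩
    obtain ⟨u', hu'⟩ := hu'
    refine ⟨Fin.cons v (fun i => (u' i : V)), ?_⟩
    intro i j
    refine Fin.cases ?_ (fun i => ?_) i <;> refine Fin.cases ?_ (fun j => ?_) j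
    · simpa using hv
    · simpa [Fin.succ_ne_zero, eq_comm] using hvx (u' j)
    · simpa [Fin.succ_ne_zero] using (hS.eq _ _).trans (hvx (u' i))
    · simpa [Fin.succ_inj] using hu' i j

theorem result {F V : Type*} [Field F] [Finite F] [CharP F 2] [AddCommGroup V] [Module F V] [FiniteDimensional F V] {n : ℕ} (hV : Module.finrank F V = n) (B : LinearMap.BilinForm F V) (hS : B.IsSymm) (hB : B.Nondegenerate) (hna : ∃ v : V, B v v ≠ 0) : ∃ b : Module.Basis (Fin n) F V, ∀ i j, B (b i) (b j) = if i = j then 1 else 0 := by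
  obtain ⟨u, hu⟩ := orthonormal_family n V B hV hS hB hna
  have hli : LinearIndependent F u := by
    rw [Fintype.linearIndependent_iff]
    intro g hg i
    have : B (u i) (∑ j, g j • u j) = 0 := by rw [hg]; simp
    simpa [hu] using this
  obtain ⟨b, hb⟩ := exists_basis_of_li u hli (by simp [hV])
  exact ⟨b, fun i j => by rw [hb, hb]; exact hu i j⟩

end Cfsg.Agent.S2622
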