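import Cfsg.Statements.S2623
import Cfsg.Agent.Lib.Helper16.QuadForm

set_option autoImplicit false
open Cfsg

namespace Cfsg.Agent.S2623

open Cfsg.Agent.Lib.Helper16 Module QuadraticMap

universe u v

section
variable {F : Type u} [Field F] [Finite F]

theorem diag_family (h2 : (2 : F) ≠ 0) : ∀ (k : ℕ) (V : Type v) [AddCommGroup V] [Module F V] [FiniteDimensional F V]
    (Q : QuadraticForm F V), (polarBilin Q).Nondegenerate → finrank F V = k + 1 →
    ∃ u : Fin (k + 1) → V, (∀ i j, i ≠ j → polar Q (u i) (u j) = 0) ∧ (∀ i, i ≠ Fin.last k → Q (u i) = 1) ∧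
      Q (u (Fin.last k)) ≠ 0 := by
  intro k
  induction k with
  | zero =>
    intro V _ _ _ Q hQ hV
    obtain ⟨v, hv⟩ : ∃ v : V, v ≠ 0 := by
      have : 0 < finrank F V := by omega
      exact (Module.finrank_pos_iff_exists_ne_zero).1 this
    haveI : Subsingleton (Fin (0 + 1)) := inferInstanceAs (Subsingleton (Fin 1))
    refine ⟨fun _ => v, fun i j hij => absurd (Subsingleton.elim i j) hij,
      fun i hi => absurd (Subsingleton.elim i _) hi, ?_⟩
    intro h0
    apply hv
    apply nondeg_left Q hQ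
    intro w
    obtain ⟨c, rfl⟩ := (finrank_eq_one_iff_of_nonzero' v hv).1 (by simpa using hV) w
    rw [polar_smul_right, polar_self, h0]; simp
  | succ k ih =>
    intro V _ _ _ Q hQ hV
    obtain ⟨x, hx⟩ := represents_one Q hQ (by omega)
    have hx0 : x ≠ 0 := by rintro rfl; simp at hx
    have hxx : polar Q x x = 2 := by rw [polar_self, hx]; simp
    obtain ⟨hQ', hfin⟩ := orth_nondeg Q hQ (Submodule.span F {x}) (by
      intro y hy h
      obtain ⟨a, rfl⟩ := Submodule.mem_span_singleton.1 hy
      have := h x (Submodule.mem_span_singleton_self x)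
      rw [polar_smul_left, hxx, smul_eq_mul] at this
      have ha : a = 0 := by
        rcases mul_eq_zero.1 this with h | h
        · exact h
        · exact absurd h h2
      simp [ha])
    rw [finrank_span_singleton hx0] at hfin
    set V' := LinearMap.BilinForm.orthogonal (polarBilin Q) (Submodule.span F {x}) with hV'
    obtain ⟨u', h1, h3, h4⟩ := ih V' (restr Q V') hQ' (by omega)
    simp only [restr_apply, polar_restr] at h1 h3 h4
    have hxy : ∀ y : V', polar Q x (y : V) = 0 := fun y =>
      (mem_orth_iff Q _ y).1 y.2 x (Submodule.mem_span_singleton_self x)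
    refine ⟨Fin.cons x (fun i => (u' i : V)), ?_, ?_, ?_⟩
    · intro i j
      refine Fin.cases ?_ (fun i => ?_) i <;> refine Fin.cases ?_ (fun j => ?_) j
      · intro h; exact absurd rfl h
      · intro _; simpa using hxy (u' j)
      · intro _; simpa using (polar_comm _ _ _).trans (hxy (u' i))
      · intro h; simpa using h1 i j (fun h' => h (by rw [h']))
    · intro i
      refine Fin.cases ?_ (fun i => ?_) i
      · intro _; simpa using hx
      · intro h; simpa using h3 i (fun h' => h (by rw [h', Fin.succ_last]))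
    · rw [← Fin.succ_last]; simpa using h4

end

theorem ortho_li {F : Type u} [Field F] (h2 : (2 : F) ≠ 0) {V : Type v} [AddCommGroup V] [Module F V]
    (Q : QuadraticForm F V) {ι : Type*} [Fintype ι] (u : ι → V)
    (ho : ∀ i j, i ≠ j → polar Q (u i) (u j) = 0) (hq : ∀ i, Q (u i) ≠ 0) : LinearIndependent F u := by
  classical
  rw [Fintype.linearIndependent_iff]
  intro g hg i
  have : polarBilin Q (u i) (∑ j, g j • u j) = 0 := by rw [hg]; simp
  simp only [map_sum, map_smul, polarBilin_apply_apply, smul_eq_mul] at this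
  rw [Finset.sum_eq_single i (fun j _ hj => by rw [ho i j hj.symm, mul_zero]) (by simp), polar_self] at this
  simpa [h2, hq i] using this

/-- Two quadratic forms agreeing, with their polar forms, on a basis are equal. -/
theorem ext_basis {F : Type u} [Field F] {V : Type v} [AddCommGroup V] [Module F V] {ι : Type*} [Fintype ι]
    (b : Basis ι F V) (Q Q' : QuadraticForm F V)
    (h1 : ∀ i j, i ≠ j → polar Q (b i) (b j) = polar Q' (b i) (b j)) (h2 : ∀ i, Q (b i) = Q' (b i)) : Q = Q' := by
  have hpb : polarBilin Q = polarBilin Q' := by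
    refine b.ext fun i => b.ext fun j => ?_
    by_cases hij : i = j
    · subst hij
      simp only [polarBilin_apply_apply, polar_self, h2]
    · simpa using h1 i j hij
  have hp : ∀ u v, polar Q u v = polar Q' u v := by
    intro u v
    have := congrArg (fun f => f u v) hpb
    simpa using this
  let f : V →+ F :=
    { toFun := fun v => Q v - Q' v
      map_zero' := by simp
      map_add' := by
        intro u v
        have := hp u v
        simp only [polar] at this
        linear_combination this }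
  ext v
  have hf : f v = 0 := by
    conv_lhs => rw [← b.sum_repr v]
    rw [map_sum]
    apply Finset.sum_eq_zero
    intro i _
    change Q (b.repr v i • b i) - Q' (b.repr v i • b i) = 0
    rw [QuadraticMap.map_smul, QuadraticMap.map_smul, h2]
    simp
  exact sub_eq_zero.1 hf

/-- Gram determinants in two bases differ by a nonzero square. -/
theorem gram_det {F : Type u} [Field F] {V : Type v} [AddCommGroup V] [Module F V] {ι : Type*} [Fintype ι]
    [DecidableEq ι] (b c : Basis ι F V) (B : LinearMap.BilinForm F V) :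
    ∃ r : F, r ≠ 0 ∧ (LinearMap.BilinForm.toMatrix c B).det = r ^ 2 * (LinearMap.BilinForm.toMatrix b B).det := by
  refine ⟨(b.toMatrix c).det, ?_, ?_⟩
  · intro h
    have := congrArg Matrix.det (b.toMatrix_mul_toMatrix_flip c)
    rw [Matrix.det_mul, h] at this
    simp at this
  · rw [← LinearMap.BilinForm.toMatrix_mul_basis_toMatrix b c B, Matrix.det_mul, Matrix.det_mul,
      Matrix.det_transpose]
    ring

theorem gram_eq {F : Type u} [Field F] {n : ℕ} (Q : QuadraticForm F (Fin n → F)) :
    Matrix.of (fun i j : Fin n => polar ⇑Q (Pi.single i 1) (Pi.single j 1)) =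
      LinearMap.BilinForm.toMatrix (Pi.basisFun F (Fin n)) (polarBilin Q) := by
  ext i j
  simp [LinearMap.BilinForm.toMatrix_apply]

theorem result {F : Type*} [Field F] [Fintype F] (h2 : (2 : F) ≠ 0) {n : ℕ} (Q₁ Q₂ : QuadraticForm F (Fin n → F)) (h₁ : (QuadraticMap.polarBilin Q₁).Nondegenerate) (h₂ : (QuadraticMap.polarBilin Q₂).Nondegenerate) : (∃ g : (Fin n → F) ≃ₗ[F] (Fin n → F), ∀ v, Q₂ (g v) = Q₁ v) ↔ IsSquare ((Matrix.of (fun i j : Fin n => QuadraticMap.polar ⇑Q₁ (Pi.single i 1) (Pi.single j 1))).det * (Matrix.of (fun i j : Fin n => QuadraticMap.polar ⇑Q₂ (Pi.single i 1) (Pi.single j 1))).det) := by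
  rw [gram_eq, gram_eq]
  set b₀ := Pi.basisFun F (Fin n) with hb₀
  constructor
  · rintro ⟨g, hg⟩
    -- Gram matrix of Q₁ in b₀ is the Gram matrix of Q₂ in g b₀
    have e : LinearMap.BilinForm.toMatrix b₀ (polarBilin Q₁) =
        LinearMap.BilinForm.toMatrix (b₀.map g) (polarBilin Q₂) := by
      ext i j
      simp only [LinearMap.BilinForm.toMatrix_apply, polarBilin_apply_apply, Basis.map_apply, polar, ← map_add, hg]
    obtain ⟨r, -, hr⟩ := gram_det b₀ (b₀.map g) (polarBilin Q₂)
    rw [e, hr]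
    exact ⟨r * (LinearMap.BilinForm.toMatrix b₀ (polarBilin Q₂)).det, by ring⟩
  · intro hsq
    rcases n with _ | k
    · exact ⟨LinearEquiv.refl _ _, fun v => by
        have : v = 0 := Subsingleton.elim _ _
        rw [this, map_zero, QuadraticMap.map_zero, QuadraticMap.map_zero]⟩
    obtain ⟨u₁, a1, a2, a3⟩ := diag_family h2 k _ Q₁ h₁ (by simp)
    obtain ⟨u₂, b1, b2, b3⟩ := diag_family h2 k _ Q₂ h₂ (by simp)
    have hq₁ : ∀ i, Q₁ (u₁ i) ≠ 0 := fun i => by
      by_cases hi : i = Fin.last k
      · rw [hi]; exact a3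
      · rw [a2 i hi]; exact one_ne_zero
    have hq₂ : ∀ i, Q₂ (u₂ i) ≠ 0 := fun i => by
      by_cases hi : i = Fin.last k
      · rw [hi]; exact b3
      · rw [b2 i hi]; exact one_ne_zero
    obtain ⟨c₁, hc₁⟩ := exists_basis_of_li u₁ (ortho_li h2 Q₁ u₁ a1 hq₁) (by simp)
    obtain ⟨c₂, hc₂⟩ := exists_basis_of_li u₂ (ortho_li h2 Q₂ u₂ b1 hq₂) (by simp)
    set d₁ := Q₁ (u₁ (Fin.last k)) with hd₁
    set d₂ := Q₂ (u₂ (Fin.last k)) with hd₂
    have hG₁ : (LinearMap.BilinForm.toMatrix c₁ (polarBilin Q₁)).det = 2 ^ k * (2 * d₁) := by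
      have : LinearMap.BilinForm.toMatrix c₁ (polarBilin Q₁) = Matrix.diagonal (fun i => 2 * Q₁ (u₁ i)) := by
        ext i j
        rw [LinearMap.BilinForm.toMatrix_apply, polarBilin_apply_apply, hc₁, hc₁]
        by_cases hij : i = j
        · subst hij; simp [polar_self]
        · rw [a1 i j hij, Matrix.diagonal_apply_ne _ hij]
      rw [this, Matrix.det_diagonal, Fin.prod_univ_castSucc]
      congr 1
      rw [Finset.prod_congr rfl (fun i _ => by rw [a2 _ (Fin.castSucc_lt_last i).ne, mul_one])]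
      simp
    have hG₂ : (LinearMap.BilinForm.toMatrix c₂ (polarBilin Q₂)).det = 2 ^ k * (2 * d₂) := by
      have : LinearMap.BilinForm.toMatrix c₂ (polarBilin Q₂) = Matrix.diagonal (fun i => 2 * Q₂ (u₂ i)) := by
        ext i j
        rw [LinearMap.BilinForm.toMatrix_apply, polarBilin_apply_apply, hc₂, hc₂]
        by_cases hij : i = j
        · subst hij; simp [polar_self]
        · rw [b1 i j hij, Matrix.diagonal_apply_ne _ hij]
      rw [this, Matrix.det_diagonal, Fin.prod_univ_castSucc]
      congr 1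
      rw [Finset.prod_congr rfl (fun i _ => by rw [b2 _ (Fin.castSucc_lt_last i).ne, mul_one])]
      simp
    obtain ⟨r₁, hr₁, e₁⟩ := gram_det b₀ c₁ (polarBilin Q₁)
    obtain ⟨r₂, hr₂, e₂⟩ := gram_det b₀ c₂ (polarBilin Q₂)
    obtain ⟨t, ht⟩ := hsq
    have h2k : (2 : F) ^ (k + 1) ≠ 0 := pow_ne_zero _ h2
    have hdd : d₁ * d₂ = (r₁ * r₂ * t / 2 ^ (k + 1)) ^ 2 := by
      have : (2 ^ k * (2 * d₁)) * (2 ^ k * (2 * d₂)) = (r₁ * r₂ * t) ^ 2 := by
        rw [← hG₁, ← hG₂, e₁, e₂]
        linear_combination (r₁ ^ 2 * r₂ ^ 2) * ht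
      field_simp
      linear_combination this
    obtain ⟨z, hz⟩ : ∃ z, d₁ * d₂ = z ^ 2 := ⟨_, hdd⟩
    obtain ⟨s, hds⟩ : ∃ s, d₂ = d₁ * s ^ 2 := ⟨z / d₁, by field_simp; linear_combination hz⟩
    have hs0 : s ≠ 0 := by
      intro h; rw [h] at hds; simp at hds; exact b3 hds
    let w : Fin (k + 1) → Fˣ := fun i => if i = Fin.last k then Units.mk0 s⁻¹ (inv_ne_zero hs0) else 1
    let c₂' := c₂.unitsSMul w
    have hc₂' : ∀ i, c₂' i = (w i : F) • u₂ i := fun i => by
      rw [Basis.unitsSMul_apply, hc₂]; rfl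
    let g := c₁.equiv c₂' (Equiv.refl _)
    have hg : ∀ i, g (c₁ i) = (w i : F) • u₂ i := fun i => by
      rw [Basis.equiv_apply, Equiv.refl_apply, hc₂']
    refine ⟨g, ?_⟩
    have key : Q₂.comp (g : (Fin (k + 1) → F) →ₗ[F] (Fin (k + 1) → F)) = Q₁ := by
      apply ext_basis c₁
      · intro i j hij
        have : polar (⇑(Q₂.comp (g : (Fin (k + 1) → F) →ₗ[F] (Fin (k + 1) → F)))) (c₁ i) (c₁ j) =
            polar Q₂ (g (c₁ i)) (g (c₁ j)) := by simp [polar]
        rw [this, hg, hg, polar_smul_left, polar_smul_right, b1 i j hij, hc₁, hc₁, a1 i j hij]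
        simp
      · intro i
        rw [QuadraticMap.comp_apply, LinearEquiv.coe_coe, hg, QuadraticMap.map_smul, hc₁]
        by_cases hi : i = Fin.last k
        · subst hi
          simp only [w, if_true, Units.val_mk0, smul_eq_mul]
          rw [← hd₁, ← hd₂, hds]
          field_simp
        · simp [w, hi, a2 i hi, b2 i hi]
    intro v
    rw [← key]; rfl

end Cfsg.Agent.S2623
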