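import Cfsg.Statements.S2624
import Cfsg.Agent.S2623

set_option autoImplicit false
open Cfsg

namespace Cfsg.Agent.S2624

open QuadraticMap

theorem result {F : Type*} [Field F] [Fintype F] {n : ℕ} (hn : 2 ≤ n) (he : Even n) (Q : QuadraticForm F (Fin n → F)) (hQ : (QuadraticMap.polarBilin Q).Nondegenerate) (c : F) (hc : c ≠ 0) : ∃ g : (Fin n → F) ≃ₗ[F] (Fin n → F), ∀ v, Q (g v) = c * Q v := by
  by_cases h2 : (2 : F) = 0
  · have hch : ringChar F = 2 := CharP.ringChar_of_prime_eq_zero Nat.prime_two (by exact_mod_cast h2)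
    obtain ⟨d, hd⟩ := FiniteField.isSquare_of_char_two hch c
    have hd0 : d ≠ 0 := by rintro rfl; simp at hd; exact hc hd
    refine ⟨LinearEquiv.smulOfNeZero F _ d hd0, fun v => ?_⟩
    rw [LinearEquiv.smulOfNeZero_apply, QuadraticMap.map_smul, hd, smul_eq_mul]
  · have hp : ∀ x y, polar (⇑(c • Q)) x y = c * polar Q x y := by
      intro x y
      rw [QuadraticMap.coeFn_smul, polar_smul, smul_eq_mul]
    have hQ' : (polarBilin (c • Q)).Nondegenerate := by
      constructor
      · intro x hx
        apply hQ.1 x
        intro y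
        have := hx y
        rw [polarBilin_apply_apply, hp] at this
        rw [polarBilin_apply_apply]
        exact (mul_eq_zero.1 this).resolve_left hc
      · intro y hy
        apply hQ.2 y
        intro x
        have := hy x
        rw [polarBilin_apply_apply, hp] at this
        rw [polarBilin_apply_apply]
        exact (mul_eq_zero.1 this).resolve_left hc
    have := (Cfsg.Agent.S2623.result h2 (c • Q) Q hQ' hQ).2 (by
      have e : Matrix.of (fun i j : Fin n => polar (⇑(c • Q)) (Pi.single i 1) (Pi.single j 1)) =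
          c • Matrix.of (fun i j : Fin n => polar (⇑Q) (Pi.single i 1) (Pi.single j 1)) := by
        ext i j
        rw [Matrix.of_apply, hp, Matrix.smul_apply, Matrix.of_apply, smul_eq_mul]
      rw [e, Matrix.det_smul, Fintype.card_fin]
      obtain ⟨k, rfl⟩ := he
      exact ⟨c ^ k * (Matrix.of (fun i j : Fin (k + k) => polar (⇑Q) (Pi.single i 1) (Pi.single j 1))).det, by
        ring⟩)
    obtain ⟨g, hg⟩ := this
    exact ⟨g, fun v => by rw [hg]; simp⟩

end Cfsg.Agent.S2624
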