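import Cfsg.Statements.S2625

set_option autoImplicit false
open Cfsg

namespace Cfsg.Agent.S2625

open Matrix

theorem result {F : Type*} [Field F] [Fintype F] {n : ℕ} (hn : Odd n) (Q : QuadraticForm F (Fin n → F)) (hQ : (QuadraticMap.polarBilin Q).Nondegenerate) (g : (Fin n → F) ≃ₗ[F] (Fin n → F)) (c : F) (hg : ∀ v, Q (g v) = c * Q v) : IsSquare c := by
  by_cases hc : c = 0
  · exact ⟨0, by simp [hc]⟩
  set B : LinearMap.BilinForm F (Fin n → F) := QuadraticMap.polarBilin Q with hB
  have hdet : (LinearMap.BilinForm.toMatrix' B).det ≠ 0 := by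
    rw [← Matrix.nondegenerate_iff_det_ne_zero, LinearMap.BilinForm.nondegenerate_toMatrix'_iff]
    exact hQ
  have hcomp : B.comp (g : (Fin n → F) →ₗ[F] (Fin n → F)) (g : (Fin n → F) →ₗ[F] (Fin n → F)) = c • B := by
    refine LinearMap.ext₂ fun u v => ?_
    simp only [hB, LinearMap.BilinForm.comp_apply, LinearEquiv.coe_coe, QuadraticMap.polarBilin_apply_apply,
      QuadraticMap.polar, LinearMap.smul_apply, smul_eq_mul, ← map_add, hg]
    ring
  have h1 := congrArg (fun b => (LinearMap.BilinForm.toMatrix' b).det) hcomp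
  simp only [LinearMap.BilinForm.toMatrix'_comp, map_smul, Matrix.det_mul, Matrix.det_transpose,
    Matrix.det_smul, Fintype.card_fin] at h1
  have h2 : (LinearMap.toMatrix' (g : (Fin n → F) →ₗ[F] (Fin n → F))).det ^ 2 = c ^ n := by
    apply mul_right_cancel₀ hdet
    rw [← h1]; ring
  obtain ⟨k, rfl⟩ := hn
  refine ⟨(LinearMap.toMatrix' (g : (Fin (2 * k + 1) → F) →ₗ[F] (Fin (2 * k + 1) → F))).det / c ^ k, ?_⟩
  field_simp
  rw [h2]; ring

end Cfsg.Agent.S2625
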