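import Cfsg.Statements.S2627
import Cfsg.Agent.Lib.Helper16.Orth9

set_option autoImplicit false

open Cfsg

namespace Cfsg.Agent.S2627

open Cfsg.Agent.Lib.Helper16

theorem result {F : Type*} [Field F] [Fintype F] {k l : ℕ} (h : Fintype.card F ≠ 2 ∨ (k ≠ 4 ∧ k + l ≠ 4)) (Q₁ : QuadraticForm F (Fin k → F)) (Q₂ : QuadraticForm F (Fin l → F)) (h₁ : (QuadraticMap.polarBilin Q₁).Nondegenerate) (h₂ : (QuadraticMap.polarBilin Q₂).Nondegenerate) (g₁ : ↥(Cfsg.isometryGroup F ⇑Q₁)) : (∃ g : ↥(Cfsg.isometryGroup F (fun v : Fin k ⊕ Fin l → F => Q₁ (v ∘ Sum.inl) + Q₂ (v ∘ Sum.inr))), g ∈ Cfsg.Omega F (fun v : Fin k ⊕ Fin l → F => Q₁ (v ∘ Sum.inl) + Q₂ (v ∘ Sum.inr)) ∧ ((g : Matrix.GeneralLinearGroup (Fin k ⊕ Fin l) F) : Matrix (Fin k ⊕ Fin l) (Fin k ⊕ Fin l) F) = Matrix.fromBlocks ((g₁ : Matrix.GeneralLinearGroup (Fin k) F) :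 Matrix (Fin k) (Fin k) F) 0 0 1) ↔ g₁ ∈ Cfsg.Omega F ⇑Q₁ := by
  rw [← qSum_coe Q₁ Q₂, exists_Omega_iff (qSum Q₁ Q₂) _ ((embL Q₁ Q₂).extO (bridge Q₁ g₁)) ?_,
    mem_Omega_iff, OEmb.ext_mem_comm_iff _ h₁ (qSum_nondeg Q₁ Q₂ h₁ h₂)]
  · rw [finrank_sum_fun, Module.finrank_fin_fun]
    simpa using h
  · intro x
    rw [embL_extO_apply, Matrix.fromBlocks_mulVec, bridge_apply]
    simp

end Cfsg.Agent.S2627
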