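import Cfsg.Statements.S2628
import Cfsg.Agent.Lib.Helper16.Orth9

set_option autoImplicit false

open Cfsg

namespace Cfsg.Agent.S2628

open Cfsg.Agent.Lib.Helper16

theorem result {F : Type*} [Field F] [Fintype F] {k : ℕ} (h : Fintype.card F ≠ 2 ∨ k ≠ 2) (Q : QuadraticForm F (Fin k → F)) (hQ : (QuadraticMap.polarBilin Q).Nondegenerate) (g : ↥(Cfsg.isometryGroup F ⇑Q)) : ∃ x : ↥(Cfsg.isometryGroup F (fun v : Fin k ⊕ Fin k → F => Q (v ∘ Sum.inl) + Q (v ∘ Sum.inr))), x ∈ Cfsg.Omega F (fun v : Fin k ⊕ Fin k → F => Q (v ∘ Sum.inl) + Q (v ∘ Sum.inr)) ∧ ((x : Matrix.GeneralLinearGroup (Fin k ⊕ Fin k) F) : Matrix (Fin k ⊕ Fin k) (Fin k ⊕ Fin k) F) = Matrix.fromBlocks ((g : Matrix.GeneralLinearGroup (Fin k) F) : Matrix (Fin k) (Fin k) F) 0 0 ((g : Matrix.GeneralLinearGroup (Fin k) F) : Matrix (Fin k) (Fin k) F) := by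
  rw [← qSum_coe Q Q, exists_Omega_iff (qSum Q Q) _
    ((embL Q Q).extO (bridge Q g) * (embR Q Q).extO (bridge Q g)) ?_]
  · apply dbl_mem_comm _ _ hQ (qSum_nondeg Q Q hQ hQ)
    rw [finrank_sum_fun]
    rcases h with h | h
    · exact Or.inl h
    · right
      simp only [Fintype.card_fin]
      omega
  · intro x
    rw [Subgroup.coe_mul, LinearEquiv.mul_apply, embL_extO_apply, embR_extO_apply,
      Matrix.fromBlocks_mulVec, bridge_apply, bridge_apply]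
    simp

end Cfsg.Agent.S2628
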