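import Cfsg.Statements.S2629
import Cfsg.Agent.Lib.Helper16.Orth11

set_option autoImplicit false

open Cfsg

namespace Cfsg.Agent.S2629

open Cfsg.Agent.Lib.Helper16

theorem result {F : Type*} [Field F] [Fintype F] (h2 : (2 : F) ≠ 0) {m : ℕ} (hm : 1 ≤ m) (g : ↥(Cfsg.isometryGroup F (Cfsg.quadFormPlus m F))) : Even (m - Module.finrank F ↥(LinearMap.ker (LinearMap.funLeft F F (Sum.inr : Fin m → Fin m ⊕ Fin m)) ⊓ (LinearMap.ker (LinearMap.funLeft F F (Sum.inr : Fin m → Fin m ⊕ Fin m))).map (Matrix.mulVecLin ((g : Matrix.GeneralLinearGroup (Fin m ⊕ Fin m) F) : Matrix (Fin m ⊕ Fin m) (Fin m ⊕ Fin m) F)))) ↔ ((g : Matrix.GeneralLinearGroup (Fin m ⊕ Fin m) F) : Matrix (Fin m ⊕ Fin m) (Fin m ⊕ Fin m) F).det = 1 := by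
  revert g
  rw [← qPlus_coe]
  intro g
  obtain ⟨vs, hvs, hg⟩ := exists_list_refl (qPlus m F) qPlus_nondeg
    (Or.inl (card_ne_two_of_two_ne_zero h2)) (bridge (qPlus m F) g)
  rw [parity_of_list stdU_mts stdU_mts g vs hvs hg, inf_idem, stdU_finrank, Nat.sub_self, zero_add]
  have hgm : ((g : Matrix.GeneralLinearGroup (Fin m ⊕ Fin m) F) : Matrix (Fin m ⊕ Fin m) (Fin m ⊕ Fin m) F) =
      (vs.map (fun v => reflectionMatrix ⇑(qPlus m F) v)).prod := by
    rw [← bridge_symm_prod, ← hg, MulEquiv.symm_apply_apply]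
  rw [hgm, det_prod_reflectionMatrix _ vs hvs, neg_one_pow_eq_one_iff_even]
  intro h
  apply h2
  linear_combination -h

end Cfsg.Agent.S2629
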