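import Cfsg.Statements.S2630
import Cfsg.Agent.Lib.Helper16.Orth11

set_option autoImplicit false

open Cfsg

namespace Cfsg.Agent.S2630

open Cfsg.Agent.Lib.Helper16

theorem result {F : Type*} [Field F] [Fintype F] [CharP F 2] {m : ℕ} (hm : 1 ≤ m) (h : Fintype.card F ≠ 2 ∨ m ≠ 2) (g : ↥(Cfsg.isometryGroup F (Cfsg.quadFormPlus m F))) : Even (m - Module.finrank F ↥(LinearMap.ker (LinearMap.funLeft F F (Sum.inr : Fin m → Fin m ⊕ Fin m)) ⊓ (LinearMap.ker (LinearMap.funLeft F F (Sum.inr : Fin m → Fin m ⊕ Fin m))).map (Matrix.mulVecLin ((g : Matrix.GeneralLinearGroup (Fin m ⊕ Fin m) F) : Matrix (Fin m ⊕ Fin m) (Fin m ⊕ Fin m) F)))) ↔ g ∈ Cfsg.Omega F (Cfsg.quadFormPlus m F) := by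
  revert g
  rw [← qPlus_coe]
  intro g
  have h2 : (2 : F) = 0 := by
    have := CharP.cast_eq_zero F 2
    exact_mod_cast this
  have H : Fintype.card F ≠ 2 ∨ Module.finrank F (Fin m ⊕ Fin m → F) ≠ 4 := by
    rw [finrank_plus]
    rcases h with h | h
    · exact Or.inl h
    · right; omega
  obtain ⟨vs, hvs, hg⟩ := exists_list_refl (qPlus m F) qPlus_nondeg H (bridge (qPlus m F) g)
  rw [parity_of_list stdU_mts stdU_mts g vs hvs hg, inf_idem, stdU_finrank, Nat.sub_self, zero_add,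
    mem_Omega_iff, hg, prod_mem_comm_iff_even _ h2 qPlus_nondeg H vs hvs]

end Cfsg.Agent.S2630
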