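import Cfsg.Statements.S2631
import Cfsg.Agent.Lib.Helper16.Orth12

set_option autoImplicit false

open Cfsg

namespace Cfsg.Agent.S2631

open Cfsg.Agent.Lib.Helper16

theorem result {F : Type*} [Field F] [Fintype F] {m : ℕ} (hm : 1 ≤ m) (h : Fintype.card F ≠ 2 ∨ m ≠ 2) (U W : Submodule F (Fin m ⊕ Fin m → F)) (hU : Module.finrank F U = m) (hW : Module.finrank F W = m) (hU0 : ∀ u ∈ U, Cfsg.quadFormPlus m F u = 0) (hW0 : ∀ w ∈ W, Cfsg.quadFormPlus m F w = 0) (he : Even (m - Module.finrank F ↥(U ⊓ W))) : ∃ g : ↥(Cfsg.isometryGroup F (Cfsg.quadFormPlus m F)), g ∈ Cfsg.Omega F (Cfsg.quadFormPlus m F) ∧ U.map (Matrix.mulVecLin ((g : Matrix.GeneralLinearGroup (Fin m ⊕ Fin m) F) : Matrix (Fin m ⊕ Fin m) (Fin m ⊕ Fin m) F)) = W := by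
  rw [← qPlus_coe] at hU0 hW0 ⊢
  have H : Fintype.card F ≠ 2 ∨ Module.finrank F (Fin m ⊕ Fin m → F) ≠ 4 := by
    rw [finrank_plus]
    rcases h with h | h
    · exact Or.inl h
    · right; omega
  have hUm : IsMTS (qPlus m F) U := ⟨hU0, by rw [hU, finrank_plus]⟩
  have hWm : IsMTS (qPlus m F) W := ⟨hW0, by rw [hW, finrank_plus]⟩
  obtain ⟨g, hg⟩ := exists_map_eq (qPlus m F) qPlus_nondeg U W
    (LinearEquiv.ofFinrankEq U W (by rw [hU, hW])) (by
      intro u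
      rw [hU0 u u.2, hW0 _ (Subtype.coe_prop _)])
  obtain ⟨vs, hvs, hgv⟩ := exists_list_refl (qPlus m F) qPlus_nondeg H g
  have hpar := IsMTS.parity qPlus_nondeg hUm hUm vs hvs
  rw [← coe_prod_rO, ← hgv, hg, inf_idem, hU] at hpar
  have hle : Module.finrank F ↥(U ⊓ W) ≤ m :=
    (Submodule.finrank_mono inf_le_left).trans hU.le
  have hev : Even vs.length := by
    rw [Nat.even_iff] at he ⊢
    omega
  have hWne : W ≠ ⊥ := by
    rintro rfl
    rw [finrank_bot] at hW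
    omega
  obtain ⟨s, hs, hsg⟩ := exists_adjust_even (qPlus m F) qPlus_nondeg (stabO (qPlus m F) W)
    (ts_theta_pair (qPlus m F) qPlus_nondeg W hW0 hWne) vs hvs hev
  rw [← hgv] at hsg
  refine ⟨(bridge (qPlus m F)).symm (s * g), ?_, ?_⟩
  · rw [mem_Omega_iff, MulEquiv.apply_symm_apply]; exact hsg
  · rw [mulVecLin_eq_bridge, MulEquiv.apply_symm_apply]; exact map_stab_mul _ hs hg

end Cfsg.Agent.S2631
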