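import Cfsg.Statements.S2633
import Cfsg.Agent.Lib.Helper16.Orth12

set_option autoImplicit false

open Cfsg

namespace Cfsg.Agent.S2633

open Cfsg.Agent.Lib.Helper16

theorem result {F : Type*} [Field F] [Fintype F] {n : ℕ} (h : Fintype.card F ≠ 2 ∨ n ≠ 4) (Q : QuadraticForm F (Fin n → F)) (hQ : (QuadraticMap.polarBilin Q).Nondegenerate) (U W : Submodule F (Fin n → F)) {k : ℕ} (hk : 2 * k < n) (hU : Module.finrank F U = k) (hW : Module.finrank F W = k) (hU0 : ∀ u ∈ U, Q u = 0) (hW0 : ∀ w ∈ W, Q w = 0) : ∃ g : ↥(Cfsg.isometryGroup F ⇑Q), g ∈ Cfsg.Omega F ⇑Q ∧ U.map (Matrix.mulVecLin ((g : Matrix.GeneralLinearGroup (Fin n) F) : Matrix (Fin n) (Fin n) F)) = W := by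
  have hfr : Module.finrank F (Fin n → F) = n := Module.finrank_fin_fun F
  obtain ⟨g, hg, hgU⟩ := ts_transitive Q hQ (by rw [hfr]; exact h) U W (by rw [hU, hW])
    (by rw [hW, hfr]; exact hk) hU0 hW0
  refine ⟨(bridge Q).symm g, ?_, ?_⟩
  · rw [mem_Omega_iff, MulEquiv.apply_symm_apply]; exact hg
  · rw [mulVecLin_eq_bridge, MulEquiv.apply_symm_apply]; exact hgU

end Cfsg.Agent.S2633
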