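import Cfsg.Statements.S2634
import Cfsg.Agent.Lib.Helper16.Orth7

set_option autoImplicit false

open Cfsg

namespace Cfsg.Agent.S2634

open Cfsg.Agent.Lib.Helper16

theorem result {F : Type*} [Field F] [Fintype F] [CharP F 2] {n : ℕ} (h : Fintype.card F ≠ 2 ∨ n ≠ 4) (Q : QuadraticForm F (Fin n → F)) (hQ : (QuadraticMap.polarBilin Q).Nondegenerate) (u v : Fin n → F) (hu : Q u ≠ 0) (hv : Q v ≠ 0) : ∃ g : ↥(Cfsg.isometryGroup F ⇑Q), g ∈ Cfsg.Omega F ⇑Q ∧ (F ∙ ((g : Matrix.GeneralLinearGroup (Fin n) F) : Matrix (Fin n) (Fin n) F).mulVec u) = F ∙ v := by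
  have h2 : (2 : F) = 0 := by
    have := CharP.cast_eq_zero F 2
    exact_mod_cast this
  have H : Fintype.card F ≠ 2 ∨ Module.finrank F (Fin n → F) ≠ 4 := by
    rw [Module.finrank_fin_fun]; exact h
  have hch : ringChar F = 2 := CharP.ringChar_of_prime_eq_zero Nat.prime_two (by exact_mod_cast h2)
  obtain ⟨c, hc⟩ := FiniteField.isSquare_of_char_two hch (Q v / Q u)
  have hc0 : c ≠ 0 := by
    rintro rfl
    rw [mul_zero, div_eq_zero_iff] at hc
    rcases hc with hc | hc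
    · exact hv hc
    · exact hu hc
  have hcu : Q (c • u) = Q v := by
    rw [QuadraticMap.map_smul, smul_eq_mul, ← hc]; field_simp
  have hu0 : u ≠ 0 := by rintro rfl; simp at hu
  have hv0 : v ≠ 0 := by rintro rfl; simp at hv
  obtain ⟨g0, hg0⟩ := exists_isom_map Q hQ (c • u) v (smul_ne_zero hc0 hu0) hv0 hcu
  obtain ⟨ε, hε, -, hiff⟩ := omega_iff_even Q h2 hQ H
  have hgu : g0.1 u = c⁻¹ • v := by
    rw [← hg0, map_smul, smul_smul, inv_mul_cancel₀ hc0, one_smul]
  rcases Int.units_eq_one_or (ε g0) with he | he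
  · refine ⟨(bridge Q).symm g0, ?_, ?_⟩
    · rw [mem_Omega_iff, MulEquiv.apply_symm_apply, hiff]; exact he
    · rw [bridge_symm_mulVec, hgu]
      exact Submodule.span_singleton_smul_eq (IsUnit.mk0 _ (inv_ne_zero hc0)) v
  · refine ⟨(bridge Q).symm (rO Q v * g0), ?_, ?_⟩
    · rw [mem_Omega_iff, MulEquiv.apply_symm_apply, hiff, map_mul, he, hε v hv]; simp
    · rw [bridge_symm_mulVec, Subgroup.coe_mul, LinearEquiv.mul_apply, hgu, map_smul, rO_coe,
        reflE_self Q v hv, smul_neg, ← neg_smul]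
      exact Submodule.span_singleton_smul_eq (IsUnit.mk0 _ (neg_ne_zero.2 (inv_ne_zero hc0))) v

end Cfsg.Agent.S2634
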