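import Cfsg.Statements.S2635
import Cfsg.Agent.Lib.Helper16.Orth7

set_option autoImplicit false

open Cfsg

namespace Cfsg.Agent.S2635

open Cfsg.Agent.Lib.Helper16

theorem result {F : Type*} [Field F] [Fintype F] [CharP F 2] {n : ℕ} (hn : 2 ≤ n) (h : Fintype.card F ≠ 2 ∨ n ≠ 4) (Q : QuadraticForm F (Fin n → F)) (hQ : (QuadraticMap.polarBilin Q).Nondegenerate) : Cfsg.Omega F ⇑Q = Subgroup.closure {g : ↥(Cfsg.isometryGroup F ⇑Q) | ∃ u v : Fin n → F, Q u ≠ 0 ∧ Q v ≠ 0 ∧ ((g : Matrix.GeneralLinearGroup (Fin n) F) : Matrix (Fin n) (Fin n) F) = Cfsg.reflectionMatrix ⇑Q u * Cfsg.reflectionMatrix ⇑Q v} := by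
  have h2 : (2 : F) = 0 := by
    have := CharP.cast_eq_zero F 2
    exact_mod_cast this
  have H : Fintype.card F ≠ 2 ∨ Module.finrank F (Fin n → F) ≠ 4 := by
    rw [Module.finrank_fin_fun]; exact h
  apply le_antisymm
  · intro g hg
    rw [mem_Omega_iff] at hg
    obtain ⟨vs, hvs, hgv⟩ := exists_list_refl Q hQ H (bridge Q g)
    rw [hgv, prod_mem_comm_iff_even Q h2 hQ H vs hvs] at hg
    have key : ∀ (k : ℕ) (vs : List (Fin n → F)), vs.length = 2 * k → (∀ v ∈ vs, Q v ≠ 0) →
        (bridge Q).symm ((vs.map (rO Q)).prod) ∈ Subgroup.closure {g : ↥(Cfsg.isometryGroup F ⇑Q) | ∃ u v : Fin n → F, Q u ≠ 0 ∧ Q v ≠ 0 ∧ ((g : Matrix.GeneralLinearGroup (Fin n) F) : Matrix (Fin n) (Fin n) F) = Cfsg.reflectionMatrix ⇑Q u * Cfsg.reflectionMatrix ⇑Q v} := by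
      intro k
      induction k with
      | zero =>
        intro vs hl _
        have : vs = [] := List.length_eq_zero_iff.1 (by simpa using hl)
        subst this
        simp
      | succ k ih =>
        intro vs hl hvs
        match vs, hl, hvs with
        | [], hl, _ => simp at hl
        | [_], hl, _ => simp at hl; omega
        | u :: v :: rest, hl, hvs =>
          rw [List.map_cons, List.map_cons, List.prod_cons, List.prod_cons, ← mul_assoc, map_mul]
          apply Subgroup.mul_mem
          · apply Subgroup.subset_closure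
            refine ⟨u, v, hvs u (by simp), hvs v (by simp), ?_⟩
            rw [map_mul, Subgroup.coe_mul, Units.val_mul, bridge_symm_rO, bridge_symm_rO]
          · apply ih rest
            · simp at hl; omega
            · intro w hw; exact hvs w (by simp [hw])
    obtain ⟨k, hk⟩ := hg
    have := key k vs (by omega) hvs
    rwa [← hgv, MulEquiv.symm_apply_apply] at this
  · rw [Subgroup.closure_le]
    rintro g ⟨u, v, hu, hv, hg⟩
    change g ∈ Omega F ⇑Q
    rw [mem_Omega_iff, bridge_eq_prod Q g [u, v] (by simpa using hg),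
      prod_mem_comm_iff_even Q h2 hQ H]
    · simp
    · intro w hw
      simp only [List.mem_cons, List.not_mem_nil, or_false] at hw
      rcases hw with rfl | rfl
      · exact hu
      · exact hv

end Cfsg.Agent.S2635
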