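import Cfsg.Statements.S2636
import Cfsg.Agent.Lib.Helper12.FixField

set_option autoImplicit false
open Cfsg

namespace Cfsg.Agent.S2636

open Cfsg.Agent.Lib.Helper12 in
theorem aux_card {F : Type*} [Field F] [Fintype F] {q₀ r n : ℕ} (hr : r.Prime) (hn : 1 ≤ n)
    (hF : Fintype.card F = q₀ ^ r) (σ : F ≃+* F) (hσ : orderOf σ = r) :
    Nat.card {g : GL (Fin n) F // ∃ c : F, c ≠ 0 ∧ (g : Matrix (Fin n) (Fin n) F).map σ =
      c • (g : Matrix (Fin n) (Fin n) F)} * (q₀ - 1) =
      (q₀ ^ r - 1) * ∏ i : Fin n, (q₀ ^ n - q₀ ^ (i : ℕ)) := by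
  classical
  have hq0 : Nat.card (fixSub σ) = q₀ :=
    card_fixSub σ hr.ne_zero hσ (by rw [Nat.card_eq_fintype_card, hF])
  haveI : Fintype (fixSub σ) := Fintype.ofFinite _
  have h1 := card_eq_range_mul_ker (semiHom σ n)
  rw [card_ker_semiHom σ hn, Nat.card_prod, Matrix.card_GL_field, Nat.card_units, Nat.card_units,
    ← Nat.card_eq_fintype_card, hq0, Nat.card_eq_fintype_card, hF] at h1
  rw [h1]
  congr 1
  apply Nat.card_congr
  exact Equiv.subtypeEquivRight (fun g => (mem_range_semiHom σ hn g).symm)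

/-- Centraliser of a field automorphism in PGL_n: let F be the field with q = q₀^r elements, σ a field automorphism of F of prime order r (so its fixed field has q₀ elements) and n ≥ 1. The invertible matrices g whose entrywise image under σ is a scalar multiple of g — those whose coset modulo scalars is fixed by σ — number (q − 1)/(q₀ − 1) · |GL_n(q₀)|; equivalently the centraliser in PGL_n(q) of the induced automorphism has the order of PGL_n(q₀). -/
theorem result {F : Type*} [Field F] [Fintype F] {q₀ r n : ℕ} (hr : r.Prime) (hn : 1 ≤ n) (hF : Fintype.card F = q₀ ^ r) (σ : F ≃+* F) (hσ : orderOf σ = r) : Nat.card {g : GL (Fin n) F // ∃ c : F, c ≠ 0 ∧ (g : Matrix (Fin n) (Fin n) F).map σ = c • (g : Matrix (Fin n) (Fin n) F)} = (q₀ ^ r - 1) / (q₀ - 1) * ∏ i : Fin n, (q₀ ^ n - q₀ ^ (i : ℕ)) := by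
  have h := aux_card hr hn hF σ hσ
  have hq : 2 ≤ q₀ := by
    have h1 : 1 < Fintype.card F := Fintype.one_lt_card
    rw [hF] at h1
    by_contra hcon
    have : q₀ = 0 ∨ q₀ = 1 := by omega
    rcases this with rfl | rfl
    · rw [zero_pow hr.ne_zero] at h1; omega
    · rw [one_pow] at h1; omega
  obtain ⟨k, hk⟩ : q₀ - 1 ∣ q₀ ^ r - 1 := Nat.sub_one_dvd_pow_sub_one _ _
  have hpos : 0 < q₀ - 1 := by omega
  rw [hk, Nat.mul_div_cancel_left _ hpos]
  rw [hk, mul_comm (q₀ - 1) k, mul_right_comm] at h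
  exact Nat.eq_of_mul_eq_mul_right hpos h


end Cfsg.Agent.S2636
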