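import Cfsg.Statements.S2638
import Cfsg.Agent.Lib.Helper12.Singer

set_option autoImplicit false
open Cfsg

namespace Cfsg.Agent.S2638


/-- If an element x of GL_n(q), n ≥ 1, has prime order r and the multiplicative order of q modulo r is n (r is a primitive prime divisor of q^n − 1, so x acts irreducibly), then the centraliser of x in GL_n(q) is cyclic of order q^n − 1 (the multiplicative group of the field with q^n elements, a Singer cycle). -/
theorem result {F : Type*} [Field F] [Fintype F] {p q : ℕ} [Fact p.Prime] [CharP F p] (hF : Fintype.card F = q) {n r : ℕ} (hn : 1 ≤ n) (hr : r.Prime) (hrp : r ≠ p) (hi : orderOf (q : ZMod r) = n) (x : GL (Fin n) F) (hx : orderOf x = r) : IsCyclic ↥(Subgroup.centralizer ({x} : Set (GL (Fin n) F))) ∧ Nat.card ↥(Subgroup.centralizer ({x} : Set (GL (Fin n) F))) = q ^ n - 1 := by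
  haveI : Fact r.Prime := ⟨hr⟩
  have hX : (x : Matrix (Fin n) (Fin n) F) ^ r = 1 := by
    have h1 : x ^ r = 1 := by rw [← hx]; exact pow_orderOf_eq_one x
    have h2 := congrArg (fun y : GL (Fin n) F => (y : Matrix (Fin n) (Fin n) F)) h1
    simpa using h2
  have hX1 : (x : Matrix (Fin n) (Fin n) F) ≠ 1 := by
    intro h
    have h1 : x = 1 := Units.ext h
    rw [h1, orderOf_one] at hx
    exact hr.one_lt.ne hx
  have h := Cfsg.Agent.Lib.Helper12.singer_centralizer x hn
    (Cfsg.Agent.Lib.Helper12.irred_of_ppd _ hF hn hi hX hX1)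
  rw [hF] at h
  exact h


end Cfsg.Agent.S2638
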