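import Cfsg.Statements.S2639
import Cfsg.Agent.Lib.Helper16.HermForm

set_option autoImplicit false
open Cfsg

namespace Cfsg.Agent.S2639

open Cfsg.Agent.Lib.Helper16 Module QuadraticMap Matrix

theorem result {K F : Type*} [Field K] [Fintype K] [Field F] [Fintype F] {q : ℕ} (hK : Fintype.card K = q ^ 2) (hF : Fintype.card F = q) (m : ℕ) : ∃ φ : ↥(Cfsg.GU m K q) →* ↥(Matrix.symplecticGroup (Fin m) F), Function.Injective φ := by
  classical
  obtain ⟨a, b, hab⟩ := exists_aniso (F := F)
  obtain ⟨i, α, hα⟩ := exists_ringHom_root hF hK a b hab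
  letI : Algebra F K := i.toAlgebra
  obtain ⟨ψ, l, hψ⟩ := herm_symp_iso hF hK m (F := F) (K := K)
  apply exists_hom_symplectic ((transMat ψ).comp ((Units.coeHom _).comp (GU m K q).subtype))
  · exact (transMat_injective ψ).comp (Units.val_injective.comp Subtype.val_injective)
  · intro g
    rw [Cfsg.Agent.Lib.Helper6.mem_symplecticGroup_iff_sympForm]
    intro x y
    simp only [MonoidHom.comp_apply, transMat_mulVec]
    rw [hψ]
    have hg := g.2 (ψ.symm x) (ψ.symm y)
    refine (congrArg l hg).trans ?_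
    rw [← hψ]; simp

end Cfsg.Agent.S2639
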