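import Cfsg.Statements.S2640
import Cfsg.Agent.Lib.Helper16.HermForm

set_option autoImplicit false
open Cfsg

namespace Cfsg.Agent.S2640

open Cfsg.Agent.Lib.Helper16 Module QuadraticMap Matrix

theorem result {K F : Type*} [Field K] [Fintype K] [Field F] [Fintype F] {q : ℕ} (hK : Fintype.card K = q ^ 2) (hF : Fintype.card F = q) (m : ℕ) (hm : Even m) : ∃ φ : ↥(Cfsg.GU m K q) →* ↥(Cfsg.isometryGroup F (Cfsg.quadFormPlus m F)), Function.Injective φ := by
  classical
  obtain ⟨a, b, hab⟩ := exists_aniso (F := F)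
  obtain ⟨i, α, hα⟩ := exists_ringHom_root hF hK a b hab
  letI : Algebra F K := i.toAlgebra
  obtain ⟨k, rfl⟩ := hm
  obtain ⟨r, hr⟩ := exists_retraction (F := F) (K := K)
  obtain ⟨ψ, hψ⟩ := herm_plus_iso hF hK r hr k
  apply exists_hom_isometryGroup ((transMat ψ).comp ((Units.coeHom _).comp (GU (k + k) K q).subtype))
  · exact (transMat_injective ψ).comp (Units.val_injective.comp Subtype.val_injective)
  · intro g w
    simp only [MonoidHom.comp_apply, transMat_mulVec]
    rw [hψ, hermQ_apply, hermB_eq_hermForm hF]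
    have hg := g.2 (ψ.symm w) (ψ.symm w)
    refine (congrArg r hg).trans ?_
    rw [← hermB_eq_hermForm hF, ← hermQ_apply, ← hψ]; simp

end Cfsg.Agent.S2640
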