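import Cfsg.Statements.S2641
import Cfsg.Agent.Lib.Helper16.HermForm

set_option autoImplicit false
open Cfsg

namespace Cfsg.Agent.S2641

open Cfsg.Agent.Lib.Helper16 Module QuadraticMap Matrix

theorem result {K F : Type*} [Field K] [Fintype K] [Field F] [Fintype F] {q : ℕ} (hK : Fintype.card K = q ^ 2) (hF : Fintype.card F = q) (m : ℕ) (hm : Odd m) (a b : F) (hab : ∀ z₁ z₂ : F, z₁ ^ 2 + a * z₁ * z₂ + b * z₂ ^ 2 = 0 → z₁ = 0 ∧ z₂ = 0) : ∃ φ : ↥(Cfsg.GU m K q) →* ↥(Cfsg.isometryGroup F (Cfsg.quadFormMinus (m - 1) F a b)), Function.Injective φ := by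
  classical
  obtain ⟨i, α, hα⟩ := exists_ringHom_root hF hK a b hab
  letI : Algebra F K := i.toAlgebra
  obtain ⟨k, hk⟩ := hm
  obtain rfl : m = k + k + 1 := by omega
  obtain ⟨r, hr⟩ := exists_retraction (F := F) (K := K)
  obtain ⟨ψ, hψ⟩ := herm_minus_iso hF hK r hr a b hab α hα k
  change ∃ φ : ↥(Cfsg.GU (k + k + 1) K q) →* ↥(Cfsg.isometryGroup F (Cfsg.quadFormMinus (k + k) F a b)),
    Function.Injective φ
  apply exists_hom_isometryGroup ((transMat ψ).comp ((Units.coeHom _).comp (GU (k + k + 1) K q).subtype))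
  · exact (transMat_injective ψ).comp (Units.val_injective.comp Subtype.val_injective)
  · intro g w
    simp only [MonoidHom.comp_apply, transMat_mulVec]
    rw [hψ, hermQ_apply, hermB_eq_hermForm hF]
    have hg := g.2 (ψ.symm w) (ψ.symm w)
    refine (congrArg r hg).trans ?_
    rw [← hermB_eq_hermForm hF, ← hermQ_apply, ← hψ]; simp

end Cfsg.Agent.S2641
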