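import Cfsg.Statements.S2644
import Cfsg.Agent.Lib.Helper16.UTransv

set_option autoImplicit false

open Cfsg

namespace Cfsg.Agent.S2644

open Cfsg.Agent.Lib.Helper16 Cfsg.Agent.Lib.Helper6
open scoped Matrix

theorem result {K : Type*} [Field K] [Fintype K] {q n : ℕ} (hK : Fintype.card K = q ^ 2) (hn : 3 ≤ n) (s t : ↥(Cfsg.SU n K q)) (hs : Cfsg.IsTransvection (((s : GL (Fin n) K) : Matrix (Fin n) (Fin n) K))) (ht : Cfsg.IsTransvection (((t : GL (Fin n) K) : Matrix (Fin n) (Fin n) K))) : IsConj s t := by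
  have hf := herm_isUnitary hK n
  set σ := frobEquiv hK with hσ
  set f := hermForm n K q with hfdef
  obtain ⟨A, hA⟩ : ∃ A : Matrix (Fin n) (Fin n) K, A = ((s : GL (Fin n) K) : Matrix (Fin n) (Fin n) K) :=
    ⟨_, rfl⟩
  obtain ⟨B, hB⟩ : ∃ B : Matrix (Fin n) (Fin n) K, B = ((t : GL (Fin n) K) : Matrix (Fin n) (Fin n) K) :=
    ⟨_, rfl⟩
  have hAiso : ∀ x y, f (A *ᵥ x) (A *ᵥ y) = f x y := by rw [hA]; exact s.2
  have hBiso : ∀ x y, f (B *ᵥ x) (B *ᵥ y) = f x y := by rw [hB]; exact t.2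
  rw [← hA] at hs
  rw [← hB] at ht
  obtain ⟨v, c, hv, hvv, hc, hcσ, hAx⟩ := ut_form hf A hAiso hs.1 hs.2
  obtain ⟨v', c', hv', hvv', hc', hcσ', hBx⟩ := ut_form hf B hBiso ht.1 ht.2
  obtain ⟨l, hl⟩ := uf_norm_surj hf (c' / c) (by rw [map_div₀, hcσ, hcσ', neg_div_neg_eq])
  have hl0 : l ≠ 0 := by
    rintro rfl
    rw [zero_mul] at hl
    exact (div_ne_zero hc' hc) hl.symm
  obtain ⟨G₁, hG₁, hG₁v⟩ := ut_witt hf v (l • v') hv (smul_ne_zero hl0 hv') hvv
    (by rw [hf.smul_left, uf_smul_right hf, hvv']; simp)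
  -- the determinant of an isometry has norm one
  have hdet : ∀ G : GL (Fin n) K, G ∈ uIso f →
      (G : Matrix (Fin n) (Fin n) K).det * σ (G : Matrix (Fin n) (Fin n) K).det = 1 := by
    intro G hG
    have h1 : (G : Matrix (Fin n) (Fin n) K)ᵀ *
        ((σ : K →+* K).mapMatrix (G : Matrix (Fin n) (Fin n) K)) = 1 := by
      ext i j
      have h2 := hG (Pi.single i 1) (Pi.single j 1)
      have h3 : f ((G : Matrix (Fin n) (Fin n) K) *ᵥ Pi.single i 1)
          ((G : Matrix (Fin n) (Fin n) K) *ᵥ Pi.single j 1) = f (Pi.single i 1) (Pi.single j 1) := h2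
      rw [Matrix.mulVec_single_one, Matrix.mulVec_single_one] at h3
      rw [Matrix.mul_apply]
      have h4 : f (Pi.single i 1) (Pi.single j 1) = (1 : Matrix (Fin n) (Fin n) K) i j := by
        rw [hfdef, herm_single_left, Matrix.one_apply]
        by_cases hij : i = j
        · subst hij; simp
        · rw [if_neg hij, Pi.single_eq_of_ne hij, zero_pow (by have := herm_q_pos hK; omega)]
      rw [← h4, ← h3]
      rfl
    have h5 := congrArg Matrix.det h1
    rw [Matrix.det_mul, Matrix.det_transpose, Matrix.det_one, ← RingHom.map_det] at h5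
    exact h5
  have hd₁ := hdet G₁ hG₁
  have hd0 : (G₁ : Matrix (Fin n) (Fin n) K).det ≠ 0 := by
    intro h0; rw [h0, zero_mul] at hd₁; exact zero_ne_one hd₁
  obtain ⟨H, hH, hHv, hHdet⟩ := ut_detfix hf hn v' ((G₁ : Matrix (Fin n) (Fin n) K).det)⁻¹
    (by rw [map_inv₀, ← mul_inv, hd₁, inv_one])
  have hGdet : ((H * G₁ : GL (Fin n) K) : Matrix (Fin n) (Fin n) K).det = 1 := by
    rw [Units.val_mul, Matrix.det_mul, hHdet, inv_mul_cancel₀ hd0]
  have hGiso : H * G₁ ∈ uIso f := mul_mem hH hG₁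
  have hGv : ((H * G₁ : GL (Fin n) K) : Matrix (Fin n) (Fin n) K) *ᵥ v = l • v' := by
    rw [Units.val_mul, ← Matrix.mulVec_mulVec, hG₁v, Matrix.mulVec_smul, hHv]
  obtain ⟨M, hM⟩ : ∃ M : Matrix (Fin n) (Fin n) K,
    M = ((H * G₁ : GL (Fin n) K) : Matrix (Fin n) (Fin n) K) := ⟨_, rfl⟩
  rw [← hM] at hGdet hGv
  have hMiso : ∀ x y, f (M *ᵥ x) (M *ᵥ y) = f x y := by rw [hM]; exact hGiso
  have key : M * A = B * M := by
    rw [Matrix.ext_iff_mulVec]
    intro x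
    rw [← Matrix.mulVec_mulVec, ← Matrix.mulVec_mulVec, hAx, hBx, Matrix.mulVec_add,
      Matrix.mulVec_smul, hGv]
    have h1 : f (M *ᵥ x) (l • v') = f x v := by rw [← hGv, hMiso]
    rw [uf_smul_right hf] at h1
    have h2 : c' = c * (l * σ l) := by rw [hl]; field_simp
    rw [smul_smul, ← h1, h2]
    congr 2
    ring
  rw [isConj_iff]
  refine ⟨⟨⟨M, hGdet⟩, hMiso⟩, ?_⟩
  rw [mul_inv_eq_iff_eq_mul]
  apply Subtype.ext
  apply Subtype.ext
  show M * (s.1.1) = (t.1.1) * M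
  rw [hA, hB] at key
  exact key

end Cfsg.Agent.S2644
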