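import Cfsg.Statements.S2666
import Cfsg.Agent.Lib.Helper16.Shintani

set_option autoImplicit false
open Cfsg

namespace Cfsg.Agent.S2666

open Cfsg.Agent.Lib.Helper16

theorem result {X : Type*} [Group X] (σ : MulAut X) (e : ℕ) (he : 1 ≤ e)
    (hL : ∀ g : X, ∃ a : X, g = a * (σ a)⁻¹) (hLe : ∀ g : X, ∃ a : X, g = a * ((σ ^ e) a)⁻¹) :
    (∀ g ∈ (MulEquiv.toMonoidHom (σ ^ e)).eqLocus (MonoidHom.id X), ∀ a : X, g = a * (σ a)⁻¹ →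
        ((σ ^ e) a)⁻¹ * a ∈ (MulEquiv.toMonoidHom σ).eqLocus (MonoidHom.id X) ∧
          a⁻¹ * ((List.range e).map (fun i => (σ ^ i) g)).prod * a = ((σ ^ e) a)⁻¹ * a) ∧
    (∀ g ∈ (MulEquiv.toMonoidHom (σ ^ e)).eqLocus (MonoidHom.id X), ∀ g' ∈ (MulEquiv.toMonoidHom (σ ^ e)).eqLocus (MonoidHom.id X), ∀ a b : X,
        g = a * (σ a)⁻¹ → g' = b * (σ b)⁻¹ →
          ((∃ k ∈ (MulEquiv.toMonoidHom (σ ^ e)).eqLocus (MonoidHom.id X), g' = k * g * (σ k)⁻¹) ↔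
            (∃ h ∈ (MulEquiv.toMonoidHom σ).eqLocus (MonoidHom.id X), ((σ ^ e) b)⁻¹ * b = h * (((σ ^ e) a)⁻¹ * a) * h⁻¹))) ∧
    (∀ x ∈ (MulEquiv.toMonoidHom σ).eqLocus (MonoidHom.id X), ∃ g ∈ (MulEquiv.toMonoidHom (σ ^ e)).eqLocus (MonoidHom.id X), ∃ a : X,
        g = a * (σ a)⁻¹ ∧ ((σ ^ e) a)⁻¹ * a = x) := by
  simp only [mem_fix]
  refine ⟨?_, ?_, ?_⟩
  · intro g hg a ha
    subst ha
    refine ⟨shintani_fix σ e a hg, ?_⟩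
    rw [norm_telescope]; group
  · intro g hg g' hg' a b ha hb
    subst ha hb
    constructor
    · rintro ⟨k, hk, h⟩
      -- c = (k a)⁻¹ b is fixed by σ
      have hc : σ (b⁻¹ * (k * a)) = b⁻¹ * (k * a) := by
        simp only [map_mul, map_inv]
        calc (σ b)⁻¹ * (σ k * σ a) = b⁻¹ * (b * (σ b)⁻¹) * (σ k * σ a) := by group
          _ = _ := by rw [h]; group
      refine ⟨b⁻¹ * (k * a), hc, ?_⟩
      have hce := pow_fix σ _ hc e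
      simp only [map_mul, map_inv, hk] at hce
      have : ((σ ^ e) b)⁻¹ = b⁻¹ * (k * a) * ((σ ^ e) a)⁻¹ * k⁻¹ := by
        calc ((σ ^ e) b)⁻¹ = (((σ ^ e) b)⁻¹ * (k * (σ ^ e) a)) * ((σ ^ e) a)⁻¹ * k⁻¹ := by group
          _ = _ := by rw [hce]
      rw [this]; group
    · rintro ⟨h, hh, hx⟩
      refine ⟨b * h * a⁻¹, ?_, ?_⟩
      · have hhe := pow_fix σ _ hh e
        simp only [map_mul, map_inv, hhe]
        calc (σ ^ e) b * h * ((σ ^ e) a)⁻¹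
            = (σ ^ e) b * (h * (((σ ^ e) a)⁻¹ * a) * h⁻¹) * h * a⁻¹ := by group
          _ = _ := by rw [← hx]; group
      · simp only [map_mul, map_inv, hh]; group
  · intro x hx
    obtain ⟨c, hc⟩ := hLe x⁻¹
    have hxa : ((σ ^ e) c⁻¹)⁻¹ * c⁻¹ = x := by
      rw [map_inv, inv_inv, ← inv_inj, hc]; group
    refine ⟨c⁻¹ * (σ c⁻¹)⁻¹, ?_, c⁻¹, rfl, hxa⟩
    apply shintani_fix_conv
    rw [hxa, hx]

end Cfsg.Agent.S2666
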