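import Cfsg.Statements.S2668
import Cfsg.Agent.Lib.Helper16.Shintani

set_option autoImplicit false
open Cfsg

namespace Cfsg.Agent.S2668

open Cfsg.Agent.Lib.Helper16

theorem result {X : Type*} [Group X] (σ : MulAut X) (e d : ℕ) (he : 1 ≤ e) (hd : 1 ≤ d)
    (g : X) (hg : g ∈ (MulEquiv.toMonoidHom (σ ^ e)).eqLocus (MonoidHom.id X)) (a : X) (ha : g = a * (σ a)⁻¹) :
    ((List.range d).map (fun i => (σ ^ i) g)).prod = a * ((σ ^ d) a)⁻¹ ∧
      ((List.range d).map (fun i => (σ ^ i) g)).prod ∈ (MulEquiv.toMonoidHom ((σ ^ d) ^ e)).eqLocus (MonoidHom.id X) ∧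
      (((σ ^ d) ^ e) a)⁻¹ * a = (((σ ^ e) a)⁻¹ * a) ^ d := by
  simp only [mem_fix] at *
  refine ⟨by rw [ha]; exact norm_telescope σ a d, ?_, ?_⟩
  · rw [map_list_prod, List.map_map]
    congr 1
    apply List.map_congr_left
    intro i _
    simp only [Function.comp]
    have h1 : ((σ ^ d) ^ e) g = g := by
      rw [← pow_mul, mul_comm, pow_mul]
      exact pow_fix _ _ hg d
    rw [← MulAut.mul_apply, ← pow_mul, ← pow_add, add_comm, pow_add, MulAut.mul_apply, pow_mul, h1]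
  · subst ha
    have hx := shintani_fix σ e a hg
    rw [← pow_mul, mul_comm, pow_mul]
    clear hd
    induction d with
    | zero => simp
    | succ d ih =>
      rw [pow_succ, MulAut.mul_apply, pow_succ']
      have h2 : ((σ ^ e) ^ d) (((σ ^ e) a)⁻¹ * a) = ((σ ^ e) a)⁻¹ * a := by
        rw [← pow_mul]; exact pow_fix _ _ hx _
      rw [← ih]
      simp only [map_mul, map_inv] at h2
      calc (((σ ^ e) ^ d) ((σ ^ e) a))⁻¹ * a
          = ((((σ ^ e) ^ d) ((σ ^ e) a))⁻¹ * ((σ ^ e) ^ d) a) * ((((σ ^ e) ^ d) a)⁻¹ * a) := by group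
        _ = _ := by rw [h2]

end Cfsg.Agent.S2668
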