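import Cfsg.Statements.S2669
import Cfsg.Agent.Lib.Helper16.Shintani

set_option autoImplicit false
open Cfsg

namespace Cfsg.Agent.S2669

open Cfsg.Agent.Lib.Helper16

theorem card_fiber {X : Type*} [Group X] (Y K : Subgroup X) (P : X → Prop)
    (hP : ∀ k y, y ∈ Y → (P (k * y) ↔ P k)) :
    Nat.card {k : K // P k} =
      Nat.card {t : X ⧸ Y // ∃ k ∈ K, (k : X ⧸ Y) = t ∧ P k} * Nat.card ↥(Y ⊓ K) := by
  classical
  rw [← Nat.card_prod]
  let s : {t : X ⧸ Y // ∃ k ∈ K, (k : X ⧸ Y) = t ∧ P k} → X := fun t => t.2.choose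
  have s1 : ∀ t, s t ∈ K := fun t => t.2.choose_spec.1
  have s2 : ∀ t, ((s t : X) : X ⧸ Y) = t.1 := fun t => t.2.choose_spec.2.1
  have s3 : ∀ t, P (s t) := fun t => t.2.choose_spec.2.2
  refine Nat.card_congr
    { toFun := fun k => (⟨((k.1 : X) : X ⧸ Y), ⟨k.1, k.1.2, rfl, k.2⟩⟩,
        ⟨(s ⟨((k.1 : X) : X ⧸ Y), ⟨k.1, k.1.2, rfl, k.2⟩⟩)⁻¹ * k.1, Subgroup.mem_inf.2 ⟨?_, ?_⟩⟩)
      invFun := fun ty => ⟨⟨s ty.1 * ty.2.1, mul_mem (s1 _) (Subgroup.mem_inf.1 ty.2.2).2⟩,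
        (hP _ _ (Subgroup.mem_inf.1 ty.2.2).1).2 (s3 _)⟩
      left_inv := ?_
      right_inv := ?_ }
  · rw [← QuotientGroup.eq]
    exact s2 _
  · exact mul_mem (inv_mem (s1 _)) k.1.2
  · intro k
    apply Subtype.ext
    apply Subtype.ext
    simp
  · rintro ⟨t, y⟩
    have h1 : (⟨((s t * y.1 : X) : X ⧸ Y), ⟨s t * y.1, mul_mem (s1 _) (Subgroup.mem_inf.1 y.2).2, rfl,
          (hP _ _ (Subgroup.mem_inf.1 y.2).1).2 (s3 _)⟩⟩ :
        {t : X ⧸ Y // ∃ k ∈ K, (k : X ⧸ Y) = t ∧ P k}) = t := by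
      apply Subtype.ext
      change ((s t * y.1 : X) : X ⧸ Y) = t.1
      rw [← s2 t, QuotientGroup.eq]
      simpa using (Subgroup.mem_inf.1 y.2).1
    apply Prod.ext
    · exact h1
    · apply Subtype.ext
      change (s _)⁻¹ * (s t * y.1) = y.1
      rw [h1]
      simp

theorem pow_mem {X : Type*} [Group X] (σ : MulAut X) (Y : Subgroup X) (hY : ∀ y : X, y ∈ Y ↔ σ y ∈ Y)
    (n : ℕ) (y : X) (hy : y ∈ Y) : (σ ^ n) y ∈ Y := by
  induction n with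
  | zero => simpa using hy
  | succ n ih => rw [pow_succ', MulAut.mul_apply]; exact (hY _).1 ih

theorem result {X : Type*} [Group X] (σ : MulAut X) (e : ℕ) (he : 1 ≤ e)
    [Finite ↥((MulEquiv.toMonoidHom (σ ^ e)).eqLocus (MonoidHom.id X))]
    (Y : Subgroup X) (hY : ∀ y : X, y ∈ Y ↔ σ y ∈ Y)
    (hYL : ∀ y ∈ Y, ∃ a ∈ Y, y = a * (σ a)⁻¹) (hYLe : ∀ y ∈ Y, ∃ a ∈ Y, y = a * ((σ ^ e) a)⁻¹)
    (g : X) (hg : g ∈ (MulEquiv.toMonoidHom (σ ^ e)).eqLocus (MonoidHom.id X)) (a : X) (ha : g = a * (σ a)⁻¹) :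
    Nat.card {k : ↥((MulEquiv.toMonoidHom (σ ^ e)).eqLocus (MonoidHom.id X)) // (k : X)⁻¹ * g * σ k ∈ Y} *
        Nat.card ↥(Y ⊓ (MulEquiv.toMonoidHom σ).eqLocus (MonoidHom.id X)) =
      Nat.card {h : ↥((MulEquiv.toMonoidHom σ).eqLocus (MonoidHom.id X)) // (h : X)⁻¹ * (((σ ^ e) a)⁻¹ * a) * h ∈ Y} *
        Nat.card ↥(Y ⊓ (MulEquiv.toMonoidHom (σ ^ e)).eqLocus (MonoidHom.id X)) := by
  set τ := σ ^ e with hτ
  have hτY : ∀ y ∈ Y, τ y ∈ Y := fun y hy => pow_mem σ Y hY e y hy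
  have c1 := card_fiber Y ((MulEquiv.toMonoidHom τ).eqLocus (MonoidHom.id X)) (fun k => k⁻¹ * g * σ k ∈ Y)
    (by
      intro k y hy
      have : (k * y)⁻¹ * g * σ (k * y) = y⁻¹ * (k⁻¹ * g * σ k) * σ y := by
        simp only [map_mul]; group
      simp only [this]
      rw [Subgroup.mul_mem_cancel_right _ ((hY y).1 hy), Subgroup.mul_mem_cancel_left _ (inv_mem hy)])
  have c2 := card_fiber Y ((MulEquiv.toMonoidHom σ).eqLocus (MonoidHom.id X))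
    (fun h => h⁻¹ * ((τ a)⁻¹ * a) * h ∈ Y)
    (by
      intro k y hy
      have : (k * y)⁻¹ * ((τ a)⁻¹ * a) * (k * y) = y⁻¹ * (k⁻¹ * ((τ a)⁻¹ * a) * k) * y := by group
      simp only [this]
      rw [Subgroup.mul_mem_cancel_right _ hy, Subgroup.mul_mem_cancel_left _ (inv_mem hy)])
  have c3 : Nat.card {t : X ⧸ Y // ∃ k ∈ (MulEquiv.toMonoidHom τ).eqLocus (MonoidHom.id X),
        (k : X ⧸ Y) = t ∧ k⁻¹ * g * σ k ∈ Y} =
      Nat.card {t : X ⧸ Y // ∃ h ∈ (MulEquiv.toMonoidHom σ).eqLocus (MonoidHom.id X),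
        (h : X ⧸ Y) = t ∧ h⁻¹ * ((τ a)⁻¹ * a) * h ∈ Y} := by
    refine Nat.card_congr (Equiv.subtypeEquiv (MulAction.toPerm a⁻¹) ?_)
    intro t
    simp only [mem_fix, MulAction.toPerm_apply]
    constructor
    · rintro ⟨k, hk, rfl, hP⟩
      obtain ⟨y, hy, hyy⟩ := hYL _ hP
      have hfix : σ (a⁻¹ * k * y) = a⁻¹ * k * y := by
        simp only [map_mul, map_inv]
        have : σ k = g⁻¹ * k * (y * (σ y)⁻¹) := by rw [← hyy]; group
        rw [this, ha]; group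
      refine ⟨a⁻¹ * k * y, hfix, ?_, ?_⟩
      · rw [MulAction.Quotient.smul_coe, smul_eq_mul, QuotientGroup.eq]
        have : (a⁻¹ * k * y)⁻¹ * (a⁻¹ * k) = y⁻¹ := by group
        rw [this]; exact inv_mem hy
      · have h2 := pow_fix σ _ hfix e
        rw [← hτ] at h2
        simp only [map_mul, map_inv, hk] at h2
        have : (a⁻¹ * k * y)⁻¹ * ((τ a)⁻¹ * a) * (a⁻¹ * k * y) = (τ y)⁻¹ * y := by
          calc (a⁻¹ * k * y)⁻¹ * ((τ a)⁻¹ * a) * (a⁻¹ * k * y)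
              = (a⁻¹ * k * y)⁻¹ * ((τ a)⁻¹ * k * τ y) * ((τ y)⁻¹ * y) := by group
            _ = _ := by rw [h2]; group
        rw [this]
        exact mul_mem (inv_mem (hτY y hy)) hy
    · rintro ⟨h, hh, hht, hP⟩
      have hhe : τ h = h := pow_fix σ _ hh e
      have hP' : (a * h)⁻¹ * τ (a * h) ∈ Y := by
        have : (a * h)⁻¹ * τ (a * h) = (h⁻¹ * ((τ a)⁻¹ * a) * h)⁻¹ := by
          simp only [map_mul, hhe]; group
        rw [this]; exact inv_mem hP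
      obtain ⟨y, hy, hyy⟩ := hYLe _ hP'
      refine ⟨a * h * y, ?_, ?_, ?_⟩
      · have : τ (a * h) = (a * h) * (y * (τ y)⁻¹) := by rw [← hyy]; group
        rw [map_mul, this]; group
      · have : t = a • (a⁻¹ • t) := by simp
        rw [this, ← hht, MulAction.Quotient.smul_coe, smul_eq_mul, QuotientGroup.eq]
        have : (a * h * y)⁻¹ * (a * h) = y⁻¹ := by group
        rw [this]; exact inv_mem hy
      · have : (a * h * y)⁻¹ * g * σ (a * h * y) = y⁻¹ * σ y := by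
          simp only [map_mul, hh, ha]; group
        rw [this]
        exact mul_mem (inv_mem hy) ((hY y).1 hy)
  rw [c1, c2, c3]
  ring

end Cfsg.Agent.S2669
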