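import Cfsg.Statements.S2677
import Cfsg.Agent.Lib.Helper12.UnitaryFix

set_option autoImplicit false
open Cfsg

namespace Cfsg.Agent.S2677

theorem prod_cast (q₀ n : ℕ) (hq : 1 ≤ q₀) :
    ((∏ i ∈ Finset.range n, (if Even i then q₀ ^ (i + 1) + 1 else q₀ ^ (i + 1) - 1) : ℕ) : ℤ) =
      ∏ i : Fin n, ((q₀ : ℤ) ^ ((i : ℕ) + 1) - (-1) ^ ((i : ℕ) + 1)) := by
  rw [Fin.prod_univ_eq_prod_range (fun i => (q₀ : ℤ) ^ (i + 1) - (-1) ^ (i + 1)) n]
  push_cast
  refine Finset.prod_congr rfl fun i _ => ?_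
  have h1 : 1 ≤ q₀ ^ (i + 1) := Nat.one_le_pow _ _ hq
  split_ifs with h
  · rw [pow_succ (-1 : ℤ), h.neg_one_pow]
    push_cast
    ring
  · rw [pow_succ (-1 : ℤ), (Nat.not_even_iff_odd.mp h).neg_one_pow]
    push_cast [h1]
    ring

/-- Centraliser of a field automorphism of odd prime order in PGU_n(q): let q = q₀^r with r an odd prime, K the field with q² elements and σ a field automorphism of K of order r (fixed field of order q₀²). The elements g of GU_n(q) whose entrywise image under σ is a scalar multiple of g — those whose coset modulo the q + 1 unitary scalars is fixed by σ — number (q + 1)/(q₀ + 1) · |GU_n(q₀)|; equivalently the centraliser in PGU_n(q) of the induced automorphism has the order of PGU_n(q₀). -/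
theorem result {K : Type*} [Field K] [Fintype K] {q₀ q r n : ℕ} (hr : r.Prime) (hr2 : r ≠ 2) (hn : 1 ≤ n) (hq : q = q₀ ^ r) (hK : Fintype.card K = q ^ 2) (σ : K ≃+* K) (hσ : orderOf σ = r) : (Nat.card {g : ↥(Cfsg.GU n K q) // ∃ c : K, c ≠ 0 ∧ ((g : GL (Fin n) K) : Matrix (Fin n) (Fin n) K).map σ = c • ((g : GL (Fin n) K) : Matrix (Fin n) (Fin n) K)} : ℤ) = ((q + 1) / (q₀ + 1) : ℕ) * ((q₀ : ℤ) ^ (n * (n - 1) / 2) * ∏ i : Fin n, ((q₀ : ℤ) ^ ((i : ℕ) + 1) - (-1) ^ ((i : ℕ) + 1))) := by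
  classical
  have hodd : Odd r := hr.odd_of_ne_two hr2
  have h := Cfsg.Agent.Lib.Helper12.card_gu_semi hodd hq hK σ hσ hn
  have h0 := Cfsg.Agent.Lib.Helper12.card_fixSub_sq hr.ne_zero hq hK σ hσ
  haveI : Fintype (Cfsg.Agent.Lib.Helper12.fixSub σ) := Fintype.ofFinite _
  have h0' : Fintype.card (Cfsg.Agent.Lib.Helper12.fixSub σ) = q₀ ^ 2 := by
    rw [← Nat.card_eq_fintype_card, h0]
  rw [Cfsg.Agent.Lib.Helper12.card_GU h0' n] at h
  have hq0 := Cfsg.Agent.Lib.Helper6.herm_q_pos h0'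
  obtain ⟨k, hk⟩ : q₀ + 1 ∣ q + 1 := by
    have := hodd.nat_add_dvd_pow_add_pow q₀ 1
    rwa [one_pow, ← hq] at this
  have hpos : 0 < q₀ + 1 := Nat.succ_pos _
  rw [hk, Nat.mul_div_cancel_left _ hpos]
  rw [hk, mul_comm (q₀ + 1) k, mul_right_comm] at h
  have h2 := Nat.eq_of_mul_eq_mul_right hpos h
  rw [h2, ← prod_cast q₀ n (by omega)]
  push_cast
  ring


end Cfsg.Agent.S2677
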