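import Cfsg.Statements.S2678
import Cfsg.Agent.Lib.Helper16.HermForm

set_option autoImplicit false
open Cfsg

namespace Cfsg.Agent.S2678

open Cfsg.Agent.Lib.Helper16 Module QuadraticMap Matrix

theorem result {K F : Type*} [Field K] [Fintype K] [Field F] [Fintype F] {q : ℕ} (hK : Fintype.card K = q ^ 2) (hF : Fintype.card F = q) (a : ℕ) : ∃ φ : ↥(Matrix.symplecticGroup (Fin a) K) →* ↥(Matrix.symplecticGroup (Fin (2 * a)) F), Function.Injective φ := by
  classical
  obtain ⟨a', b', hab⟩ := exists_aniso (F := F)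
  obtain ⟨i, α, hα⟩ := exists_ringHom_root hF hK a' b' hab
  letI : Algebra F K := i.toAlgebra
  obtain ⟨ψ, l, hψ⟩ := symp_ext_iso hF hK a (F := F) (K := K)
  apply exists_hom_symplectic ((transMat ψ).comp (Matrix.symplecticGroup (Fin a) K).subtype)
  · exact (transMat_injective ψ).comp Subtype.val_injective
  · intro g
    rw [Cfsg.Agent.Lib.Helper6.mem_symplecticGroup_iff_sympForm]
    intro x y
    simp only [MonoidHom.comp_apply, transMat_mulVec]
    rw [hψ]
    have hg := (Cfsg.Agent.Lib.Helper6.mem_symplecticGroup_iff_sympForm _).mp g.2 (ψ.symm x) (ψ.symm y)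
    refine (congrArg l hg).trans ?_
    rw [← hψ]; simp

end Cfsg.Agent.S2678
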