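import Cfsg.Statements.S2679
import Cfsg.Agent.Lib.Helper16.HermForm

set_option autoImplicit false
open Cfsg

namespace Cfsg.Agent.S2679

open Cfsg.Agent.Lib.Helper16 Module QuadraticMap Matrix

theorem qMinus_nondeg' {K : Type*} [Field K] {m : ℕ} (a b : K) (h : a ^ 2 - 4 * b ≠ 0) :
    (polarBilin (qMinus m K a b)).Nondegenerate := by
  classical
  apply nondeg_of_left
  intro u hu
  rw [qMinus_coe] at hu
  have h0 := hu (Pi.single (Sum.inr 0) 1)
  have h1 := hu (Pi.single (Sum.inr 1) 1)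
  rw [polar_minus] at h0 h1
  simp [Pi.single_apply] at h0 h1
  have e0 : u (Sum.inr 0) = 0 := by
    have : (a ^ 2 - 4 * b) * u (Sum.inr 0) = 0 := by linear_combination a * h1 - 2 * b * h0
    exact (mul_eq_zero.mp this).resolve_left h
  have e1 : u (Sum.inr 1) = 0 := by
    have : (a ^ 2 - 4 * b) * u (Sum.inr 1) = 0 := by linear_combination a * h0 - 2 * h1
    exact (mul_eq_zero.mp this).resolve_left h
  ext x
  rcases x with (j | j) | j
  · have := hu (Pi.single (Sum.inl (Sum.inr j)) 1)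
    rw [polar_minus] at this
    simpa [Pi.single_apply] using this
  · have := hu (Pi.single (Sum.inl (Sum.inl j)) 1)
    rw [polar_minus] at this
    simpa [Pi.single_apply] using this
  · fin_cases j
    · exact e0
    · exact e1

theorem base_change {F K : Type*} [Field F] [Field K] (i : F →+* K) {n : ℕ} (a c : F)
    (g : Matrix ((Fin n ⊕ Fin n) ⊕ Fin 2) ((Fin n ⊕ Fin n) ⊕ Fin 2) F)
    (hg : ∀ u, quadFormMinus n F a c (g *ᵥ u) = quadFormMinus n F a c u)
    (v : (Fin n ⊕ Fin n) ⊕ Fin 2 → K) :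
    quadFormMinus n K (i a) (i c) (g.map i *ᵥ v) = quadFormMinus n K (i a) (i c) v := by
  classical
  have hmap : ∀ w : (Fin n ⊕ Fin n) ⊕ Fin 2 → F,
      quadFormMinus n K (i a) (i c) (fun x => i (w x)) = i (quadFormMinus n F a c w) := by
    intro w
    simp [quadFormMinus, map_sum, map_add, map_mul, map_pow]
  have hmv : ∀ w : (Fin n ⊕ Fin n) ⊕ Fin 2 → F,
      g.map i *ᵥ (fun x => i (w x)) = fun x => i ((g *ᵥ w) x) :=
    fun w => funext (fun x => (RingHom.map_mulVec i g w x).symm)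
  set Q := qMinus n K (i a) (i c) with hQ
  set Q' := Q.comp (Matrix.mulVecLin (g.map i)) with hQ'
  have hw : ∀ w : (Fin n ⊕ Fin n) ⊕ Fin 2 → F, Q' (fun x => i (w x)) = Q (fun x => i (w x)) := by
    intro w
    rw [hQ', QuadraticMap.comp_apply, Matrix.mulVecLin_apply, hmv, hQ, qMinus_apply, qMinus_apply,
      hmap, hmap, hg]
  have hs : ∀ j, (Pi.single j 1 : (Fin n ⊕ Fin n) ⊕ Fin 2 → K) =
      fun x => i ((Pi.single j 1 : (Fin n ⊕ Fin n) ⊕ Fin 2 → F) x) := by
    intro j; ext x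
    by_cases h : x = j
    · subst h; simp
    · simp [Pi.single_eq_of_ne h]
  have hs2 : ∀ j k, (Pi.single j 1 + Pi.single k 1 : (Fin n ⊕ Fin n) ⊕ Fin 2 → K) =
      fun x => i ((Pi.single j 1 + Pi.single k 1 : (Fin n ⊕ Fin n) ⊕ Fin 2 → F) x) := by
    intro j k; ext x
    rw [Pi.add_apply, Pi.add_apply, map_add, hs j, hs k]
  have key : Q' = Q := by
    apply ext_basis (Pi.basisFun K _)
    · intro j k _
      simp only [polar, Pi.basisFun_apply]
      rw [hs2, hw, hs j, hw, hs k, hw]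
    · intro j
      simp only [Pi.basisFun_apply]
      rw [hs j, hw]
  have := congrArg (fun f => f v) key
  simp only [hQ', QuadraticMap.comp_apply, Matrix.mulVecLin_apply, hQ, qMinus_apply] at this
  exact this

theorem result {F K : Type*} [Field F] [Fintype F] [Field K] [Fintype K] {q : ℕ} (hF : Fintype.card F = q) (hK : Fintype.card K = q ^ 2) {m : ℕ} (hm : 1 ≤ m) (a c : F) (hac : ∀ z₁ z₂ : F, z₁ ^ 2 + a * z₁ * z₂ + c * z₂ ^ 2 = 0 → z₁ = 0 ∧ z₂ = 0) : ∃ φ : ↥(Cfsg.isometryGroup F (Cfsg.quadFormMinus (m - 1) F a c)) →* ↥(Cfsg.isometryGroup K (Cfsg.quadFormPlus m K)), Function.Injective φ := by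
  classical
  obtain ⟨i, α, hα⟩ := exists_ringHom_root hF hK a c hac
  letI : Algebra F K := i.toAlgebra
  obtain ⟨h1, h2, h3, h4⟩ := root_conj hF a c hac α hα
  have hdisc : (i a) ^ 2 - 4 * (i c) ≠ 0 := by
    have : (i a) ^ 2 - 4 * (i c) = (α - frob F K α) ^ 2 := by
      have h1' : α + frob F K α = - i a := h1
      have h2' : α * frob F K α = i c := h2
      linear_combination (i a - α - frob F K α) * h1' + 4 * h2'
    rw [this]; exact pow_ne_zero 2 (sub_ne_zero.mpr (Ne.symm h4))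
  obtain ⟨n, rfl⟩ : ∃ n, m = n + 1 := ⟨m - 1, by omega⟩
  change ∃ φ : ↥(Cfsg.isometryGroup F (Cfsg.quadFormMinus n F a c)) →*
    ↥(Cfsg.isometryGroup K (Cfsg.quadFormPlus (n + 1) K)), Function.Injective φ
  have hV : finrank K ((Fin n ⊕ Fin n) ⊕ Fin 2 → K) = 2 * (n + 1) := by simp; ring
  let L : (Fin n ⊕ Unit → K) →ₗ[K] ((Fin n ⊕ Fin n) ⊕ Fin 2 → K) :=
    LinearMap.pi (fun x => Sum.elim
      (Sum.elim (fun j => (LinearMap.proj (Sum.inl j) : (Fin n ⊕ Unit → K) →ₗ[K] K)) (fun _ => 0))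
      (fun j => if j = 0 then α • (LinearMap.proj (Sum.inr ()) : (Fin n ⊕ Unit → K) →ₗ[K] K)
        else (LinearMap.proj (Sum.inr ()) : (Fin n ⊕ Unit → K) →ₗ[K] K)) x)
  have hL1 : ∀ x j, L x (Sum.inl (Sum.inl j)) = x (Sum.inl j) := fun x j => rfl
  have hL2 : ∀ x j, L x (Sum.inl (Sum.inr j)) = 0 := fun x j => rfl
  have hL3 : ∀ x, L x (Sum.inr 0) = α * x (Sum.inr ()) := fun x => by simp [L]
  have hL4 : ∀ x, L x (Sum.inr 1) = x (Sum.inr ()) := fun x => by simp [L]
  have hLinj : Function.Injective L := by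
    intro x y hxy
    ext j
    rcases j with j | j
    · have := congrFun hxy (Sum.inl (Sum.inl j)); rwa [hL1, hL1] at this
    · have := congrFun hxy (Sum.inr 1); rwa [hL4, hL4] at this
  obtain ⟨T, hT⟩ := plus_iso_of_singular (qMinus n K (i a) (i c)) (qMinus_nondeg' _ _ hdisc) (n + 1) hV
    (LinearMap.range L) (by
      rintro _ ⟨x, rfl⟩
      rw [qMinus_apply]
      unfold quadFormMinus
      simp only [hL1, hL2, hL3, hL4, mul_zero, Finset.sum_const_zero, zero_add]
      linear_combination (x (Sum.inr ())) ^ 2 * hα)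
    (by rw [LinearMap.finrank_range_of_inj hLinj]; simp)
  apply exists_hom_isometryGroup ((transMat T).comp ((i.mapMatrix : Matrix _ _ F →+* Matrix _ _ K).toMonoidHom.comp
    ((Units.coeHom _).comp (Cfsg.isometryGroup F (Cfsg.quadFormMinus n F a c)).subtype)))
  · have hi : Function.Injective (i.mapMatrix : Matrix ((Fin n ⊕ Fin n) ⊕ Fin 2) ((Fin n ⊕ Fin n) ⊕ Fin 2) F →+* Matrix _ _ K) := by
      intro A B hAB
      ext x y
      have := congrFun (congrFun hAB x) y
      exact i.injective this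
    exact (transMat_injective T).comp (hi.comp (Units.val_injective.comp Subtype.val_injective))
  · intro g w
    simp only [MonoidHom.comp_apply, transMat_mulVec]
    rw [hT, qMinus_apply]
    have hg : ∀ u, quadFormMinus n F a c ((g : GL _ F).val *ᵥ u) = quadFormMinus n F a c u :=
      fun u => g.2 u u
    refine (base_change i a c _ hg _).trans ?_
    rw [← qMinus_apply, ← hT]; simp

end Cfsg.Agent.S2679
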