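import Cfsg.Statements.S2680
import Cfsg.Agent.Lib.Helper16.SpInv10

set_option autoImplicit false

open Cfsg

namespace Cfsg.Agent.S2680

open Cfsg.Agent.Lib.Helper16 Cfsg.Agent.Lib.Helper6

theorem result {F : Type*} [Field F] [Fintype F] [CharP F 2] {q : ℕ} (hF : Fintype.card F = q) {m s : ℕ} (t : Matrix.symplecticGroup (Fin m) F) (ht : t ^ 2 = 1) (hs : ((t : Matrix (Fin m ⊕ Fin m) (Fin m ⊕ Fin m) F) - 1).rank = s) (hodd : Odd s) : Nat.card ↥(Subgroup.centralizer ({t} : Set ↥(Matrix.symplecticGroup (Fin m) F))) = q ^ (2 * m * s - (3 * s ^ 2 - s) / 2) * ((q : ℕ) ^ (((s - 1) / 2) ^ 2) * ∏ i : Fin ((s - 1) / 2), (q ^ (2 * ((i : ℕ) + 1)) - 1)) * ((q : ℕ) ^ ((m - s) ^ 2) * ∏ i : Fin (m - s), (q ^ (2 * ((i : ℕ) + 1)) - 1)) := by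
  have h2 : (2 : F) = 0 := CharTwo.two_eq_zero
  have hsq : ∀ a : F, ∃ c, c * c = a := fun a => by
    obtain ⟨c, hc⟩ := FiniteField.isSquare_of_char_two (ringChar.eq F 2) a
    exact ⟨c, hc.symm⟩
  have ht' : t * t = 1 := by rw [← sq, ht]
  have hna : ∃ v, sympForm m F v
      (Matrix.mulVec (t : Matrix (Fin m ⊕ Fin m) (Fin m ⊕ Fin m) F) v) ≠ 0 := by
    by_contra hcon
    push Not at hcon
    have := SpInv.even_rank_of_alt h2 ht' hcon
    rw [hs] at this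
    exact (Nat.not_even_iff_odd.2 hodd) this
  obtain ⟨s', r, hr⟩ := SpInv.nf_nonalt h2 hsq sympB_nondegenerate sympB_isAlt
    (SpInv.Nm_sq h2 ht') (SpInv.Nm_adj ht') (by simpa only [SpInv.Nm_form] using hna)
  have e1 := hr.finrank sympB_nondegenerate (fun _ => rfl)
  rw [← SpInv.rank_eq, hs, Fintype.card_fin] at e1
  subst e1
  have hsm : s ≤ m := hs ▸ SpInv.rank_le h2 ht'
  obtain ⟨k, hk⟩ := hodd
  rw [SpInv.card_centralizer t hr, SpInv.card_fiber sympB_nondegenerate (fun _ => rfl) hr,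
    SpInv.card_orth_odd h2 s k hk, Cfsg.Agent.Lib.Helper12.card_Sp hF k,
    SpInv.card_fixFr hF r hr.li hr.iso s (by simp) hsm, SpInv.expo m s hsm]
  have e3 : (s - 1) / 2 = k := by omega
  rw [e3, ← Finset.prod_range (fun i => q ^ (2 * (i + 1)) - 1),
    ← Finset.prod_range (fun i => q ^ (2 * (i + 1)) - 1)]
  ring

end Cfsg.Agent.S2680
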