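import Cfsg.Statements.S2683
import Cfsg.Agent.Lib.Helper16.OCent3
import Cfsg.Agent.Lib.Helper16.OCent4

set_option autoImplicit false

open Cfsg

namespace Cfsg.Agent.S2683

open Cfsg.Agent.Lib.Helper16 Cfsg.Agent.Lib.Helper6

theorem result {F : Type*} [Field F] [Fintype F] [CharP F 2] {q : ℕ} (hF : Fintype.card F = q) {m s : ℕ} (h : Fintype.card F ≠ 2 ∨ m ≠ 2) (x : ↥(Cfsg.isometryGroup F (Cfsg.quadFormPlus m F))) (hx : x ^ 2 = 1) (hs : (((x : Matrix.GeneralLinearGroup (Fin m ⊕ Fin m) F) : Matrix (Fin m ⊕ Fin m) (Fin m ⊕ Fin m) F) - 1).rank = s) (hodd : Odd s) : Nat.card {g : ↥(Cfsg.Omega F (Cfsg.quadFormPlus m F)) // (g : ↥(Cfsg.isometryGroup F (Cfsg.quadFormPlus m F))) * x = x * (g : ↥(Cfsg.isometryGroup F (Cfsg.quadFormPlus m F)))} = q ^ (2 * m * (s - 1) - (3 * s ^ 2 - 3 * s) / 2) * ((q : ℕ) ^ (((s - 1) / 2) ^ 2) * ∏ i : Fin ((s - 1) / 2), (q ^ (2 * ((i : ℕ) + 1)) - 1)) *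 ((q : ℕ) ^ ((m - s) ^ 2) * ∏ i : Fin (m - s), (q ^ (2 * ((i : ℕ) + 1)) - 1)) := by
  have h2 : (2 : F) = 0 := CharTwo.two_eq_zero
  have hsq : ∀ a : F, ∃ c, c * c = a := fun a => by
    obtain ⟨c, hc⟩ := FiniteField.isSquare_of_char_two (ringChar.eq F 2) a
    exact ⟨c, hc.symm⟩
  have hq : 0 < q := by rw [← hF]; exact Fintype.card_pos
  revert x
  rw [← qPlus_coe]
  intro x hx hs
  have hx' : x * x = 1 := by rw [← sq, hx]
  have hna : ∃ v, QuadraticMap.polarBilin (qPlus m F) v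
      (Matrix.mulVec ((x : GL (Fin m ⊕ Fin m) F) : Matrix (Fin m ⊕ Fin m) (Fin m ⊕ Fin m) F) v) ≠ 0 := by
    by_contra hcon
    push Not at hcon
    have := OInv.even_rank_of_alt h2 qPlus_nondeg hx' hcon
    rw [hs] at this
    exact (Nat.not_even_iff_odd.2 hodd) this
  obtain ⟨hs1, hsm, hmain⟩ := OInv.card_omega_cent_nonalt hF h2 hsq h x hx' hs hna
  obtain ⟨k, hk⟩ := hodd
  rw [SpInv.card_orth_odd h2 s k hk, Cfsg.Agent.Lib.Helper12.card_Sp hF k,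
    OInv.expoO1 m s hsm hs1] at hmain
  apply Nat.eq_of_mul_eq_mul_left (pow_pos hq (2 * m - s))
  rw [hmain]
  have e3 : (s - 1) / 2 = k := by omega
  rw [e3, ← Finset.prod_range (fun i => q ^ (2 * (i + 1)) - 1),
    ← Finset.prod_range (fun i => q ^ (2 * (i + 1)) - 1), pow_add]
  ring

end Cfsg.Agent.S2683
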