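import Cfsg.Statements.S2684
import Cfsg.Agent.Lib.Helper16.OCent7

set_option autoImplicit false

open Cfsg

namespace Cfsg.Agent.S2684

open Cfsg.Agent.Lib.Helper16 Cfsg.Agent.Lib.Helper6

theorem result {F : Type*} [Field F] [Fintype F] [CharP F 2] {q : ℕ} (hF : Fintype.card F = q) {m s : ℕ} (h : Fintype.card F ≠ 2 ∨ m ≠ 2) (x : ↥(Cfsg.isometryGroup F (Cfsg.quadFormPlus m F))) (hx : x ^ 2 = 1) (hx1 : x ≠ 1) (hs : (((x : Matrix.GeneralLinearGroup (Fin m ⊕ Fin m) F) : Matrix (Fin m ⊕ Fin m) (Fin m ⊕ Fin m) F) - 1).rank = s) (heven : Even s) (halt : ∀ v : Fin m ⊕ Fin m → F, Cfsg.quadFormPlus m F ((((x : Matrix.GeneralLinearGroup (Fin m ⊕ Fin m) F) : Matrix (Fin m ⊕ Fin m) (Fin m ⊕ Fin m) F) - 1).mulVec v) = 0) : Nat.card {g : ↥(Cfsg.Omega F (Cfsg.quadFormPlus m F)) // (g : ↥(Cfsg.isometryGroup F (Cfsg.quadFormPlus m F))) * x = x * (g : ↥(Cfsg.isometryGroup F (Cfsg.quadFormPlus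 m F)))} = q ^ (2 * m * s - (3 * s ^ 2 + s) / 2) * ((q : ℕ) ^ ((s / 2) ^ 2) * ∏ i : Fin (s / 2), (q ^ (2 * ((i : ℕ) + 1)) - 1)) * (if s = m then 1 else q ^ ((m - s) * (m - s - 1)) * (q ^ (m - s) - 1) * ∏ i : Fin (m - s - 1), (q ^ (2 * ((i : ℕ) + 1)) - 1)) := by
  have h2 : (2 : F) = 0 := CharTwo.two_eq_zero
  have hsq : ∀ a : F, ∃ c, c * c = a := fun a => by
    obtain ⟨c, hc⟩ := FiniteField.isSquare_of_char_two (ringChar.eq F 2) a
    exact ⟨c, hc.symm⟩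
  have hq : 0 < q := by rw [← hF]; exact Fintype.card_pos
  revert x
  rw [← qPlus_coe]
  intro x hx hx1 hs halt0
  have hx' : x * x = 1 := by rw [← sq, hx]
  have halt : ∀ v, QuadraticMap.polarBilin (qPlus m F) v
      (Matrix.mulVec ((x : GL (Fin m ⊕ Fin m) F) : Matrix (Fin m ⊕ Fin m) (Fin m ⊕ Fin m) F) v) = 0 := by
    intro v
    rw [← OInv.NG_form h2, ← OInv.Q_N h2 (OInv.NG_Q x.2)]
    exact halt0 v
  obtain ⟨hsm, hmain⟩ := OInv.card_omega_cent_alt hF h2 hsq h x hx' hx1 hs halt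
  rw [Cfsg.Agent.Lib.Helper12.card_Sp hF (s / 2), ← OInv.expoO3 m s hsm] at hmain
  rw [← Finset.prod_range (fun i => q ^ (2 * (i + 1)) - 1),
    ← Finset.prod_range (fun i => q ^ (2 * (i + 1)) - 1)]
  by_cases hsm' : s = m
  · rw [if_pos hsm', mul_one] at hmain
    rw [if_pos hsm', hmain, hsm']
    simp [OInv.Oord]
  · rw [if_neg hsm'] at hmain
    rw [if_neg hsm']
    apply Nat.eq_of_mul_eq_mul_right (show 0 < 2 by norm_num)
    rw [hmain, OInv.Oord, if_neg (by omega)]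
    ring

end Cfsg.Agent.S2684
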