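import Cfsg.Statements.S2685
import Cfsg.Agent.Lib.Helper16.OCent3
import Cfsg.Agent.Lib.Helper16.OCent4

set_option autoImplicit false

open Cfsg

namespace Cfsg.Agent.S2685

open Cfsg.Agent.Lib.Helper16 Cfsg.Agent.Lib.Helper6

theorem result {F : Type*} [Field F] [Fintype F] [CharP F 2] {q : ℕ} (hF : Fintype.card F = q) {m s : ℕ} (h : Fintype.card F ≠ 2 ∨ m ≠ 2) (x : ↥(Cfsg.isometryGroup F (Cfsg.quadFormPlus m F))) (hx : x ^ 2 = 1) (hs : (((x : Matrix.GeneralLinearGroup (Fin m ⊕ Fin m) F) : Matrix (Fin m ⊕ Fin m) (Fin m ⊕ Fin m) F) - 1).rank = s) (heven : Even s) (hna : ∃ v : Fin m ⊕ Fin m → F, Cfsg.quadFormPlus m F ((((x : Matrix.GeneralLinearGroup (Fin m ⊕ Fin m) F) : Matrix (Fin m ⊕ Fin m) (Fin m ⊕ Fin m) F) - 1).mulVec v) ≠ 0) : Nat.card {g : ↥(Cfsg.Omega F (Cfsg.quadFormPlus m F)) // (g : ↥(Cfsg.isometryGroup F (Cfsg.quadFormPlus m F))) * x = x * (g : ↥(Cfsg.isometryGroup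 F (Cfsg.quadFormPlus m F)))} = q ^ (2 * m * (s - 1) - (3 * s ^ 2 - 5 * s) / 2 - 1) * ((q : ℕ) ^ (((s - 2) / 2) ^ 2) * ∏ i : Fin ((s - 2) / 2), (q ^ (2 * ((i : ℕ) + 1)) - 1)) * ((q : ℕ) ^ ((m - s) ^ 2) * ∏ i : Fin (m - s), (q ^ (2 * ((i : ℕ) + 1)) - 1)) := by
  have h2 : (2 : F) = 0 := CharTwo.two_eq_zero
  have hsq : ∀ a : F, ∃ c, c * c = a := fun a => by
    obtain ⟨c, hc⟩ := FiniteField.isSquare_of_char_two (ringChar.eq F 2) a
    exact ⟨c, hc.symm⟩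
  have hq : 0 < q := by rw [← hF]; exact Fintype.card_pos
  revert x
  rw [← qPlus_coe]
  intro x hx hs hna0
  have hx' : x * x = 1 := by rw [← sq, hx]
  have hna : ∃ v, QuadraticMap.polarBilin (qPlus m F) v
      (Matrix.mulVec ((x : GL (Fin m ⊕ Fin m) F) : Matrix (Fin m ⊕ Fin m) (Fin m ⊕ Fin m) F) v) ≠ 0 := by
    obtain ⟨v, hv⟩ := hna0
    refine ⟨v, ?_⟩
    rw [← OInv.NG_form h2, ← OInv.Q_N h2 (OInv.NG_Q x.2)]
    exact hv
  obtain ⟨hs1, hsm, hmain⟩ := OInv.card_omega_cent_nonalt hF h2 hsq h x hx' hs hna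
  obtain ⟨k, hk⟩ := heven
  have hk' : s = 2 * k := by omega
  obtain ⟨v, hv, hcard⟩ := SpInv.card_orth_even (F := F) h2 s k hk' (by omega)
  rw [hcard, SpInv.card_spFix_formula hF k (by omega) v hv] at hmain
  apply Nat.eq_of_mul_eq_mul_left (pow_pos hq (2 * m - s))
  rw [hmain]
  have e3 : (s - 2) / 2 = k - 1 := by omega
  have e4 : 2 * k - 1 = s - 1 := by omega
  have e5 := OInv.expoO2 m s hsm (by omega)
  rw [e3, e4, ← Finset.prod_range (fun i => q ^ (2 * (i + 1)) - 1),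
    ← Finset.prod_range (fun i => q ^ (2 * (i + 1)) - 1)]
  have e6 : q ^ (2 * m - s) * q ^ (2 * m * (s - 1) - (3 * s ^ 2 - 5 * s) / 2 - 1) =
      q ^ (s * (s + 1) / 2 + 2 * s * (m - s)) * q ^ (s - 1) := by
    rw [← pow_add, ← e5, pow_add]
  calc _ = (q ^ (s * (s + 1) / 2 + 2 * s * (m - s)) * q ^ (s - 1)) *
        ((q ^ (k - 1) ^ 2 * ∏ i ∈ Finset.range (k - 1), (q ^ (2 * (i + 1)) - 1)) *
        (q ^ (m - s) ^ 2 * ∏ i ∈ Finset.range (m - s), (q ^ (2 * (i + 1)) - 1))) := by ring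
    _ = _ := by rw [← e6]; ring

end Cfsg.Agent.S2685
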