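import Cfsg.Statements.S2722
import Cfsg.Agent.Lib.Helper16.POAut8

set_option autoImplicit false

open Cfsg

namespace Cfsg.Agent.S2722

open Cfsg.Agent.Lib.Helper16 Cfsg.Agent.Lib.Helper6

theorem result {F : Type*} [Field F] [Fintype F] (hodd : Odd (Fintype.card F)) {m : ℕ} (hm : 4 ≤ m) :
    (∃ φ : ↥(Cfsg.pgoAut F (Cfsg.quadFormPlus m F)) →* Multiplicative (ZMod 2 × ZMod 2), Function.Surjective φ ∧ φ.ker = (Cfsg.psoAut F (Cfsg.quadFormPlus m F)).subgroupOf (Cfsg.pgoAut F (Cfsg.quadFormPlus m F))) := by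
  have h2 := two_ne_zero_of_odd_card hodd
  have hQ : (QuadraticMap.polarBilin (qPlus m F)).Nondegenerate := qPlus_nondeg
  obtain ⟨e, f, hp⟩ : ∃ e f, HPair (qPlus m F) e f := by
    obtain ⟨k, rfl⟩ : ∃ k, m = k + 1 := ⟨m - 1, by omega⟩
    obtain ⟨e, f, hp, -⟩ := (qPlus_wtype (m := k + 1) (F := F)).succ
    exact ⟨e, f, hp⟩
  have hfr : Module.finrank F (Fin m ⊕ Fin m → F) = 2 * m := finrank_plus'
  obtain ⟨l, hl0, hl⟩ := exists_nonsquare_of_two_ne_zero (F := F) h2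
  obtain ⟨d, hd⟩ := POAut.exists_sim_plus (F := F) m (by omega) l hl0
  have hc : Fintype.card (Fin m ⊕ Fin m) = 2 * m := by
    rw [Fintype.card_sum, Fintype.card_fin]; ring
  rw [← qPlus_coe]
  exact POAut.pgo_mod_pso h2 hQ hp (by omega) m hc d (by rw [hd]; exact hl)

end Cfsg.Agent.S2722
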