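import Cfsg.Statements.S2723
import Cfsg.Agent.Lib.Helper16.POAut5

set_option autoImplicit false

open Cfsg

namespace Cfsg.Agent.S2723

open Cfsg.Agent.Lib.Helper16 Cfsg.Agent.Lib.Helper6

theorem result {F : Type*} [Field F] [Fintype F] (hodd : Odd (Fintype.card F)) {m : ℕ} (hm : 4 ≤ m) :
    ((Odd m ∧ Fintype.card F % 4 = 3) → (Cfsg.Inn (Cfsg.POmega F (Cfsg.quadFormPlus m F))).relIndex (Cfsg.psoAut F (Cfsg.quadFormPlus m F)) = 1) ∧ (¬ (Odd m ∧ Fintype.card F % 4 = 3) → (Cfsg.Inn (Cfsg.POmega F (Cfsg.quadFormPlus m F))).relIndex (Cfsg.psoAut F (Cfsg.quadFormPlus m F)) = 2) := by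
  obtain ⟨k, rfl⟩ : ∃ k, m = k + 1 := ⟨m - 1, by omega⟩
  have h2 := two_ne_zero_of_odd_card hodd
  have hQ : (QuadraticMap.polarBilin (qPlus (k + 1) F)).Nondegenerate := qPlus_nondeg
  obtain ⟨e, f, hp, -⟩ := (qPlus_wtype (m := k + 1) (F := F)).succ
  have hfr : Module.finrank F (Fin (k + 1) ⊕ Fin (k + 1) → F) = 2 * (k + 1) := finrank_plus'
  have key := POAut.relIndex_inn_pso (qPlus (k + 1) F) h2 hQ hp (by omega) (by simp)
  rw [POAut.negO_plus_iff hodd (k + 1) (by omega), qPlus_coe, not_not] at key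
  exact ⟨key.2, key.1⟩

end Cfsg.Agent.S2723
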