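import Cfsg.Statements.S2725
import Cfsg.Agent.Lib.Helper16.POAut14

set_option autoImplicit false

open Cfsg

namespace Cfsg.Agent.S2725

open Cfsg.Agent.Lib.Helper16 Cfsg.Agent.Lib.Helper6

theorem result {F : Type*} [Field F] [Fintype F] (hodd : Odd (Fintype.card F)) {m : ℕ} (hm : 4 ≤ m) :
    ((Odd m ∧ Fintype.card F % 4 = 3) → (∃ φ : ↥(Cfsg.inndiagPOmegaPlus m F) →* Multiplicative (ZMod 2), Function.Surjective φ ∧ φ.ker = (Cfsg.Inn (Cfsg.POmega F (Cfsg.quadFormPlus m F))).subgroupOf (Cfsg.inndiagPOmegaPlus m F))) ∧ ((Odd m ∧ Fintype.card F % 4 = 1) → (∃ φ : ↥(Cfsg.inndiagPOmegaPlus m F) →* Multiplicative (ZMod 4), Function.Surjective φ ∧ φ.ker = (Cfsg.Inn (Cfsg.POmega F (Cfsg.quadFormPlus m F))).subgroupOf (Cfsg.inndiagPOmegaPlus m F))) ∧ (Even m → (∃ φ : ↥(Cfsg.inndiagPOmegaPlus m F) →* Multiplicative (ZMod 2 × ZMod 2), Function.Surjective φ ∧ φ.ker = (Cfsg.Inn (Cfsg.POmega F (Cfsg.quadFormPlus m F))).subgroupOf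 (Cfsg.inndiagPOmegaPlus m F))) := by
  have h2 := two_ne_zero_of_odd_card hodd
  have hQ : (QuadraticMap.polarBilin (qPlus m F)).Nondegenerate := qPlus_nondeg
  obtain ⟨e, f, hp⟩ : ∃ e f, HPair (qPlus m F) e f := by
    obtain ⟨k, rfl⟩ : ∃ k, m = k + 1 := ⟨m - 1, by omega⟩
    obtain ⟨e, f, hp, -⟩ := (qPlus_wtype (m := k + 1) (F := F)).succ
    exact ⟨e, f, hp⟩
  have hfr : Module.finrank F (Fin m ⊕ Fin m → F) = 2 * m := finrank_plus'
  obtain ⟨l, hl0, hl⟩ := exists_nonsquare_of_two_ne_zero (F := F) h2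
  obtain ⟨v0, hv0⟩ := represents_all (qPlus m F) hQ (by omega) 1 one_ne_zero
  have h0 : qPlus m F v0 ≠ 0 := by rw [hv0]; exact one_ne_zero
  obtain ⟨g₀, hg1, hg2, hg3, -⟩ := POAut.exists_swap_plus h2 (by omega) h0 l hl0
  have hc : Fintype.card (Fin m ⊕ Fin m) = 2 * m := by
    rw [Fintype.card_sum, Fintype.card_fin]; ring
  have hiff := POAut.negO_plus_iff hodd m (by omega)
  have hID : inndiagPOmegaPlus m F = (qPlus_coe m F) ▸ POAut.IDaut h0 m := by
    rw [← POAut.inndiag_plus_eq h2 (by omega) h0]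
    have : ∀ (Q' : (Fin m ⊕ Fin m → F) → F) (hQ' : Q' = quadFormPlus m F),
        inndiagPOmegaPlus m F = hQ' ▸ autSubgroupOf (fun β : POmega F Q' ≃* POmega F Q' =>
      ∃ g : GL (Fin m ⊕ Fin m) F, g ∈ Geo.quadSimilarityGroup (F := F) Q' ∧
        PreservesSingularClasses Q' (g : Matrix (Fin m ⊕ Fin m) (Fin m ⊕ Fin m) F) ∧
        IsInducedBySemilinearPOmega Q' g (RingEquiv.refl F) β) := by
      intro Q' hQ'
      subst hQ'
      rfl
    exact this _ (qPlus_coe m F)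
  have key := POAut.id_structure h2 hQ hp (by omega) hv0 h0 m hc g₀ (by rw [hg1]; exact hl) l hg2
  have main : ∀ (Q' : (Fin m ⊕ Fin m → F) → F) (hQ' : Q' = quadFormPlus m F)
      (I : Subgroup (MulAut (POmega F Q'))) (M : Type) [Group M],
      (∃ φ : ↥I →* M, Function.Surjective φ ∧ φ.ker = (Inn (POmega F Q')).subgroupOf I) →
      ∃ φ : ↥(hQ' ▸ I : Subgroup (MulAut (POmega F (quadFormPlus m F)))) →* M,
        Function.Surjective φ ∧ φ.ker = (Inn (POmega F (quadFormPlus m F))).subgroupOf (hQ' ▸ I) := by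
    intro Q' hQ' I M _ h
    subst hQ'
    exact h
  rw [hID]
  refine ⟨?_, ?_, ?_⟩
  · intro h
    exact main _ (qPlus_coe m F) _ _ (key.1 (fun hn => hiff.1 hn h))
  · intro h
    exact main _ (qPlus_coe m F) _ _ (key.2.2 (hiff.2 (fun h' => by omega))
      (fun hmem => (Nat.not_even_iff_odd.2 h.1) (hg3.1 hmem)))
  · intro h
    exact main _ (qPlus_coe m F) _ _ (key.2.1 (hiff.2 (fun h' => (Nat.not_even_iff_odd.2 h'.1) h))
      (hg3.2 h))

end Cfsg.Agent.S2725
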