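import Cfsg.Statements.S2727
import Cfsg.Agent.Lib.Helper16.POAut5

set_option autoImplicit false

open Cfsg

namespace Cfsg.Agent.S2727

open Cfsg.Agent.Lib.Helper16 Cfsg.Agent.Lib.Helper6

theorem result {F : Type*} [Field F] [Fintype F] (hodd : Odd (Fintype.card F)) {m : ℕ} (hm : 3 ≤ m) (a b : F) (hab : (∀ z₁ z₂ : F, z₁ ^ 2 + a * z₁ * z₂ + b * z₂ ^ 2 = 0 → z₁ = 0 ∧ z₂ = 0)) :
    ((Even m ∧ Fintype.card F % 4 = 3) → (Cfsg.Inn (Cfsg.POmega F (Cfsg.quadFormMinus m F a b))).relIndex (Cfsg.psoAut F (Cfsg.quadFormMinus m F a b)) = 2) ∧ (¬ (Even m ∧ Fintype.card F % 4 = 3) → (Cfsg.Inn (Cfsg.POmega F (Cfsg.quadFormMinus m F a b))).relIndex (Cfsg.psoAut F (Cfsg.quadFormMinus m F a b)) = 1) := by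
  obtain ⟨k, rfl⟩ : ∃ k, m = k + 1 := ⟨m - 1, by omega⟩
  have h2 := two_ne_zero_of_odd_card hodd
  have hQ : (QuadraticMap.polarBilin (qMinus (k + 1) F a b)).Nondegenerate := qMinus_nondeg a b hab
  obtain ⟨e, f, hp, -⟩ := (qMinus_wtype (m := k + 1) (F := F) a b hab).succ
  have hfr : Module.finrank F ((Fin (k + 1) ⊕ Fin (k + 1)) ⊕ Fin 2 → F) = 2 * (k + 1) + 2 := finrank_minus'
  have key := POAut.relIndex_inn_pso (qMinus (k + 1) F a b) h2 hQ hp (by omega) (by simp; exact ⟨k + 1 + 1, by ring⟩)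
  rw [POAut.negO_minus_iff hodd (k + 1) a b hab, qMinus_coe] at key
  exact key

end Cfsg.Agent.S2727
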