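import Cfsg.Statements.S2728
import Cfsg.Agent.Lib.Helper16.POAut10
import Cfsg.Agent.Lib.Helper16.POAut5

set_option autoImplicit false

open Cfsg

namespace Cfsg.Agent.S2728

open Cfsg.Agent.Lib.Helper16 Cfsg.Agent.Lib.Helper6

theorem result {F : Type*} [Field F] [Fintype F] (hodd : Odd (Fintype.card F)) {m : ℕ} (hm : 3 ≤ m) (a b : F) (hab : (∀ z₁ z₂ : F, z₁ ^ 2 + a * z₁ * z₂ + b * z₂ ^ 2 = 0 → z₁ = 0 ∧ z₂ = 0)) :
    ((Even m ∧ Fintype.card F % 4 = 3) → (∃ φ : ↥(Cfsg.pgoAut F (Cfsg.quadFormMinus m F a b)) →* DihedralGroup 4, Function.Surjective φ ∧ φ.ker = (Cfsg.Inn (Cfsg.POmega F (Cfsg.quadFormMinus m F a b))).subgroupOf (Cfsg.pgoAut F (Cfsg.quadFormMinus m F a b)))) ∧ (¬ (Even m ∧ Fintype.card F % 4 = 3) → (∃ φ : ↥(Cfsg.pgoAut F (Cfsg.quadFormMinus m F a b)) →* Multiplicative (ZMod 2 × ZMod 2), Function.Surjective φ ∧ φ.ker = (Cfsg.Inn (Cfsg.POmega F (Cfsg.quadFormMinus m F a b))).subgroupOf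 (Cfsg.pgoAut F (Cfsg.quadFormMinus m F a b)))) := by
  have h2 := two_ne_zero_of_odd_card hodd
  have hQ : (QuadraticMap.polarBilin (qMinus m F a b)).Nondegenerate := qMinus_nondeg a b hab
  obtain ⟨e, f, hp⟩ : ∃ e f, HPair (qMinus m F a b) e f := by
    obtain ⟨k, rfl⟩ : ∃ k, m = k + 1 := ⟨m - 1, by omega⟩
    obtain ⟨e, f, hp, -⟩ := (qMinus_wtype (m := k + 1) (F := F) a b hab).succ
    exact ⟨e, f, hp⟩
  have hfr : Module.finrank F ((Fin m ⊕ Fin m) ⊕ Fin 2 → F) = 2 * m + 2 := finrank_minus'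
  obtain ⟨l, hl0, hl⟩ := exists_nonsquare_of_two_ne_zero (F := F) h2
  obtain ⟨d, hd⟩ := POAut.exists_sim_minus (F := F) m a b hab l hl0
  have hc : Fintype.card ((Fin m ⊕ Fin m) ⊕ Fin 2) = 2 * (m + 1) := by
    rw [Fintype.card_sum, Fintype.card_sum, Fintype.card_fin, Fintype.card_fin]; ring
  have hiff := POAut.negO_minus_iff hodd m a b hab
  rw [← qMinus_coe]
  constructor
  · intro h
    exact POAut.pgo_mod_inn_d8 h2 hQ hp (by omega) (m + 1) hc d (by rw [hd]; exact hl) (hiff.2 h)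
  · intro h
    exact POAut.pgo_mod_inn_klein h2 hQ hp (by omega) (m + 1) hc d (by rw [hd]; exact hl)
      (fun hn => h (hiff.1 hn))

end Cfsg.Agent.S2728
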