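import Cfsg.Statements.S2729
import Cfsg.Agent.Lib.Helper16.POAut17

set_option autoImplicit false

open Cfsg

namespace Cfsg.Agent.S2729

open Cfsg.Agent.Lib.Helper16 Cfsg.Agent.Lib.Helper6

theorem result {F : Type*} [Field F] [Fintype F] (hodd : Odd (Fintype.card F)) {m : ℕ} (hm : 3 ≤ m) (a b : F) (hab : (∀ z₁ z₂ : F, z₁ ^ 2 + a * z₁ * z₂ + b * z₂ ^ 2 = 0 → z₁ = 0 ∧ z₂ = 0)) :
    ((Even m ∧ Fintype.card F % 4 = 3) → (∃ φ : ↥(Cfsg.inndiagPOmegaMinus m F a b) →* Multiplicative (ZMod 4), Function.Surjective φ ∧ φ.ker = (Cfsg.Inn (Cfsg.POmega F (Cfsg.quadFormMinus m F a b))).subgroupOf (Cfsg.inndiagPOmegaMinus m F a b))) ∧ (¬ (Even m ∧ Fintype.card F % 4 = 3) → (∃ φ : ↥(Cfsg.inndiagPOmegaMinus m F a b) →* Multiplicative (ZMod 2), Function.Surjective φ ∧ φ.ker = (Cfsg.Inn (Cfsg.POmega F (Cfsg.quadFormMinus m F a b))).subgroupOf (Cfsg.inndiagPOmegaMinus m F a b))) := by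
  have h2 := two_ne_zero_of_odd_card hodd
  have hQ : (QuadraticMap.polarBilin (qMinus m F a b)).Nondegenerate := qMinus_nondeg a b hab
  obtain ⟨e, f, hp⟩ : ∃ e f, HPair (qMinus m F a b) e f := by
    obtain ⟨k, rfl⟩ : ∃ k, m = k + 1 := ⟨m - 1, by omega⟩
    obtain ⟨e, f, hp, -⟩ := (qMinus_wtype (m := k + 1) (F := F) a b hab).succ
    exact ⟨e, f, hp⟩
  have hfr : Module.finrank F ((Fin m ⊕ Fin m) ⊕ Fin 2 → F) = 2 * m + 2 := finrank_minus'
  obtain ⟨l, hl0, hl⟩ := exists_nonsquare_of_two_ne_zero (F := F) h2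
  obtain ⟨v0, hv0⟩ := represents_all (qMinus m F a b) hQ (by omega) 1 one_ne_zero
  have h0 : qMinus m F a b v0 ≠ 0 := by rw [hv0]; exact one_ne_zero
  obtain ⟨g₀, hg1, hg2, hg3⟩ := POAut.exists_swap_minus h2 (by omega) a b hab h0 l hl0
  have hc : Fintype.card ((Fin m ⊕ Fin m) ⊕ Fin 2) = 2 * (m + 1) := by
    rw [Fintype.card_sum, Fintype.card_sum, Fintype.card_fin, Fintype.card_fin]; ring
  have hiff := POAut.negO_minus_iff hodd m a b hab
  have hID : inndiagPOmegaMinus m F a b = (qMinus_coe m F a b) ▸ POAut.IDaut h0 (m + 1) := by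
    rw [← POAut.inndiag_minus_eq a b hodd hab h0]
    have : ∀ (Q' : ((Fin m ⊕ Fin m) ⊕ Fin 2 → F) → F) (hQ' : Q' = quadFormMinus m F a b),
        inndiagPOmegaMinus m F a b = hQ' ▸ autSubgroupOf (fun β : POmega F Q' ≃* POmega F Q' =>
      ∃ g : GL ((Fin m ⊕ Fin m) ⊕ Fin 2) F, g ∈ Geo.quadSimilarityGroup (F := F) Q' ∧
        PreservesSingularClassesMinus m a b
          (g : Matrix ((Fin m ⊕ Fin m) ⊕ Fin 2) ((Fin m ⊕ Fin m) ⊕ Fin 2) F) ∧
        IsInducedBySemilinearPOmega Q' g (RingEquiv.refl F) β) := by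
      intro Q' hQ'
      subst hQ'
      rfl
    exact this _ (qMinus_coe m F a b)
  have key := POAut.id_structure h2 hQ hp (by omega) hv0 h0 (m + 1) hc g₀ (by rw [hg1]; exact hl) l hg2
  have main : ∀ (Q' : ((Fin m ⊕ Fin m) ⊕ Fin 2 → F) → F) (hQ' : Q' = quadFormMinus m F a b)
      (I : Subgroup (MulAut (POmega F Q'))) (M : Type) [Group M],
      (∃ φ : ↥I →* M, Function.Surjective φ ∧ φ.ker = (Inn (POmega F Q')).subgroupOf I) →
      ∃ φ : ↥(hQ' ▸ I : Subgroup (MulAut (POmega F (quadFormMinus m F a b)))) →* M,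
        Function.Surjective φ ∧
          φ.ker = (Inn (POmega F (quadFormMinus m F a b))).subgroupOf (hQ' ▸ I) := by
    intro Q' hQ' I M _ h
    subst hQ'
    exact h
  rw [hID]
  refine ⟨?_, ?_⟩
  · intro h
    exact main _ (qMinus_coe m F a b) _ _ (key.2.2 (hiff.2 h) (hg3 h.1))
  · intro h
    exact main _ (qMinus_coe m F a b) _ _ (key.1 (fun hn => h (hiff.1 hn)))

end Cfsg.Agent.S2729
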