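import Cfsg.Statements.S2738
import Mathlib
import Cfsg.Agent.Lib.Helper12.SLn
import Cfsg.Agent.Lib.Helper12.GLCard

set_option autoImplicit false
open Cfsg

namespace Cfsg.Agent.S2738

open scoped commutatorElement

/-- The special linear group SL(3, 4) has centre of order 3 and does not split over it: no subgroup is a complement to the centre (so SL(3, 4) is a non-split central extension of PSL(3, 4) by a group of order 3). -/
theorem result (F : Type*) [Field F] [Fintype F] (hF : Fintype.card F = 4) : Nat.card ↥(Subgroup.center (Matrix.SpecialLinearGroup (Fin 3) F)) = 3 ∧ ¬ ∃ K : Subgroup (Matrix.SpecialLinearGroup (Fin 3) F), Subgroup.IsComplement' (Subgroup.center (Matrix.SpecialLinearGroup (Fin 3) F)) K := by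
  classical
  have hc : Nat.card ↥(Subgroup.center (Matrix.SpecialLinearGroup (Fin 3) F)) = 3 := by
    rw [Cfsg.Agent.Lib.Helper12.card_center_SL 3 (by norm_num),
      Cfsg.Agent.Lib.Helper12.card_units_eq, hF]
    norm_num
  refine ⟨hc, ?_⟩
  rintro ⟨K, hK⟩
  have hKtop : K = ⊤ := by
    rw [eq_top_iff, ← Cfsg.Agent.Lib.Helper12.sl_commutator_eq_top (F := F) 3 (by norm_num),
      commutator_def, Subgroup.commutator_le]
    intro x _ y _
    obtain ⟨⟨⟨z1, hz1⟩, ⟨k1, hk1⟩⟩, hx, -⟩ := (Subgroup.isComplement_iff_existsUnique.mp hK) x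
    obtain ⟨⟨⟨z2, hz2⟩, ⟨k2, hk2⟩⟩, hy, -⟩ := (Subgroup.isComplement_iff_existsUnique.mp hK) y
    simp only at hx hy
    have c1 := Subgroup.mem_center_iff.mp hz1
    have c2 := Subgroup.mem_center_iff.mp hz2
    have : ⁅x, y⁆ = ⁅k1, k2⁆ := by
      rw [← hx, ← hy, commutatorElement_def, commutatorElement_def]
      calc z1 * k1 * (z2 * k2) * (z1 * k1)⁻¹ * (z2 * k2)⁻¹
          = z1 * (k1 * z2) * k2 * k1⁻¹ * (z1⁻¹ * k2⁻¹) * z2⁻¹ := by group
        _ = z1 * (z2 * k1) * k2 * k1⁻¹ * (z1⁻¹ * k2⁻¹) * z2⁻¹ := by rw [c2 k1]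
        _ = (z1 * z2) * ((k1 * k2 * k1⁻¹) * z1⁻¹) * k2⁻¹ * z2⁻¹ := by group
        _ = (z1 * z2) * (z1⁻¹ * (k1 * k2 * k1⁻¹)) * k2⁻¹ * z2⁻¹ := by
            rw [Subgroup.mem_center_iff.mp (Subgroup.inv_mem _ hz1) (k1 * k2 * k1⁻¹)]
        _ = (z1 * z2 * z1⁻¹) * ((k1 * k2 * k1⁻¹ * k2⁻¹) * z2⁻¹) := by group
        _ = (z1 * z2 * z1⁻¹) * (z2⁻¹ * (k1 * k2 * k1⁻¹ * k2⁻¹)) := by
            rw [Subgroup.mem_center_iff.mp (Subgroup.inv_mem _ hz2) (k1 * k2 * k1⁻¹ * k2⁻¹)]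
        _ = (z1 * z2) * z1⁻¹ * z2⁻¹ * (k1 * k2 * k1⁻¹ * k2⁻¹) := by group
        _ = (z2 * z1) * z1⁻¹ * z2⁻¹ * (k1 * k2 * k1⁻¹ * k2⁻¹) := by rw [c2 z1]
        _ = k1 * k2 * k1⁻¹ * k2⁻¹ := by group
    rw [this]
    exact K.mul_mem (K.mul_mem (K.mul_mem hk1 hk2) (K.inv_mem hk1)) (K.inv_mem hk2)
  have hd := hK.disjoint
  rw [hKtop, disjoint_top] at hd
  rw [hd] at hc
  simp at hc


end Cfsg.Agent.S2738
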