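import Cfsg.Statements.S2739
import Cfsg.Agent.S0819

set_option autoImplicit false
open scoped Pointwise
open Cfsg

namespace Cfsg.Agent.S2739

open Matrix Polynomial

theorem key {F : Type*} [Field F] (h3 : ∀ a : F, a ≠ 0 → a ^ 3 = 1)
    (M : Matrix (Fin 3) (Fin 3) F) (hdet : M.det = 1) (lam : F) (hlam : M ^ 3 = lam • 1)
    (hns : ∀ r : F, M ≠ r • 1) : M.charpoly = X ^ 3 - 1 := by
  obtain ⟨t, s, hp⟩ := Cfsg.Agent.S0819.charpoly_form M hdet
  have hCH := Matrix.aeval_self_charpoly M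
  rw [hp] at hCH
  simp only [map_sub, map_mul, map_pow, aeval_X, aeval_C, map_one, Algebra.algebraMap_eq_smul_one,
    smul_mul_assoc, one_mul] at hCH
  have ns : ∀ x y : F, x • M + y • (1 : Matrix (Fin 3) (Fin 3) F) = 0 → x = 0 ∧ y = 0 := by
    intro x y h
    have hx : x = 0 := by
      by_contra hx
      apply hns (-(y / x))
      have h1 : x • M = x • ((-(y / x)) • (1 : Matrix (Fin 3) (Fin 3) F)) := by
        rw [smul_smul]
        have : x * -(y / x) = -y := by field_simp
        rw [this, neg_smul]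
        exact eq_neg_of_add_eq_zero_left h
      exact smul_right_injective _ hx h1
    refine ⟨hx, ?_⟩
    rw [hx, zero_smul, zero_add] at h
    have := congrFun (congrFun h 0) 0
    simpa using this
  have E1 : t • M ^ 2 + s • M + (1 - lam) • (1 : Matrix (Fin 3) (Fin 3) F) = 0 := by
    rw [hlam] at hCH
    rw [sub_smul, one_smul]
    rw [← neg_eq_zero, ← hCH]
    abel
  have E2 : (t * lam) • (1 : Matrix (Fin 3) (Fin 3) F) + s • M ^ 2 + (1 - lam) • M = 0 := by
    have := congrArg (fun Z => Z * M) E1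
    simp only [add_mul, smul_mul_assoc, one_mul, zero_mul, ← pow_succ] at this
    norm_num at this
    rw [hlam, smul_smul] at this
    rw [pow_two]
    exact this
  have E3 : (s ^ 2 - t * (1 - lam)) • M + (s * (1 - lam) - t ^ 2 * lam) •
      (1 : Matrix (Fin 3) (Fin 3) F) = 0 := by
    have h1 : s • (t • M ^ 2 + s • M + (1 - lam) • (1 : Matrix (Fin 3) (Fin 3) F)) -
        t • ((t * lam) • (1 : Matrix (Fin 3) (Fin 3) F) + s • M ^ 2 + (1 - lam) • M) = 0 := by
      rw [E1, E2]; simp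
    rw [← h1]
    module
  obtain ⟨e1, e2⟩ := ns _ _ E3
  have hts : t = 0 ∧ s = 0 := by
    by_cases ht : t = 0
    · refine ⟨ht, ?_⟩
      rw [ht] at e1
      have : s ^ 2 = 0 := by linear_combination e1
      exact pow_eq_zero_iff (by norm_num) |>.mp this
    · exfalso
      by_cases hs : s = 0
      · rw [hs] at e1 e2
        have h1 : t * (1 - lam) = 0 := by linear_combination -e1
        have h2 : 1 - lam = 0 := (mul_eq_zero.mp h1).resolve_left ht
        have h4 : t ^ 2 * lam = 0 := by linear_combination -e2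
        have h5 : lam = 1 := by linear_combination -h2
        rw [h5, mul_one] at h4
        exact ht (pow_eq_zero_iff (by norm_num) |>.mp h4)
      · have hs3 := h3 s hs
        have ht3 := h3 t ht
        have h1 : s ^ 3 = t ^ 3 * lam := by linear_combination s * e1 + t * e2
        rw [hs3, ht3, one_mul] at h1
        rw [← h1] at e1
        have : s ^ 2 = 0 := by linear_combination e1
        exact hs (pow_eq_zero_iff (by norm_num) |>.mp this)
  rw [hp, hts.1, hts.2]
  simp

theorem eigen {F : Type*} [Field F] (M : Matrix (Fin 3) (Fin 3) F) (hM : M.charpoly = X ^ 3 - 1)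
    (μ : F) (hμ : μ ^ 3 = 1) : ∃ v : Fin 3 → F, v ≠ 0 ∧ M *ᵥ v = μ • v := by
  have h1 : (Matrix.scalar (Fin 3) μ - M).det = 0 := by
    rw [← Matrix.eval_charpoly, hM]
    simp [hμ]
  obtain ⟨v, hv, hv2⟩ := Matrix.exists_mulVec_eq_zero_iff.mpr h1
  refine ⟨v, hv, ?_⟩
  rw [Matrix.sub_mulVec, sub_eq_zero] at hv2
  rw [← hv2]
  ext i
  simp [Matrix.mulVec, dotProduct, Matrix.scalar_apply, Matrix.diagonal_apply]

theorem diag {F : Type*} [Field F] (μ : Fin 3 → F) (hμ : Function.Injective μ)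
    (hμ3 : ∀ i, μ i ^ 3 = 1) (A : Matrix.SpecialLinearGroup (Fin 3) F)
    (hA : A.1.charpoly = X ^ 3 - 1) :
    ∃ P : Matrix.SpecialLinearGroup (Fin 3) F, A.1 * P.1 = P.1 * Matrix.diagonal μ := by
  have hex := fun i => eigen A.1 hA (μ i) (hμ3 i)
  choose v hv0 hv using hex
  have hli : LinearIndependent F v := by
    apply Module.End.eigenvectors_linearIndependent' (Matrix.mulVecLin A.1) μ hμ v
    intro i
    rw [Module.End.hasEigenvector_iff, Module.End.mem_eigenspace_iff]
    exact ⟨hv i, hv0 i⟩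
  obtain ⟨P₀, hP₀⟩ : ∃ P₀ : Matrix (Fin 3) (Fin 3) F, P₀ = Matrix.of (fun i j => v j i) :=
    ⟨_, rfl⟩
  have hcol : P₀.col = v := by
    rw [hP₀]; rfl
  have hunit : IsUnit P₀ := by
    rw [← Matrix.linearIndependent_cols_iff_isUnit, hcol]
    exact hli
  have hdet : P₀.det ≠ 0 := ((Matrix.isUnit_iff_isUnit_det _).mp hunit).ne_zero
  have hAP : A.1 * P₀ = P₀ * Matrix.diagonal μ := by
    ext i j
    rw [Matrix.mul_diagonal]
    have := congrFun (hv j) i
    rw [hP₀]
    simp only [Matrix.mulVec, dotProduct, Pi.smul_apply, smul_eq_mul] at this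
    simp only [Matrix.mul_apply, Matrix.of_apply]
    rw [this, mul_comm]
  refine ⟨⟨P₀ * Matrix.diagonal ![P₀.det⁻¹, 1, 1], ?_⟩, ?_⟩
  · rw [Matrix.det_mul, Matrix.det_diagonal, Fin.prod_univ_three]
    simp [hdet]
  · show A.1 * (P₀ * _) = P₀ * _ * _
    rw [← Matrix.mul_assoc, hAP, Matrix.mul_assoc, Matrix.mul_assoc, Matrix.diagonal_mul_diagonal,
      Matrix.diagonal_mul_diagonal]
    congr 2
    funext i
    exact mul_comm _ _

theorem toStd {F : Type*} [Field F] (h3 : ∀ a : F, a ≠ 0 → a ^ 3 = 1)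
    (μ : Fin 3 → F) (hμ : Function.Injective μ)
    (hμ3 : ∀ i, μ i ^ 3 = 1) (d : Matrix.SpecialLinearGroup (Fin 3) F)
    (hd : d.1 = Matrix.diagonal μ)
    (X : Subgroup (Matrix.ProjectiveSpecialLinearGroup (Fin 3) F)) (hX : Nat.card ↥X = 3) :
    ∃ g : Matrix.ProjectiveSpecialLinearGroup (Fin 3) F,
      MulAut.conj g • X = Subgroup.zpowers (QuotientGroup.mk d) := by
  have : Fact (Nat.Prime 3) := ⟨by norm_num⟩
  have hcyc : IsCyclic X := isCyclic_of_prime_card hX
  obtain ⟨⟨x, hxX⟩, hx⟩ := hcyc.exists_generator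
  have hXz : X = Subgroup.zpowers x := by
    ext y
    constructor
    · intro hy
      obtain ⟨k, hk⟩ := Subgroup.mem_zpowers_iff.mp (hx ⟨y, hy⟩)
      rw [Subgroup.mem_zpowers_iff]
      refine ⟨k, ?_⟩
      have := congrArg Subtype.val hk
      simpa using this
    · intro hy
      exact (Subgroup.zpowers_le.mpr hxX) hy
  have hx3 : x ^ 3 = 1 := by
    have h := pow_card_eq_one' (G := X) (x := ⟨x, hxX⟩)
    rw [hX] at h
    have := congrArg Subtype.val h
    simpa using this
  have hx1 : x ≠ 1 := by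
    intro h
    rw [h, Subgroup.zpowers_one_eq_bot] at hXz
    rw [hXz] at hX
    simp at hX
  obtain ⟨A, rfl⟩ := QuotientGroup.mk_surjective x
  have hA3 : A ^ 3 ∈ Subgroup.center (Matrix.SpecialLinearGroup (Fin 3) F) := by
    rw [← QuotientGroup.eq_one_iff]
    exact hx3
  have hA1 : A ∉ Subgroup.center (Matrix.SpecialLinearGroup (Fin 3) F) := by
    rw [← QuotientGroup.eq_one_iff]
    exact hx1
  obtain ⟨r, hr, hrA⟩ := Matrix.SpecialLinearGroup.mem_center_iff.mp hA3
  have hlam : A.1 ^ 3 = r • 1 := by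
    have : (A ^ 3).1 = A.1 ^ 3 := rfl
    rw [← this, ← hrA]
    ext i j
    simp [Matrix.scalar_apply, Matrix.diagonal_apply, Matrix.one_apply]
  have hns : ∀ r : F, A.1 ≠ r • 1 := by
    intro r hr
    apply hA1
    rw [Matrix.SpecialLinearGroup.mem_center_iff]
    refine ⟨r, ?_, ?_⟩
    · have h := A.2
      rw [hr, Matrix.det_smul, Matrix.det_one, mul_one] at h
      exact h
    · rw [hr]
      ext i j
      simp [Matrix.scalar_apply, Matrix.diagonal_apply, Matrix.one_apply]
  have hcp := key h3 A.1 A.2 r hlam hns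
  obtain ⟨P, hP⟩ := diag μ hμ hμ3 A hcp
  have hPd : P⁻¹ * A * P = d := by
    have : A * P = P * d := by
      apply Subtype.ext
      show A.1 * P.1 = P.1 * d.1
      rw [hd]; exact hP
    rw [mul_assoc, this, inv_mul_cancel_left]
  refine ⟨QuotientGroup.mk P⁻¹, ?_⟩
  rw [hXz]
  show Subgroup.map (MulAut.conj _).toMonoidHom _ = _
  rw [MonoidHom.map_zpowers]
  congr 1
  show MulAut.conj _ _ = _
  rw [MulAut.conj_apply, ← hPd]
  simp

/-- In the projective special linear group PSL(3, 4) all subgroups of order 3 are conjugate. -/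
theorem result (F : Type*) [Field F] [Fintype F] (hF : Fintype.card F = 4) (X Y : Subgroup (Matrix.ProjectiveSpecialLinearGroup (Fin 3) F)) (hX : Nat.card ↥X = 3) (hY : Nat.card ↥Y = 3) : ∃ g : Matrix.ProjectiveSpecialLinearGroup (Fin 3) F, MulAut.conj g • X = Y := by
  obtain ⟨h2, ω, hω, hall⟩ := Cfsg.Agent.S0819.f4 hF
  have hω3 : ω ^ 3 = 1 := by
    linear_combination (ω + 1) * hω + ω * h2
  have h3 : ∀ a : F, a ≠ 0 → a ^ 3 = 1 := by
    intro a ha
    rcases hall a with h | h | h | h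
    · exact absurd h ha
    · rw [h]; simp
    · rw [h]; exact hω3
    · rw [h]
      linear_combination (ω + 4) * hω + (4 * ω + 2) * h2
  have hω0 : ω ≠ 0 := by
    intro h
    rw [h] at hω
    simp at hω
  have hω1 : ω ≠ 1 := by
    intro h
    rw [h] at hω
    have : (1 : F) = 0 := by linear_combination h2 + hω
    exact one_ne_zero this
  have hμ : Function.Injective ![1, ω, ω + 1] := by
    intro i j hij
    fin_cases i <;> fin_cases j <;> simp at hij ⊢
    · exact hω1 hij.symm
    · exact hω0 hij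
    · exact hω1 hij
    · exact hω0 hij
  have hμ3 : ∀ i, (![1, ω, ω + 1] : Fin 3 → F) i ^ 3 = 1 := by
    intro i
    fin_cases i
    · simp
    · exact hω3
    · show (ω + 1) ^ 3 = 1
      linear_combination (ω + 4) * hω + (4 * ω + 2) * h2
  have hdet : (Matrix.diagonal ![1, ω, ω + 1]).det = 1 := by
    rw [Matrix.det_diagonal, Fin.prod_univ_three]
    show 1 * ω * (ω + 1) = 1
    linear_combination hω + ω * h2
  obtain ⟨g₁, hg₁⟩ := toStd h3 _ hμ hμ3 ⟨_, hdet⟩ rfl X hX
  obtain ⟨g₂, hg₂⟩ := toStd h3 _ hμ hμ3 ⟨_, hdet⟩ rfl Y hY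
  refine ⟨g₂⁻¹ * g₁, ?_⟩
  rw [map_mul, mul_smul, hg₁, ← hg₂, map_inv, inv_smul_smul]

end Cfsg.Agent.S2739
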