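import Cfsg.Statements.S2758
import Mathlib
import Cfsg.Agent.Lib.Helper14.DihRec
import Cfsg.Agent.Lib.Helper5.Card
import Cfsg.Agent.Lib.Helper10.PCore
import Cfsg.Agent.Lib.Helper17.Core

set_option autoImplicit false
open Cfsg

namespace Cfsg.Agent.S2758

open DihedralGroup

theorem AtoB {G : Type*} [Group G] [Finite G] {p : ℕ} [Fact p.Prime]
    (h : ∃ (x : G) (P : Subgroup G), (∃ k : ℕ, orderOf x = 2 ^ k) ∧ IsPGroup p ↥P ∧
      x ∈ Subgroup.normalizer (P : Set G) ∧ x ∉ Subgroup.centralizer (P : Set G)) :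
    ∃ x y : G, (∃ k : ℕ, orderOf x = 2 ^ k) ∧ (∃ k : ℕ, orderOf y = p ^ k) ∧ y ≠ 1 ∧
      x * y * x⁻¹ = y⁻¹ := by
  obtain ⟨x, P, ⟨k, hk⟩, hP, hxN, hxC⟩ := h
  classical
  have hex : ∃ a : ℕ, x ^ 2 ^ a ∈ Subgroup.centralizer (P : Set G) :=
    ⟨k, by rw [← hk, pow_orderOf_eq_one]; exact one_mem _⟩
  have ha := Nat.find_spec hex
  have ha0 : Nat.find hex ≠ 0 := by
    intro h0
    rw [h0] at ha
    simp only [pow_zero, pow_one] at ha
    exact hxC ha
  obtain ⟨a, hae⟩ := Nat.exists_eq_succ_of_ne_zero ha0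
  have hmin : x ^ 2 ^ a ∉ Subgroup.centralizer (P : Set G) :=
    Nat.find_min hex (by omega)
  rw [hae] at ha
  set x' := x ^ 2 ^ a with hx'
  have hx'2 : x' * x' ∈ Subgroup.centralizer (P : Set G) := by
    have e : x' * x' = x ^ 2 ^ (a + 1) := by rw [hx', ← pow_two, ← pow_mul, ← pow_succ]
    rw [e]; exact ha
  have hx'N : x' ∈ Subgroup.normalizer (P : Set G) := Subgroup.pow_mem _ hxN _
  obtain ⟨u, hu, hne⟩ : ∃ u ∈ P, x' * u * x'⁻¹ ≠ u := by
    by_contra hcon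
    push Not at hcon
    apply hmin
    rw [Subgroup.mem_centralizer_iff]
    intro u hu
    have := hcon u hu
    calc u * x' = (x' * u * x'⁻¹) * x' := by rw [this]
      _ = x' * u := by group
  have hv : x' * u * x'⁻¹ ∈ P := (Subgroup.mem_normalizer_iff.mp hx'N u).mp hu
  refine ⟨x', u⁻¹ * (x' * u * x'⁻¹), ?_, ?_, ?_, ?_⟩
  · have hd : orderOf x' ∣ 2 ^ k := by rw [← hk]; exact orderOf_pow_dvd _
    obtain ⟨j, -, hj⟩ := (Nat.dvd_prime_pow Nat.prime_two).mp hd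
    exact ⟨j, hj⟩
  · have hy : u⁻¹ * (x' * u * x'⁻¹) ∈ P := P.mul_mem (P.inv_mem hu) hv
    obtain ⟨j, hj⟩ := (IsPGroup.iff_orderOf.mp hP) ⟨_, hy⟩
    exact ⟨j, by rw [← hj, Subgroup.orderOf_mk]⟩
  · intro e
    apply hne
    have := congrArg (fun z => u * z) e
    simpa using this
  · have h2 := (Subgroup.mem_centralizer_iff.mp hx'2) u hu
    have h3 : x' * (x' * u * x'⁻¹) * x'⁻¹ = u := by
      calc x' * (x' * u * x'⁻¹) * x'⁻¹ = (x' * x' * u) * x'⁻¹ * x'⁻¹ := by group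
        _ = (u * (x' * x')) * x'⁻¹ * x'⁻¹ := by rw [h2]
        _ = u := by group
    calc x' * (u⁻¹ * (x' * u * x'⁻¹)) * x'⁻¹
        = (x' * u * x'⁻¹)⁻¹ * (x' * (x' * u * x'⁻¹) * x'⁻¹) := by group
      _ = (x' * u * x'⁻¹)⁻¹ * u := by rw [h3]
      _ = (u⁻¹ * (x' * u * x'⁻¹))⁻¹ := by group

theorem sr_not_mem {p : ℕ} [NeZero p] (i : ZMod p) :
    (sr i : DihedralGroup p) ∉ Subgroup.zpowers (r 1 : DihedralGroup p) := by
  intro h
  rw [← mem_powers_iff_mem_zpowers, Submonoid.mem_powers_iff] at h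
  obtain ⟨n, hn⟩ := h
  rw [r_one_pow] at hn
  exact absurd hn (by simp)

theorem r_mem {p : ℕ} [NeZero p] (i : ZMod p) :
    (r i : DihedralGroup p) ∈ Subgroup.zpowers (r 1 : DihedralGroup p) := by
  refine ⟨(i.val : ℤ), ?_⟩
  simp only [zpow_natCast]
  rw [r_one_pow, ZMod.natCast_zmod_val]

theorem InvToA' {K : Type*} [Group K] [Finite K] {p : ℕ} [hp : Fact p.Prime] (hp2 : p ≠ 2)
    (f : K →* DihedralGroup p) (hf : Function.Surjective f) :
    ∃ (x : K) (P : Subgroup K), (∃ k : ℕ, orderOf x = 2 ^ k) ∧ IsPGroup p ↥P ∧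
      x ∈ Subgroup.normalizer (P : Set K) ∧ x ∉ Subgroup.centralizer (P : Set K) := by
  haveI : NeZero p := ⟨hp.out.ne_zero⟩
  haveI hZn : (Subgroup.zpowers (r 1 : DihedralGroup p)).Normal := by
    apply Subgroup.normal_of_index_eq_two
    have h1 := (Subgroup.zpowers (r 1 : DihedralGroup p)).card_mul_index
    rw [Nat.card_zpowers, orderOf_r_one, nat_card, mul_comm 2 p] at h1
    exact Nat.eq_of_mul_eq_mul_left hp.out.pos h1
  set M : Subgroup K := (Subgroup.zpowers (r 1 : DihedralGroup p)).comap f with hM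
  haveI : M.Normal := by rw [hM]; infer_instance
  -- a p-element w of M with f w = r j, j ≠ 0
  obtain ⟨r', hr'⟩ := hf (r 1)
  obtain ⟨b, m', hm', hbm⟩ := Nat.exists_eq_pow_mul_and_not_dvd (orderOf_pos r').ne' p hp.out.ne_one
  have hw_ord : orderOf (r' ^ m') = p ^ b := by
    rw [orderOf_pow_of_dvd (by rintro rfl; simp at hm') (by rw [hbm]; exact Dvd.intro_left _ rfl), hbm]
    exact Nat.mul_div_cancel _ (Nat.pos_of_ne_zero (by rintro rfl; simp at hm'))
  have hfw : f (r' ^ m') = r (m' : ZMod p) := by rw [map_pow, hr', r_one_pow]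
  have hm0 : (m' : ZMod p) ≠ 0 := by rwa [Ne, ZMod.natCast_eq_zero_iff]
  have hwM : r' ^ m' ∈ M := by
    rw [hM, Subgroup.mem_comap, hfw]; exact r_mem _
  have hwp : IsPGroup p (Subgroup.zpowers (⟨r' ^ m', hwM⟩ : M)) := by
    rw [IsPGroup.iff_card]
    exact ⟨b, by rw [Nat.card_zpowers, Subgroup.orderOf_mk, hw_ord]⟩
  obtain ⟨P₀, hP₀⟩ := hwp.exists_le_sylow
  have hfr := Sylow.normalizer_sup_eq_top P₀
  obtain ⟨t, ht, htM⟩ : ∃ t ∈ Subgroup.normalizer
      (((P₀ : Subgroup M).map M.subtype : Subgroup K) : Set K), t ∉ M := by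
    by_contra hcon
    push Not at hcon
    have hle : Subgroup.normalizer (((P₀ : Subgroup M).map M.subtype : Subgroup K) : Set K) ≤ M :=
      hcon
    rw [sup_eq_right.mpr hle] at hfr
    obtain ⟨s', hs'⟩ := hf (sr 0)
    have : s' ∈ M := by rw [hfr]; trivial
    rw [hM, Subgroup.mem_comap, hs'] at this
    exact sr_not_mem _ this
  obtain ⟨i, hi⟩ : ∃ i, f t = sr i := by
    cases hft : f t with
    | r j =>
      exfalso
      apply htM
      rw [hM, Subgroup.mem_comap, hft]; exact r_mem _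
    | sr i => exact ⟨i, rfl⟩
  obtain ⟨a, m, hmodd, ham⟩ := Nat.exists_eq_two_pow_mul_odd (orderOf_pos t).ne'
  have hm_ne : m ≠ 0 := by rintro rfl; simp at hmodd
  have hx_ord : orderOf (t ^ m) = 2 ^ a := by
    rw [orderOf_pow_of_dvd hm_ne (by rw [ham]; exact Dvd.intro_left _ rfl), ham]
    exact Nat.mul_div_cancel _ (Nat.pos_of_ne_zero hm_ne)
  have hfx : f (t ^ m) = sr i := by
    obtain ⟨l, rfl⟩ := hmodd
    rw [map_pow, hi, pow_succ, pow_mul, pow_two, sr_mul_sr, sub_self]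
    have : (r 0 : DihedralGroup p) = 1 := rfl
    rw [this, one_pow, one_mul]
  refine ⟨t ^ m, (P₀ : Subgroup M).map M.subtype, ⟨a, hx_ord⟩, P₀.2.map _,
    Subgroup.pow_mem _ ht _, ?_⟩
  intro hc
  have hwQ : r' ^ m' ∈ (P₀ : Subgroup M).map M.subtype :=
    ⟨⟨r' ^ m', hwM⟩, hP₀ (Subgroup.mem_zpowers _), rfl⟩
  have h1 := (Subgroup.mem_centralizer_iff.mp hc) _ hwQ
  have h2 := congrArg f h1
  rw [map_mul, map_mul, hfw, hfx, r_mul_sr, sr_mul_r] at h2
  have h3 : i - (m' : ZMod p) = i + m' := by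
    injection h2
  have h4 : (2 : ZMod p) * m' = 0 := by
    linear_combination (-1 : ZMod p) * h3
  rcases mul_eq_zero.mp h4 with h5 | h5
  · have : ((2 : ℕ) : ZMod p) = 0 := by exact_mod_cast h5
    rw [ZMod.natCast_eq_zero_iff] at this
    exact hp2 ((Nat.prime_dvd_prime_iff_eq hp.out Nat.prime_two).mp this)
  · exact hm0 h5

theorem BtoInv {G : Type*} [Group G] [Finite G] {p : ℕ} [hp : Fact p.Prime] (hp2 : p ≠ 2)
    (h : ∃ x y : G, (∃ k : ℕ, orderOf x = 2 ^ k) ∧ (∃ k : ℕ, orderOf y = p ^ k) ∧ y ≠ 1 ∧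
      x * y * x⁻¹ = y⁻¹) : Cfsg.Involves (DihedralGroup p) G := by
  haveI : NeZero p := ⟨hp.out.ne_zero⟩
  obtain ⟨x, y₀, ⟨k, hk⟩, ⟨l, hl⟩, hy1, hinv₀⟩ := h
  have hcop2 : Nat.Coprime 2 p := (Nat.coprime_primes Nat.prime_two hp.out).mpr (Ne.symm hp2)
  have hl0 : l ≠ 0 := by
    rintro rfl
    rw [pow_zero, orderOf_eq_one_iff] at hl
    exact hy1 hl
  obtain ⟨l', rfl⟩ := Nat.exists_eq_succ_of_ne_zero hl0
  -- an element of order p inverted by x
  obtain ⟨y, hy, hinv⟩ : ∃ y : G, orderOf y = p ∧ x * y * x⁻¹ = y⁻¹ := by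
    refine ⟨y₀ ^ p ^ l', ?_, ?_⟩
    · rw [orderOf_pow_of_dvd (pow_ne_zero _ hp.out.ne_zero) (by rw [hl]; exact pow_dvd_pow _ (by omega)),
        hl, Nat.succ_eq_add_one, pow_succ]
      exact Nat.mul_div_cancel_left _ (pow_pos hp.out.pos _)
    · rw [← conj_pow, hinv₀, inv_pow]
  have hyne : y ≠ 1 := by
    rintro rfl
    rw [orderOf_one] at hy
    exact hp.out.ne_one hy.symm
  have hk0 : k ≠ 0 := by
    rintro rfl
    rw [pow_zero, orderOf_eq_one_iff] at hk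
    subst hk
    have h1 : y * y = 1 := by
      have : y = y⁻¹ := by simpa using hinv
      calc y * y = y * y⁻¹ := by rw [← this]
        _ = 1 := mul_inv_cancel y
    have h2 : orderOf y ∣ 2 := orderOf_dvd_of_pow_eq_one (by rw [pow_two, h1])
    rw [hy] at h2
    exact hp2 ((Nat.prime_dvd_prime_iff_eq hp.out Nat.prime_two).mp h2)
  obtain ⟨k', rfl⟩ := Nat.exists_eq_succ_of_ne_zero hk0
  have hxN : Subgroup.zpowers x ≤ Subgroup.normalizer ((Subgroup.zpowers y : Subgroup G) : Set G) := by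
    rw [Subgroup.zpowers_le, Cfsg.Agent.Lib.Helper17.mem_normalizer_iff_map_conj,
      MonoidHom.map_zpowers]
    change Subgroup.zpowers (x * y * x⁻¹) = _
    rw [hinv, Subgroup.zpowers_inv]
  have hxK : x ∈ Subgroup.zpowers x ⊔ Subgroup.zpowers y :=
    Subgroup.mem_sup_left (Subgroup.mem_zpowers x)
  have hyK : y ∈ Subgroup.zpowers x ⊔ Subgroup.zpowers y :=
    Subgroup.mem_sup_right (Subgroup.mem_zpowers y)
  have hRK : Subgroup.zpowers (x * x) ≤ Subgroup.zpowers x ⊔ Subgroup.zpowers y := by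
    rw [Subgroup.zpowers_le]; exact Subgroup.mul_mem _ hxK hxK
  have hinv2 : x * y⁻¹ * x⁻¹ = y := by
    have := congrArg (fun z => z⁻¹) hinv
    simp only [mul_inv_rev, inv_inv] at this
    rw [mul_assoc]; exact this
  have hcent : Subgroup.zpowers x ⊔ Subgroup.zpowers y ≤ Subgroup.centralizer ({x * x} : Set G) := by
    refine sup_le ?_ ?_
    · rw [Subgroup.zpowers_le, Subgroup.mem_centralizer_singleton_iff]; group
    · rw [Subgroup.zpowers_le, Subgroup.mem_centralizer_singleton_iff]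
      have e : x * x * y * (x * x)⁻¹ = y := by
        calc x * x * y * (x * x)⁻¹ = x * (x * y * x⁻¹) * x⁻¹ := by group
          _ = y := by rw [hinv, hinv2]
      calc y * (x * x) = (x * x * y * (x * x)⁻¹) * (x * x) := by rw [e]
        _ = x * x * y := by group
  have hnormal : ((Subgroup.zpowers (x * x)).subgroupOf
      (Subgroup.zpowers x ⊔ Subgroup.zpowers y)).Normal := by
    constructor
    intro n hn g
    rw [Subgroup.mem_subgroupOf] at hn ⊢
    obtain ⟨z, hz⟩ := Subgroup.mem_zpowers_iff.mp hn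
    have hc : Commute g.1 (x * x) := Subgroup.mem_centralizer_singleton_iff.mp (hcent g.2)
    have hc2 : Commute g.1 n.1 := by rw [← hz]; exact hc.zpow_right z
    have e : ((g * n * g⁻¹ : ↥(Subgroup.zpowers x ⊔ Subgroup.zpowers y)) : G) = n.1 := by
      simp only [Subgroup.coe_mul, Subgroup.coe_inv]
      rw [hc2.eq]; group
    rw [e]; exact hn
  have hcK : Nat.card ↥(Subgroup.zpowers x ⊔ Subgroup.zpowers y) = 2 ^ (k' + 1) * p := by
    have h1 := Cfsg.Agent.Lib.Helper5.card_sup_mul_card_inf _ _ hxN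
    have hdis : Subgroup.zpowers x ⊓ Subgroup.zpowers y = ⊥ := by
      apply (Subgroup.disjoint_of_coprime_natCard _).eq_bot
      rw [Nat.card_zpowers, Nat.card_zpowers, hk, hy]
      exact Nat.Coprime.pow_left _ hcop2
    rw [hdis, Subgroup.card_bot, mul_one, Nat.card_zpowers, Nat.card_zpowers, hk, hy] at h1
    exact h1
  have hoxx : orderOf (x * x) = 2 ^ k' := by
    rw [← pow_two, orderOf_pow_of_dvd two_ne_zero (by rw [hk]; exact Dvd.intro_left _ (pow_succ 2 k').symm),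
      hk, Nat.succ_eq_add_one, pow_succ]
    exact Nat.mul_div_cancel _ (by norm_num)
  have hidx : Nat.card (↥(Subgroup.zpowers x ⊔ Subgroup.zpowers y) ⧸
      (Subgroup.zpowers (x * x)).subgroupOf (Subgroup.zpowers x ⊔ Subgroup.zpowers y)) = 2 * p := by
    have h1 := Cfsg.Agent.Lib.Helper10.card_mul_relIndex hRK
    rw [Nat.card_zpowers, hoxx, hcK, pow_succ, mul_assoc] at h1
    exact Nat.eq_of_mul_eq_mul_left (pow_pos (by norm_num) k') h1
  refine ⟨Subgroup.zpowers x ⊔ Subgroup.zpowers y, Subgroup.zpowers (x * x), hnormal, ?_⟩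
  have hc1 : (QuotientGroup.mk (⟨y, hyK⟩ : ↥(Subgroup.zpowers x ⊔ Subgroup.zpowers y)) :
      ↥(Subgroup.zpowers x ⊔ Subgroup.zpowers y) ⧸
      (Subgroup.zpowers (x * x)).subgroupOf (Subgroup.zpowers x ⊔ Subgroup.zpowers y)) ≠ 1 := by
    rw [Ne, QuotientGroup.eq_one_iff, Subgroup.mem_subgroupOf]
    intro hm
    have h1 := orderOf_dvd_of_mem_zpowers hm
    rw [hy, hoxx] at h1
    exact hp2 ((Nat.prime_dvd_prime_iff_eq hp.out Nat.prime_two).mp (hp.out.dvd_of_dvd_pow h1))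
  have hc : orderOf (QuotientGroup.mk (⟨y, hyK⟩ : ↥(Subgroup.zpowers x ⊔ Subgroup.zpowers y)) :
      ↥(Subgroup.zpowers x ⊔ Subgroup.zpowers y) ⧸
      (Subgroup.zpowers (x * x)).subgroupOf (Subgroup.zpowers x ⊔ Subgroup.zpowers y)) = p := by
    apply orderOf_eq_prime _ hc1
    rw [← QuotientGroup.mk_pow]
    have : (⟨y, hyK⟩ : ↥(Subgroup.zpowers x ⊔ Subgroup.zpowers y)) ^ p = 1 := by
      apply Subtype.ext
      rw [Subgroup.coe_pow, Subgroup.coe_one]
      change y ^ p = 1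
      rw [← hy, pow_orderOf_eq_one]
    rw [this]; rfl
  have hx2 : (QuotientGroup.mk (⟨x, hxK⟩ : ↥(Subgroup.zpowers x ⊔ Subgroup.zpowers y)) :
      ↥(Subgroup.zpowers x ⊔ Subgroup.zpowers y) ⧸
      (Subgroup.zpowers (x * x)).subgroupOf (Subgroup.zpowers x ⊔ Subgroup.zpowers y)) *
      QuotientGroup.mk (⟨x, hxK⟩ : ↥(Subgroup.zpowers x ⊔ Subgroup.zpowers y)) = 1 := by
    rw [← QuotientGroup.mk_mul, QuotientGroup.eq_one_iff, Subgroup.mem_subgroupOf]
    exact Subgroup.mem_zpowers _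
  apply Cfsg.Agent.Lib.Helper14.nonempty_mulEquiv_dihedral p _ _ hc _ hx2 _ hidx
  · intro hm
    have h1 := orderOf_dvd_of_mem_zpowers hm
    rw [hc] at h1
    have h2 : orderOf (QuotientGroup.mk (⟨x, hxK⟩ : ↥(Subgroup.zpowers x ⊔ Subgroup.zpowers y)) :
      ↥(Subgroup.zpowers x ⊔ Subgroup.zpowers y) ⧸
      (Subgroup.zpowers (x * x)).subgroupOf (Subgroup.zpowers x ⊔ Subgroup.zpowers y)) ∣ 2 :=
      orderOf_dvd_of_pow_eq_one (by rw [pow_two, hx2])
    have h3 := Nat.eq_one_of_dvd_coprimes hcop2 h2 h1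
    rw [orderOf_eq_one_iff, QuotientGroup.eq_one_iff, Subgroup.mem_subgroupOf] at h3
    have h4 := orderOf_dvd_of_mem_zpowers h3
    change orderOf x ∣ _ at h4
    rw [hk, hoxx] at h4
    have := Nat.le_of_dvd (pow_pos (by norm_num) k') h4
    have h5 : 2 ^ k' < 2 ^ (k' + 1) := Nat.pow_lt_pow_right (by norm_num) (by omega)
    omega
  · rw [← QuotientGroup.mk_inv, ← QuotientGroup.mk_mul, ← QuotientGroup.mk_mul,
      ← QuotientGroup.mk_inv]
    congr 1
    exact Subtype.ext hinv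

theorem InvToA {G : Type*} [Group G] [Finite G] {p : ℕ} [hp : Fact p.Prime] (hp2 : p ≠ 2)
    (h : Cfsg.Involves (DihedralGroup p) G) :
    ∃ (x : G) (P : Subgroup G), (∃ k : ℕ, orderOf x = 2 ^ k) ∧ IsPGroup p ↥P ∧
      x ∈ Subgroup.normalizer (P : Set G) ∧ x ∉ Subgroup.centralizer (P : Set G) := by
  obtain ⟨K, R, hn, ⟨e⟩⟩ := h
  obtain ⟨x, P, ⟨k, hk⟩, hP, hxN, hxC⟩ := InvToA' hp2
    (e.toMonoidHom.comp (QuotientGroup.mk' (R.subgroupOf K)))
    (e.surjective.comp (QuotientGroup.mk'_surjective _))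
  refine ⟨x.1, P.map K.subtype, ⟨k, by rw [Subgroup.orderOf_coe, hk]⟩, hP.map _, ?_, ?_⟩
  · rw [Cfsg.Agent.Lib.Helper17.mem_normalizer_iff_map_conj]
    have h1 := Cfsg.Agent.Lib.Helper17.mem_normalizer_iff_map_conj.mp hxN
    conv_rhs => rw [← h1]
    ext z
    constructor
    · rintro ⟨_, ⟨w, hw, rfl⟩, rfl⟩
      exact ⟨x * w * x⁻¹, ⟨w, hw, rfl⟩, rfl⟩
    · rintro ⟨_, ⟨w, hw, rfl⟩, rfl⟩
      exact ⟨w.1, ⟨w, hw, rfl⟩, rfl⟩
  · intro hc
    apply hxC
    rw [Subgroup.mem_centralizer_iff] at hc ⊢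
    intro w hw
    exact Subtype.ext (hc w.1 ⟨w, hw, rfl⟩)

/-- For an odd prime p and a finite group G the following are equivalent: the dihedral group of order 2p is involved in G; some element of 2-power order normalizes but does not centralize some p-subgroup of G; some element of 2-power order inverts some nonidentity element of p-power order. -/
theorem result {G : Type*} [Group G] [Finite G] {p : ℕ} [Fact p.Prime] (hp : p ≠ 2) : (Cfsg.Involves (DihedralGroup p) G ↔ ∃ (x : G) (P : Subgroup G), (∃ k : ℕ, orderOf x = 2 ^ k) ∧ IsPGroup p ↥P ∧ x ∈ Subgroup.normalizer (P : Set G) ∧ x ∉ Subgroup.centralizer (P : Set G)) ∧ (Cfsg.Involves (DihedralGroup p) G ↔ ∃ x y : G, (∃ k : ℕ, orderOf x = 2 ^ k) ∧ (∃ k : ℕ, orderOf y = p ^ k) ∧ y ≠ 1 ∧ x * y * x⁻¹ = y⁻¹) := by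
  have h1 : Cfsg.Involves (DihedralGroup p) G → _ := InvToA hp
  have h2 := AtoB (G := G) (p := p)
  have h3 := BtoInv (G := G) (p := p) hp
  exact ⟨⟨h1, fun h => h3 (h2 h)⟩, ⟨fun h => h2 (h1 h), h3⟩⟩

end Cfsg.Agent.S2758
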