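import Cfsg.Statements.S2760
import Cfsg.Agent.Lib.Helper17.Core
import Mathlib

set_option autoImplicit false
open Cfsg

namespace Cfsg.Agent.S2760

open Cfsg.Agent.Lib.Helper17

/-- Let G be a finite group with C_G(O₂(G)) ≤ O₂(G) and H a subgroup of G such that H is normal in G, or the subgroup O²(H) generated by the elements of H of odd order is normal in G. Then C_H(O₂(H)) ≤ O₂(H). -/
theorem result {G : Type*} [Group G] [Finite G] (hchar : Subgroup.centralizer (Cfsg.pCore 2 G : Set G) ≤ Cfsg.pCore 2 G) (H : Subgroup G) (hH : H.Normal ∨ ((Cfsg.pResidual 2 ↥H).map H.subtype).Normal) : Subgroup.centralizer (Cfsg.pCore 2 ↥H : Set ↥H) ≤ Cfsg.pCore 2 ↥H := by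
  classical
  have : Fact (Nat.Prime 2) := ⟨Nat.prime_two⟩
  have hG : (⊤ : Subgroup G) ⊓ Subgroup.centralizer (Cfsg.pCoreOf 2 (⊤ : Subgroup G) : Set G) ≤
      Cfsg.pCoreOf 2 (⊤ : Subgroup G) := by
    rw [pCoreOf_top]; exact inf_le_right.trans hchar
  rw [Cfsg.Agent.Lib.Helper17.charP_iff]
  rcases hH with hH | hL
  · exact charP_of_normal le_top (by rw [Subgroup.normalizer_eq_top]) hG
  · have hLc := charP_of_normal (H := (Cfsg.pResidual 2 ↥H).map H.subtype) le_top
      (by rw [Subgroup.normalizer_eq_top]) hG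
    have hLH : (Cfsg.pResidual 2 ↥H).map H.subtype ≤ H := pResidual_map_subtype_le 2 H
    have hle : Cfsg.pCoreOf 2 ((Cfsg.pResidual 2 ↥H).map H.subtype) ≤ Cfsg.pCoreOf 2 H :=
      pCoreOf_le_pCoreOf_of_normal hLH (by rw [Subgroup.normalizer_eq_top]; exact le_top)
    refine le_pCoreOf inf_le_left ?_ ?_
    · exact le_normalizer_inf Subgroup.le_normalizer
        ((le_normalizer_pCoreOf 2 H).trans (normalizer_le_normalizer_centralizer _))
    · intro x
      obtain ⟨k, hk⟩ := exists_pow_mem_pResidual (p := 2) (⟨x.1, x.2.1⟩ : ↥H)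
      have h1 : (x : G) ^ 2 ^ k ∈ (Cfsg.pResidual 2 ↥H).map H.subtype := ⟨_, hk, rfl⟩
      have h2 : (x : G) ^ 2 ^ k ∈ Subgroup.centralizer
          (Cfsg.pCoreOf 2 ((Cfsg.pResidual 2 ↥H).map H.subtype) : Set G) :=
        Subgroup.centralizer_le hle (Subgroup.pow_mem _ x.2.2 _)
      have h3 := hLc (Subgroup.mem_inf.mpr ⟨h1, h2⟩)
      obtain ⟨j, hj⟩ := (pCoreOf_isPGroup 2 _) ⟨_, h3⟩
      refine ⟨k + j, ?_⟩
      apply Subtype.ext
      have := congrArg Subtype.val hj
      simpa [pow_add, pow_mul] using this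

end Cfsg.Agent.S2760
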