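import Cfsg.Statements.S2762
import Mathlib
import Cfsg.Agent.Lib.Helper17.Core

set_option autoImplicit false
open Cfsg

namespace Cfsg.Agent.S2762

section aux

open Matrix

variable {F : Type*} [Field F]

abbrev SL3 (F : Type*) [Field F] := Matrix.SpecialLinearGroup (Fin 3) F
abbrev SL2 (F : Type*) [Field F] := Matrix.SpecialLinearGroup (Fin 2) F
abbrev Qd (F : Type*) [Field F] := ↥(Cfsg.qdOver F)

def Q0 (F : Type*) [Field F] : Subgroup (SL3 F) where
  carrier := {M | (M : Matrix (Fin 3) (Fin 3) F) 2 0 = 0 ∧ (M : Matrix (Fin 3) (Fin 3) F) 2 1 = 0 ∧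
    (M : Matrix (Fin 3) (Fin 3) F) 2 2 = 1}
  mul_mem' := by
    rintro M M' ⟨h0, h1, h2⟩ ⟨k0, k1, k2⟩
    simp [Matrix.mul_apply, Fin.sum_univ_three, h0, h1, h2, k0, k1, k2]
  one_mem' := by simp
  inv_mem' := by
    rintro M ⟨h0, h1, h2⟩
    have hd := M.det_coe
    rw [Matrix.det_fin_three, h0, h1, h2] at hd
    simp only [Set.mem_ofPred_eq, Matrix.SpecialLinearGroup.coe_inv, Matrix.adjugate_fin_three]
    refine ⟨?_, ?_, ?_⟩
    · simp [h0, h1]
    · simp [h0, h1]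
    · simp
      linear_combination hd

theorem qd_eq : Cfsg.qdOver F = Q0 F :=
  le_antisymm ((Subgroup.closure_le _).2 (fun _ h => h)) (fun _ h => Subgroup.subset_closure h)

def mat (M : Qd F) : Matrix (Fin 3) (Fin 3) F := ((M : SL3 F) : Matrix (Fin 3) (Fin 3) F)

theorem mat_row (M : Qd F) : mat M 2 0 = 0 ∧ mat M 2 1 = 0 ∧ mat M 2 2 = 1 := by
  have : (M : SL3 F) ∈ Q0 F := qd_eq (F := F) ▸ M.2
  exact this

theorem mat_mul (M M' : Qd F) : mat (M * M') = mat M * mat M' := rfl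
theorem mat_one : mat (1 : Qd F) = 1 := rfl
theorem mat_inj {M M' : Qd F} (h : mat M = mat M') : M = M' := Subtype.ext (Subtype.ext h)

def mk (A : Matrix (Fin 3) (Fin 3) F) (hd : A.det = 1) (h0 : A 2 0 = 0) (h1 : A 2 1 = 0)
    (h2 : A 2 2 = 1) : Qd F :=
  ⟨⟨A, hd⟩, by rw [qd_eq]; exact ⟨h0, h1, h2⟩⟩

theorem mat_mk (A : Matrix (Fin 3) (Fin 3) F) (hd : A.det = 1) (h0 : A 2 0 = 0) (h1 : A 2 1 = 0)
    (h2 : A 2 2 = 1) : mat (mk A hd h0 h1 h2) = A := rfl

def blk (M : Qd F) : Matrix (Fin 2) (Fin 2) F := !![mat M 0 0, mat M 0 1; mat M 1 0, mat M 1 1]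

theorem det_blk (M : Qd F) : (blk M).det = 1 := by
  obtain ⟨h0, h1, h2⟩ := mat_row M
  have hd : (mat M).det = 1 := (M : SL3 F).det_coe
  rw [Matrix.det_fin_three, h0, h1, h2] at hd
  rw [blk, Matrix.det_fin_two_of]
  linear_combination hd

theorem blk_mul (M M' : Qd F) : blk (M * M') = blk M * blk M' := by
  obtain ⟨h0, h1, h2⟩ := mat_row M'
  ext i j
  fin_cases i <;> fin_cases j <;>
    simp [blk, mat_mul, Matrix.mul_apply, Fin.sum_univ_three, h0, h1]

def prj : Qd F →* SL2 F :=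
  MonoidHom.mk' (fun M => ⟨blk M, det_blk M⟩) (fun M M' => Subtype.ext (blk_mul M M'))

theorem prj_val (M : Qd F) : ((prj M : SL2 F) : Matrix (Fin 2) (Fin 2) F) = blk M := rfl

def sigM (A : Matrix (Fin 2) (Fin 2) F) : Matrix (Fin 3) (Fin 3) F :=
  !![A 0 0, A 0 1, 0; A 1 0, A 1 1, 0; 0, 0, 1]

theorem det_sigM (A : Matrix (Fin 2) (Fin 2) F) : (sigM A).det = A.det := by
  rw [Matrix.det_fin_three, Matrix.det_fin_two]
  simp [sigM]

theorem sigM_mul (A B : Matrix (Fin 2) (Fin 2) F) : sigM (A * B) = sigM A * sigM B := by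
  ext i j
  fin_cases i <;> fin_cases j <;>
    simp [sigM, Matrix.mul_apply, Fin.sum_univ_three, Fin.sum_univ_two]

def sig : SL2 F →* Qd F :=
  MonoidHom.mk' (fun A => mk (sigM A.1) (by rw [det_sigM, A.det_coe]) (by simp [sigM])
    (by simp [sigM]) (by simp [sigM])) (fun A B => mat_inj (sigM_mul A.1 B.1))

theorem mat_sig (A : SL2 F) : mat (sig A) = sigM A.1 := rfl

theorem prj_sig (A : SL2 F) : prj (sig A) = A := by
  apply Subtype.ext
  rw [prj_val]
  ext i j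
  fin_cases i <;> fin_cases j <;> simp [blk, mat_sig, sigM]

def tauM (v : Fin 2 → F) : Matrix (Fin 3) (Fin 3) F := !![1, 0, v 0; 0, 1, v 1; 0, 0, 1]

theorem det_tauM (v : Fin 2 → F) : (tauM v).det = 1 := by
  rw [Matrix.det_fin_three]
  simp [tauM]

def tau (v : Fin 2 → F) : Qd F :=
  mk (tauM v) (det_tauM v) (by simp [tauM]) (by simp [tauM]) (by simp [tauM])

theorem mat_tau (v : Fin 2 → F) : mat (tau v) = tauM v := rfl

theorem mem_T (M : Qd F) : M ∈ (prj : Qd F →* SL2 F).ker ↔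
    mat M 0 0 = 1 ∧ mat M 0 1 = 0 ∧ mat M 1 0 = 0 ∧ mat M 1 1 = 1 := by
  rw [MonoidHom.mem_ker]
  constructor
  · intro h
    have h1 : blk M = 1 := by rw [← prj_val, h]; rfl
    refine ⟨?_, ?_, ?_, ?_⟩
    · simpa [blk] using congrFun (congrFun h1 0) 0
    · simpa [blk] using congrFun (congrFun h1 0) 1
    · simpa [blk] using congrFun (congrFun h1 1) 0
    · simpa [blk] using congrFun (congrFun h1 1) 1
  · rintro ⟨a, b, c, d⟩
    apply Subtype.ext
    rw [prj_val]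
    ext i j
    fin_cases i <;> fin_cases j <;> simp [blk, a, b, c, d]

theorem tau_mem (v : Fin 2 → F) : tau v ∈ (prj : Qd F →* SL2 F).ker := by
  rw [mem_T, mat_tau]
  simp [tauM]

theorem add02 (M M' : Qd F) (hM : M ∈ (prj : Qd F →* SL2 F).ker) :
    mat (M * M') 0 2 = mat M 0 2 + mat M' 0 2 ∧ mat (M * M') 1 2 = mat M 1 2 + mat M' 1 2 := by
  obtain ⟨a, b, c, d⟩ := (mem_T _).1 hM
  obtain ⟨h0, h1, h2⟩ := mat_row M'
  constructor
  · rw [mat_mul, Matrix.mul_apply, Fin.sum_univ_three, a, b, h2]; ring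
  · rw [mat_mul, Matrix.mul_apply, Fin.sum_univ_three, c, d, h2]; ring

def psi : Additive ↥(prj : Qd F →* SL2 F).ker ≃+ (Fin 2 → F) where
  toFun M := ![mat (Additive.toMul M).1 0 2, mat (Additive.toMul M).1 1 2]
  invFun v := Additive.ofMul ⟨tau v, tau_mem v⟩
  left_inv M := by
    obtain ⟨a, b, c, d⟩ := (mem_T _).1 (Additive.toMul M).2
    obtain ⟨h0, h1, h2⟩ := mat_row (Additive.toMul M).1
    apply Additive.toMul.injective
    apply Subtype.ext
    apply mat_inj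
    show tauM _ = mat (Additive.toMul M).1
    ext i j
    fin_cases i <;> fin_cases j <;> simp [tauM, a, b, c, d, h0, h1, h2]
  right_inv v := by
    ext i
    fin_cases i <;> simp [mat_tau, tauM]
  map_add' M M' := by
    ext i
    fin_cases i
    · exact (add02 (Additive.toMul M).1 (Additive.toMul M').1 (Additive.toMul M).2).1
    · exact (add02 (Additive.toMul M).1 (Additive.toMul M').1 (Additive.toMul M).2).2

theorem psi_apply (M : ↥(prj : Qd F →* SL2 F).ker) :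
    psi (Additive.ofMul M) = ![mat M.1 0 2, mat M.1 1 2] := rfl

theorem T_pgroup (p : ℕ) [CharP F p] : IsPGroup p ↥(prj : Qd F →* SL2 F).ker := by
  intro g
  refine ⟨1, ?_⟩
  rw [pow_one]
  apply Additive.ofMul.injective
  apply psi.injective
  rw [ofMul_pow, map_nsmul, ofMul_one, map_zero]
  ext i
  simp

end aux

section aux2

open Matrix

variable {F : Type*} [Field F]

theorem fix_smul {N : Subgroup (SL2 F)} [hN : N.Normal] {b : Fin 2 → F}
    (hb : ∀ n ∈ N, n • b = b) (g : SL2 F) : ∀ n ∈ N, n • (g • b) = g • b := by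
  intro n hn
  have h1 : g⁻¹ * n * g ∈ N := by simpa using hN.conj_mem n hn g⁻¹
  have h2 := hb _ h1
  calc n • (g • b) = g • ((g⁻¹ * n * g) • b) := by simp [mul_smul]
    _ = g • b := by rw [h2]

theorem smul_eq (h : SL2 F) (v : Fin 2 → F) :
    h • v = ![h.1 0 0 * v 0 + h.1 0 1 * v 1, h.1 1 0 * v 0 + h.1 1 1 * v 1] := by
  rw [Matrix.SpecialLinearGroup.smul_def]
  ext i
  fin_cases i <;> simp [Matrix.mulVec, dotProduct, Fin.sum_univ_two]

theorem exists_col (b : Fin 2 → F) (hb : b ≠ 0) : ∃ h : SL2 F, h • ![(1 : F), 0] = b := by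
  by_cases ha : b 0 = 0
  · have hc : b 1 ≠ 0 := by
      intro h1; apply hb; ext i; fin_cases i <;> simp [ha, h1]
    obtain ⟨g, hg⟩ : ∃ g : SL2 F, g.1 = !![0, -(b 1)⁻¹; b 1, 0] :=
      ⟨⟨_, by simp [Matrix.det_fin_two_of, hc]⟩, rfl⟩
    refine ⟨g, ?_⟩
    rw [smul_eq, hg]
    ext i
    fin_cases i <;> simp [ha]
  · obtain ⟨g, hg⟩ : ∃ g : SL2 F, g.1 = !![b 0, 0; b 1, (b 0)⁻¹] :=
      ⟨⟨_, by simp [Matrix.det_fin_two_of, ha]⟩, rfl⟩
    refine ⟨g, ?_⟩
    rw [smul_eq, hg]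
    ext i
    fin_cases i <;> simp

theorem normal_pgroup_bot [Fintype F] (p : ℕ) [Fact p.Prime] [CharP F p] (N : Subgroup (SL2 F))
    [hN : N.Normal] (hp : IsPGroup p N) : N = ⊥ := by
  have hdvd : p ∣ Nat.card (Fin 2 → F) := by
    obtain ⟨n, -, hn⟩ := FiniteField.card F p
    rw [Nat.card_eq_fintype_card, Fintype.card_fun, hn, Fintype.card_fin]
    exact dvd_pow (dvd_pow_self p n.ne_zero) two_ne_zero
  have h0 : (0 : Fin 2 → F) ∈ MulAction.fixedPoints N (Fin 2 → F) := fun n => smul_zero n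
  obtain ⟨b, hb, hb0⟩ := hp.exists_fixed_point_of_prime_dvd_card_of_fixed_point (Fin 2 → F) hdvd h0
  have hb' : ∀ n ∈ N, n • b = b := fun n hn => hb ⟨n, hn⟩
  obtain ⟨h, hh⟩ := exists_col b (Ne.symm hb0)
  have he0 : ∀ n ∈ N, n • ![(1 : F), 0] = ![1, 0] := by
    have := fix_smul hb' h⁻¹
    rwa [← hh, inv_smul_smul] at this
  obtain ⟨J, hJ⟩ := exists_col ![(0 : F), 1] (by
    intro h; have := congrFun h 1; simp at this)
  have he1 : ∀ n ∈ N, n • ![(0 : F), 1] = ![0, 1] := by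
    have := fix_smul he0 J
    rwa [hJ] at this
  rw [eq_bot_iff]
  intro n hn
  rw [Subgroup.mem_bot]
  have a0 := he0 n hn
  have a1 := he1 n hn
  rw [smul_eq] at a0 a1
  apply Subtype.ext
  ext i j
  fin_cases i <;> fin_cases j
  · simpa using congrFun a0 0
  · simpa using congrFun a1 0
  · simpa using congrFun a0 1
  · simpa using congrFun a1 1

theorem mem_K (M : Qd F) : M ∈ (sig : SL2 F →* Qd F).range ↔ mat M 0 2 = 0 ∧ mat M 1 2 = 0 := by
  constructor
  · rintro ⟨A, rfl⟩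
    rw [mat_sig]
    simp [sigM]
  · rintro ⟨a, b⟩
    obtain ⟨h0, h1, h2⟩ := mat_row M
    refine ⟨prj M, mat_inj ?_⟩
    rw [mat_sig]
    show sigM (blk M) = mat M
    ext i j
    fin_cases i <;> fin_cases j <;> simp [sigM, blk, a, b, h0, h1, h2]

theorem sig_injective : Function.Injective (sig : SL2 F →* Qd F) := by
  intro A B h
  rw [← prj_sig A, h, prj_sig]

theorem K_inf_T : (sig : SL2 F →* Qd F).range ⊓ (prj : Qd F →* SL2 F).ker = ⊥ := by
  rw [eq_bot_iff]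
  rintro M ⟨⟨A, rfl⟩, h2⟩
  have h3 : prj (sig A) = 1 := h2
  rw [prj_sig] at h3
  rw [h3, map_one]
  exact Subgroup.one_mem _

theorem K_sup_T : (sig : SL2 F →* Qd F).range ⊔ (prj : Qd F →* SL2 F).ker = ⊤ := by
  rw [eq_top_iff]
  intro M _
  have h1 : M = sig (prj M) * ((sig (prj M))⁻¹ * M) := by group
  rw [h1]
  exact Subgroup.mul_mem_sup (MonoidHom.mem_range.2 ⟨_, rfl⟩)
    (by rw [MonoidHom.mem_ker, map_mul, map_inv, prj_sig, inv_mul_cancel])

theorem conj_psi (l : Qd F) (hl : l ∈ (sig : SL2 F →* Qd F).range)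
    (v w : ↥(prj : Qd F →* SL2 F).ker) (hw : w.1 = l * v.1 * l⁻¹) :
    psi (Additive.ofMul w) = ((prj l : SL2 F) : Matrix (Fin 2) (Fin 2) F).mulVec
      (psi (Additive.ofMul v)) := by
  have e : w.1 * l = l * v.1 := by rw [hw]; group
  have e' : mat w.1 * mat l = mat l * mat v.1 := by rw [← mat_mul, ← mat_mul, e]
  obtain ⟨l0, l1⟩ := (mem_K l).1 hl
  obtain ⟨-, -, l2⟩ := mat_row l
  obtain ⟨-, -, v2⟩ := mat_row v.1
  have e0 := congrFun (congrFun e' 0) 2
  have e1 := congrFun (congrFun e' 1) 2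
  rw [Matrix.mul_apply, Matrix.mul_apply, Fin.sum_univ_three, Fin.sum_univ_three, l0, l1, l2,
    v2] at e0 e1
  rw [psi_apply, psi_apply, prj_val]
  ext i
  fin_cases i
  · simp [blk, Matrix.mulVec, dotProduct, Fin.sum_univ_two]
    linear_combination e0
  · simp [blk, Matrix.mulVec, dotProduct, Fin.sum_univ_two]
    linear_combination e1

theorem natural : Cfsg.IsNaturalSL2Module F (prj : Qd F →* SL2 F).ker
    (sig : SL2 F →* Qd F).range := by
  refine ⟨?_, prj.comp (Subgroup.subtype _), psi, ?_, ?_, ?_⟩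
  · rw [Subgroup.normalizer_eq_top]
    exact le_top
  · intro A
    exact ⟨⟨sig A, ⟨A, rfl⟩⟩, prj_sig A⟩
  · ext ⟨k, hk⟩
    rw [MonoidHom.mem_ker, Subgroup.mem_subgroupOf, Subgroup.mem_centralizer_iff]
    show prj k = 1 ↔ _
    constructor
    · intro h
      have : k ∈ (sig : SL2 F →* Qd F).range ⊓ (prj : Qd F →* SL2 F).ker := ⟨hk, h⟩
      rw [K_inf_T, Subgroup.mem_bot] at this
      intro x _
      show x * k = k * x
      rw [this, mul_one, one_mul]
    · intro h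
      apply Subtype.ext
      apply Matrix.ext_of_mulVec_single
      intro i
      obtain ⟨v, hv⟩ := psi.surjective (Pi.single i (1 : F))
      have h1 := h (Additive.toMul v).1 (Additive.toMul v).2
      have h1' : (Additive.toMul v).1 * k = k * (Additive.toMul v).1 := h1
      have h2 := conj_psi k hk (Additive.toMul v) (Additive.toMul v) (by rw [← h1']; group)
      have h3 : psi (Additive.ofMul (Additive.toMul v)) = Pi.single i (1 : F) := hv
      rw [h3] at h2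
      rw [← h2]
      show _ = (1 : Matrix (Fin 2) (Fin 2) F) *ᵥ _
      rw [Matrix.one_mulVec]
  · intro l v
    have hn : (l : Qd F) * (v : Qd F) * (l : Qd F)⁻¹ ∈ (prj : Qd F →* SL2 F).ker :=
      (inferInstance : ((prj : Qd F →* SL2 F).ker).Normal).conj_mem _ v.2 _
    exact ⟨⟨_, hn⟩, rfl, conj_psi l.1 l.2 v ⟨_, hn⟩ rfl⟩

end aux2

/-- Structure of Qd over a finite field F of characteristic p (the affine subgroup of SL₃(F)): its largest normal p-subgroup is the group of translations (matrices with upper-left block the identity), the block-diagonal matrices form a complement isomorphic to SL₂(F), and the translation subgroup is a natural SL₂(F)-module for that complement. -/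
theorem result {F : Type*} [Field F] [Fintype F] {p : ℕ} [Fact p.Prime] [CharP F p] : (∀ M : ↥(Cfsg.qdOver F), M ∈ Cfsg.pCore p ↥(Cfsg.qdOver F) ↔ ((M : Matrix.SpecialLinearGroup (Fin 3) F) : Matrix (Fin 3) (Fin 3) F) 0 0 = 1 ∧ ((M : Matrix.SpecialLinearGroup (Fin 3) F) : Matrix (Fin 3) (Fin 3) F) 0 1 = 0 ∧ ((M : Matrix.SpecialLinearGroup (Fin 3) F) : Matrix (Fin 3) (Fin 3) F) 1 0 = 0 ∧ ((M : Matrix.SpecialLinearGroup (Fin 3) F) : Matrix (Fin 3) (Fin 3) F) 1 1 = 1) ∧ ∃ K : Subgroup ↥(Cfsg.qdOver F), (∀ M : ↥(Cfsg.qdOver F), M ∈ K ↔ ((M : Matrix.SpecialLinearGroup (Fin 3) F) : Matrix (Fin 3) (Fin 3) F) 0 2 = 0 ∧ ((M : Matrix.SpecialLinearGroup (Fin 3) F) : Matrix (Fin 3) (Fin 3) F) 1 2 = 0) ∧ K ⊓ Cfsg.pCore p ↥(Cfsg.qdOver F) = ⊥ ∧ K ⊔ Cfsg.pCore p ↥(Cfsg.qdOver F) = ⊤ ∧ Nonempty (↥K ≃* Matrix.SpecialLinearGroup (Fin 2) F) ∧ Cfsg.IsNaturalSL2Module F (Cfsg.pCore p ↥(Cfsg.qdOver F)) K := by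
  classical
  have hsurj : Function.Surjective (prj : Qd F →* SL2 F) := fun A => ⟨sig A, prj_sig A⟩
  have hT : Cfsg.pCore p (Qd F) = (prj : Qd F →* SL2 F).ker := by
    apply le_antisymm
    · rw [← Subgroup.map_eq_bot_iff]
      haveI : ((Cfsg.pCore p (Qd F)).map prj).Normal := (Cfsg.pCore_normal p (Qd F)).map _ hsurj
      exact normal_pgroup_bot p _ (Cfsg.Agent.Lib.Helper17.pCore_isPGroup.map _)
    · exact Cfsg.Agent.Lib.Helper17.le_pCore inferInstance (T_pgroup p)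
  rw [hT]
  exact ⟨fun M => mem_T M, sig.range, fun M => mem_K M, K_inf_T, K_sup_T,
    ⟨(MonoidHom.ofInjective sig_injective).symm⟩, natural⟩

end Cfsg.Agent.S2762
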