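import Cfsg.Statements.S2779
import Cfsg.Agent.Lib.Helper12.SL2Sylow

set_option autoImplicit false
open Cfsg

namespace Cfsg.Agent.S2779

open Cfsg.Agent.Lib.Helper12

open scoped commutatorElement

/-- `t` acts on `V` (through `φ`) as the transvection with parameter `b`. -/
def Acts {G : Type*} [Group G] {F : Type*} [Field F] (V : Subgroup G) (φ : V → Fin 2 → F)
    (t : G) (b : F) : Prop :=
  ∀ v : V, ∃ hw : t * (v : G) * t⁻¹ ∈ V, φ ⟨t * (v : G) * t⁻¹, hw⟩ = ![φ v 0 + b * φ v 1, φ v 1]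

section core
variable {G : Type*} [Group G] {F : Type*} [Field F] {V T : Subgroup G} {φ : V → Fin 2 → F}

theorem phi_one (hadd : ∀ v w, φ (v * w) = φ v + φ w) : φ 1 = 0 := by
  have h := hadd 1 1
  rw [mul_one] at h
  exact (add_eq_left.mp h.symm)

theorem phi_inv (hadd : ∀ v w, φ (v * w) = φ v + φ w) (v : V) : φ v⁻¹ = - φ v := by
  have h := hadd v v⁻¹
  rw [mul_inv_cancel, phi_one hadd] at h
  exact (neg_eq_of_add_eq_zero_right h.symm).symm

theorem fix_iff (hinj : Function.Injective φ) {t : G} {b : F} (hb : b ≠ 0) (h : Acts V φ t b)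
    (v : V) : t * (v : G) = v * t ↔ φ v 1 = 0 := by
  obtain ⟨hw, he⟩ := h v
  constructor
  · intro hc
    have e : (⟨t * (v : G) * t⁻¹, hw⟩ : V) = v :=
      Subtype.ext (by change t * (v : G) * t⁻¹ = v; rw [hc]; group)
    rw [e] at he
    have h0 := congrFun he 0
    simp only [Matrix.cons_val_zero] at h0
    have : b * φ v 1 = 0 := by
      have := h0.symm
      rwa [add_eq_left] at this
    exact (mul_eq_zero.mp this).resolve_left hb
  · intro h0
    have e : φ ⟨t * (v : G) * t⁻¹, hw⟩ = φ v := by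
      rw [he]
      funext i
      fin_cases i <;> simp [h0]
    have e2 := congrArg Subtype.val (hinj e)
    simp only at e2
    calc t * (v : G) = t * (v : G) * t⁻¹ * t := by group
      _ = v * t := by rw [e2]

theorem fix_of (hinj : Function.Injective φ) {t : G} {b : F} (h : Acts V φ t b)
    (v : V) (h0 : φ v 1 = 0) : t * (v : G) = v * t := by
  obtain ⟨hw, he⟩ := h v
  have e : φ ⟨t * (v : G) * t⁻¹, hw⟩ = φ v := by
    rw [he]
    funext i
    fin_cases i <;> simp [h0]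
  have e2 := congrArg Subtype.val (hinj e)
  simp only at e2
  calc t * (v : G) = t * (v : G) * t⁻¹ * t := by group
    _ = v * t := by rw [e2]

theorem comm_phi (hadd : ∀ v w, φ (v * w) = φ v + φ w) {t : G} {b : F} (h : Acts V φ t b)
    (v : V) : ∃ hc : (v : G) * t * (v : G)⁻¹ * t⁻¹ ∈ V,
      φ ⟨(v : G) * t * (v : G)⁻¹ * t⁻¹, hc⟩ = ![-(b * φ v 1), 0] := by
  obtain ⟨hw, he⟩ := h v⁻¹
  have e : (v : G) * t * (v : G)⁻¹ * t⁻¹ = ((v * ⟨t * ((v⁻¹ : V) : G) * t⁻¹, hw⟩ : V) : G) := by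
    simp [mul_assoc]
  refine ⟨e ▸ Subtype.coe_prop _, ?_⟩
  have e' : (⟨(v : G) * t * (v : G)⁻¹ * t⁻¹, e ▸ Subtype.coe_prop _⟩ : V)
      = v * ⟨t * ((v⁻¹ : V) : G) * t⁻¹, hw⟩ := Subtype.ext e
  rw [e', hadd, he, phi_inv hadd]
  funext i
  fin_cases i <;> simp

theorem core_all (hbij : Function.Bijective φ) (hadd : ∀ v w, φ (v * w) = φ v + φ w)
    (act : ∀ t ∈ T, ∃ b : F, (b = 0 → t = 1) ∧ Acts V φ t b)
    (ex : ∀ b : F, ∃ t ∈ T, Acts V φ t b) :
    (∀ v : V, (v : G) ∈ Subgroup.centralizer (T : Set G) ↔ φ v 1 = 0) ∧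
    ⁅V, T⁆ = V ⊓ Subgroup.centralizer (T : Set G) ∧
    (∀ s ∈ T, s ≠ 1 →
      V ⊓ Subgroup.centralizer ({s} : Set G) = V ⊓ Subgroup.centralizer (T : Set G) ∧
      ⁅V, Subgroup.zpowers s⁆ = V ⊓ Subgroup.centralizer (T : Set G)) ∧
    (∀ v ∈ V, v ∉ Subgroup.centralizer (T : Set G) →
      Subgroup.closure {x : G | ∃ t ∈ T, x = v * t * v⁻¹ * t⁻¹} =
        V ⊓ Subgroup.centralizer (T : Set G)) := by
  have hM : ∀ v : V, (v : G) ∈ Subgroup.centralizer (T : Set G) ↔ φ v 1 = 0 := by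
    intro v
    rw [Subgroup.mem_centralizer_iff]
    constructor
    · intro hc
      obtain ⟨t, ht, ha⟩ := ex 1
      exact (fix_iff hbij.1 one_ne_zero ha v).mp (hc t ht)
    · intro h0 t ht
      obtain ⟨b, -, ha⟩ := act t ht
      exact fix_of hbij.1 ha v h0
  have hle : ∀ t ∈ T, ∀ v : V, (v : G) * t * (v : G)⁻¹ * t⁻¹ ∈
      V ⊓ Subgroup.centralizer (T : Set G) := by
    intro t ht v
    obtain ⟨b, -, ha⟩ := act t ht
    obtain ⟨hc, he⟩ := comm_phi hadd ha v
    exact ⟨hc, (hM ⟨_, hc⟩).mpr (by rw [he]; simp)⟩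
  have hge : ∀ (w : G) (hw : w ∈ V ⊓ Subgroup.centralizer (T : Set G)) (t : G) (b : F),
      Acts V φ t b → ∀ v : V, -(b * φ v 1) = φ ⟨w, hw.1⟩ 0 →
      w = (v : G) * t * (v : G)⁻¹ * t⁻¹ := by
    intro w hw t b ha v h
    obtain ⟨hc, he⟩ := comm_phi hadd ha v
    have h1 := (hM ⟨w, hw.1⟩).mp hw.2
    have e : φ ⟨w, hw.1⟩ = φ ⟨_, hc⟩ := by
      rw [he]
      funext i
      fin_cases i
      · simp [h]
      · simp [h1]
    exact congrArg Subtype.val (hbij.1 e)
  have hVT : ⁅V, T⁆ = V ⊓ Subgroup.centralizer (T : Set G) := by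
    apply le_antisymm
    · rw [Subgroup.commutator_le]
      intro v hv t ht
      rw [commutatorElement_def]
      exact hle t ht ⟨v, hv⟩
    · intro w hw
      obtain ⟨v, hv⟩ := hbij.2 ![0, 1]
      obtain ⟨t, ht, ha⟩ := ex (-(φ ⟨w, hw.1⟩ 0))
      have h1 := hge w hw t _ ha v (by rw [hv]; simp)
      rw [h1, ← commutatorElement_def]
      exact Subgroup.commutator_mem_commutator v.2 ht
  refine ⟨hM, hVT, ?_, ?_⟩
  · intro s hs hs1
    obtain ⟨b, hb0, ha⟩ := act s hs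
    have hb : b ≠ 0 := fun h => hs1 (hb0 h)
    constructor
    · ext w
      rw [Subgroup.mem_inf, Subgroup.mem_inf, Subgroup.mem_centralizer_singleton_iff]
      constructor
      · rintro ⟨hwV, hwc⟩
        exact ⟨hwV, (hM ⟨w, hwV⟩).mpr ((fix_iff hbij.1 hb ha ⟨w, hwV⟩).mp hwc.symm)⟩
      · rintro ⟨hwV, hwc⟩
        exact ⟨hwV, ((Subgroup.mem_centralizer_iff.mp hwc) s hs).symm⟩
    · apply le_antisymm
      · exact (Subgroup.commutator_mono le_rfl (Subgroup.zpowers_le.mpr hs)).trans hVT.le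
      · intro w hw
        obtain ⟨v, hv⟩ := hbij.2 ![0, -(φ ⟨w, hw.1⟩ 0) / b]
        have h1 := hge w hw s b ha v (by rw [hv]; simp; field_simp)
        rw [h1, ← commutatorElement_def]
        exact Subgroup.commutator_mem_commutator v.2 (Subgroup.mem_zpowers s)
  · intro v hv hvc
    have hv1 : φ ⟨v, hv⟩ 1 ≠ 0 := fun h => hvc ((hM ⟨v, hv⟩).mpr h)
    apply le_antisymm
    · rw [Subgroup.closure_le]
      rintro _ ⟨t, ht, rfl⟩
      exact hle t ht ⟨v, hv⟩
    · intro w hw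
      obtain ⟨t, ht, ha⟩ := ex (-(φ ⟨w, hw.1⟩ 0) / φ ⟨v, hv⟩ 1)
      have h1 := hge w hw t _ ha ⟨v, hv⟩ (by field_simp)
      exact Subgroup.subset_closure ⟨t, ht, h1⟩

end core


/-- Let L act on the elementary abelian p-group V (inside a finite group, by conjugation, faithfully) as SL₂(F) on its natural module, F a field with p^n elements, and let S be a Sylow p-subgroup of L. Then [V, S, S] = 1; |V| = p^(2n) and |C_V(S)| = p^n; and for every nonidentity s ∈ S and every v ∈ V outside C_V(S): C_V(s) = C_V(S) = [V, S] = [V, s] = the subgroup generated by the commutators [v, t], t ∈ S. -/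
theorem result {G : Type*} [Group G] [Finite G] {p : ℕ} [Fact p.Prime] {F : Type*} [Field F] [Fintype F] (n : ℕ) (hF : Fintype.card F = p ^ n) (V L : Subgroup G) (hnat : Cfsg.IsNaturalSL2Module F V L) (hf : L ⊓ Subgroup.centralizer (V : Set G) = ⊥) (S : Sylow p ↥L) (T : Subgroup G) (hT : T = ((S : Subgroup ↥L).map L.subtype)) : ⁅⁅V, T⁆, T⁆ = ⊥ ∧ Nat.card V = p ^ (2 * n) ∧ Nat.card ↥(V ⊓ Subgroup.centralizer ((T : Subgroup G) : Set G)) = p ^ n ∧ ∀ s ∈ T, s ≠ 1 → (V ⊓ Subgroup.centralizer ({s} : Set G)) = (V ⊓ Subgroup.centralizer ((T : Subgroup G) : Set G)) ∧ ⁅V, T⁆ = (V ⊓ Subgroup.centralizer ((T : Subgroup G) : Set G)) ∧ ⁅V, Subgroup.zpowers s⁆ = (V ⊓ Subgroup.centralizer ((T : Subgroup G) : Set G)) ∧ ∀ v ∈ V, v ∉ Subgroup.centralizer (T : Set G) → Subgroup.closure {x : G | ∃ t ∈ T, x = v * t * v⁻¹ * t⁻¹} = (V ⊓ Subgroup.centralizer ((T : Subgroup G) : Set G)) := by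
  obtain ⟨hLN, ρ, ψ, hρs, hρk, heq⟩ := hnat
  have hchar : CharP F p := by
    obtain ⟨c, hc⟩ := CharP.exists F
    obtain ⟨k, hcp, hk⟩ := FiniteField.card F c
    have hn : n ≠ 0 := by
      rintro rfl
      rw [pow_zero] at hF
      have := Fintype.one_lt_card (α := F)
      omega
    have h1 : p ∣ c ^ (k : ℕ) := by
      rw [← hk, hF]
      exact dvd_pow_self p hn
    have h2 : p = c :=
      (Nat.prime_dvd_prime_iff_eq Fact.out hcp).mp ((Fact.out : p.Prime).dvd_of_dvd_pow h1)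
    rw [h2]
    exact hc
  have hρi : Function.Injective ρ := by
    rw [← MonoidHom.ker_eq_bot_iff, hρk, Subgroup.subgroupOf_eq_bot, disjoint_iff, inf_comm]
    exact hf
  obtain ⟨g, hg⟩ := MulAction.exists_smul_eq (Matrix.SpecialLinearGroup (Fin 2) F)
    (sylSLU p : Sylow p (Matrix.SpecialLinearGroup (Fin 2) F)) (S.mapSurjective hρs)
  have hmem : ∀ x : L, x ∈ S ↔
      g⁻¹ * ρ x * g ∈ (slU : Subgroup (Matrix.SpecialLinearGroup (Fin 2) F)) := by
    intro x
    have h1 : ρ x ∈ ((S.mapSurjective hρs : Sylow p _) : Subgroup _) ↔ x ∈ S := by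
      rw [Sylow.coe_mapSurjective]
      exact Subgroup.mem_map_iff_mem hρi
    rw [← h1, ← hg, Sylow.coe_subgroup_smul, Subgroup.mem_pointwise_smul_iff_inv_smul_mem,
      coe_sylSLU, ← map_inv, MulAut.smul_def, MulAut.conj_apply, inv_inv]
  obtain ⟨φ, hφ⟩ : ∃ φ : V → Fin 2 → F, φ = fun v =>
      ((g⁻¹ : Matrix.SpecialLinearGroup (Fin 2) F) : Matrix (Fin 2) (Fin 2) F).mulVec
        (ψ (Additive.ofMul v)) := ⟨_, rfl⟩
  have hgg : ((g : Matrix.SpecialLinearGroup (Fin 2) F) : Matrix (Fin 2) (Fin 2) F) *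
      ((g⁻¹ : Matrix.SpecialLinearGroup (Fin 2) F) : Matrix (Fin 2) (Fin 2) F) = 1 := by
    rw [← Matrix.SpecialLinearGroup.coe_mul, mul_inv_cancel, Matrix.SpecialLinearGroup.coe_one]
  have hgg' : ((g⁻¹ : Matrix.SpecialLinearGroup (Fin 2) F) : Matrix (Fin 2) (Fin 2) F) *
      ((g : Matrix.SpecialLinearGroup (Fin 2) F) : Matrix (Fin 2) (Fin 2) F) = 1 := by
    rw [← Matrix.SpecialLinearGroup.coe_mul, inv_mul_cancel, Matrix.SpecialLinearGroup.coe_one]
  have hbij : Function.Bijective φ := by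
    constructor
    · intro a b hab
      rw [hφ] at hab
      have h1 := congrArg (fun y => (g : Matrix (Fin 2) (Fin 2) F).mulVec y) hab
      simp only [Matrix.mulVec_mulVec, hgg, Matrix.one_mulVec] at h1
      exact Additive.ofMul.injective (ψ.injective h1)
    · intro y
      obtain ⟨a, ha⟩ := ψ.surjective ((g : Matrix (Fin 2) (Fin 2) F).mulVec y)
      refine ⟨Additive.toMul a, ?_⟩
      rw [hφ]
      change ((g⁻¹ : Matrix.SpecialLinearGroup (Fin 2) F) : Matrix (Fin 2) (Fin 2) F).mulVec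
        (ψ a) = y
      rw [ha, Matrix.mulVec_mulVec, hgg', Matrix.one_mulVec]
  have hadd : ∀ v w, φ (v * w) = φ v + φ w := by
    intro v w
    rw [hφ]
    change Matrix.mulVec _ (ψ (Additive.ofMul v + Additive.ofMul w)) = _
    rw [map_add, Matrix.mulVec_add]
  have hacts : ∀ (x : L) (b : F), g⁻¹ * ρ x * g = tU b → Acts V φ (x : G) b := by
    intro x b hb v
    obtain ⟨w, hw, he⟩ := heq x v
    refine ⟨hw ▸ w.2, ?_⟩
    have e1 : (⟨(x : G) * (v : G) * (x : G)⁻¹, hw ▸ w.2⟩ : V) = w := Subtype.ext hw.symm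
    rw [e1, hφ]
    change Matrix.mulVec _ (ψ (Additive.ofMul w)) = _
    rw [he]
    have e2 : ((g⁻¹ : Matrix.SpecialLinearGroup (Fin 2) F) : Matrix (Fin 2) (Fin 2) F) *
        ((ρ x : Matrix.SpecialLinearGroup (Fin 2) F) : Matrix (Fin 2) (Fin 2) F) =
        ((tU b : Matrix.SpecialLinearGroup (Fin 2) F) : Matrix (Fin 2) (Fin 2) F) *
        ((g⁻¹ : Matrix.SpecialLinearGroup (Fin 2) F) : Matrix (Fin 2) (Fin 2) F) := by
      rw [← Matrix.SpecialLinearGroup.coe_mul, ← Matrix.SpecialLinearGroup.coe_mul, ← hb]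
      congr 1
      exact (mul_inv_cancel_right (g⁻¹ * ρ x) g).symm
    rw [Matrix.mulVec_mulVec, e2, ← Matrix.mulVec_mulVec]
    funext i
    fin_cases i
    · simp [Matrix.mulVec, dotProduct, Fin.sum_univ_two, tU_00, tU_01]
    · simp [Matrix.mulVec, dotProduct, Fin.sum_univ_two, tU_10, tU_11]
  have act : ∀ t ∈ T, ∃ b : F, (b = 0 → t = 1) ∧ Acts V φ t b := by
    intro t ht
    rw [hT] at ht
    obtain ⟨x, hx, rfl⟩ := ht
    obtain ⟨b', hb'⟩ := (hmem x).mp hx
    refine ⟨Multiplicative.toAdd b', ?_, hacts x _ hb'.symm⟩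
    intro h0
    have h1 : g⁻¹ * ρ x * g = 1 := by
      rw [← hb']
      have : b' = 1 := h0
      rw [this, map_one]
    have h2 : ρ x = 1 := by
      have : ρ x = g * (g⁻¹ * ρ x * g) * g⁻¹ := by group
      rw [this, h1]
      group
    have h3 : x = 1 := hρi (h2.trans (map_one ρ).symm)
    rw [h3]
    rfl
  have ex : ∀ b : F, ∃ t ∈ T, Acts V φ t b := by
    intro b
    obtain ⟨x, hx⟩ := hρs (g * tU b * g⁻¹)
    have h1 : g⁻¹ * ρ x * g = tU b := by
      rw [hx]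
      group
    refine ⟨x, ?_, hacts x b h1⟩
    rw [hT]
    exact ⟨x, (hmem x).mpr (h1 ▸ tU_mem b), rfl⟩
  obtain ⟨hM, hVT, hs, hcl⟩ := core_all hbij hadd act ex
  refine ⟨?_, ?_, ?_, ?_⟩
  · rw [Subgroup.commutator_eq_bot_iff_le_centralizer, hVT]
    exact inf_le_right
  · rw [Nat.card_congr (Equiv.ofBijective φ hbij), Nat.card_eq_fintype_card, Fintype.card_fun,
      Fintype.card_fin, hF, ← pow_mul, mul_comm]
  · have hb2 : Function.Bijective (fun w : ↥(V ⊓ Subgroup.centralizer ((T : Subgroup G) : Set G)) =>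
        φ ⟨w.1, w.2.1⟩ 0) := by
      constructor
      · intro a b hab
        have ha := (hM ⟨a.1, a.2.1⟩).mp a.2.2
        have hb := (hM ⟨b.1, b.2.1⟩).mp b.2.2
        have e : φ ⟨a.1, a.2.1⟩ = φ ⟨b.1, b.2.1⟩ := by
          funext i
          fin_cases i
          · exact hab
          · exact ha.trans hb.symm
        have e3 : (a : G) = b := congrArg (fun z : V => (z : G)) (hbij.1 e)
        exact Subtype.ext e3
      · intro c
        obtain ⟨v, hv⟩ := hbij.2 ![c, 0]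
        refine ⟨⟨v.1, v.2, (hM v).mpr (by rw [hv]; simp)⟩, ?_⟩
        change φ v 0 = c
        rw [hv]
        simp
    rw [Nat.card_congr (Equiv.ofBijective _ hb2), Nat.card_eq_fintype_card, hF]
  · intro s hsT hs1
    exact ⟨(hs s hsT hs1).1, hVT, (hs s hsT hs1).2, hcl⟩

end Cfsg.Agent.S2779
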