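import Cfsg.Statements.S2780
import Mathlib
import Cfsg.Agent.Lib.Helper12.SL2Sylow
import Cfsg.Agent.S2762

set_option autoImplicit false
open Cfsg

namespace Cfsg.Agent.S2780

section aux

open Matrix Cfsg.Agent.Lib.Helper12 Cfsg.Agent.S2762
open scoped MatrixGroups

variable {G : Type*} [Group G] {F : Type*} [Field F]

structure Dat (F : Type*) [Field F] (V L T : Subgroup G) where
  ρ : L →* SL(2, F)
  ψ : Additive V ≃+ (Fin 2 → F)
  inj : Function.Injective ρ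
  surj : Function.Surjective ρ
  act : ∀ (l : L) (v : V), ∃ w : V, (w : G) = (l : G) * (v : G) * (l : G)⁻¹ ∧
          ψ (Additive.ofMul w) = ρ l • (ψ (Additive.ofMul v))
  hT : ∀ l : L, (l : G) ∈ T ↔ ρ l ∈ (slU : Subgroup SL(2, F))
  TL : T ≤ L

variable {V L T : Subgroup G} (D : Dat F V L T)

def Dat.x (v : V) : Fin 2 → F := D.ψ (Additive.ofMul v)

theorem Dat.x_inj {v w : V} (h0 : D.x v 0 = D.x w 0) (h1 : D.x v 1 = D.x w 1) : v = w := by
  apply Additive.ofMul.injective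
  apply D.ψ.injective
  ext i
  fin_cases i
  · exact h0
  · exact h1

theorem Dat.x_mul (v w : V) : D.x (v * w) = D.x v + D.x w := by
  show D.ψ (Additive.ofMul (v * w)) = _
  rw [ofMul_mul, map_add]; rfl

theorem Dat.x_one : D.x (1 : V) = 0 := by
  show D.ψ (Additive.ofMul 1) = _
  rw [ofMul_one, map_zero]

theorem Dat.x_inv (v : V) : D.x v⁻¹ = - D.x v := by
  show D.ψ (Additive.ofMul v⁻¹) = _
  rw [ofMul_inv, map_neg]; rfl

theorem Dat.ex (y0 y1 : F) : ∃ v : V, D.x v 0 = y0 ∧ D.x v 1 = y1 := by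
  obtain ⟨v, hv⟩ := D.ψ.surjective ![y0, y1]
  refine ⟨Additive.toMul v, ?_, ?_⟩
  · show D.ψ v 0 = y0
    rw [hv]; rfl
  · show D.ψ v 1 = y1
    rw [hv]; rfl

theorem Dat.act' (l : L) (v : V) : ∃ w : V, (w : G) = (l : G) * (v : G) * (l : G)⁻¹ ∧
    D.x w 0 = D.ρ l 0 0 * D.x v 0 + D.ρ l 0 1 * D.x v 1 ∧
    D.x w 1 = D.ρ l 1 0 * D.x v 0 + D.ρ l 1 1 * D.x v 1 := by
  obtain ⟨w, hw, h⟩ := D.act l v
  rw [smul_eq] at h
  exact ⟨w, hw, congrFun h 0, congrFun h 1⟩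

theorem Dat.comm_iff (l : L) (v : V) : (l : G) * v = v * l ↔
    (D.ρ l 0 0 * D.x v 0 + D.ρ l 0 1 * D.x v 1 = D.x v 0 ∧
    D.ρ l 1 0 * D.x v 0 + D.ρ l 1 1 * D.x v 1 = D.x v 1) := by
  obtain ⟨w, hw, h0, h1⟩ := D.act' l v
  constructor
  · intro h
    have : w = v := by
      apply Subtype.ext
      rw [hw, h]; group
    rw [this] at h0 h1
    exact ⟨h0.symm, h1.symm⟩
  · rintro ⟨e0, e1⟩
    have : w = v := D.x_inj (h0.trans e0) (h1.trans e1)
    rw [this] at hw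
    calc (l : G) * v = (l : G) * v * (l : G)⁻¹ * l := by group
      _ = v * l := by rw [← hw]

theorem Dat.mem_Z (g : G) : g ∈ V ⊓ Subgroup.centralizer (T : Set G) ↔
    ∃ hv : g ∈ V, D.x ⟨g, hv⟩ 1 = 0 := by
  constructor
  · rintro ⟨hv, hc⟩
    refine ⟨hv, ?_⟩
    obtain ⟨l, hl⟩ := D.surj (tU 1)
    have hlT : (l : G) ∈ T := (D.hT l).2 (by rw [hl]; exact tU_mem 1)
    have h1 := (D.comm_iff l ⟨g, hv⟩).1 (Subgroup.mem_centralizer_iff.1 hc _ hlT)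
    rw [hl, tU_00, tU_01] at h1
    linear_combination h1.1
  · rintro ⟨hv, h1⟩
    refine Subgroup.mem_inf.2 ⟨hv, ?_⟩
    rw [Subgroup.mem_centralizer_iff]
    intro t ht
    have htL := D.TL ht
    obtain ⟨a, b, c⟩ := (mem_slU_iff _).1 ((D.hT ⟨t, htL⟩).1 ht)
    exact (D.comm_iff ⟨t, htL⟩ ⟨g, hv⟩).2 (by rw [a, b, c, h1]; constructor <;> ring)

theorem Dat.norm_of (l : L) (h : D.ρ l 1 0 = 0) :
    (l : G) ∈ L ⊓ Subgroup.normalizer (T : Set G) := by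
  refine Subgroup.mem_inf.2 ⟨l.2, ?_⟩
  rw [Subgroup.mem_normalizer_iff]
  intro t
  constructor
  · intro ht
    have htL := D.TL ht
    have h1 := (D.hT ⟨t, htL⟩).1 ht
    have h2 := conj_mem_slU _ h _ h1
    rw [← map_inv, ← map_mul, ← map_mul] at h2
    exact (D.hT _).2 h2
  · intro ht
    have htL := D.TL ht
    have h1 := (D.hT ⟨_, htL⟩).1 ht
    have h2 := conj_mem_slU (D.ρ l)⁻¹ (by rw [sl2_inv_10, h, neg_zero]) _ h1
    rw [← map_inv, ← map_inv, ← map_mul, ← map_mul] at h2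
    have h3 := (D.hT _).2 h2
    have e : ((l⁻¹ * ⟨(l : G) * t * (l : G)⁻¹, htL⟩ * l⁻¹⁻¹ : L) : G) = t := by
      show (l : G)⁻¹ * ((l : G) * t * (l : G)⁻¹) * (l : G)⁻¹⁻¹ = t
      group
    rwa [e] at h3

theorem exists_diag (d : F) (hd : d ≠ 0) : ∃ A : SL(2, F), A 0 0 = d ∧ A 0 1 = 0 ∧ A 1 0 = 0 ∧
    A 1 1 = d⁻¹ :=
  ⟨⟨!![d, 0; 0, d⁻¹], by simp [Matrix.det_fin_two_of, hd]⟩, rfl, rfl, rfl, rfl⟩

theorem part3 (D : Dat F V L T) (U : Subgroup G) (hU : U ≤ V ⊓ Subgroup.centralizer (T : Set G))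
    (hN : L ⊓ Subgroup.normalizer (T : Set G) ≤ Subgroup.normalizer (U : Set G)) :
    U = ⊥ ∨ U = V ⊓ Subgroup.centralizer (T : Set G) := by
  by_cases hb : U = ⊥
  · exact Or.inl hb
  right
  refine le_antisymm hU ?_
  obtain ⟨⟨u, huU⟩, hu1'⟩ := Subgroup.ne_bot_iff_exists_ne_one.1 hb
  have hu1 : u ≠ 1 := fun h => hu1' (Subtype.ext h)
  obtain ⟨huV, hux⟩ := (D.mem_Z u).1 (hU huU)
  have ha : D.x ⟨u, huV⟩ 0 ≠ 0 := by
    intro h0
    apply hu1
    have : (⟨u, huV⟩ : V) = 1 := D.x_inj (by rw [h0, D.x_one]; rfl) (by rw [hux, D.x_one]; rfl)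
    exact congrArg Subtype.val this
  intro z hz
  obtain ⟨hzV, hzx⟩ := (D.mem_Z z).1 hz
  by_cases hz0 : D.x ⟨z, hzV⟩ 0 = 0
  · have : (⟨z, hzV⟩ : V) = 1 := D.x_inj (by rw [hz0, D.x_one]; rfl) (by rw [hzx, D.x_one]; rfl)
    have : z = 1 := congrArg Subtype.val this
    rw [this]; exact U.one_mem
  · obtain ⟨A, a00, a01, a10, a11⟩ := exists_diag (D.x ⟨z, hzV⟩ 0 / D.x ⟨u, huV⟩ 0)
      (div_ne_zero hz0 ha)
    obtain ⟨l, hl⟩ := D.surj A
    have hlN := hN (D.norm_of l (by rw [hl, a10]))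
    obtain ⟨w, hw, w0, w1⟩ := D.act' l ⟨u, huV⟩
    rw [hl, a00, a01, hux] at w0
    rw [hl, a10, a11, hux] at w1
    have hwU : (w : G) ∈ U := by
      rw [hw]; exact (Subgroup.mem_normalizer_iff.1 hlN u).1 huU
    have : w = ⟨z, hzV⟩ := D.x_inj (by rw [w0]; field_simp; ring) (by rw [w1, hzx]; ring)
    rw [this] at hwU
    exact hwU

theorem part4 (D : Dat F V L T) (U : Subgroup G) (hU : V ⊓ Subgroup.centralizer (T : Set G) ≤ U) (hUV : U ≤ V)
    (hN : L ⊓ Subgroup.normalizer (T : Set G) ≤ Subgroup.normalizer (U : Set G)) :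
    U = V ⊓ Subgroup.centralizer (T : Set G) ∨ U = V := by
  by_cases hb : U ≤ V ⊓ Subgroup.centralizer (T : Set G)
  · exact Or.inl (le_antisymm hb hU)
  right
  refine le_antisymm hUV ?_
  obtain ⟨u, huU, huZ⟩ := SetLike.not_le_iff_exists.1 hb
  have huV := hUV huU
  have ha : D.x ⟨u, huV⟩ 1 ≠ 0 := fun h => huZ ((D.mem_Z u).2 ⟨huV, h⟩)
  intro v hvV
  by_cases hv1 : D.x ⟨v, hvV⟩ 1 = 0
  · exact hU ((D.mem_Z v).2 ⟨hvV, hv1⟩)
  · obtain ⟨A, a00, a01, a10, a11⟩ := exists_diag (D.x ⟨u, huV⟩ 1 / D.x ⟨v, hvV⟩ 1)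
      (div_ne_zero ha hv1)
    obtain ⟨l, hl⟩ := D.surj A
    have hlN := hN (D.norm_of l (by rw [hl, a10]))
    obtain ⟨w, hw, w0, w1⟩ := D.act' l ⟨u, huV⟩
    rw [hl, a00, a01] at w0
    rw [hl, a10, a11] at w1
    have hwU : (w : G) ∈ U := by
      rw [hw]; exact (Subgroup.mem_normalizer_iff.1 hlN u).1 huU
    have hz : ((w⁻¹ * ⟨v, hvV⟩ : V) : G) ∈ V ⊓ Subgroup.centralizer (T : Set G) := by
      rw [D.mem_Z]
      refine ⟨(w⁻¹ * ⟨v, hvV⟩ : V).2, ?_⟩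
      show D.x (w⁻¹ * ⟨v, hvV⟩) 1 = 0
      rw [D.x_mul, D.x_inv, Pi.add_apply, Pi.neg_apply, w1]
      field_simp
      ring
    have := U.mul_mem hwU (hU hz)
    have e : (w : G) * ((w⁻¹ * ⟨v, hvV⟩ : V) : G) = v := by
      show (w : G) * ((w : G)⁻¹ * v) = v
      group
    rwa [e] at this

theorem mem_slU_of_fix (B : SL(2, F)) (h : B • ![(1 : F), 0] = ![1, 0]) :
    B ∈ (slU : Subgroup SL(2, F)) := by
  rw [smul_eq] at h
  have h0 := congrFun h 0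
  have h1 := congrFun h 1
  simp at h0 h1
  have h0' : B 0 0 = 1 := h0
  have h1' : B 1 0 = 0 := h1
  have hd := sl2_det B
  rw [mem_slU_iff]
  refine ⟨h0', h1', ?_⟩
  rw [h0', h1'] at hd
  linear_combination hd

theorem slU_pgroup [Fintype F] (p : ℕ) [Fact p.Prime] [CharP F p] :
    IsPGroup p (slU : Subgroup SL(2, F)) := by
  rw [← coe_sylSLU p]; exact (sylSLU p).isPGroup'

theorem part2 [Fintype F] (p : ℕ) [Fact p.Prime] [CharP F p] (D : Dat F V L T) (x : G)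
    (hxL : x ∈ L) (hx1 : x ≠ 1) (hco : (orderOf x).Coprime p) :
    V ⊓ Subgroup.centralizer ({x} : Set G) = ⊥ := by
  rw [eq_bot_iff]
  intro v hv
  obtain ⟨hvV, hvc⟩ := Subgroup.mem_inf.1 hv
  rw [Subgroup.mem_bot]
  by_contra hv1
  have hcomm : x * v = v * x := Subgroup.mem_centralizer_iff.1 hvc x rfl
  obtain ⟨e0, e1⟩ := (D.comm_iff ⟨x, hxL⟩ ⟨v, hvV⟩).1 hcomm
  obtain ⟨y, hy⟩ : ∃ y, y = D.x ⟨v, hvV⟩ := ⟨_, rfl⟩
  rw [← hy] at e0 e1
  have hy0 : y ≠ 0 := by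
    intro h
    apply hv1
    have : (⟨v, hvV⟩ : V) = 1 := D.x_inj (by rw [← hy, h, D.x_one]) (by rw [← hy, h, D.x_one])
    exact congrArg Subtype.val this
  obtain ⟨A, hA⟩ : ∃ A, A = D.ρ ⟨x, hxL⟩ := ⟨_, rfl⟩
  rw [← hA] at e0 e1
  have hAy : A • y = y := by
    rw [smul_eq]; ext i; fin_cases i
    · exact e0
    · exact e1
  obtain ⟨g, hg⟩ := exists_col y hy0
  have hB : g⁻¹ * A * g ∈ (slU : Subgroup SL(2, F)) := by
    apply mem_slU_of_fix
    rw [mul_smul, mul_smul, hg, hAy, ← hg, inv_smul_smul]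
  obtain ⟨k, hk⟩ := slU_pgroup p ⟨_, hB⟩
  have hk' : (g⁻¹ * A * g) ^ (p ^ k) = 1 := congrArg Subtype.val hk
  have hAk : A ^ (p ^ k) = 1 := by
    have e : g⁻¹ * A * g = g⁻¹ * A * g⁻¹⁻¹ := by rw [inv_inv]
    rw [e, conj_pow] at hk'
    exact conj_eq_one_iff.1 hk'
  have hxk : (⟨x, hxL⟩ : L) ^ (p ^ k) = 1 := D.inj (by rw [map_pow, map_one, ← hA]; exact hAk)
  have hxk' : x ^ (p ^ k) = 1 := congrArg Subtype.val hxk
  have hd := orderOf_dvd_of_pow_eq_one hxk'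
  have h1 := Nat.Coprime.eq_one_of_dvd (hco.pow_right k) hd
  exact hx1 (orderOf_eq_one_iff.1 h1)

theorem Dat.mem_Z' (g : L) (v : G) : v ∈ V ⊓ Subgroup.centralizer
      ((T.map (MulAut.conj (g : G)).toMonoidHom : Subgroup G) : Set G) ↔
    ∃ hv : v ∈ V, D.ρ g 0 0 * D.x ⟨v, hv⟩ 1 = D.ρ g 1 0 * D.x ⟨v, hv⟩ 0 := by
  have key : ∀ hv : v ∈ V, (v ∈ Subgroup.centralizer
      ((T.map (MulAut.conj (g : G)).toMonoidHom : Subgroup G) : Set G) ↔
      D.ρ g 0 0 * D.x ⟨v, hv⟩ 1 = D.ρ g 1 0 * D.x ⟨v, hv⟩ 0) := by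
    intro hv
    obtain ⟨w, hw, w0, w1⟩ := D.act' g⁻¹ ⟨v, hv⟩
    rw [map_inv, sl2_inv_10, sl2_inv_11] at w1
    have hw' : (w : G) = (g : G)⁻¹ * v * g := by rw [hw]; simp
    have hwZ : (w : G) ∈ V ⊓ Subgroup.centralizer (T : Set G) ↔ D.x w 1 = 0 := by
      rw [D.mem_Z]; exact ⟨fun ⟨_, h⟩ => h, fun h => ⟨w.2, h⟩⟩
    have h1 : v ∈ Subgroup.centralizer
        ((T.map (MulAut.conj (g : G)).toMonoidHom : Subgroup G) : Set G) ↔
        (w : G) ∈ Subgroup.centralizer (T : Set G) := by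
      rw [Subgroup.mem_centralizer_iff, Subgroup.mem_centralizer_iff]
      constructor
      · intro h t ht
        have h2 := h ((g : G) * t * (g : G)⁻¹) ⟨t, ht, by simp [MulAut.conj_apply]⟩
        rw [hw']
        calc t * ((g : G)⁻¹ * v * g) = (g : G)⁻¹ * (((g : G) * t * (g : G)⁻¹) * v) * g := by group
          _ = (g : G)⁻¹ * (v * ((g : G) * t * (g : G)⁻¹)) * g := by rw [h2]
          _ = (g : G)⁻¹ * v * g * t := by group
      · rintro h s ⟨t, ht, rfl⟩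
        have h2 := h t ht
        rw [hw'] at h2
        show (g : G) * t * (g : G)⁻¹ * v = v * ((g : G) * t * (g : G)⁻¹)
        calc (g : G) * t * (g : G)⁻¹ * v = (g : G) * (t * ((g : G)⁻¹ * v * g)) * (g : G)⁻¹ := by
              group
          _ = (g : G) * ((g : G)⁻¹ * v * g * t) * (g : G)⁻¹ := by rw [h2]
          _ = v * ((g : G) * t * (g : G)⁻¹) := by group
    have h3 : (w : G) ∈ Subgroup.centralizer (T : Set G) ↔
        (w : G) ∈ V ⊓ Subgroup.centralizer (T : Set G) :=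
      ⟨fun h => Subgroup.mem_inf.2 ⟨w.2, h⟩, fun h => (Subgroup.mem_inf.1 h).2⟩
    rw [h1, h3, hwZ, w1]
    constructor <;> intro h <;> linear_combination h
  constructor
  · intro h
    obtain ⟨hv, hc⟩ := Subgroup.mem_inf.1 h
    exact ⟨hv, (key hv).1 hc⟩
  · rintro ⟨hv, h⟩
    exact Subgroup.mem_inf.2 ⟨hv, (key hv).2 h⟩

theorem part1 (D : Dat F V L T) (g : G) (hg : g ∈ L)
    (hgN : g ∉ Subgroup.normalizer (T : Set G)) :
    Cfsg.IsInternalDirectProduct (V ⊓ Subgroup.centralizer (T : Set G))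
      (V ⊓ Subgroup.centralizer ((T.map (MulAut.conj g).toMonoidHom : Subgroup G) : Set G)) V := by
  have hA : D.ρ ⟨g, hg⟩ 1 0 ≠ 0 := fun h => hgN (Subgroup.mem_inf.1 (D.norm_of ⟨g, hg⟩ h)).2
  refine ⟨inf_le_left, inf_le_left, ?_, ?_, ?_⟩
  · intro a ha b hb
    have haV := (Subgroup.mem_inf.1 ha).1
    have hbV := (Subgroup.mem_inf.1 hb).1
    have : (⟨a, haV⟩ * ⟨b, hbV⟩ : V) = ⟨b, hbV⟩ * ⟨a, haV⟩ :=
      D.x_inj (by rw [D.x_mul, D.x_mul, add_comm]) (by rw [D.x_mul, D.x_mul, add_comm])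
    exact congrArg Subtype.val this
  · rw [eq_bot_iff]
    intro v hv
    obtain ⟨h1, h2⟩ := Subgroup.mem_inf.1 hv
    obtain ⟨hvV, e1⟩ := (D.mem_Z v).1 h1
    obtain ⟨_, e2⟩ := (D.mem_Z' ⟨g, hg⟩ v).1 h2
    rw [e1, mul_zero] at e2
    have e0 : D.x ⟨v, hvV⟩ 0 = 0 := (mul_eq_zero.1 e2.symm).resolve_left hA
    have : (⟨v, hvV⟩ : V) = 1 := D.x_inj (by rw [e0, D.x_one]; rfl) (by rw [e1, D.x_one]; rfl)
    rw [Subgroup.mem_bot]
    exact congrArg Subtype.val this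
  · apply le_antisymm (sup_le inf_le_left inf_le_left)
    intro v hvV
    obtain ⟨A, hAdef⟩ : ∃ A, A = D.ρ ⟨g, hg⟩ := ⟨_, rfl⟩
    rw [← hAdef] at hA
    obtain ⟨b, b0, b1⟩ := D.ex (D.x ⟨v, hvV⟩ 1 / A 1 0 * A 0 0) (D.x ⟨v, hvV⟩ 1 / A 1 0 * A 1 0)
    obtain ⟨a, a0, a1⟩ := D.ex (D.x ⟨v, hvV⟩ 0 - D.x ⟨v, hvV⟩ 1 / A 1 0 * A 0 0) 0
    have h1 : (⟨v, hvV⟩ : V) = a * b :=
      D.x_inj (by rw [D.x_mul, Pi.add_apply, a0, b0]; ring)
        (by rw [D.x_mul, Pi.add_apply, a1, b1]; field_simp; ring)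
    have e : v = (a : G) * b := congrArg Subtype.val h1
    rw [e]
    refine Subgroup.mul_mem_sup ((D.mem_Z a).2 ⟨a.2, a1⟩) ((D.mem_Z' ⟨g, hg⟩ b).2 ⟨b.2, ?_⟩)
    show D.ρ ⟨g, hg⟩ 0 0 * D.x b 1 = D.ρ ⟨g, hg⟩ 1 0 * D.x b 0
    rw [← hAdef, b0, b1]; ring

theorem exists_dat [Fintype F] (p : ℕ) [Fact p.Prime] [CharP F p] (V L : Subgroup G)
    (hnat : Cfsg.IsNaturalSL2Module F V L) (hf : L ⊓ Subgroup.centralizer (V : Set G) = ⊥)
    (S : Sylow p ↥L) : Nonempty (Dat F V L ((S : Subgroup ↥L).map L.subtype)) := by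
  obtain ⟨hLN, ρ, ψ, hρs, hρk, hact⟩ := hnat
  have hinj : Function.Injective ρ := by
    rw [← MonoidHom.ker_eq_bot_iff, hρk, eq_bot_iff]
    rintro ⟨l, hl⟩ h
    rw [Subgroup.mem_subgroupOf] at h
    have h2 : l ∈ L ⊓ Subgroup.centralizer (V : Set G) := Subgroup.mem_inf.2 ⟨hl, h⟩
    rw [hf, Subgroup.mem_bot] at h2
    rw [Subgroup.mem_bot]
    exact Subtype.ext h2
  have hN : IsPGroup p ((S : Subgroup L).map ρ) := S.isPGroup'.map ρ
  have hdvd : p ∣ Nat.card (Fin 2 → F) := by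
    obtain ⟨n, -, hn⟩ := FiniteField.card F p
    rw [Nat.card_eq_fintype_card, Fintype.card_fun, hn, Fintype.card_fin]
    exact dvd_pow (dvd_pow_self p n.ne_zero) two_ne_zero
  have h0 : (0 : Fin 2 → F) ∈ MulAction.fixedPoints ((S : Subgroup L).map ρ) (Fin 2 → F) :=
    fun n => smul_zero n
  obtain ⟨b, hb, hb0⟩ := hN.exists_fixed_point_of_prime_dvd_card_of_fixed_point (Fin 2 → F) hdvd h0
  have hb' : ∀ s ∈ S, ρ s • b = b := fun s hs => hb ⟨ρ s, ⟨s, hs, rfl⟩⟩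
  obtain ⟨g, hg⟩ := exists_col b (Ne.symm hb0)
  let ρ' : L →* SL(2, F) := (MulAut.conj g⁻¹).toMonoidHom.comp ρ
  have hρ' : ∀ l, ρ' l = g⁻¹ * ρ l * g := fun l => by simp [ρ']
  have hinj' : Function.Injective ρ' := (MulAut.conj g⁻¹).injective.comp hinj
  have hsurj' : Function.Surjective ρ' := (MulAut.conj g⁻¹).surjective.comp hρs
  have hS : (slU : Subgroup SL(2, F)).comap ρ' = S := by
    apply S.is_maximal' ((slU_pgroup p).comap_of_injective ρ' hinj')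
    intro s hs
    rw [Subgroup.mem_comap]
    apply mem_slU_of_fix
    rw [hρ', mul_smul, mul_smul, hg, hb' s hs, ← hg, inv_smul_smul]
  refine ⟨{ ρ := ρ', ψ := ψ.trans (DistribMulAction.toAddEquiv (Fin 2 → F) g⁻¹), inj := hinj',
            surj := hsurj', act := ?_, hT := ?_, TL := ?_ }⟩
  · intro l v
    obtain ⟨w, hw, h⟩ := hact l v
    refine ⟨w, hw, ?_⟩
    show g⁻¹ • ψ (Additive.ofMul w) = ρ' l • (g⁻¹ • ψ (Additive.ofMul v))
    rw [h, hρ', mul_smul, mul_smul, smul_inv_smul]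
    rfl
  · intro l
    constructor
    · rintro ⟨s, hs, hsl⟩
      have e : s = l := Subtype.ext hsl
      subst e
      have h2 : s ∈ (slU : Subgroup SL(2, F)).comap ρ' := by rw [hS]; exact hs
      exact h2
    · intro h
      have h2 : l ∈ (slU : Subgroup SL(2, F)).comap ρ' := h
      rw [hS] at h2
      exact ⟨l, h2, rfl⟩
  · rintro _ ⟨s, _, rfl⟩
    exact s.2

end aux

/-- Let L act on the elementary abelian p-group V (inside a finite group, faithfully) as SL₂(F) on its natural module, F a field with p^n elements, S a Sylow p-subgroup of L. Then: for every g ∈ L not normalizing S, V is the internal direct product of C_V(S) and C_V(gSg⁻¹); every nonidentity element of L of order prime to p acts on V without nonidentity fixed points; and C_V(S) and V/C_V(S) are irreducible for N_L(S): the only N_L(S)-invariant subgroups of C_V(S) are 1 and C_V(S), and the only N_L(S)-invariant subgroups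 between C_V(S) and V are those two. -/
theorem result {G : Type*} [Group G] [Finite G] {p : ℕ} [Fact p.Prime] {F : Type*} [Field F] [Fintype F] (n : ℕ) (hF : Fintype.card F = p ^ n) (V L : Subgroup G) (hnat : Cfsg.IsNaturalSL2Module F V L) (hf : L ⊓ Subgroup.centralizer (V : Set G) = ⊥) (S : Sylow p ↥L) (T : Subgroup G) (hT : T = ((S : Subgroup ↥L).map L.subtype)) : (∀ g ∈ L, g ∉ Subgroup.normalizer (T : Set G) → Cfsg.IsInternalDirectProduct (V ⊓ Subgroup.centralizer ((T : Subgroup G) : Set G)) (V ⊓ Subgroup.centralizer ((T.map (MulAut.conj g).toMonoidHom : Subgroup G) : Set G)) V) ∧ (∀ x ∈ L, x ≠ 1 → (orderOf x).Coprime p → (V ⊓ Subgroup.centralizer ({x} : Set G)) = ⊥) ∧ (∀ U : Subgroup G, U ≤ (V ⊓ Subgroup.centralizer ((T : Subgroup G) : Set G)) → L ⊓ Subgroup.normalizer (T : Set G) ≤ Subgroup.normalizer (U : Set G) → U = ⊥ ∨ U = (V ⊓ Subgroup.centralizer ((T : Subgroup G) : Set G)))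 ∧ (∀ U : Subgroup G, (V ⊓ Subgroup.centralizer ((T : Subgroup G) : Set G)) ≤ U → U ≤ V → L ⊓ Subgroup.normalizer (T : Set G) ≤ Subgroup.normalizer (U : Set G) → U = (V ⊓ Subgroup.centralizer ((T : Subgroup G) : Set G)) ∨ U = V) := by
  haveI : CharP F p := by
    obtain ⟨r, hr⟩ := CharP.exists F
    haveI := hr
    obtain ⟨k, hrp, hk⟩ := FiniteField.card F r
    rw [hF] at hk
    have hn : n ≠ 0 := by
      rintro rfl
      rw [pow_zero] at hk
      have := Nat.one_lt_pow k.ne_zero hrp.one_lt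
      omega
    have h1 : p ∣ r ^ (k : ℕ) := by rw [← hk]; exact dvd_pow_self p hn
    have h2 : p ∣ r := (Fact.out : p.Prime).dvd_of_dvd_pow h1
    have h3 : p = r := (Nat.prime_dvd_prime_iff_eq Fact.out hrp).1 h2
    rw [h3]; exact hr
  subst hT
  obtain ⟨D⟩ := exists_dat p V L hnat hf S
  exact ⟨fun g hg hgN => part1 D g hg hgN, fun x hx hx1 hco => part2 p D x hx hx1 hco,
    fun U h1 h2 => part3 D U h1 h2, fun U h1 h2 h3 => part4 D U h1 h2 h3⟩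

end Cfsg.Agent.S2780
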