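import Cfsg.Statements.S2791
-- import your own Cfsg.Agent.* helpers here
import Mathlib
import Cfsg.Agent.Lib.Helper13.StrongClosed
import Cfsg.Agent.Lib.Helper13.Chain

set_option autoImplicit false
open Cfsg

namespace Cfsg.Agent.S2791

open Cfsg.Agent.Lib.Helper13

/-- Let S be a Sylow p-subgroup of the finite group G and A an abelian subgroup of S that is strongly closed in S with respect to G. Then A controls strong fusion in G: for some Sylow p-subgroup T containing A, whenever a subset of T is conjugated into T by an element of G, the same elementwise conjugation is induced by an element of N_G(A). -/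
theorem result {G : Type*} [Group G] [Finite G] {p : ℕ} [Fact p.Prime] (S : Sylow p G) (A : Subgroup G) (hA : IsMulCommutative ↥A) (hsc : Cfsg.IsStronglyClosed A (S : Subgroup G)) : Cfsg.ControlsStrongFusion p A := by
  classical
  let R : ℕ → Subgroup G := fun i => match i with
    | 0 => A
    | _ => ⊥
  have main := controls_of_chain S R 1 hsc.1 rfl (by
    intro i a ha g hg
    match i with
    | 0 =>
      have := hsc.2 a ha g⁻¹ (by rw [inv_inv]; exact hg)
      rwa [inv_inv] at this
    | (i + 1) =>
      have ha' : a = 1 := Subgroup.mem_bot.mp ha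
      rw [ha']; simp) (by
    intro i
    match i with
    | 0 =>
      change ⁅A, A⁆ ≤ ⊥
      rw [le_bot_iff, Subgroup.commutator_eq_bot_iff_le_centralizer]
      intro x hx
      rw [Subgroup.mem_centralizer_iff]
      intro y hy
      exact congrArg Subtype.val (hA.is_comm.comm ⟨y, hy⟩ ⟨x, hx⟩)
    | (i + 1) =>
      change ⁅(⊥ : Subgroup G), A⁆ ≤ ⊥
      rw [Subgroup.commutator_bot_left])
  refine ⟨S, hsc.1, fun B hB => ⟨hB, fun g hg => ?_⟩⟩
  have h1 : Subgroup.closure B ≤ (S : Subgroup G) := (Subgroup.closure_le _).mpr hB
  have h2 : cj (Subgroup.closure B) g⁻¹ ≤ (S : Subgroup G) := by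
    apply cj_closure_le_of_image_subset
    simpa using hg
  obtain ⟨x, hx, e⟩ := main _ h1 g⁻¹ h2
  refine ⟨x⁻¹, inv_mem hx, fun a ha => ?_⟩
  have := e a (Subgroup.subset_closure ha)
  rw [inv_inv] at this ⊢
  exact this.symm

end Cfsg.Agent.S2791
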