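import Cfsg.Statements.S2941
import Cfsg.Agent.Lib.Helper17.Subn

set_option autoImplicit false
open Cfsg

namespace Cfsg.Agent.S2941

/-- Let G be a finite group of characteristic 2 type in which every 2-local subgroup is solvable and the centralizer of Ω₁(Z(S)) lies in N_G(S) for every Sylow 2-subgroup S, and let T be a nontrivial 2-subgroup and K a J(T)-component (J the Thompson subgroup generated by the elementary abelian 2-subgroups of largest order). If a subgroup Q is normalized by ⟨K, J(T)⟩ and normalizes J(T), then Q normalizes K. -/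
theorem result {G : Type*} [Group G] [Finite G] (hL : Cfsg.IsCharacteristicTwoType G) (hN : ∀ N : Subgroup G, Cfsg.IsTwoLocal N → Group.IsSolvable ↥N)
    (hZ : ∀ S : Sylow 2 G, Subgroup.centralizer (Cfsg.omegaCenterOf (S : Subgroup G) : Set G) ≤ Subgroup.normalizer ((S : Subgroup G) : Set G)) (T : Subgroup G) (hT : IsPGroup 2 ↥T) (hT1 : T ≠ ⊥) (K : Subgroup G) (hK : Cfsg.IsJComponent T K)
    (Q : Subgroup G) (hQ1 : K ⊔ Cfsg.thompsonSubgroupOf 2 T ≤ Subgroup.normalizer (Q : Set G)) (hQ2 : Q ≤ Subgroup.normalizer (Cfsg.thompsonSubgroupOf 2 T : Set G)) :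
    Q ≤ Subgroup.normalizer (K : Set G) := by
  open Cfsg.Agent.Lib.Helper17 in
  open scoped commutatorElement in
  obtain ⟨hK1, hK2, -, -, -, -⟩ := hK
  set J := Cfsg.thompsonSubgroupOf 2 T with hJ
  have hJT : J ≤ T := Subgroup.map_subtype_le _
  have hJp : IsPGroup 2 J := hT.to_le hJT
  have hJK : J ≤ Subgroup.normalizer (K : Set G) := by
    have := Subgroup.normalizer_commutator_ge_right K J
    rwa [hK2] at this
  have hQL : Q ≤ Subgroup.normalizer ((K ⊔ J : Subgroup G) : Set G) := by
    apply le_normalizer_of_conj_mem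
    intro q hq x hx
    have h1 : K ⊔ J ≤ (K ⊔ J).comap (MulAut.conj q).toMonoidHom := by
      apply sup_le
      · rw [← hK2, Subgroup.commutator_le]
        intro k hk j hj
        show q * ⁅k, j⁆ * q⁻¹ ∈ ⁅K, J⁆ ⊔ J
        rw [hK2, commutatorElement_def]
        have hq' : k⁻¹ * q * k⁻¹⁻¹ ∈ Q :=
          conj_mem_of_le_normalizer hQ1 (Subgroup.mem_sup_left (K.inv_mem hk)) hq
        have e : q * (k * j * k⁻¹ * j⁻¹) * q⁻¹ =
            k * ((k⁻¹ * q * k⁻¹⁻¹) * j * (k⁻¹ * q * k⁻¹⁻¹)⁻¹) * k⁻¹ * (q * j⁻¹ * q⁻¹) := by group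
        rw [e]
        have hkL : k ∈ K ⊔ J := Subgroup.mem_sup_left hk
        exact mul_mem (mul_mem (mul_mem hkL
          (Subgroup.mem_sup_right (conj_mem_of_le_normalizer hQ2 hq' hj))) (inv_mem hkL))
          (Subgroup.mem_sup_right (conj_mem_of_le_normalizer hQ2 hq (J.inv_mem hj)))
      · intro j hj
        exact Subgroup.mem_sup_right (conj_mem_of_le_normalizer hQ2 hq hj)
    exact h1 hx
  have hKop : opOf 2 (K ⊔ J) = K := by
    apply le_antisymm
    · apply opOf_le_of_pMod
      rw [sup_comm]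
      exact (pMod_of_isPGroup hJp K).sup hJK
    · conv_lhs => rw [← hK1]
      rw [Subgroup.closure_le]
      rintro g ⟨hg, hodd⟩
      exact mem_opOf (Subgroup.mem_sup_left hg) (Nat.coprime_two_right.mpr hodd)
  have := hQL.trans (normalizer_le_normalizer_opOf 2 (K ⊔ J))
  rwa [hKop] at this

end Cfsg.Agent.S2941
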