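import Cfsg.Statements.S2947
import Cfsg.Agent.Lib.Helper17.SE

set_option autoImplicit false
open Cfsg

namespace Cfsg.Agent.S2947

/-- Let G be a finite group of characteristic 2 type in which every 2-local subgroup is solvable and the centralizer of Ω₁(Z(S)) lies in N_G(S) for every Sylow 2-subgroup S; suppose O₂(G) = 1, fix a Sylow 2-subgroup S and a 2-local subgroup M containing N_G(J(S)) (J the Thompson subgroup generated by the elementary abelian 2-subgroups of largest order). Then M is strongly embedded in G (a proper subgroup of even order whose intersection with each conjugate by an element outside M has odd order) if and only if no nontrivial 2-subgroup of M lies in a 2-local subgroup of G not contained in M. -/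
theorem result {G : Type*} [Group G] [Finite G] (hL : Cfsg.IsCharacteristicTwoType G) (hN : ∀ N : Subgroup G, Cfsg.IsTwoLocal N → Group.IsSolvable ↥N)
    (hZ : ∀ S : Sylow 2 G, Subgroup.centralizer (Cfsg.omegaCenterOf (S : Subgroup G) : Set G) ≤ Subgroup.normalizer ((S : Subgroup G) : Set G)) (hO : Cfsg.pCore 2 G = ⊥) (S : Sylow 2 G) (M : Subgroup G) (hM : Cfsg.IsTwoLocal M)
    (hMJ : Subgroup.normalizer (Cfsg.thompsonSubgroupOf 2 (S : Subgroup G) : Set G) ≤ M) :
    Cfsg.IsStronglyEmbedded M ↔ Cfsg.straddlingTwoSubgroups M = ∅ := by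
  open Cfsg.Agent.Lib.Helper17 in
  obtain ⟨T0, hT0p, hT0ne, hMT0⟩ := hM
  have hT0M : T0 ≤ M := by rw [hMT0]; exact Subgroup.le_normalizer
  have hMtop : M ≠ ⊤ := by
    intro h
    apply hT0ne
    rw [hMT0, Subgroup.normalizer_eq_top_iff] at h
    rw [eq_bot_iff, ← hO]
    exact le_pCore h hT0p
  have hMeven : 2 ∣ Nat.card M :=
    (dvd_card_of_pgroup_ne_bot hT0p hT0ne).trans (Subgroup.card_dvd_of_le hT0M)
  constructor
  · rintro ⟨_, _, h⟩
    have hc : SEc 2 M := sEc_of_classical (fun g hg hd => by
      have := h g hg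
      rw [← Nat.not_even_iff_odd, even_iff_two_dvd] at this
      exact this hd)
    rw [Set.eq_empty_iff_forall_notMem]
    rintro T ⟨hTp, hTne, hTM, L, ⟨U, hUp, hUne, rfl⟩, hTL, hLM⟩
    apply hLM
    have hA : IsPGroup 2 (T ⊔ U : Subgroup G) := hTp.to_sup_of_normal_right' hUp hTL
    have hAM : T ⊔ U ≤ M := by
      apply hc.pgroup_le hA
      intro h0
      apply hTne
      rw [eq_bot_iff, ← h0]
      exact le_inf le_sup_left hTM
    exact hc U (le_sup_right.trans hAM) hUp hUne
  · intro h
    have hc : SEc 2 M := by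
      intro A hA hp hne
      by_contra hcon
      have : A ∈ Cfsg.straddlingTwoSubgroups M :=
        ⟨hp, hne, hA, _, ⟨A, hp, hne, rfl⟩, Subgroup.le_normalizer, hcon⟩
      rw [h] at this
      exact this
    refine ⟨hMtop, even_iff_two_dvd.mpr hMeven, ?_⟩
    intro g hg
    rw [← Nat.not_even_iff_odd, even_iff_two_dvd]
    intro hd
    exact hg (hc.mem_of_dvd hd)

end Cfsg.Agent.S2947
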