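import Cfsg.Statements.S3116
-- import your own Cfsg.Agent.* helpers here
import Mathlib

set_option autoImplicit false
open Cfsg

namespace Cfsg.Agent.S3116

theorem autP {X : Type*} [Group X] [Finite X] (x y : X) (k : ℕ) (hk : 0 < k)
    (hx : orderOf x = 2 ^ k)
    (hidx : (Subgroup.zpowers x).index = 2) (hy : y ∉ Subgroup.zpowers x)
    (hchar : ∀ g : X, orderOf g = 2 ^ k → g ∈ Subgroup.zpowers x) : IsPGroup 2 (MulAut X) := by
  intro φ
  have h1 : φ x ∈ Subgroup.zpowers x := hchar _ (by rw [MulEquiv.orderOf_eq]; exact hx)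
  obtain ⟨i, hi⟩ := mem_powers_iff_mem_zpowers.mpr h1
  have hi : x ^ i = φ x := hi
  have hcop : Nat.Coprime i (2 ^ k) := by
    have h2 : orderOf (x ^ i) = 2 ^ k := by rw [hi, MulEquiv.orderOf_eq]; exact hx
    rw [orderOf_pow, hx] at h2
    rcases Nat.div_eq_self.mp h2 with h3 | h3
    · exact absurd h3 (by positivity)
    · rw [Nat.Coprime, Nat.gcd_comm]; exact h3
  have hpow : ∀ t : ℕ, (φ ^ t) x = x ^ (i ^ t) := by
    intro t
    induction t with
    | zero => simp
    | succ t ih =>
      rw [pow_succ', MulAut.mul_apply, ih, map_pow, ← hi, ← pow_mul, pow_succ']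
  set ψ := φ ^ (2 ^ (k - 1)) with hψ
  have hψx : ψ x = x := by
    rw [hψ, hpow]
    have h2 := Nat.ModEq.pow_totient hcop
    rw [Nat.totient_prime_pow Nat.prime_two hk] at h2
    simp only [Nat.add_one_sub_one, mul_one] at h2
    have h3 : x ^ (i ^ 2 ^ (k - 1)) = x ^ 1 := by
      rw [pow_eq_pow_iff_modEq, hx]; exact h2
    rw [h3, pow_one]
  have hψC : ∀ c ∈ Subgroup.zpowers x, ψ c = c := by
    intro c hc
    obtain ⟨j, rfl⟩ := Subgroup.mem_zpowers_iff.mp hc
    rw [map_zpow, hψx]
  have hψy : ψ y ∉ Subgroup.zpowers x := by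
    intro h
    have h2 := hψC _ h
    have h3 := ψ.injective h2
    exact hy (h3 ▸ h)
  have hc : y⁻¹ * ψ y ∈ Subgroup.zpowers x := by
    rw [Subgroup.mul_mem_iff_of_index_two hidx, inv_mem_iff]
    exact ⟨fun h => absurd h hy, fun h => absurd h hψy⟩
  set c := y⁻¹ * ψ y with hcdef
  have hyc : ψ y = y * c := by rw [hcdef]; group
  have hpowy : ∀ t : ℕ, (ψ ^ t) y = y * c ^ t := by
    intro t
    induction t with
    | zero => simp
    | succ t ih =>
      rw [pow_succ', MulAut.mul_apply, ih, map_mul, hyc, map_pow, hψC c hc, pow_succ', mul_assoc]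
  have hpowC : ∀ t : ℕ, ∀ d ∈ Subgroup.zpowers x, (ψ ^ t) d = d := by
    intro t d hd
    induction t with
    | zero => simp
    | succ t ih => rw [pow_succ', MulAut.mul_apply, ih, hψC d hd]
  have hcN : c ^ (2 ^ k) = 1 := by
    obtain ⟨j, hj⟩ := Subgroup.mem_zpowers_iff.mp hc
    rw [← hj, ← zpow_natCast, ← zpow_mul, mul_comm, zpow_mul, zpow_natCast, ← hx, pow_orderOf_eq_one,
      one_zpow]
  refine ⟨(k - 1) + k, ?_⟩
  rw [pow_add, pow_mul, ← hψ]
  ext g
  rw [MulAut.one_apply]
  by_cases hg : g ∈ Subgroup.zpowers x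
  · exact hpowC _ g hg
  · have hd : y⁻¹ * g ∈ Subgroup.zpowers x := by
      rw [Subgroup.mul_mem_iff_of_index_two hidx, inv_mem_iff]
      exact ⟨fun h => absurd h hy, fun h => absurd h hg⟩
    have hg' : g = y * (y⁻¹ * g) := by group
    rw [hg', map_mul, hpowy, hcN, hpowC _ _ hd, mul_one]

/-- The automorphism group of a dihedral 2-group of order at least 8, or of a quasi-dihedral (semidihedral) 2-group of order at least 16, is a 2-group. -/
theorem result {X : Type*} [Group X] [Finite X] (h2 : IsPGroup 2 X)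
    (h : (∃ n : ℕ, 4 ≤ n ∧ Nonempty (X ≃* DihedralGroup n)) ∨ Cfsg.IsQuasiDihedral X) : IsPGroup 2 (MulAut X) := by
  rcases h with ⟨n, hn, ⟨e⟩⟩ | ⟨n, hn, hcard, x, y, hx, hy, hxy⟩
  · have hfin : Finite (DihedralGroup n) := Finite.of_equiv X e.toEquiv
    have hP : IsPGroup 2 (DihedralGroup n) := h2.of_equiv e
    obtain ⟨m, hm⟩ := IsPGroup.iff_card.mp hP
    rw [DihedralGroup.nat_card] at hm
    obtain ⟨k, hk⟩ : ∃ k, n = 2 ^ k := by
      cases m with
      | zero => omega
      | succ m => exact ⟨m, by rw [pow_succ'] at hm; omega⟩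
    have hk0 : 0 < k := by
      rcases Nat.eq_zero_or_pos k with h | h
      · subst h
        simp at hk
        omega
      · exact h
    have hne : NeZero n := ⟨by omega⟩
    have key := autP (X := DihedralGroup n) (DihedralGroup.r 1) (DihedralGroup.sr 0) k hk0
      (by rw [DihedralGroup.orderOf_r_one, hk]) ?_ ?_ ?_
    · exact key.of_equiv (MulAut.congr e).symm
    · have h1 := Subgroup.card_mul_index (Subgroup.zpowers (DihedralGroup.r (1 : ZMod n)))
      rw [Nat.card_zpowers, DihedralGroup.orderOf_r_one, DihedralGroup.nat_card, mul_comm] at h1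
      exact Nat.eq_of_mul_eq_mul_right (by omega) h1
    · intro h
      obtain ⟨j, hj⟩ := mem_powers_iff_mem_zpowers.mpr h
      have hj : DihedralGroup.r (1 : ZMod n) ^ j = DihedralGroup.sr 0 := hj
      rw [DihedralGroup.r_one_pow] at hj
      cases hj
    · intro g hg
      cases g with
      | r i =>
        refine Subgroup.mem_zpowers_iff.mpr ⟨(i.val : ℤ), ?_⟩
        rw [zpow_natCast, DihedralGroup.r_one_pow, ZMod.natCast_zmod_val]
      | sr i =>
        rw [DihedralGroup.orderOf_sr, ← hk] at hg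
        omega
  · have h8 : 4 ≤ 2 ^ (n - 1) := by
      calc 4 = 2 ^ 2 := by norm_num
        _ ≤ 2 ^ (n - 1) := Nat.pow_le_pow_right (by norm_num) (by omega)
    have h2n : 2 ^ n = 2 * 2 ^ (n - 1) := by
      rw [← pow_succ']; congr 1; omega
    have hidx : (Subgroup.zpowers x).index = 2 := by
      have h1 := Subgroup.card_mul_index (Subgroup.zpowers x)
      rw [Nat.card_zpowers, hx, hcard, pow_succ] at h1
      exact Nat.eq_of_mul_eq_mul_left (by positivity) h1
    have hyC : y ∉ Subgroup.zpowers x := by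
      intro h
      obtain ⟨j, rfl⟩ := Subgroup.mem_zpowers_iff.mp h
      have h1 : x ^ j * x * (x ^ j)⁻¹ = x := by group
      rw [h1] at hxy
      have h3 : x ^ (2 ^ (n - 1) - 1) = x ^ 1 := by rw [← hxy, pow_one]
      rw [pow_eq_pow_iff_modEq, hx] at h3
      have := Nat.ModEq.eq_of_lt_of_lt h3 (by omega) (by omega)
      omega
    refine autP x y n (by omega) hx hidx hyC ?_
    intro g hg
    by_contra hgC
    have hd : y⁻¹ * g ∈ Subgroup.zpowers x := by
      rw [Subgroup.mul_mem_iff_of_index_two hidx, inv_mem_iff]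
      exact ⟨fun h => absurd h hyC, fun h => absurd h hgC⟩
    obtain ⟨j, hj⟩ := mem_powers_iff_mem_zpowers.mpr hd
    have hj : x ^ j = y⁻¹ * g := hj
    have hg' : g = y * x ^ j := by rw [hj]; group
    have hy2 : y * y = 1 := by rw [← sq, ← hy, pow_orderOf_eq_one]
    have hyinv : y⁻¹ = y := inv_eq_of_mul_eq_one_right hy2
    have hconj : y * x ^ j * y = x ^ ((2 ^ (n - 1) - 1) * j) := by
      have := conj_pow (a := y) (b := x) (i := j)
      rw [hxy, hyinv, ← pow_mul] at this
      exact this.symm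
    have hgg : g * g = x ^ (2 ^ (n - 1) * j) := by
      rw [hg']
      calc y * x ^ j * (y * x ^ j) = (y * x ^ j * y) * x ^ j := by group
        _ = x ^ (2 ^ (n - 1) * j) := by
          rw [hconj, ← pow_add]
          congr 1
          have : 2 ^ (n - 1) = (2 ^ (n - 1) - 1) + 1 := by omega
          conv_rhs => rw [this]
          ring
    have hg4 : g ^ 4 = 1 := by
      have : g ^ 4 = (g * g) ^ 2 := by rw [← sq, ← pow_mul]
      rw [this, hgg, ← pow_mul]
      have e : 2 ^ (n - 1) * j * 2 = 2 ^ n * j := by rw [h2n]; ring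
      rw [e, pow_mul, ← hx, pow_orderOf_eq_one, one_pow]
    have := Nat.le_of_dvd (by norm_num) (orderOf_dvd_of_pow_eq_one hg4)
    omega

end Cfsg.Agent.S3116
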