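import Cfsg.Statements.S3362
-- import your own Cfsg.Agent.* helpers here
import Mathlib

set_option autoImplicit false
open Cfsg

namespace Cfsg.Agent.S3362

open Equiv in
theorem schreier_step {α : Type*} (S : Set (Perm α)) (H : Subgroup (Perm α)) (β : α)
    (hHβ : ∀ h ∈ H, h β = β) (hHS : H ≤ Subgroup.closure S) (U : α → Perm α) (O : Finset α)
    (hβO : β ∈ O) (hUβ : U β = 1) (hU : ∀ a ∈ O, U a ∈ Subgroup.closure S ∧ U a β = a)
    (hcl : ∀ s ∈ S, ∀ a ∈ O, s a ∈ O ∧ (U (s a))⁻¹ * (s * U a) ∈ H) :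
    (∀ g ∈ Subgroup.closure S, g β = β → g ∈ H) ∧
      Nat.card (Subgroup.closure S) = O.card * Nat.card H := by
  classical
  have hT : ∀ g ∈ Subgroup.closure S, g β ∈ O ∧ (U (g β))⁻¹ * g ∈ H := by
    intro g hg
    induction hg using Subgroup.closure_induction_left with
    | one =>
      refine ⟨hβO, ?_⟩
      simp [hUβ, H.one_mem]
    | mul_left s hs g hg ih =>
      obtain ⟨h1, h2⟩ := ih
      obtain ⟨h3, h4⟩ := hcl s hs _ h1
      refine ⟨h3, ?_⟩
      have : (U ((s * g) β))⁻¹ * (s * g) = ((U (s (g β)))⁻¹ * (s * U (g β))) * ((U (g β))⁻¹ * g) := by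
        rw [Perm.mul_apply]; group
      rw [this]
      exact H.mul_mem h4 h2
    | inv_mul_cancel s hs g hg ih =>
      obtain ⟨h1, h2⟩ := ih
      -- s permutes O
      have hmaps : ∀ a ∈ O, s a ∈ O := fun a ha => (hcl s hs a ha).1
      have hsurj : Set.SurjOn s O O :=
        Finset.surjOn_of_injOn_of_card_le s hmaps s.injective.injOn le_rfl
      obtain ⟨a', ha', hsa'⟩ := hsurj h1
      have ha'' : s⁻¹ (g β) = a' := by rw [← hsa']; simp
      have h4 := (hcl s hs a' ha').2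
      rw [hsa'] at h4
      refine ⟨by rw [Perm.mul_apply, ha'']; exact ha', ?_⟩
      have : (U ((s⁻¹ * g) β))⁻¹ * (s⁻¹ * g) = ((U (g β))⁻¹ * (s * U a'))⁻¹ * ((U (g β))⁻¹ * g) := by
        rw [Perm.mul_apply, ha'']; group
      rw [this]
      exact H.mul_mem (H.inv_mem h4) h2
  constructor
  · intro g hg hgβ
    have := (hT g hg).2
    rwa [hgβ, hUβ, inv_one, one_mul] at this
  · let e : Subgroup.closure S ≃ O × H :=
      { toFun := fun g => (⟨g.1 β, (hT g.1 g.2).1⟩, ⟨(U (g.1 β))⁻¹ * g.1, (hT g.1 g.2).2⟩)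
        invFun := fun x => ⟨U x.1.1 * x.2.1, Subgroup.mul_mem _ (hU x.1.1 x.1.2).1 (hHS x.2.2)⟩
        left_inv := by
          intro g
          apply Subtype.ext
          simp
        right_inv := by
          rintro ⟨⟨a, ha⟩, ⟨h, hh⟩⟩
          have h1 : (U a * h) β = a := by
            rw [Perm.mul_apply, hHβ h hh, (hU a ha).2]
          apply Prod.ext
          · apply Subtype.ext
            exact h1
          · apply Subtype.ext
            show (U ((U a * h) β))⁻¹ * (U a * h) = h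
            rw [h1]; group }
    rw [Nat.card_congr e, Nat.card_prod, Nat.card_eq_fintype_card, Fintype.card_coe]

def gen : ℕ → Equiv.Perm (Fin 12)
  | 0 => Equiv.swap (4 : Fin 12) 9 * Equiv.swap (4 : Fin 12) 5 * Equiv.swap (4 : Fin 12) 6 * Equiv.swap (7 : Fin 12) 10 * Equiv.swap (7 : Fin 12) 11 * Equiv.swap (7 : Fin 12) 8
  | 1 => Equiv.swap (4 : Fin 12) 11 * Equiv.swap (4 : Fin 12) 5 * Equiv.swap (4 : Fin 12) 7 * Equiv.swap (6 : Fin 12) 8 * Equiv.swap (6 : Fin 12) 9 * Equiv.swap (6 : Fin 12) 10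
  | 2 => Equiv.swap (4 : Fin 12) 8 * Equiv.swap (4 : Fin 12) 5 * Equiv.swap (4 : Fin 12) 10 * Equiv.swap (6 : Fin 12) 7 * Equiv.swap (6 : Fin 12) 9 * Equiv.swap (6 : Fin 12) 11
  | 3 => Equiv.swap (3 : Fin 12) 5 * Equiv.swap (3 : Fin 12) 4 * Equiv.swap (6 : Fin 12) 8 * Equiv.swap (6 : Fin 12) 7 * Equiv.swap (9 : Fin 12) 11 * Equiv.swap (9 : Fin 12) 10
  | 4 => Equiv.swap (3 : Fin 12) 9 * Equiv.swap (3 : Fin 12) 6 * Equiv.swap (4 : Fin 12) 10 * Equiv.swap (4 : Fin 12) 7 * Equiv.swap (5 : Fin 12) 11 * Equiv.swap (5 : Fin 12) 8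
  | 5 => Equiv.swap (0 : Fin 12) 3 * Equiv.swap (6 : Fin 12) 7 * Equiv.swap (8 : Fin 12) 10 * Equiv.swap (9 : Fin 12) 11
  | 6 => Equiv.swap (0 : Fin 12) 1 * Equiv.swap (6 : Fin 12) 9 * Equiv.swap (7 : Fin 12) 10 * Equiv.swap (8 : Fin 12) 11
  | 7 => Equiv.swap (1 : Fin 12) 2 * Equiv.swap (6 : Fin 12) 11 * Equiv.swap (7 : Fin 12) 9 * Equiv.swap (8 : Fin 12) 10
  | _ => 1

def ev : List ℕ → Equiv.Perm (Fin 12)
  | [] => 1
  | g :: w => gen g * ev w

def grp (m : ℕ) : Subgroup (Equiv.Perm (Fin 12)) := Subgroup.closure {g | ∃ i < m, gen i = g}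

theorem grp_mono {m m' : ℕ} (h : m ≤ m') : grp m ≤ grp m' :=
  Subgroup.closure_mono (fun _ ⟨i, hi, hg⟩ => ⟨i, hi.trans_le h, hg⟩)

theorem ev_mem (m : ℕ) (w : List ℕ) (h : ∀ i ∈ w, i < m) : ev w ∈ grp m := by
  induction w with
  | nil => exact Subgroup.one_mem _
  | cons g w ih =>
    exact Subgroup.mul_mem _ (Subgroup.subset_closure ⟨g, h g (by simp), rfl⟩)
      (ih (fun i hi => h i (by simp [hi])))

def Wd : ℕ → List (List ℕ)
  | 0 => [[6, 7], [7], [], [5, 6, 7], [3, 5, 6, 7], [3, 3, 5, 6, 7], [4, 5, 6, 7], [1, 3, 5, 6, 7], [0, 1, 3, 5, 6, 7], [4, 4, 5, 6, 7], [2, 3, 5, 6, 7], [2, 4, 5, 6, 7]]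
  | 1 => [[6], [], [], [5, 6], [3, 5, 6], [3, 3, 5, 6], [4, 5, 6], [1, 3, 5, 6], [0, 1, 3, 5, 6], [4, 4, 5, 6], [2, 3, 5, 6], [2, 4, 5, 6]]
  | 2 => [[], [], [], [5], [3, 5], [3, 3, 5], [4, 5], [1, 3, 5], [0, 1, 3, 5], [4, 4, 5], [2, 3, 5], [2, 4, 5]]
  | 3 => [[], [], [], [], [3], [3, 3], [4], [1, 3], [0, 1, 3], [4, 4], [2, 3], [2, 4]]
  | 4 => [[], [], [], [], [], [0, 0], [0], [1], [0, 1], [1, 2], [2], [2, 0]]
  | _ => []

def Cd : ℕ → List (List (List ℕ))
  | 0 => [[[1], [2, 0], [0], [0, 1], [0, 1], [0, 1], [0, 1], [], [0, 1], [0, 1], [], [2]], [[0, 1], [1, 2], [1], [1], [], [2], [2], [0, 0], [0, 1], [0, 1], [2], [2]], [[1, 2], [0, 1], [2], [0], [], [0, 0], [], [0, 1], [], [0, 1], [0, 0], [0, 0]], [[3], [3], [3], [], [], [], [2, 0], [0, 1], [1, 2], [1, 2], [], [0]], [[1, 3, 2, 0], [2, 4, 0, 1], [4], [], [2, 0], [0], [], [2], [0, 0], [], [0], [0]], [[], [5], [5], [], [3, 3, 0, 0], [3, 0, 0], [3, 3, 0, 1], [2, 3], [3,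 3, 0, 0], [2, 3, 0, 1], [3, 3, 0, 0], [0, 1, 3, 2]], [[], [], [6], [5], [5], [5], [5], [5], [5, 2], [5], [5], [5, 2]], [[6], [], [], [6], [6], [6], [6, 0], [6, 1], [6], [6, 0, 1], [6], [6, 0]]]
  | 1 => [[[1, 2], [0], [], [2], [2], [2], [2], [], [2], [2], [], [0, 1]], [[2], [1], [], [1, 2], [], [0, 1], [0, 1], [0, 0], [2], [2], [0, 1], [0, 1]], [[1], [2], [], [2, 0], [], [0, 0], [], [2], [], [2], [0, 0], [0, 0]], [[3], [3], [], [], [], [], [0], [2], [1], [1], [], [2, 0]], [[4, 4], [4], [], [], [0], [2, 0], [], [0, 1], [0, 0], [], [2, 0], [2, 0]], [[], [5], [], [], [3, 3, 0, 0], [3, 0, 0], [3, 3, 2], [0, 1, 3], [3, 3, 0, 0], [0, 1, 3, 2], [3, 3, 0, 0], [2, 3, 0, 1]], [[], [], [], [5], [5], [5], [5], [5], [5, 0, 1], [5], [5], [5, 0, 1]]]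
  | 2 => [[[0], [], [], [1], [1], [1], [1], [], [1], [1], [], [2, 0]], [[1], [], [], [0], [], [2, 0], [2, 0], [0, 0], [1], [1], [2, 0], [2, 0]], [[2], [], [], [0, 1], [], [0, 0], [], [1], [], [1], [0, 0], [0, 0]], [[3], [], [], [], [], [], [1, 2], [1], [2], [2], [], [0, 1]], [[4], [], [], [], [1, 2], [0, 1], [], [2, 0], [0, 0], [], [0, 1], [0, 1]], [[], [], [], [], [3, 3, 0, 0], [3, 0, 0], [3, 3, 1], [2, 4, 0], [3, 3, 0, 0], [2, 4, 0, 1], [3, 3, 0, 0], [1, 3, 2, 0]]]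
  | 3 => [[[], [], [], [0], [0], [0], [0], [], [0], [0], [], [1, 2]], [[], [], [], [1], [], [1, 2], [1, 2], [0, 0], [0], [0], [1, 2], [1, 2]], [[], [], [], [2], [], [0, 0], [], [0], [], [0], [0, 0], [0, 0]], [[], [], [], [], [], [], [2, 0], [0], [0, 1], [0, 1], [], [2]], [[], [], [], [], [2, 0], [2], [], [1, 2], [0, 0], [], [2], [2]]]
  | 4 => [[[], [], [], [], [], [], [], [], [], [], [], []], [[], [], [], [], [], [], [], [], [], [], [], []], [[], [], [], [], [], [], [], [], [], [], [], []]]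
  | _ => []

def Od : ℕ → List (Fin 12)
  | 0 => [0, 1, 2, 3, 4, 5, 6, 7, 8, 9, 10, 11]
  | 1 => [0, 1, 3, 4, 5, 6, 7, 8, 9, 10, 11]
  | 2 => [0, 3, 4, 5, 6, 7, 8, 9, 10, 11]
  | 3 => [3, 4, 5, 6, 7, 8, 9, 10, 11]
  | 4 => [4, 5, 6, 7, 8, 9, 10, 11]
  | _ => []

def Wf (l : ℕ) (a : Fin 12) : List ℕ := (Wd l).getD a.val []
def Cf (l s : ℕ) (a : Fin 12) : List ℕ := ((Cd l).getD s []).getD a.val []

def permEq (p q : Equiv.Perm (Fin 12)) : Bool := (List.finRange 12).all fun i => p i == q i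

theorem permEq_iff {p q : Equiv.Perm (Fin 12)} (h : permEq p q = true) : p = q := by
  ext i
  have := (List.all_eq_true.1 h) i (List.mem_finRange i)
  rw [beq_iff_eq] at this
  rw [this]

/-- The check at one level. -/
def chk (l m m' : ℕ) (β : Fin 12) : Bool :=
  (Od l).contains β && (Wf l β).isEmpty &&
  ((List.range m').all fun s => gen s β == β) &&
  (Od l).all fun a =>
    (Wf l a).all (· < m) && (ev (Wf l a) β == a) &&
    (List.range m).all fun s =>
      (Od l).contains (gen s a) && (Cf l s a).all (· < m') &&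
      permEq (gen s * ev (Wf l a)) (ev (Wf l (gen s a)) * ev (Cf l s a))

theorem level (l m m' : ℕ) (β : Fin 12) (hmm : m' ≤ m) (h : chk l m m' β = true) :
    (∀ g ∈ grp m, g β = β → g ∈ grp m') ∧ (∀ g ∈ grp m', g β = β) ∧
      Nat.card (grp m) = (Od l).toFinset.card * Nat.card (grp m') := by
  unfold chk at h
  simp only [Bool.and_eq_true, List.all_eq_true, List.mem_range, beq_iff_eq,
    List.contains_iff_mem, decide_eq_true_eq, List.isEmpty_iff] at h
  obtain ⟨⟨⟨h1, h2⟩, h3⟩, h4⟩ := h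
  have hfix : ∀ g ∈ grp m', g β = β := by
    intro g hg
    have : grp m' ≤ MulAction.stabilizer (Equiv.Perm (Fin 12)) β := by
      unfold grp
      rw [Subgroup.closure_le]
      rintro _ ⟨i, hi, rfl⟩
      exact h3 i hi
    exact this hg
  have key := schreier_step {g | ∃ i < m, gen i = g} (grp m') β hfix (grp_mono hmm)
    (fun a => ev (Wf l a)) (Od l).toFinset (List.mem_toFinset.2 h1) (by simp only [h2]; rfl)
    (by
      intro a ha
      rw [List.mem_toFinset] at ha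
      obtain ⟨⟨h5, h6⟩, -⟩ := h4 a ha
      exact ⟨ev_mem m _ h5, h6⟩)
    (by
      rintro _ ⟨s, hs, rfl⟩ a ha
      rw [List.mem_toFinset] at ha
      obtain ⟨-, h7⟩ := h4 a ha
      obtain ⟨⟨h8, h9⟩, h10⟩ := h7 s hs
      refine ⟨List.mem_toFinset.2 h8, ?_⟩
      rw [permEq_iff h10, inv_mul_cancel_left]
      exact ev_mem m' _ h9)
  exact ⟨key.1, hfix, key.2⟩

theorem chk0 : chk 0 8 7 2 = true := by decide +kernel
theorem chk1 : chk 1 7 6 1 = true := by decide +kernel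
theorem chk2 : chk 2 6 5 0 = true := by decide +kernel
theorem chk3 : chk 3 5 3 3 = true := by decide +kernel
theorem chk4 : chk 4 3 0 4 = true := by decide +kernel

theorem grp_zero : grp 0 = ⊥ := by
  unfold grp
  rw [Subgroup.closure_eq_bot_iff]
  rintro _ ⟨i, hi, -⟩
  omega

theorem card3 : Nat.card (grp 3) = 8 := by
  rw [(level 4 3 0 4 (by norm_num) chk4).2.2, grp_zero, Subgroup.card_bot]; decide
theorem card5 : Nat.card (grp 5) = 72 := by
  rw [(level 3 5 3 3 (by norm_num) chk3).2.2, card3]; decide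
theorem card6 : Nat.card (grp 6) = 720 := by
  rw [(level 2 6 5 0 (by norm_num) chk2).2.2, card5]; decide
theorem card7 : Nat.card (grp 7) = 7920 := by
  rw [(level 1 7 6 1 (by norm_num) chk1).2.2, card6]; decide
theorem card8 : Nat.card (grp 8) = 95040 := by
  rw [(level 0 8 7 2 (by norm_num) chk0).2.2, card7]; decide

theorem eq_one_of_fix (g : Equiv.Perm (Fin 12)) (hg : g ∈ grp 8) (h2 : g 2 = 2) (h1 : g 1 = 1)
    (h0 : g 0 = 0) (h3 : g 3 = 3) (h4 : g 4 = 4) : g = 1 := by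
  have a1 := (level 0 8 7 2 (by norm_num) chk0).1 g hg h2
  have a2 := (level 1 7 6 1 (by norm_num) chk1).1 g a1 h1
  have a3 := (level 2 6 5 0 (by norm_num) chk2).1 g a2 h0
  have a4 := (level 3 5 3 3 (by norm_num) chk3).1 g a3 h3
  have a5 := (level 4 3 0 4 (by norm_num) chk4).1 g a4 h4
  rw [grp_zero] at a5
  exact a5

def y0 : Fin 5 ↪ Fin 12 := ⟨![2, 1, 0, 3, 4], by decide⟩

/-- An explicit construction of the Mathieu groups of degrees 11 and 12. On the points 0, …, 11 let s = (3 4 5)(6 7 8)(9 10 11), t = (3 6 9)(4 7 10)(5 8 11), u = (4 6 5 9)(7 8 11 10), v = (4 7 5 11)(6 10 9 8), w = (4 10 5 8)(6 11 9 7), x₁ = (0 3)(6 7)(8 10)(9 11), x₂ = (0 1)(6 9)(7 10)(8 11), x₃ = (1 2)(6 11)(7 9)(8 10) (each written as a product of transpositions). Then the group M₁₂ generated by all eight permutations is sharply 5-transitive on the 12 points and has order 95040, and the group M₁₁ generated by the first seven has order 7920 and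 is the stabilizer of the point 2 in M₁₂. -/
theorem result
    (s t u v w x₁ x₂ x₃ : Equiv.Perm (Fin 12))
    (hs : s = Equiv.swap (3 : Fin 12) 5 * Equiv.swap (3 : Fin 12) 4 * Equiv.swap (6 : Fin 12) 8 * Equiv.swap (6 : Fin 12) 7 * Equiv.swap (9 : Fin 12) 11 * Equiv.swap (9 : Fin 12) 10) (ht : t = Equiv.swap (3 : Fin 12) 9 * Equiv.swap (3 : Fin 12) 6 * Equiv.swap (4 : Fin 12) 10 * Equiv.swap (4 : Fin 12) 7 * Equiv.swap (5 : Fin 12) 11 * Equiv.swap (5 : Fin 12) 8)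
    (hu : u = Equiv.swap (4 : Fin 12) 9 * Equiv.swap (4 : Fin 12) 5 * Equiv.swap (4 : Fin 12) 6 * Equiv.swap (7 : Fin 12) 10 * Equiv.swap (7 : Fin 12) 11 * Equiv.swap (7 : Fin 12) 8) (hv : v = Equiv.swap (4 : Fin 12) 11 * Equiv.swap (4 : Fin 12) 5 * Equiv.swap (4 : Fin 12) 7 * Equiv.swap (6 : Fin 12) 8 * Equiv.swap (6 : Fin 12) 9 * Equiv.swap (6 : Fin 12) 10) (hw : w = Equiv.swap (4 : Fin 12) 8 * Equiv.swap (4 : Fin 12) 5 * Equiv.swap (4 : Fin 12) 10 * Equiv.swap (6 : Fin 12) 7 * Equiv.swap (6 : Fin 12) 9 * Equiv.swap (6 : Fin 12) 11)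
    (hx₁ : x₁ = Equiv.swap (0 : Fin 12) 3 * Equiv.swap (6 : Fin 12) 7 * Equiv.swap (8 : Fin 12) 10 * Equiv.swap (9 : Fin 12) 11) (hx₂ : x₂ = Equiv.swap (0 : Fin 12) 1 * Equiv.swap (6 : Fin 12) 9 * Equiv.swap (7 : Fin 12) 10 * Equiv.swap (8 : Fin 12) 11)
    (hx₃ : x₃ = Equiv.swap (1 : Fin 12) 2 * Equiv.swap (6 : Fin 12) 11 * Equiv.swap (7 : Fin 12) 9 * Equiv.swap (8 : Fin 12) 10)
    (M₁₂ M₁₁ : Subgroup (Equiv.Perm (Fin 12))) (hM₁₂ : M₁₂ = Subgroup.closure {s, t, u, v, w, x₁, x₂, x₃})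
    (hM₁₁ : M₁₁ = Subgroup.closure {s, t, u, v, w, x₁, x₂}) :
    MulAction.IsMultiplyPretransitive M₁₂ (Fin 12) 5 ∧ (∀ y : Fin 5 ↪ Fin 12, MulAction.stabilizer M₁₂ y = ⊥) ∧
    Nat.card M₁₂ = 95040 ∧ Nat.card M₁₁ = 7920 ∧
    M₁₁ = M₁₂ ⊓ MulAction.stabilizer (Equiv.Perm (Fin 12)) (2 : Fin 12) := by
  have hM12 : M₁₂ = grp 8 := by
    rw [hM₁₂]
    apply le_antisymm
    · rw [Subgroup.closure_le]
      intro g hg
      simp only [Set.mem_insert_iff, Set.mem_singleton_iff] at hg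
      rcases hg with rfl | rfl | rfl | rfl | rfl | rfl | rfl | rfl
      · exact Subgroup.subset_closure ⟨3, by norm_num, hs.symm⟩
      · exact Subgroup.subset_closure ⟨4, by norm_num, ht.symm⟩
      · exact Subgroup.subset_closure ⟨0, by norm_num, hu.symm⟩
      · exact Subgroup.subset_closure ⟨1, by norm_num, hv.symm⟩
      · exact Subgroup.subset_closure ⟨2, by norm_num, hw.symm⟩
      · exact Subgroup.subset_closure ⟨5, by norm_num, hx₁.symm⟩
      · exact Subgroup.subset_closure ⟨6, by norm_num, hx₂.symm⟩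
      · exact Subgroup.subset_closure ⟨7, by norm_num, hx₃.symm⟩
    · unfold grp
      rw [Subgroup.closure_le]
      rintro _ ⟨i, hi, rfl⟩
      apply Subgroup.subset_closure
      interval_cases i
      · rw [show gen 0 = u from hu.symm]; simp
      · rw [show gen 1 = v from hv.symm]; simp
      · rw [show gen 2 = w from hw.symm]; simp
      · rw [show gen 3 = s from hs.symm]; simp
      · rw [show gen 4 = t from ht.symm]; simp
      · rw [show gen 5 = x₁ from hx₁.symm]; simp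
      · rw [show gen 6 = x₂ from hx₂.symm]; simp
      · rw [show gen 7 = x₃ from hx₃.symm]; simp
  have hM11 : M₁₁ = grp 7 := by
    rw [hM₁₁]
    apply le_antisymm
    · rw [Subgroup.closure_le]
      intro g hg
      simp only [Set.mem_insert_iff, Set.mem_singleton_iff] at hg
      rcases hg with rfl | rfl | rfl | rfl | rfl | rfl | rfl
      · exact Subgroup.subset_closure ⟨3, by norm_num, hs.symm⟩
      · exact Subgroup.subset_closure ⟨4, by norm_num, ht.symm⟩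
      · exact Subgroup.subset_closure ⟨0, by norm_num, hu.symm⟩
      · exact Subgroup.subset_closure ⟨1, by norm_num, hv.symm⟩
      · exact Subgroup.subset_closure ⟨2, by norm_num, hw.symm⟩
      · exact Subgroup.subset_closure ⟨5, by norm_num, hx₁.symm⟩
      · exact Subgroup.subset_closure ⟨6, by norm_num, hx₂.symm⟩
    · unfold grp
      rw [Subgroup.closure_le]
      rintro _ ⟨i, hi, rfl⟩
      apply Subgroup.subset_closure
      interval_cases i
      · rw [show gen 0 = u from hu.symm]; simp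
      · rw [show gen 1 = v from hv.symm]; simp
      · rw [show gen 2 = w from hw.symm]; simp
      · rw [show gen 3 = s from hs.symm]; simp
      · rw [show gen 4 = t from ht.symm]; simp
      · rw [show gen 5 = x₁ from hx₁.symm]; simp
      · rw [show gen 6 = x₂ from hx₂.symm]; simp
  clear hM₁₂ hM₁₁ hs ht hu hv hw hx₁ hx₂ hx₃
  subst hM12 hM11
  have hfix0 : ∀ g : grp 8, (∀ i : Fin 5, (g : Equiv.Perm (Fin 12)) (y0 i) = y0 i) → g = 1 := by
    intro g hpt
    apply Subtype.ext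
    exact eq_one_of_fix g g.2 (hpt 0) (hpt 1) (hpt 2) (hpt 3) (hpt 4)
  have hstab0 : MulAction.stabilizer (grp 8) y0 = ⊥ := by
    rw [eq_bot_iff]
    intro g hg
    rw [MulAction.mem_stabilizer_iff] at hg
    rw [Subgroup.mem_bot]
    apply hfix0
    intro i
    exact DFunLike.congr_fun hg i
  have horb : ∀ y : Fin 5 ↪ Fin 12, ∃ g : grp 8, ∀ i, (g : Equiv.Perm (Fin 12)) (y0 i) = y i := by
    have h := MulAction.index_stabilizer (grp 8) y0
    rw [hstab0, Subgroup.index_bot, card8] at h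
    have h2 := Set.eq_of_subset_of_ncard_le (Set.subset_univ _) (by
      rw [← h, Set.ncard_univ, Nat.card_eq_fintype_card, Fintype.card_embedding_eq]
      simp [Nat.descFactorial]) (Set.toFinite _)
    intro y
    have h3 : y ∈ (Set.univ : Set (Fin 5 ↪ Fin 12)) := trivial
    rw [← h2] at h3
    obtain ⟨g, hg⟩ := h3
    exact ⟨g, fun i => DFunLike.congr_fun hg i⟩
  refine ⟨?_, ?_, card8, card7, ?_⟩
  · constructor
    intro y y'
    obtain ⟨g, hg⟩ := horb y
    obtain ⟨g', hg'⟩ := horb y'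
    refine ⟨g' * g⁻¹, ?_⟩
    ext i
    show (((g' * g⁻¹ : grp 8) : Equiv.Perm (Fin 12)) (y i) : ℕ) = y' i
    rw [← hg i, ← hg' i]
    simp
  · intro y
    obtain ⟨g, hg⟩ := horb y
    rw [eq_bot_iff]
    intro h hh
    rw [MulAction.mem_stabilizer_iff] at hh
    have hh' : ∀ i, (h : Equiv.Perm (Fin 12)) (y i) = y i := fun i => DFunLike.congr_fun hh i
    rw [Subgroup.mem_bot]
    have h1 : g⁻¹ * h * g = 1 := by
      apply hfix0
      intro i
      show ((g : Equiv.Perm (Fin 12))⁻¹ * (h : Equiv.Perm (Fin 12)) * (g : Equiv.Perm (Fin 12))) (y0 i) = y0 i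
      rw [Equiv.Perm.mul_apply, Equiv.Perm.mul_apply, hg i, hh' i, ← hg i]
      simp
    have : h = g * (g⁻¹ * h * g) * g⁻¹ := by group
    rw [this, h1]; simp
  · apply le_antisymm
    · apply le_inf (grp_mono (by norm_num))
      intro g hg
      exact (level 0 8 7 2 (by norm_num) chk0).2.1 g hg
    · rintro g ⟨hg1, hg2⟩
      exact (level 0 8 7 2 (by norm_num) chk0).1 g hg1 hg2

end Cfsg.Agent.S3362
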