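import Cfsg.Statements.S3379
-- import your own Cfsg.Agent.* helpers here
import Mathlib

set_option autoImplicit false
open Cfsg

namespace Cfsg.Agent.S3379

/-- Let G be a finite group all of whose Sylow subgroups are cyclic. Then G is generated by two elements x and y of coprime orders n and m with x⁻¹yx = y^r, where gcd(r − 1, m) = 1 and r^n ≡ 1 (mod m). -/
theorem result {G : Type*} [Group G] [Finite G]
    (hZ : ∀ (p : ℕ) [Fact p.Prime] (P : Sylow p G), IsCyclic (P : Subgroup G)) :
    ∃ (x y : G) (n m r : ℕ), Subgroup.closure {x, y} = ⊤ ∧ orderOf x = n ∧ orderOf y = m ∧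
      x⁻¹ * y * x = y ^ r ∧ Nat.Coprime (r - 1) m ∧ Nat.Coprime n m ∧ 1 ≤ r ∧ r ^ n % m = 1 % m := by
  classical
  have hZG : IsZGroup G := ⟨fun p hp P => by
    have := Fact.mk hp
    exact hZ p P⟩
  have hcop := IsZGroup.coprime_commutator_index G
  obtain ⟨H, hH⟩ := Subgroup.exists_right_complement'_of_coprime hcop
  have h1 : Abelianization G ≃* H := hH.symm.QuotientMulEquiv
  have hHcyc : IsCyclic H := isCyclic_of_surjective _ h1.surjective
  have hNcyc : IsCyclic (commutator G) := IsZGroup.isCyclic_commutator G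
  obtain ⟨⟨x, hxH⟩, hx⟩ := hHcyc.exists_generator
  obtain ⟨⟨y, hyN⟩, hy⟩ := hNcyc.exists_generator
  have hox : orderOf x = Nat.card H := by
    rw [← orderOf_eq_card_of_forall_mem_zpowers hx, Subgroup.orderOf_mk]
  have hoy : orderOf y = Nat.card (commutator G) := by
    rw [← orderOf_eq_card_of_forall_mem_zpowers hy, Subgroup.orderOf_mk]
  have hHx : H ≤ Subgroup.zpowers x := by
    intro h hh
    obtain ⟨k, hk⟩ := Subgroup.mem_zpowers_iff.mp (hx ⟨h, hh⟩)
    exact Subgroup.mem_zpowers_iff.mpr ⟨k, by simpa using congrArg Subtype.val hk⟩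
  have hNy : commutator G ≤ Subgroup.zpowers y := by
    intro h hh
    obtain ⟨k, hk⟩ := Subgroup.mem_zpowers_iff.mp (hy ⟨h, hh⟩)
    exact Subgroup.mem_zpowers_iff.mpr ⟨k, by simpa using congrArg Subtype.val hk⟩
  have hm0 : 0 < orderOf y := orderOf_pos y
  -- conjugates of y are powers of y
  have hconj : ∀ g : G, ∃ s : ℕ, g * y * g⁻¹ = y ^ s := by
    intro g
    have h2 : g * y * g⁻¹ ∈ Subgroup.zpowers y :=
      hNy ((inferInstance : (commutator G).Normal).conj_mem y hyN g)
    rw [← mem_powers_iff_mem_zpowers] at h2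
    obtain ⟨s, hs⟩ := h2
    exact ⟨s, hs.symm⟩
  obtain ⟨k, hk⟩ := hconj x⁻¹
  rw [inv_inv] at hk
  set r := k + orderOf y with hr
  have hxy : x⁻¹ * y * x = y ^ r := by
    rw [hk, hr, pow_add, pow_orderOf_eq_one, mul_one]
  have hr1 : 1 ≤ r := by omega
  have hgen : Subgroup.closure {x, y} = ⊤ := by
    rw [eq_top_iff, ← hH.sup_eq_top]
    apply sup_le
    · refine hNy.trans ?_
      rw [Subgroup.zpowers_le]
      exact Subgroup.subset_closure (by simp)
    · refine hHx.trans ?_
      rw [Subgroup.zpowers_le]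
      exact Subgroup.subset_closure (by simp)
  refine ⟨x, y, orderOf x, orderOf y, r, hgen, rfl, rfl, hxy, ?_, ?_, hr1, ?_⟩
  · -- gcd (r - 1, m) = 1
    set K := Subgroup.zpowers (y ^ (r - 1)) with hK
    have hKn : K.Normal := by
      constructor
      intro n hn g
      obtain ⟨i, rfl⟩ := Subgroup.mem_zpowers_iff.mp hn
      obtain ⟨s, hs⟩ := hconj g
      have : g * (y ^ (r - 1)) ^ i * g⁻¹ = ((y ^ (r - 1)) ^ s) ^ i := by
        rw [← conj_zpow, ← conj_pow, hs, ← pow_mul, ← pow_mul, mul_comm]
      rw [this]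
      exact K.zpow_mem (K.pow_mem (Subgroup.mem_zpowers _) s) i
    have hle : commutator G ≤ K := by
      rw [← Subgroup.Normal.quotient_commutative_iff_commutator_le]
      have htop : (⊤ : Subgroup (G ⧸ K)) =
          Subgroup.closure {(QuotientGroup.mk' K x), (QuotientGroup.mk' K y)} := by
        rw [← Subgroup.map_top_of_surjective _ (QuotientGroup.mk'_surjective K), ← hgen,
          MonoidHom.map_closure, Set.image_pair]
      have hxyK : QuotientGroup.mk' K x * QuotientGroup.mk' K y
          = QuotientGroup.mk' K y * QuotientGroup.mk' K x := by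
        rw [← map_mul, ← map_mul]
        apply (QuotientGroup.eq).mpr
        have : (x * y)⁻¹ * (y * x) = (y ^ (r - 1)) := by
          have h3 : y * x = x * y ^ r := by rw [← hxy]; group
          rw [h3]
          have h4 : y ^ r = y * y ^ (r - 1) := by
            rw [← pow_succ']
            congr 1
            omega
          rw [h4]; group
        rw [this]
        exact Subgroup.mem_zpowers _
      have hc : IsMulCommutative
          (Subgroup.closure {(QuotientGroup.mk' K x), (QuotientGroup.mk' K y)}) := by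
        apply Subgroup.isMulCommutative_closure
        intro a ha b hb
        simp only [Set.mem_insert_iff, Set.mem_singleton_iff] at ha hb
        rcases ha with rfl | rfl <;> rcases hb with rfl | rfl
        · rfl
        · exact hxyK
        · exact hxyK.symm
        · rfl
      rw [← htop] at hc
      rw [isMulCommutative_iff]
      intro a b
      exact setLike_mul_comm (s := (⊤ : Subgroup (G ⧸ K))) (Subgroup.mem_top a) (Subgroup.mem_top b)
    have hcard : orderOf y ≤ orderOf (y ^ (r - 1)) := by
      rw [hoy, ← Nat.card_zpowers (y ^ (r - 1))]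
      exact Nat.card_le_card_of_injective _ (Subgroup.inclusion_injective hle)
    rw [orderOf_pow] at hcard
    have hg : 0 < (orderOf y).gcd (r - 1) := Nat.gcd_pos_of_pos_left _ hm0
    have hg1 : (orderOf y).gcd (r - 1) = 1 := by
      by_contra hne
      have h2 : 2 ≤ (orderOf y).gcd (r - 1) := by omega
      have h3 : orderOf y / (orderOf y).gcd (r - 1) < orderOf y := Nat.div_lt_self hm0 h2
      omega
    rw [Nat.coprime_comm]
    exact hg1
  · rw [hox, hoy, Nat.coprime_comm]
    have : (commutator G).index = Nat.card H := by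
      rw [← hH.symm.index_eq_card]
    rw [← this]
    exact hcop
  · have hpow : ∀ j : ℕ, (x ^ j)⁻¹ * y * x ^ j = y ^ (r ^ j) := by
      intro j
      induction j with
      | zero => simp
      | succ j ih =>
        calc (x ^ (j + 1))⁻¹ * y * x ^ (j + 1) = x⁻¹ * ((x ^ j)⁻¹ * y * x ^ j) * x := by
              rw [pow_succ]; group
          _ = x⁻¹ * y ^ (r ^ j) * x⁻¹⁻¹ := by rw [ih, inv_inv]
          _ = (x⁻¹ * y * x⁻¹⁻¹) ^ (r ^ j) := by rw [conj_pow]
          _ = y ^ (r ^ (j + 1)) := by rw [inv_inv, hxy, ← pow_mul, pow_succ']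
    have h2 := hpow (orderOf x)
    rw [pow_orderOf_eq_one, inv_one, one_mul, mul_one] at h2
    have h3 : y ^ (r ^ orderOf x) = y ^ 1 := by rw [pow_one]; exact h2.symm
    exact pow_eq_pow_iff_modEq.mp h3

end Cfsg.Agent.S3379
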