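import Cfsg.Statements.S3381
-- import your own Cfsg.Agent.* helpers here
import Mathlib

set_option autoImplicit false
open Cfsg

namespace Cfsg.Agent.S3381

/-- Let G be a finite group acting faithfully and linearly on a non-trivial finite vector space V over the field with q elements (q prime) so that every non-zero vector has a stabilizer of order 2, and suppose G has a central involution. Then V has q^(2r) elements for some r and G contains exactly q^r + 1 non-central involutions. -/
theorem result
    (q : ℕ) [Fact q.Prime] {V : Type*} [AddCommGroup V] [Module (ZMod q) V] [Finite V] [Nontrivial V]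
    {G : Type*} [Group G] [Finite G] (ρ : G →* (V ≃ₗ[ZMod q] V)) (hρ : Function.Injective ρ)
    (hstab : ∀ v : V, v ≠ 0 → Nat.card {g : G // ρ g v = v} = 2)
    (z : G) (hz : orderOf z = 2) (hzc : z ∈ Subgroup.center G) :
    ∃ r : ℕ, Nat.card V = q ^ (2 * r) ∧
      Nat.card {g : G // orderOf g = 2 ∧ g ∉ Subgroup.center G} = q ^ r + 1 := by
  classical
  haveI : Fintype V := Fintype.ofFinite V
  haveI : Fintype G := Fintype.ofFinite G
  have hq : q.Prime := Fact.out
  have hone : ∀ t : G, orderOf t = 2 → t ≠ 1 := by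
    intro t ht h
    rw [h, orderOf_one] at ht
    omega
  have hsqr : ∀ t : G, orderOf t = 2 → t * t = 1 := by
    intro t ht
    rw [← pow_two, ← ht, pow_orderOf_eq_one]
  have ht2 : ∀ t : G, orderOf t = 2 → ∀ v, ρ t (ρ t v) = v := by
    intro t ht v
    rw [← LinearEquiv.mul_apply, ← map_mul, hsqr t ht, map_one]
    rfl
  -- Step 0
  have hA : ∀ v : V, v ≠ 0 →
      ∃ t : G, orderOf t = 2 ∧ ρ t v = v ∧ ∀ g, ρ g v = v → g = 1 ∨ g = t := by
    intro v hv
    have h2 := hstab v hv
    have h1 : ρ 1 v = v := by simp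
    rw [Nat.card_eq_two_iff' (⟨1, h1⟩ : {g : G // ρ g v = v})] at h2
    obtain ⟨⟨t, ht⟩, ht1, huniq⟩ := h2
    have ht1' : t ≠ 1 := fun h => ht1 (Subtype.ext h)
    have hall : ∀ g, ρ g v = v → g = 1 ∨ g = t := by
      intro g hg
      by_cases hg1 : g = 1
      · exact Or.inl hg1
      · right
        have := huniq ⟨g, hg⟩ (fun h => hg1 (congrArg Subtype.val h))
        exact congrArg Subtype.val this
    refine ⟨t, ?_, ht, hall⟩
    have htt : ρ (t * t) v = v := by rw [map_mul, LinearEquiv.mul_apply, ht, ht]
    rcases hall _ htt with h | h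
    · exact orderOf_eq_prime (by rw [pow_two]; exact h) ht1'
    · exfalso
      apply ht1'
      simpa using h
  -- Step 1
  have hneg : ∀ c : G, orderOf c = 2 → c ∈ Subgroup.center G →
      (∀ u, ρ c u = u → u = 0) ∧ ∀ v, ρ c v = -v := by
    intro c hc hcc
    have hcomm : ∀ g v, ρ c (ρ g v) = ρ g (ρ c v) := by
      intro g v
      rw [← LinearEquiv.mul_apply, ← LinearEquiv.mul_apply, ← map_mul, ← map_mul,
        (Subgroup.mem_center_iff.1 hcc g)]
    have hc1 : c ≠ 1 := hone c hc
    have hfix : ∀ u, ρ c u = u → u = 0 := by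
      intro u hu
      by_contra hu0
      obtain ⟨t, hto, htu, htall⟩ := hA u hu0
      have hct : c = t := (htall c hu).resolve_left hc1
      apply hc1
      apply hρ
      rw [map_one]
      ext x
      show ρ c x = x
      by_contra hx
      have hx0 : x ≠ 0 := by
        rintro rfl
        exact hx (map_zero _)
      obtain ⟨s, hso, hsx, hsall⟩ := hA x hx0
      have hux : ρ c (u + x) ≠ u + x := by
        rw [map_add, hu]
        intro h
        exact hx (add_left_cancel h)
      have hux0 : u + x ≠ 0 := by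
        intro h
        apply hux
        rw [h, map_zero]
      obtain ⟨s', hs'o, hs'x, hs'all⟩ := hA (u + x) hux0
      have hd0 : x - ρ c x ≠ 0 := by
        intro h
        apply hx
        exact (sub_eq_zero.1 h).symm
      have hsd : ρ s (x - ρ c x) = x - ρ c x := by rw [map_sub, ← hcomm, hsx]
      have hs'd : ρ s' (x - ρ c x) = x - ρ c x := by
        have e : x - ρ c x = (u + x) - ρ c (u + x) := by
          rw [map_add, hu]; abel
        rw [e, map_sub, ← hcomm, hs'x]
      obtain ⟨r, hro, hrd, hrall⟩ := hA _ hd0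
      have e1 : s = r := (hrall s hsd).resolve_left (hone s hso)
      have e2 : s' = r := (hrall s' hs'd).resolve_left (hone s' hs'o)
      have hsu : ρ s u = u := by
        have h3 : ρ s (u + x) = u + x := by rw [e1, ← e2]; exact hs'x
        rw [map_add, hsx] at h3
        exact add_right_cancel h3
      have hst : s = t := (htall s hsu).resolve_left (hone s hso)
      apply hx
      rw [hct, ← hst]
      exact hsx
    refine ⟨hfix, fun v => ?_⟩
    have : ρ c v + v = 0 := hfix _ (by rw [map_add, ht2 c hc, add_comm])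
    exact eq_neg_of_add_eq_zero_left this
  have hzneg := (hneg z hz hzc).2
  have hfixz := (hneg z hz hzc).1
  have h2v : ∀ v : V, v = -v → v = 0 := fun v hv => hfixz v (by rw [hzneg]; exact hv.symm)
  have hI : ∀ g : G, (orderOf g = 2 ∧ g ∉ Subgroup.center G) ↔ (orderOf g = 2 ∧ g ≠ z) := by
    intro g
    constructor
    · rintro ⟨h1, h2⟩
      exact ⟨h1, fun h => h2 (h ▸ hzc)⟩
    · rintro ⟨h1, h2⟩
      refine ⟨h1, fun hc => h2 ?_⟩
      apply hρ
      ext v
      rw [(hneg g h1 hc).2 v, hzneg v]
  set I : Finset G := Finset.univ.filter (fun g => orderOf g = 2 ∧ g ≠ z) with hIdef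
  let Fs : G → Finset V := fun t => Finset.univ.filter (fun v => ρ t v = v)
  have hFs : ∀ t v, v ∈ Fs t ↔ ρ t v = v := by
    intro t v
    simp [Fs]
  let a : G → ℕ := fun t => (Fs t).card
  have hapos : ∀ t, 0 < a t := by
    intro t
    apply Finset.card_pos.2
    exact ⟨0, (hFs t 0).2 (map_zero _)⟩
  have hzc' : ∀ t : G, t * z = z * t := fun t => Subgroup.mem_center_iff.1 hzc t
  have htz : ∀ t, orderOf t = 2 → t ≠ z → orderOf (t * z) = 2 ∧ t * z ≠ z := by
    intro t ht htz
    refine ⟨orderOf_eq_prime ?_ ?_, ?_⟩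
    · rw [pow_two]
      calc t * z * (t * z) = t * (z * t) * z := by group
        _ = t * (t * z) * z := by rw [hzc' t]
        _ = (t * t) * (z * z) := by group
        _ = 1 := by rw [hsqr t ht, hsqr z hz, one_mul]
    · intro h
      apply htz
      calc t = (t * z) * z := by rw [mul_assoc, hsqr z hz, mul_one]
        _ = z := by rw [h, one_mul]
    · intro h
      exact hone t ht (by simpa using h)
  have hρtz : ∀ t v, ρ (t * z) v = -ρ t v := by
    intro t v
    rw [map_mul, LinearEquiv.mul_apply, hzneg, map_neg]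
  have hprod : ∀ s t : G, (∀ v, ρ s v = v → ρ t v = v → v = 0) →
      a s * a t ≤ Fintype.card V := by
    intro s t hst
    show (Fs s).card * (Fs t).card ≤ _
    rw [← Finset.card_product, ← Finset.card_univ]
    apply Finset.card_le_card_of_injOn (fun p => p.1 + p.2) (fun _ _ => Finset.mem_univ _)
    rintro ⟨x, y⟩ hxy ⟨x', y'⟩ hxy' h
    have hx : ρ s x = x := (hFs s x).1 (Finset.mem_product.1 hxy).1
    have hy : ρ t y = y := (hFs t y).1 (Finset.mem_product.1 hxy).2
    have hx' : ρ s x' = x' := (hFs s x').1 (Finset.mem_product.1 hxy').1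
    have hy' : ρ t y' = y' := (hFs t y').1 (Finset.mem_product.1 hxy').2
    have h' : x + y = x' + y' := h
    have hd : x - x' = y' - y := by
      rw [sub_eq_sub_iff_add_eq_add, h', add_comm]
    have h0 : x - x' = 0 :=
      hst _ (by rw [map_sub, hx, hx']) (by rw [hd, map_sub, hy', hy])
    have h1 : y' - y = 0 := by rw [← hd, h0]
    rw [sub_eq_zero.1 h0, sub_eq_zero.1 h1]
  have hge : ∀ t, orderOf t = 2 → Fintype.card V ≤ a t * a (t * z) := by
    intro t ht
    show _ ≤ (Fs t).card * (Fs (t * z)).card
    rw [← Finset.card_product, ← Finset.card_univ]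
    apply Finset.card_le_card_of_injOn (fun v => (v + ρ t v, v - ρ t v))
    · intro v _
      apply Finset.mem_product.2
      constructor
      · apply (hFs _ _).2
        rw [map_add, ht2 t ht, add_comm]
      · apply (hFs _ _).2
        rw [hρtz, map_sub, ht2 t ht, neg_sub]
    · intro v _ v' _ h
      have e1 : v + ρ t v = v' + ρ t v' := congrArg Prod.fst h
      have e2 : v - ρ t v = v' - ρ t v' := congrArg Prod.snd h
      have h3 : v - v' = ρ t v' - ρ t v := by
        rw [sub_eq_sub_iff_add_eq_add, e1, add_comm]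
      have h4 : v - v' = ρ t v - ρ t v' := by
        rw [sub_eq_sub_iff_add_eq_add]
        rw [sub_eq_sub_iff_add_eq_add] at e2
        rw [e2, add_comm]
      have h5 : v - v' = -(v - v') := by
        calc v - v' = ρ t v - ρ t v' := h4
          _ = -(ρ t v' - ρ t v) := (neg_sub _ _).symm
          _ = -(v - v') := by rw [← h3]
      exact sub_eq_zero.1 (h2v _ h5)
  have hdisj : ∀ s t : G, s ≠ 1 → t ≠ 1 → s ≠ t → ∀ v, ρ s v = v → ρ t v = v → v = 0 := by
    intro s t hs ht hst v hsv htv
    by_contra hv
    obtain ⟨r, _, _, hall⟩ := hA v hv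
    exact hst (((hall s hsv).resolve_left hs).trans ((hall t htv).resolve_left ht).symm)
  have hz1 : z ≠ 1 := hone z hz
  have hNeq : ∀ t, orderOf t = 2 → t ≠ z → a t * a (t * z) = Fintype.card V := by
    intro t ht htz'
    apply le_antisymm _ (hge t ht)
    apply hprod
    apply hdisj t (t * z) (hone t ht) (hone _ (htz t ht htz').1)
    intro h
    apply hz1
    simpa using h.symm
  have hne : ∀ t, orderOf t = 2 → t ≠ z → ∃ x, x ≠ 0 ∧ ρ t x = x := by
    intro t ht htz'
    by_contra hcon
    push Not at hcon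
    apply htz'
    apply hρ
    ext v
    have : ρ t v + v = 0 := by
      by_contra h0
      exact hcon _ h0 (by rw [map_add, ht2 t ht, add_comm])
    rw [hzneg]
    exact eq_neg_of_add_eq_zero_left this
  have hle : ∀ s t, orderOf s = 2 → s ≠ z → orderOf t = 2 → t ≠ z → s * z ≠ t → a t ≤ a s := by
    intro s t hs hsz ht htz' hst
    have h1 : a (s * z) * a t ≤ Fintype.card V :=
      hprod _ _ (hdisj _ _ (hone _ (htz s hs hsz).1) (hone t ht) hst)
    rw [← hNeq s hs hsz, mul_comm (a s)] at h1
    exact Nat.le_of_mul_le_mul_left h1 (hapos _)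
  have hsq : ∀ t, orderOf t = 2 → t ≠ z → a t * a t = Fintype.card V := by
    intro t ht htz'
    obtain ⟨x, hx0, hx⟩ := hne t ht htz'
    obtain ⟨y, hy0, hy⟩ := hne (t * z) (htz t ht htz').1 (htz t ht htz').2
    rw [hρtz] at hy
    have hy' : ρ t y = -y := by
      have := congrArg Neg.neg hy
      rwa [neg_neg] at this
    have hw0 : x + y ≠ 0 := by
      intro h
      have hxy : x = -y := eq_neg_of_add_eq_zero_left h
      apply hx0
      apply h2v
      have h1 : ρ t x = -x := by
        rw [hxy, map_neg, hy']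
      rw [← h1, hx]
    obtain ⟨s, hs, hsw, _⟩ := hA _ hw0
    have hst : s ≠ t := by
      intro h
      rw [h, map_add, hx, hy'] at hsw
      have : -y = y := add_left_cancel hsw
      exact hy0 (h2v y this.symm)
    have hstz : s ≠ t * z := by
      intro h
      rw [h, hρtz, map_add, hx, hy', neg_add, neg_neg] at hsw
      have : -x = x := add_right_cancel hsw
      exact hx0 (h2v x this.symm)
    have hsz : s ≠ z := by
      intro h
      rw [h] at hsw
      exact hw0 (hfixz _ hsw)
    have hzz : ∀ u : G, u * z * z = u := by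
      intro u
      rw [mul_assoc, hsqr z hz, mul_one]
    have b1 : a t ≤ a s := hle s t hs hsz ht htz' (by
      intro h
      apply hstz
      rw [← h, hzz])
    have b2 : a s ≤ a t := hle t s ht htz' hs hsz (fun h => hstz h.symm)
    have b3 : a (t * z) ≤ a s := hle s (t * z) hs hsz (htz t ht htz').1 (htz t ht htz').2 (by
      intro h
      exact hst (mul_right_cancel h))
    have b4 : a s ≤ a (t * z) := hle (t * z) s (htz t ht htz').1 (htz t ht htz').2 hs hsz (by
      rw [hzz]
      exact fun h => hst h.symm)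
    have e1 : a t = a (t * z) := le_antisymm (b1.trans b4) (b3.trans b2)
    have := hNeq t ht htz'
    rw [← e1] at this
    exact this
  -- counting
  have hcount : (Finset.univ.erase (0 : V)) = I.biUnion (fun t => (Fs t).erase 0) := by
    ext v
    simp only [Finset.mem_erase, Finset.mem_univ, and_true, Finset.mem_biUnion]
    constructor
    · intro hv
      obtain ⟨t, hto, htv, _⟩ := hA v hv
      refine ⟨t, ?_, hv, (hFs t v).2 htv⟩
      rw [hIdef, Finset.mem_filter]
      refine ⟨Finset.mem_univ _, hto, ?_⟩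
      intro h
      rw [h] at htv
      exact hv (hfixz v htv)
    · rintro ⟨t, _, hv, _⟩
      exact hv
  have hpd : (I : Set G).PairwiseDisjoint (fun t => (Fs t).erase 0) := by
    intro s hs t ht hst
    rw [Function.onFun, Finset.disjoint_left]
    intro v hvs hvt
    have hs' := (Finset.mem_filter.1 hs).2
    have ht' := (Finset.mem_filter.1 ht).2
    have h1 := Finset.mem_erase.1 hvs
    have h2 := Finset.mem_erase.1 hvt
    exact h1.1 (hdisj s t (hone s hs'.1) (hone t ht'.1) hst v ((hFs s v).1 h1.2) ((hFs t v).1 h2.2))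
  obtain ⟨v0, hv0⟩ := exists_ne (0 : V)
  obtain ⟨t0, ht0o, ht0v, _⟩ := hA v0 hv0
  have ht0z : t0 ≠ z := by
    intro h
    rw [h] at ht0v
    exact hv0 (hfixz v0 ht0v)
  have hall : ∀ t ∈ I, a t = a t0 := by
    intro t ht
    have ht' := (Finset.mem_filter.1 ht).2
    have h1 := hsq t ht'.1 ht'.2
    rw [← hsq t0 ht0o ht0z] at h1
    exact Nat.mul_self_inj.1 h1
  have hcard1 : Fintype.card V - 1 = I.card * (a t0 - 1) := by
    have h1 : (Finset.univ.erase (0 : V)).card = Fintype.card V - 1 := by
      rw [Finset.card_erase_of_mem (Finset.mem_univ _), Finset.card_univ]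
    rw [← h1, hcount, Finset.card_biUnion hpd]
    rw [Finset.sum_congr rfl (g := fun _ => a t0 - 1)]
    · rw [Finset.sum_const, smul_eq_mul]
    · intro t ht
      rw [Finset.card_erase_of_mem ((hFs t 0).2 (map_zero _))]
      show a t - 1 = _
      rw [hall t ht]
  have ha2 : 2 ≤ a t0 := by
    have : ({0, v0} : Finset V) ⊆ Fs t0 := by
      intro w hw
      rw [Finset.mem_insert, Finset.mem_singleton] at hw
      rcases hw with rfl | rfl
      · exact (hFs t0 0).2 (map_zero _)
      · exact (hFs t0 _).2 ht0v
    have h2 := Finset.card_le_card this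
    rwa [Finset.card_pair hv0.symm] at h2
  have hN := hsq t0 ht0o ht0z
  obtain ⟨B, hB⟩ : ∃ B, a t0 = B + 2 := ⟨a t0 - 2, by omega⟩
  have hIcard : I.card = a t0 + 1 := by
    rw [← hN, hB] at hcard1
    have h3 : (B + 2) * (B + 2) - 1 = (B + 3) * (B + 1) := by
      have : (B + 2) * (B + 2) = (B + 3) * (B + 1) + 1 := by ring
      omega
    have h4 : B + 2 - 1 = B + 1 := by omega
    rw [h3, h4] at hcard1
    have := Nat.eq_of_mul_eq_mul_right (Nat.succ_pos B) hcard1
    omega
  have hVq : Fintype.card V = q ^ Module.finrank (ZMod q) V := by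
    rw [Module.card_eq_pow_finrank (K := ZMod q), ZMod.card]
  have hdvd : a t0 ∣ q ^ Module.finrank (ZMod q) V := by
    rw [← hVq, ← hN]
    exact Dvd.intro _ rfl
  obtain ⟨r, _, hr⟩ := (Nat.dvd_prime_pow hq).1 hdvd
  refine ⟨r, ?_, ?_⟩
  · rw [Nat.card_eq_fintype_card, ← hN, hr, two_mul, pow_add]
  · rw [Nat.card_eq_fintype_card, Fintype.card_subtype, ← hr, ← hIcard, hIdef]
    congr 1
    apply Finset.filter_congr
    intro g _
    exact hI g

end Cfsg.Agent.S3381
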