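import Cfsg.Statements.S3383
-- import your own Cfsg.Agent.* helpers here
import Mathlib
import Cfsg.Agent.Lib.Helper15.Frob

set_option autoImplicit false
open Cfsg

namespace Cfsg.Agent.S3383

/-- Let H be a Frobenius complement in a finite group L and K the Frobenius kernel (as a subgroup). Then K is characteristic in L, and every normal subgroup of L either contains K or is contained in K. -/
theorem result {L : Type*} [Group L] [Finite L]
    (H : Subgroup L) (hH : Cfsg.IsFrobeniusComplement H)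
    (K : Subgroup L) (hK : (K : Set L) = Cfsg.frobeniusKernel H) :
    K.Characteristic ∧ ∀ N : Subgroup L, N.Normal → K ≤ N ∨ N ≤ K := by
  classical
  have hmemK : ∀ x : L, x ∈ K ↔ x ∈ Cfsg.frobeniusKernel H := by
    intro x; rw [← hK]; rfl
  have hKn : K.Normal := ⟨fun x hx g => (hmemK _).2
    (Cfsg.Agent.Lib.Helper15.conj_mem_frobeniusKernel ((hmemK _).1 hx) g)⟩
  have key : ∀ N : Subgroup L, N.Normal → K ≤ N ∨ N ≤ K := by
    intro N hN
    by_cases hNK : N ≤ K
    · exact Or.inr hNK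
    left
    obtain ⟨n, hnN, hnK⟩ := SetLike.not_le_iff_exists.1 hNK
    rw [hmemK, Cfsg.Agent.Lib.Helper15.not_mem_frobeniusKernel_iff] at hnK
    obtain ⟨hn1, g, hg⟩ := hnK
    set h := g⁻¹ * n * g with hh
    have hhN : h ∈ N := by
      have := hN.conj_mem n hnN g⁻¹
      simpa [hh] using this
    have hh1 : h ≠ 1 := by
      intro h1
      apply hn1
      have : n = g * h * g⁻¹ := by rw [hh]; group
      rw [this, h1]; simp
    -- the map k ↦ k⁻¹ h⁻¹ k h
    let f : K → K := fun k => ⟨(k : L)⁻¹ * (h⁻¹ * k * h), K.mul_mem (K.inv_mem k.2) (by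
      have := hKn.conj_mem k k.2 h⁻¹
      simpa using this)⟩
    have hfinj : Function.Injective f := by
      intro a b hab
      have hab' : (a : L)⁻¹ * (h⁻¹ * a * h) = (b : L)⁻¹ * (h⁻¹ * b * h) := congrArg Subtype.val hab
      -- b a⁻¹ commutes with h
      have hc : ((a : L) * (b : L)⁻¹)⁻¹ * h * ((a : L) * (b : L)⁻¹) = h := by
        have e1 : (b : L) * (a : L)⁻¹ * h⁻¹ * a = h⁻¹ * b := by
          have := congrArg (fun t => (b : L) * t * h⁻¹) hab'
          calc (b : L) * (a : L)⁻¹ * h⁻¹ * a = (b : L) * ((a : L)⁻¹ * (h⁻¹ * a * h)) * h⁻¹ := by group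
            _ = (b : L) * ((b : L)⁻¹ * (h⁻¹ * b * h)) * h⁻¹ := this
            _ = h⁻¹ * b := by group
        have e2 : (b : L) * (a : L)⁻¹ * h⁻¹ * (a * (b : L)⁻¹) = h⁻¹ := by
          calc (b : L) * (a : L)⁻¹ * h⁻¹ * (a * (b : L)⁻¹) = ((b : L) * (a : L)⁻¹ * h⁻¹ * a) * (b : L)⁻¹ := by group
            _ = h⁻¹ * b * (b : L)⁻¹ := by rw [e1]
            _ = h⁻¹ := by group
        have e3 := congrArg (fun t => t⁻¹) e2
        simp only [inv_inv] at e3
        calc ((a : L) * (b : L)⁻¹)⁻¹ * h * ((a : L) * (b : L)⁻¹)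
            = ((b : L) * (a : L)⁻¹ * h⁻¹ * (a * (b : L)⁻¹))⁻¹ := by group
          _ = h := e3
      have hmem : (a : L) * (b : L)⁻¹ ∈ H :=
        Cfsg.Agent.Lib.Helper15.frob_mem_of_conj_mem hH hg hh1 (by rw [hc]; exact hg)
      have h1 : (a : L) * (b : L)⁻¹ = 1 :=
        Cfsg.Agent.Lib.Helper15.eq_one_of_mem_frobeniusKernel_of_mem
          ((hmemK _).1 (K.mul_mem a.2 (K.inv_mem b.2))) hmem
      exact Subtype.ext (mul_inv_eq_one.1 h1)
    have hfsurj : Function.Surjective f := Finite.surjective_of_injective hfinj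
    intro k hk
    obtain ⟨a, ha⟩ := hfsurj ⟨k, hk⟩
    have ha' : (a : L)⁻¹ * (h⁻¹ * a * h) = k := congrArg Subtype.val ha
    rw [← ha']
    have e : (a : L)⁻¹ * (h⁻¹ * a * h) = ((a : L)⁻¹ * h⁻¹ * ((a : L)⁻¹)⁻¹) * h := by group
    rw [e]
    exact N.mul_mem (hN.conj_mem _ (N.inv_mem hhN) _) hhN
  refine ⟨?_, key⟩
  rw [Subgroup.characteristic_iff_map_eq]
  intro φ
  have hn : (K.map φ.toMonoidHom).Normal := hKn.map _ φ.surjective
  have hcard : Nat.card (K.map φ.toMonoidHom) = Nat.card K :=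
    Subgroup.card_map_of_injective φ.injective
  rcases key _ hn with h | h
  · exact (Subgroup.eq_of_le_of_card_ge h hcard.le).symm
  · exact Subgroup.eq_of_le_of_card_ge h hcard.ge

end Cfsg.Agent.S3383
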