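import Cfsg.Statements.S3704
-- import your own Cfsg.Agent.* helpers here
import Cfsg.Agent.Lib.Helper25.Perm
import Cfsg.Agent.Lib.Helper25.Ind
import Cfsg.Agent.Lib.Helper25.IndChar
import Cfsg.Agent.Lib.Helper25.CliffordCorr
import Cfsg.Agent.Lib.Helper7.CharBasic
import Cfsg.Agent.Lib.Helper7.CharComplete

set_option autoImplicit false
open Cfsg

namespace Cfsg.Agent.S3704

open Cfsg.Agent.Lib.Helper25 Cfsg.Agent.Lib.Helper7
open scoped ComplexConjugate

theorem card_orbits_one {G Ω : Type*} [Group G] [MulAction G Ω] [MulAction.IsPretransitive G Ω]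
    [Nonempty Ω] : Nat.card (MulAction.orbitRel.Quotient G Ω) = 1 := by
  rw [Nat.card_eq_one_iff_unique]
  refine ⟨(MulAction.pretransitive_iff_subsingleton_quotient G Ω).mp inferInstance, ?_⟩
  obtain ⟨a⟩ := ‹Nonempty Ω›
  exact ⟨Quotient.mk'' a⟩

theorem card_orbits_two {G Ω : Type*} [Group G] [MulAction G Ω]
    (h2 : MulAction.IsMultiplyPretransitive G Ω 2) {a b : Ω} (hab : a ≠ b) :
    Nat.card (MulAction.orbitRel.Quotient G (Ω × Ω)) = 2 := by
  have htr : MulAction.IsPretransitive G Ω := MulAction.isPretransitive_of_is_two_pretransitive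
  have h2' : ∀ {a b c d : Ω}, a ≠ b → c ≠ d → ∃ g : G, g • a = c ∧ g • b = d :=
    MulAction.is_two_pretransitive_iff.mp h2
  rw [Nat.card_eq_two_iff]
  refine ⟨Quotient.mk'' (a, a), Quotient.mk'' (a, b), ?_, ?_⟩
  · intro h
    have h3 : (a, a) ∈ MulAction.orbit G (a, b) := MulAction.orbitRel_apply.mp (Quotient.eq''.mp h)
    obtain ⟨g, hg⟩ := h3
    have e1 : g • a = a := congrArg Prod.fst hg
    have e2 : g • b = a := congrArg Prod.snd hg
    exact hab (MulAction.injective g (e1.trans e2.symm))
  · rw [Set.eq_univ_iff_forall]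
    intro q
    induction q using Quotient.inductionOn' with
    | h cd =>
      obtain ⟨c, d⟩ := cd
      by_cases hcd : c = d
      · left
        subst hcd
        obtain ⟨g, hg⟩ := MulAction.exists_smul_eq G a c
        apply Quotient.sound'
        apply MulAction.orbitRel_apply.mpr
        exact ⟨g, by show (g • a, g • a) = (c, c); rw [hg]⟩
      · right
        obtain ⟨g, hg1, hg2⟩ := h2' hab hcd
        apply Quotient.sound'
        apply MulAction.orbitRel_apply.mpr
        exact ⟨g, by show (g • a, g • b) = (c, d); rw [hg1, hg2]⟩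

/-- Let G be a finite group acting faithfully and 2-transitively on a finite set Ω of size n, and let H be a subgroup of index n in G which is not transitive on Ω and fixes no point of Ω. Then H has exactly two orbits on Ω. -/
theorem result {G Ω : Type*} [Group G] [Finite G] [MulAction G Ω] [FaithfulSMul G Ω] [Finite Ω] (h2 : MulAction.IsMultiplyPretransitive G Ω 2) (H : Subgroup G) (hidx : H.index = Nat.card Ω) (hnt : ¬ MulAction.IsPretransitive H Ω) (hfix : ∀ a : Ω, ∃ h : H, h • a ≠ a) : Nat.card (MulAction.orbitRel.Quotient H Ω) = 2 := by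
  classical
  have := Fintype.ofFinite G
  have : Fintype H := Fintype.ofFinite H
  have htr : MulAction.IsPretransitive G Ω := MulAction.isPretransitive_of_is_two_pretransitive
  have hnt' : Nontrivial Ω := by
    by_contra hcon
    rw [not_nontrivial_iff_subsingleton] at hcon
    exact hnt ⟨fun x y => ⟨1, Subsingleton.elim _ _⟩⟩
  obtain ⟨a, b, hab⟩ := exists_pair_ne Ω
  have hne : Nonempty Ω := ⟨a⟩
  obtain ⟨t, ht⟩ : ∃ t, t = Nat.card (MulAction.orbitRel.Quotient H Ω) := ⟨_, rfl⟩
  rw [← ht]
  have ht1 : t ≠ 1 := by
    intro h1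
    rw [h1] at ht
    apply hnt
    rw [MulAction.pretransitive_iff_subsingleton_quotient]
    exact (Nat.card_eq_one_iff_unique.mp ht.symm).1
  let one : G → ℂ := fun _ => 1
  let π : G → ℂ := permChar G Ω
  have hπ : IsCharacter G π := isCharacter_permChar Ω
  have hone : IsIrrCharacter G one := isIrrCharacter_one
  have h1 : classInner π one = 1 := by
    rw [show classInner π one = _ from classInner_permChar_one Ω, card_orbits_one]; simp
  have h1' : classInner one π = 1 := by
    rw [← Cfsg.Agent.Lib.Helper7.classInner_conj_symm, h1]; simp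
  have h2' : classInner π π = 2 := by
    rw [show classInner π π = _ from classInner_permChar_permChar Ω Ω, card_orbits_two h2 hab]
    simp
  have h11 : classInner one one = 1 := classInner_irr_self hone
  have hχ : IsCharacter G (π - one) := isCharacter_sub_irr hπ hone (by rw [h1]; exact one_ne_zero)
  have hχχ : classInner (π - one) (π - one) = 1 := by
    rw [classInner_sub_left, classInner_sub_right, classInner_sub_right, h2', h1, h1', h11]
    norm_num
  have hχirr : IsIrrCharacter G (π - one) := isIrrCharacter_of_classInner_self_eq_one hχ hχχ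
  let ψ : G → ℂ := indFun H (fun _ => 1)
  have hψ : IsCharacter G ψ := isCharacter_indFun H _ isCharacter_one
  have hψ1 : classInner ψ one = 1 := by
    rw [show classInner ψ one = _ from
      frobenius_reciprocity H (fun _ => 1) one (Cfsg.Agent.Lib.Helper7.isClassFunction_of_isCharacter (Cfsg.Agent.Lib.Helper7.isCharacter_of_irr hone))]
    exact classInner_irr_self (G := H) isIrrCharacter_one
  have hψπ : classInner ψ π = t := by
    rw [show classInner ψ π = _ from
      frobenius_reciprocity H (fun _ => 1) π (Cfsg.Agent.Lib.Helper7.isClassFunction_of_isCharacter hπ)]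
    have e : (fun h : H => π h) = permChar H Ω := rfl
    rw [e, ← Cfsg.Agent.Lib.Helper7.classInner_conj_symm, classInner_permChar_one Ω, ← ht]
    simp
  have hψ₁ : IsCharacter G (ψ - one) :=
    isCharacter_sub_irr hψ hone (by rw [hψ1]; exact one_ne_zero)
  have hm : classInner (ψ - one) (π - one) = (t : ℂ) - 1 := by
    rw [classInner_sub_left, classInner_sub_right, classInner_sub_right, hψπ, hψ1, h1', h11]
    ring
  have hm0 : classInner (ψ - one) (π - one) ≠ 0 := by
    rw [hm, sub_ne_zero]
    exact_mod_cast ht1
  have hψ₂ : IsCharacter G ((ψ - one) - (π - one)) := isCharacter_sub_irr hψ₁ hχirr hm0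
  have hdeg : ((ψ - one) - (π - one)) 1 = 0 := by
    have e1 : ψ 1 = (H.index : ℂ) := by
      rw [show ψ 1 = _ from indFun_one H (fun _ => 1)]; simp
    have e2 : π 1 = (Nat.card Ω : ℂ) := by
      show (Nat.card (MulAction.fixedBy Ω (1 : G)) : ℂ) = _
      congr 1
      have : MulAction.fixedBy Ω (1 : G) = Set.univ := by
        ext x; simp
      rw [this]
      exact Nat.card_univ
    simp only [Pi.sub_apply]
    rw [e1, e2, hidx]; ring
  have hzero : (ψ - one) - (π - one) = 0 := by
    funext g
    have := char_norm_le hψ₂ g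
    rw [hdeg] at this
    simpa using this
  have heq : ψ - one = π - one := sub_eq_zero.mp hzero
  rw [heq, hχχ] at hm
  have : (t : ℂ) = 2 := by linear_combination -hm
  exact_mod_cast this

end Cfsg.Agent.S3704
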