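import Cfsg.Statements.S3707
-- import your own Cfsg.Agent.* helpers here

set_option autoImplicit false
open Cfsg

namespace Cfsg.Agent.S3707

open scoped Pointwise

/-- Jordan sets. -/
def IsJ (G : Type*) {Ω : Type*} [Group G] [MulAction G Ω] (A : Set Ω) : Prop :=
  ∀ x ∈ A, ∀ y ∈ A, ∃ g : G, (∀ z ∉ A, g • z = z) ∧ g • x = y

theorem IsJ.smul {G Ω : Type*} [Group G] [MulAction G Ω] {A : Set Ω} (h : IsJ G A) (g : G) :
    IsJ G (g • A) := by
  intro x hx y hy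
  rw [Set.mem_smul_set_iff_inv_smul_mem] at hx hy
  obtain ⟨k, hk1, hk2⟩ := h _ hx _ hy
  refine ⟨g * k * g⁻¹, ?_, ?_⟩
  · intro z hz
    rw [Set.mem_smul_set_iff_inv_smul_mem] at hz
    rw [mul_smul, mul_smul, hk1 _ hz, smul_inv_smul]
  · rw [mul_smul, mul_smul, hk2, smul_inv_smul]

theorem IsJ.union {G Ω : Type*} [Group G] [MulAction G Ω] {A B : Set Ω} (hA : IsJ G A)
    (hB : IsJ G B) {c : Ω} (hcA : c ∈ A) (hcB : c ∈ B) : IsJ G (A ∪ B) := by
  have key : ∀ x ∈ A ∪ B, ∃ g : G, (∀ z ∉ A ∪ B, g • z = z) ∧ g • x = c := by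
    rintro x (hx | hx)
    · obtain ⟨g, h1, h2⟩ := hA x hx c hcA
      exact ⟨g, fun z hz => h1 z (fun h => hz (Or.inl h)), h2⟩
    · obtain ⟨g, h1, h2⟩ := hB x hx c hcB
      exact ⟨g, fun z hz => h1 z (fun h => hz (Or.inr h)), h2⟩
  intro x hx y hy
  obtain ⟨g, hg1, hg2⟩ := key x hx
  obtain ⟨k, hk1, hk2⟩ := key y hy
  refine ⟨k⁻¹ * g, ?_, ?_⟩
  · intro z hz
    rw [mul_smul, hg1 z hz, inv_smul_eq_iff, hk1 z hz]
  · rw [mul_smul, hg2, inv_smul_eq_iff, hk2]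

theorem three_trans {G Ω : Type*} [Group G] [MulAction G Ω]
    (h2t : ∀ {a b c d : Ω}, a ≠ b → c ≠ d → ∃ g : G, g • a = c ∧ g • b = d)
    {a b : Ω} (hab : a ≠ b) (hJ : IsJ G ({a, b}ᶜ : Set Ω)) :
    MulAction.IsMultiplyPretransitive G Ω 3 := by
  refine ⟨fun x y => ?_⟩
  have hx01 : x 0 ≠ x 1 := fun h => absurd (x.injective h) (by decide)
  have hy01 : y 0 ≠ y 1 := fun h => absurd (y.injective h) (by decide)
  obtain ⟨g₁, h10, h11⟩ := h2t hx01 hab
  obtain ⟨g₂, h20, h21⟩ := h2t hy01 hab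
  have hx2 : g₁ • x 2 ∈ ({a, b}ᶜ : Set Ω) := by
    intro h
    rcases h with h | h
    · rw [← h10] at h
      exact absurd (x.injective (MulAction.injective g₁ h)) (by decide)
    · have h' : g₁ • x 2 = b := h
      rw [← h11] at h'
      exact absurd (x.injective (MulAction.injective g₁ h')) (by decide)
  have hy2 : g₂ • y 2 ∈ ({a, b}ᶜ : Set Ω) := by
    intro h
    rcases h with h | h
    · rw [← h20] at h
      exact absurd (y.injective (MulAction.injective g₂ h)) (by decide)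
    · have h' : g₂ • y 2 = b := h
      rw [← h21] at h'
      exact absurd (y.injective (MulAction.injective g₂ h')) (by decide)
  obtain ⟨k, hk1, hk2⟩ := hJ _ hx2 _ hy2
  have hka : k • a = a := hk1 a (by simp)
  have hkb : k • b = b := hk1 b (by simp)
  refine ⟨g₂⁻¹ * k * g₁, ?_⟩
  ext i
  rw [Function.Embedding.smul_apply]
  fin_cases i
  · show (g₂⁻¹ * k * g₁) • x 0 = y 0
    rw [mul_smul, mul_smul, h10, hka, inv_smul_eq_iff, h20]
  · show (g₂⁻¹ * k * g₁) • x 1 = y 1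
    rw [mul_smul, mul_smul, h11, hkb, inv_smul_eq_iff, h21]
  · show (g₂⁻¹ * k * g₁) • x 2 = y 2
    rw [mul_smul, mul_smul, hk2, inv_smul_smul]

/-- Let G be a finite primitive permutation group on Ω of degree n and Γ ⊂ Ω a subset with 1 < #Γ ≤ n/2 such that the pointwise stabilizer of Ω ∖ Γ is transitive on Γ. Then G is 3-transitive on Ω. -/
theorem result {G Ω : Type*} [Group G] [Finite G] [MulAction G Ω] [FaithfulSMul G Ω] [Finite Ω] (hprim : MulAction.IsPreprimitive G Ω) (Γ : Set Ω) (h1 : 1 < Γ.ncard) (h2 : 2 * Γ.ncard ≤ Nat.card Ω) (htr : ∀ x ∈ Γ, ∀ y ∈ Γ, ∃ g : G, (∀ z ∉ Γ, g • z = z) ∧ g • x = y) : MulAction.IsMultiplyPretransitive G Ω 3 := by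
  classical
  have hn := Set.ncard_add_ncard_compl Γ
  have h2tr : MulAction.IsMultiplyPretransitive G Ω 2 := by
    have hs : (Γᶜ).ncard = ((Γᶜ).ncard - 1) + 1 := by omega
    apply hprim.is_two_pretransitive hs (by omega)
    refine ⟨fun x y => ?_⟩
    have hx : (x : Ω) ∈ Γ := by
      have := (SubMulAction.mem_ofFixingSubgroup_iff G).mp x.2
      simpa using this
    have hy : (y : Ω) ∈ Γ := by
      have := (SubMulAction.mem_ofFixingSubgroup_iff G).mp y.2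
      simpa using this
    obtain ⟨g, hg1, hg2⟩ := htr x hx y hy
    refine ⟨⟨g, ?_⟩, Subtype.ext hg2⟩
    rw [mem_fixingSubgroup_iff]
    intro z hz
    exact hg1 z hz
  have h2t : ∀ {a b c d : Ω}, a ≠ b → c ≠ d → ∃ g : G, g • a = c ∧ g • b = d :=
    MulAction.is_two_pretransitive_iff.mp h2tr
  have hΓJ : IsJ G Γ := htr
  obtain ⟨J, ⟨hJ, hJc⟩, hJmax⟩ := Set.exists_max_image {A : Set Ω | IsJ G A ∧ 2 ≤ Aᶜ.ncard}
    Set.ncard (Set.toFinite _) ⟨Γ, hΓJ, by omega⟩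
  have hJn := Set.ncard_add_ncard_compl J
  have hJΓ : Γ.ncard ≤ J.ncard := hJmax Γ ⟨hΓJ, by omega⟩
  by_cases hk : Jᶜ.ncard = 2
  · obtain ⟨a, b, hab, hF⟩ := Set.ncard_eq_two.mp hk
    have : J = {a, b}ᶜ := by rw [← hF, compl_compl]
    exact three_trans h2t hab (this ▸ hJ)
  · exfalso
    have hk3 : 3 ≤ Jᶜ.ncard := by omega
    have hP : ∀ (g : G) (B : Set Ω), IsJ G B → (B ∩ (g • J)).Nonempty → ¬ B ⊆ g • J →
        (((g • J) ∪ B)ᶜ).ncard ≤ 1 := by
      rintro g B hB ⟨c, hcB, hcJ⟩ hsub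
      by_contra hcon
      have hU : IsJ G ((g • J) ∪ B) := (hJ.smul g).union hB hcJ hcB
      have h3 : ((g • J) ∪ B).ncard ≤ J.ncard := hJmax _ ⟨hU, by omega⟩
      have h4 : (g • J).ncard < ((g • J) ∪ B).ncard := by
        exact Set.ncard_lt_ncard
          ⟨Set.subset_union_left, fun h => hsub (fun x hx => h (Or.inr hx))⟩
      rw [Set.ncard_smul_set] at h4
      omega
    obtain ⟨x, y, hx, hy, hxy⟩ := (Set.one_lt_ncard_iff).mp h1
    obtain ⟨u, v, hu, hv, huv⟩ := (Set.one_lt_ncard_iff (s := Jᶜ)).mp (by omega)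
    obtain ⟨w, hw⟩ : J.Nonempty := Set.nonempty_of_ncard_ne_zero (by omega)
    have hkm : Jᶜ.ncard ≤ Γ.ncard := by
      have huw : u ≠ w := fun h => hu (h ▸ hw)
      obtain ⟨g, hg1, hg2⟩ := h2t hxy huw
      have hB := hΓJ.smul g
      have huB : u ∈ g • Γ := hg1 ▸ Set.smul_mem_smul_set hx
      have hwB : w ∈ g • Γ := hg2 ▸ Set.smul_mem_smul_set hy
      have h5 := hP 1 (g • Γ) hB ⟨w, hwB, by rwa [one_smul]⟩
        (fun h => hu (by have := h huB; rwa [one_smul] at this))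
      rw [one_smul] at h5
      have h6 : Jᶜ ⊆ (J ∪ g • Γ)ᶜ ∪ ((g • Γ) \ {w}) := by
        intro z hz
        by_cases hzB : z ∈ g • Γ
        · right
          exact ⟨hzB, fun h => hz (by rw [Set.mem_singleton_iff.mp h]; exact hw)⟩
        · left
          exact fun h => h.elim hz hzB
      have h7 := (Set.ncard_le_ncard h6).trans (Set.ncard_union_le _ _)
      rw [Set.ncard_sdiff_singleton_of_mem hwB, Set.ncard_smul_set] at h7
      omega
    have hL2 : ∀ g₁ g₂ : G, ∀ p q : Ω, p ≠ q → p ∈ g₁ • Jᶜ → q ∈ g₁ • Jᶜ → p ∈ g₂ • Jᶜ →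
        q ∈ g₂ • Jᶜ → g₁ • Jᶜ = g₂ • Jᶜ := by
      intro g₁ g₂ p q hpq hp1 hq1 hp2 hq2
      by_contra hne
      have hne' : g₂ • J ≠ g₁ • J := by
        intro h
        apply hne
        rw [Set.smul_set_compl, Set.smul_set_compl, h]
      have hsub : ¬ g₂ • J ⊆ g₁ • J := by
        intro h
        exact hne' (Set.eq_of_subset_of_ncard_le h
          (by rw [Set.ncard_smul_set, Set.ncard_smul_set]))
      have hinter : ((g₂ • J) ∩ (g₁ • J)).Nonempty := by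
        by_contra hemp
        rw [Set.not_nonempty_iff_eq_empty] at hemp
        have h8 := Set.ncard_union_add_ncard_inter (g₁ • Jᶜ) (g₂ • Jᶜ)
        have h9 : (g₁ • Jᶜ) ∪ (g₂ • Jᶜ) = Set.univ := by
          rw [Set.smul_set_compl, Set.smul_set_compl, ← Set.compl_inter, Set.inter_comm, hemp,
            Set.compl_empty]
        have h10 : 1 < ((g₁ • Jᶜ) ∩ (g₂ • Jᶜ)).ncard :=
          (Set.one_lt_ncard_iff).mpr ⟨p, q, ⟨hp1, hp2⟩, ⟨hq1, hq2⟩, hpq⟩
        rw [h9, Set.ncard_univ, Set.ncard_smul_set, Set.ncard_smul_set] at h8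
        omega
      have h11 := hP g₁ (g₂ • J) (hJ.smul g₂) hinter hsub
      have h12 : 1 < (((g₁ • J) ∪ (g₂ • J))ᶜ).ncard := by
        apply (Set.one_lt_ncard_iff).mpr
        refine ⟨p, q, ?_, ?_, hpq⟩
        · rw [Set.compl_union, ← Set.smul_set_compl, ← Set.smul_set_compl]; exact ⟨hp1, hp2⟩
        · rw [Set.compl_union, ← Set.smul_set_compl, ← Set.smul_set_compl]; exact ⟨hq1, hq2⟩
      omega
    have hL1 : ∀ p q : Ω, p ≠ q → ∃ g : G, p ∈ g • Jᶜ ∧ q ∈ g • Jᶜ := by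
      intro p q hpq
      obtain ⟨g, h1', h2'⟩ := h2t huv hpq
      exact ⟨g, h1' ▸ Set.smul_mem_smul_set hu, h2' ▸ Set.smul_mem_smul_set hv⟩
    have hPΓ : ∀ g : G, ¬ Γ ⊆ g • Jᶜ → (Γ ∩ (g • Jᶜ)).Nonempty → ((g • Jᶜ) \ Γ).ncard ≤ 1 := by
      rintro g hns ⟨c, hcΓ, hcL⟩
      have h13 : (Γ ∩ (g • J)).Nonempty := by
        by_contra hemp
        apply hns
        intro z hz
        rw [Set.smul_set_compl]
        exact fun hzJ => hemp ⟨z, hz, hzJ⟩
      have h14 : ¬ Γ ⊆ g • J := by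
        intro h
        rw [Set.smul_set_compl] at hcL
        exact hcL (h hcΓ)
      have h15 := hP g Γ hΓJ h13 h14
      have e : ((g • J) ∪ Γ)ᶜ = (g • Jᶜ) \ Γ := by
        rw [Set.compl_union, Set.smul_set_compl]; rfl
      rwa [e] at h15
    have h3rd : ∀ g : G, ∀ p q : Ω, ∃ e ∈ g • Jᶜ, e ≠ p ∧ e ≠ q := by
      intro g p q
      have hlt : ({p, q} : Set Ω).ncard < (g • Jᶜ).ncard := by
        rw [Set.ncard_smul_set]
        have := Set.ncard_insert_le p ({q} : Set Ω)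
        rw [Set.ncard_singleton] at this
        omega
      obtain ⟨e, he1, he2⟩ := Set.exists_mem_notMem_of_ncard_lt_ncard hlt
      exact ⟨e, he1, fun h => he2 (by simp [h]), fun h => he2 (by simp [h])⟩
    by_cases hA : ∃ g₀ : G, Γ ⊆ g₀ • Jᶜ
    · obtain ⟨g₀, hg₀⟩ := hA
      obtain ⟨w₀, hw₀⟩ : ∃ w₀, w₀ ∉ g₀ • Jᶜ := by
        by_contra hcon
        push Not at hcon
        have h20 : g₀ • Jᶜ = Set.univ := Set.eq_univ_of_forall hcon
        have h16 := Set.ncard_smul_set g₀ Jᶜ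
        rw [h20, Set.ncard_univ] at h16
        omega
      have hxw : x ≠ w₀ := fun h => hw₀ (h ▸ hg₀ hx)
      obtain ⟨g', hx', hw'⟩ := hL1 x w₀ hxw
      have hΓL' : ∀ y' ∈ Γ, y' ∈ g' • Jᶜ → y' = x := by
        intro y' hy' hy'L
        by_contra hne
        have := hL2 g' g₀ x y' (Ne.symm hne) hx' hy'L (hg₀ hx) (hg₀ hy')
        exact hw₀ (this ▸ hw')
      have h17 := hPΓ g' (fun h => hxy ((hΓL' y hy (h hy)).symm)) ⟨x, hx, hx'⟩
      obtain ⟨e, heL, hex, hew⟩ := h3rd g' x w₀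
      have heΓ : e ∉ Γ := fun h => hex (hΓL' e h heL)
      have hwΓ : w₀ ∉ Γ := fun h => hw₀ (hg₀ h)
      exact hew ((Set.ncard_le_one_iff).mp h17 ⟨heL, heΓ⟩ ⟨hw', hwΓ⟩)
    · push Not at hA
      have H : ∀ w, w ∉ Γ → ∃ e, e ∈ Γ \ {x} ∧
          ∃ g : G, x ∈ g • Jᶜ ∧ w ∈ g • Jᶜ ∧ e ∈ g • Jᶜ := by
        intro w hw
        have hxw : x ≠ w := fun h => hw (h ▸ hx)
        obtain ⟨g, hxg, hwg⟩ := hL1 x w hxw
        obtain ⟨e, heL, hex, hew⟩ := h3rd g x w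
        have h18 := hPΓ g (hA g) ⟨x, hx, hxg⟩
        refine ⟨e, ⟨?_, hex⟩, g, hxg, hwg, heL⟩
        by_contra heΓ
        exact hew ((Set.ncard_le_one_iff).mp h18 ⟨heL, heΓ⟩ ⟨hwg, hw⟩)
      choose! φ hφ1 hφ2 using H
      have hcard : Γᶜ.ncard ≤ (Γ \ {x}).ncard := by
        apply Set.ncard_le_ncard_of_injOn φ (fun w hw => hφ1 w hw)
        intro w hw w' hw' heq
        obtain ⟨g, hxg, hwg, heg⟩ := hφ2 w hw
        obtain ⟨g', hxg', hwg', heg'⟩ := hφ2 w' hw'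
        rw [← heq] at heg'
        have hne : x ≠ φ w := fun h => (hφ1 w hw).2 h.symm
        have hLL := hL2 g g' x (φ w) hne hxg heg hxg' heg'
        have h19 := hPΓ g (hA g) ⟨x, hx, hxg⟩
        exact (Set.ncard_le_one_iff).mp h19 ⟨hwg, hw⟩ ⟨hLL ▸ hwg', hw'⟩
      rw [Set.ncard_sdiff_singleton_of_mem hx] at hcard
      omega

end Cfsg.Agent.S3707
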