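import Cfsg.Statements.S3734
import Cfsg.Agent.Lib.Helper9.Gen2
import Cfsg.Agent.Lib.Helper9.SupNorm
import Cfsg.Agent.Lib.Helper9.RankTwo
import Cfsg.Agent.Lib.Helper1.Coprime

set_option autoImplicit false
open Cfsg

namespace Cfsg.Agent.S3734

open Cfsg.Agent.Lib.Helper9 Cfsg.Agent.Lib.Helper1

theorem comm_of {G : Type*} [Group G] {S : Subgroup G} (hS : IsMulCommutative S) {a b : G}
    (ha : a ∈ S) (hb : b ∈ S) : a * b = b * a := by
  have := hS.is_comm.comm (⟨a, ha⟩ : S) ⟨b, hb⟩
  exact congrArg Subtype.val this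

theorem exists_rank_two_rel {α : Type*} [Group α] [Finite α] (hc : ∀ x y : α, x * y = y * x)
    (D : Subgroup α) (hD : ∀ a : α, D ⊔ Subgroup.zpowers a ≠ ⊤) :
    ∃ p : ℕ, p.Prime ∧ p ∣ Nat.card α ∧ ∃ a b : α, a ^ p ∈ D ∧ b ^ p ∈ D ∧ a ∉ D ∧
      b ∉ D ⊔ Subgroup.zpowers a := by
  haveI : D.Normal := ⟨fun n hn g => by rw [hc g n, mul_assoc, mul_inv_cancel, mul_one]; exact hn⟩
  have hmap : ∀ a : α, (D ⊔ Subgroup.zpowers a).map (QuotientGroup.mk' D)
      = Subgroup.zpowers (QuotientGroup.mk' D a) := by
    intro a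
    rw [Subgroup.map_sup, QuotientGroup.map_mk'_self, bot_sup_eq, MonoidHom.map_zpowers]
  have hcQ : ∀ x y : α ⧸ D, x * y = y * x := by
    intro x y
    obtain ⟨x, rfl⟩ := QuotientGroup.mk'_surjective D x
    obtain ⟨y, rfl⟩ := QuotientGroup.mk'_surjective D y
    rw [← map_mul, ← map_mul, hc]
  have hncyc : ¬ IsCyclic (α ⧸ D) := by
    rintro ⟨g, hg⟩
    obtain ⟨a, rfl⟩ := QuotientGroup.mk'_surjective D g
    apply hD a
    rw [eq_top_iff]
    intro x _
    have h1 : QuotientGroup.mk' D x ∈ (D ⊔ Subgroup.zpowers a).map (QuotientGroup.mk' D) := by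
      rw [hmap]; exact hg _
    obtain ⟨y, hy, hyx⟩ := h1
    have h2 : y⁻¹ * x ∈ D := by
      rw [← QuotientGroup.eq_one_iff]
      change QuotientGroup.mk' D (y⁻¹ * x) = 1
      rw [map_mul, map_inv, hyx, inv_mul_cancel]
    have : x = y * (y⁻¹ * x) := by group
    rw [this]
    exact Subgroup.mul_mem _ hy ((le_sup_left : D ≤ _) h2)
  obtain ⟨p, hp, a, b, hap, hbp, ha1, hba⟩ := exists_rank_two hcQ hncyc
  haveI : Fact p.Prime := ⟨hp⟩
  have hpdvd : p ∣ Nat.card α := by
    have h1 : orderOf a = p := orderOf_eq_prime hap ha1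
    have h2 : p ∣ Nat.card (α ⧸ D) := by rw [← h1]; exact orderOf_dvd_natCard a
    exact h2.trans (Subgroup.card_quotient_dvd_card D)
  obtain ⟨a, rfl⟩ := QuotientGroup.mk'_surjective D a
  obtain ⟨b, rfl⟩ := QuotientGroup.mk'_surjective D b
  refine ⟨p, hp, hpdvd, a, b, ?_, ?_, ?_, ?_⟩
  · rw [← map_pow] at hap
    exact (QuotientGroup.eq_one_iff _).1 hap
  · rw [← map_pow] at hbp
    exact (QuotientGroup.eq_one_iff _).1 hbp
  · intro h
    exact ha1 ((QuotientGroup.eq_one_iff _).2 h)
  · intro h
    apply hba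
    rw [← hmap]
    exact ⟨b, h, rfl⟩

theorem part1 {X : Type*} [Group X] [Finite X] (A G W : Subgroup X) (hAab : IsMulCommutative A)
    (hAG : A ≤ Subgroup.normalizer (G : Set X)) (hcop : (Nat.card A).Coprime (Nat.card G))
    (hW : ∀ B : Subgroup X, B ≤ A → (∃ a ∈ A, B ⊔ Subgroup.zpowers a = A) →
      G ⊓ Subgroup.centralizer (B : Set X) ≤ W) : G ≤ W := by
  have hAs : Group.IsSolvable A :=
    Group.isSolvable_of_comm (fun x y => Subtype.ext (comm_of hAab x.2 y.2))
  have key : ∀ D : Subgroup X, D ≤ A → G ⊓ Subgroup.centralizer (D : Set X) ≤ W := by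
    intro D
    induction D using WellFoundedGT.induction with
    | ind D ih =>
      intro hDA
      by_cases hcyc : ∃ a ∈ A, D ⊔ Subgroup.zpowers a = A
      · exact hW D hDA hcyc
      push Not at hcyc
      have hmapsup : ∀ a : A, (D.subgroupOf A ⊔ Subgroup.zpowers a).map A.subtype
          = D ⊔ Subgroup.zpowers (a : X) := by
        intro a
        rw [Subgroup.map_sup, Subgroup.map_subgroupOf_eq_of_le hDA, MonoidHom.map_zpowers]
        rfl
      obtain ⟨p, hp, hpA, a, b, hap, hbp, haD, hbD⟩ := exists_rank_two_rel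
        (α := A) (fun x y => Subtype.ext (comm_of hAab x.2 y.2)) (D.subgroupOf A) (by
          intro a h
          apply hcyc a a.2
          rw [← hmapsup, h, ← MonoidHom.range_eq_map, Subgroup.range_subtype])
      have hap' : (a : X) ^ p ∈ D := hap
      have hbp' : (b : X) ^ p ∈ D := hbp
      have haD' : (a : X) ∉ D := haD
      have hbD' : (b : X) ∉ D ⊔ Subgroup.zpowers (a : X) := by
        intro h
        rw [← hmapsup] at h
        obtain ⟨y, hy, hyb⟩ := h
        have : y = b := Subtype.ext hyb
        exact hbD (this ▸ hy)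
      have hAK : A ≤ Subgroup.normalizer
          ((G ⊓ Subgroup.centralizer (D : Set X) : Subgroup X) : Set X) := by
        intro n hn
        have h1 := Subgroup.mem_normalizer_iff.1 (hAG hn)
        have hnC : n ∈ Subgroup.centralizer (D : Set X) := by
          rw [Subgroup.mem_centralizer_iff]
          intro d hd
          exact comm_of hAab (hDA hd) hn
        have h2 := Subgroup.mem_normalizer_iff.1 (Subgroup.le_normalizer hnC)
        rw [Subgroup.mem_normalizer_iff]
        intro g
        rw [Subgroup.mem_inf, Subgroup.mem_inf, ← h1 g, ← h2 g]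
      have hcop' : (Nat.card A).Coprime
          (Nat.card (G ⊓ Subgroup.centralizer (D : Set X) : Subgroup X)) :=
        Nat.Coprime.coprime_dvd_right (Subgroup.card_dvd_of_le inf_le_left) hcop
      have hpK : ¬ p ∣ Nat.card (G ⊓ Subgroup.centralizer (D : Set X) : Subgroup X) := by
        intro h
        have := Nat.dvd_gcd hpA h
        rw [hcop'.gcd_eq_one] at this
        exact hp.one_lt.ne' (Nat.dvd_one.1 this)
      have hDcent : D ≤ Subgroup.centralizer
          ((G ⊓ Subgroup.centralizer (D : Set X) : Subgroup X) : Set X) := by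
        intro d hd
        rw [Subgroup.mem_centralizer_iff]
        intro g hg
        exact ((Subgroup.mem_centralizer_iff.1 hg.2) d hd).symm
      have hstep : ∀ x ∈ A, x ∉ D →
          (G ⊓ Subgroup.centralizer (D : Set X)) ⊓ Subgroup.centralizer {x} ≤ W := by
        intro x hxA hxD
        have hlt : D < D ⊔ Subgroup.zpowers x := by
          refine lt_of_le_of_ne le_sup_left (fun h => hxD ?_)
          rw [h]
          exact (le_sup_right : Subgroup.zpowers x ≤ _) (Subgroup.mem_zpowers x)
        refine le_trans ?_ (ih _ hlt (sup_le hDA (by rw [Subgroup.zpowers_le]; exact hxA)))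
        intro g hg
        obtain ⟨⟨hgX, hgD⟩, hgx⟩ := hg
        refine Subgroup.mem_inf.2 ⟨hgX, ?_⟩
        have : D ⊔ Subgroup.zpowers x ≤ Subgroup.centralizer {g} := by
          refine sup_le ?_ ?_
          · intro d hd
            rw [Subgroup.mem_centralizer_singleton_iff]
            exact (Subgroup.mem_centralizer_iff.1 hgD) d hd
          · rw [Subgroup.zpowers_le, Subgroup.mem_centralizer_singleton_iff]
            exact ((Subgroup.mem_centralizer_singleton_iff.1 hgx)).symm
        rw [Subgroup.mem_centralizer_iff]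
        intro y hy
        exact (Subgroup.mem_centralizer_singleton_iff.1 (this hy))
      refine gen_general hp A _ W hAK hcop' hAs a b a.2 b.2
        (comm_of hAab a.2 b.2) (hDcent hap') (hDcent hbp') hpK (hstep a a.2 haD') ?_
      intro i _
      apply hstep _ (A.mul_mem (A.pow_mem a.2 i) b.2)
      intro h
      apply hbD'
      have : (b : X) = ((a : X) ^ i)⁻¹ * ((a : X) ^ i * b) := by group
      rw [this]
      exact Subgroup.mul_mem _
        ((le_sup_right : Subgroup.zpowers (a : X) ≤ D ⊔ Subgroup.zpowers (a : X))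
        (Subgroup.inv_mem _ (Subgroup.pow_mem _ (Subgroup.mem_zpowers (a : X)) i)))
        ((le_sup_left : D ≤ D ⊔ Subgroup.zpowers (a : X)) h)
  have := key ⊥ bot_le
  intro x hx
  apply this
  refine Subgroup.mem_inf.2 ⟨hx, ?_⟩
  rw [Subgroup.mem_centralizer_iff]
  intro y hy
  have : y = 1 := hy
  rw [this]; simp

/-- Let A and G be subgroups of a finite group with A abelian, A normalizing G and the orders of A and G coprime. Then G is generated by the fixed-point subgroups C_G(B) of those subgroups B of A for which A/B is cyclic (that is, A = ⟨B, a⟩ for some a), and [G, A] is generated by the commutator subgroups [C_G(B), A] over the same subgroups B. -/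
theorem result {X : Type*} [Group X] [Finite X] (A G : Subgroup X) (hAab : IsMulCommutative A) (hAG : A ≤ Subgroup.normalizer (G : Set X)) (hcop : (Nat.card A).Coprime (Nat.card G)) : (⨆ B ∈ {B : Subgroup X | B ≤ A ∧ ∃ a ∈ A, B ⊔ Subgroup.zpowers a = A}, G ⊓ Subgroup.centralizer (B : Set X)) = G ∧ (⨆ B ∈ {B : Subgroup X | B ≤ A ∧ ∃ a ∈ A, B ⊔ Subgroup.zpowers a = A}, ⁅G ⊓ Subgroup.centralizer (B : Set X), A⁆) = ⁅G, A⁆ := by
  have hAs : Group.IsSolvable A :=
    Group.isSolvable_of_comm (fun x y => Subtype.ext (comm_of hAab x.2 y.2))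
  constructor
  · apply le_antisymm
    · exact iSup₂_le (fun a _ => inf_le_left)
    · exact part1 A G _ hAab hAG hcop (fun B hBA hB => le_iSup₂_of_le B ⟨hBA, hB⟩ le_rfl)
  · apply le_antisymm
    · exact iSup₂_le (fun a _ => Subgroup.commutator_mono inf_le_left le_rfl)
    · obtain ⟨H, hH⟩ : ∃ H : Subgroup X, H = ⁅G, A⁆ := ⟨_, rfl⟩
      have hHG : H ≤ G := by
        rw [hH]; exact Subgroup.le_normalizer_iff_commutator_le_left.mp hAG
      have hAH : A ≤ Subgroup.normalizer (H : Set X) := by
        rw [hH]; exact le_normalizer_commutator hAG Subgroup.le_normalizer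
      have hcopH : (Nat.card A).Coprime (Nat.card H) :=
        Nat.Coprime.coprime_dvd_right (Subgroup.card_dvd_of_le hHG) hcop
      have hHH : ⁅H, A⁆ = H := by
        rw [hH]; exact coprime_comm_comm A G hAG hcop (Or.inl hAs)
      obtain ⟨W', hW'⟩ : ∃ W' : Subgroup X, W' = ⨆ B ∈ {B : Subgroup X | B ≤ A ∧
          ∃ a ∈ A, B ⊔ Subgroup.zpowers a = A}, ⁅H ⊓ Subgroup.centralizer (B : Set X), A⁆ := ⟨_, rfl⟩
      have hW'le : W' ≤ ⨆ B ∈ {B : Subgroup X | B ≤ A ∧
          ∃ a ∈ A, B ⊔ Subgroup.zpowers a = A}, ⁅G ⊓ Subgroup.centralizer (B : Set X), A⁆ := by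
        rw [hW']
        exact iSup₂_mono (fun B _ => Subgroup.commutator_mono (inf_le_inf_right _ hHG) le_rfl)
      rw [← hH]
      refine le_trans ?_ hW'le
      obtain ⟨Z, hZ⟩ : ∃ Z : Subgroup X, Z = H ⊓ Subgroup.centralizer (A : Set X) := ⟨_, rfl⟩
      have hACB : ∀ B : Subgroup X, B ≤ A → A ≤ Subgroup.normalizer
          ((H ⊓ Subgroup.centralizer (B : Set X) : Subgroup X) : Set X) := by
        intro B hBA n hn
        have h1 := Subgroup.mem_normalizer_iff.1 (hAH hn)
        have hnC : n ∈ Subgroup.centralizer (B : Set X) := by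
          rw [Subgroup.mem_centralizer_iff]
          intro d hd
          exact comm_of hAab (hBA hd) hn
        have h2 := Subgroup.mem_normalizer_iff.1 (Subgroup.le_normalizer hnC)
        rw [Subgroup.mem_normalizer_iff]
        intro g
        rw [Subgroup.mem_inf, Subgroup.mem_inf, ← h1 g, ← h2 g]
      have hnorm : ∀ T : Subgroup X, (∀ B : Subgroup X, B ≤ A →
          T ≤ Subgroup.normalizer ((⁅H ⊓ Subgroup.centralizer (B : Set X), A⁆ : Subgroup X) : Set X)) →
          T ≤ Subgroup.normalizer (W' : Set X) := by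
        intro T hT
        rw [hW']
        refine le_trans ?_ (Subgroup.iInf_normalizer_le_normalizer_iSup _)
        refine le_iInf (fun B => ?_)
        refine le_trans ?_ (Subgroup.iInf_normalizer_le_normalizer_iSup _)
        exact le_iInf (fun hB => hT B hB.1)
      have hZW : Z ≤ Subgroup.normalizer (W' : Set X) := by
        apply hnorm
        intro B hBA
        apply le_normalizer_commutator
        · refine le_trans ?_ Subgroup.le_normalizer
          rw [hZ]
          exact inf_le_inf_left _ (Subgroup.centralizer_le hBA)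
        · rw [hZ]
          exact inf_le_right.trans (Subgroup.centralizer_le_normalizer _)
      have hAW : A ≤ Subgroup.normalizer (W' : Set X) := by
        apply hnorm
        intro B hBA
        exact le_normalizer_commutator (hACB B hBA) Subgroup.le_normalizer
      have hHWZ : H ≤ W' ⊔ Z := by
        apply part1 A H _ hAab hAH hcopH
        intro B hBA hB
        have hcopB : (Nat.card A).Coprime
            (Nat.card (H ⊓ Subgroup.centralizer (B : Set X) : Subgroup X)) :=
          Nat.Coprime.coprime_dvd_right (Subgroup.card_dvd_of_le inf_le_left) hcopH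
        rw [← coprime_factor A _ (hACB B hBA) hcopB (Or.inl hAs)]
        apply sup_le_sup
        · rw [hW']
          exact le_iSup₂_of_le B ⟨hBA, hB⟩ le_rfl
        · rw [hZ]
          exact inf_le_inf_right _ inf_le_left
      rw [← hHH, Subgroup.commutator_le]
      intro h hh a ha
      obtain ⟨w, hw, z, hz, rfl⟩ := (mem_sup_of_le_normalizer hZW).1 (hHWZ hh)
      have hza : z * a = a * z := by
        rw [hZ] at hz
        exact ((Subgroup.mem_centralizer_iff.1 hz.2) a ha).symm
      have e : w * z * a * (w * z)⁻¹ * a⁻¹ = w * (a * w⁻¹ * a⁻¹) := by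
        calc w * z * a * (w * z)⁻¹ * a⁻¹ = w * (z * a) * z⁻¹ * w⁻¹ * a⁻¹ := by group
          _ = w * (a * w⁻¹ * a⁻¹) := by rw [hza]; group
      rw [commutatorElement_def, e]
      exact W'.mul_mem hw ((Subgroup.mem_normalizer_iff.1 (hAW ha) _).1 (W'.inv_mem hw))

end Cfsg.Agent.S3734
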