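import Cfsg.Statements.S3735
-- import your own Cfsg.Agent.* helpers here
import Cfsg.Agent.Lib.Helper10.Layer

set_option autoImplicit false
open Cfsg

namespace Cfsg.Agent.S3735

variable {G : Type*} [Group G]

/-- `U` is invariant under conjugation by `A`. -/
def Inv (A U : Subgroup G) : Prop := ∀ a ∈ A, ∀ u ∈ U, a * u * a⁻¹ ∈ U

theorem inv_iff {A U : Subgroup G} : A ≤ Subgroup.normalizer (U : Set G) ↔ Inv A U := by
  constructor
  · intro h a ha u hu
    exact (Subgroup.mem_normalizer_iff.mp (h ha) u).mp hu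
  · intro h a ha
    rw [Subgroup.mem_normalizer_iff]
    intro u
    refine ⟨h a ha u, fun hu => ?_⟩
    have := h a⁻¹ (inv_mem ha) _ hu
    simpa [mul_assoc] using this

theorem Inv.sSup' {A : Subgroup G} (S : Set (Subgroup G)) (h : ∀ U ∈ S, Inv A U) :
    Inv A (sSup S) := by
  intro a ha u hu
  have h1 : (sSup S).map (MulAut.conj a).toMonoidHom ≤ sSup S := by
    rw [(Subgroup.gc_map_comap (MulAut.conj a).toMonoidHom).l_sSup]
    apply iSup₂_le
    intro U hU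
    refine le_trans ?_ (le_sSup hU)
    rintro _ ⟨x, hx, rfl⟩
    exact h U hU a ha x hx
  exact h1 ⟨u, hu, rfl⟩

theorem Inv.sup' {A U W : Subgroup G} (hU : Inv A U) (hW : Inv A W) : Inv A (U ⊔ W) := by
  rw [← sSup_pair]
  apply Inv.sSup'
  rintro X (rfl | rfl)
  · exact hU
  · exact hW

theorem Inv.inf' {A U W : Subgroup G} (hU : Inv A U) (hW : Inv A W) : Inv A (U ⊓ W) := by
  intro a ha u hu
  exact Subgroup.mem_inf.mpr ⟨hU a ha u (Subgroup.mem_inf.mp hu).1, hW a ha u (Subgroup.mem_inf.mp hu).2⟩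

theorem Inv.conj {H A T : Subgroup G} (hAn : Inv H A) (hT : Inv A T) {h : G} (hh : h ∈ H) :
    Inv A (T.map (MulAut.conj h).toMonoidHom) := by
  rintro a ha _ ⟨t, ht, rfl⟩
  have h1 : h⁻¹ * a * h ∈ A := by
    have := hAn h⁻¹ (inv_mem hh) a ha
    simpa using this
  refine ⟨(h⁻¹ * a * h) * t * (h⁻¹ * a * h)⁻¹, hT _ h1 t ht, ?_⟩
  simp only [MulEquiv.coe_toMonoidHom, MulAut.conj_apply]
  group

/-- minimal `A`-invariant subgroups of `V` -/
def MinInv (A V T : Subgroup G) : Prop :=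
  T ≠ ⊥ ∧ T ≤ V ∧ Inv A T ∧ ∀ T' : Subgroup G, T' ≤ T → Inv A T' → T' = ⊥ ∨ T' = T

theorem exists_minInv [Finite G] {A V X : Subgroup G} (hX : X ≠ ⊥) (hXV : X ≤ V) (hXA : Inv A X) :
    ∃ T, T ≤ X ∧ MinInv A V T := by
  obtain ⟨T, hT⟩ := (Set.toFinite {T : Subgroup G | T ≠ ⊥ ∧ T ≤ X ∧ Inv A T}).exists_minimal
    ⟨X, hX, le_rfl, hXA⟩
  obtain ⟨⟨h1, h2, h3⟩, hmin⟩ := hT
  refine ⟨T, h2, h1, h2.trans hXV, h3, ?_⟩
  intro T' hT' hT'A
  by_cases hb : T' = ⊥
  · exact Or.inl hb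
  · right
    exact le_antisymm hT' (hmin ⟨hb, hT'.trans h2, hT'A⟩ hT')

theorem map_conj_conj_inv (T : Subgroup G) (h : G) :
    (T.map (MulAut.conj h⁻¹).toMonoidHom).map (MulAut.conj h).toMonoidHom = T := by
  rw [Subgroup.map_map]
  ext x
  simp only [Subgroup.mem_map]
  constructor
  · rintro ⟨y, hy, rfl⟩
    simpa [mul_assoc] using hy
  · intro hx
    exact ⟨x, hx, by simp [mul_assoc]⟩

theorem MinInv.conj {H A V T : Subgroup G} (hAn : Inv H A) (hV : Inv H V) (hT : MinInv A V T)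
    {h : G} (hh : h ∈ H) : MinInv A V (T.map (MulAut.conj h).toMonoidHom) := by
  obtain ⟨h1, h2, h3, h4⟩ := hT
  refine ⟨?_, ?_, Inv.conj hAn h3 hh, ?_⟩
  · intro hb
    exact h1 ((Subgroup.map_eq_bot_iff_of_injective _ (MulAut.conj h).injective).mp hb)
  · rintro _ ⟨t, ht, rfl⟩
    exact hV h hh t (h2 ht)
  · intro T' hT' hT'A
    have h5 : T'.map (MulAut.conj h⁻¹).toMonoidHom ≤ T := by
      rintro _ ⟨x, hx, rfl⟩
      obtain ⟨t, ht, rfl⟩ := hT' hx
      simpa [mul_assoc] using ht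
    rcases h4 _ h5 (Inv.conj hAn hT'A (inv_mem hh)) with h6 | h6
    · left
      exact (Subgroup.map_eq_bot_iff_of_injective _ (MulAut.conj h⁻¹).injective).mp h6
    · right
      rw [← h6, map_conj_conj_inv]

/-- Clifford's Theorem for actions on finite abelian groups, first part. Let H and V be subgroups of a finite group with V abelian and H normalizing V, and let A be a normal subgroup of H. If every H-invariant subgroup of V has an H-invariant complement in V, then every A-invariant subgroup of V has an A-invariant complement in V. -/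
theorem result {G : Type*} [Group G] [Finite G] (H A V : Subgroup G) (hVab : IsMulCommutative V) (hHV : H ≤ Subgroup.normalizer (V : Set G)) (hAH : A ≤ H) (hAn : H ≤ Subgroup.normalizer (A : Set G)) (hss : ∀ U : Subgroup G, U ≤ V → H ≤ Subgroup.normalizer (U : Set G) → ∃ W : Subgroup G, W ≤ V ∧ H ≤ Subgroup.normalizer (W : Set G) ∧ U ⊓ W = ⊥ ∧ U ⊔ W = V) (U : Subgroup G) (hUV : U ≤ V) (hAU : A ≤ Subgroup.normalizer (U : Set G)) : ∃ W : Subgroup G, W ≤ V ∧ A ≤ Subgroup.normalizer (W : Set G) ∧ U ⊓ W = ⊥ ∧ U ⊔ W = V := by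
  classical
  have hVc : ∀ x ∈ V, ∀ y ∈ V, x * y = y * x := fun x hx y hy =>
    congrArg Subtype.val (hVab.is_comm.comm ⟨x, hx⟩ ⟨y, hy⟩)
  have hHV' : Inv H V := inv_iff.mp hHV
  have hAn' : Inv H A := inv_iff.mp hAn
  have hAU' : Inv A U := inv_iff.mp hAU
  set S : Subgroup G := sSup {T | MinInv A V T} with hS
  have hSV : S ≤ V := sSup_le fun T hT => hT.2.1
  have hSH : Inv H S := by
    intro h hh x hx
    have h1 : S.map (MulAut.conj h).toMonoidHom ≤ S := by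
      rw [hS, (Subgroup.gc_map_comap (MulAut.conj h).toMonoidHom).l_sSup]
      apply iSup₂_le
      intro T hT
      exact le_sSup (MinInv.conj hAn' hHV' hT hh)
    exact h1 ⟨x, hx, rfl⟩
  have hSeq : S = V := by
    obtain ⟨W, hWV, hWH, hSW, hSW'⟩ := hss S hSV (inv_iff.mpr hSH)
    have hWA : Inv A W := fun a ha => inv_iff.mp hWH a (hAH ha)
    have hWb : W = ⊥ := by
      by_contra hne
      obtain ⟨T, hTW, hT⟩ := exists_minInv hne hWV hWA
      apply hT.1
      rw [eq_bot_iff, ← hSW]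
      exact le_inf (le_sSup hT) hTW
    rw [← hSW', hWb, sup_bot_eq]
  obtain ⟨W, hW⟩ := (Set.toFinite {W : Subgroup G | W ≤ V ∧ Inv A W ∧ U ⊓ W = ⊥}).exists_maximal
    ⟨⊥, bot_le, fun a _ u hu => by rw [Subgroup.mem_bot.mp hu]; simp, inf_bot_eq _⟩
  obtain ⟨⟨hWV, hWA, hUW⟩, hmax⟩ := hW
  refine ⟨W, hWV, inv_iff.mpr hWA, hUW, le_antisymm (sup_le hUV hWV) ?_⟩
  rw [← hSeq]
  apply sSup_le
  intro T hT
  by_contra hcon
  obtain ⟨hT1, hTV, hTA, hTmin⟩ := hT
  have h1 : T ⊓ (U ⊔ W) = ⊥ := by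
    rcases hTmin _ inf_le_left (Inv.inf' hTA (Inv.sup' hAU' hWA)) with h | h
    · exact h
    · exact absurd (inf_eq_left.mp h) hcon
  have h2 : U ⊓ (W ⊔ T) = ⊥ := by
    rw [eq_bot_iff]
    intro x hx
    obtain ⟨hxU, hxWT⟩ := Subgroup.mem_inf.mp hx
    obtain ⟨w, hw, t, ht, rfl⟩ := Cfsg.Agent.Lib.Helper10.mem_sup_of_commute
      (fun a ha b hb => hVc a (hWV ha) b (hTV hb)) hxWT
    have ht1 : t ∈ T ⊓ (U ⊔ W) := by
      refine Subgroup.mem_inf.mpr ⟨ht, ?_⟩
      have e : t = w⁻¹ * (w * t) := by group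
      rw [e]
      exact mul_mem (Subgroup.mem_sup_right (inv_mem hw)) (Subgroup.mem_sup_left hxU)
    rw [h1, Subgroup.mem_bot] at ht1
    subst ht1
    rw [mul_one] at hxU ⊢
    rw [← hUW]
    exact Subgroup.mem_inf.mpr ⟨hxU, hw⟩
  have h3 : W ⊔ T ≤ W := hmax ⟨sup_le hWV hTV, Inv.sup' hWA hTA, h2⟩ le_sup_left
  exact hcon ((le_sup_right.trans h3).trans le_sup_right)

end Cfsg.Agent.S3735
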