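import Cfsg.Statements.S3736
-- import your own Cfsg.Agent.* helpers here
import Cfsg.Agent.S0119
import Cfsg.Agent.S0094
import Cfsg.Agent.Lib.Helper1.Coprime
import Cfsg.Agent.Lib.Helper1.CoprimeAbelian
import Cfsg.Agent.Lib.Helper1.Frattini
import Cfsg.Agent.Lib.Helper1.Glauberman
import Cfsg.Agent.Lib.Helper14.Class2

set_option autoImplicit false
open Cfsg

namespace Cfsg.Agent.S3736

open scoped commutatorElement
open Cfsg.Agent.Lib.Helper1 in
theorem char_map_normalized {X : Type*} [Group X] (B P : Subgroup X)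
    (hBP : B ≤ Subgroup.normalizer (P : Set X)) (H : Subgroup ↥P) (hH : H.Characteristic) :
    B ≤ Subgroup.normalizer ((H.map P.subtype : Subgroup X) : Set X) := by
  rw [Subgroup.le_normalizer_iff]
  rintro b hb _ ⟨x, hx, rfl⟩
  refine ⟨conjHom B P hBP ⟨b, hb⟩ x, ?_, rfl⟩
  have := Subgroup.characteristic_iff_map_eq.mp hH (conjHom B P hBP ⟨b, hb⟩)
  rw [← this]
  exact ⟨x, hx, rfl⟩

theorem frattini_ne_top' {Q : Type*} [Group Q] [Finite Q] [Nontrivial Q] : frattini Q ≠ ⊤ := by
  intro h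
  have : (⊥ : Subgroup Q) = ⊤ := frattini_nongenerating (by rw [h]; simp)
  exact bot_ne_top this

/-- The Hall–Higman reduction for a minimal non-trivial action. Let B, A and P be subgroups of a finite group with P a p-group, B normalizing P, and A a normal subgroup of B of order prime to p. Suppose A does not centralize P but centralizes every proper B-invariant subgroup of P. Then [P, A] = P; P is elementary abelian or special; B acts irreducibly on P/Φ(P), that is, the only B-invariant subgroups of P containing Φ(P) are Φ(P) and P; and if p is odd then every element of P has order dividing p. -/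
theorem result {X : Type*} [Group X] [Finite X] {p : ℕ} [Fact p.Prime] (B A P : Subgroup X) (hP : IsPGroup p P) (hBP : B ≤ Subgroup.normalizer (P : Set X)) (hAB : A ≤ B) (hAn : B ≤ Subgroup.normalizer (A : Set X)) (hAp : (Nat.card A).Coprime p) (hnt : ⁅P, A⁆ ≠ ⊥) (hmin : ∀ U : Subgroup X, U < P → B ≤ Subgroup.normalizer (U : Set X) → ⁅U, A⁆ = ⊥) : ⁅P, A⁆ = P ∧ (Cfsg.IsElementaryAbelian p P ∨ Cfsg.IsSpecial p ↥P) ∧ (∀ U : Subgroup X, (frattini ↥P).map P.subtype ≤ U → U ≤ P → B ≤ Subgroup.normalizer (U : Set X) → U = (frattini ↥P).map P.subtype ∨ U = P) ∧ (p ≠ 2 → ∀ x ∈ P, x ^ p = 1) := by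
  classical
  have hp : p.Prime := Fact.out
  have hAP : A ≤ Subgroup.normalizer (P : Set X) := hAB.trans hBP
  have hcop : (Nat.card A).Coprime (Nat.card P) :=
    Cfsg.Agent.Lib.Helper1.coprime_card_of_isPGroup hAp hP
  have hsolvP : Group.IsSolvable ↥P := Cfsg.Agent.Lib.Helper1.isSolvable_of_isPGroup hP
  have hWP : ⁅P, A⁆ ≤ P := Subgroup.le_normalizer_iff_commutator_le_left.mp hAP
  -- (1)
  have h1 : ⁅P, A⁆ = P := by
    by_contra hne
    have hlt : ⁅P, A⁆ < P := lt_of_le_of_ne hWP hne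
    have := hmin _ hlt (Cfsg.Agent.Lib.Helper1.le_normalizer_commutator hBP hAn)
    rw [Cfsg.Agent.Lib.Helper1.coprime_comm_comm A P hAP hcop (Or.inr hsolvP)] at this
    exact hnt this
  have hPnt : Nontrivial ↥P := by
    rw [Subgroup.nontrivial_iff_ne_bot]
    rintro rfl
    exact hnt (by rw [Subgroup.commutator_bot_left])
  let φ := Cfsg.Agent.Lib.Helper1.conjHom A P hAP
  have hφ : ∀ (a : ↥A) (x : ↥P), ((φ a x : ↥P) : X) = a * x * (a : X)⁻¹ := fun a x => rfl
  let 𝒜 : Subgroup (MulAut ↥P) := φ.range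
  have h𝒜cop : Nat.Coprime (Nat.card 𝒜) p := by
    apply Nat.Coprime.coprime_dvd_left _ hAp
    exact Subgroup.card_range_dvd φ
  -- elements centralized by A are fixed
  have hfix : ∀ U : Subgroup X, ⁅U, A⁆ = ⊥ → ∀ x : ↥P, (x : X) ∈ U → ∀ a ∈ 𝒜, a x = x := by
    rintro U hU x hx _ ⟨a, rfl⟩
    apply Subtype.ext
    rw [hφ]
    have hc := Subgroup.commutator_eq_bot_iff_le_centralizer.mp hU hx
    have := Subgroup.mem_centralizer_iff.mp hc a a.2
    rw [this]; group
  have hΦlt : (frattini ↥P).map P.subtype < P := by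
    apply lt_of_le_of_ne
    · rintro _ ⟨x, _, rfl⟩; exact x.2
    · intro h
      apply frattini_ne_top' (Q := ↥P)
      rw [eq_top_iff]
      intro x _
      have hx : (x : X) ∈ (frattini ↥P).map P.subtype := by rw [h]; exact x.2
      obtain ⟨y, hy, hyx⟩ := hx
      have : y = x := Subtype.ext hyx
      rwa [← this]
  have hΦB : B ≤ Subgroup.normalizer (((frattini ↥P).map P.subtype : Subgroup X) : Set X) :=
    char_map_normalized B P hBP _ (frattini_characteristic)
  have hΦA : ⁅(frattini ↥P).map P.subtype, A⁆ = ⊥ := hmin _ hΦlt hΦB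
  by_cases hab : IsMulCommutative ↥P
  · -- abelian case
    have hinf := Cfsg.Agent.Lib.Helper1.coprime_abelian_inf A P hAP hcop
    rw [h1] at hinf
    have htriv : ∀ U : Subgroup X, U ≤ P → ⁅U, A⁆ = ⊥ → ∀ u ∈ U, u = 1 := by
      intro U hUP hU u hu
      have : u ∈ (P ⊓ Subgroup.centralizer (A : Set X)) ⊓ P := by
        refine Subgroup.mem_inf.mpr ⟨Subgroup.mem_inf.mpr ⟨hUP hu, ?_⟩, hUP hu⟩
        exact Subgroup.commutator_eq_bot_iff_le_centralizer.mp hU hu
      rw [hinf] at this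
      exact this
    have hexp : ∀ x ∈ P, x ^ p = 1 := by
      intro x hx
      apply htriv _ hΦlt.le hΦA
      exact ⟨⟨x, hx⟩ ^ p, Cfsg.Agent.Lib.Helper1.pgroup_pow_mem_frattini hP ⟨x, hx⟩, rfl⟩
    refine ⟨h1, Or.inl ⟨hab, hexp⟩, ?_, fun _ => hexp⟩
    intro U hΦU hUP hBU
    by_cases hUP' : U = P
    · exact Or.inr hUP'
    · left
      apply le_antisymm _ hΦU
      intro u hu
      rw [htriv U hUP (hmin U (lt_of_le_of_ne hUP hUP') hBU) u hu]
      exact one_mem _
  · -- nonabelian case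
    have hGA : Subgroup.closure {x : ↥P | ∃ g : ↥P, ∃ a ∈ 𝒜, x = g⁻¹ * a g} = ⊤ := by
      rw [eq_top_iff]
      have hle : ⁅P, A⁆ ≤ (Subgroup.closure {x : ↥P | ∃ g : ↥P, ∃ a ∈ 𝒜, x = g⁻¹ * a g}).map
          P.subtype := by
        rw [Subgroup.commutator_le]
        intro g hg a ha
        refine ⟨(⟨g, hg⟩ : ↥P)⁻¹⁻¹ * φ ⟨a, ha⟩ (⟨g, hg⟩ : ↥P)⁻¹,
          Subgroup.subset_closure ⟨(⟨g, hg⟩ : ↥P)⁻¹, φ ⟨a, ha⟩, ⟨⟨a, ha⟩, rfl⟩, rfl⟩, ?_⟩
        show ((⟨g, hg⟩ : ↥P)⁻¹⁻¹ : ↥P).1 * ((φ ⟨a, ha⟩ (⟨g, hg⟩ : ↥P)⁻¹ : ↥P) : X) = _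
        rw [hφ, commutatorElement_def]
        simp only [inv_inv, Subgroup.coe_inv]
        group
      intro x _
      have hx : (x : X) ∈ ⁅P, A⁆ := by rw [h1]; exact x.2
      obtain ⟨y, hy, hyx⟩ := hle hx
      have : y = x := Subtype.ext hyx
      rwa [← this]
    have hchar : ∀ H : Subgroup ↥P, H.Characteristic → IsMulCommutative H →
        ∀ a ∈ 𝒜, ∀ h ∈ H, a h = h := by
      intro H hHc hHa a ha h hh
      have hlt : H.map P.subtype < P := by
        apply lt_of_le_of_ne
        · rintro _ ⟨x, _, rfl⟩; exact x.2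
        · intro he
          apply hab
          have htop : H = ⊤ := by
            rw [eq_top_iff]
            intro x _
            have hx : (x : X) ∈ H.map P.subtype := by rw [he]; exact x.2
            obtain ⟨y, hy, hyx⟩ := hx
            have : y = x := Subtype.ext hyx
            rwa [← this]
          subst htop
          refine ⟨⟨fun x y => ?_⟩⟩
          have := hHa.is_comm.comm ⟨x, Subgroup.mem_top x⟩ ⟨y, Subgroup.mem_top y⟩
          exact congrArg Subtype.val this
      exact hfix _ (hmin _ hlt (char_map_normalized B P hBP H hHc)) h ⟨h, hh, rfl⟩ a ha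
    obtain ⟨hSpec, hcen⟩ := Cfsg.Agent.S0119.result hP 𝒜 h𝒜cop hGA hchar
    refine ⟨h1, Or.inr hSpec, ?_, ?_⟩
    · intro U hΦU hUP hBU
      by_cases hUP' : U = P
      · exact Or.inr hUP'
      · left
        apply le_antisymm _ hΦU
        intro u hu
        have hUA := hmin U (lt_of_le_of_ne hUP hUP') hBU
        refine ⟨⟨u, hUP hu⟩, ?_, rfl⟩
        rw [hSpec.2.1]
        exact (hcen _).mpr (fun a ha => hfix U hUA ⟨u, hUP hu⟩ hu a ha)
    · intro hp2
      have hcc : ∀ x y : ↥P, ⁅y, x⁆ ∈ Subgroup.center ↥P := by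
        intro x y
        rw [← hSpec.2.2]
        exact Subgroup.commutator_mem_commutator (Subgroup.mem_top y) (Subgroup.mem_top x)
      have hmulpow : ∀ x y : ↥P, (x * y) ^ p = x ^ p * y ^ p := fun x y =>
        Cfsg.Agent.Lib.Helper14.mul_pow_prime_class2 hp hp2 x y (hcc x y)
          (Cfsg.Agent.S0094.result hSpec _ (hcc x y))
      let K : Subgroup ↥P :=
        { carrier := {x | x ^ p = 1}
          one_mem' := one_pow p
          mul_mem' := by
            intro x y hx hy
            show (x * y) ^ p = 1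
            rw [hmulpow, show x ^ p = 1 from hx, show y ^ p = 1 from hy, one_mul]
          inv_mem' := by
            intro x hx
            show (x⁻¹) ^ p = 1
            rw [inv_pow, show x ^ p = 1 from hx, inv_one] }
      have hK : (⊤ : Subgroup ↥P) ≤ K := by
        rw [← hGA, Subgroup.closure_le]
        rintro _ ⟨g, a, ha, rfl⟩
        show (g⁻¹ * a g) ^ p = 1
        rw [hmulpow, ← map_pow]
        have hgp : g ^ p ∈ Subgroup.center ↥P := by
          rw [← hSpec.2.1]
          exact Cfsg.Agent.Lib.Helper1.pgroup_pow_mem_frattini hP g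
        rw [(hcen _).mp hgp a ha, inv_pow, inv_mul_cancel]
      intro x hx
      have : (⟨x, hx⟩ : ↥P) ^ p = 1 := hK (Subgroup.mem_top _)
      exact congrArg Subtype.val this

end Cfsg.Agent.S3736
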