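import Cfsg.Statements.S3737
import Cfsg.Agent.Lib.Helper1.Coprime
import Cfsg.Agent.Lib.Helper18.Baer
import Mathlib

set_option autoImplicit false
open Cfsg

namespace Cfsg.Agent.S3737

open Subgroup Cfsg.Agent.Lib.Helper1 Cfsg.Agent.Lib.Helper18
open scoped commutatorElement

theorem main {X : Type*} [Group X] [Finite X] {p : ℕ} [Fact p.Prime] (hp : p ≠ 2)
    (P Q : Subgroup X) (hP : IsPGroup p P) (hQ : (Nat.card Q).Coprime p)
    (hPQ : P ≤ normalizer (Q : Set X)) :
    ∀ (n : ℕ) (U : Subgroup X), Nat.card U = n → IsPGroup p U →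
    P ≤ normalizer (U : Set X) → Q ≤ normalizer (U : Set X) →
    U ⊓ centralizer (P : Set X) ≤ centralizer (Q : Set X) →
    Q ≤ centralizer (U : Set X) := by
  intro n
  induction n using Nat.strong_induction_on with
  | _ n ih =>
  intro U hn hU hPU hQU hC
  by_cases hUbot : U = ⊥
  · rw [hUbot]
    exact le_centralizer_iff.mp bot_le
  have hWU : ⁅U, Q⁆ ≤ U := le_normalizer_iff_commutator_le_left.mp hQU
  rcases hWU.lt_or_eq with hlt | heq
  · have h1 := ih _ (hn ▸ card_lt_of_lt hlt) ⁅U, Q⁆ rfl (hU.to_le hWU)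
      (le_normalizer_commutator hPU hPQ)
      (normalizer_commutator_ge_right U Q) ((inf_le_inf_right _ hWU).trans hC)
    have h2 : ⁅⁅U, Q⁆, Q⁆ = ⊥ :=
      commutator_eq_bot_iff_le_centralizer.mpr (le_centralizer_iff.mp h1)
    rw [coprime_comm_comm Q U hQU (coprime_card_of_isPGroup hQ hU)
      (Or.inr (isSolvable_of_isPGroup hU))] at h2
    exact le_centralizer_iff.mp (commutator_eq_bot_iff_le_centralizer.mp h2)
  · have hlt : ⁅U, U⁆ < U := commutator_lt_of_isPGroup hU hU le_normalizer hUbot
    have h1 := ih _ (hn ▸ card_lt_of_lt hlt) ⁅U, U⁆ rfl (hU.to_le hlt.le)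
      (le_normalizer_commutator hPU hPU) (le_normalizer_commutator hQU hQU)
      ((inf_le_inf_right _ hlt.le).trans hC)
    have h2 : ⁅⁅U, U⁆, Q⁆ = ⊥ :=
      commutator_eq_bot_iff_le_centralizer.mpr (le_centralizer_iff.mp h1)
    have h3 : ⁅⁅Q, ⁅U, U⁆⁆, U⁆ = ⊥ := by
      rw [commutator_comm Q, h2, commutator_bot_left]
    have h4 : ⁅⁅⁅U, U⁆, U⁆, Q⁆ = ⊥ := by
      rw [eq_bot_iff, ← h2]
      exact commutator_mono (commutator_mono hlt.le le_rfl) le_rfl
    have h5 : ⁅⁅U, Q⁆, ⁅U, U⁆⁆ = ⊥ := commutator_commutator_eq_bot_of_rotate h3 h4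
    rw [heq] at h5
    have h6 : U ≤ centralizer ((⁅U, U⁆ : Subgroup X) : Set X) :=
      commutator_eq_bot_iff_le_centralizer.mp h5
    have hcl : ∀ x y z : U, ⁅x, y⁆ * z = z * ⁅x, y⁆ := by
      intro x y z
      apply Subtype.ext
      exact (mem_centralizer_iff.mp (h6 z.2)) _ (commutator_mem_commutator x.2 y.2)
    let σ : P → Equiv.Perm Q := fun u => (conjHom P Q hPQ u).toEquiv
    have key := pq_class_two hp hU hcl hP hQ (conjHom P U hPU) (conjHom Q U hQU) σ
      (by
        intro u q x
        apply Subtype.ext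
        show (u : X) * (q * x * (q : X)⁻¹) * (u : X)⁻¹
          = ((u : X) * q * (u : X)⁻¹) * ((u : X) * x * (u : X)⁻¹) * ((u : X) * q * (u : X)⁻¹)⁻¹
        group)
      (by
        intro y hy q
        have hyP : (y : X) ∈ centralizer (P : Set X) := by
          rw [mem_centralizer_iff]
          intro a ha
          have h7 := congrArg (fun z : U => (z : X)) (hy ⟨a, ha⟩)
          simp only [conjHom_apply_coe] at h7
          calc a * y = a * y * a⁻¹ * a := by group
            _ = y * a := by rw [h7]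
        have hyQ := hC (mem_inf.mpr ⟨y.2, hyP⟩)
        apply Subtype.ext
        rw [conjHom_apply_coe, (mem_centralizer_iff.mp hyQ) q q.2]
        group)
    intro q hq
    rw [mem_centralizer_iff]
    intro y hy
    have h7 := congrArg (fun z : U => (z : X)) (key ⟨q, hq⟩ ⟨y, hy⟩)
    simp only [conjHom_apply_coe] at h7
    calc y * q = q * y * q⁻¹ * q := by rw [h7]
      _ = q * y := by group

/-- Thompson's strengthening of the P × Q lemma for odd primes. Let p be an odd prime and let P, Q and G be subgroups of a finite group with P a p-group, Q of order prime to p and normalized by P, and G a p-group normalized by both P and Q. If every element of G centralized by P is centralized by Q, then Q centralizes G. -/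
theorem result {X : Type*} [Group X] [Finite X] {p : ℕ} [Fact p.Prime] (hp : p ≠ 2) (P Q G : Subgroup X) (hP : IsPGroup p P) (hQ : (Nat.card Q).Coprime p) (hPQ : P ≤ Subgroup.normalizer (Q : Set X)) (hG : IsPGroup p G) (hPG : P ≤ Subgroup.normalizer (G : Set X)) (hQG : Q ≤ Subgroup.normalizer (G : Set X)) (hC : G ⊓ Subgroup.centralizer (P : Set X) ≤ Subgroup.centralizer (Q : Set X)) : Q ≤ Subgroup.centralizer (G : Set X) := by
  exact main hp P Q hP hQ hPQ _ G rfl hG hPG hQG hC

end Cfsg.Agent.S3737
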