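import Cfsg.Statements.S3741
-- import your own Cfsg.Agent.* helpers here
import Cfsg.Agent.Lib.Helper14.Pairing
import Cfsg.Agent.Lib.Helper10.CharP2

set_option autoImplicit false
open Cfsg

namespace Cfsg.Agent.S3741

open scoped commutatorElement

/-- Let A and B be subgroups of a finite p-group with [A, B] ≤ A ∩ B and [A, B] of order at most p. Then |A : C_A(B)| = |B : C_B(A)|. -/
theorem result {G : Type*} [Group G] [Finite G] {p : ℕ} [Fact p.Prime] (hG : IsPGroup p G) (A B : Subgroup G) (hAB : ⁅A, B⁆ ≤ A ⊓ B) (hcard : Nat.card ↥⁅A, B⁆ ≤ p) : (A ⊓ Subgroup.centralizer (B : Set G)).relIndex A = (B ⊓ Subgroup.centralizer (A : Set G)).relIndex B := by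
  classical
  by_cases h1 : ⁅A, B⁆ = ⊥
  · have hA : A ≤ Subgroup.centralizer (B : Set G) :=
      Subgroup.commutator_eq_bot_iff_le_centralizer.mp h1
    have hB : B ≤ Subgroup.centralizer (A : Set G) := by
      rw [Subgroup.commutator_comm] at h1
      exact Subgroup.commutator_eq_bot_iff_le_centralizer.mp h1
    rw [inf_eq_left.mpr hA, inf_eq_left.mpr hB, Subgroup.relIndex_self, Subgroup.relIndex_self]
  · set Z : Subgroup G := ⁅A, B⁆ with hZdef
    have hp : p.Prime := Fact.out
    have hZp : IsPGroup p Z := hG.to_subgroup Z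
    have hZcard : Nat.card Z = p := by
      obtain ⟨k, hk⟩ := IsPGroup.iff_card.mp hZp
      rcases k with _ | k
      · exfalso
        apply h1
        rw [pow_zero] at hk
        exact Subgroup.card_eq_one.mp hk
      · apply le_antisymm hcard
        rw [hk]
        calc p = p ^ 1 := (pow_one p).symm
          _ ≤ p ^ (k + 1) := Nat.pow_le_pow_right hp.pos (by omega)
    set L : Subgroup G := A ⊔ B with hL
    have hAL : A ≤ L := le_sup_left
    have hBL : B ≤ L := le_sup_right
    have hZL : Z ≤ L := (hAB.trans inf_le_left).trans hAL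
    -- `Z` is normalized by `A` and `B`
    have hnA : ∀ a ∈ A, ∀ z ∈ Z, a * z * a⁻¹ ∈ Z := by
      intro a ha z hz
      have hcl : Z = Subgroup.closure {g | ∃ x ∈ A, ∃ y ∈ B, ⁅x, y⁆ = g} := rfl
      rw [hcl] at hz
      induction hz using Subgroup.closure_induction with
      | mem g hg =>
        obtain ⟨x, hx, y, hy, rfl⟩ := hg
        have e : a * ⁅x, y⁆ * a⁻¹ = ⁅a * x, y⁆ * ⁅a, y⁆⁻¹ := by
          simp only [commutatorElement_def]; group
        rw [e]
        exact mul_mem (Subgroup.commutator_mem_commutator (mul_mem ha hx) hy)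
          (inv_mem (Subgroup.commutator_mem_commutator ha hy))
      | one => simp
      | mul u v _ _ hu hv =>
        have e : a * (u * v) * a⁻¹ = (a * u * a⁻¹) * (a * v * a⁻¹) := by group
        rw [e]; exact mul_mem hu hv
      | inv u _ hu =>
        have e : a * u⁻¹ * a⁻¹ = (a * u * a⁻¹)⁻¹ := by group
        rw [e]; exact inv_mem hu
    have hnB : ∀ b ∈ B, ∀ z ∈ Z, b * z * b⁻¹ ∈ Z := by
      intro b hb z hz
      have hcl : Z = Subgroup.closure {g | ∃ x ∈ A, ∃ y ∈ B, ⁅x, y⁆ = g} := rfl
      rw [hcl] at hz
      induction hz using Subgroup.closure_induction with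
      | mem g hg =>
        obtain ⟨x, hx, y, hy, rfl⟩ := hg
        have e : b * ⁅x, y⁆ * b⁻¹ = ⁅x, b⁆⁻¹ * ⁅x, b * y⁆ := by
          simp only [commutatorElement_def]; group
        rw [e]
        exact mul_mem (inv_mem (Subgroup.commutator_mem_commutator hx hb))
          (Subgroup.commutator_mem_commutator hx (mul_mem hb hy))
      | one => simp
      | mul u v _ _ hu hv =>
        have e : b * (u * v) * b⁻¹ = (b * u * b⁻¹) * (b * v * b⁻¹) := by group
        rw [e]; exact mul_mem hu hv
      | inv u _ hu =>
        have e : b * u⁻¹ * b⁻¹ = (b * u * b⁻¹)⁻¹ := by group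
        rw [e]; exact inv_mem hu
    have hnL : ∀ g ∈ L, ∀ z ∈ Z, g * z * g⁻¹ ∈ Z := by
      intro g hg
      rw [hL, Subgroup.sup_eq_closure] at hg
      induction hg using Subgroup.closure_induction with
      | mem g hg =>
        rcases hg with hg | hg
        · exact hnA g hg
        · exact hnB g hg
      | one => intro z hz; simpa using hz
      | mul u v _ _ hu hv =>
        intro z hz
        have e : u * v * z * (u * v)⁻¹ = u * (v * z * v⁻¹) * u⁻¹ := by group
        rw [e]; exact hu _ (hv z hz)
      | inv u _ hu =>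
        intro z hz
        -- conjugation by `u` is an injective self-map of the finite set `Z`, hence surjective
        have hinj : Function.Injective (fun w : Z => (⟨u * w * u⁻¹, hu w w.2⟩ : Z)) := by
          intro w w' hww
          have := congrArg Subtype.val hww
          simp only [mul_left_inj, mul_right_inj] at this
          exact Subtype.ext this
        obtain ⟨w, hw⟩ := (Finite.injective_iff_surjective.mp hinj) ⟨z, hz⟩
        have hw' : u * (w : G) * u⁻¹ = z := congrArg Subtype.val hw
        have e : u⁻¹ * z * u⁻¹⁻¹ = w := by rw [← hw']; group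
        rw [e]; exact w.2
    have hZ'n : (Z.subgroupOf L).Normal := by
      constructor
      intro z hz g
      exact hnL g g.2 z hz
    have hLnil : Group.IsNilpotent L := (hG.to_subgroup L).isNilpotent
    have hZ'ne : Z.subgroupOf L ≠ ⊥ := by
      intro h
      apply h1
      rw [Subgroup.subgroupOf_eq_bot] at h
      exact disjoint_iff.mp h ▸ (inf_eq_left.mpr hZL).symm
    have hcen := Cfsg.Agent.Lib.Helper10.normal_inf_center_ne_bot (Z.subgroupOf L) hZ'n hZ'ne
    have hZ'card : Nat.card (Z.subgroupOf L) = p := by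
      rw [← hZcard]
      exact Nat.card_congr (Subgroup.subgroupOfEquivOfLe hZL).toEquiv
    have hZ'c : Z.subgroupOf L ≤ Subgroup.center L := by
      have hdvd : Nat.card ↥(Z.subgroupOf L ⊓ Subgroup.center L) ∣ p := by
        rw [← hZ'card]
        exact Subgroup.card_dvd_of_le inf_le_left
      rcases (Nat.dvd_prime hp).mp hdvd with h | h
      · exact absurd (Subgroup.card_eq_one.mp h) hcen
      · have : Z.subgroupOf L ⊓ Subgroup.center L = Z.subgroupOf L :=
          Subgroup.eq_of_le_of_card_ge inf_le_left (by rw [h, hZ'card])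
        exact inf_eq_left.mp this
    have key := Cfsg.Agent.Lib.Helper14.comm_pairing (Z.subgroupOf L) (A.subgroupOf L)
      (B.subgroupOf L) hZ'c hZ'card (by
        intro x hx y hy
        exact Subgroup.commutator_mem_commutator hx hy)
    rw [Cfsg.Agent.Lib.Helper10.centralizer_subgroupOf_eq hAL,
      Cfsg.Agent.Lib.Helper10.centralizer_subgroupOf_eq hBL,
      Subgroup.relIndex_subgroupOf hAL, Subgroup.relIndex_subgroupOf hBL] at key
    rw [Subgroup.inf_relIndex_left, Subgroup.inf_relIndex_left]
    exact key

end Cfsg.Agent.S3741
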