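import Cfsg.Statements.S3742
import Mathlib
import Cfsg.Agent.S1012

set_option autoImplicit false
open Cfsg

namespace Cfsg.Agent.S3742

open QuaternionGroup

abbrev Q := QuaternionGroup 2

/-- the candidate endomorphism determined by the images `u`, `v` of `a 1`, `xa 0` -/
def psi (u v : Q) : Q → Q
  | a i => u ^ i.val
  | xa i => v * u ^ i.val

def valid (u v : Q) : Prop := u ^ 4 = 1 ∧ u ^ 2 ≠ 1 ∧ v ^ 2 = u ^ 2 ∧ v * u * v⁻¹ = u⁻¹

instance (u v : Q) : Decidable (valid u v) := by unfold valid; infer_instance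

theorem psi_mul : ∀ u v : Q, valid u v → ∀ x y : Q, psi u v (x * y) = psi u v x * psi u v y := by
  decide +kernel

theorem psi_inj : ∀ u v : Q, valid u v → ∀ x y : Q, psi u v x = psi u v y → x = y := by
  decide +kernel

theorem psi_six : ∀ u v : Q, valid u v →
    (∀ x : Q, psi u v (psi u v (psi u v (psi u v (psi u v (psi u v x))))) = x) →
    (∀ x : Q, psi u v (psi u v x) = x) ∨ (∀ x : Q, psi u v (psi u v (psi u v x)) = x) := by
  decide +kernel

theorem card_valid : (Finset.univ.filter (fun z : Q × Q => valid z.1 z.2)).card = 24 := by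
  decide +kernel

theorem hval (φ : MulAut Q) : valid (φ (a 1)) (φ (xa 0)) := by
  refine ⟨?_, ?_, ?_, ?_⟩
  · rw [← map_pow]
    have : (a 1 : Q) ^ 4 = 1 := by decide
    rw [this, map_one]
  · rw [← map_pow]
    intro h
    have := φ.injective (h.trans (map_one φ).symm)
    exact absurd this (by decide)
  · rw [← map_pow, ← map_pow]
    have : (xa 0 : Q) ^ 2 = (a 1 : Q) ^ 2 := by decide
    rw [this]
  · rw [← map_inv, ← map_mul, ← map_mul, ← map_inv]
    have : (xa 0 : Q) * a 1 * (xa 0)⁻¹ = (a 1 : Q)⁻¹ := by decide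
    rw [this]

theorem hpsi (φ : MulAut Q) (x : Q) : φ x = psi (φ (a 1)) (φ (xa 0)) x := by
  cases x with
  | a i =>
    show φ (a i) = (φ (a 1)) ^ i.val
    rw [← map_pow, a_one_pow, ZMod.natCast_zmod_val]
  | xa i =>
    show φ (xa i) = φ (xa 0) * (φ (a 1)) ^ i.val
    rw [← map_pow, ← map_mul, a_one_pow, ZMod.natCast_zmod_val, xa_mul_a, zero_add]

noncomputable def Psi (u v : Q) (h : valid u v) : MulAut Q :=
  MulEquiv.ofBijective (MonoidHom.mk' (psi u v) (psi_mul u v h))
    ((Finite.injective_iff_bijective).mp (fun x y hxy => psi_inj u v h x y hxy))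

theorem Psi_apply (u v : Q) (h : valid u v) (x : Q) : Psi u v h x = psi u v x := rfl

def Phi (φ : MulAut Q) : {z : Q × Q // valid z.1 z.2} := ⟨(φ (a 1), φ (xa 0)), hval φ⟩

theorem Phi_bij : Function.Bijective Phi := by
  constructor
  · intro φ φ' h
    have h1 : φ (a 1) = φ' (a 1) := congrArg (fun z => z.1.1) h
    have h2 : φ (xa 0) = φ' (xa 0) := congrArg (fun z => z.1.2) h
    apply MulEquiv.ext
    intro x
    rw [hpsi φ x, hpsi φ' x, h1, h2]
  · rintro ⟨⟨u, v⟩, h⟩
    refine ⟨Psi u v h, ?_⟩
    apply Subtype.ext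
    apply Prod.ext
    · show psi u v (a 1) = u
      show u ^ (1 : ZMod (2 * 2)).val = u
      have : (1 : ZMod (2 * 2)).val = 1 := by decide
      rw [this, pow_one]
    · show psi u v (xa 0) = v
      show v * u ^ (0 : ZMod (2 * 2)).val = v
      have : (0 : ZMod (2 * 2)).val = 0 := by decide
      rw [this, pow_zero, mul_one]

/-- The automorphism group of the quaternion group of order 8 is isomorphic to the symmetric group of degree 4. -/
theorem result : Nonempty (MulAut (QuaternionGroup 2) ≃* Equiv.Perm (Fin 4)) := by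
  haveI : Finite (MulAut Q) := Finite.of_injective Phi Phi_bij.1
  have hcard : Nat.card (MulAut Q) = 24 := by
    rw [Nat.card_congr (Equiv.ofBijective Phi Phi_bij), Nat.card_eq_fintype_card,
      Fintype.card_subtype]
    exact card_valid
  apply Cfsg.Agent.S1012.result hcard
  intro φ h6
  have hp6 : φ ^ 6 = 1 := by rw [← h6]; exact pow_orderOf_eq_one φ
  have e : ∀ x, φ x = psi (φ (a 1)) (φ (xa 0)) x := hpsi φ
  have h1 : ∀ x : Q, φ (φ (φ (φ (φ (φ x))))) = x := by
    intro x
    have := congrArg (fun ψ : MulAut Q => ψ x) hp6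
    simpa [pow_succ, MulAut.mul_apply] using this
  rcases psi_six _ _ (hval φ) (fun x => by rw [← e, ← e, ← e, ← e, ← e, ← e]; exact h1 x) with h2 | h3
  · have : φ ^ 2 = 1 := by
      apply MulEquiv.ext
      intro x
      have := h2 x
      rw [← e, ← e] at this
      simpa [pow_succ, MulAut.mul_apply] using this
    have hd := orderOf_dvd_of_pow_eq_one this
    rw [h6] at hd
    exact absurd hd (by decide)
  · have : φ ^ 3 = 1 := by
      apply MulEquiv.ext
      intro x
      have := h3 x
      rw [← e, ← e, ← e] at this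
      simpa [pow_succ, MulAut.mul_apply] using this
    have hd := orderOf_dvd_of_pow_eq_one this
    rw [h6] at hd
    exact absurd hd (by decide)

end Cfsg.Agent.S3742
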