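import Cfsg.Statements.S3744
-- import your own Cfsg.Agent.* helpers here
import Cfsg.Agent.Lib.Helper20.PSolvHall

set_option autoImplicit false
open Cfsg

namespace Cfsg.Agent.S3744

open Subgroup Cfsg.Agent.Lib.Helper20

/-- A finite p-soluble group has a p-complement, all its p-complements are conjugate, and every subgroup of order prime to p lies in one of them. Here a p-complement is a subgroup of order prime to p whose index is a power of p. -/
theorem result {G : Type*} [Group G] [Finite G] {p : ℕ} [Fact p.Prime] (hG : Cfsg.IsPSolvable p G) : (∃ H : Subgroup G, (Nat.card H).Coprime p ∧ ∃ n : ℕ, H.index = p ^ n) ∧ (∀ H₁ H₂ : Subgroup G, (Nat.card H₁).Coprime p → (∃ n : ℕ, H₁.index = p ^ n) → (Nat.card H₂).Coprime p → (∃ n : ℕ, H₂.index = p ^ n) → ∃ g : G, H₂ = H₁.map (MulAut.conj g).toMonoidHom) ∧ (∀ U : Subgroup G, (Nat.card U).Coprime p → ∃ H : Subgroup G, (Nat.card H).Coprime p ∧ (∃ n : ℕ, H.index = p ^ n) ∧ ∃ g : G, U.map (MulAut.conj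 g).toMonoidHom ≤ H) := by
  have hp : p.Prime := Fact.out
  obtain ⟨a, m, hm, hGm⟩ := Nat.exists_eq_pow_mul_and_not_dvd (Nat.card_pos (α := G)).ne' p hp.ne_one
  have hGm' : Nat.card G = m * p ^ a := by rw [hGm, mul_comm]
  have hcop : m.Coprime p := ((hp.coprime_iff_not_dvd).2 hm).symm
  have hmpos : 0 < m := by
    rcases Nat.eq_zero_or_pos m with h | h
    · rw [h] at hm; exact absurd (dvd_zero p) hm
    · exact h
  have key1 : ∀ H : Subgroup G, (Nat.card H).Coprime p → (∃ n : ℕ, H.index = p ^ n) →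
      Nat.card H = m := by
    rintro H hH ⟨n, hn⟩
    have h1 := H.card_mul_index
    rw [hn, hGm'] at h1
    apply Nat.dvd_antisymm
    · exact (Nat.Coprime.pow_right a hH).dvd_of_dvd_mul_right (h1 ▸ Dvd.intro _ rfl)
    · exact (Nat.Coprime.pow_right n hcop).dvd_of_dvd_mul_right (h1.symm ▸ Dvd.intro _ rfl)
  have key2 : ∀ H : Subgroup G, Nat.card H = m →
      (Nat.card H).Coprime p ∧ ∃ n : ℕ, H.index = p ^ n := by
    intro H hH
    refine ⟨hH ▸ hcop, a, ?_⟩
    have h1 := H.card_mul_index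
    rw [hH, hGm'] at h1
    exact Nat.eq_of_mul_eq_mul_left hmpos h1
  refine ⟨?_, ?_, ?_⟩
  · obtain ⟨H, hH⟩ := psolv_exists _ G hG rfl m a hGm' hcop
    exact ⟨H, key2 H hH⟩
  · intro H₁ H₂ h1 h1' h2 h2'
    have c1 := key1 H₁ h1 h1'
    have c2 := key1 H₂ h2 h2'
    obtain ⟨g, hg⟩ := psolv_conj _ G hG rfl m a hGm' hcop H₁ H₂ c1 c2
    refine ⟨g, ?_⟩
    symm
    apply Subgroup.eq_of_le_of_card_ge
    · rintro _ ⟨h, hh, rfl⟩
      exact hg h hh
    · rw [Subgroup.card_map_of_injective (MulAut.conj g).injective, c1, c2]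
  · intro U hU
    obtain ⟨H, hH, hUH⟩ := psolv_contain _ G hG rfl m a hGm' hcop U hU
    refine ⟨H, (key2 H hH).1, (key2 H hH).2, 1, ?_⟩
    rintro _ ⟨u, hu, rfl⟩
    simpa using hUH hu

end Cfsg.Agent.S3744
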