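import Cfsg.Statements.S3745
import Cfsg.Agent.Lib.Helper1.InvHall

set_option autoImplicit false
open Cfsg

namespace Cfsg.Agent.S3745

/-- Coprime action on a solvable group and Hall subgroups. Let A and G be subgroups of a finite group with A normalizing G, the orders of A and G coprime, and G solvable, and let π be a set of primes. Then (a) G has an A-invariant Hall π-subgroup; (b) any two A-invariant Hall π-subgroups of G are conjugate by an element of C_G(A); (c) every A-invariant π-subgroup of G lies in an A-invariant Hall π-subgroup of G. -/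
theorem result {X : Type*} [Group X] [Finite X] (A G : Subgroup X) (hAG : A ≤ Subgroup.normalizer (G : Set X)) (hcop : (Nat.card A).Coprime (Nat.card G)) (hsolv : Group.IsSolvable G) (π : Set ℕ) : (∃ H : Subgroup X, Cfsg.IsPiHallOf π H G ∧ A ≤ Subgroup.normalizer (H : Set X)) ∧ (∀ H₁ H₂ : Subgroup X, Cfsg.IsPiHallOf π H₁ G → A ≤ Subgroup.normalizer (H₁ : Set X) → Cfsg.IsPiHallOf π H₂ G → A ≤ Subgroup.normalizer (H₂ : Set X) → ∃ c ∈ G ⊓ Subgroup.centralizer (A : Set X), H₂ = H₁.map (MulAut.conj c).toMonoidHom) ∧ (∀ U : Subgroup X, U ≤ G → A ≤ Subgroup.normalizer (U : Set X) → (∀ p : ℕ, p.Prime → p ∣ Nat.card U → p ∈ π) → ∃ H : Subgroup X, Cfsg.IsPiHallOf π H G ∧ A ≤ Subgroup.normalizer (H : Set X) ∧ U ≤ H) := by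
  obtain ⟨m, n, hmn, hc, hm, hn⟩ := Cfsg.Agent.Lib.Helper1.pi_split π (Nat.card G) Nat.card_pos.ne'
  have key : ∀ H : Subgroup X, Cfsg.IsPiHallOf π H G ↔ H ≤ G ∧ Nat.card H = m := by
    intro H
    constructor
    · rintro ⟨h1, h2⟩
      exact ⟨h1, (Cfsg.Agent.Lib.Helper1.hall_card_iff π H G m n hmn hc hm hn h1).mp h2⟩
    · rintro ⟨h1, h2⟩
      exact ⟨h1, (Cfsg.Agent.Lib.Helper1.hall_card_iff π H G m n hmn hc hm hn h1).mpr h2⟩
  obtain ⟨ha, hb⟩ := Cfsg.Agent.Lib.Helper1.inv_hall_ab A G hAG hcop hsolv m n hmn hc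
  refine ⟨?_, ?_, ?_⟩
  · obtain ⟨H, h1, h2, h3⟩ := ha
    exact ⟨H, (key H).mpr ⟨h1, h2⟩, h3⟩
  · intro H₁ H₂ h1 h1A h2 h2A
    obtain ⟨c, hc1, hc2⟩ := hb H₁ H₂ ((key _).mp h1).1 ((key _).mp h1).2 h1A
      ((key _).mp h2).1 ((key _).mp h2).2 h2A
    exact ⟨c, hc1, hc2.symm⟩
  · intro U hUG hAU hU
    obtain ⟨H, h1, h2, h3, h4⟩ := Cfsg.Agent.Lib.Helper1.inv_hall_ge A G U hAG hcop hsolv m n hmn hc
      hUG (Nat.coprime_of_dvd fun k hk hkU hkn => hn k hk (hU k hk hkU) hkn) hAU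
    exact ⟨H, (key H).mpr ⟨h1, h2⟩, h3, h4⟩

end Cfsg.Agent.S3745
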