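import Cfsg.Statements.S3746
-- import your own Cfsg.Agent.* helpers here
import Cfsg.Agent.Lib.Helper20.QsExt

set_option autoImplicit false
open Cfsg

namespace Cfsg.Agent.S3746

open scoped commutatorElement

/-- Let Z ≤ Z(G) be a central subgroup of a finite group G and E a subgroup of G containing Z whose image E/Z is a component of G/Z (subnormal and quasisimple). Then the derived subgroup [E, E] is a component of G. -/
theorem result {G : Type*} [Group G] [Finite G] (Z : Subgroup G) (hZ : Z ≤ Subgroup.center G) [Z.Normal] (E : Subgroup G) (hZE : Z ≤ E) (hE : Cfsg.IsComponent (E.map (QuotientGroup.mk' Z))) : Cfsg.IsComponent ⁅E, E⁆ := by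
  obtain ⟨hsn, hqs⟩ := hE
  set π := QuotientGroup.mk' Z with hπ
  have hEc : (E.map π).comap π = E := by
    rw [Subgroup.comap_map_eq, QuotientGroup.ker_mk', sup_eq_left.mpr hZE]
  have hEsn : E.IsSubnormal := hEc ▸ hsn.comap π
  have hKE : ⁅E, E⁆ ≤ E := by
    rw [Subgroup.commutator_le]
    intro a ha b hb
    rw [commutatorElement_def]
    exact mul_mem (mul_mem (mul_mem ha hb) (inv_mem ha)) (inv_mem hb)
  have hKn : (⁅E, E⁆.subgroupOf E).Normal := by
    have h1 : ⁅E, E⁆.subgroupOf E = commutator E := by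
      rw [← Subgroup.map_subtype_commutator, Subgroup.subgroupOf,
        Subgroup.comap_map_eq_self_of_injective E.subtype_injective]
    rw [h1]
    infer_instance
  refine ⟨Subgroup.IsSubnormal.step _ E hKE hEsn hKn, ?_⟩
  have hperf : ⁅E.map π, E.map π⁆ = E.map π := Subgroup.isPerfect_iff.mp hqs.1
  have hmapK : (⁅E, E⁆).map π = E.map π := by rw [Subgroup.map_commutator, hperf]
  have hEKZ : E = ⁅E, E⁆ ⊔ Z := by
    conv_lhs => rw [← hEc, ← hmapK, Subgroup.comap_map_eq, QuotientGroup.ker_mk']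
  have hKperf : ⁅⁅E, E⁆, ⁅E, E⁆⁆ = ⁅E, E⁆ := by
    apply le_antisymm (Subgroup.commutator_mono hKE hKE)
    rw [Subgroup.commutator_le]
    intro a ha b hb
    obtain ⟨k, hk, z, hz, rfl⟩ := Subgroup.mem_sup_of_normal_right.mp (hEKZ.le ha)
    obtain ⟨m, hm, w, hw, rfl⟩ := Subgroup.mem_sup_of_normal_right.mp (hEKZ.le hb)
    rw [Cfsg.Agent.Lib.Helper10.commutatorElement_mul_central k m z w
      (fun g => Subgroup.mem_center_iff.mp (hZ hz) g)
      (fun g => Subgroup.mem_center_iff.mp (hZ hw) g)]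
    exact Subgroup.commutator_mem_commutator hk hm
  have hqs' : Cfsg.IsQuasisimple ↥((⁅E, E⁆).map π) := by rw [hmapK]; exact hqs
  refine Cfsg.Agent.Lib.Helper20.qs_of_surj_central (π.subgroupMap ⁅E, E⁆)
    (π.subgroupMap_surjective _) ?_ (Subgroup.isPerfect_iff.mpr hKperf) hqs'
  intro x hx
  rw [MonoidHom.mem_ker] at hx
  have h1 : π (x : G) = 1 := congrArg Subtype.val hx
  have h2 : (x : G) ∈ Z := (QuotientGroup.eq_one_iff _).mp h1
  rw [Subgroup.mem_center_iff]
  intro g
  apply Subtype.ext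
  exact Subgroup.mem_center_iff.mp (hZ h2) g

end Cfsg.Agent.S3746
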