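import Cfsg.Statements.S3747
-- import your own Cfsg.Agent.* helpers here
import Cfsg.Agent.Lib.Helper10.Layer

set_option autoImplicit false
open Cfsg

namespace Cfsg.Agent.S3747

open Cfsg.Agent.Lib.Helper10

/-- A join of finitely many pairwise commuting subgroups with trivial centres has trivial centre. -/
theorem inf_centralizer_sSup {G : Type*} [Group G] (T : Finset (Subgroup G))
    (hcomm : ∀ L ∈ T, ∀ L' ∈ T, L ≠ L' → ⁅L, L'⁆ = ⊥)
    (hZ : ∀ L ∈ T, ∀ x ∈ L, (∀ y ∈ L, x * y = y * x) → x = 1) :
    ∀ x ∈ sSup (T : Set (Subgroup G)), (∀ y ∈ sSup (T : Set (Subgroup G)), x * y = y * x) →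
      x = 1 := by
  classical
  induction T using Finset.induction_on with
  | empty =>
    intro x hx _
    simpa using hx
  | insert L T hL ih =>
    intro x hx hxc
    rw [Finset.coe_insert, sSup_insert] at hx hxc
    set S := sSup (T : Set (Subgroup G)) with hS
    have hLS : ∀ a ∈ L, ∀ b ∈ S, a * b = b * a := by
      have h1 : S ≤ Subgroup.centralizer (L : Set G) := by
        apply sSup_le
        intro L' hL'
        have hne : L' ≠ L := fun h => hL (h ▸ hL')
        exact Subgroup.commutator_eq_bot_iff_le_centralizer.mp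
          (hcomm L' (Finset.mem_insert_of_mem hL') L (Finset.mem_insert_self _ _) hne)
      intro a ha b hb
      exact (Subgroup.mem_centralizer_iff.mp (h1 hb)) a ha
    obtain ⟨l, hl, s, hs, rfl⟩ := mem_sup_of_commute hLS hx
    have hl1 : l = 1 := by
      apply hZ L (Finset.mem_insert_self _ _) l hl
      intro y hy
      have h1 := hxc y (Subgroup.mem_sup_left hy)
      have h2 := hLS y hy s hs
      calc l * y = l * (y * s) * s⁻¹ := by group
        _ = l * (s * y) * s⁻¹ := by rw [h2]
        _ = (l * s * y) * s⁻¹ := by group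
        _ = (y * (l * s)) * s⁻¹ := by rw [h1]
        _ = y * l := by group
    subst hl1
    rw [one_mul]
    apply ih (fun A hA B hB => hcomm A (Finset.mem_insert_of_mem hA) B (Finset.mem_insert_of_mem hB))
      (fun A hA => hZ A (Finset.mem_insert_of_mem hA)) s hs
    intro y hy
    have := hxc y (Subgroup.mem_sup_right hy)
    simpa using this

theorem partA {G : Type*} [Group G] [Finite G] (K : Subgroup G) (hK : Cfsg.IsComponent K)
    (hZK : Subgroup.center ↥K = ⊥) :
    Subgroup.normalClosure (K : Set G) ≠ ⊥ ∧ ∀ N : Subgroup G, N.Normal →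
      N ≤ Subgroup.normalClosure (K : Set G) → N = ⊥ ∨ N = Subgroup.normalClosure (K : Set G) := by
  classical
  have hKle : K ≤ Subgroup.normalClosure (K : Set G) := Subgroup.subset_normalClosure
  refine ⟨fun h => component_ne_bot hK (eq_bot_iff.mpr (h ▸ hKle)), ?_⟩
  intro N hN hNM
  rcases component_le_or_commutator_eq_bot G K N hK hN.isSubnormal with h | h
  · right
    exact le_antisymm hNM (Subgroup.normalClosure_le_normal h)
  · left
    let T : Finset (Subgroup G) :=
      (Set.toFinite {L : Subgroup G | ∃ g : G, L = K.map (MulAut.conj g).toMonoidHom}).toFinset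
    have hT : ∀ L, L ∈ T ↔ ∃ g : G, L = K.map (MulAut.conj g).toMonoidHom := by
      intro L; simp [T]
    have hTc : ∀ L ∈ T, Cfsg.IsComponent L := by
      intro L hL
      obtain ⟨g, rfl⟩ := (hT L).mp hL
      exact isComponent_map_mulEquiv (MulAut.conj g) hK
    have hcomm : ∀ L ∈ T, ∀ L' ∈ T, L ≠ L' → ⁅L, L'⁆ = ⊥ := by
      intro L hL L' hL' hne
      exact (components_eq_or_commute (hTc L hL) (hTc L' hL')).resolve_left hne
    have hZK' : ∀ x ∈ K, (∀ y ∈ K, x * y = y * x) → x = 1 := by
      intro x hx hxy
      have : (⟨x, hx⟩ : K) ∈ Subgroup.center ↥K := by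
        rw [Subgroup.mem_center_iff]
        intro y
        exact Subtype.ext (hxy y y.2).symm
      rw [hZK, Subgroup.mem_bot] at this
      exact congrArg Subtype.val this
    have hZ : ∀ L ∈ T, ∀ x ∈ L, (∀ y ∈ L, x * y = y * x) → x = 1 := by
      intro L hL x hx hxy
      obtain ⟨g, rfl⟩ := (hT L).mp hL
      obtain ⟨k, hk, rfl⟩ := hx
      have : k = 1 := by
        apply hZK' k hk
        intro y hy
        have := hxy ((MulAut.conj g).toMonoidHom y) ⟨y, hy, rfl⟩
        rw [← map_mul, ← map_mul] at this
        exact (MulAut.conj g).injective this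
      rw [this, map_one]
    set S := sSup (T : Set (Subgroup G)) with hS
    have hSn : S.Normal := by
      suffices hmap : ∀ g : G, S.map (MulAut.conj g).toMonoidHom ≤ S from
        ⟨fun x hx g => hmap g ⟨x, hx, by simp⟩⟩
      intro g
      rw [hS, (Subgroup.gc_map_comap (MulAut.conj g).toMonoidHom).l_sSup]
      apply iSup₂_le
      intro L hL
      apply le_sSup
      obtain ⟨h, rfl⟩ := (hT L).mp hL
      apply (hT _).mpr
      refine ⟨g * h, ?_⟩
      rw [Subgroup.map_map]
      congr 1
      ext x
      simp [mul_assoc]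
    have hKS : K ≤ S := by
      apply le_sSup
      apply (hT K).mpr
      refine ⟨1, ?_⟩
      ext x
      simp
    have hMS : Subgroup.normalClosure (K : Set G) ≤ S := Subgroup.normalClosure_le_normal hKS
    have hNc : S ≤ Subgroup.centralizer (N : Set G) := by
      apply sSup_le
      intro L hL
      obtain ⟨g, rfl⟩ := (hT L).mp hL
      rintro _ ⟨k, hk, rfl⟩
      rw [Subgroup.mem_centralizer_iff]
      intro n hn
      have h1 : g⁻¹ * n * g ∈ N := by
        have := hN.conj_mem n hn g⁻¹
        simpa using this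
      have h2 := commute_of_commutator_eq_bot h k hk _ h1
      show n * (g * k * g⁻¹) = g * k * g⁻¹ * n
      calc n * (g * k * g⁻¹) = g * ((g⁻¹ * n * g) * k) * g⁻¹ := by group
        _ = g * (k * (g⁻¹ * n * g)) * g⁻¹ := by rw [h2]
        _ = g * k * g⁻¹ * n := by group
    rw [eq_bot_iff]
    intro x hx
    rw [Subgroup.mem_bot]
    apply inf_centralizer_sSup T hcomm hZ x (hMS (hNM hx))
    intro y hy
    exact (Subgroup.mem_centralizer_iff.mp (hNc hy)) x hx

/-- Let G be a finite group. (a) If K is a component of G with trivial centre, then the normal closure of K in G is a minimal normal subgroup of G. (b) If the Fitting subgroup of G is trivial, then the layer E(G) is generated by the minimal normal subgroups of G. -/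
theorem result {G : Type*} [Group G] [Finite G] : (∀ K : Subgroup G, Cfsg.IsComponent K → Subgroup.center ↥K = ⊥ → (Subgroup.normalClosure (K : Set G) ≠ ⊥ ∧ ∀ N : Subgroup G, N.Normal → N ≤ Subgroup.normalClosure (K : Set G) → N = ⊥ ∨ N = Subgroup.normalClosure (K : Set G))) ∧ (Cfsg.fittingSubgroup G = ⊥ → sSup {N : Subgroup G | N ≠ ⊥ ∧ N.Normal ∧ ∀ N' : Subgroup G, N'.Normal → N' ≤ N → N' = ⊥ ∨ N' = N} = Cfsg.layer G) := by
  refine ⟨fun K hK hZK => partA K hK hZK, ?_⟩
  intro hF
  have hFs : Cfsg.generalizedFittingSubgroup G = Cfsg.layer G := by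
    unfold Cfsg.generalizedFittingSubgroup
    rw [hF, sup_bot_eq]
  have hEn : (Cfsg.layer G).Normal := layer_normal G
  apply le_antisymm
  · apply sSup_le
    rintro N ⟨hN1, hNn, hNmin⟩
    have hinf : (N ⊓ Cfsg.layer G).Normal := inferInstance
    rcases hNmin _ hinf inf_le_left with h | h
    · exfalso
      apply hN1
      have h1 : ⁅N, Cfsg.layer G⁆ = ⊥ := by
        rw [eq_bot_iff, ← h]
        exact Subgroup.commutator_le_inf N (Cfsg.layer G)
      have h2 : N ≤ Subgroup.centralizer (Cfsg.layer G : Set G) :=
        Subgroup.commutator_eq_bot_iff_le_centralizer.mp h1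
      have h3 := centralizer_genFitting_le G
      rw [hFs] at h3
      rw [eq_bot_iff, ← h]
      exact le_inf le_rfl (h2.trans h3)
    · exact inf_eq_left.mp h
  · unfold Cfsg.layer
    apply sSup_le
    intro K hK
    have hZK : Subgroup.center ↥K = ⊥ := by
      have h1 : ((Subgroup.center ↥K).map K.subtype).IsSubnormal :=
        Subgroup.IsSubnormal.trans' (Subgroup.Normal.isSubnormal inferInstance) hK.1
      have h2 : Group.IsNilpotent ↥((Subgroup.center ↥K).map K.subtype) :=
        isNilpotent_map_subtype _ (isNilpotent_of_isMulCommutative inferInstance)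
      have h3 := le_fittingSubgroup_of_isSubnormal G _ h1 h2
      rw [hF, le_bot_iff] at h3
      exact (Subgroup.map_eq_bot_iff_of_injective _ K.subtype_injective).mp h3
    obtain ⟨h1, h2⟩ := partA K hK hZK
    refine le_trans (Subgroup.subset_normalClosure : (K : Set G) ⊆ _) ?_
    exact le_sSup ⟨h1, Subgroup.normalClosure_normal, h2⟩

end Cfsg.Agent.S3747
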