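import Cfsg.Statements.S3748
-- import your own Cfsg.Agent.* helpers here
import Cfsg.Agent.Lib.Helper20.SubnCore
import Cfsg.Agent.Lib.Helper17.Subn
import Cfsg.Agent.Lib.Helper10.Fitting

set_option autoImplicit false
open Cfsg

namespace Cfsg.Agent.S3748

open Cfsg.Agent.Lib.Helper20 Subgroup

/-- Call a proper subgroup M of G primitive when M = N_G(N) for every non-trivial normal subgroup N of M. If M is a primitive subgroup of the finite group G, then no non-trivial subnormal subgroup of G is contained in M; in particular M ∩ F(G) = 1. -/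
theorem result {G : Type*} [Group G] [Finite G] (M : Subgroup G) (hM : M ≠ ⊤) (hprim : ∀ N : Subgroup G, N ≤ M → M ≤ Subgroup.normalizer (N : Set G) → N ≠ ⊥ → Subgroup.normalizer (N : Set G) = M) : (∀ L : Subgroup G, L.IsSubnormal → L ≤ M → L = ⊥) ∧ M ⊓ Cfsg.fittingSubgroup G = ⊥ := by
  have part1 : ∀ L : Subgroup G, L.IsSubnormal → L ≤ M → L = ⊥ := by
    intro L hL hLM
    by_contra hL1
    have hT1 : subnCore M ≠ ⊥ := by
      intro h
      apply hL1
      rw [eq_bot_iff, ← h]
      exact le_subnCore hL hLM
    have hN := hprim (subnCore M) (subnCore_le M) (le_normalizer_subnCore M) hT1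
    have htop := subnCore_eq_top_of_normalizer_le M hN.le
    apply hM
    rw [eq_top_iff, ← htop]
    exact subnCore_le M
  refine ⟨part1, ?_⟩
  apply part1 _ _ inf_le_left
  have hF := Cfsg.Agent.Lib.Helper10.fittingSubgroup_isNilpotent G
  have hFn := Cfsg.Agent.Lib.Helper10.fittingSubgroup_normal G
  exact IsSubnormal.trans inf_le_right
    (Cfsg.Agent.Lib.Helper17.isSubnormal_of_isNilpotent _) hFn.isSubnormal

end Cfsg.Agent.S3748
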