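import Cfsg.Statements.S3749
-- import your own Cfsg.Agent.* helpers here
import Cfsg.Agent.Lib.Helper1.CoprimeSylow
import Cfsg.Agent.Lib.Helper1.Fitting
import Cfsg.Agent.Lib.Helper20.PrimeGraphSolv

set_option autoImplicit false
open Cfsg

namespace Cfsg.Agent.S3749

open Subgroup Cfsg.Agent.Lib.Helper20
open scoped Pointwise

/-- Call a proper subgroup M of G primitive when M = N_G(N) for every non-trivial normal subgroup N of M. Let M be a primitive subgroup of the finite group G, p a prime with O_p(M) ≠ 1, and N a normal subgroup of G with M ∩ N = 1. Then p does not divide the order of N; for every prime q there is exactly one Sylow q-subgroup of N normalized by M; and if the order of N has at least two prime divisors then M is not a maximal subgroup of G. -/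
theorem result {G : Type*} [Group G] [Finite G] (M : Subgroup G) (hM : M ≠ ⊤) (hprim : ∀ N : Subgroup G, N ≤ M → M ≤ Subgroup.normalizer (N : Set G) → N ≠ ⊥ → Subgroup.normalizer (N : Set G) = M) {p : ℕ} [Fact p.Prime] (hOp : Cfsg.pCore p ↥M ≠ ⊥) (N : Subgroup G) [N.Normal] (hMN : M ⊓ N = ⊥) : ¬ p ∣ Nat.card N ∧ (∀ q : ℕ, [Fact q.Prime] → ∃! Q : Sylow q ↥N, M ≤ Subgroup.normalizer ((Q : Subgroup ↥N).map N.subtype : Set G)) ∧ ((∃ q r : ℕ, q.Prime ∧ r.Prime ∧ q ≠ r ∧ q ∣ Nat.card N ∧ r ∣ Nat.card N) → ¬ IsCoatom M) := by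
  classical
  set P : Subgroup G := (Cfsg.pCore p ↥M).map M.subtype with hPdef
  have hPM : P ≤ M := map_subtype_le _
  have hPp : IsPGroup p P := (Cfsg.Agent.Lib.Helper1.pCore_isPGroup (G := ↥M) p).map _
  have hP1 : P ≠ ⊥ := by
    rw [Ne, Subgroup.map_eq_bot_iff_of_injective _ M.subtype_injective]
    exact hOp
  have hMP : M ≤ normalizer (P : Set G) := by
    have hn : (Cfsg.pCore p ↥M).Normal := Cfsg.Agent.Lib.Helper1.pCore_normal (G := ↥M) p
    apply le_normalizer_of_conj_mem'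
    rintro m hm _ ⟨y, hy, rfl⟩
    exact ⟨⟨m, hm⟩ * y * ⟨m, hm⟩⁻¹, hn.conj_mem y hy ⟨m, hm⟩, rfl⟩
  have hNP : normalizer (P : Set G) = M := hprim P hPM hMP hP1
  have hCN : ∀ n ∈ N, (∀ x ∈ P, x * n * x⁻¹ = n) → n = 1 := by
    intro n hn hfix
    have h1 : n ∈ normalizer (P : Set G) := by
      apply centralizer_le_normalizer
      rw [mem_centralizer_iff]
      intro x hx
      have := hfix x hx
      calc x * n = x * n * x⁻¹ * x := by group
        _ = n * x := by rw [this]
    rw [hNP] at h1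
    have h2 : n ∈ M ⊓ N := mem_inf.2 ⟨h1, hn⟩
    rw [hMN] at h2
    exact mem_bot.1 h2
  have part1 : ¬ p ∣ Nat.card N := by
    letI : MulAction P N := MulAction.compHom N ((MulAut.conjNormal (H := N)).comp P.subtype)
    have h1 := hPp.card_modEq_card_fixedPoints N
    have h2 : Nat.card (MulAction.fixedPoints P N) = 1 := by
      rw [Nat.card_eq_one_iff_unique]
      refine ⟨⟨fun a b => ?_⟩, ⟨⟨1, fun x => ?_⟩⟩⟩
      · have key : ∀ c : MulAction.fixedPoints P N, (c : N) = 1 := by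
          intro c
          apply Subtype.ext
          apply hCN _ c.1.2
          intro x hx
          have := c.2 ⟨x, hx⟩
          exact congrArg Subtype.val this
        apply Subtype.ext
        rw [key a, key b]
      · apply Subtype.ext
        show (x : G) * ((1 : N) : G) * (x : G)⁻¹ = ((1 : N) : G)
        simp
    rw [h2] at h1
    intro hd
    have h3 : Nat.card N ≡ 0 [MOD p] := (Nat.modEq_zero_iff_dvd).2 hd
    have h4 : (1 : ℕ) ≡ 0 [MOD p] := h1.symm.trans h3
    have h5 := (Nat.modEq_zero_iff_dvd).1 h4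
    exact (Fact.out : p.Prime).one_lt.ne' (Nat.dvd_one.1 h5)
  have hcop : (Nat.card P).Coprime (Nat.card N) := by
    obtain ⟨k, hk⟩ := IsPGroup.iff_card.1 hPp
    rw [hk]
    exact Nat.Coprime.pow_left k (((Fact.out : p.Prime).coprime_iff_not_dvd).2 part1)
  have hPN : P ≤ normalizer (N : Set G) := by rw [normalizer_eq_top N]; exact le_top
  have hsolv : Group.IsSolvable P ∨ Group.IsSolvable N :=
    Or.inl (Cfsg.Agent.Lib.Helper1.isSolvable_of_isPGroup hPp)
  have part2 : ∀ q : ℕ, [Fact q.Prime] → ∃! Q : Sylow q ↥N,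
      M ≤ normalizer ((Q : Subgroup ↥N).map N.subtype : Set G) := by
    intro q _
    obtain ⟨⟨Q₀, hQ₀⟩, hconj⟩ := Cfsg.Agent.Lib.Helper1.invariant_sylow P N hPN hcop hsolv q
    have huniq : ∀ Q Q' : Sylow q N,
        P ≤ normalizer (((Q : Subgroup N).map N.subtype : Subgroup G) : Set G) →
        P ≤ normalizer (((Q' : Subgroup N).map N.subtype : Subgroup G) : Set G) → Q = Q' := by
      intro Q Q' hQ hQ'
      obtain ⟨c, hc, hcQ⟩ := hconj Q Q' hQ hQ'
      have hc1 : (c : G) = 1 := by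
        apply hCN _ c.2
        intro x hx
        have := mem_centralizer_iff.1 hc x hx
        rw [this]; group
      have hc2 : c = 1 := Subtype.ext hc1
      rw [hc2, map_one, one_smul] at hcQ
      exact hcQ
    refine ⟨Q₀, ?_, fun Q hQ => huniq Q Q₀ (hPM.trans hQ) hQ₀⟩
    apply le_normalizer_of_conj_mem'
    rintro m hm _ ⟨y, hy, rfl⟩
    have hinv : P ≤ normalizer (((((MulAut.conjNormal m : MulAut N) • Q₀ : Sylow q N) :
        Subgroup N).map N.subtype : Subgroup G) : Set G) := by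
      apply le_normalizer_of_conj_mem'
      rintro x hx _ ⟨z, hz, rfl⟩
      rw [SetLike.mem_coe, Sylow.pointwise_smul_def] at hz
      obtain ⟨y', hy', rfl⟩ := hz
      have hx' : m⁻¹ * x * m ∈ P := (mem_normalizer_iff''.1 (hMP hm) x).1 hx
      have h1 : (m⁻¹ * x * m) * (y' : G) * (m⁻¹ * x * m)⁻¹ ∈ (Q₀ : Subgroup N).map N.subtype :=
        (mem_normalizer_iff.1 (hQ₀ hx') _).1 ⟨y', hy', rfl⟩
      obtain ⟨y'', hy'', he⟩ := h1
      refine ⟨(MulAut.conjNormal m : MulAut N) y'', ?_, ?_⟩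
      · rw [SetLike.mem_coe, Sylow.pointwise_smul_def]
        exact ⟨y'', hy'', rfl⟩
      · have he' : (y'' : G) = (m⁻¹ * x * m) * (y' : G) * (m⁻¹ * x * m)⁻¹ := he
        show m * (y'' : G) * m⁻¹ = x * (m * (y' : G) * m⁻¹) * x⁻¹
        rw [he']; group
    have heq := huniq _ Q₀ hinv hQ₀
    refine ⟨(MulAut.conjNormal m : MulAut N) y, ?_, rfl⟩
    have h2 : (MulAut.conjNormal m : MulAut N) y ∈
        (((MulAut.conjNormal m : MulAut N) • Q₀ : Sylow q N) : Subgroup N) := by
      rw [Sylow.pointwise_smul_def]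
      exact ⟨y, hy, rfl⟩
    rw [heq] at h2
    exact h2
  refine ⟨part1, part2, ?_⟩
  rintro ⟨q, r, hq, hr, hqr, hqN, hrN⟩ hco
  have := Fact.mk hq
  have := Fact.mk hr
  obtain ⟨Q, hQ, -⟩ := part2 q
  set Q' : Subgroup G := (Q : Subgroup N).map N.subtype with hQ'
  have hQN : Q' ≤ N := map_subtype_le _
  have hQ1 : Q' ≠ ⊥ := by
    rw [Ne, Subgroup.map_eq_bot_iff_of_injective _ N.subtype_injective]
    exact Q.ne_bot_of_dvd_card hqN
  have hlt : M < M ⊔ Q' := by
    refine lt_of_le_of_ne le_sup_left ?_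
    intro h
    have h1 : Q' ≤ M := by rw [h]; exact le_sup_right
    apply hQ1
    rw [eq_bot_iff, ← hMN]
    exact le_inf h1 hQN
  have htop := hco.2 _ hlt
  have hNQ : N ≤ Q' := by
    intro x hx
    have hx' : x ∈ ((M ⊔ Q' : Subgroup G) : Set G) := by rw [htop]; trivial
    rw [coe_mul_of_left_le_normalizer_right M Q' hQ] at hx'
    obtain ⟨m, hm, y, hy, rfl⟩ := Set.mem_mul.1 hx'
    have hmN : m ∈ N := by
      have : m = m * y * y⁻¹ := by group
      rw [this]
      exact N.mul_mem hx (N.inv_mem (hQN hy))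
    have h2 : m ∈ M ⊓ N := mem_inf.2 ⟨hm, hmN⟩
    rw [hMN, mem_bot] at h2
    rw [h2, one_mul]
    exact hy
  have hNq : IsPGroup q N := (Q.2.map N.subtype).to_le hNQ
  obtain ⟨k, hk⟩ := IsPGroup.iff_card.1 hNq
  rw [hk] at hrN
  exact hqr ((Nat.prime_dvd_prime_iff_eq hr hq).1 (hr.dvd_of_dvd_pow hrN)).symm

end Cfsg.Agent.S3749
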