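import Cfsg.Statements.S3750
-- import your own Cfsg.Agent.* helpers here
import Cfsg.Agent.Lib.Helper10.Layer

set_option autoImplicit false
open Cfsg

namespace Cfsg.Agent.S3750

open Cfsg.Agent.Lib.Helper10

/-- Call a proper subgroup M of G primitive when M = N_G(N) for every non-trivial normal subgroup N of M. Let M be a primitive subgroup of the finite group G and N a normal subgroup of G with M ∩ F*(N) ≠ 1. Then F(G) = 1 and F*(N) = F*(G) = E(G); in particular every minimal normal subgroup of G is contained in N. -/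
theorem result {G : Type*} [Group G] [Finite G] (M : Subgroup G) (hM : M ≠ ⊤) (hprim : ∀ N : Subgroup G, N ≤ M → M ≤ Subgroup.normalizer (N : Set G) → N ≠ ⊥ → Subgroup.normalizer (N : Set G) = M) (N : Subgroup G) [N.Normal] (hMF : M ⊓ (Cfsg.generalizedFittingSubgroup ↥N).map N.subtype ≠ ⊥) : Cfsg.fittingSubgroup G = ⊥ ∧ (Cfsg.generalizedFittingSubgroup ↥N).map N.subtype = Cfsg.generalizedFittingSubgroup G ∧ Cfsg.generalizedFittingSubgroup G = Cfsg.layer G ∧ ∀ K : Subgroup G, K.Normal → K ≠ ⊥ → (∀ K' : Subgroup G, K'.Normal → K' ≤ K → K' = ⊥ ∨ K' = K) → K ≤ N := by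
  classical
  have hno : ∀ A : Subgroup G, A.Normal → A ≤ M → A = ⊥ := by
    intro A hA hAM
    by_contra hne
    have h1 := hprim A hAM (by rw [Subgroup.normalizer_eq_top]; exact le_top) hne
    rw [Subgroup.normalizer_eq_top] at h1
    exact hM h1.symm
  set L := (Cfsg.generalizedFittingSubgroup ↥N).map N.subtype with hL
  have hLn : L.Normal := by
    have := genFitting_characteristic ↥N
    exact ConjAct.normal_of_characteristic_of_normal
  have hLN : L ≤ N := Subgroup.map_subtype_le _
  have hDn : M ≤ Subgroup.normalizer ((M ⊓ L : Subgroup G) : Set G) := by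
    intro m hm
    rw [Subgroup.mem_normalizer_iff]
    intro x
    rw [Subgroup.mem_inf, Subgroup.mem_inf]
    constructor
    · rintro ⟨h1, h2⟩
      exact ⟨mul_mem (mul_mem hm h1) (inv_mem hm), hLn.conj_mem x h2 m⟩
    · rintro ⟨h1, h2⟩
      refine ⟨?_, ?_⟩
      · have := mul_mem (mul_mem (inv_mem hm) h1) hm
        simpa [mul_assoc] using this
      · have := hLn.conj_mem _ h2 m⁻¹
        simpa [mul_assoc] using this
  have hND := hprim (M ⊓ L) inf_le_left hDn hMF
  have hC : Subgroup.centralizer (L : Set G) = ⊥ := by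
    apply hno _ inferInstance
    calc Subgroup.centralizer (L : Set G) ≤ Subgroup.centralizer ((M ⊓ L : Subgroup G) : Set G) :=
          Subgroup.centralizer_le (inf_le_right : M ⊓ L ≤ L)
      _ ≤ Subgroup.normalizer ((M ⊓ L : Subgroup G) : Set G) := Subgroup.centralizer_le_normalizer _
      _ = M := hND
  have hNsn : N.IsSubnormal := Subgroup.Normal.isSubnormal inferInstance
  have hLle : L ≤ Cfsg.layer G ⊔ Cfsg.fittingSubgroup G := by
    rw [hL]
    unfold Cfsg.generalizedFittingSubgroup
    rw [Subgroup.map_sup]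
    exact sup_le_sup (map_layer_le hNsn) (map_fittingSubgroup_le_of_normal N inferInstance)
  set F := Cfsg.fittingSubgroup G with hF
  have hFnil : Group.IsNilpotent ↥F := fittingSubgroup_isNilpotent G
  have hA : F ⊓ Subgroup.centralizer (F : Set G) = ⊥ := by
    rw [eq_bot_iff, ← hC]
    refine le_trans ?_ (Subgroup.centralizer_le hLle)
    rw [Subgroup.le_centralizer_iff]
    apply sup_le
    · refine le_trans (Subgroup.commutator_eq_bot_iff_le_centralizer.mp
        (layer_commutator_fitting G)) ?_
      exact Subgroup.centralizer_le (inf_le_left : F ⊓ Subgroup.centralizer (F : Set G) ≤ F)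
    · rw [Subgroup.le_centralizer_iff]
      exact inf_le_right
  have hFbot : F = ⊥ := by
    by_contra hne
    have h1 : (⊤ : Subgroup ↥F) ≠ ⊥ := by
      intro h
      apply hne
      rw [eq_bot_iff]
      intro x hx
      have h3 : (⟨x, hx⟩ : ↥F) ∈ (⊤ : Subgroup ↥F) := Subgroup.mem_top _
      rw [h, Subgroup.mem_bot] at h3
      exact Subgroup.mem_bot.mpr (congrArg Subtype.val h3)
    have h2 := normal_inf_center_ne_bot (⊤ : Subgroup ↥F) inferInstance h1
    apply h2
    rw [eq_bot_iff]
    rintro z ⟨-, hz⟩
    rw [Subgroup.mem_bot]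
    apply Subtype.ext
    have : (z : G) ∈ F ⊓ Subgroup.centralizer (F : Set G) := by
      refine ⟨z.2, ?_⟩
      intro y hy
      exact congrArg Subtype.val (Subgroup.mem_center_iff.mp hz ⟨y, hy⟩)
    rw [hA] at this
    exact this
  have hFs : Cfsg.generalizedFittingSubgroup G = Cfsg.layer G := by
    unfold Cfsg.generalizedFittingSubgroup
    rw [← hF, hFbot, sup_bot_eq]
  have hcN : Subgroup.centralizer (N : Set G) = ⊥ := by
    rw [eq_bot_iff, ← hC]
    exact Subgroup.centralizer_le hLN
  refine ⟨hFbot, ?_, hFs, ?_⟩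
  · rw [hFs]
    apply le_antisymm
    · have := hLle
      rwa [hFbot, sup_bot_eq] at this
    · rw [layer_le_iff]
      intro K hK
      rcases component_le_or_commutator_eq_bot G K N hK hNsn with h | h
      · refine le_trans (component_le_map_layer hK h) ?_
        exact Subgroup.map_mono (layer_le_genFitting ↥N)
      · exfalso
        apply component_ne_bot hK
        rw [eq_bot_iff, ← hcN]
        exact Subgroup.commutator_eq_bot_iff_le_centralizer.mp h
  · intro K hKn hK1 hKmin
    have hinf : (K ⊓ N).Normal := inferInstance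
    rcases hKmin _ hinf inf_le_left with h | h
    · exfalso
      apply hK1
      rw [eq_bot_iff, ← hcN]
      apply Subgroup.commutator_eq_bot_iff_le_centralizer.mp
      rw [eq_bot_iff, ← h]
      exact Subgroup.commutator_le_inf K N
    · exact inf_eq_left.mp h

end Cfsg.Agent.S3750
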