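import Cfsg.Statements.S3751
import Cfsg.Agent.Lib.Helper17.Bender3

set_option autoImplicit false
open Cfsg

namespace Cfsg.Agent.S3751

open Subgroup Cfsg.Agent.Lib.Helper17

variable {G : Type*} [Group G]

def PL (p : ℕ) (M : Subgroup G) : Prop :=
  ∃ T : Subgroup G, IsPGroup p T ∧ T ≠ ⊥ ∧ M = normalizer (T : Set G)

def MPL (p : ℕ) (M : Subgroup G) : Prop :=
  PL p M ∧ ∀ L : Subgroup G, PL p L → M ≤ L → L = M

theorem PL.exists_max [Finite G] {p : ℕ} {L : Subgroup G} (h : PL p L) :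
    ∃ M, MPL p M ∧ L ≤ M := by
  obtain ⟨M, hM⟩ := Set.Finite.exists_maximal (s := {L' : Subgroup G | PL p L' ∧ L ≤ L'})
    (Set.toFinite _) ⟨L, h, le_rfl⟩
  refine ⟨M, ⟨hM.1.1, ?_⟩, hM.1.2⟩
  intro L' hL' hML'
  exact le_antisymm (hM.2 ⟨hL', hM.1.2.trans hML'⟩ hML') hML'

theorem MPL.pCoreOf_ne_bot {p : ℕ} {M : Subgroup G} (h : MPL p M) : pCoreOf p M ≠ ⊥ := by
  obtain ⟨⟨T, hT, hne, rfl⟩, -⟩ := h
  intro hb
  apply hne
  rw [eq_bot_iff, ← hb]
  exact le_pCoreOf le_normalizer le_rfl hT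

theorem MPL.eq_of_pgroup {p : ℕ} {M R : Subgroup G} (h : MPL p M) (hR : IsPGroup p R) (hne : R ≠ ⊥)
    (hM : M ≤ normalizer (R : Set G)) : normalizer (R : Set G) = M :=
  h.2 _ ⟨R, hR, hne, rfl⟩ hM

theorem MPL.normalizer_pCoreOf {p : ℕ} {M : Subgroup G} (h : MPL p M) :
    normalizer (pCoreOf p M : Set G) = M :=
  h.eq_of_pgroup (pCoreOf_isPGroup p M) h.pCoreOf_ne_bot (le_normalizer_pCoreOf p M)

theorem MPL.normalizer_le {p : ℕ} {M : Subgroup G} (h : MPL p M) :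
    normalizer (M : Set G) ≤ M := by
  conv_rhs => rw [← h.normalizer_pCoreOf]
  exact normalizer_le_normalizer_pCoreOf p M

theorem PL.conj {p : ℕ} {M : Subgroup G} (h : PL p M) (g : G) :
    PL p (M.map (MulAut.conj g).toMonoidHom) := by
  obtain ⟨T, hT, hne, rfl⟩ := h
  refine ⟨T.map (MulAut.conj g).toMonoidHom, hT.map _, ?_, (normalizer_map_conj T g).symm⟩
  intro hb
  exact hne ((map_eq_bot_iff_of_injective _ (MulAut.conj g).injective).mp hb)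

theorem MPL.conj {p : ℕ} {M : Subgroup G} (h : MPL p M) (g : G) :
    MPL p (M.map (MulAut.conj g).toMonoidHom) := by
  refine ⟨h.1.conj g, ?_⟩
  intro L hL hML
  have h1 : M ≤ L.map (MulAut.conj g⁻¹).toMonoidHom := by
    rw [le_map_conj_iff, inv_inv]; exact hML
  have h2 := h.2 _ (hL.conj g⁻¹) h1
  rw [← h2, map_conj_map_conj, mul_inv_cancel, map_conj_one]

theorem MPL.normalizer_eq [Finite G] {p : ℕ} [Fact p.Prime] {M A : Subgroup G} (h : MPL p M)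
    (hc : M ⊓ centralizer (pCoreOf p M : Set G) ≤ pCoreOf p M) (hA : A ≠ ⊥) (hAM : A ≤ M)
    (hMA : M ≤ normalizer (A : Set G)) : normalizer (A : Set G) = M := by
  have hne : pCoreOf p A ≠ ⊥ := by
    intro hb
    have h1 : A ⊓ pCoreOf p M ≤ pCoreOf p A :=
      le_pCoreOf inf_le_left
        (le_normalizer_inf le_normalizer (hAM.trans (le_normalizer_pCoreOf p M)))
        ((pCoreOf_isPGroup p M).to_le inf_le_right)
    have h2 : A ⊓ pCoreOf p M = ⊥ := by rw [eq_bot_iff, ← hb]; exact h1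
    have h3 : A ≤ centralizer (pCoreOf p M : Set G) :=
      le_centralizer_of_inf_eq_bot (hAM.trans (le_normalizer_pCoreOf p M))
        ((pCoreOf_le p M).trans hMA) h2
    apply hA
    rw [eq_bot_iff, ← h2]
    exact le_inf le_rfl ((le_inf hAM h3).trans hc)
  have h1 : normalizer (A : Set G) ≤ normalizer (pCoreOf p A : Set G) :=
    normalizer_le_normalizer_pCoreOf p A
  have h2 := h.eq_of_pgroup (pCoreOf_isPGroup p A) hne (hMA.trans h1)
  exact le_antisymm (h2 ▸ h1) hMA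

theorem primPair_of_mpl [Finite G] {p : ℕ} [Fact p.Prime] {M₁ M₂ : Subgroup G} (h₁ : MPL p M₁)
    (h₂ : MPL p M₂) (hc₁ : M₁ ⊓ centralizer (pCoreOf p M₁ : Set G) ≤ pCoreOf p M₁)
    (hc₂ : M₂ ⊓ centralizer (pCoreOf p M₂ : Set G) ≤ pCoreOf p M₂) : PrimPair M₁ M₂ := by
  intro A hA hle
  constructor
  · intro h
    rw [h₁.normalizer_eq hc₁ hA (hle.trans inf_le_left) h, inf_comm]
  · intro h
    rw [h₂.normalizer_eq hc₂ hA (hle.trans inf_le_right) h]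

theorem pCoreOf_le_of_isSyl {p : ℕ} {S M : Subgroup G} (h : IsSyl p S M) : pCoreOf p M ≤ S := by
  obtain ⟨P, rfl⟩ := h
  exact map_mono (pCore_le_sylow P)

/-- Two distinct subgroups M₁, M₂ of G form a primitive pair when, for {i, j} = {1, 2}, every non-trivial normal subgroup A of M_i contained in M₁ ∩ M₂ satisfies N_{M_j}(A) = M₁ ∩ M₂; the pair has characteristic p when moreover C_{M_i}(O_p(M_i)) ≤ O_p(M_i) for both i and O_p(M₁)O_p(M₂) ≤ M₁ ∩ M₂. Let G be a finite group, p a prime dividing its order, with O_p(G) = 1 and every p-local subgroup of characteristic p. Then either G has a primitive pair of characteristic p, or every maximal p-local subgroup M of G is strongly p-embedded in G: M is a proper subgroup, p divides its order, and for every g ∉ M the order of M ∩ gMg⁻¹ is prime to p. -/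
theorem result {G : Type*} [Group G] [Finite G] {p : ℕ} [Fact p.Prime] (hloc : Cfsg.IsOfLocalCharacteristic p G) (hOp : Cfsg.pCore p G = ⊥) : (∃ M₁ M₂ : Subgroup G, M₁ ≠ M₂ ∧ (∀ A : Subgroup G, A ≠ ⊥ → A ≤ M₁ ⊓ M₂ → (M₁ ≤ Subgroup.normalizer (A : Set G) → M₂ ⊓ Subgroup.normalizer (A : Set G) = M₁ ⊓ M₂) ∧ (M₂ ≤ Subgroup.normalizer (A : Set G) → M₁ ⊓ Subgroup.normalizer (A : Set G) = M₁ ⊓ M₂)) ∧ Subgroup.centralizer (Cfsg.pCore p ↥M₁ : Set ↥M₁) ≤ Cfsg.pCore p ↥M₁ ∧ Subgroup.centralizer (Cfsg.pCore p ↥M₂ : Set ↥M₂) ≤ Cfsg.pCore p ↥M₂ ∧ (Cfsg.pCore p ↥M₁).map M₁.subtype ⊔ (Cfsg.pCore p ↥M₂).map M₂.subtype ≤ M₁ ⊓ M₂) ∨ (∀ M : Subgroup G, (∃ T : Subgroup G, IsPGroup p T ∧ T ≠ ⊥ ∧ M = Subgroup.normalizer (T : Set G)) → (∀ L : Subgroup G, (∃ T : Subgroup G, IsPGroup p T ∧ T ≠ ⊥ ∧ L = Subgroup.normalizer (T : Set G)) → M ≤ L → L = M) → M ≠ ⊤ ∧ p ∣ Nat.card M ∧ ∀ g : G, g ∉ M → ¬ p ∣ Nat.card ↥(M ⊓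 M.map (MulAut.conj g).toMonoidHom)) := by
  classical
  have hchar : ∀ M : Subgroup G, MPL p M →
      Subgroup.centralizer (Cfsg.pCore p ↥M : Set ↥M) ≤ Cfsg.pCore p ↥M := by
    rintro M ⟨⟨T, hT, hne, rfl⟩, -⟩
    exact hloc.2 T hT hne
  have hchar' : ∀ M : Subgroup G, MPL p M →
      M ⊓ centralizer (pCoreOf p M : Set G) ≤ pCoreOf p M := fun M hM => charP_iff.mp (hchar M hM)
  rw [or_iff_not_imp_left]
  intro hno
  have pair : ∀ M₁ M₂ S : Subgroup G, MPL p M₁ → MPL p M₂ → M₁ ≠ M₂ → IsSyl p S M₁ →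
      IsSyl p S M₂ → False := by
    intro M₁ M₂ S h₁ h₂ hne hS₁ hS₂
    exact hno ⟨M₁, M₂, hne, primPair_of_mpl h₁ h₂ (hchar' _ h₁) (hchar' _ h₂), hchar _ h₁,
      hchar _ h₂, sup_le ((pCoreOf_le_of_isSyl hS₁).trans (le_inf hS₁.le hS₂.le))
        ((pCoreOf_le_of_isSyl hS₂).trans (le_inf hS₁.le hS₂.le))⟩
  have grow : ∀ M' S : Subgroup G, S ≤ M' → IsPGroup p S → ¬ IsSyl p S M' →
      ∃ S' x, IsSyl p S' M' ∧ S ≤ S' ∧ x ∈ S' ∧ x ∈ normalizer (S : Set G) ∧ x ∉ S := by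
    intro M' S hSM hSp hn
    obtain ⟨S', hS', hle⟩ := exists_isSyl_ge hSM hSp
    have hlt : S < S' := lt_of_le_of_ne hle (fun e => hn (e ▸ hS'))
    obtain ⟨x, hx1, hx2, hx3⟩ := pgroup_normalizer_grow hS'.isPGroup hlt
    exact ⟨S', x, hS', hle, hx1, hx2, hx3⟩
  have final : ∀ M₁ M₂ S : Subgroup G, MPL p M₁ → MPL p M₂ → M₁ ≠ M₂ → IsSyl p S (M₁ ⊓ M₂) →
      IsSyl p S M₁ → False := by
    intro M₁ M₂ S h₁ h₂ hne hS hS₁
    by_cases hS₂ : IsSyl p S M₂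
    · exact pair M₁ M₂ S h₁ h₂ hne hS₁ hS₂
    · obtain ⟨S₂, t, hS₂', hle, htS₂, htN, htS⟩ := grow M₂ S (hS.le.trans inf_le_right) hS.isPGroup hS₂
      have htM : t ∉ M₁ := by
        intro htM
        have hR : S ⊔ zpowers t ≤ S₂ := sup_le hle (zpowers_le.mpr htS₂)
        have hR2 : S ⊔ zpowers t ≤ M₁ ⊓ M₂ :=
          le_inf (sup_le hS₁.le (zpowers_le.mpr htM)) (hR.trans hS₂'.le)
        have := hS.eq_of_le hR2 (hS₂'.isPGroup.to_le hR) le_sup_left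
        apply htS
        rw [← this]
        exact mem_sup_right (mem_zpowers t)
      have hne' : M₁ ≠ M₁.map (MulAut.conj t).toMonoidHom := by
        intro e
        exact htM (h₁.normalizer_le (mem_normalizer_iff_map_conj.mpr e.symm))
      have hS₁' := hS₁.map_conj t
      rw [map_conj_eq_of_mem_normalizer htN] at hS₁'
      exact pair M₁ _ S h₁ (h₁.conj t) hne' hS₁ hS₁'
  intro M hPL hmax
  have hM : MPL p M := ⟨hPL, hmax⟩
  refine ⟨?_, ?_, ?_⟩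
  · intro h
    apply hM.pCoreOf_ne_bot
    rw [h, pCoreOf_top, hOp]
  · obtain ⟨n, hn⟩ := IsPGroup.iff_card.mp (pCoreOf_isPGroup p M)
    have h1 : Nat.card (pCoreOf p M) ∣ Nat.card M := Subgroup.card_dvd_of_le (pCoreOf_le p M)
    rcases Nat.eq_zero_or_pos n with h0 | h0
    · rw [h0, pow_zero] at hn
      exact absurd (Subgroup.card_eq_one.mp hn) hM.pCoreOf_ne_bot
    · rw [hn] at h1
      exact (dvd_pow_self p h0.ne').trans h1
  · intro g hg hdvd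
    have hneg : M ≠ M.map (MulAut.conj g).toMonoidHom := by
      intro e
      exact hg (hM.normalizer_le (mem_normalizer_iff_map_conj.mpr e.symm))
    let ι := {P : Subgroup G × Subgroup G // MPL p P.1 ∧ MPL p P.2 ∧ P.1 ≠ P.2}
    have : Nonempty ι := ⟨⟨(M, _), hM, hM.conj g, hneg⟩⟩
    let f : ι → ℕ := fun P =>
      Nat.card ↥(Classical.choose (exists_isSyl p (P.1.1 ⊓ P.1.2)) : Subgroup G)
    obtain ⟨⟨⟨M₁, M₂⟩, h₁, h₂, hne⟩, hP₀⟩ := Finite.exists_max f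
    obtain ⟨S, hS, hSf⟩ : ∃ S, IsSyl p S (M₁ ⊓ M₂) ∧
        f ⟨⟨M₁, M₂⟩, h₁, h₂, hne⟩ = Nat.card S :=
      ⟨_, Classical.choose_spec (exists_isSyl p (M₁ ⊓ M₂)), rfl⟩
    have hmaxS : ∀ L₁ L₂ R : Subgroup G, MPL p L₁ → MPL p L₂ → L₁ ≠ L₂ → R ≤ L₁ ⊓ L₂ →
        IsPGroup p R → Nat.card R ≤ Nat.card S := by
      intro L₁ L₂ R hL₁ hL₂ hL hR hRp
      have h1 := hP₀ ⟨(L₁, L₂), hL₁, hL₂, hL⟩
      rw [hSf] at h1
      exact ((Classical.choose_spec (exists_isSyl p (L₁ ⊓ L₂))).card_le hR hRp).trans h1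
    have hSne : S ≠ ⊥ := by
      intro hb
      obtain ⟨S', hS'⟩ := exists_isSyl p (M ⊓ M.map (MulAut.conj g).toMonoidHom)
      have h1 := hmaxS _ _ S' hM (hM.conj g) hneg hS'.le hS'.isPGroup
      rw [hb, Subgroup.card_bot] at h1
      have h2 : Nat.card S' = 1 := le_antisymm h1 Nat.card_pos
      exact hS'.ne_bot hdvd (Subgroup.card_eq_one.mp h2)
    by_cases a : IsSyl p S M₁
    · exact final M₁ M₂ S h₁ h₂ hne hS a
    by_cases b : IsSyl p S M₂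
    · exact final M₂ M₁ S h₂ h₁ hne.symm (by rw [inf_comm]; exact hS) b
    obtain ⟨M₃, h₃, hN₃⟩ := PL.exists_max (p := p) ⟨S, hS.isPGroup, hSne, rfl⟩
    have key : ∀ M' : Subgroup G, MPL p M' → S ≤ M' → ¬ IsSyl p S M' → M' = M₃ := by
      intro M' hM' hSM' hn
      by_contra hne3
      obtain ⟨S', x, hS', hle, hxS', hxN, hxS⟩ := grow M' S hSM' hS.isPGroup hn
      have hR : S ⊔ zpowers x ≤ S' := sup_le hle (zpowers_le.mpr hxS')
      have hR2 : S ⊔ zpowers x ≤ M' ⊓ M₃ :=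
        le_inf (hR.trans hS'.le) ((sup_le le_normalizer (zpowers_le.mpr hxN)).trans hN₃)
      have h1 := hmaxS M' M₃ _ hM' h₃ hne3 hR2 (hS'.isPGroup.to_le hR)
      have h2 : S = S ⊔ zpowers x := Subgroup.eq_of_le_of_card_ge le_sup_left h1
      apply hxS
      rw [h2]
      exact mem_sup_right (mem_zpowers x)
    exact hne ((key M₁ h₁ (hS.le.trans inf_le_left) a).trans
      (key M₂ h₂ (hS.le.trans inf_le_right) b).symm)

end Cfsg.Agent.S3751
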