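import Cfsg.Statements.S3755
import Cfsg.Agent.Lib.Helper17.S3Free

set_option autoImplicit false
open Cfsg

namespace Cfsg.Agent.S3755

/-- Let M and V be subgroups of a finite group with V an elementary abelian 2-group, M normalizing V and acting faithfully on it (M ∩ C(V) = 1), and C_M(O_{2'}(M)) ≤ O_{2'}(M). If some elementary abelian 2-subgroup A of M satisfies |V : C_V(A)| < |A|², then M has a section isomorphic to the symmetric group of degree 3. -/
theorem result {X : Type*} [Group X] [Finite X] (M V : Subgroup X) (hV : Cfsg.IsElementaryAbelian 2 V) (hMV : M ≤ Subgroup.normalizer (V : Set X)) (hfaith : M ⊓ Subgroup.centralizer (V : Set X) = ⊥) (hcon : Subgroup.centralizer (Cfsg.pPrimeCore 2 ↥M : Set ↥M) ≤ Cfsg.pPrimeCore 2 ↥M) (A : Subgroup X) (hAM : A ≤ M) (hA : Cfsg.IsElementaryAbelian 2 A) (hsmall : (V ⊓ Subgroup.centralizer (A : Set X)).relIndex V < Nat.card A ^ 2) : Cfsg.Involves (Equiv.Perm (Fin 3)) ↥M := by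
  by_contra hinv
  set K := Cfsg.Agent.Lib.Helper17.ppCoreOf 2 M with hK
  have hKM : K ≤ M := Cfsg.Agent.Lib.Helper17.ppCoreOf_le 2 M
  have hKodd : (Nat.card K).Coprime 2 := Cfsg.Agent.Lib.Helper17.ppCoreOf_coprime 2 M
  have hMK : M ≤ Subgroup.normalizer (K : Set X) :=
    Cfsg.Agent.Lib.Helper17.le_normalizer_ppCoreOf 2 M
  have hcen : M ⊓ Subgroup.centralizer (K : Set X) ≤ K := by
    intro m hm
    have h1 : (⟨m, hm.1⟩ : M) ∈ Subgroup.centralizer (Cfsg.pPrimeCore 2 ↥M : Set ↥M) := by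
      rw [Subgroup.mem_centralizer_iff]
      intro k hk
      apply Subtype.ext
      have hkK : (k : X) ∈ K := ⟨k, hk, rfl⟩
      exact Subgroup.mem_centralizer_iff.mp hm.2 _ hkK
    exact ⟨_, hcon h1, rfl⟩
  have hAf : A ⊓ Subgroup.centralizer (K : Set X) = ⊥ := by
    have h1 : A ⊓ Subgroup.centralizer (K : Set X) ≤ A ⊓ K :=
      le_inf inf_le_left ((inf_le_inf_right _ hAM).trans hcen)
    have h2 : A ⊓ K = ⊥ := by
      apply disjoint_iff.mp; apply Subgroup.disjoint_of_coprime_natCard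
      obtain ⟨n, hn⟩ := (IsPGroup.iff_card (p := 2)).mp (Cfsg.Agent.Lib.Helper17.EA2.isPGroup hA)
      rw [hn]
      exact (Nat.Coprime.pow_right n hKodd).symm
    rw [eq_bot_iff, ← h2]
    exact h1
  have hf : K ⊓ Subgroup.centralizer (V : Set X) = ⊥ := by
    rw [eq_bot_iff, ← hfaith]
    exact inf_le_inf_right _ hKM
  have := Cfsg.Agent.Lib.Helper17.sq_card_le_relIndex_of_no_S3 hV hKodd (hKM.trans hMV) hf
    _ A rfl hA (hAM.trans hMK) (hAM.trans hMV) hAf
    (fun x hx a ha hxo hxa => hinv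
      (Cfsg.Agent.Lib.Helper17.involves_perm3_of_pair M (hKM hx) (hAM ha) hxo
        (Cfsg.Agent.Lib.Helper17.EA2.sq hA ha) hxa))
  omega

end Cfsg.Agent.S3755
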