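import Cfsg.Statements.S3760
-- import your own Cfsg.Agent.* helpers here

set_option autoImplicit false
open Cfsg

namespace Cfsg.Agent.S3760

open MulAction Subgroup

/-- Let the group G act transitively on a set X, let x ∈ X with stabilizer H = G_x, and let K ≤ H. Then N_G(K) acts transitively on the set of fixed points of K if and only if every G-conjugate of K contained in H is already an H-conjugate of K. -/
theorem result {G : Type*} [Group G] {X : Type*} [MulAction G X] (htrans : ∀ a b : X, ∃ g : G, g • a = b) (x : X) (K : Subgroup G) (hK : K ≤ MulAction.stabilizer G x) : (∀ a b : X, (∀ k ∈ K, k • a = a) → (∀ k ∈ K, k • b = b) → ∃ g ∈ Subgroup.normalizer (K : Set G), g • a = b) ↔ ∀ g : G, K.map (MulAut.conj g).toMonoidHom ≤ MulAction.stabilizer G x → ∃ h ∈ MulAction.stabilizer G x, K.map (MulAut.conj g).toMonoidHom = K.map (MulAut.conj h).toMonoidHom := by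
  constructor
  · intro h g hg
    have hx : ∀ k ∈ K, k • x = x := fun k hk => hK hk
    have hgx : ∀ k ∈ K, k • (g⁻¹ • x) = g⁻¹ • x := by
      intro k hk
      have h1 : g * k * g⁻¹ ∈ stabilizer G x := hg ⟨k, hk, rfl⟩
      rw [mem_stabilizer_iff, mul_smul, mul_smul] at h1
      exact eq_inv_smul_iff.2 h1
    obtain ⟨n, hn, hnx⟩ := h x (g⁻¹ • x) hx hgx
    refine ⟨g * n, ?_, ?_⟩
    · rw [mem_stabilizer_iff, mul_smul, hnx, smul_inv_smul]
    · ext y
      constructor
      · rintro ⟨k, hk, rfl⟩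
        refine ⟨n⁻¹ * k * n, (mem_normalizer_iff''.1 hn k).1 hk, ?_⟩
        show g * n * (n⁻¹ * k * n) * (g * n)⁻¹ = g * k * g⁻¹
        group
      · rintro ⟨k, hk, rfl⟩
        refine ⟨n * k * n⁻¹, (mem_normalizer_iff.1 hn k).1 hk, ?_⟩
        show g * (n * k * n⁻¹) * g⁻¹ = g * n * k * (g * n)⁻¹
        group
  · intro h
    have key : ∀ a : X, (∀ k ∈ K, k • a = a) → ∃ n ∈ normalizer (K : Set G), n • x = a := by
      intro a ha
      obtain ⟨g, hg⟩ := htrans a x
      have hle : K.map (MulAut.conj g).toMonoidHom ≤ stabilizer G x := by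
        rintro _ ⟨k, hk, rfl⟩
        show (g * k * g⁻¹) • x = x
        rw [← hg, mul_smul, mul_smul, inv_smul_smul, ha k hk]
      obtain ⟨s, hs, hmap⟩ := h g hle
      refine ⟨g⁻¹ * s, ?_, ?_⟩
      · rw [mem_normalizer_iff]
        intro k
        constructor
        · intro hk
          have h1 : s * k * s⁻¹ ∈ K.map (MulAut.conj g).toMonoidHom := hmap ▸ ⟨k, hk, rfl⟩
          obtain ⟨k', hk', he⟩ := h1
          have he' : g * k' * g⁻¹ = s * k * s⁻¹ := he
          have h2 : g⁻¹ * s * k * (g⁻¹ * s)⁻¹ = k' := by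
            calc g⁻¹ * s * k * (g⁻¹ * s)⁻¹ = g⁻¹ * (s * k * s⁻¹) * g := by group
              _ = g⁻¹ * (g * k' * g⁻¹) * g := by rw [he']
              _ = k' := by group
          rw [h2]; exact hk'
        · intro hk
          have h1 : g * (g⁻¹ * s * k * (g⁻¹ * s)⁻¹) * g⁻¹ ∈ K.map (MulAut.conj s).toMonoidHom :=
            hmap ▸ ⟨_, hk, rfl⟩
          obtain ⟨k', hk', he⟩ := h1
          have he' : s * k' * s⁻¹ = g * (g⁻¹ * s * k * (g⁻¹ * s)⁻¹) * g⁻¹ := he
          have h2 : k = k' := by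
            have h3 : s * k' * s⁻¹ = s * k * s⁻¹ := by rw [he']; group
            exact (mul_left_cancel (mul_right_cancel h3)).symm
          rw [h2]; exact hk'
      · rw [mul_smul, mem_stabilizer_iff.1 hs, ← hg, inv_smul_smul]
    intro a b ha hb
    obtain ⟨n, hn, rfl⟩ := key a ha
    obtain ⟨n', hn', rfl⟩ := key b hb
    exact ⟨n' * n⁻¹, mul_mem hn' (inv_mem hn), by rw [mul_smul, inv_smul_smul]⟩

end Cfsg.Agent.S3760
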