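import Cfsg.Statements.S3763
-- import your own Cfsg.Agent.* helpers here
import Mathlib
import Cfsg.Agent.Lib.Helper29.Extra4

set_option autoImplicit false
open Cfsg

namespace Cfsg.Agent.S3763

open Cfsg.Agent.Lib.Helper29.Extra in
theorem ea_of {E : Type*} [Group E] (A : Subgroup E) (h1 : IsMulCommutative A)
    (h2 : ∀ a ∈ A, a ^ 2 = 1) : EA A :=
  ⟨fun a ha b hb => congrArg Subtype.val (h1.is_comm.comm ⟨a, ha⟩ ⟨b, hb⟩), h2⟩

open Cfsg.Agent.Lib.Helper29.Extra in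
theorem typ {E : Type*} [Group E] [Finite E] (hE : Cfsg.IsExtraspecial 2 E) (n : ℕ)
    (hn : Nat.card E = 2 ^ (2 * n + 1)) :
    (NN E = 2 ^ (2 * n) + 2 ^ n ∧ Cfsg.PRankLE 2 (n + 1) E ∧ ¬ Cfsg.PRankLE 2 n E) ∨
    (NN E + 2 ^ n = 2 ^ (2 * n) ∧ Cfsg.PRankLE 2 n E ∧ ¬ Cfsg.PRankLE 2 (n - 1) E) := by
  haveI : Fact (Nat.Prime 2) := ⟨Nat.prime_two⟩
  obtain ⟨z, h, g, x, hgx⟩ := of_extraspecial hE
  have hn1 : 1 ≤ n := by
    by_contra hcon
    have h0 : n = 0 := by omega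
    subst h0
    have hxy : g * x = x * g * z := h.noncomm_z hgx
    have := h.card_gt hxy
    rw [hn] at this
    norm_num at this
  obtain ⟨m, hm, hcase⟩ := order_count _ E z h rfl
  have hmn : m = n := by
    rw [hn] at hm
    have := Nat.pow_right_injective (le_refl 2) hm
    omega
  subst hmn
  rcases hcase with hN | hN
  · left
    refine ⟨hN, ?_, ?_⟩
    · intro A h1 h2
      exact ((rank_upper _ E z h rfl m hn A (ea_of A h1 h2)).1 hN)
    · intro hP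
      obtain ⟨A, hA, hc⟩ := (rank_lower _ E z h rfl m hn).1 hN
      have := hP A ⟨⟨fun a b => Subtype.ext (hA.1 a a.2 b b.2)⟩⟩ hA.2
      rw [hc] at this
      have h3 : 2 ^ m < 2 ^ (m + 1) := Nat.pow_lt_pow_right (by norm_num) (by omega)
      omega
  · right
    refine ⟨hN, ?_, ?_⟩
    · intro A h1 h2
      exact ((rank_upper _ E z h rfl m hn A (ea_of A h1 h2)).2 hN)
    · intro hP
      obtain ⟨A, hA, hc⟩ := (rank_lower _ E z h rfl m hn).2 hN
      have := hP A ⟨⟨fun a b => Subtype.ext (hA.1 a a.2 b b.2)⟩⟩ hA.2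
      rw [hc] at this
      have h3 : 2 ^ (m - 1) < 2 ^ m := Nat.pow_lt_pow_right (by norm_num) (by omega)
      omega

/-- Let E be an extraspecial 2-group of order 2^(2n+1). Then the largest elementary abelian subgroups of E have order 2^n or 2^(n+1); and two extraspecial 2-groups of the same order whose largest elementary abelian subgroups have the same order are isomorphic. -/
theorem result {E : Type*} [Group E] [Finite E] (hE : Cfsg.IsExtraspecial 2 E) (n : ℕ) (hn : Nat.card E = 2 ^ (2 * n + 1)) : ((Cfsg.PRankLE 2 n E ∧ ¬ Cfsg.PRankLE 2 (n - 1) E) ∨ (Cfsg.PRankLE 2 (n + 1) E ∧ ¬ Cfsg.PRankLE 2 n E)) ∧ ∀ (E' : Type*) [Group E'] [Finite E'], Cfsg.IsExtraspecial 2 E' → Nat.card E' = Nat.card E → (∀ k : ℕ, Cfsg.PRankLE 2 k E ↔ Cfsg.PRankLE 2 k E') → Nonempty (E ≃* E') := by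
  haveI : Fact (Nat.Prime 2) := ⟨Nat.prime_two⟩
  constructor
  · rcases typ hE n hn with ⟨-, h1, h2⟩ | ⟨-, h1, h2⟩
    · exact Or.inr ⟨h1, h2⟩
    · exact Or.inl ⟨h1, h2⟩
  · intro E' _ _ hE' hc hk
    obtain ⟨z, h, -⟩ := Cfsg.Agent.Lib.Helper29.Extra.of_extraspecial hE
    obtain ⟨z', h', -⟩ := Cfsg.Agent.Lib.Helper29.Extra.of_extraspecial hE'
    have hNN : Cfsg.Agent.Lib.Helper29.Extra.NN E = Cfsg.Agent.Lib.Helper29.Extra.NN E' := by
      rcases typ hE n hn with ⟨a1, a2, a3⟩ | ⟨a1, a2, a3⟩ <;>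
        rcases typ hE' n (hc.trans hn) with ⟨b1, b2, b3⟩ | ⟨b1, b2, b3⟩
      · rw [a1, b1]
      · exact absurd ((hk n).2 b2) a3
      · exact absurd ((hk n).1 a2) b3
      · omega
    obtain ⟨F, -⟩ := Cfsg.Agent.Lib.Helper29.Extra.iso_two _ E z E' z' h h' rfl hc hNN
    exact ⟨F⟩

end Cfsg.Agent.S3763
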