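import Cfsg.Statements.S3766
-- import your own Cfsg.Agent.* helpers here
import Cfsg.Agent.Lib.Helper1.Fitting
import Cfsg.Agent.Lib.Helper1.ThreeSub
import Cfsg.Agent.Lib.Helper10.Fitting

set_option autoImplicit false
open Cfsg

namespace Cfsg.Agent.S3766

open scoped commutatorElement

variable {G : Type*} [Group G]

/-- chief factors of `G` -/
def Chief (U V : Subgroup G) : Prop :=
  U.Normal ∧ V.Normal ∧ V < U ∧ ∀ W : Subgroup G, W.Normal → V ≤ W → W ≤ U → W = V ∨ W = U

/-- iterated commutators with `D` -/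
def iter (D R : Subgroup G) : ℕ → Subgroup G
  | 0 => R
  | k + 1 => ⁅iter D R k, D⁆

theorem iter_normal (D R : Subgroup G) [D.Normal] [R.Normal] : ∀ k, (iter D R k).Normal
  | 0 => ‹R.Normal›
  | k + 1 => by
    have := iter_normal D R k
    show (⁅iter D R k, D⁆).Normal
    infer_instance

theorem iter_succ_le {D R V : Subgroup G} (h : ⁅R, D⁆ ≤ V) : ∀ k, iter D R (k + 1) ≤ iter D V k
  | 0 => h
  | k + 1 => Subgroup.commutator_mono (iter_succ_le h k) le_rfl

theorem iter_bot_of_le {D R : Subgroup G} {k : ℕ} (h : iter D R k = ⊥) :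
    ∀ m, k ≤ m → iter D R m = ⊥ := by
  intro m hm
  induction m, hm using Nat.le_induction with
  | base => exact h
  | succ m _ ih =>
    show ⁅iter D R m, D⁆ = ⊥
    rw [ih, Subgroup.commutator_bot_left]

/-- A nilpotent normal subgroup centralizes every chief factor. -/
theorem nilp_centralizes {F U V : Subgroup G} (hFn : F.Normal) (hF : Group.IsNilpotent ↥F)
    (hc : Chief U V) : ⁅U, F⁆ ≤ V := by
  obtain ⟨hU, hV, hVU, hmin⟩ := hc
  have hW : (⁅U, F⁆ ⊔ V).Normal := inferInstance
  have hle : ⁅U, F⁆ ⊔ V ≤ U := sup_le (Subgroup.commutator_le_left U F) hVU.le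
  rcases hmin _ hW le_sup_right hle with h | h
  · exact le_sup_left.trans h.le
  · exfalso
    obtain ⟨n, hn⟩ := (Subgroup.isNilpotent_iff_lowerCentralSeries F).mp hF
    have key : ∀ n, U ≤ F.lowerCentralSeries n ⊔ V := by
      intro n
      induction n with
      | zero =>
        rw [← h]
        exact sup_le_sup_right (Subgroup.commutator_le_right U F) V
      | succ n ih =>
        conv_lhs => rw [← h]
        apply sup_le _ le_sup_right
        rw [Subgroup.commutator_le]
        intro u hu f hf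
        obtain ⟨a, ha, v, hv, rfl⟩ := Subgroup.mem_sup_of_normal_right.mp (ih hu)
        have e : ⁅a * v, f⁆ = (a * ⁅v, f⁆ * a⁻¹) * ⁅a, f⁆ := by
          simp only [commutatorElement_def]; group
        rw [e]
        apply mul_mem
        · apply Subgroup.mem_sup_right
          apply hV.conj_mem
          rw [commutatorElement_def]
          have e2 : v * f * v⁻¹ * f⁻¹ = v * (f * v⁻¹ * f⁻¹) := by group
          rw [e2]
          exact mul_mem hv (hV.conj_mem _ (inv_mem hv) f)
        · apply Subgroup.mem_sup_left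
          exact Subgroup.commutator_mem_commutator ha hf
    have := key n
    rw [hn, bot_sup_eq] at this
    exact absurd this (not_le_of_gt hVU)

theorem exists_iter_bot [Finite G] (D F : Subgroup G)
    (hD : ∀ U V : Subgroup G, Chief U V → U ≤ F → ⁅U, D⁆ ≤ V) :
    ∀ (n : ℕ) (R : Subgroup G), Nat.card R ≤ n → R.Normal → R ≤ F → ∃ k, iter D R k = ⊥ := by
  intro n
  induction n with
  | zero =>
    intro R hR _ _
    exact absurd hR (by have := Nat.card_pos (α := R); omega)
  | succ n ih =>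
    intro R hR hRn hRF
    by_cases hb : R = ⊥
    · exact ⟨0, hb⟩
    · obtain ⟨V, hV⟩ := (Set.toFinite {V : Subgroup G | V.Normal ∧ V < R}).exists_maximal
        ⟨⊥, inferInstance, bot_lt_iff_ne_bot.mpr hb⟩
      obtain ⟨⟨hVn, hVR⟩, hmax⟩ := hV
      have hchief : Chief R V := by
        refine ⟨hRn, hVn, hVR, ?_⟩
        intro W hW hVW hWR
        by_cases hWR' : W = R
        · exact Or.inr hWR'
        · left
          exact le_antisymm (hmax ⟨hW, lt_of_le_of_ne hWR hWR'⟩ hVW) hVW
      have h1 := hD R V hchief hRF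
      have hcard : Nat.card V ≤ n := by
        have : Nat.card V < Nat.card R := by
          by_contra hcon
          exact hVR.ne (Subgroup.eq_of_le_of_card_ge hVR.le (not_lt.mp hcon))
        omega
      obtain ⟨k, hk⟩ := ih V hcard hVn (hVR.le.trans hRF)
      refine ⟨k + 1, ?_⟩
      rw [eq_bot_iff, ← hk]
      exact iter_succ_le h1 k

theorem stab_claim (D F : Subgroup G) [D.Normal] [F.Normal] :
    ∀ j i, ⁅iter D F i, D.lowerCentralSeries j⁆ ≤ iter D F (i + j + 1) := by
  intro j
  induction j with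
  | zero => intro i; exact le_rfl
  | succ j ih =>
    intro i
    have hN : (iter D F (i + (j + 1) + 1)).Normal := iter_normal D F _
    rw [Subgroup.lowerCentralSeries_succ, Subgroup.commutator_comm]
    apply Cfsg.Agent.Lib.Helper1.commutator_commutator_le_of_rotate
    · rw [Subgroup.commutator_comm D]
      have := ih (i + 1)
      have e : i + 1 + j + 1 = i + (j + 1) + 1 := by omega
      rw [e] at this
      exact this
    · exact Subgroup.commutator_mono (ih i) le_rfl

theorem nilp_of_stab [Finite G] (D F : Subgroup G) [D.Normal] [F.Normal]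
    (hCF : D ⊓ Subgroup.centralizer (F : Set G) ≤ F) {k : ℕ} (hk : iter D F k = ⊥) :
    Group.IsNilpotent ↥D := by
  rw [Subgroup.isNilpotent_iff_lowerCentralSeries]
  have h1 : ⁅F, D.lowerCentralSeries k⁆ = ⊥ := by
    rw [eq_bot_iff, ← iter_bot_of_le hk (0 + k + 1) (by omega)]
    exact stab_claim D F k 0
  have h2 : D.lowerCentralSeries k ≤ F := by
    apply le_trans _ hCF
    apply le_inf
    · exact Subgroup.lowerCentralSeries_antitone D (Nat.zero_le k)
    · rw [Subgroup.commutator_comm] at h1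
      exact Subgroup.commutator_eq_bot_iff_le_centralizer.mp h1
  have h3 : ∀ m, D.lowerCentralSeries (k + m) ≤ iter D F m := by
    intro m
    induction m with
    | zero => exact h2
    | succ m ih => exact Subgroup.commutator_mono ih le_rfl
  exact ⟨k + k, by rw [eq_bot_iff, ← hk]; exact h3 k⟩

/-- Let G be a finite solvable group and N a normal subgroup of G. Call a pair V < U of normal subgroups of G a chief factor of G when no normal subgroup of G lies strictly between them; an element g centralizes the chief factor U/V when u g u⁻¹ g⁻¹ ∈ V for all u ∈ U. Then an element of G lies in the Fitting subgroup F(N) if and only if it lies in N and centralizes every chief factor of G; and also if and only if it lies in N and centralizes every chief factor U/V of G with U ≤ F(N). -/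
theorem result {G : Type*} [Group G] [Finite G] (hG : Group.IsSolvable G) (N : Subgroup G) [N.Normal] (g : G) : (g ∈ (Cfsg.fittingSubgroup ↥N).map N.subtype ↔ g ∈ N ∧ ∀ U V : Subgroup G, (U.Normal ∧ V.Normal ∧ V < U ∧ ∀ W : Subgroup G, W.Normal → V ≤ W → W ≤ U → W = V ∨ W = U) → ∀ u ∈ U, u * g * u⁻¹ * g⁻¹ ∈ V) ∧ (g ∈ (Cfsg.fittingSubgroup ↥N).map N.subtype ↔ g ∈ N ∧ ∀ U V : Subgroup G, (U.Normal ∧ V.Normal ∧ V < U ∧ ∀ W : Subgroup G, W.Normal → V ≤ W → W ≤ U → W = V ∨ W = U) → U ≤ (Cfsg.fittingSubgroup ↥N).map N.subtype → ∀ u ∈ U, u * g * u⁻¹ * g⁻¹ ∈ V) := by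
  classical
  set F : Subgroup G := (Cfsg.fittingSubgroup ↥N).map N.subtype with hFdef
  have hFchar : (Cfsg.fittingSubgroup ↥N).Characteristic :=
    Cfsg.Agent.Lib.Helper10.fittingSubgroup_characteristic ↥N
  have hFn : F.Normal := ConjAct.normal_of_characteristic_of_normal
  have hFN : F ≤ N := by
    rintro _ ⟨x, _, rfl⟩
    exact x.2
  have hFnil : Group.IsNilpotent ↥F := by
    have h0 : Group.IsNilpotent ↥(Cfsg.fittingSubgroup ↥N) :=
      Cfsg.Agent.Lib.Helper10.fittingSubgroup_isNilpotent ↥N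
    have e := (Cfsg.fittingSubgroup ↥N).equivMapOfInjective N.subtype N.subtype_injective
    exact Group.nilpotent_of_mulEquiv e
  have hNsolv : Group.IsSolvable ↥N := inferInstance
  have hCF : N ⊓ Subgroup.centralizer (F : Set G) ≤ F := by
    intro x hx
    obtain ⟨hxN, hxC⟩ := Subgroup.mem_inf.mp hx
    have : (⟨x, hxN⟩ : ↥N) ∈ Subgroup.centralizer (Cfsg.fittingSubgroup ↥N : Set ↥N) := by
      rw [Subgroup.mem_centralizer_iff]
      intro h hh
      apply Subtype.ext
      exact (Subgroup.mem_centralizer_iff.mp hxC) (h : G) ⟨h, hh, rfl⟩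
    exact ⟨⟨x, hxN⟩, Cfsg.Agent.Lib.Helper1.centralizer_fitting_le this, rfl⟩
  -- (i)
  have h_i : ∀ g ∈ F, ∀ U V : Subgroup G, Chief U V → ∀ u ∈ U, u * g * u⁻¹ * g⁻¹ ∈ V := by
    intro g hg U V hc u hu
    exact nilp_centralizes hFn hFnil hc (Subgroup.commutator_mem_commutator hu hg)
  -- (ii)
  have h_ii : ∀ g ∈ N, (∀ U V : Subgroup G, Chief U V → U ≤ F →
      ∀ u ∈ U, u * g * u⁻¹ * g⁻¹ ∈ V) → g ∈ F := by
    let D : Subgroup G :=
      { carrier := {g | g ∈ N ∧ ∀ U V : Subgroup G, Chief U V → U ≤ F →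
          ∀ u ∈ U, u * g * u⁻¹ * g⁻¹ ∈ V}
        one_mem' := by
          refine ⟨one_mem _, ?_⟩
          intro U V _ _ u _
          simp
        mul_mem' := by
          rintro a b ⟨haN, ha⟩ ⟨hbN, hb⟩
          refine ⟨mul_mem haN hbN, ?_⟩
          intro U V hc hUF u hu
          have e : u * (a * b) * u⁻¹ * (a * b)⁻¹
              = (u * a * u⁻¹ * a⁻¹) * (a * (u * b * u⁻¹ * b⁻¹) * a⁻¹) := by group
          rw [e]
          exact mul_mem (ha U V hc hUF u hu) (hc.2.1.conj_mem _ (hb U V hc hUF u hu) a)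
        inv_mem' := by
          rintro a ⟨haN, ha⟩
          refine ⟨inv_mem haN, ?_⟩
          intro U V hc hUF u hu
          have e : u * a⁻¹ * u⁻¹ * a⁻¹⁻¹ = a⁻¹ * (u * a * u⁻¹ * a⁻¹)⁻¹ * a⁻¹⁻¹ := by group
          rw [e]
          exact hc.2.1.conj_mem _ (inv_mem (ha U V hc hUF u hu)) a⁻¹ }
    have hDmem : ∀ g, g ∈ D ↔ g ∈ N ∧ ∀ U V : Subgroup G, Chief U V → U ≤ F →
          ∀ u ∈ U, u * g * u⁻¹ * g⁻¹ ∈ V := fun g => Iff.rfl
    have hDn : D.Normal := by
      constructor
      intro a ha x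
      obtain ⟨haN, ha⟩ := (hDmem a).mp ha
      rw [hDmem]
      refine ⟨‹N.Normal›.conj_mem _ haN x, ?_⟩
      intro U V hc hUF u hu
      have e : u * (x * a * x⁻¹) * u⁻¹ * (x * a * x⁻¹)⁻¹
          = x * ((x⁻¹ * u * x⁻¹⁻¹) * a * (x⁻¹ * u * x⁻¹⁻¹)⁻¹ * a⁻¹) * x⁻¹ := by group
      rw [e]
      exact hc.2.1.conj_mem _ (ha U V hc hUF _ (hc.1.conj_mem _ hu x⁻¹)) x
    have hDN : D ≤ N := fun g hg => ((hDmem g).mp hg).1
    have hDc : ∀ U V : Subgroup G, Chief U V → U ≤ F → ⁅U, D⁆ ≤ V := by
      intro U V hc hUF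
      have := hc.2.1
      rw [Subgroup.commutator_le]
      intro u hu d hd
      exact ((hDmem d).mp hd).2 U V hc hUF u hu
    obtain ⟨k, hk⟩ := exists_iter_bot D F hDc (Nat.card F) F le_rfl hFn le_rfl
    have hDnil : Group.IsNilpotent ↥D :=
      nilp_of_stab D F ((inf_le_inf_right _ hDN).trans hCF) hk
    have hDF : D ≤ F := by
      have h1 : (D.subgroupOf N).Normal := inferInstance
      have h2 : Group.IsNilpotent ↥(D.subgroupOf N) :=
        Group.nilpotent_of_mulEquiv (Subgroup.subgroupOfEquivOfLe hDN).symm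
      have h3 := Cfsg.Agent.Lib.Helper10.le_fittingSubgroup h1 h2
      have h4 := Subgroup.map_mono (f := N.subtype) h3
      rwa [Subgroup.map_subgroupOf_eq_of_le hDN] at h4
    intro g hgN hg
    exact hDF ((hDmem g).mpr ⟨hgN, hg⟩)
  refine ⟨⟨fun hg => ⟨hFN hg, fun U V hc => h_i g hg U V hc⟩, ?_⟩,
    ⟨fun hg => ⟨hFN hg, fun U V hc _ => h_i g hg U V hc⟩, ?_⟩⟩
  · rintro ⟨hgN, hg⟩
    exact h_ii g hgN (fun U V hc _ => hg U V hc)
  · rintro ⟨hgN, hg⟩
    exact h_ii g hgN hg

end Cfsg.Agent.S3766
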