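import Cfsg.Statements.S3768
import Mathlib
import Cfsg.Agent.Lib.Helper15.Frob4

set_option autoImplicit false
open Cfsg

namespace Cfsg.Agent.S3768

open Cfsg.Agent.Lib.Helper15
open Pointwise

/-- Let G be a finite Frobenius group with Frobenius complement R and Frobenius kernel K (the identity together with the elements in no conjugate of R), and let N be a normal subgroup of G not containing K. Then G/N is a Frobenius group with Frobenius complement RN/N whose Frobenius kernel is the image of K. -/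
theorem result {G : Type*} [Group G] [Finite G] (R : Subgroup G) (hR : Cfsg.IsFrobeniusComplement R) (N : Subgroup G) [N.Normal] (hKN : ¬ Cfsg.frobeniusKernel R ⊆ N) : Cfsg.IsFrobeniusComplement (R.map (QuotientGroup.mk' N)) ∧ Cfsg.frobeniusKernel (R.map (QuotientGroup.mk' N)) = QuotientGroup.mk' N '' Cfsg.frobeniusKernel R := by
  obtain ⟨K, hKset, hKn, hKc, hKne, hKf⟩ := frob_exists_kernel hR
  have hNn : N.Normal := inferInstance
  have hmemK : ∀ x, x ∈ K ↔ x ∈ Cfsg.frobeniusKernel R := by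
    intro x; rw [← hKset]; rfl
  have hKN' : ¬ K ≤ N := by
    intro h
    apply hKN
    intro x hx
    exact h ((hmemK x).mpr hx)
  have hrK : ∀ r : G, ∀ k ∈ K, r * k * r⁻¹ ∈ K := fun r k hk => hKn.conj_mem k hk r
  have hrN : ∀ r : G, ∀ k ∈ N, r * k * r⁻¹ ∈ N := fun r k hk => hNn.conj_mem k hk r
  have hNK : N ≤ K := by
    intro x hx
    by_contra hxK
    rw [hmemK, not_mem_frobeniusKernel_iff] at hxK
    obtain ⟨hx1, g, hg⟩ := hxK
    have hgN : g⁻¹ * x * g ∈ N := by
      have := hNn.conj_mem x hx g⁻¹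
      simpa using this
    have hg1 : g⁻¹ * x * g ≠ 1 := by
      intro e
      apply hx1
      have : x = g * (g⁻¹ * x * g) * g⁻¹ := by group
      rw [this, e]; group
    apply hKN'
    intro y hy
    obtain ⟨k, hk, rfl⟩ := fpf_comm_surjective K _ (hrK _) (hKf _ hg hg1) hy
    have h1 : k⁻¹ * (g⁻¹ * x * g) * k ∈ N := by
      have := hNn.conj_mem _ hgN k⁻¹
      simpa using this
    have h2 := N.mul_mem h1 (N.inv_mem hgN)
    convert h2 using 1
    group
  have hdisj : ∀ x, x ∈ K → x ∈ R → x = 1 := fun x h1 h2 =>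
    Subgroup.disjoint_def.mp hKc.disjoint h1 h2
  have hKn' : (K.map (QuotientGroup.mk' N)).Normal :=
    hKn.map _ (QuotientGroup.mk'_surjective N)
  have key := frob_of_fpf (K.map (QuotientGroup.mk' N)) (R.map (QuotientGroup.mk' N)) ?_ ?_ ?_ ?_
  · refine ⟨key.1, ?_⟩
    rw [key.2, Subgroup.coe_map, hKset]
  · apply Subgroup.isComplement'_of_disjoint_and_mul_eq_univ
    · rw [Subgroup.disjoint_def]
      rintro _ ⟨k, hk, rfl⟩ ⟨r, hr, hkr⟩
      have h1 : r⁻¹ * k ∈ N := by
        rw [← QuotientGroup.eq_one_iff, QuotientGroup.mk_mul, QuotientGroup.mk_inv]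
        have : (QuotientGroup.mk r : G ⧸ N) = QuotientGroup.mk k := hkr
        rw [this]; simp
      have h2 : r ∈ K := by
        have := K.mul_mem hk (K.inv_mem (hNK h1))
        simpa using this
      have h3 := hdisj r h2 hr
      rw [← hkr, h3]; simp
    · rw [Set.eq_univ_iff_forall]
      intro x
      obtain ⟨x, rfl⟩ := QuotientGroup.mk'_surjective N x
      have h1 : x ∈ (K : Set G) * (R : Set G) := by
        rw [hKc.mul_eq]; trivial
      obtain ⟨k, hk, r, hr, rfl⟩ := h1
      exact ⟨_, ⟨k, hk, rfl⟩, _, ⟨r, hr, rfl⟩, (map_mul _ _ _).symm⟩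
  · intro e
    apply hKN'
    rw [Subgroup.map_eq_bot_iff, QuotientGroup.ker_mk'] at e
    exact e
  · intro e
    rw [Subgroup.map_eq_bot_iff, QuotientGroup.ker_mk'] at e
    apply hR.1
    rw [eq_bot_iff]
    intro r hr
    exact hdisj r (hNK (e hr)) hr
  · rintro _ ⟨r, hr, rfl⟩ hr1
    have hr1' : r ≠ 1 := by
      intro e; apply hr1; rw [e]; simp
    rw [eq_bot_iff]
    intro x hx
    obtain ⟨hxK, hxC⟩ := Subgroup.mem_inf.mp hx
    obtain ⟨k, hk, rfl⟩ := hxK
    rw [Subgroup.mem_centralizer_singleton_iff] at hxC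
    have h1 : k⁻¹ * (r * k * r⁻¹) ∈ N := by
      rw [← QuotientGroup.eq_one_iff]
      have h2 : (QuotientGroup.mk k : G ⧸ N) * QuotientGroup.mk r = QuotientGroup.mk r * QuotientGroup.mk k := hxC
      simp only [QuotientGroup.mk_mul, QuotientGroup.mk_inv]
      rw [← h2]; group
    have hNf : N ⊓ Subgroup.centralizer {r} = ⊥ := by
      rw [eq_bot_iff, ← hKf r hr hr1']
      exact inf_le_inf_right _ hNK
    obtain ⟨n, hn, hn'⟩ := fpf_comm_surjective N r (hrN r) hNf h1
    have h3 := fpf_comm_injective K r (hKf r hr hr1') (hNK hn) hk hn'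
    rw [Subgroup.mem_bot]
    rw [← h3]
    exact (QuotientGroup.eq_one_iff n).mpr hn

end Cfsg.Agent.S3768
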