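import Cfsg.Statements.S3771
-- import your own Cfsg.Agent.* helpers here
import Cfsg.Agent.Lib.Helper11.PGroup

set_option autoImplicit false
open Cfsg

namespace Cfsg.Agent.S3771

/-- Let p be a prime and R a finite p-group of p-rank at most 2 (no elementary abelian subgroup of order p³) in which every element has order dividing p. Then R has order at most p³. -/
theorem result {R : Type*} [Group R] [Finite R] {p : ℕ} [Fact p.Prime] (hR : IsPGroup p R) (hrank : Cfsg.PRankLE p 2 R) (hexp : ∀ x : R, x ^ p = 1) : Nat.card R ≤ p ^ 3 := by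
  classical
  have hp : p.Prime := Fact.out
  obtain ⟨A, hAn, hAc, hCA⟩ := Cfsg.Agent.Lib.Helper11.exists_normal_abelian_self_centralizing p hR
  have hAcard : Nat.card A ≤ p ^ 2 := hrank A hAc (fun a _ => hexp a)
  have hAcomm : ∀ x ∈ A, ∀ y ∈ A, x * y = y * x := fun x hx y hy =>
    congrArg Subtype.val (hAc.is_comm.comm ⟨x, hx⟩ ⟨y, hy⟩)
  by_cases hAZ : A ≤ Subgroup.center R
  · have h1 : (⊤ : Subgroup R) ≤ A := by
      refine le_trans ?_ hCA
      intro x _
      rw [Subgroup.mem_centralizer_iff]
      intro a ha
      exact (Subgroup.mem_center_iff.mp (hAZ ha) x).symm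
    have h2 : Nat.card R ≤ Nat.card A := by
      rw [← Subgroup.card_top (G := R)]
      exact Subgroup.card_le_of_le h1
    calc Nat.card R ≤ p ^ 2 := h2.trans hAcard
      _ ≤ p ^ 3 := Nat.pow_le_pow_right hp.pos (by omega)
  · obtain ⟨a, haA, haZ⟩ := SetLike.not_le_iff_exists.mp hAZ
    have hAne : A ≠ ⊥ := by
      rintro rfl
      exact haZ (by rw [Subgroup.mem_bot.mp haA]; exact one_mem _)
    obtain ⟨z, hzA, hz1, hzc⟩ :=
      Cfsg.Agent.Lib.Helper11.exists_mem_center_of_normal_ne_bot p hR A hAne
    have hCa : ∀ c : R, c * a = a * c → c ∈ A := by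
      intro c hc
      apply hCA
      set B : Subgroup R := A ⊓ Subgroup.centralizer ({c} : Set R) with hB
      have hzB : z ∈ B := by
        refine Subgroup.mem_inf.mpr ⟨hzA, ?_⟩
        rw [Subgroup.mem_centralizer_singleton_iff]
        exact (Subgroup.mem_center_iff.mp hzc c).symm
      have haB : a ∈ B := by
        refine Subgroup.mem_inf.mpr ⟨haA, ?_⟩
        rw [Subgroup.mem_centralizer_singleton_iff]
        exact hc.symm
      have hle : Subgroup.zpowers z ≤ B := Subgroup.zpowers_le.mpr hzB
      have hne : Subgroup.zpowers z ≠ B := by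
        intro h
        apply haZ
        have : a ∈ Subgroup.zpowers z := h ▸ haB
        exact (Subgroup.zpowers_le.mpr hzc) this
      have hcz : Nat.card (Subgroup.zpowers z) = p := by
        rw [Nat.card_zpowers]; exact orderOf_eq_prime (hexp z) hz1
      have hBcard : p < Nat.card B := by
        rw [← hcz]
        by_contra hcon
        exact hne (Subgroup.eq_of_le_of_card_ge hle (not_lt.mp hcon))
      obtain ⟨k, hk⟩ := IsPGroup.iff_card.mp (hR.to_subgroup B)
      have hk2 : 2 ≤ k := by
        by_contra h
        have hk1 : k ≤ 1 := by omega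
        have : p ^ k ≤ p ^ 1 := Nat.pow_le_pow_right hp.pos hk1
        rw [pow_one] at this
        omega
      have hBA : B = A := Subgroup.eq_of_le_of_card_ge inf_le_left
        (hAcard.trans (by rw [hk]; exact Nat.pow_le_pow_right hp.pos hk2))
      rw [Subgroup.mem_centralizer_iff]
      intro x hx
      have hxB : x ∈ B := hBA ▸ hx
      have := (Subgroup.mem_inf.mp hxB).2
      rw [Subgroup.mem_centralizer_singleton_iff] at this
      exact this
    let f : R ⧸ A → A := Quotient.lift
      (fun r : R => (⟨r * a * r⁻¹, hAn.conj_mem a haA r⟩ : A)) (by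
        intro r r' h
        have h' : r⁻¹ * r' ∈ A := QuotientGroup.leftRel_apply.mp h
        apply Subtype.ext
        show r * a * r⁻¹ = r' * a * r'⁻¹
        have e := hAcomm _ h' a haA
        have e2 : r' * a * r'⁻¹ = r * ((r⁻¹ * r') * a) * (r⁻¹ * r')⁻¹ * r⁻¹ := by group
        rw [e2, e]
        group)
    have hfinj : Function.Injective f := by
      intro x y
      induction x using QuotientGroup.induction_on with | H r => ?_
      induction y using QuotientGroup.induction_on with | H r' => ?_
      intro h
      have h1 : r * a * r⁻¹ = r' * a * r'⁻¹ := congrArg Subtype.val h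
      apply QuotientGroup.eq.mpr
      apply hCa
      calc r⁻¹ * r' * a = r⁻¹ * (r' * a * r'⁻¹) * r' := by group
        _ = r⁻¹ * (r * a * r⁻¹) * r' := by rw [h1]
        _ = a * (r⁻¹ * r') := by group
    have hf1 : (1 : A) ∉ Set.range f := by
      rintro ⟨x, hx⟩
      induction x using QuotientGroup.induction_on with | H r => ?_
      have h1 : r * a * r⁻¹ = 1 := congrArg Subtype.val hx
      apply haZ
      have : a = 1 := by
        calc a = r⁻¹ * (r * a * r⁻¹) * r := by group
          _ = 1 := by rw [h1]; group
      rw [this]; exact one_mem _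
    have hidx : A.index < p ^ 2 := by
      have := Fintype.ofFinite (R ⧸ A)
      have := Fintype.ofFinite A
      have h := Fintype.card_lt_of_injective_of_notMem f hfinj hf1
      rw [← Nat.card_eq_fintype_card, ← Nat.card_eq_fintype_card] at h
      exact lt_of_lt_of_le h hAcard
    have hlt : Nat.card R < p ^ 4 := by
      rw [← Subgroup.card_mul_index A]
      calc Nat.card A * A.index < Nat.card A * p ^ 2 :=
            Nat.mul_lt_mul_of_pos_left hidx Nat.card_pos
        _ ≤ p ^ 2 * p ^ 2 := Nat.mul_le_mul_right _ hAcard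
        _ = p ^ 4 := by ring
    obtain ⟨k, hk⟩ := IsPGroup.iff_card.mp hR
    rw [hk] at hlt ⊢
    have hk4 : k < 4 := (Nat.pow_lt_pow_iff_right hp.one_lt).mp hlt
    exact Nat.pow_le_pow_right hp.pos (by omega)

end Cfsg.Agent.S3771
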