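import Cfsg.Statements.S3772
-- import your own Cfsg.Agent.* helpers here
import Cfsg.Agent.Lib.Helper1.Frattini
import Cfsg.Agent.Lib.Helper14.Class2

set_option autoImplicit false
open Cfsg

namespace Cfsg.Agent.S3772

open scoped commutatorElement

theorem sum_hom {H : Type*} [Group H] [Fintype H] (χ : H → ℤ)
    (hmul : ∀ a b, χ (a * b) = χ a * χ b) (hval : ∀ a, χ a = 1 ∨ χ a = -1) :
    (∀ a, χ a = 1) ∨ ∑ a, χ a = 0 := by
  by_cases h : ∀ a, χ a = 1
  · exact Or.inl h
  · right
    push Not at h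
    obtain ⟨a, ha⟩ := h
    have ha' : χ a = -1 := (hval a).resolve_left ha
    have e : ∑ b, χ b = ∑ b, χ (a * b) := (Equiv.sum_comp (Equiv.mulLeft a) χ).symm
    have e2 : ∑ b, χ (a * b) = - ∑ b, χ b := by
      simp only [hmul, ha', neg_mul, one_mul, Finset.sum_neg_distrib]
    linarith

theorem frattini_bot_of_exp_two {G : Type*} [Group G] [Finite G] (h : ∀ x : G, x ^ 2 = 1) :
    frattini G = ⊥ := by
  by_contra hne
  obtain ⟨⟨z, hz⟩, hz1⟩ := (Subgroup.ne_bot_iff_exists_ne_one).mp hne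
  have hz1' : z ≠ 1 := fun h' => hz1 (Subtype.ext h')
  have hinv : ∀ a : G, a⁻¹ = a := fun a => by
    rw [inv_eq_iff_mul_eq_one, ← sq]; exact h a
  have hcomm : ∀ a b : G, a * b = b * a := by
    intro a b
    calc a * b = (a * b)⁻¹ := (hinv _).symm
      _ = b⁻¹ * a⁻¹ := mul_inv_rev a b
      _ = b * a := by rw [hinv, hinv]
  have hn : ∀ H : Subgroup G, H.Normal := fun H => ⟨fun n hn g => by
    rw [hcomm g n, mul_inv_cancel_right]; exact hn⟩
  obtain ⟨M, hM, hmax⟩ := (Set.toFinite {M : Subgroup G | z ∉ M}).exists_maximal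
    ⟨⊥, fun h' => hz1' (Subgroup.mem_bot.mp h')⟩
  have htop : M ⊔ frattini G = ⊤ := by
    rw [eq_top_iff]
    intro g _
    by_cases hg : g ∈ M
    · exact Subgroup.mem_sup_left hg
    · have hzin : z ∈ M ⊔ Subgroup.zpowers g := by
        by_contra hcon
        have := hmax (y := M ⊔ Subgroup.zpowers g) hcon le_sup_left
        exact hg (this (Subgroup.mem_sup_right (Subgroup.mem_zpowers g)))
      have := hn (Subgroup.zpowers g)
      obtain ⟨m, hm, y, hy, hmy⟩ := Subgroup.mem_sup_of_normal_right.mp hzin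
      obtain ⟨k, rfl⟩ := Subgroup.mem_zpowers_iff.mp hy
      rcases Int.even_or_odd' k with ⟨c, rfl | rfl⟩
      · exfalso
        apply hM
        rw [← hmy, zpow_mul, zpow_ofNat, h g, one_zpow, mul_one]
        exact hm
      · rw [zpow_add, zpow_mul, zpow_ofNat, h g, one_zpow, one_mul, zpow_one] at hmy
        have : g = m⁻¹ * z := by rw [← hmy]; group
        rw [this]
        exact mul_mem (Subgroup.mem_sup_left (inv_mem hm)) (Subgroup.mem_sup_right hz)
  have := frattini_nongenerating htop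
  exact hM (this ▸ Subgroup.mem_top z)

theorem frattini_ne_top' {Q : Type*} [Group Q] [Finite Q] [Nontrivial Q] : frattini Q ≠ ⊤ := by
  intro h
  have : (⊥ : Subgroup Q) = ⊤ := frattini_nongenerating (by rw [h]; simp)
  exact bot_ne_top this

/-- Let G be a finite 2-group whose Frattini subgroup Φ(G) has order 2, with |G : Φ(G)| = 2^d, and let j be the number of elements x of G with x² = 1. Then j = 2^d, or j = 2^d + 2^(d−r) or j = 2^d − 2^(d−r) for some positive integer r with 2r ≤ d. Moreover if d = 2r and j is 2^d + 2^r or 2^d − 2^r, then G is extraspecial. -/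
theorem result {G : Type*} [Group G] [Finite G] (hG : IsPGroup 2 G) (hΦ : Nat.card (frattini G) = 2) (d : ℕ) (hd : (frattini G).index = 2 ^ d) : (Nat.card {x : G // x ^ 2 = 1} = 2 ^ d ∨ ∃ r : ℕ, 1 ≤ r ∧ 2 * r ≤ d ∧ (Nat.card {x : G // x ^ 2 = 1} = 2 ^ d + 2 ^ (d - r) ∨ Nat.card {x : G // x ^ 2 = 1} + 2 ^ (d - r) = 2 ^ d)) ∧ (∀ r : ℕ, d = 2 * r → (Nat.card {x : G // x ^ 2 = 1} = 2 ^ d + 2 ^ r ∨ Nat.card {x : G // x ^ 2 = 1} + 2 ^ r = 2 ^ d) → Cfsg.IsExtraspecial 2 G) := by
  classical
  have : Fact (Nat.Prime 2) := ⟨Nat.prime_two⟩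
  have := Fintype.ofFinite G
  have hΦn : (frattini G).Normal := inferInstance
  obtain ⟨⟨z, hzΦ⟩, hz1, hzu⟩ := (Nat.card_eq_two_iff' (1 : ↥(frattini G))).mp hΦ
  have hz1' : z ≠ 1 := fun h => hz1 (Subtype.ext h)
  have hcases : ∀ a ∈ frattini G, a = 1 ∨ a = z := by
    intro a ha
    by_cases h : a = 1
    · exact Or.inl h
    · right
      exact congrArg Subtype.val (hzu ⟨a, ha⟩ (fun h' => h (congrArg Subtype.val h')))
  have hzz : z * z = 1 := by
    rcases hcases _ (mul_mem hzΦ hzΦ) with h | h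
    · exact h
    · exact absurd (by simpa using h) hz1'
  let ε : G → ℤ := fun g => if g = 1 then 1 else -1
  have ε1 : ε 1 = 1 := if_pos rfl
  have εz : ε z = -1 := if_neg hz1'
  have εmul : ∀ a ∈ frattini G, ∀ b ∈ frattini G, ε (a * b) = ε a * ε b := by
    intro a ha b hb
    rcases hcases a ha with h | h
    · rw [h, one_mul, ε1, one_mul]
    · rcases hcases b hb with h' | h'
      · rw [h', mul_one, ε1, mul_one]
      · rw [h, h', hzz, ε1, εz]; norm_num
  have εval : ∀ g, ε g = 1 ∨ ε g = -1 := by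
    intro g
    by_cases h : g = 1
    · left; exact if_pos h
    · right; exact if_neg h
  have εsq : ∀ g, ε g * ε g = 1 := by
    intro g
    rcases εval g with h | h <;> rw [h] <;> norm_num
  have εone : ∀ g, ε g = 1 ↔ g = 1 := by
    intro g
    constructor
    · intro h
      by_contra hg
      rw [show ε g = -1 from if_neg hg] at h
      norm_num at h
    · intro h; rw [h]; exact ε1
  have hcen : ∀ a ∈ frattini G, a ∈ Subgroup.center G := by
    intro a ha
    rw [Subgroup.mem_center_iff]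
    intro g
    rcases hcases a ha with h | h
    · rw [h]; simp
    · rw [h]
      rcases hcases _ (hΦn.conj_mem z hzΦ g) with h' | h'
      · exact absurd (conj_eq_one_iff.mp h') hz1'
      · exact mul_inv_eq_iff_eq_mul.mp h'
  have hsq : ∀ x : G, x ^ 2 ∈ frattini G := Cfsg.Agent.Lib.Helper1.pgroup_pow_mem_frattini hG
  have hcm : ∀ x y : G, ⁅x, y⁆ ∈ frattini G := fun x y =>
    Cfsg.Agent.Lib.Helper1.pgroup_commutator_le_frattini hG
      (Subgroup.commutator_mem_commutator (Subgroup.mem_top x) (Subgroup.mem_top y))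
  have E1 : ∀ w y : G, ε ((w * y) ^ 2) * ε (y ^ 2) = ε (w ^ 2) * ε ⁅y, w⁆ := by
    intro w y
    have h1 := Cfsg.Agent.Lib.Helper14.mul_pow_class2 w y (hcen _ (hcm y w)) 2
    rw [show Nat.choose 2 2 = 1 from rfl, pow_one] at h1
    rw [h1, εmul _ (mul_mem (hsq w) (hsq y)) _ (hcm y w), εmul _ (hsq w) _ (hsq y)]
    calc ε (w ^ 2) * ε (y ^ 2) * ε ⁅y, w⁆ * ε (y ^ 2)
        = ε (w ^ 2) * ε ⁅y, w⁆ * (ε (y ^ 2) * ε (y ^ 2)) := by ring
      _ = _ := by rw [εsq, mul_one]
  obtain ⟨T, hTdef⟩ : ∃ T : ℤ, T = ∑ x : G, ε (x ^ 2) := ⟨_, rfl⟩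
  have hTT : T * T = ∑ w : G, ε (w ^ 2) * ∑ y : G, ε ⁅y, w⁆ := by
    calc T * T = ∑ y : G, ∑ x : G, ε (x ^ 2) * ε (y ^ 2) := by
          rw [hTdef, Finset.sum_mul_sum]
          exact Finset.sum_comm
      _ = ∑ y : G, ∑ w : G, ε ((w * y) ^ 2) * ε (y ^ 2) := by
          apply Finset.sum_congr rfl
          intro y _
          exact (Equiv.sum_comp (Equiv.mulRight y) (fun x => ε (x ^ 2) * ε (y ^ 2))).symm
      _ = ∑ y : G, ∑ w : G, ε (w ^ 2) * ε ⁅y, w⁆ := by simp only [E1]
      _ = ∑ w : G, ∑ y : G, ε (w ^ 2) * ε ⁅y, w⁆ := Finset.sum_comm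
      _ = _ := by simp only [Finset.mul_sum]
  have hinner : ∀ w : G, ∑ y : G, ε ⁅y, w⁆ =
      if w ∈ Subgroup.center G then (Fintype.card G : ℤ) else 0 := by
    intro w
    have hm : ∀ a b : G, ε ⁅a * b, w⁆ = ε ⁅a, w⁆ * ε ⁅b, w⁆ := by
      intro a b
      have hc := Subgroup.mem_center_iff.mp (hcen _ (hcm b w))
      have e : ⁅a * b, w⁆ = ⁅a, w⁆ * ⁅b, w⁆ := by
        have e1 : ⁅a * b, w⁆ = a * ⁅b, w⁆ * a⁻¹ * ⁅a, w⁆ := by
          simp only [commutatorElement_def]; group
        rw [e1, hc a, mul_inv_cancel_right]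
        exact (hc ⁅a, w⁆).symm
      rw [e, εmul _ (hcm a w) _ (hcm b w)]
    by_cases hw : w ∈ Subgroup.center G
    · rw [if_pos hw]
      have h1 : ∀ y, ε ⁅y, w⁆ = 1 := fun y => by
        rw [εone, commutatorElement_eq_one_iff_mul_comm]
        exact Subgroup.mem_center_iff.mp hw y
      simp only [h1]
      simp
    · rw [if_neg hw]
      rcases sum_hom (fun y => ε ⁅y, w⁆) hm (fun y => εval _) with h | h
      · exfalso
        apply hw
        rw [Subgroup.mem_center_iff]
        intro g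
        exact commutatorElement_eq_one_iff_mul_comm.mp ((εone _).mp (h g))
      · exact h
  have hTA : T * T = (Fintype.card G : ℤ) *
      ∑ w : {x // x ∈ Subgroup.center G}, ε ((w : G) ^ 2) := by
    rw [hTT]
    simp only [hinner, mul_ite, mul_zero]
    rw [← Finset.sum_filter, Finset.sum_subtype (Finset.univ.filter (· ∈ Subgroup.center G))
      (p := (· ∈ Subgroup.center G)) (by simp), Finset.mul_sum]
    apply Finset.sum_congr rfl
    intros; ring
  have hA : (∑ w : {x // x ∈ Subgroup.center G}, ε ((w : G) ^ 2) = 0) ∨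
      ((∑ w : {x // x ∈ Subgroup.center G}, ε ((w : G) ^ 2) =
        (Nat.card (Subgroup.center G) : ℤ)) ∧ ∀ w ∈ Subgroup.center G, w ^ 2 = 1) := by
    have hmulZ : ∀ a b : ↥(Subgroup.center G), ε (((a * b : ↥(Subgroup.center G)) : G) ^ 2) =
        ε ((a : G) ^ 2) * ε ((b : G) ^ 2) := by
      intro a b
      have e : ((a * b : ↥(Subgroup.center G)) : G) ^ 2 = (a : G) ^ 2 * (b : G) ^ 2 := by
        have hab : (a : G) * (b : G) = (b : G) * (a : G) :=
          Subgroup.mem_center_iff.mp b.2 (a : G)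
        show ((a : G) * (b : G)) ^ 2 = _
        exact (Commute.mul_pow hab 2)
      rw [e, εmul _ (hsq _) _ (hsq _)]
    rcases sum_hom (H := ↥(Subgroup.center G)) (fun w => ε ((w : G) ^ 2)) hmulZ
      (fun _ => εval _) with h | h
    · right
      refine ⟨?_, fun w hw => (εone _).mp (h ⟨w, hw⟩)⟩
      have h' : ∀ w : {x // x ∈ Subgroup.center G}, ε ((w : G) ^ 2) = 1 := h
      simp only [h']
      simp [Nat.card_eq_fintype_card]
    · left; exact h
  obtain ⟨j, hj⟩ : ∃ j, j = Nat.card {x : G // x ^ 2 = 1} := ⟨_, rfl⟩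
  rw [← hj]
  have hcardG : Fintype.card G = 2 ^ (d + 1) := by
    rw [← Nat.card_eq_fintype_card, ← Subgroup.card_mul_index (frattini G), hΦ, hd, pow_succ]
    ring
  have hT : T = 2 * (j : ℤ) - 2 ^ (d + 1) := by
    have h1 : ∀ x : G, ε (x ^ 2) = 2 * (if x ^ 2 = 1 then 1 else 0) - 1 := by
      intro x
      by_cases h : x ^ 2 = 1 <;> simp [ε, h]
    rw [hTdef]
    simp only [h1]
    rw [Finset.sum_sub_distrib, ← Finset.mul_sum, Finset.sum_boole, hj, Nat.card_eq_fintype_card,
      Fintype.card_subtype]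
    simp [hcardG]
  rw [hcardG] at hTA
  obtain ⟨k, hk⟩ := IsPGroup.iff_card.mp (hG.to_subgroup (Subgroup.center G))
  have hΦZ : frattini G ≤ Subgroup.center G := hcen
  have hk1 : 1 ≤ k := by
    have h2 : 2 ∣ 2 ^ k := by
      rw [← hk, ← hΦ]; exact Subgroup.card_dvd_of_le hΦZ
    rcases Nat.eq_zero_or_pos k with h0 | h0
    · rw [h0] at h2; norm_num at h2
    · exact h0
  have hkd : k ≤ d + 1 := by
    have h2 : 2 ^ k ∣ 2 ^ (d + 1) := by
      rw [← hk, ← hcardG, ← Nat.card_eq_fintype_card]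
      exact Subgroup.card_subgroup_dvd_card _
    exact (Nat.pow_dvd_pow_iff_le_right (by norm_num)).mp h2
  constructor
  · rcases hA with hA0 | ⟨hA1, hAsq⟩
    · left
      rw [hA0, mul_zero] at hTA
      have hT0 : T = 0 := by simpa using hTA
      rw [hT] at hT0
      have h3 : (2 * j : ℤ) = 2 * 2 ^ d := by rw [pow_succ] at hT0; linarith
      have h4 : 2 * j = 2 * 2 ^ d := by exact_mod_cast h3
      omega
    · right
      rw [hA1, hk] at hTA
      have h5 : T.natAbs * T.natAbs = 2 ^ (d + 1 + k) := by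
        have h6 : ((T.natAbs * T.natAbs : ℕ) : ℤ) = ((2 ^ (d + 1 + k) : ℕ) : ℤ) := by
          rw [Nat.cast_mul, Int.natAbs_mul_self' T, hTA]
          push_cast
          ring
        exact_mod_cast h6
      obtain ⟨e, _, he⟩ := (Nat.dvd_prime_pow Nat.prime_two).mp (Dvd.intro _ h5)
      rw [he, ← pow_add] at h5
      have h7 : e + e = d + 1 + k := Nat.pow_right_injective (le_refl 2) h5
      obtain ⟨e', rfl⟩ : ∃ e', e = e' + 1 := ⟨e - 1, by omega⟩
      have he'd : e' < d := by
        by_contra hcon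
        have hkk : k = d + 1 := by omega
        have htop : Subgroup.center G = ⊤ := by
          apply Subgroup.eq_top_of_card_eq
          rw [hk, hkk, Nat.card_eq_fintype_card, hcardG]
        have hall : ∀ x : G, x ^ 2 = 1 := fun x => hAsq x (htop ▸ Subgroup.mem_top x)
        rw [frattini_bot_of_exp_two hall, Subgroup.card_bot] at hΦ
        norm_num at hΦ
      refine ⟨d - e', by omega, by omega, ?_⟩
      rw [show d - (d - e') = e' by omega]
      rcases Int.natAbs_eq T with h8 | h8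
      · left
        rw [he, hT] at h8
        push_cast at h8
        have h9 : (2 * j : ℤ) = 2 * (2 ^ d + 2 ^ e') := by
          rw [pow_succ, pow_succ] at h8; linarith
        have h10 : 2 * j = 2 * (2 ^ d + 2 ^ e') := by exact_mod_cast h9
        omega
      · right
        rw [he, hT] at h8
        push_cast at h8
        have h9 : (2 * (j + 2 ^ e') : ℤ) = 2 * 2 ^ d := by
          rw [pow_succ, pow_succ] at h8; linarith
        have h10 : 2 * (j + 2 ^ e') = 2 * 2 ^ d := by exact_mod_cast h9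
        omega
  · intro r hdr hjr
    have hTsq : T * T = 2 ^ (d + 2) := by
      rcases hjr with h | h
      · rw [hT, h, hdr]; push_cast; ring
      · have h' : (j : ℤ) = 2 ^ d - 2 ^ r := by
          have : ((j + 2 ^ r : ℕ) : ℤ) = ((2 ^ d : ℕ) : ℤ) := by rw [h]
          push_cast at this; linarith
        rw [hT, h', hdr]; ring
    have hZ2 : Nat.card (Subgroup.center G) = 2 := by
      rcases hA with hA0 | ⟨hA1, _⟩
      · rw [hA0, mul_zero, hTsq] at hTA
        exact absurd hTA (by positivity)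
      · rw [hA1, hk, hTsq] at hTA
        have h6 : (2 : ℕ) ^ (d + 2) = 2 ^ (d + 1 + k) := by
          rw [pow_add 2 (d + 1) k]; exact_mod_cast hTA
        have h7 : d + 2 = d + 1 + k := Nat.pow_right_injective (le_refl 2) h6
        rw [hk, show k = 1 by omega, pow_one]
    have hΦeq : frattini G = Subgroup.center G :=
      Subgroup.eq_of_le_of_card_ge hΦZ (by rw [hZ2, hΦ])
    refine ⟨⟨hG, hΦeq, ?_⟩, hZ2⟩
    have hle : commutator G ≤ Subgroup.center G :=
      hΦeq ▸ Cfsg.Agent.Lib.Helper1.pgroup_commutator_le_frattini hG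
    apply Subgroup.eq_of_le_of_card_ge hle
    rw [hZ2]
    by_contra hcon
    have hc1 : Nat.card (commutator G) = 1 := by
      have := Nat.card_pos (α := commutator G)
      omega
    have hcb : commutator G = ⊥ := Subgroup.card_eq_one.mp hc1
    have hctop : Subgroup.center G = ⊤ := by
      rw [eq_top_iff]
      intro x _
      rw [Subgroup.mem_center_iff]
      intro g
      have : ⁅g, x⁆ ∈ commutator G :=
        Subgroup.commutator_mem_commutator (Subgroup.mem_top g) (Subgroup.mem_top x)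
      rw [hcb, Subgroup.mem_bot] at this
      exact commutatorElement_eq_one_iff_mul_comm.mp this
    have hnt : Nontrivial G := ⟨⟨z, 1, hz1'⟩⟩
    exact frattini_ne_top' (Q := G) (hΦeq.trans hctop)

end Cfsg.Agent.S3772
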