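import Cfsg.Statements.S3774
-- import your own Cfsg.Agent.* helpers here

set_option autoImplicit false
open Cfsg

namespace Cfsg.Agent.S3774

/-- Let G be a nontrivial finite 2-group whose automorphism group permutes the involutions of G transitively. Then every involution of G is central, so that the involutions together with 1 form the subgroup Ω₁(Z(G)), and if this subgroup has order q then |G| is a power of q. -/
theorem result {G : Type*} [Group G] [Finite G] [Nontrivial G] (hG : IsPGroup 2 G) (htrans : ∀ x y : G, x ≠ 1 → x ^ 2 = 1 → y ≠ 1 → y ^ 2 = 1 → ∃ a : MulAut G, a x = y) : (∀ x : G, x ^ 2 = 1 → x ∈ Subgroup.center G) ∧ ∃ m : ℕ, Nat.card G = Nat.card {z : G // z ^ 2 = 1} ^ m := by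
  classical
  have : Fact (Nat.Prime 2) := ⟨Nat.prime_two⟩
  have hcen : ∀ x : G, x ^ 2 = 1 → x ∈ Subgroup.center G := by
    intro x hx
    by_cases hx1 : x = 1
    · rw [hx1]; exact one_mem _
    have hZ : Nontrivial (Subgroup.center G) := hG.center_nontrivial
    obtain ⟨k, hk0, hk⟩ := (hG.to_subgroup (Subgroup.center G)).nontrivial_iff_card.1 hZ
    have h2 : 2 ∣ Nat.card (Subgroup.center G) := by
      rw [hk]; exact dvd_pow_self 2 hk0.ne'
    obtain ⟨z, hz⟩ := exists_prime_orderOf_dvd_card' 2 h2
    have hz1 : (z : G) ≠ 1 := by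
      intro h
      have : z = 1 := Subtype.ext h
      rw [this, orderOf_one] at hz
      omega
    have hz2 : (z : G) ^ 2 = 1 := by
      have := pow_orderOf_eq_one z
      rw [hz] at this
      exact_mod_cast congrArg Subtype.val this
    obtain ⟨a, ha⟩ := htrans z x hz1 hz2 hx1 hx
    rw [← ha]
    rw [Subgroup.mem_center_iff]
    intro g
    have h3 := Subgroup.mem_center_iff.1 z.2 (a.symm g)
    have h4 := congrArg a h3
    simpa using h4
  refine ⟨hcen, ?_⟩
  -- the subgroup of involutions
  let I : Subgroup G :=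
    { carrier := {z | z ^ 2 = 1}
      one_mem' := by simp
      mul_mem' := by
        intro x y hx hy
        have hx' : x ^ 2 = 1 := hx
        have hy' : y ^ 2 = 1 := hy
        have hc := Subgroup.mem_center_iff.1 (hcen x hx') y
        show (x * y) ^ 2 = 1
        rw [(show Commute x y from hc.symm).mul_pow, hx', hy', one_mul]
      inv_mem' := by
        intro x hx
        have hx' : x ^ 2 = 1 := hx
        show (x⁻¹) ^ 2 = 1
        rw [inv_pow, hx', inv_one] }
  have hIcard : Nat.card {z : G // z ^ 2 = 1} = Nat.card I := rfl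
  obtain ⟨n, hn0, hn⟩ := hG.nontrivial_iff_card.1 inferInstance
  obtain ⟨a, ha⟩ := (IsPGroup.iff_card.1 (hG.to_subgroup I))
  -- the power map
  let f : G → G := fun x => x ^ (orderOf x / 2)
  have hf : ∀ x : G, x ≠ 1 → f x ≠ 1 ∧ f x ^ 2 = 1 := by
    intro x hx
    obtain ⟨k, hk⟩ := hG x
    obtain ⟨j, hj⟩ := (Nat.dvd_prime_pow Nat.prime_two).1 (orderOf_dvd_of_pow_eq_one hk)
    have hj0 : j ≠ 0 := by
      rintro rfl
      rw [pow_zero, orderOf_eq_one_iff] at hj
      exact hx hj.2
    obtain ⟨i, rfl⟩ := Nat.exists_eq_succ_of_ne_zero hj0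
    have ho : orderOf x / 2 = 2 ^ i := by
      rw [hj.2, pow_succ]; simp
    constructor
    · show x ^ (orderOf x / 2) ≠ 1
      apply pow_ne_one_of_lt_orderOf
      · rw [ho]; positivity
      · rw [ho, hj.2, pow_succ]
        have : 0 < 2 ^ i := by positivity
        omega
    · show (x ^ (orderOf x / 2)) ^ 2 = 1
      rw [ho, ← pow_mul, ← pow_succ, ← hj.2, pow_orderOf_eq_one]
  have hfa : ∀ (α : MulAut G) (x : G), f (α x) = α (f x) := by
    intro α x
    show (α x) ^ (orderOf (α x) / 2) = α (x ^ (orderOf x / 2))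
    rw [MulEquiv.orderOf_eq, map_pow]
  have : Fintype G := Fintype.ofFinite G
  let S : Finset G := Finset.univ.filter (fun x => x ≠ 1)
  let T : Finset G := Finset.univ.filter (fun x => x ≠ 1 ∧ x ^ 2 = 1)
  have hST : ∀ x ∈ S, f x ∈ T := by
    intro x hx
    have hx1 : x ≠ 1 := (Finset.mem_filter.1 hx).2
    exact Finset.mem_filter.2 ⟨Finset.mem_univ _, hf x hx1⟩
  have hsum := Finset.card_eq_sum_card_fiberwise hST
  -- a base involution
  obtain ⟨x0, hx0⟩ := exists_ne (1 : G)
  set z0 := f x0 with hz0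
  have hz0' := hf x0 hx0
  have hfib : ∀ t ∈ T, (S.filter (fun x => f x = t)).card = (S.filter (fun x => f x = z0)).card := by
    intro t ht
    have ht' := (Finset.mem_filter.1 ht).2
    obtain ⟨α, hα⟩ := htrans z0 t hz0'.1 hz0'.2 ht'.1 ht'.2
    symm
    apply Finset.card_bij (fun x _ => α x)
    · intro x hx
      rw [Finset.mem_filter] at hx ⊢
      refine ⟨Finset.mem_filter.2 ⟨Finset.mem_univ _, ?_⟩, ?_⟩
      · intro h
        have hx1 : x ≠ 1 := (Finset.mem_filter.1 hx.1).2
        apply hx1
        apply α.injective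
        rw [h, map_one]
      · rw [hfa, hx.2, hα]
    · intro x _ y _ h
      exact α.injective h
    · intro y hy
      rw [Finset.mem_filter] at hy
      refine ⟨α.symm y, ?_, by simp⟩
      rw [Finset.mem_filter]
      refine ⟨Finset.mem_filter.2 ⟨Finset.mem_univ _, ?_⟩, ?_⟩
      · intro h
        have hy1 : y ≠ 1 := (Finset.mem_filter.1 hy.1).2
        apply hy1
        have := congrArg α h
        simpa using this
      · apply α.injective
        rw [← hfa, hα]
        simpa using hy.2
  rw [Finset.sum_congr rfl hfib, Finset.sum_const, smul_eq_mul] at hsum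
  have hS : S.card = 2 ^ n - 1 := by
    have : S = Finset.univ.erase 1 := by
      ext x; simp [S]
    rw [this, Finset.card_erase_of_mem (Finset.mem_univ _), Finset.card_univ,
      ← Nat.card_eq_fintype_card, hn]
  have hT : T.card = 2 ^ a - 1 := by
    have h1 : (Finset.univ.filter (fun x : G => x ^ 2 = 1)).card = 2 ^ a := by
      rw [← ha, ← hIcard, Nat.card_eq_fintype_card, Fintype.card_subtype]
    have : T = (Finset.univ.filter (fun x : G => x ^ 2 = 1)).erase 1 := by
      ext x; simp [T]
    rw [this, Finset.card_erase_of_mem (by simp), h1]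
  rw [hS, hT] at hsum
  have hdvd : 2 ^ a - 1 ∣ 2 ^ n - 1 := ⟨_, hsum⟩
  have hgcd := Nat.pow_sub_one_gcd_pow_sub_one 2 a n
  rw [Nat.gcd_eq_left hdvd] at hgcd
  have hpow : 2 ^ a = 2 ^ (Nat.gcd a n) := by
    have h1 : 0 < 2 ^ a := by positivity
    have h2 : 0 < 2 ^ (Nat.gcd a n) := by positivity
    omega
  have hag : a = Nat.gcd a n := Nat.pow_right_injective (le_refl 2) hpow
  obtain ⟨m, hm⟩ : a ∣ n := by
    rw [hag]; exact Nat.gcd_dvd_right a n
  refine ⟨m, ?_⟩
  rw [hIcard, ha, hn, hm, pow_mul]

end Cfsg.Agent.S3774
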