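import Cfsg.Statements.S3775
import Cfsg.Agent.Lib.Helper25.AbInv4

set_option autoImplicit false
open Cfsg

namespace Cfsg.Agent.S3775

open Cfsg.Agent.Lib.Helper25

/-- Let A be a finite abelian p-group and X a group of automorphisms of A of order prime to p. Call a subgroup of A invariant when every element of X maps it onto itself. Then the following are equivalent: (i) A is not the direct product of two nontrivial invariant subgroups; (ii) every invariant subgroup of A is one of the subgroups Ω_i(A) = {a : a^(p^i) = 1}; (iii) the subgroup Ω₁(A) of elements of order dividing p has no invariant subgroups other than 1 and itself. -/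
theorem result {A : Type*} [CommGroup A] [Finite A] {p : ℕ} [Fact p.Prime] (hA : IsPGroup p A) (X : Subgroup (MulAut A)) (hX : (Nat.card X).Coprime p) : ((¬ ∃ B C : Subgroup A, B ≠ ⊥ ∧ C ≠ ⊥ ∧ (∀ x ∈ X, B.map x.toMonoidHom = B) ∧ (∀ x ∈ X, C.map x.toMonoidHom = C) ∧ B ⊓ C = ⊥ ∧ B ⊔ C = ⊤) ↔ (∀ B : Subgroup A, (∀ x ∈ X, B.map x.toMonoidHom = B) → ∃ i : ℕ, ∀ a : A, a ∈ B ↔ a ^ p ^ i = 1)) ∧ ((∀ B : Subgroup A, (∀ x ∈ X, B.map x.toMonoidHom = B) → ∃ i : ℕ, ∀ a : A, a ∈ B ↔ a ^ p ^ i = 1) ↔ (∀ B : Subgroup A, (∀ x ∈ X, B.map x.toMonoidHom = B) → (∀ b ∈ B, b ^ p = 1) → B = ⊥ ∨ ∀ a : A, a ∈ B ↔ a ^ p = 1)) := by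
  simp only [invSub_iff]
  have h23 : (∀ B : Subgroup A, InvSub X B → ∃ i : ℕ, ∀ a : A, a ∈ B ↔ a ^ p ^ i = 1) →
      (∀ B : Subgroup A, InvSub X B → (∀ b ∈ B, b ^ p = 1) →
        B = ⊥ ∨ ∀ a : A, a ∈ B ↔ a ^ p = 1) := by
    intro h2 B hB hBp
    obtain ⟨i, hi⟩ := h2 B hB
    rcases i with _ | k
    · left
      rw [eq_bot_iff]
      intro b hb
      rw [Subgroup.mem_bot]
      simpa using (hi b).1 hb
    · right
      intro a
      refine ⟨hBp a, fun ha => (hi a).2 ?_⟩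
      rw [pow_succ', pow_mul, ha, one_pow]
  have h32 : (∀ B : Subgroup A, InvSub X B → (∀ b ∈ B, b ^ p = 1) →
        B = ⊥ ∨ ∀ a : A, a ∈ B ↔ a ^ p = 1) →
      (∀ B : Subgroup A, InvSub X B → ∃ i : ℕ, ∀ a : A, a ∈ B ↔ a ^ p ^ i = 1) := by
    intro h3 B hB
    obtain ⟨n, hn⟩ := IsPGroup.iff_card.1 hA
    exact omega_of_irred X h3 n B hB (fun b _ => by rw [← hn]; exact pow_card_eq_one')
  refine ⟨⟨fun h1 => h32 (fun B hB hBp => irred_of_indec hA X hX h1 B hB hBp), ?_⟩, h23, h32⟩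
  rintro h2 ⟨B, C, hB0, hC0, hB, hC, hinf, -⟩
  obtain ⟨i, hi⟩ := h2 B hB
  obtain ⟨j, hj⟩ := h2 C hC
  rcases le_total i j with hij | hij
  · apply hB0
    rw [eq_bot_iff, ← hinf]
    intro b hb
    exact ⟨hb, (hj b).2 (pow_eq_one_of_le hij ((hi b).1 hb))⟩
  · apply hC0
    rw [eq_bot_iff, ← hinf]
    intro c hc
    exact ⟨(hi c).2 (pow_eq_one_of_le hij ((hj c).1 hc)), hc⟩

end Cfsg.Agent.S3775
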