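import Cfsg.Statements.S3780
-- import your own Cfsg.Agent.* helpers here
import Cfsg.Agent.Lib.Helper1.Frattini

set_option autoImplicit false
open Cfsg

namespace Cfsg.Agent.S3780

/-- iterates of an endomorphism -/
def itHom {V : Type*} [CommGroup V] (b : V →* V) : ℕ → (V →* V)
  | 0 => MonoidHom.id V
  | k + 1 => b.comp (itHom b k)

theorem card_eq_ker_mul_map {V : Type*} [Group V] [Finite V] (f : V →* V) (H : Subgroup V) :
    Nat.card H = Nat.card ↥(f.ker ⊓ H) * Nat.card ↥(H.map f) := by
  have h1 := Subgroup.relIndex_mul_relIndex ⊥ (f.ker ⊓ H) H bot_le inf_le_right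
  rw [Subgroup.relIndex_bot_left, Subgroup.relIndex_bot_left, Subgroup.inf_relIndex_right,
    Subgroup.relIndex_ker] at h1
  exact h1.symm

theorem itHom_mem {V : Type*} [CommGroup V] (b : V →* V) (W : Subgroup V)
    (hbW : ∀ w ∈ W, b w ∈ W) : ∀ k, ∀ w ∈ W, itHom b k w ∈ W
  | 0, w, hw => hw
  | k + 1, w, hw => hbW _ (itHom_mem b W hbW k w hw)

theorem chain_card {V : Type*} [CommGroup V] [Finite V] (b : V →* V) (W : Subgroup V)
    (hbW : ∀ w ∈ W, b w ∈ W) (k : ℕ) :
    Nat.card ↥(W ⊓ (itHom b k).ker) ≤ (Nat.card ↥(W ⊓ b.ker)) ^ k := by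
  induction k with
  | zero =>
    have : W ⊓ (itHom b 0).ker = ⊥ := by
      rw [eq_bot_iff]
      intro x hx
      exact (Subgroup.mem_inf.mp hx).2
    rw [this, Subgroup.card_bot, pow_zero]
  | succ k ih =>
    rw [card_eq_ker_mul_map (itHom b k), pow_succ]
    apply Nat.mul_le_mul
    · refine le_trans (Subgroup.card_le_of_le ?_) ih
      intro x hx
      obtain ⟨h1, h2⟩ := Subgroup.mem_inf.mp hx
      exact Subgroup.mem_inf.mpr ⟨(Subgroup.mem_inf.mp h2).1, h1⟩
    · apply Subgroup.card_le_of_le
      rintro _ ⟨x, hx, rfl⟩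
      obtain ⟨h1, h2⟩ := Subgroup.mem_inf.mp hx
      exact Subgroup.mem_inf.mpr ⟨itHom_mem b W hbW k x h1, h2⟩

/-- `(α - 1)^p = 0` on the elements of order dividing `p`, when `α^p = 1`. -/
theorem itHom_prime {V : Type*} [CommGroup V] {p : ℕ} (hp : p.Prime) (α : MulAut V)
    (hα : α ^ p = 1) (b : V →* V) (hb : ∀ v, b v = α v * v⁻¹) (w : V) (hw : w ^ p = 1) :
    itHom b p w = 1 := by
  let a' : AddMonoid.End (Additive V) := MonoidHom.toAdditive α.toMonoidHom
  let β' : AddMonoid.End (Additive V) := MonoidHom.toAdditive b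
  have ha' : a' = β' + 1 := by
    apply AddMonoidHom.ext
    intro x
    show Additive.ofMul (α (Additive.toMul x)) =
      Additive.ofMul (b (Additive.toMul x) * Additive.toMul x)
    rw [hb, inv_mul_cancel_right]
  have hapow : ∀ (k : ℕ) (x : Additive V),
      (a' ^ k) x = Additive.ofMul ((α ^ k) (Additive.toMul x)) := by
    intro k
    induction k with
    | zero => intro x; rfl
    | succ k ih =>
      intro x
      rw [pow_succ, pow_succ]
      show (a' ^ k) (a' x) = _
      rw [ih]
      rfl
  have hβpow : ∀ (k : ℕ) (x : Additive V),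
      (β' ^ k) x = Additive.ofMul (itHom b k (Additive.toMul x)) := by
    intro k
    induction k with
    | zero => intro x; rfl
    | succ k ih =>
      intro x
      rw [pow_succ']
      show β' ((β' ^ k) x) = _
      rw [ih]
      rfl
  obtain ⟨r, hr⟩ := (Commute.one_right β').exists_add_pow_prime_eq hp
  rw [← ha', one_pow] at hr
  have h1 := congrArg (fun f : AddMonoid.End (Additive V) => f (Additive.ofMul w)) hr
  rw [hapow, hα] at h1
  have h2 : ((p : AddMonoid.End (Additive V)) * β' * 1 * r) (Additive.ofMul w) = 0 := by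
    show (p : AddMonoid.End (Additive V)) (β' (r (Additive.ofMul w))) = 0
    rw [AddMonoid.End.natCast_apply, ← map_nsmul, ← map_nsmul]
    have : p • Additive.ofMul w = 0 := by
      show Additive.ofMul (w ^ p) = 0
      rw [hw]; rfl
    rw [this, map_zero, map_zero]
  have h3 : (β' ^ p + 1 + (p : AddMonoid.End (Additive V)) * β' * 1 * r) (Additive.ofMul w) =
      (β' ^ p) (Additive.ofMul w) + Additive.ofMul w +
        ((p : AddMonoid.End (Additive V)) * β' * 1 * r) (Additive.ofMul w) := rfl
  rw [h3, h2, add_zero, hβpow] at h1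
  have h4 : Additive.ofMul w = Additive.ofMul (itHom b p w) + Additive.ofMul w := h1
  have h5 : Additive.ofMul (itHom b p w) = 0 := by
    have := h4.symm
    rwa [add_eq_right] at this
  exact h5

/-- a group of order `p^d` is generated by `d` elements. -/
theorem gen_of_card {U : Type*} [Group U] [Finite U] {p : ℕ} (hp : p.Prime) {d : ℕ}
    (hU : Nat.card U = p ^ d) : ∃ S : Finset U, S.card ≤ d ∧ Subgroup.closure (S : Set U) = ⊤ := by
  classical
  have hpow : ∀ H : Subgroup U, ∃ a, Nat.card H = p ^ a := by
    intro H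
    obtain ⟨a, _, ha⟩ := (Nat.dvd_prime_pow hp).mp (hU ▸ Subgroup.card_subgroup_dvd_card H)
    exact ⟨a, ha⟩
  have claim : ∀ k, ∃ S : Finset U, S.card ≤ k ∧
      (Subgroup.closure (S : Set U) = ⊤ ∨ p ^ k ≤ Nat.card (Subgroup.closure (S : Set U))) := by
    intro k
    induction k with
    | zero => exact ⟨∅, by simp, Or.inr (by rw [pow_zero]; exact Nat.card_pos)⟩
    | succ k ih =>
      obtain ⟨S, hS, h⟩ := ih
      rcases h with h | h
      · exact ⟨S, hS.trans (Nat.le_succ k), Or.inl h⟩
      · by_cases htop : Subgroup.closure (S : Set U) = ⊤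
        · exact ⟨S, hS.trans (Nat.le_succ k), Or.inl htop⟩
        · obtain ⟨x, hx⟩ : ∃ x, x ∉ Subgroup.closure (S : Set U) := by
            by_contra hcon
            push Not at hcon
            exact htop (eq_top_iff.mpr fun x _ => hcon x)
          refine ⟨insert x S, (Finset.card_insert_le x S).trans (by omega), Or.inr ?_⟩
          have hle : Subgroup.closure (S : Set U) ≤ Subgroup.closure ((insert x S : Finset U) : Set U) :=
            Subgroup.closure_mono (by simp)
          have hxin : x ∈ Subgroup.closure ((insert x S : Finset U) : Set U) :=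
            Subgroup.subset_closure (by simp)
          obtain ⟨a, ha⟩ := hpow (Subgroup.closure (S : Set U))
          obtain ⟨b, hb⟩ := hpow (Subgroup.closure ((insert x S : Finset U) : Set U))
          have hlt : p ^ a < p ^ b := by
            rw [← ha, ← hb]
            by_contra hcon
            have := Subgroup.eq_of_le_of_card_ge hle (not_lt.mp hcon)
            exact hx (this ▸ hxin)
          have hab : a < b := (Nat.pow_lt_pow_iff_right hp.one_lt).mp hlt
          have hka : k ≤ a := by
            rw [ha] at h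
            exact (Nat.pow_le_pow_iff_right hp.one_lt).mp h
          rw [hb]
          exact Nat.pow_le_pow_right hp.pos (by omega)
  obtain ⟨S, hS, h⟩ := claim d
  refine ⟨S, hS, ?_⟩
  rcases h with h | h
  · exact h
  · apply Subgroup.eq_top_of_card_eq
    apply le_antisymm (Subgroup.card_le_card_group _)
    rw [hU]; exact h

/-- Let V be a finite abelian p-group and α an automorphism of V of order p whose fixed-point subgroup has order p^n. Then V can be generated by pn elements: some subset of V with at most pn elements generates V. -/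
theorem result {V : Type*} [CommGroup V] [Finite V] {p : ℕ} [Fact p.Prime] (hV : IsPGroup p V) (α : MulAut V) (hα : orderOf α = p) (n : ℕ) (hfix : Nat.card {v : V // α v = v} = p ^ n) : ∃ S : Finset V, S.card ≤ p * n ∧ Subgroup.closure (S : Set V) = ⊤ := by
  classical
  have hp : p.Prime := Fact.out
  have hαp : α ^ p = 1 := hα ▸ pow_orderOf_eq_one α
  let b : V →* V :=
    { toFun := fun v => α v * v⁻¹
      map_one' := by simp
      map_mul' := by
        intro x y
        rw [map_mul, mul_inv]
        exact mul_mul_mul_comm _ _ _ _ }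
  have hb : ∀ v, b v = α v * v⁻¹ := fun v => rfl
  let W : Subgroup V := (powMonoidHom p : V →* V).ker
  have hWmem : ∀ v, v ∈ W ↔ v ^ p = 1 := fun v => Iff.rfl
  have hbW : ∀ w ∈ W, b w ∈ W := by
    intro w hw
    rw [hWmem] at hw ⊢
    rw [hb, mul_pow, inv_pow, ← map_pow, hw, map_one, inv_one, mul_one]
  have hK : W ⊓ (itHom b p).ker = W := by
    rw [inf_eq_left]
    intro w hw
    exact itHom_prime hp α hαp b hb w ((hWmem w).mp hw)
  have h1 := chain_card b W hbW p
  rw [hK] at h1
  have h2 : Nat.card ↥(W ⊓ b.ker) ≤ p ^ n := by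
    rw [← hfix]
    apply Nat.card_le_card_of_injective
      (fun x : ↥(W ⊓ b.ker) => (⟨(x : V), by
        have h3 : b (x : V) = 1 := (Subgroup.mem_inf.mp x.2).2
        rw [hb] at h3
        exact mul_inv_eq_one.mp h3⟩ : {v : V // α v = v}))
    intro x y hxy
    have h4 : (x : V) = (y : V) := congrArg (fun t : {v : V // α v = v} => (t : V)) hxy
    exact Subtype.ext h4
  have h3 : Nat.card W ≤ p ^ (p * n) := by
    refine h1.trans ((Nat.pow_le_pow_left h2 p).trans ?_)
    rw [← pow_mul, mul_comm]
  obtain ⟨d, hd⟩ := IsPGroup.iff_card.mp (hV.to_subgroup W)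
  have hdn : d ≤ p * n := by
    rw [hd] at h3
    exact (Nat.pow_le_pow_iff_right hp.one_lt).mp h3
  let R : Subgroup V := (powMonoidHom p : V →* V).range
  have hidx : R.index = Nat.card W := by
    have e1 : Nat.card W * Nat.card R = Nat.card V := by
      have := Subgroup.card_mul_index W
      rwa [Subgroup.index_ker] at this
    have e2 := Subgroup.card_mul_index R
    have hpos : 0 < Nat.card R := Nat.card_pos
    apply Nat.eq_of_mul_eq_mul_left hpos
    rw [e2, ← e1, mul_comm]
  have hU : Nat.card (V ⧸ R) = p ^ d := by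
    rw [← Subgroup.index_eq_card, hidx, hd]
  obtain ⟨S', hS', hgen⟩ := gen_of_card hp hU
  refine ⟨S'.image Quotient.out, (Finset.card_image_le).trans (hS'.trans hdn), ?_⟩
  apply frattini_nongenerating
  rw [eq_top_iff]
  intro v _
  have hmap : (Subgroup.closure ((S'.image Quotient.out : Finset V) : Set V)).map
      (QuotientGroup.mk' R) = ⊤ := by
    rw [MonoidHom.map_closure, ← hgen]
    congr 1
    ext y
    simp only [Finset.coe_image, Set.mem_image, Finset.mem_coe]
    constructor
    · rintro ⟨_, ⟨s, hs, rfl⟩, rfl⟩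
      have : QuotientGroup.mk' R (Quotient.out s) = s := Quotient.out_eq s
      rw [this]; exact hs
    · intro hy
      exact ⟨Quotient.out y, ⟨y, hy, rfl⟩, Quotient.out_eq y⟩
  have hv : QuotientGroup.mk' R v ∈ (Subgroup.closure
      ((S'.image Quotient.out : Finset V) : Set V)).map (QuotientGroup.mk' R) := by
    rw [hmap]; trivial
  obtain ⟨s, hs, hsv⟩ := hv
  have hsR : s⁻¹ * v ∈ R := by
    rw [← QuotientGroup.ker_mk' R, MonoidHom.mem_ker, map_mul, map_inv, hsv, inv_mul_cancel]
  have hRΦ : R ≤ frattini V := by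
    rintro _ ⟨x, rfl⟩
    exact Cfsg.Agent.Lib.Helper1.pgroup_pow_mem_frattini hV x
  have : v = s * (s⁻¹ * v) := by group
  rw [this]
  exact mul_mem (Subgroup.mem_sup_left hs) (Subgroup.mem_sup_right (hRΦ hsR))

end Cfsg.Agent.S3780
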