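import Cfsg.Statements.S3781
-- import your own Cfsg.Agent.* helpers here
import Cfsg.Agent.Lib.Helper1.ThreeSub
import Cfsg.Agent.Lib.Helper1.Coprime

set_option autoImplicit false
open Cfsg

namespace Cfsg.Agent.S3781


theorem relIndex_mul_card' {G : Type*} [Group G] {H K : Subgroup G} (h : H ≤ K) :
    H.relIndex K * Nat.card H = Nat.card K := by
  have := Subgroup.relIndex_mul_relIndex ⊥ H K bot_le h
  rw [Subgroup.relIndex_bot_left, Subgroup.relIndex_bot_left] at this
  rw [mul_comm]; exact this

/-- iterated commutator with the whole group -/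
def it {G : Type*} [Group G] (K : Subgroup G) : ℕ → Subgroup G
  | 0 => K
  | j + 1 => ⁅it K j, ⊤⁆

theorem it_normal {G : Type*} [Group G] (K : Subgroup G) [hK : K.Normal] (j : ℕ) :
    (it K j).Normal := by
  induction j with
  | zero => exact hK
  | succ j ih =>
    change (⁅it K j, ⊤⁆ : Subgroup G).Normal
    infer_instance

theorem it_shift {G : Type*} [Group G] (K : Subgroup G) (j : ℕ) :
    it ⁅K, ⊤⁆ j = it K (j + 1) := by
  induction j with
  | zero => rfl
  | succ j ih =>
    change ⁅it ⁅K, ⊤⁆ j, ⊤⁆ = ⁅it K (j + 1), ⊤⁆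
    rw [ih]

theorem comm_lcs_le {G : Type*} [Group G] (m : ℕ) : ∀ (K : Subgroup G) [K.Normal],
    ⁅K, (⊤ : Subgroup G).lowerCentralSeries m⁆ ≤ it K (m + 1) := by
  induction m with
  | zero => intro K _; exact le_rfl
  | succ m ih =>
    intro K hK
    rw [Subgroup.lowerCentralSeries_succ, Subgroup.commutator_comm]
    have hn : (it K (m + 2)).Normal := it_normal K _
    apply Cfsg.Agent.Lib.Helper1.commutator_commutator_le_of_rotate
    · rw [Subgroup.commutator_comm ⊤ K]
      have := ih ⁅K, ⊤⁆
      rwa [it_shift] at this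
    · exact Subgroup.commutator_mono (ih K) le_rfl

theorem card_it {G : Type*} [Group G] [Finite G] {p : ℕ} [Fact p.Prime] (hG : IsPGroup p G)
    (K : Subgroup G) [K.Normal] (m : ℕ) (hne : it K m ≠ ⊥) :
    p ^ m * Nat.card (it K m) ≤ Nat.card K := by
  induction m with
  | zero => simp [it]
  | succ m ih =>
    have hne' : it K m ≠ ⊥ := by
      intro h
      apply hne
      change ⁅it K m, ⊤⁆ = ⊥
      rw [h, Subgroup.commutator_bot_left]
    have hn : (it K m).Normal := it_normal K m
    have hlt : it K (m + 1) < it K m :=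
      Cfsg.Agent.Lib.Helper1.commutator_lt_of_isPGroup (hG.to_subgroup _) (hG.to_subgroup _)
        (by rw [Subgroup.normalizer_eq_top]) hne'
    have h1 := relIndex_mul_card' hlt.le
    have h2 : p ≤ (it K (m + 1)).relIndex (it K m) := by
      obtain ⟨k, hk⟩ := (hG.to_subgroup (it K m)).index ((it K (m + 1)).subgroupOf (it K m))
      have hk' : (it K (m + 1)).relIndex (it K m) = p ^ k := hk
      rw [hk']
      rcases Nat.eq_zero_or_pos k with rfl | hkpos
      · exfalso
        rw [pow_zero, Subgroup.relIndex_eq_one] at hk'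
        exact absurd hk' (not_le_of_gt hlt)
      · calc p = p ^ 1 := (pow_one p).symm
          _ ≤ p ^ k := Nat.pow_le_pow_right (Fact.out : p.Prime).pos hkpos
    calc p ^ (m + 1) * Nat.card (it K (m + 1)) = p ^ m * (p * Nat.card (it K (m + 1))) := by ring
      _ ≤ p ^ m * ((it K (m + 1)).relIndex (it K m) * Nat.card (it K (m + 1))) := by gcongr
      _ = p ^ m * Nat.card (it K m) := by rw [h1]
      _ ≤ Nat.card K := ih hne'

theorem lcs_normal {G : Type*} [Group G] (N : Subgroup G) [hN : N.Normal] (j : ℕ) :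
    (N.lowerCentralSeries j).Normal := by
  induction j with
  | zero => exact hN
  | succ j ih =>
    rw [Subgroup.lowerCentralSeries_succ]
    infer_instance

/-- Let G be a finite p-group and n ≥ 1, and write γ_1(G) = G, γ_{k+1}(G) = [γ_k(G), G], and likewise γ_k(N) for a subgroup N. Let N be a normal subgroup of G contained in γ_n(G). If i > 1 and γ_{i+1}(N) ≠ 1, then |γ_i(N) : γ_{i+1}(N)| ≥ p^n. -/
theorem result {G : Type*} [Group G] [Finite G] {p : ℕ} [Fact p.Prime] (hG : IsPGroup p G) (n : ℕ) (hn : 1 ≤ n) (N : Subgroup G) [N.Normal] (hN : N ≤ (⊤ : Subgroup G).lowerCentralSeries (n - 1)) (i : ℕ) (hi : 1 < i) (hne : N.lowerCentralSeries i ≠ ⊥) : p ^ n ≤ (N.lowerCentralSeries i).relIndex (N.lowerCentralSeries (i - 1)) := by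
  obtain ⟨i', rfl⟩ : ∃ i', i = i' + 1 := ⟨i - 1, by omega⟩
  obtain ⟨n', rfl⟩ : ∃ n', n = n' + 1 := ⟨n - 1, by omega⟩
  simp only [Nat.add_sub_cancel] at hN ⊢
  have hKn : (N.lowerCentralSeries i').Normal := lcs_normal N i'
  have hle : N.lowerCentralSeries (i' + 1) ≤ it (N.lowerCentralSeries i') (n' + 1) := by
    rw [Subgroup.lowerCentralSeries_succ]
    exact (Subgroup.commutator_mono le_rfl hN).trans (comm_lcs_le n' _)
  have hne' : it (N.lowerCentralSeries i') (n' + 1) ≠ ⊥ := by
    intro h
    apply hne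
    rw [eq_bot_iff, ← h]; exact hle
  have h1 := card_it hG (N.lowerCentralSeries i') (n' + 1) hne'
  have h2 := relIndex_mul_card' (N.lowerCentralSeries_antitone (Nat.le_succ i'))
  have h3 := Subgroup.card_le_of_le hle
  have hpos : 0 < Nat.card (it (N.lowerCentralSeries i') (n' + 1)) := Nat.card_pos
  have h4 : p ^ (n' + 1) * Nat.card (it (N.lowerCentralSeries i') (n' + 1)) ≤
      (N.lowerCentralSeries (i' + 1)).relIndex (N.lowerCentralSeries i') *
        Nat.card (it (N.lowerCentralSeries i') (n' + 1)) := by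
    calc _ ≤ Nat.card (N.lowerCentralSeries i') := h1
      _ = _ := h2.symm
      _ ≤ _ := by gcongr
  exact Nat.le_of_mul_le_mul_right h4 hpos

end Cfsg.Agent.S3781
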