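import Cfsg.Statements.S3784
-- import your own Cfsg.Agent.* helpers here
import Mathlib
import Cfsg.Agent.Lib.Helper29.Zsig

set_option autoImplicit false
open Cfsg

namespace Cfsg.Agent.S3784

/-- Let p, q be primes and a, b positive integers with p^a = q^b + 1. Then either p = 2, b = 1, a is prime and q = 2^a − 1; or q = 2, a = 1, b is a power of 2 and p = 2^b + 1; or p^a = 9 and q^b = 8. -/
theorem result (p q a b : ℕ) (hp : p.Prime) (hq : q.Prime) (ha : 1 ≤ a) (hb : 1 ≤ b) (h : p ^ a = q ^ b + 1) : (p = 2 ∧ b = 1 ∧ a.Prime ∧ q + 1 = 2 ^ a) ∨ (q = 2 ∧ a = 1 ∧ (∃ m : ℕ, b = 2 ^ m) ∧ p = 2 ^ b + 1) ∨ (p ^ a = 9 ∧ q ^ b = 8) := by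
  have hq2 := hq.two_le
  have hp2 := hp.two_le
  rcases hp.eq_two_or_odd' with rfl | hpodd
  · -- p = 2
    left
    have hqodd : Odd q := by
      rcases hq.eq_two_or_odd' with rfl | h'
      · exfalso
        have h1 : Even (2 ^ a) := (Nat.even_pow.2 ⟨even_two, by omega⟩)
        have h2 : Even (2 ^ b) := (Nat.even_pow.2 ⟨even_two, by omega⟩)
        rw [h] at h1
        exact (Nat.even_add_one.1 h1) h2
      · exact h'
    have hb1 : b = 1 := by
      by_contra hne
      obtain ⟨r, hr, hr1, hr2⟩ := Cfsg.Agent.Lib.Helper29.Zsig.zsigmondy q (2 * b) (by omega)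
        (by omega) (by rintro ⟨rfl, -⟩; exact absurd hqodd (by decide)) (by rintro ⟨h', -⟩; omega)
      have e1 : q ^ (2 * b) - 1 = (q ^ b - 1) * (q ^ b + 1) := by
        have : 1 ≤ q ^ b := Nat.one_le_pow _ _ (by omega)
        obtain ⟨c, hc⟩ : ∃ c, q ^ b = c + 1 := ⟨q ^ b - 1, by omega⟩
        rw [mul_comm 2 b, pow_mul, hc]
        have : (c + 1) ^ 2 = c * (c + 1 + 1) + 1 := by ring
        rw [this]
        simp
      rw [e1] at hr1
      rcases (Nat.Prime.dvd_mul hr).1 hr1 with h' | h'
      · exact hr2 b (by omega) (by omega) h'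
      · rw [← h] at h'
        have hr2' : r = 2 := (Nat.prime_dvd_prime_iff_eq hr Nat.prime_two).1 (hr.dvd_of_dvd_pow h')
        apply hr2 1 (by omega) (by omega)
        rw [hr2', pow_one]
        obtain ⟨m, hm⟩ := hqodd
        exact ⟨m, by omega⟩
    subst hb1
    rw [pow_one] at h
    refine ⟨rfl, rfl, ?_, h.symm⟩
    have ha1 : a ≠ 1 := by
      rintro rfl
      omega
    have hP : (2 ^ a - 1).Prime := by
      have : 2 ^ a - 1 = q := by omega
      rw [this]; exact hq
    exact (Nat.prime_of_pow_sub_one_prime ha1 hP).2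
  · -- p odd, so q = 2
    right
    have hq' : q = 2 := by
      rcases hq.eq_two_or_odd' with rfl | h'
      · rfl
      · exfalso
        have h1 : Odd (p ^ a) := hpodd.pow
        have h2 : Odd (q ^ b) := h'.pow
        rw [h] at h1
        exact (Nat.not_even_iff_odd.2 h1) (h2.add_one)
    subst hq'
    by_cases ha1 : a = 1
    · left
      subst ha1
      rw [pow_one] at h
      refine ⟨rfl, rfl, ?_, h⟩
      exact Nat.pow_of_pow_add_prime (by norm_num) (by omega) (h ▸ hp)
    · right
      have hsub : p ^ a - 1 = 2 ^ b := by rw [h]; simp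
      by_cases hex : a = 2 ∧ ∃ m : ℕ, p + 1 = 2 ^ m
      · obtain ⟨rfl, m, hm⟩ := hex
        have e1 : (p - 1) * (p + 1) = 2 ^ b := by
          rw [← hsub]
          obtain ⟨c, rfl⟩ : ∃ c, p = c + 1 := ⟨p - 1, by omega⟩
          have : (c + 1) ^ 2 = c * (c + 1 + 1) + 1 := by ring
          rw [this]
          simp
        obtain ⟨l, -, hl⟩ := (Nat.dvd_prime_pow Nat.prime_two).1 (Dvd.intro _ e1)
        have hlm : 2 ^ l + 2 = 2 ^ m := by omega
        have hl1 : l = 1 := by
          rcases l with _ | _ | l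
          · exfalso
            rcases m with _ | m
            · simp at hlm
            · rw [pow_succ] at hlm; omega
          · rfl
          · exfalso
            rcases m with _ | _ | m
            · simp at hlm
            · simp at hlm
            · rw [pow_succ, pow_succ] at hlm
              rw [pow_succ 2 (m + 1), pow_succ 2 m] at hlm
              omega
        rw [hl1] at hl
        have hp3 : p = 3 := by omega
        subst hp3
        constructor
        · norm_num
        · omega
      · exfalso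
        obtain ⟨r, hr, hr1, hr2⟩ := Cfsg.Agent.Lib.Helper29.Zsig.zsigmondy p a (by omega)
          (by omega) (by rintro ⟨rfl, -⟩; exact absurd hpodd (by decide)) hex
        rw [hsub] at hr1
        have hr2' : r = 2 := (Nat.prime_dvd_prime_iff_eq hr Nat.prime_two).1 (hr.dvd_of_dvd_pow hr1)
        apply hr2 1 (by omega) (by omega)
        rw [hr2', pow_one]
        obtain ⟨m, hm⟩ := hpodd
        exact ⟨m, by omega⟩

end Cfsg.Agent.S3784
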