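import Cfsg.Statements.S3785
-- import your own Cfsg.Agent.* helpers here
import Cfsg.Agent.S3766
import Cfsg.Agent.S0120
import Cfsg.Agent.Lib.Helper1.Coprime
import Cfsg.Agent.Lib.Helper1.Fitting

set_option autoImplicit false
open Cfsg

namespace Cfsg.Agent.S3785

open scoped commutatorElement
open Cfsg.Agent.S3766 (iter iter_normal iter_bot_of_le nilp_of_stab)

variable {G : Type*} [Group G]

theorem iter_succ' (D R : Subgroup G) : ∀ k, iter D R (k + 1) = iter D ⁅R, D⁆ k
  | 0 => rfl
  | k + 1 => by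
    show ⁅iter D R (k + 1), D⁆ = ⁅iter D ⁅R, D⁆ k, D⁆
    rw [iter_succ' D R k]

theorem iter_bot (D : Subgroup G) : ∀ k, iter D ⊥ k = ⊥
  | 0 => rfl
  | k + 1 => by
    show ⁅iter D ⊥ k, D⁆ = ⊥
    rw [iter_bot D k, Subgroup.commutator_bot_left]

theorem iter_bot_card [Finite G] (D R₀ : Subgroup G) [D.Normal]
    (h : ∀ W : Subgroup G, W.Normal → W ≤ R₀ → W ≠ ⊥ → ⁅W, D⁆ < W) :
    ∀ (n : ℕ) (W : Subgroup G), W.Normal → W ≤ R₀ → Nat.card W ≤ n + 1 → iter D W n = ⊥ := by
  intro n
  induction n with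
  | zero =>
    intro W _ _ hc
    show W = ⊥
    have : Nat.card W = 1 := le_antisymm hc Nat.card_pos
    exact Subgroup.card_eq_one.mp this
  | succ n ih =>
    intro W hW hWR hc
    rw [iter_succ']
    by_cases hb : W = ⊥
    · rw [hb, Subgroup.commutator_bot_left, iter_bot]
    · have hlt := h W hW hWR hb
      have hcard : Nat.card ↥⁅W, D⁆ < Nat.card W := by
        by_contra hcon
        exact hlt.ne (Subgroup.eq_of_le_of_card_ge hlt.le (not_lt.mp hcon))
      exact ih _ inferInstance (hlt.le.trans hWR) (by omega)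

theorem commutator_iSup_le {ι : Sort*} (A : ι → Subgroup G) (D : Subgroup G) [D.Normal]
    (hA : ∀ i, (A i).Normal) : ⁅⨆ i, A i, D⁆ ≤ ⨆ i, ⁅A i, D⁆ := by
  have hS : (⨆ i, ⁅A i, D⁆).Normal := inferInstance
  rw [Subgroup.commutator_le]
  intro x hx
  refine Subgroup.iSup_induction A (C := fun x => ∀ d ∈ D, ⁅x, d⁆ ∈ ⨆ i, ⁅A i, D⁆) hx ?_ ?_ ?_
  · intro i x hx d hd
    exact (le_iSup (fun i => ⁅A i, D⁆) i) (Subgroup.commutator_mem_commutator hx hd)
  · intro d _
    simp
  · intro x y hx hy d hd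
    have e : ⁅x * y, d⁆ = (x * ⁅y, d⁆ * x⁻¹) * ⁅x, d⁆ := by
      simp only [commutatorElement_def]; group
    rw [e]
    exact mul_mem (hS.conj_mem _ (hy d hd) x) (hx d hd)

theorem iter_iSup_le {ι : Sort*} (A : ι → Subgroup G) (D : Subgroup G) [D.Normal]
    (hA : ∀ i, (A i).Normal) : ∀ k, iter D (⨆ i, A i) k ≤ ⨆ i, iter D (A i) k
  | 0 => le_rfl
  | k + 1 => by
    show ⁅iter D (⨆ i, A i) k, D⁆ ≤ ⨆ i, ⁅iter D (A i) k, D⁆
    exact (Subgroup.commutator_mono (iter_iSup_le A D hA k) le_rfl).trans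
      (commutator_iSup_le _ D (fun i => by have := hA i; exact iter_normal D (A i) k))

/-- Let G be a finite solvable group whose Fitting subgroup F(G) has odd order. If an element g of G commutes with every element of prime order of F(G), then g ∈ F(G). -/
theorem result {G : Type*} [Group G] [Finite G] (hG : Group.IsSolvable G) (hodd : Odd (Nat.card (Cfsg.fittingSubgroup G))) (g : G) (hg : ∀ x ∈ Cfsg.fittingSubgroup G, (orderOf x).Prime → g * x = x * g) : g ∈ Cfsg.fittingSubgroup G := by
  classical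
  have hFn : (Cfsg.fittingSubgroup G).Normal := Cfsg.Agent.Lib.Helper1.fitting_normal
  let Ω : Set G := {x | x ∈ Cfsg.fittingSubgroup G ∧ (orderOf x).Prime}
  let C : Subgroup G := Subgroup.centralizer Ω
  have hCn : C.Normal := by
    constructor
    intro c hc x
    rw [Subgroup.mem_centralizer_iff] at hc ⊢
    intro y hy
    have ho : orderOf (x⁻¹ * y * x⁻¹⁻¹) = orderOf y := (MulAut.conj x⁻¹).orderOf_eq y
    have hy' : x⁻¹ * y * x⁻¹⁻¹ ∈ Ω := ⟨hFn.conj_mem _ hy.1 _, by rw [ho]; exact hy.2⟩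
    have := hc _ hy'
    calc y * (x * c * x⁻¹) = x * ((x⁻¹ * y * x⁻¹⁻¹) * c) * x⁻¹ := by group
      _ = x * (c * (x⁻¹ * y * x⁻¹⁻¹)) * x⁻¹ := by rw [this]
      _ = _ := by group
  have hgC : g ∈ C := by
    rw [Subgroup.mem_centralizer_iff]
    intro x hx
    exact (hg x hx.1 hx.2).symm
  have key : ∀ p : Nat.Primes, iter C (Cfsg.pCore (p : ℕ) G) (Nat.card G) = ⊥ := by
    rintro ⟨p, hp⟩
    have : Fact p.Prime := ⟨hp⟩
    show iter C (Cfsg.pCore p G) (Nat.card G) = ⊥
    obtain ⟨R, hR⟩ : ∃ R, R = Cfsg.pCore p G := ⟨_, rfl⟩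
    rw [← hR]
    have hRn : R.Normal := hR ▸ Cfsg.Agent.Lib.Helper1.pCore_normal p
    have hRp : IsPGroup p R := hR ▸ Cfsg.Agent.Lib.Helper1.pCore_isPGroup p
    have hRF : R ≤ Cfsg.fittingSubgroup G := Cfsg.Agent.Lib.Helper1.le_fitting hRn hRp.isNilpotent
    by_cases hp2 : p = 2
    · have hRb : R = ⊥ := by
        obtain ⟨n, hn⟩ := IsPGroup.iff_card.mp hRp
        rcases Nat.eq_zero_or_pos n with h0 | h0
        · rw [h0, pow_zero] at hn
          exact Subgroup.card_eq_one.mp hn
        · exfalso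
          have h2 : 2 ∣ Nat.card R := by
            rw [hn, hp2]; exact dvd_pow_self 2 h0.ne'
          have h3 : 2 ∣ Nat.card (Cfsg.fittingSubgroup G) :=
            h2.trans (Subgroup.card_dvd_of_le hRF)
          exact hodd.not_two_dvd_nat h3
      rw [hRb, iter_bot]
    · have hp' : ∀ c ∈ C, (orderOf c).Coprime p → c ∈ Subgroup.centralizer (R : Set G) := by
        intro c hc hco
        let a : MulAut ↥R := MulAut.conjNormal c
        have ha : (orderOf a).Coprime p :=
          Nat.Coprime.coprime_dvd_left (orderOf_map_dvd MulAut.conjNormal c) hco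
        have h1 : a = 1 := by
          apply Cfsg.Agent.S0120.result hp2 hRp a ha
          intro x hx
          by_cases hx1 : x = 1
          · rw [hx1, map_one]
          · have hox : orderOf x = p := orderOf_eq_prime hx hx1
            have hxΩ : (x : G) ∈ Ω := ⟨hRF x.2, by rw [Subgroup.orderOf_coe, hox]; exact hp⟩
            have hcx := (Subgroup.mem_centralizer_iff.mp hc) _ hxΩ
            apply Subtype.ext
            show c * (x : G) * c⁻¹ = x
            rw [← hcx]; group
        rw [Subgroup.mem_centralizer_iff]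
        intro h hh
        have h2 : a ⟨h, hh⟩ = ⟨h, hh⟩ := by rw [h1]; rfl
        have h3 : c * h * c⁻¹ = h := congrArg Subtype.val h2
        calc h * c = (c * h * c⁻¹) * c := by rw [h3]
          _ = c * h := by group
      let Z₀ : Subgroup G := C ⊓ Subgroup.centralizer (R : Set G)
      have hZn : Z₀.Normal := inferInstance
      have hpow : ∀ c ∈ C, ∃ k : ℕ, c ^ (p ^ k) ∈ Z₀ := by
        intro c hc
        obtain ⟨k, m, hm, hkm⟩ := Nat.exists_eq_pow_mul_and_not_dvd (orderOf_pos c).ne' p hp.ne_one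
        refine ⟨k, Subgroup.mem_inf.mpr ⟨pow_mem hc _, hp' _ (pow_mem hc _) ?_⟩⟩
        rw [orderOf_pow_of_dvd (pow_ne_zero _ hp.ne_zero) (Dvd.intro _ hkm.symm), hkm,
          Nat.mul_div_cancel_left _ (pow_pos hp.pos _)]
        exact ((Nat.Prime.coprime_iff_not_dvd hp).mpr hm).symm
      let P : Sylow p ↥C := default
      let T : Subgroup G := (P : Subgroup ↥C).map C.subtype
      have hT : IsPGroup p T := P.2.map _
      have hTidx : ¬ p ∣ T.relIndex C := by
        have : T.subgroupOf C = (P : Subgroup ↥C) :=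
          Subgroup.comap_map_eq_self_of_injective C.subtype_injective _
        rw [Subgroup.relIndex, this]
        exact P.not_dvd_index
      have hZidx : ∃ n, Z₀.relIndex C = p ^ n := by
        have hq : IsPGroup p (↥C ⧸ Z₀.subgroupOf C) := by
          intro x
          induction x using QuotientGroup.induction_on with
          | H c =>
            obtain ⟨k, hk⟩ := hpow c c.2
            refine ⟨k, ?_⟩
            rw [← QuotientGroup.mk_pow, QuotientGroup.eq_one_iff]
            exact hk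
        exact IsPGroup.iff_card.mp hq
      have hCM : C ≤ T ⊔ Z₀ := by
        rw [← Subgroup.relIndex_eq_one]
        obtain ⟨n, hn⟩ := hZidx
        have d1 : (T ⊔ Z₀).relIndex C ∣ p ^ n := hn ▸ Subgroup.relIndex_dvd_of_le_left C le_sup_right
        have d2 : (T ⊔ Z₀).relIndex C ∣ T.relIndex C := Subgroup.relIndex_dvd_of_le_left C le_sup_left
        obtain ⟨j, _, hj⟩ := (Nat.dvd_prime_pow hp).mp d1
        rcases Nat.eq_zero_or_pos j with h0 | h0
        · rw [hj, h0, pow_zero]
        · exfalso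
          apply hTidx
          exact (hj ▸ dvd_pow_self p h0.ne' : p ∣ (T ⊔ Z₀).relIndex C).trans d2
      have hW : ∀ W : Subgroup G, W.Normal → W ≤ R → W ≠ ⊥ → ⁅W, C⁆ < W := by
        intro W hWn hWR hWb
        have h1 : ⁅W, C⁆ ≤ ⁅W, T⁆ := by
          rw [Subgroup.commutator_le]
          intro w hw c hc
          obtain ⟨t, ht, z, hz, rfl⟩ := Subgroup.mem_sup_of_normal_right.mp (hCM hc)
          have hzw : ⁅w, z⁆ = 1 := by
            rw [commutatorElement_eq_one_iff_mul_comm]
            exact (Subgroup.mem_centralizer_iff.mp (Subgroup.mem_inf.mp hz).2) w (hWR hw)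
          have e : ⁅w, t * z⁆ = ⁅w, t⁆ * (t * ⁅w, z⁆ * t⁻¹) := by
            simp only [commutatorElement_def]; group
          rw [e, hzw, mul_one, mul_inv_cancel, mul_one]
          exact Subgroup.commutator_mem_commutator hw ht
        refine lt_of_le_of_lt h1 (Cfsg.Agent.Lib.Helper1.commutator_lt_of_isPGroup
          (hRp.to_le hWR) hT ?_ hWb)
        rw [Subgroup.normalizer_eq_top]
        exact le_top
      exact iter_bot_card C R hW (Nat.card G) R hRn le_rfl
        ((Subgroup.card_le_card_group R).trans (Nat.le_succ _))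
  have hk : iter C (Cfsg.fittingSubgroup G) (Nat.card G) = ⊥ := by
    rw [eq_bot_iff, Cfsg.Agent.Lib.Helper1.fitting_eq_iSup_pCore]
    refine (iter_iSup_le _ C (fun p => Cfsg.Agent.Lib.Helper1.pCore_normal _) _).trans ?_
    apply iSup_le
    intro p
    rw [key p]
  have hCnil := nilp_of_stab C (Cfsg.fittingSubgroup G)
    (inf_le_right.trans Cfsg.Agent.Lib.Helper1.centralizer_fitting_le) hk
  exact Cfsg.Agent.Lib.Helper1.le_fitting hCn hCnil hgC

end Cfsg.Agent.S3785
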