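import Cfsg.Statements.S3790
-- import your own Cfsg.Agent.* helpers here
import Cfsg.Agent.Lib.Helper20.PLen

set_option autoImplicit false
open Cfsg

namespace Cfsg.Agent.S3790

open Cfsg.Agent.Lib.Helper20 Cfsg.Agent.Lib.Helper5

theorem plen_one_of_card {G : Type*} [Group G] [Finite G] {p : ℕ} [Fact p.Prime] {m : ℕ}
    (h : Nat.card G = p ^ m) : Cfsg.PLengthLE p 1 G := by
  have h1 : Reach p 1 (⊥ : Subgroup G) := Reach.zero.succ
  have h2 : Reach p 2 (⊤ : Subgroup G) := by
    refine Reach.step h1 bot_le inferInstance ?_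
    rw [Subgroup.relIndex_bot_left, Subgroup.card_top]
    exact ⟨fun h' => absurd h' (by decide), fun _ => ⟨m, h⟩⟩
  exact top_le_iff.mp h2.succ.le_ups

theorem plen_step {G : Type*} [Group G] [Finite G] {p : ℕ} [Fact p.Prime] (A B : Subgroup G)
    (hAB : A ≤ B) [A.Normal] {a b : ℕ} (hA : Cfsg.PLengthLE p a ↥A)
    (hQ : Cfsg.PLengthLE p b (↥B ⧸ A.subgroupOf B)) : Cfsg.PLengthLE p (a + b) ↥B := by
  apply plen_add (A.subgroupOf B) _ hQ
  exact plen_of_surjective (Subgroup.subgroupOfEquivOfLe hAB).symm.toMonoidHom
    (Subgroup.subgroupOfEquivOfLe hAB).symm.surjective hA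

theorem aux.{u} (p : ℕ) [Fact p.Prime] : ∀ (r : ℕ) (G : Type u) [Group G] [Finite G]
    (q : Fin r → ℕ), (∀ i, (q i).Prime ∧ q i ≠ p) →
    (∀ s : ℕ, s.Prime → s ∣ Nat.card G → s ≠ p → ∃ i, q i = s) →
    ∀ (l : Fin r → ℕ), (∀ i, Cfsg.PLengthLE (q i) (l i) G) →
    Cfsg.PLengthLE p (Finset.univ.prod fun i => 1 + l i) G := by
  intro r
  induction r with
  | zero =>
    intro G _ _ q _ hcover l _
    have hcard : Nat.card G = p ^ (Nat.card G).primeFactorsList.length := by
      apply Nat.eq_prime_pow_of_unique_prime_dvd Nat.card_pos.ne'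
      intro s hs hdvd
      by_contra hne
      obtain ⟨i, _⟩ := hcover s hs hdvd hne
      exact i.elim0
    simpa using plen_one_of_card hcard
  | succ r ih =>
    intro G _ _ q hq hcover l hl
    rw [Fin.prod_univ_castSucc]
    obtain ⟨c, hc⟩ : ∃ c, c = Finset.univ.prod fun i : Fin r => 1 + l i.castSucc := ⟨_, rfl⟩
    rw [← hc]
    obtain ⟨t, ht⟩ : ∃ t, t = q (Fin.last r) := ⟨_, rfl⟩
    have htp : t.Prime := ht ▸ (hq _).1
    have htne : t ≠ p := ht ▸ (hq _).2
    have : Fact t.Prime := ⟨htp⟩
    have hp : p.Prime := Fact.out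
    have claim : ∀ n, Cfsg.PLengthLE p (c * ((n + 1) / 2)) ↥(Cfsg.upperPSeries t G n).1 := by
      intro n
      induction n with
      | zero =>
        apply plen_mono (Nat.zero_le _)
        apply plen_zero_of_coprime
        rw [upperPSeries_zero, Subgroup.card_bot]
        exact Nat.coprime_one_left p
      | succ n ihn =>
        have hstep := stepOK_ups (p := t) (G := G) n
        have hcardQ : Nat.card (↥(Cfsg.upperPSeries t G (n + 1)).1 ⧸
            (Cfsg.upperPSeries t G n).1.subgroupOf (Cfsg.upperPSeries t G (n + 1)).1) =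
            (Cfsg.upperPSeries t G n).1.relIndex (Cfsg.upperPSeries t G (n + 1)).1 :=
          (Subgroup.index_eq_card _).symm
        by_cases he : Even n
        · have hcop := hstep.1 he
          have hQ : Cfsg.PLengthLE p c (↥(Cfsg.upperPSeries t G (n + 1)).1 ⧸
              (Cfsg.upperPSeries t G n).1.subgroupOf (Cfsg.upperPSeries t G (n + 1)).1) := by
            rw [hc]
            apply ih _ (fun i => q i.castSucc) (fun i => hq _) _ (fun i => l i.castSucc)
            · intro i
              have : Fact (q i.castSucc).Prime := ⟨(hq _).1⟩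
              exact plen_of_surjective _ (QuotientGroup.mk'_surjective _)
                (plen_subgroup _ (hl i.castSucc))
            · intro s hs hdvd hne
              have hdvdG : s ∣ Nat.card G := by
                rw [hcardQ] at hdvd
                exact hdvd.trans ((Subgroup.relIndex_dvd_card _ _).trans
                  (Subgroup.card_subgroup_dvd_card _))
              obtain ⟨i, hi⟩ := hcover s hs hdvdG hne
              rcases Fin.eq_castSucc_or_eq_last i with ⟨j, rfl⟩ | rfl
              · exact ⟨j, hi⟩
              · exfalso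
                rw [hcardQ, ← hi, ← ht] at hdvd
                exact htp.one_lt.ne' (Nat.Coprime.eq_one_of_dvd hcop.symm hdvd)
          have := plen_step _ _ (ups_le_succ n) ihn hQ
          obtain ⟨k, rfl⟩ := he
          have e : c * ((k + k + 1) / 2) + c = c * ((k + k + 1 + 1) / 2) := by
            rw [show (k + k + 1) / 2 = k by omega, show (k + k + 1 + 1) / 2 = k + 1 by omega]
            ring
          rwa [e] at this
        · obtain ⟨m, hm⟩ := hstep.2 he
          have hQ : Cfsg.PLengthLE p 0 (↥(Cfsg.upperPSeries t G (n + 1)).1 ⧸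
              (Cfsg.upperPSeries t G n).1.subgroupOf (Cfsg.upperPSeries t G (n + 1)).1) := by
            apply plen_zero_of_coprime
            rw [hcardQ, hm]
            exact Nat.Coprime.pow_left m ((Nat.coprime_primes htp hp).mpr htne)
          have := plen_step _ _ (ups_le_succ n) ihn hQ
          obtain ⟨k, rfl⟩ := Nat.not_even_iff_odd.mp he
          have e : c * ((2 * k + 1 + 1) / 2) + 0 = c * ((2 * k + 1 + 1 + 1) / 2) := by
            rw [show (2 * k + 1 + 1) / 2 = k + 1 by omega,
              show (2 * k + 1 + 1 + 1) / 2 = k + 1 by omega]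
            ring
          rwa [e] at this
    have h1 := claim (2 * l (Fin.last r) + 1)
    have h2 : (Cfsg.upperPSeries t G (2 * l (Fin.last r) + 1)).1 = ⊤ := by
      rw [ht]; exact hl (Fin.last r)
    rw [show (2 * l (Fin.last r) + 1 + 1) / 2 = 1 + l (Fin.last r) by omega] at h1
    have h3 : Function.Surjective
        (Cfsg.upperPSeries t G (2 * l (Fin.last r) + 1)).1.subtype := by
      intro x
      exact ⟨⟨x, by rw [h2]; trivial⟩, rfl⟩
    exact plen_of_surjective _ h3 h1

/-- Let G be a finite solvable group and p a prime. Suppose p₁, …, p_r are distinct primes, all different from p, that include every prime dividing the order of G other than p, and that G has p_i-length at most l_i for each i. Then G has p-length at most the product of the numbers 1 + l_i. -/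
theorem result {G : Type*} [Group G] [Finite G] (hG : Group.IsSolvable G) (p : ℕ) [Fact p.Prime] (r : ℕ) (q : Fin r → ℕ) (hq : ∀ i, (q i).Prime ∧ q i ≠ p) (hinj : Function.Injective q) (hcover : ∀ s : ℕ, s.Prime → s ∣ Nat.card G → s ≠ p → ∃ i, q i = s) (l : Fin r → ℕ) (hl : ∀ i, Cfsg.PLengthLE (q i) (l i) G) : Cfsg.PLengthLE p (Finset.univ.prod fun i => 1 + l i) G := by
  exact aux p r G q hq hcover l hl

end Cfsg.Agent.S3790
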