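import Cfsg.Statements.S3791
-- import your own Cfsg.Agent.* helpers here
import Cfsg.Agent.Lib.Helper20.PLen
import Cfsg.Agent.Lib.Helper5.PCore

set_option autoImplicit false
open Cfsg

namespace Cfsg.Agent.S3791

open Cfsg.Agent.Lib.Helper20 Cfsg.Agent.Lib.Helper5

/-- derived series of a subgroup, inside the ambient group -/
def ds {G : Type*} [Group G] (H : Subgroup G) : ℕ → Subgroup G
  | 0 => H
  | n + 1 => ⁅ds H n, ds H n⁆

theorem ds_mono {G : Type*} [Group G] {H K : Subgroup G} (h : H ≤ K) : ∀ n, ds H n ≤ ds K n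
  | 0 => h
  | n + 1 => Subgroup.commutator_mono (ds_mono h n) (ds_mono h n)

theorem ds_map {G G' : Type*} [Group G] [Group G'] (f : G →* G') (H : Subgroup G) :
    ∀ n, (ds H n).map f = ds (H.map f) n
  | 0 => rfl
  | n + 1 => by
    show (⁅ds H n, ds H n⁆).map f = ⁅ds (H.map f) n, ds (H.map f) n⁆
    rw [Subgroup.map_commutator, ds_map f H n]

theorem ds_top {G : Type*} [Group G] : ∀ n, ds (⊤ : Subgroup G) n = derivedSeries G n
  | 0 => rfl
  | n + 1 => by
    show ⁅ds ⊤ n, ds ⊤ n⁆ = _
    rw [ds_top n, derivedSeries_succ]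

theorem ds_add {G : Type*} [Group G] (H : Subgroup G) (a : ℕ) : ∀ b, ds (ds H a) b = ds H (a + b)
  | 0 => rfl
  | b + 1 => by
    show ⁅ds (ds H a) b, ds (ds H a) b⁆ = ⁅ds H (a + b), ds H (a + b)⁆
    rw [ds_add H a b]

theorem ds_subtype {G : Type*} [Group G] (H : Subgroup G) (n : ℕ) :
    (derivedSeries ↥H n).map H.subtype = ds H n := by
  rw [← ds_top, ds_map, ← MonoidHom.range_eq_map, Subgroup.range_subtype]

theorem aux.{u} (r : ℕ) (q : Fin r → ℕ) (hq : ∀ i, (q i).Prime) (d : Fin r → ℕ) :
    ∀ (L : ℕ) (G : Type u) [Group G] [Finite G] (l : Fin r → ℕ), (Finset.univ.sum l = L) →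
      (∀ s : ℕ, s.Prime → s ∣ Nat.card G → ∃ i, q i = s) →
      (∀ i, ∃ S : Sylow (q i) G, ds (S : Subgroup G) (d i) = ⊥) →
      (∀ i, Cfsg.PLengthLE (q i) (l i) G) →
      derivedSeries G (Finset.univ.sum fun i => d i * l i) = ⊥ := by
  intro L
  induction L using Nat.strong_induction_on with
  | _ L ih =>
  intro G _ _ l hL hcover hd hl
  have key : ∀ i, derivedSeries G (Finset.univ.sum fun i => d i * l i) ≤
      Cfsg.pPrimeCore (q i) G := by
    intro i
    have : Fact (q i).Prime := ⟨hq i⟩
    rcases Nat.eq_zero_or_pos (l i) with h0 | h0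
    · have h1 : (Cfsg.upperPSeries (q i) G (2 * l i + 1)).1 = ⊤ := hl i
      rw [h0, show 2 * 0 + 1 = 1 from rfl, ups_one] at h1
      rw [h1]; exact le_top
    · obtain ⟨k, hk⟩ : ∃ k, l i = k + 1 := ⟨l i - 1, by omega⟩
      let l' : Fin r → ℕ := Function.update l i k
      have hl'i : l' i = k := Function.update_self i k l
      have hl'j : ∀ j, j ≠ i → l' j = l j := fun j hj => Function.update_of_ne hj k l
      have hl_eq : ∀ j, l j = l' j + if j = i then 1 else 0 := by
        intro j
        by_cases hj : j = i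
        · subst hj; rw [hl'i, hk]; simp
        · rw [hl'j j hj]; simp [hj]
      have hsum : (Finset.univ.sum fun j => d j * l j) =
          (Finset.univ.sum fun j => d j * l' j) + d i := by
        calc (Finset.univ.sum fun j => d j * l j)
            = Finset.univ.sum fun j => (d j * l' j + if j = i then d j else 0) := by
              apply Finset.sum_congr rfl
              intro j _
              rw [hl_eq j, mul_add]
              by_cases hj : j = i <;> simp [hj]
          _ = _ := by
              rw [Finset.sum_add_distrib, Finset.sum_ite_eq' Finset.univ i d]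
              simp
      have hlt : Finset.univ.sum l' < L := by
        rw [← hL]
        apply Finset.sum_lt_sum
        · intro j _
          show l' j ≤ l j
          rw [hl_eq j]; omega
        · refine ⟨i, Finset.mem_univ i, ?_⟩
          show l' i < l i
          rw [hl'i, hk]; omega
      have hs2 := QuotientGroup.mk'_surjective (Cfsg.upperPSeries (q i) G 2).1
      have hIH := ih _ hlt (G ⧸ (Cfsg.upperPSeries (q i) G 2).1) l' rfl
        (fun s hs hdvd => hcover s hs (hdvd.trans (Subgroup.card_quotient_dvd_card _)))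
        (fun j => by
          have : Fact (q j).Prime := ⟨hq j⟩
          obtain ⟨S, hS⟩ := hd j
          refine ⟨S.mapSurjective hs2, ?_⟩
          rw [Sylow.coe_mapSurjective, ← ds_map, hS, Subgroup.map_bot])
        (fun j => by
          have : Fact (q j).Prime := ⟨hq j⟩
          by_cases hj : j = i
          · subst hj
            rw [hl'i]
            exact plen_quot_two (hk ▸ hl j)
          · rw [hl'j j hj]
            exact plen_of_surjective _ hs2 (hl j))
      have h1 : ds (⊤ : Subgroup G) (Finset.univ.sum fun j => d j * l' j) ≤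
          (Cfsg.upperPSeries (q i) G 2).1 := by
        rw [← QuotientGroup.ker_mk' (Cfsg.upperPSeries (q i) G 2).1, ← Subgroup.map_eq_bot_iff,
          ds_map, ← MonoidHom.range_eq_map, MonoidHom.range_eq_top.mpr hs2, ds_top]
        exact hIH
      have hs1 := QuotientGroup.mk'_surjective (Cfsg.upperPSeries (q i) G 1).1
      obtain ⟨S, hS⟩ := hd i
      have h2 : ds (Cfsg.upperPSeries (q i) G 2).1 (d i) ≤ (Cfsg.upperPSeries (q i) G 1).1 := by
        rw [← QuotientGroup.ker_mk' (Cfsg.upperPSeries (q i) G 1).1, ← Subgroup.map_eq_bot_iff,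
          ds_map, eq_bot_iff]
        have h3 : (Cfsg.upperPSeries (q i) G 2).1.map
            (QuotientGroup.mk' (Cfsg.upperPSeries (q i) G 1).1) ≤
            (S : Subgroup G).map (QuotientGroup.mk' (Cfsg.upperPSeries (q i) G 1).1) := by
          rw [show (2 : ℕ) = 1 + 1 from rfl, upperPSeries_succ_odd 1 (by decide),
            Subgroup.map_comap_eq_self_of_surjective hs1, ← Sylow.coe_mapSurjective hs1 S]
          exact pCore_le_sylow _
        refine (ds_mono h3 (d i)).trans ?_
        rw [← ds_map, hS, Subgroup.map_bot]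
      rw [← ds_top, hsum, ← ds_add, ← ups_one]
      exact (ds_mono h1 (d i)).trans h2
  by_contra hne
  have hcard : Nat.card ↥(derivedSeries G (Finset.univ.sum fun i => d i * l i)) ≠ 1 :=
    fun h => hne (Subgroup.card_eq_one.mp h)
  obtain ⟨s, hs, hdvd⟩ := Nat.exists_prime_and_dvd hcard
  obtain ⟨i, hi⟩ := hcover s hs (hdvd.trans (Subgroup.card_subgroup_dvd_card _))
  have h1 : s ∣ Nat.card (Cfsg.pPrimeCore (q i) G) := hdvd.trans (Subgroup.card_dvd_of_le (key i))
  have h2 := Cfsg.Agent.Lib.Helper1.pPrimeCore_coprime (G := G) (q i)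
  subst hi
  exact hs.one_lt.ne' (Nat.Coprime.eq_one_of_dvd h2.symm h1)

/-- The Hall–Higman bound on derived length: let G be a finite solvable group, let p₁, …, p_r be distinct primes that include every prime dividing the order of G, and suppose that for each i the Sylow p_i-subgroups of G have derived length at most d_i and G has p_i-length at most l_i. Then G has derived length at most Σ d_i l_i. -/
theorem result {G : Type*} [Group G] [Finite G] (hG : Group.IsSolvable G) (r : ℕ) (q : Fin r → ℕ) (hq : ∀ i, (q i).Prime) (hinj : Function.Injective q) (hcover : ∀ s : ℕ, s.Prime → s ∣ Nat.card G → ∃ i, q i = s) (d l : Fin r → ℕ) (hd : ∀ i, ∀ P : Subgroup G, (haveI := Fact.mk (hq i); ∃ S : Sylow (q i) G, (S : Subgroup G) = P) → derivedSeries ↥P (d i) = ⊥) (hl : ∀ i, Cfsg.PLengthLE (q i) (l i) G) : derivedSeries G (Finset.univ.sum fun i => d i * l i) = ⊥ := by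
  apply aux r q hq d _ G l rfl hcover _ hl
  intro i
  have : Fact (q i).Prime := ⟨hq i⟩
  refine ⟨default, ?_⟩
  rw [← ds_subtype, hd i _ ⟨default, rfl⟩, Subgroup.map_bot]

end Cfsg.Agent.S3791
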