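import Cfsg.Statements.S3799
-- import your own Cfsg.Agent.* helpers here
import Mathlib
import Cfsg.Agent.Lib.Helper1.Frattini

set_option autoImplicit false
open Cfsg

namespace Cfsg.Agent.S3799


open scoped commutatorElement
open Matrix

/-- abstract Heisenberg group. -/
@[ext] structure HG (p n : ℕ) where
  a : Fin n → ZMod p
  b : Fin n → ZMod p
  c : ZMod p

namespace HG
variable {p n : ℕ}

instance : Mul (HG p n) := ⟨fun x y => ⟨x.a + y.a, x.b + y.b, x.c + y.c + x.a ⬝ᵥ y.b⟩⟩
instance : One (HG p n) := ⟨⟨0, 0, 0⟩⟩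
instance : Inv (HG p n) := ⟨fun x => ⟨-x.a, -x.b, -x.c + x.a ⬝ᵥ x.b⟩⟩

theorem mul_a (x y : HG p n) : (x * y).a = x.a + y.a := rfl
theorem mul_b (x y : HG p n) : (x * y).b = x.b + y.b := rfl
theorem mul_c (x y : HG p n) : (x * y).c = x.c + y.c + x.a ⬝ᵥ y.b := rfl
theorem one_a : (1 : HG p n).a = 0 := rfl
theorem one_b : (1 : HG p n).b = 0 := rfl
theorem one_c : (1 : HG p n).c = 0 := rfl
theorem inv_a (x : HG p n) : (x⁻¹).a = -x.a := rfl
theorem inv_b (x : HG p n) : (x⁻¹).b = -x.b := rfl
theorem inv_c (x : HG p n) : (x⁻¹).c = -x.c + x.a ⬝ᵥ x.b := rfl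

instance : Group (HG p n) where
  mul_assoc x y z := by
    apply HG.ext
    · simp only [mul_a, add_assoc]
    · simp only [mul_b, add_assoc]
    · simp only [mul_c, mul_a, mul_b, add_dotProduct, dotProduct_add]; ring
  one_mul x := by
    apply HG.ext
    · simp only [mul_a, one_a, zero_add]
    · simp only [mul_b, one_b, zero_add]
    · simp only [mul_c, one_c, one_a, zero_dotProduct]; ring
  mul_one x := by
    apply HG.ext
    · simp only [mul_a, one_a, add_zero]
    · simp only [mul_b, one_b, add_zero]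
    · simp only [mul_c, one_c, one_b, dotProduct_zero]; ring
  inv_mul_cancel x := by
    apply HG.ext
    · simp only [mul_a, inv_a, one_a, neg_add_cancel]
    · simp only [mul_b, inv_b, one_b, neg_add_cancel]
    · simp only [mul_c, inv_c, inv_a, one_c, neg_dotProduct]; ring

/-- underlying set. -/
def equivProd : HG p n ≃ (Fin n → ZMod p) × (Fin n → ZMod p) × ZMod p where
  toFun x := (x.a, x.b, x.c)
  invFun t := ⟨t.1, t.2.1, t.2.2⟩
  left_inv _ := rfl
  right_inv _ := rfl

theorem card_eq : Nat.card (HG p n) = p ^ (1 + 2 * n) := by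
  rw [Nat.card_congr equivProd, Nat.card_prod, Nat.card_prod, Nat.card_fun, Nat.card_zmod,
    Nat.card_fin]
  ring

theorem pow_a (x : HG p n) (k : ℕ) : (x ^ k).a = k • x.a := by
  induction k with
  | zero => simp [one_a]
  | succ k ih => rw [pow_succ, mul_a, ih, succ_nsmul]

theorem pow_b (x : HG p n) (k : ℕ) : (x ^ k).b = k • x.b := by
  induction k with
  | zero => simp [one_b]
  | succ k ih => rw [pow_succ, mul_b, ih, succ_nsmul]

theorem choose_two_succ (k : ℕ) : (k + 1).choose 2 = k + k.choose 2 := by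
  rw [show 2 = 1 + 1 from rfl, Nat.choose_succ_succ', Nat.choose_one_right]

theorem pow_c (x : HG p n) (k : ℕ) :
    (x ^ k).c = k * x.c + (k.choose 2 : ℕ) * (x.a ⬝ᵥ x.b) := by
  induction k with
  | zero => simp [one_c]
  | succ k ih =>
    rw [pow_succ, mul_c, ih, pow_a, smul_dotProduct, choose_two_succ]
    push_cast
    simp only [nsmul_eq_mul]
    ring

theorem pow_p [Fact p.Prime] (hp : p ≠ 2) (x : HG p n) : x ^ p = 1 := by
  have hpp : p.Prime := Fact.out
  have h2 : ((p.choose 2 : ℕ) : ZMod p) = 0 := by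
    rw [ZMod.natCast_eq_zero_iff]
    exact hpp.dvd_choose_self (by norm_num) (lt_of_le_of_ne hpp.two_le (Ne.symm hp))
  apply HG.ext
  · rw [pow_a, one_a]; ext i; simp
  · rw [pow_b, one_b]; ext i; simp
  · rw [pow_c, one_c, h2]; simp

theorem comm_iff (x y : HG p n) : x * y = y * x ↔ x.a ⬝ᵥ y.b = y.a ⬝ᵥ x.b := by
  constructor
  · intro h
    have := congrArg HG.c h
    simp only [mul_c] at this
    linear_combination this
  · intro h
    apply HG.ext
    · simp only [mul_a, add_comm]
    · simp only [mul_b, add_comm]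
    · simp only [mul_c, h]; ring

theorem mem_center_iff (x : HG p n) : x ∈ Subgroup.center (HG p n) ↔ x.a = 0 ∧ x.b = 0 := by
  classical
  constructor
  · intro h
    rw [Subgroup.mem_center_iff] at h
    constructor
    · ext i
      have := (comm_iff _ _).1 (h ⟨0, Pi.single i 1, 0⟩)
      simpa using this.symm
    · ext i
      have := (comm_iff _ _).1 (h ⟨Pi.single i 1, 0, 0⟩)
      simpa using this
  · rintro ⟨h1, h2⟩
    rw [Subgroup.mem_center_iff]
    intro y
    rw [comm_iff, h1, h2, dotProduct_zero, zero_dotProduct]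

/-- the centre is a copy of the field. -/
def centerEquiv : Subgroup.center (HG p n) ≃ ZMod p where
  toFun x := x.1.c
  invFun c := ⟨⟨0, 0, c⟩, (mem_center_iff _).2 ⟨rfl, rfl⟩⟩
  left_inv x := by
    obtain ⟨h1, h2⟩ := (mem_center_iff _).1 x.2
    apply Subtype.ext
    exact HG.ext h1.symm h2.symm rfl
  right_inv c := rfl

theorem card_center : Nat.card (Subgroup.center (HG p n)) = p := by
  rw [Nat.card_congr centerEquiv, Nat.card_zmod]

theorem comm_a (x y : HG p n) : (⁅x, y⁆).a = 0 := by
  rw [commutatorElement_def]; simp only [mul_a, inv_a]; abel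

theorem comm_b (x y : HG p n) : (⁅x, y⁆).b = 0 := by
  rw [commutatorElement_def]; simp only [mul_b, inv_b]; abel

theorem comm_c (x y : HG p n) : (⁅x, y⁆).c = x.a ⬝ᵥ y.b - y.a ⬝ᵥ x.b := by
  rw [commutatorElement_def]
  simp only [mul_c, mul_a, inv_c, inv_a, inv_b, add_dotProduct, dotProduct_neg, neg_dotProduct]
  ring

theorem commutator_eq (hn : 1 ≤ n) : commutator (HG p n) = Subgroup.center (HG p n) := by
  classical
  apply le_antisymm
  · rw [commutator_def, Subgroup.commutator_le]
    intro x _ y _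
    exact (mem_center_iff _).2 ⟨comm_a x y, comm_b x y⟩
  · intro z hz
    obtain ⟨h1, h2⟩ := (mem_center_iff _).1 hz
    let i₀ : Fin n := ⟨0, hn⟩
    have : z = ⁅(⟨Pi.single i₀ z.c, 0, 0⟩ : HG p n), ⟨0, Pi.single i₀ 1, 0⟩⁆ := by
      apply HG.ext
      · rw [comm_a, h1]
      · rw [comm_b, h2]
      · rw [comm_c]; simp
    rw [this]
    exact Subgroup.commutator_mem_commutator (Subgroup.mem_top _) (Subgroup.mem_top _)

/-- coordinate homomorphisms. -/
def coordA (p n : ℕ) (i : Fin n) : HG p n →* Multiplicative (ZMod p) where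
  toFun x := Multiplicative.ofAdd (x.a i)
  map_one' := rfl
  map_mul' _ _ := rfl

def coordB (p n : ℕ) (i : Fin n) : HG p n →* Multiplicative (ZMod p) where
  toFun x := Multiplicative.ofAdd (x.b i)
  map_one' := rfl
  map_mul' _ _ := rfl

theorem sep (g : HG p n) (hg : g ∉ Subgroup.center (HG p n)) :
    ∃ ψ : HG p n →* Multiplicative (ZMod p), ψ g ≠ 1 := by
  by_contra hcon
  push Not at hcon
  apply hg
  rw [mem_center_iff]
  constructor
  · ext i; exact hcon (coordA p n i)
  · ext i; exact hcon (coordB p n i)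

/-- extension of a vector by zeros at both ends. -/
def ex (a : Fin n → ZMod p) : Fin (n + 2) → ZMod p :=
  Fin.cons (α := fun _ => ZMod p) 0 (Fin.snoc (α := fun _ => ZMod p) a 0)

theorem ex_first (a : Fin n → ZMod p) : ex a 0 = 0 := rfl

theorem ex_last (a : Fin n → ZMod p) : ex a (Fin.last (n + 1)) = 0 := by
  rw [← Fin.succ_last]; simp [ex]

theorem ex_mid (a : Fin n → ZMod p) (k : Fin n) : ex a k.castSucc.succ = a k := by
  simp [ex]

theorem ex_add (a a' : Fin n → ZMod p) : ex (a + a') = ex a + ex a' := by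
  ext i
  refine Fin.cases ?_ (fun j => ?_) i
  · simp [ex]
  · refine Fin.lastCases ?_ (fun k => ?_) j
    · simp [ex]
    · simp [ex]

theorem ex_zero : ex (0 : Fin n → ZMod p) = 0 := by
  ext i
  refine Fin.cases ?_ (fun j => ?_) i
  · simp [ex]
  · refine Fin.lastCases ?_ (fun k => ?_) j
    · simp [ex]
    · simp [ex]

theorem ex_dot (a b : Fin n → ZMod p) : ex a ⬝ᵥ ex b = a ⬝ᵥ b := by
  unfold dotProduct
  rw [Fin.sum_univ_succ, Fin.sum_univ_castSucc]
  simp only [ex_first, ex_mid, Fin.succ_last, ex_last, mul_zero, zero_add, add_zero]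

/-- the matrix of an element. -/
def M (x : HG p n) : Matrix (Fin (n + 2)) (Fin (n + 2)) (ZMod p) :=
  1 + vecMulVec (Pi.single 0 1) (ex x.a + x.c • Pi.single (Fin.last (n + 1)) 1)
    + vecMulVec (ex x.b) (Pi.single (Fin.last (n + 1)) 1)

theorem M_one : M (1 : HG p n) = 1 := by
  simp [M, one_a, one_b, one_c, ex_zero]

theorem last_ne : (Fin.last (n + 1) : Fin (n + 2)) ≠ 0 := by
  intro h
  have := congrArg Fin.val h
  simp at this

theorem M_mul (x y : HG p n) : M (x * y) = M x * M y := by
  have d1 : (ex x.a + x.c • Pi.single (Fin.last (n + 1)) 1) ⬝ᵥ (Pi.single 0 1 : Fin (n + 2) → ZMod p)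
      = 0 := by
    rw [dotProduct_single]
    simp [ex_first, last_ne.symm]
  have d2 : (ex x.a + x.c • Pi.single (Fin.last (n + 1)) 1) ⬝ᵥ ex y.b = x.a ⬝ᵥ y.b := by
    rw [add_dotProduct, ex_dot, smul_dotProduct, single_dotProduct, ex_last]
    simp
  have d3 : (Pi.single (Fin.last (n + 1)) 1 : Fin (n + 2) → ZMod p) ⬝ᵥ (Pi.single 0 1) = 0 := by
    rw [dotProduct_single]
    simp [last_ne.symm]
  have d4 : (Pi.single (Fin.last (n + 1)) 1 : Fin (n + 2) → ZMod p) ⬝ᵥ ex y.b = 0 := by
    rw [single_dotProduct, ex_last]; simp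
  unfold M
  simp only [add_mul, mul_add, one_mul, mul_one,
    vecMulVec_mul_vecMulVec, d1, d2, d3, d4, zero_smul, vecMulVec_zero, add_zero]
  simp only [mul_a, mul_b, mul_c, ex_add, vecMulVec_add, add_vecMulVec, add_smul]
  abel

theorem M_apply (x : HG p n) (i j : Fin (n + 2)) :
    M x i j = (1 : Matrix (Fin (n + 2)) (Fin (n + 2)) (ZMod p)) i j
      + (Pi.single 0 1 : Fin (n + 2) → ZMod p) i
        * (ex x.a j + x.c * (Pi.single (Fin.last (n + 1)) 1 : Fin (n + 2) → ZMod p) j)
      + ex x.b i * (Pi.single (Fin.last (n + 1)) 1 : Fin (n + 2) → ZMod p) j := by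
  simp [M, vecMulVec_apply]

theorem mid_ne_last (k : Fin n) : (k.castSucc.succ : Fin (n + 2)) ≠ Fin.last (n + 1) := by
  intro h
  have := congrArg Fin.val h
  simp at this
  omega

theorem M_inj : Function.Injective (M : HG p n → _) := by
  intro x y h
  apply HG.ext
  · ext k
    have := congrFun (congrFun h 0) k.castSucc.succ
    rw [M_apply, M_apply] at this
    simpa [ex_mid, ex_first, mid_ne_last k, (Fin.succ_ne_zero _).symm] using this
  · ext k
    have := congrFun (congrFun h k.castSucc.succ) (Fin.last (n + 1))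
    rw [M_apply, M_apply] at this
    simpa [ex_mid, ex_last, mid_ne_last k, Fin.succ_ne_zero] using this
  · have := congrFun (congrFun h 0) (Fin.last (n + 1))
    rw [M_apply, M_apply] at this
    simpa [ex_first, ex_last, last_ne.symm] using this

end HG

theorem ker_coatom {p : ℕ} [Fact p.Prime] {E : Type*} [Group E]
    (φ : E →* Multiplicative (ZMod p)) (g : E) (hg : φ g ≠ 1) : IsCoatom φ.ker := by
  constructor
  · intro h
    exact hg (show g ∈ φ.ker from h ▸ Subgroup.mem_top g)
  · intro K hK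
    obtain ⟨k, hkK, hk⟩ := SetLike.exists_of_lt hK
    rw [eq_top_iff]
    intro e _
    have hcard : Nat.card (Multiplicative (ZMod p)) = p := by
      rw [Nat.card_congr Multiplicative.toAdd, Nat.card_zmod]
    have hk' : φ k ≠ 1 := hk
    obtain ⟨m, hm⟩ : φ e ∈ Subgroup.zpowers (φ k) := mem_zpowers_of_prime_card hcard hk'
    have h2 : e * (k ^ m)⁻¹ ∈ φ.ker := by
      rw [MonoidHom.mem_ker, map_mul, map_inv, map_zpow]
      show φ e * (φ k ^ m)⁻¹ = 1
      rw [show φ k ^ m = φ e from hm, mul_inv_cancel]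
    have := K.mul_mem (hK.le h2) (K.zpow_mem hkK m)
    simpa using this

theorem extra_of {p : ℕ} [Fact p.Prime] {H E : Type*} [Group H] [Group E] [Finite E] (e : H ≃* E)
    (hP : IsPGroup p E) (hcomm : commutator H = Subgroup.center H)
    (hcard : Nat.card (Subgroup.center H) = p)
    (hsep : ∀ g : H, g ∉ Subgroup.center H → ∃ ψ : H →* Multiplicative (ZMod p), ψ g ≠ 1) :
    Cfsg.IsExtraspecial p E := by
  have hc : (Subgroup.center H).map e.toMonoidHom = Subgroup.center E := by
    ext y
    constructor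
    · rintro ⟨x, hx, rfl⟩
      rw [Subgroup.mem_center_iff]
      intro z
      obtain ⟨z', rfl⟩ := e.surjective z
      have := Subgroup.mem_center_iff.1 hx z'
      show e z' * e x = e x * e z'
      rw [← map_mul, ← map_mul, this]
    · intro hy
      obtain ⟨x, rfl⟩ := e.surjective y
      refine ⟨x, ?_, rfl⟩
      show x ∈ Subgroup.center H
      rw [Subgroup.mem_center_iff]
      intro z
      apply e.injective
      rw [map_mul, map_mul]
      exact Subgroup.mem_center_iff.1 hy (e z)
  have hk : (commutator H).map e.toMonoidHom = commutator E := by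
    rw [commutator_def, Subgroup.map_commutator,
      Subgroup.map_top_of_surjective e.toMonoidHom e.surjective, ← commutator_def]
  have hcomE : commutator E = Subgroup.center E := by rw [← hk, hcomm, hc]
  have hcardE : Nat.card (Subgroup.center E) = p := by
    rw [← hc, Subgroup.card_map_of_injective (f := e.toMonoidHom) e.injective, hcard]
  refine ⟨⟨hP, ?_, hcomE⟩, hcardE⟩
  apply le_antisymm
  · intro g hg
    by_contra hne
    have h1 : e.symm g ∉ Subgroup.center H := by
      intro h
      apply hne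
      rw [← hc]
      exact ⟨e.symm g, h, e.apply_symm_apply g⟩
    obtain ⟨ψ, hψ⟩ := hsep _ h1
    have hco := ker_coatom (ψ.comp e.symm.toMonoidHom) g hψ
    exact hψ (frattini_le_coatom hco hg)
  · rw [← hcomE]
    exact Cfsg.Agent.Lib.Helper1.pgroup_commutator_le_frattini hP

/-- For every odd prime p and every n ≥ 1 there is an extraspecial p-group of order p^(1+2n) and exponent p; concretely, the general linear group of degree n + 2 over the field with p elements contains such a subgroup. -/
theorem result (p : ℕ) [Fact p.Prime] (hp : p ≠ 2) (n : ℕ) (hn : 1 ≤ n) : ∃ E : Subgroup (Matrix.GeneralLinearGroup (Fin (n + 2)) (ZMod p)), Cfsg.IsExtraspecial p ↥E ∧ Nat.card E = p ^ (1 + 2 * n) ∧ ∀ x ∈ E, x ^ p = 1 := by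
  classical
  haveI : NeZero p := ⟨(Fact.out : p.Prime).ne_zero⟩
  let f : HG p n →* Matrix (Fin (n + 2)) (Fin (n + 2)) (ZMod p) :=
    { toFun := HG.M, map_one' := HG.M_one, map_mul' := HG.M_mul }
  let φ : HG p n →* Matrix.GeneralLinearGroup (Fin (n + 2)) (ZMod p) := f.toHomUnits
  have hφ : Function.Injective φ := by
    intro x y h
    apply HG.M_inj
    have h1 := congrArg (fun u : Matrix.GeneralLinearGroup (Fin (n + 2)) (ZMod p) =>
      (u : Matrix (Fin (n + 2)) (Fin (n + 2)) (ZMod p))) h
    exact h1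
  let e : HG p n ≃* φ.range := MonoidHom.ofInjective hφ
  have hcard : Nat.card φ.range = p ^ (1 + 2 * n) := by
    rw [← Nat.card_congr e.toEquiv, HG.card_eq]
  haveI : Finite φ.range := Nat.finite_of_card_ne_zero (by
    rw [hcard]; exact pow_ne_zero _ (Fact.out : p.Prime).ne_zero)
  refine ⟨φ.range, ?_, hcard, ?_⟩
  · exact extra_of e (IsPGroup.of_card hcard) (HG.commutator_eq hn) HG.card_center HG.sep
  · rintro _ ⟨x, rfl⟩
    rw [← map_pow, HG.pow_p hp, map_one]

end Cfsg.Agent.S3799
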