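import Cfsg.Statements.S3800
-- import your own Cfsg.Agent.* helpers here
import Cfsg.Agent.Lib.Helper5.PPrimeQuot

set_option autoImplicit false
open Cfsg

namespace Cfsg.Agent.S3800

/-- Let G be a finite group, N a normal subgroup of G whose order is prime to p, and P a p-subgroup of G. Then in G/N the normalizer of the image of P is the image of N_G(P), and the centralizer of the image of P is the image of C_G(P). -/
theorem result {G : Type*} [Group G] [Finite G] {p : ℕ} [Fact p.Prime] (N : Subgroup G) [N.Normal] (hN : (Nat.card N).Coprime p) (P : Subgroup G) (hP : IsPGroup p P) : Subgroup.normalizer ((P.map (QuotientGroup.mk' N)) : Set (G ⧸ N)) = (Subgroup.normalizer (P : Set G)).map (QuotientGroup.mk' N) ∧ Subgroup.centralizer ((P.map (QuotientGroup.mk' N)) : Set (G ⧸ N)) = (Subgroup.centralizer (P : Set G)).map (QuotientGroup.mk' N) := by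
  constructor
  · apply le_antisymm _ (Subgroup.le_normalizer_map _)
    intro y hy
    obtain ⟨g, rfl⟩ := QuotientGroup.mk'_surjective N y
    obtain ⟨h, hh, hhg⟩ := Cfsg.Agent.Lib.Helper5.exists_mem_normalizer_of_quot hN hP hy
    exact ⟨h, hh, hhg⟩
  · apply le_antisymm
    · intro y hy
      obtain ⟨g, rfl⟩ := QuotientGroup.mk'_surjective N y
      obtain ⟨h, hh, hhg⟩ := Cfsg.Agent.Lib.Helper5.exists_mem_centralizer_of_quot hN hP hy
      exact ⟨h, hh, hhg⟩
    · rintro _ ⟨g, hg, rfl⟩
      rw [Subgroup.mem_centralizer_iff]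
      rintro _ ⟨x, hx, rfl⟩
      rw [← map_mul, ← map_mul, (Subgroup.mem_centralizer_iff.mp hg) x hx]

end Cfsg.Agent.S3800
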