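import Cfsg.Statements.S3979
import Mathlib

set_option autoImplicit false
open Cfsg

namespace Cfsg.Agent.S3979

/-- A finite cyclic group has trivial Schur multiplier: every finite stem extension of it is an isomorphism, said through `HasCyclicSchurMultiplier G 1`. -/
theorem result {G : Type*} [Group G] [Finite G] [IsCyclic G] : Cfsg.HasCyclicSchurMultiplier G 1 := by
  refine ⟨⟨G, inferInstance, inferInstance, MonoidHom.id G, ⟨Function.surjective_id, ?_, ?_⟩, ?_⟩, ?_⟩
  · simp
  · simp
  · have h : (MonoidHom.id G).ker = ⊥ := by simp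
    have h1 : Subsingleton (MonoidHom.id G).ker := by rw [h]; infer_instance
    have h2 : Subsingleton (Multiplicative (ZMod 1)) := inferInstanceAs (Subsingleton (ZMod 1))
    let _ : Unique (MonoidHom.id G).ker := ⟨⟨1⟩, fun a => Subsingleton.elim _ _⟩
    let _ : Unique (Multiplicative (ZMod 1)) := ⟨⟨1⟩, fun a => Subsingleton.elim _ _⟩
    exact ⟨MulEquiv.ofUnique⟩
  · intro Γ _ _ σ hσ
    obtain ⟨hs, hc, hd⟩ := hσ
    have hcomm := σ.isMulCommutative_of_isCyclic_of_ker_le_center hc
    have hcom : commutator Γ = ⊥ := by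
      rw [commutator_eq_bot_iff_center_eq_top]
      rw [eq_top_iff]
      intro x _
      rw [Subgroup.mem_center_iff]
      intro y
      exact hcomm.is_comm.comm y x
    have hk : σ.ker = ⊥ := by
      rw [eq_bot_iff]; rw [← hcom]; exact hd
    refine ⟨1, ?_⟩
    intro x
    refine ⟨1, ?_⟩
    have : (x : Γ) ∈ (⊥ : Subgroup Γ) := hk ▸ x.2
    ext
    simpa using (Subgroup.mem_bot.mp this).symm

end Cfsg.Agent.S3979
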