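import Cfsg.Statements.S3950
import Mathlib
import Cfsg.Agent.Lib.Helper21.Hopf
import Cfsg.Agent.Lib.Helper21.BilinExt
import Cfsg.Agent.S3979

set_option autoImplicit false
open Cfsg
open Cfsg.Agent.Lib.Helper21

namespace Cfsg.Agent.S3950

/-- A finite abelian group has trivial Schur multiplier if and only if it is cyclic. -/
theorem result {G : Type*} [CommGroup G] [Finite G] : Cfsg.HasCyclicSchurMultiplier G 1 ↔ IsCyclic G := by
  classical
  constructor
  · intro hA
    obtain ⟨ι, _, n, hn, ⟨e⟩⟩ := CommGroup.equiv_prod_multiplicative_zmod_of_finite G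
    by_cases hcop : Pairwise (Function.onFun Nat.Coprime n)
    · let f₀ : Multiplicative (ZMod (∏ i, n i)) →* ((i : ι) → Multiplicative (ZMod (n i))) :=
        { toFun := fun k i => Multiplicative.ofAdd (ZMod.prodEquivPi n hcop (Multiplicative.toAdd k) i)
          map_one' := by
            funext i
            change Multiplicative.ofAdd (ZMod.prodEquivPi n hcop 0 i) = 1
            rw [map_zero]; rfl
          map_mul' := by
            intro a b
            funext i
            change Multiplicative.ofAdd (ZMod.prodEquivPi n hcop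
              (Multiplicative.toAdd a + Multiplicative.toAdd b) i) = _
            rw [map_add]; rfl }
      have hf₀ : Function.Surjective f₀ := by
        intro v
        obtain ⟨k, hk⟩ := (ZMod.prodEquivPi n hcop).surjective (fun i => Multiplicative.toAdd (v i))
        refine ⟨Multiplicative.ofAdd k, ?_⟩
        funext i
        change Multiplicative.ofAdd (ZMod.prodEquivPi n hcop k i) = v i
        rw [hk]; rfl
      exact isCyclic_of_surjective (e.symm.toMonoidHom.comp f₀) (e.symm.surjective.comp hf₀)
    · exfalso
      rw [Pairwise] at hcop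
      push Not at hcop
      obtain ⟨i, j, hij, hd⟩ := hcop
      set d := Nat.gcd (n i) (n j) with hddef
      have hd1 : d ≠ 1 := hd
      have hd0 : d ≠ 0 := by
        intro h0
        have := Nat.eq_zero_of_gcd_eq_zero_left h0
        have := hn i
        omega
      have hfact : Fact (1 < d) := ⟨by omega⟩
      let a : G → ZMod d := fun g =>
        ZMod.castHom (Nat.gcd_dvd_left (n i) (n j)) (ZMod d) (Multiplicative.toAdd (e g i))
      let b : G → ZMod d := fun g =>
        ZMod.castHom (Nat.gcd_dvd_right (n i) (n j)) (ZMod d) (Multiplicative.toAdd (e g j))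
      have ha : ∀ g h, a (g * h) = a g + a h := by
        intro g h
        change ZMod.castHom _ (ZMod d) (Multiplicative.toAdd (e (g * h) i)) = _
        rw [map_mul]
        change ZMod.castHom _ (ZMod d) (Multiplicative.toAdd (e g i) + Multiplicative.toAdd (e h i)) = _
        rw [map_add]
      have hb : ∀ g h, b (g * h) = b g + b h := by
        intro g h
        change ZMod.castHom _ (ZMod d) (Multiplicative.toAdd (e (g * h) j)) = _
        rw [map_mul]
        change ZMod.castHom _ (ZMod d) (Multiplicative.toAdd (e g j) + Multiplicative.toAdd (e h j)) = _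
        rw [map_add]
      let β : BiMul G (Multiplicative (ZMod d)) :=
        { toFun := fun g h => Multiplicative.ofAdd (a g * b h)
          map_mul_left := by intro g h k; rw [ha, add_mul]; rfl
          map_mul_right := by intro g h k; rw [hb, mul_add]; rfl }
      obtain ⟨θ, hθ⟩ := schur_key hA (BExt.proj β) (BExt.proj_surjective β) (BExt.ker_proj_le_center β)
      let g₀ : G := e.symm (Pi.mulSingle i (Multiplicative.ofAdd 1))
      let h₀ : G := e.symm (Pi.mulSingle j (Multiplicative.ofAdd 1))
      have a1 : a g₀ = 1 := by
        change ZMod.castHom _ (ZMod d) (Multiplicative.toAdd (e (e.symm _) i)) = _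
        rw [e.apply_symm_apply, Pi.mulSingle_eq_same, toAdd_ofAdd, map_one]
      have b1 : b h₀ = 1 := by
        change ZMod.castHom _ (ZMod d) (Multiplicative.toAdd (e (e.symm _) j)) = _
        rw [e.apply_symm_apply, Pi.mulSingle_eq_same, toAdd_ofAdd, map_one]
      have a0 : a h₀ = 0 := by
        change ZMod.castHom _ (ZMod d) (Multiplicative.toAdd (e (e.symm _) i)) = _
        rw [e.apply_symm_apply, Pi.mulSingle_eq_of_ne hij, toAdd_one, map_zero]
      let x : BExt β := ⟨g₀, 1⟩
      let y : BExt β := ⟨h₀, 1⟩
      have hc := BExt.comm_eq β x y (mul_comm _ _)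
      have hmem : x * y * x⁻¹ * y⁻¹ ∈ (BExt.proj β).ker ⊓ commutator (BExt β) := by
        refine Subgroup.mem_inf.2 ⟨?_, ?_⟩
        · rw [hc, BExt.ker_proj_eq_range]; exact ⟨_, rfl⟩
        · rw [commutator_def, ← commutatorElement_def]
          exact Subgroup.commutator_mem_commutator (Subgroup.mem_top _) (Subgroup.mem_top _)
      obtain ⟨t, ht⟩ := hθ ⟨_, hmem⟩
      have ht1 : t = 1 := Subsingleton.elim _ _
      rw [ht1, map_one] at ht
      have h1 : x * y * x⁻¹ * y⁻¹ = 1 := (congrArg Subtype.val ht).symm
      rw [hc] at h1
      have h2 := BExt.incl_injective β (h1.trans (map_one _).symm)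
      have h3 : β.toFun x.fst y.fst * (β.toFun y.fst x.fst)⁻¹ = Multiplicative.ofAdd (1 : ZMod d) := by
        change Multiplicative.ofAdd (a g₀ * b h₀) * (Multiplicative.ofAdd (a h₀ * b g₀))⁻¹ = _
        rw [a1, b1, a0]; simp
      rw [h3] at h2
      have h4 : (1 : ZMod d) = 0 := h2
      exact one_ne_zero h4
  · intro h
    exact Cfsg.Agent.S3979.result

end Cfsg.Agent.S3950
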