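import Cfsg.Statements.S3951
import Mathlib
import Cfsg.Agent.Lib.Helper21.Schur
import Cfsg.Agent.Lib.Helper21.BilinExt

set_option autoImplicit false
open Cfsg
open Cfsg.Agent.Lib.Helper21

namespace Cfsg.Agent.S3951

/-- For positive integers `m` and `n` with `n` dividing `m`, the Schur multiplier of the abelian group `ZMod m × ZMod n` (written multiplicatively) is cyclic of order `n`. In particular the elementary abelian group of order `p ^ 2` has multiplier of order `p`. -/
theorem result (m n : ℕ) [NeZero m] [NeZero n] (hnm : n ∣ m) : Cfsg.HasCyclicSchurMultiplier (Multiplicative (ZMod m × ZMod n)) n := by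
  classical
  apply hasCyclicSchurMultiplier_of
  · let β : BiMul (Multiplicative (ZMod m × ZMod n)) (Multiplicative (ZMod n)) :=
      { toFun := fun g h => Multiplicative.ofAdd
          (ZMod.castHom hnm (ZMod n) (Multiplicative.toAdd g).1 * (Multiplicative.toAdd h).2)
        map_mul_left := by
          intro g h k
          change Multiplicative.ofAdd (ZMod.castHom hnm (ZMod n)
            ((Multiplicative.toAdd g).1 + (Multiplicative.toAdd h).1) * _) = _
          rw [map_add, add_mul]; rfl
        map_mul_right := by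
          intro g h k
          change Multiplicative.ofAdd (_ * ((Multiplicative.toAdd h).2 + (Multiplicative.toAdd k).2)) = _
          rw [mul_add]; rfl }
    refine ⟨BExt β, inferInstance, inferInstance, BExt.proj β,
      ⟨BExt.proj_surjective β, BExt.ker_proj_le_center β, ?_⟩, ?_, ?_⟩
    · let x : BExt β := ⟨Multiplicative.ofAdd (1, 0), 1⟩
      let y : BExt β := ⟨Multiplicative.ofAdd (0, 1), 1⟩
      have hc := BExt.comm_eq β x y (mul_comm _ _)
      have h3 : β.toFun x.fst y.fst * (β.toFun y.fst x.fst)⁻¹ = Multiplicative.ofAdd (1 : ZMod n) := by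
        change Multiplicative.ofAdd (ZMod.castHom hnm (ZMod n) 1 * 1) *
          (Multiplicative.ofAdd (ZMod.castHom hnm (ZMod n) 0 * 0))⁻¹ = _
        rw [map_one, map_zero]; simp
      rw [h3] at hc
      have hmem : BExt.incl β (Multiplicative.ofAdd (1 : ZMod n)) ∈ commutator (BExt β) := by
        rw [← hc, commutator_def, ← commutatorElement_def]
        exact Subgroup.commutator_mem_commutator (Subgroup.mem_top _) (Subgroup.mem_top _)
      rw [BExt.ker_proj_eq_range]
      rintro _ ⟨t, rfl⟩
      have ht : t = (Multiplicative.ofAdd (1 : ZMod n)) ^ (Multiplicative.toAdd t).val := by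
        rw [← ofAdd_nsmul, nsmul_eq_mul, mul_one, ZMod.natCast_zmod_val]; rfl
      rw [ht, map_pow]
      exact Subgroup.pow_mem _ hmem _
    · exact isCyclic_of_surjective (BExt.kerEquiv β).symm (BExt.kerEquiv β).symm.surjective
    · rw [Nat.card_congr (BExt.kerEquiv β).toEquiv]
      simp
  · intro Γ _ _ σ hσ
    obtain ⟨x, hx⟩ := hσ.1 (Multiplicative.ofAdd (1, 0))
    obtain ⟨y, hy⟩ := hσ.1 (Multiplicative.ofAdd (0, 1))
    have hcc : ∀ g h : Γ, g * h * g⁻¹ * h⁻¹ ∈ σ.ker := by
      intro g h
      rw [MonoidHom.mem_ker, map_mul, map_mul, map_mul, map_inv, map_inv, mul_comm (σ g),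
        mul_inv_cancel_right, mul_inv_cancel]
    have hgen : ∀ M : Subgroup Γ, x ∈ M → y ∈ M → σ.ker ≤ M → ∀ g, g ∈ M := by
      intro M hxM hyM hK g
      have h1 : σ (x ^ (Multiplicative.toAdd (σ g)).1.val * y ^ (Multiplicative.toAdd (σ g)).2.val)
          = σ g := by
        rw [map_mul, map_pow, map_pow, hx, hy, ← ofAdd_nsmul, ← ofAdd_nsmul, ← ofAdd_add]
        apply Multiplicative.toAdd.injective
        rw [toAdd_ofAdd]
        apply Prod.ext
        · simp
        · simp
      have h2 : (x ^ (Multiplicative.toAdd (σ g)).1.val * y ^ (Multiplicative.toAdd (σ g)).2.val)⁻¹ * g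
          ∈ σ.ker := by
        rw [MonoidHom.mem_ker, map_mul, map_inv, h1]; simp
      have := M.mul_mem (M.mul_mem (M.pow_mem hxM (Multiplicative.toAdd (σ g)).1.val)
        (M.pow_mem hyM (Multiplicative.toAdd (σ g)).2.val)) (hK h2)
      rwa [mul_inv_cancel_left] at this
    set c := x * y * x⁻¹ * y⁻¹ with hc
    let φ : Γ → (Γ →* Subgroup.center Γ) := fun h => commHomCentral h (fun g => hσ.2.1 (hcc g h))
    have hφ : ∀ h g, ((φ h g : Subgroup.center Γ) : Γ) = g * h * g⁻¹ * h⁻¹ := fun h g => rfl
    let N : Subgroup Γ := Subgroup.zpowers c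
    have hcN : c ∈ N := Subgroup.mem_zpowers c
    have hkN : ∀ h, ∀ k ∈ σ.ker, k * h * k⁻¹ * h⁻¹ ∈ N := by
      intro h k hk
      have := Subgroup.mem_center_iff.1 (hσ.2.1 hk) h
      rw [← this]
      simp
    have key : ∀ h, x * h * x⁻¹ * h⁻¹ ∈ N → y * h * y⁻¹ * h⁻¹ ∈ N → ∀ g, g * h * g⁻¹ * h⁻¹ ∈ N := by
      intro h h1 h2 g
      exact hgen (N.comap ((Subgroup.center Γ).subtype.comp (φ h))) h1 h2 (fun k hk => hkN h k hk) g
    have s1 : ∀ g, g * x * g⁻¹ * x⁻¹ ∈ N := by
      apply key
      · simp
      · have : y * x * y⁻¹ * x⁻¹ = c⁻¹ := by rw [hc]; group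
        rw [this]; exact N.inv_mem hcN
    have s2 : ∀ g, g * y * g⁻¹ * y⁻¹ ∈ N := by
      apply key
      · exact hcN
      · simp
    have s3 : ∀ h g, g * h * g⁻¹ * h⁻¹ ∈ N := by
      intro h
      apply key
      · have : x * h * x⁻¹ * h⁻¹ = (h * x * h⁻¹ * x⁻¹)⁻¹ := by group
        rw [this]; exact N.inv_mem (s1 h)
      · have : y * h * y⁻¹ * h⁻¹ = (h * y * h⁻¹ * y⁻¹)⁻¹ := by group
        rw [this]; exact N.inv_mem (s2 h)
    have hcomN : commutator Γ ≤ N := by
      rw [commutator_def, Subgroup.commutator_le]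
      intro g _ h _
      rw [commutatorElement_def]
      exact s3 h g
    have hker : σ.ker = N := by
      apply le_antisymm (hσ.2.2.trans hcomN)
      rw [Subgroup.zpowers_le]
      exact hcc x y
    have hcn : c ^ n = 1 := by
      have hyn : y ^ n ∈ σ.ker := by
        rw [MonoidHom.mem_ker, map_pow, hy, ← ofAdd_nsmul]
        apply Multiplicative.toAdd.injective
        rw [toAdd_ofAdd]
        apply Prod.ext
        · simp
        · simp
      have h1 : φ x (y ^ n) = 1 := by
        apply Subtype.ext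
        rw [hφ]
        have := Subgroup.mem_center_iff.1 (hσ.2.1 hyn) x
        rw [← this]
        simp
      rw [map_pow] at h1
      have h2 : (y * x * y⁻¹ * x⁻¹) ^ n = 1 := by
        have := congrArg (fun z : Subgroup.center Γ => (z : Γ)) h1
        simpa [hφ] using this
      have h3 : c = (y * x * y⁻¹ * x⁻¹)⁻¹ := by rw [hc]; group
      rw [h3, inv_pow, h2, inv_one]
    rw [hker]
    refine ⟨inferInstance, ?_⟩
    rw [Nat.card_zpowers]
    exact orderOf_dvd_of_pow_eq_one hcn

end Cfsg.Agent.S3951
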