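import Cfsg.Statements.S3952
import Mathlib
import Cfsg.Agent.Lib.Helper2.CharReg
import Cfsg.Agent.Lib.Helper24.Eigen
import Cfsg.Agent.Lib.Helper21.Pullback

set_option autoImplicit false
open Cfsg

namespace Cfsg.Agent.S3952

open Module in
lemma key {Γ : Type*} [Group Γ] [Finite Γ] (K : Subgroup Γ) [Fintype K] (hKc : K ≤ Subgroup.center Γ)
    (hKd : K ≤ commutator Γ) (e : ℕ) (lam : K →* ℂˣ)
    (hlam : ∀ j : ℕ, (∀ k, lam k ^ j = 1) → e ∣ j) (n : ℕ)
    (ρ : Representation ℂ Γ (Fin n → ℂ)) (hρ : ρ.IsIrreducible) :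
    ∃ m : ℕ, ρ.character 1 * ∑ k : K, (((lam k)⁻¹ : ℂˣ) : ℂ) * ρ.character k
      = (Nat.card K : ℂ) * ((e ^ 2 * m : ℕ) : ℂ) := by
  classical
  have hn : 0 < n := by
    have := Cfsg.Agent.Lib.Helper24.finrank_pos_of_irreducible ρ
    simpa using this
  have hn' : (n : ℂ) ≠ 0 := by exact_mod_cast hn.ne'
  have hsc : ∀ k : K, ∃ c : ℂ, ρ k = c • (1 : End ℂ (Fin n → ℂ)) := by
    intro k
    apply Cfsg.Agent.Lib.Helper24.schur_scalar ρ
    intro g
    change ρ k * ρ g = ρ g * ρ k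
    rw [← map_mul, ← map_mul, Subgroup.mem_center_iff.1 (hKc k.2) g]
  choose c hc using hsc
  have hinj : ∀ a b : ℂ, a • (1 : End ℂ (Fin n → ℂ)) = b • (1 : End ℂ (Fin n → ℂ)) → a = b := by
    intro a b h
    have h1 := congrArg (LinearMap.trace ℂ (Fin n → ℂ)) h
    simp only [map_smul, LinearMap.trace_one, finrank_fin_fun, smul_eq_mul] at h1
    exact mul_right_cancel₀ hn' h1
  let μ₀ : K →* ℂ :=
    { toFun := c
      map_one' := by
        apply hinj
        rw [← hc, one_smul]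
        simp
      map_mul' := by
        intro a b
        apply hinj
        rw [← hc]
        change ρ ((a : Γ) * (b : Γ)) = _
        rw [map_mul, hc, hc, smul_mul_smul_comm, one_mul] }
  let μ : K →* ℂˣ := μ₀.toHomUnits
  have hμ : ∀ k, ((μ k : ℂˣ) : ℂ) = c k := fun k => rfl
  have hchar : ∀ k : K, ρ.character k = c k * n := by
    intro k
    rw [Representation.character, hc]
    simp
  have hchar1 : ρ.character 1 = n := by
    simp [Representation.character]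
  have hdet : ∀ k : K, c k ^ n = 1 := by
    intro k
    let d : Γ →* ℂˣ := (LinearMap.det.comp ρ : Γ →* ℂ).toHomUnits
    have h1 : d k = 1 := Cfsg.Agent.Lib.Helper21.commutator_le_ker_of_comm
      (fun a b : ℂˣ => mul_comm a b) d (hKd k.2)
    have h2 : LinearMap.det (ρ k) = 1 := congrArg Units.val h1
    rw [hc, LinearMap.det_smul] at h2
    simpa using h2
  by_cases hν : μ = lam
  · have he : e ∣ n := by
      apply hlam
      intro k
      rw [← hν]
      apply Units.ext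
      rw [Units.val_pow_eq_pow_val, hμ, hdet]; rfl
    obtain ⟨t, rfl⟩ := he
    refine ⟨t ^ 2, ?_⟩
    have h1 : ∀ k : K, (((lam k)⁻¹ : ℂˣ) : ℂ) * ρ.character k = ((e * t : ℕ) : ℂ) := by
      intro k
      rw [hchar, ← hμ, hν, ← mul_assoc, ← Units.val_mul, inv_mul_cancel]; simp
    rw [hchar1, Finset.sum_congr rfl (fun k _ => h1 k), Finset.sum_const, Finset.card_univ,
      Nat.card_eq_fintype_card]
    push_cast
    simp only [nsmul_eq_mul]
    ring
  · refine ⟨0, ?_⟩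
    let ν : K →* ℂ := (Units.coeHom ℂ).comp (lam⁻¹ * μ)
    have hν1 : ν ≠ 1 := by
      intro h
      apply hν
      ext k
      have h2 : ν k = 1 := by rw [h]; rfl
      have h3 : (((lam k)⁻¹ * μ k : ℂˣ) : ℂ) = 1 := h2
      have h4 : (lam k)⁻¹ * μ k = 1 := Units.ext h3
      rw [inv_mul_eq_one] at h4
      rw [h4]
    have h0 := sum_hom_units_eq_zero ν hν1
    have h1 : ∀ k : K, (((lam k)⁻¹ : ℂˣ) : ℂ) * ρ.character k = ν k * n := by
      intro k
      rw [hchar, ← hμ, ← mul_assoc]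
      rfl
    rw [Finset.sum_congr rfl (fun k _ => h1 k), ← Finset.sum_mul, h0]
    simp

/-- If `A` is the Schur multiplier of the finite group `Q`, then the square of the exponent of `A` divides the order of `Q`. -/
theorem result {Q : Type*} [Group Q] [Finite Q] {A : Type*} [CommGroup A] (hA : Cfsg.HasSchurMultiplier Q A) : Monoid.exponent A ^ 2 ∣ Nat.card Q := by
  classical
  obtain ⟨Γ, _, _, σ, hσ, ⟨eK⟩⟩ := hA.1
  have hfinA : Finite A := Finite.of_equiv _ eK.toEquiv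
  set e := Monoid.exponent A with he
  obtain ⟨eD⟩ := CommGroup.monoidHom_mulEquiv_of_hasEnoughRootsOfUnity A ℂ
  obtain ⟨a₀, ha₀⟩ : ∃ a : A, orderOf a = e :=
    Monoid.exists_orderOf_eq_exponent (Monoid.ExponentExists.of_finite)
  let lamA : A →* ℂˣ := eD.symm a₀
  have hlamA : orderOf lamA = e := by rw [← ha₀]; exact MulEquiv.orderOf_eq eD.symm a₀
  let lam : σ.ker →* ℂˣ := lamA.comp eK.toMonoidHom
  have hlam : ∀ j : ℕ, (∀ k, lam k ^ j = 1) → e ∣ j := by
    intro j hj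
    rw [← hlamA]
    apply orderOf_dvd_of_pow_eq_one
    apply MonoidHom.ext
    intro a
    obtain ⟨k, rfl⟩ := eK.surjective a
    exact hj k
  have := Fintype.ofFinite Γ
  have := Fintype.ofFinite σ.ker
  have := Cfsg.Agent.Lib.Helper2.finite_irrCharacter (G := Γ)
  have := Fintype.ofFinite (Cfsg.IrrCharacter Γ)
  have hkey : ∀ χ : Cfsg.IrrCharacter Γ, ∃ m : ℕ,
      (χ : Γ → ℂ) 1 * ∑ k : σ.ker, (((lam k)⁻¹ : ℂˣ) : ℂ) * (χ : Γ → ℂ) k
        = (Nat.card σ.ker : ℂ) * ((e ^ 2 * m : ℕ) : ℂ) := by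
    rintro ⟨χ, n, ρ, hρ, rfl⟩
    exact key σ.ker hσ.2.1 hσ.2.2 e lam hlam n ρ hρ
  choose m hm using hkey
  have hS : ∑ k : σ.ker, (((lam k)⁻¹ : ℂˣ) : ℂ) *
      ∑ χ : Cfsg.IrrCharacter Γ, (χ : Γ → ℂ) 1 * (χ : Γ → ℂ) k = (Nat.card Γ : ℂ) := by
    simp only [Cfsg.Agent.Lib.Helper2.sum_irr_one_mul]
    rw [Finset.sum_eq_single (1 : σ.ker)]
    · simp
    · intro k _ hk
      have : (k : Γ) ≠ 1 := fun h => hk (Subtype.ext h)
      simp [this]
    · intro h; exact absurd (Finset.mem_univ _) h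
  have hS2 : ∑ k : σ.ker, (((lam k)⁻¹ : ℂˣ) : ℂ) *
      ∑ χ : Cfsg.IrrCharacter Γ, (χ : Γ → ℂ) 1 * (χ : Γ → ℂ) k
      = ∑ χ : Cfsg.IrrCharacter Γ, (Nat.card σ.ker : ℂ) * ((e ^ 2 * m χ : ℕ) : ℂ) := by
    simp only [Finset.mul_sum]
    rw [Finset.sum_comm]
    refine Finset.sum_congr rfl (fun χ _ => ?_)
    rw [← hm χ, Finset.mul_sum]
    refine Finset.sum_congr rfl (fun k _ => ?_)
    ring
  rw [hS] at hS2
  have hN : Nat.card Γ = Nat.card σ.ker * (e ^ 2 * ∑ χ, m χ) := by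
    have : (Nat.card Γ : ℂ) = ((Nat.card σ.ker * (e ^ 2 * ∑ χ, m χ) : ℕ) : ℂ) := by
      rw [hS2]
      push_cast
      rw [← Finset.mul_sum, ← Finset.mul_sum]
    exact_mod_cast this
  have hcard : Nat.card Γ = Nat.card σ.ker * Nat.card Q := by
    rw [← Subgroup.card_mul_index σ.ker, Subgroup.index_ker, MonoidHom.range_eq_top.2 hσ.1]
    simp
  rw [hcard] at hN
  have hpos : 0 < Nat.card σ.ker := Nat.card_pos
  have := Nat.eq_of_mul_eq_mul_left hpos hN
  exact ⟨_, this⟩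

end Cfsg.Agent.S3952
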