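import Cfsg.Statements.S3953
import Mathlib
import Cfsg.Agent.Lib.Helper21.MultTransfer

set_option autoImplicit false
open Cfsg
open Cfsg.Agent.Lib.Helper21

namespace Cfsg.Agent.S3953

lemma map_comm_le {X Y : Type*} [Group X] [Group Y] (f : X →* Y) (x : X) (hx : x ∈ commutator X) :
    f x ∈ commutator Y := by
  have h1 : (commutator X).map f ≤ commutator Y := by
    rw [commutator_def, Subgroup.map_commutator, commutator_def]
    exact Subgroup.commutator_mono le_top le_top
  exact h1 (Subgroup.mem_map_of_mem _ hx)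

lemma main {G : Type*} [Group G] [Finite G] (p : ℕ) [Fact p.Prime] (U : Subgroup G)
    (hU : ¬ p ∣ U.index) {A B : Type*} [CommGroup A] [CommGroup B]
    (hA : Cfsg.HasSchurMultiplier G A) (hB : Cfsg.HasSchurMultiplier U B) :
    ∃ C D : Subgroup B, C ⊓ D = ⊥ ∧ C ⊔ D = ⊤ ∧
      Nonempty (CommGroup.primaryComponent A p ≃* C) := by
  classical
  let φ := fcePhi G
  have hφ : Function.Surjective φ := fcePhi_surjective G
  have hφS : Function.Surjective (φ.subgroupComap U) :=
    MonoidHom.subgroupComap_surjective_of_surjective φ U hφ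
  have hidx : (U.comap φ).index = U.index := Subgroup.index_comap_of_surjective U hφ
  have hfi : (U.comap φ).FiniteIndex := ⟨by rw [hidx]; exact Subgroup.FiniteIndex.index_ne_zero⟩
  have := Fintype.ofFinite (FreeGroup G ⧸ U.comap φ)
  obtain ⟨eA⟩ := g_schur_equiv hφ hA
  obtain ⟨eB⟩ := g_schur_equiv hφS hB
  have hfinA : Finite A := by
    obtain ⟨Γ, _, _, σ, hσ, ⟨e'⟩⟩ := hA.1
    exact Finite.of_equiv _ e'.toEquiv
  let tr' : gT φ →* gT (φ.subgroupComap U) :=
    ((gPi (φ.subgroupComap U)).ker.subtype.comp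
      ((trZ φ U).comp (Subgroup.inclusion inf_le_left))).codRestrict (gT (φ.subgroupComap U))
      (fun t => Subgroup.mem_inf.2 ⟨(trZ φ U _).2, trZ_mem_commutator φ U _ t.2.2⟩)
  let cor' : gT (φ.subgroupComap U) →* gT φ :=
    ((cor₀ φ U).comp (gT (φ.subgroupComap U)).subtype).codRestrict (gT φ)
      (fun t => Subgroup.mem_inf.2 ⟨(corZ φ U ⟨t, t.2.1⟩).2, map_comm_le (cor₀ φ U) _ t.2.2⟩)
  apply direct_factor_of_cor_tr p U.index hU (eA.symm.toMonoidHom.comp (cor'.comp eB.toMonoidHom))
    (eB.symm.toMonoidHom.comp (tr'.comp eA.toMonoidHom))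
  intro a
  change eA.symm (cor' (eB (eB.symm (tr' (eA a))))) = a ^ U.index
  rw [MulEquiv.apply_symm_apply, MulEquiv.symm_apply_eq, map_pow]
  apply Subtype.ext
  have h1 := corZ_trZ φ U ⟨eA a, (eA a).2.1⟩
  rw [hidx] at h1
  exact congrArg (fun z : (gPi φ).ker => (z : GCE φ)) h1

/-- Let `P` be a Sylow `p`-subgroup of the finite group `G`, let `A` be the Schur multiplier of `G` and `B` that of `P`. Then the `p`-primary component of `A` is isomorphic to a direct factor of `B`: there are subgroups `C` and `D` of `B` meeting trivially and generating `B`, with `C` isomorphic to the `p`-primary component of `A`. -/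
theorem result {G : Type*} [Group G] [Finite G] (p : ℕ) [Fact p.Prime] (P : Sylow p G) {A B : Type*} [CommGroup A] [CommGroup B] (hA : Cfsg.HasSchurMultiplier G A) (hB : Cfsg.HasSchurMultiplier P B) : ∃ C D : Subgroup B, C ⊓ D = ⊥ ∧ C ⊔ D = ⊤ ∧ Nonempty (CommGroup.primaryComponent A p ≃* C) := by
  exact main p (P : Subgroup G) P.not_dvd_index hA hB

end Cfsg.Agent.S3953
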