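import Cfsg.Statements.S3954
import Mathlib
import Cfsg.Agent.Lib.Helper21.Hopf

set_option autoImplicit false
open Cfsg
open Cfsg.Agent.Lib.Helper21

namespace Cfsg.Agent.S3954

lemma exists_injective_of_surjective {B : Type*} [CommGroup B] [Finite B] {D : Type*} [Group D]
    (θ : B →* D) (hθ : Function.Surjective θ) : ∃ ι : D →* B, Function.Injective ι := by
  let _ : CommGroup D := { (inferInstance : Group D) with
    mul_comm := by
      intro a b
      obtain ⟨x, rfl⟩ := hθ a
      obtain ⟨y, rfl⟩ := hθ b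
      rw [← map_mul, ← map_mul, mul_comm] }
  have : Finite D := Finite.of_surjective θ hθ
  obtain ⟨eB⟩ := CommGroup.monoidHom_mulEquiv_of_hasEnoughRootsOfUnity B ℂ
  obtain ⟨eD⟩ := CommGroup.monoidHom_mulEquiv_of_hasEnoughRootsOfUnity D ℂ
  let c : (D →* ℂˣ) →* (B →* ℂˣ) :=
    { toFun := fun χ => χ.comp θ
      map_one' := rfl
      map_mul' := fun _ _ => rfl }
  have hc : Function.Injective c := by
    intro χ₁ χ₂ h
    apply MonoidHom.ext
    intro d
    obtain ⟨b, rfl⟩ := hθ d
    exact DFunLike.congr_fun h b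
  exact ⟨eB.toMonoidHom.comp (c.comp eD.symm.toMonoidHom),
    eB.injective.comp (hc.comp eD.symm.injective)⟩

/-- Let `U` be a subgroup of index `m` in the finite group `G`, let `A` be the Schur multiplier of `G` and `B` that of `U`. Then the subgroup of `m`-th powers of `A` is isomorphic to a subgroup of `B`. -/
theorem result {G : Type*} [Group G] [Finite G] (U : Subgroup G) {A B : Type*} [CommGroup A] [CommGroup B] (hA : Cfsg.HasSchurMultiplier G A) (hB : Cfsg.HasSchurMultiplier U B) : ∃ C : Subgroup B, Nonempty ((powMonoidHom U.index : A →* A).range ≃* C) := by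
  classical
  obtain ⟨Γ, _, _, σ, hσ, ⟨e⟩⟩ := hA.1
  obtain ⟨Γ', _, _, σ', hσ', ⟨e'⟩⟩ := hB.1
  have : Finite B := Finite.of_equiv _ e'.toEquiv
  set m := U.index with hm
  let H : Subgroup Γ := U.comap σ
  have hidx : H.index = m := Subgroup.index_comap_of_surjective U hσ.1
  let ξ : H →* U := σ.subgroupComap U
  have hξs : Function.Surjective ξ := MonoidHom.subgroupComap_surjective_of_surjective σ U hσ.1
  have hξk : ∀ k : H, k ∈ ξ.ker ↔ (k : Γ) ∈ σ.ker := by
    intro k
    rw [MonoidHom.mem_ker, MonoidHom.mem_ker]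
    constructor
    · intro h; exact congrArg Subtype.val h
    · intro h; exact Subtype.ext h
  have hξc : ξ.ker ≤ Subgroup.center H := by
    intro k hk
    rw [Subgroup.mem_center_iff]
    intro g
    apply Subtype.ext
    exact Subgroup.mem_center_iff.1 (hσ.2.1 ((hξk k).1 hk)) g
  obtain ⟨θ, hθ⟩ := schur_key hB ξ hξs hξc
  obtain ⟨ι, hι⟩ := exists_injective_of_surjective θ hθ
  have hKH : ∀ k ∈ σ.ker, k ∈ H := by
    intro k hk
    change σ k ∈ U
    rw [(MonoidHom.mem_ker).1 hk]; exact U.one_mem
  have htr : ∀ k (hk : k ∈ σ.ker), (⟨k ^ m, hKH _ (σ.ker.pow_mem hk m)⟩ : H) ∈ commutator H := by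
    intro k hk
    have hfi : H.FiniteIndex := inferInstance
    have h1 := MonoidHom.transfer_eq_pow (H := H) (Abelianization.of (G := H)) k (by
      intro j g₀ _
      have := Subgroup.mem_center_iff.1 (hσ.2.1 (σ.ker.pow_mem hk j)) g₀
      rw [mul_assoc, ← this]; group)
    have h2 : MonoidHom.transfer (H := H) (Abelianization.of (G := H)) k = 1 :=
      Abelianization.commutator_subset_ker _ (hσ.2.2 hk)
    rw [h2] at h1
    rw [← Abelianization.ker_of, MonoidHom.mem_ker]
    rw [h1]
    congr 2
    rw [hidx]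
  let j : (powMonoidHom m : A →* A).range →* H :=
    { toFun := fun a => ⟨(e.symm (a : A) : Γ), hKH _ (e.symm (a : A)).2⟩
      map_one' := by ext; simp
      map_mul' := by intro a b; ext; simp }
  have hj : Function.Injective j := by
    intro a b hab
    have h1 : (e.symm (a : A) : Γ) = (e.symm (b : A) : Γ) := congrArg (fun x : H => (x : Γ)) hab
    exact Subtype.ext (e.symm.injective (Subtype.ext h1))
  have hjD : ∀ a, j a ∈ (ξ.ker ⊓ commutator H : Subgroup H) := by
    rintro ⟨_, ⟨a₀, rfl⟩⟩
    refine Subgroup.mem_inf.2 ⟨(hξk _).2 (e.symm _).2, ?_⟩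
    have := htr (e.symm a₀ : Γ) (e.symm a₀).2
    convert this using 1
    apply Subtype.ext
    simp [j]
  let ψ : (powMonoidHom m : A →* A).range →* B := ι.comp (j.codRestrict _ hjD)
  have hψ : Function.Injective ψ := by
    apply hι.comp
    intro a b hab
    exact hj (congrArg Subtype.val hab)
  exact ⟨ψ.range, ⟨MonoidHom.ofInjective hψ⟩⟩

end Cfsg.Agent.S3954
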