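import Cfsg.Statements.S3955
import Mathlib
import Cfsg.Agent.Lib.Helper21.ProjRep

set_option autoImplicit false
open Cfsg
open Cfsg.Agent.Lib.Helper21

namespace Cfsg.Agent.S3955

/-- Let `Q` be a finite group with Schur multiplier `A`, and let `σ : Γ →* Q` be a finite stem extension whose kernel is isomorphic to `A` (a Schur covering group of `Q`). Then every homomorphism `γ` from `Q` to the quotient of `GL n ℂ` by its centre lifts along `σ`: there is a homomorphism `ρ : Γ →* GL n ℂ` which, followed by the quotient map, equals `γ ∘ σ`. -/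
theorem result {Q : Type*} [Group Q] [Finite Q] {A : Type*} [CommGroup A] (hA : Cfsg.HasSchurMultiplier Q A) {Γ : Type*} [Group Γ] [Finite Γ] (σ : Γ →* Q) (hσ : Cfsg.IsStemExtension σ) (hk : Nonempty (σ.ker ≃* A)) (n : ℕ) (γ : Q →* (GL (Fin n) ℂ ⧸ Subgroup.center (GL (Fin n) ℂ))) : ∃ ρ : Γ →* GL (Fin n) ℂ, (QuotientGroup.mk' (Subgroup.center (GL (Fin n) ℂ))).comp ρ = γ.comp σ := by
  classical
  set C := Subgroup.center (GL (Fin n) ℂ) with hC
  let X : Subgroup (Q × GL (Fin n) ℂ) :=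
    (γ.comp (MonoidHom.fst _ _)).eqLocus ((QuotientGroup.mk' C).comp (MonoidHom.snd _ _))
  have hX : ∀ x : X, γ x.1.1 = QuotientGroup.mk' C x.1.2 := fun x => x.2
  let ξ : X →* Q := (MonoidHom.fst _ _).comp X.subtype
  have hξs : Function.Surjective ξ := by
    intro q
    obtain ⟨M, hM⟩ := QuotientGroup.mk'_surjective C (γ q)
    exact ⟨⟨(q, M), hM.symm⟩, rfl⟩
  have hξk : ∀ x : X, ξ x = 1 → x.1.2 ∈ C := by
    intro x hx
    have h1 : x.1.1 = 1 := hx
    have := hX x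
    rw [h1, map_one] at this
    exact (QuotientGroup.eq_one_iff _).1 this.symm
  have hξc : ξ.ker ≤ Subgroup.center X := by
    intro x hx
    rw [Subgroup.mem_center_iff]
    intro y
    apply Subtype.ext
    apply Prod.ext
    · have h1 : x.1.1 = 1 := hx
      simp [h1]
    · exact Subgroup.mem_center_iff.1 (hξk x hx) y.1.2
  obtain ⟨f, hf⟩ := fce_lift ξ hξs hξc
  obtain ⟨g, hg⟩ := fce_lift σ hσ.1 hσ.2.1
  have hf' : ∀ e, ξ (f e) = fcePi Q e := fun e => DFunLike.congr_fun hf e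
  have hg' : ∀ e, σ (g e) = fcePi Q e := fun e => DFunLike.congr_fun hg e
  have hmap := fceT_map σ hσ.2.1 g hg
  rw [inf_eq_left.2 hσ.2.2] at hmap
  have hgs : Function.Surjective g := by
    intro d
    obtain ⟨e, he⟩ := fcePi_surjective Q (σ d)
    have hk : (g e)⁻¹ * d ∈ σ.ker := by
      rw [MonoidHom.mem_ker, map_mul, map_inv, hg', he]; simp
    rw [← hmap] at hk
    obtain ⟨t, _, ht⟩ := hk
    refine ⟨e * t, ?_⟩
    rw [map_mul, ht]; group
  obtain ⟨eA⟩ := schur_equiv hA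
  obtain ⟨ek⟩ := hk
  have hfinT := fceT_finite Q
  have hcard : Nat.card (fceT Q) = Nat.card σ.ker := Nat.card_congr (eA.symm.trans ek.symm).toEquiv
  let gT : fceT Q → σ.ker := fun t => ⟨g t, hmap ▸ Subgroup.mem_map_of_mem _ t.2⟩
  have hgTs : Function.Surjective gT := by
    rintro ⟨k, hk⟩
    rw [← hmap] at hk
    obtain ⟨t, ht, rfl⟩ := hk
    exact ⟨⟨t, ht⟩, rfl⟩
  have hgTi : Function.Injective gT :=
    (Function.Surjective.bijective_of_nat_card_le hgTs hcard.le).1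
  have hS : g.ker ⊓ commutator (FCE Q) = ⊥ := by
    rw [eq_bot_iff]
    intro x hx
    obtain ⟨h1, h2⟩ := Subgroup.mem_inf.1 hx
    have h3 : x ∈ fceT Q := Subgroup.mem_inf.2
      ⟨by rw [MonoidHom.mem_ker, ← hg', (MonoidHom.mem_ker).1 h1, map_one], h2⟩
    have h4 : gT ⟨x, h3⟩ = gT 1 := by
      apply Subtype.ext
      change g x = g 1
      rw [(MonoidHom.mem_ker).1 h1, map_one]
    have := hgTi h4
    rw [Subgroup.mem_bot]
    exact congrArg Subtype.val this
  let l : g.ker →* C :=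
    { toFun := fun s => ⟨(f s).1.2,
        hξk _ (by rw [hf', ← hg', (MonoidHom.mem_ker).1 s.2, map_one])⟩
      map_one' := by apply Subtype.ext; simp
      map_mul' := by intro a b; apply Subtype.ext; simp }
  obtain ⟨μ, hμ⟩ := exists_extend_hom
    (fun a b : C => Subtype.ext (Subgroup.mem_center_iff.1 b.2 (a : GL (Fin n) ℂ)))
    (center_gl_div n) g.ker hS l
  let ρ₀ : FCE Q →* GL (Fin n) ℂ :=
    { toFun := fun e => (f e).1.2 * ((μ e : GL (Fin n) ℂ))⁻¹
      map_one' := by simp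
      map_mul' := by
        intro a b
        have hc := Subgroup.mem_center_iff.1 (C.inv_mem (μ a).2)
          ((f b).1.2 * ((μ b : GL (Fin n) ℂ))⁻¹)
        have e1 : (f (a * b)).1.2 = (f a).1.2 * (f b).1.2 := by simp
        have e2 : ((μ (a * b) : C) : GL (Fin n) ℂ) = (μ a : GL (Fin n) ℂ) * (μ b : GL (Fin n) ℂ) := by
          simp
        rw [e1, e2, mul_inv_rev, mul_assoc, ← mul_assoc (f b).1.2, hc, mul_assoc] }
  have hker : g.ker ≤ ρ₀.ker := by
    intro s hs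
    rw [MonoidHom.mem_ker]
    have h1 := hμ ⟨s, hs⟩
    have h2 : ((μ s : C) : GL (Fin n) ℂ) = (f s).1.2 := congrArg Subtype.val h1
    change (f s).1.2 * ((μ s : GL (Fin n) ℂ))⁻¹ = 1
    rw [h2, mul_inv_cancel]
  obtain ⟨ρ, hρ⟩ := exists_descend g hgs ρ₀ hker
  refine ⟨ρ, ?_⟩
  apply MonoidHom.ext
  intro x
  obtain ⟨e, rfl⟩ := hgs x
  have h1 : ρ (g e) = ρ₀ e := DFunLike.congr_fun hρ e
  change QuotientGroup.mk' C (ρ (g e)) = γ (σ (g e))
  rw [h1, hg', ← hf']
  change QuotientGroup.mk' C ((f e).1.2 * ((μ e : GL (Fin n) ℂ))⁻¹) = γ (f e).1.1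
  rw [hX, map_mul, map_inv]
  have h2 : QuotientGroup.mk' C (μ e : GL (Fin n) ℂ) = 1 :=
    (QuotientGroup.eq_one_iff _).2 (μ e).2
  rw [h2]; simp

end Cfsg.Agent.S3955
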