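import Cfsg.Statements.S3956
import Mathlib
import Cfsg.Agent.Lib.Helper21.ProjRep
import Cfsg.Agent.Lib.Helper21.MonoRep
import Cfsg.Agent.Lib.Helper21.Pullback

set_option autoImplicit false
universe u v
open Cfsg
open Cfsg.Agent.Lib.Helper21

namespace Cfsg.Agent.S3956

/-- Let `σ : Γ →* Q` be a finite stem extension of the finite group `Q` such that every homomorphism from `Q` to the quotient of `GL n ℂ` by its centre, for every `n`, lifts along `σ` to a homomorphism `Γ →* GL n ℂ`. Then `σ` is a Schur covering group of `Q`: for every finite stem extension `τ : Δ →* Q` with `Δ` in the same universe as `Q`, the kernel of `τ` is a homomorphic image of the kernel of `σ`. -/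
theorem result {Q : Type u} [Group Q] [Finite Q] {Γ : Type v} [Group Γ] [Finite Γ] (σ : Γ →* Q) (hσ : Cfsg.IsStemExtension σ) (hlift : ∀ (n : ℕ) (γ : Q →* (GL (Fin n) ℂ ⧸ Subgroup.center (GL (Fin n) ℂ))), ∃ ρ : Γ →* GL (Fin n) ℂ, (QuotientGroup.mk' (Subgroup.center (GL (Fin n) ℂ))).comp ρ = γ.comp σ) (Δ : Type u) [Group Δ] [Finite Δ] (τ : Δ →* Q) (hτ : Cfsg.IsStemExtension τ) : ∃ π : σ.ker →* τ.ker, Function.Surjective π := by
  classical
  apply pullback_surj σ hσ τ hτ
  intro p hp hp1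
  by_contra hne
  have hl1 : p.1.2 ≠ 1 := by
    intro h
    exact hne (Subtype.ext (Prod.ext hp1 h))
  have hl : p.1.2 ∈ τ.ker := by
    rw [MonoidHom.mem_ker, ← pullback_spec σ τ p, hp1, map_one]
  obtain ⟨n, R, hRc, hRl⟩ := exists_rep_central τ.ker hτ.2.1 p.1.2 hl hl1
  set C := Subgroup.center (GL (Fin n) ℂ) with hC
  obtain ⟨γ, hγ⟩ := exists_descend τ hτ.1 ((QuotientGroup.mk' C).comp R) (by
    intro z hz
    rw [MonoidHom.mem_ker]
    exact (QuotientGroup.eq_one_iff _).2 (hRc z hz))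
  obtain ⟨ρ, hρ⟩ := hlift n γ
  have hmem : ∀ q : pullback σ τ, (ρ q.1.1)⁻¹ * R q.1.2 ∈ C := by
    intro q
    rw [← QuotientGroup.eq]
    have h1 : QuotientGroup.mk' C (ρ q.1.1) = γ (σ q.1.1) := DFunLike.congr_fun hρ q.1.1
    have h2 : γ (τ q.1.2) = QuotientGroup.mk' C (R q.1.2) := DFunLike.congr_fun hγ q.1.2
    rw [pullback_spec σ τ q, h2] at h1
    exact h1
  let μ : pullback σ τ →* C :=
    { toFun := fun q => ⟨(ρ q.1.1)⁻¹ * R q.1.2, hmem q⟩
      map_one' := by apply Subtype.ext; simp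
      map_mul' := by
        intro a b
        apply Subtype.ext
        have hc := Subgroup.mem_center_iff.1 (hmem a) (ρ b.1.1)⁻¹
        change (ρ (a.1.1 * b.1.1))⁻¹ * R (a.1.2 * b.1.2) =
          ((ρ a.1.1)⁻¹ * R a.1.2) * ((ρ b.1.1)⁻¹ * R b.1.2)
        rw [map_mul, map_mul, mul_inv_rev, ← mul_assoc ((ρ a.1.1)⁻¹ * R a.1.2), ← hc]
        group }
  have hμ : μ p = 1 := commutator_le_ker_of_comm
    (fun a b : C => Subtype.ext (Subgroup.mem_center_iff.1 b.2 (a : GL (Fin n) ℂ))) μ hp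
  have h3 : (ρ p.1.1)⁻¹ * R p.1.2 = 1 := congrArg Subtype.val hμ
  rw [hp1, map_one, inv_one, one_mul] at h3
  exact hRl h3

end Cfsg.Agent.S3956
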