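import Cfsg.Statements.S3957
import Mathlib
import Cfsg.Agent.Lib.Helper21.Hopf

set_option autoImplicit false
universe u v
open Cfsg
open Cfsg.Agent.Lib.Helper21

namespace Cfsg.Agent.S3957

/-- Let `Q` be a finite group with Schur multiplier `A` and let `τ : Δ →* Q` be a finite stem extension, `Δ` in the universe of `Q`. Then there is a finite stem extension `σ : Γ →* Q` with kernel isomorphic to `A` (a Schur covering group) and a surjective homomorphism `β : Γ →* Δ` with `τ ∘ β = σ`. -/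
theorem result {Q : Type u} [Group Q] [Finite Q] {A : Type v} [CommGroup A] (hA : Cfsg.HasSchurMultiplier Q A) {Δ : Type u} [Group Δ] [Finite Δ] (τ : Δ →* Q) (hτ : Cfsg.IsStemExtension τ) : ∃ (Γ : Type u) (_ : Group Γ) (_ : Finite Γ) (σ : Γ →* Q), Cfsg.IsStemExtension σ ∧ Nonempty (σ.ker ≃* A) ∧ ∃ β : Γ →* Δ, Function.Surjective β ∧ τ.comp β = σ := by
  classical
  obtain ⟨f, hf⟩ := fce_lift τ hτ.1 hτ.2.1
  have hf' : ∀ e, τ (f e) = fcePi Q e := fun e => DFunLike.congr_fun hf e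
  have hmap := fceT_map τ hτ.2.1 f hf
  rw [inf_eq_left.2 hτ.2.2] at hmap
  have hfs : Function.Surjective f := by
    intro d
    obtain ⟨e, he⟩ := fcePi_surjective Q (τ d)
    have hk : (f e)⁻¹ * d ∈ τ.ker := by
      rw [MonoidHom.mem_ker, map_mul, map_inv, hf', he]; simp
    rw [← hmap] at hk
    obtain ⟨t, _, ht⟩ := hk
    refine ⟨e * t, ?_⟩
    rw [map_mul, ht]; group
  have hN : f.ker ≤ (fcePi Q).ker := by
    intro x hx
    rw [MonoidHom.mem_ker, ← hf', (MonoidHom.mem_ker).1 hx, map_one]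
  obtain ⟨S, hSN, hS1, hS2⟩ := exists_complement Q f.ker hN
  have hS : S ≤ (fcePi Q).ker := hSN.trans hN
  have hnorm := normal_of_le_ker S hS
  have hS2' : ∀ z ∈ (fcePi Q).ker, ∃ s ∈ S, s⁻¹ * z ∈ commutator (FCE Q) := by
    intro z hz
    have hk : f z ∈ τ.ker := by rw [MonoidHom.mem_ker, hf']; exact hz
    rw [← hmap] at hk
    obtain ⟨t, ht, htz⟩ := hk
    have hn : z * t⁻¹ ∈ f.ker := by
      rw [MonoidHom.mem_ker, map_mul, map_inv, htz]; simp
    obtain ⟨s, hs, hsn⟩ := hS2 _ hn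
    refine ⟨s, hs, ?_⟩
    have : s⁻¹ * z = (s⁻¹ * (z * t⁻¹)) * t := by group
    rw [this]
    exact Subgroup.mul_mem _ hsn ht.2
  obtain ⟨hfin, hstem, ⟨e⟩⟩ := cover_of_complement S hS hS1 hS2'
  obtain ⟨eA⟩ := schur_equiv hA
  refine ⟨FCE Q ⧸ S, inferInstance, hfin, _, hstem, ⟨e.trans eA.symm⟩,
    QuotientGroup.lift S f (fun _ hx => hSN hx), ?_, ?_⟩
  · intro d
    obtain ⟨x, hx⟩ := hfs d
    exact ⟨QuotientGroup.mk x, hx⟩
  · apply MonoidHom.ext
    intro x
    obtain ⟨y, rfl⟩ := QuotientGroup.mk_surjective x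
    exact hf' y

end Cfsg.Agent.S3957
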