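import Cfsg.Statements.S3958
import Mathlib
import Cfsg.Agent.Lib.Helper21.Hopf

set_option autoImplicit false
universe u v
open Cfsg
open Cfsg.Agent.Lib.Helper21

namespace Cfsg.Agent.S3958

lemma comm_surj {X : Type*} {Y : Type*} [Group X] [Group Y] (f : X →* Y) (hs : Function.Surjective f)
    (y : Y) (hy : y ∈ commutator Y) : ∃ x : X, x ∈ commutator X ∧ f x = y := by
  have h1 : (commutator X).map f = commutator Y := by
    rw [commutator_def, Subgroup.map_commutator, ← MonoidHom.range_eq_map,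
      MonoidHom.range_eq_top.2 hs, commutator_def]
  rw [← h1] at hy
  obtain ⟨x, hx, rfl⟩ := hy
  exact ⟨x, hx, rfl⟩

/-- Let `σ : Γ →* Q` be a finite stem extension of the finite group `Q` with `Γ` of trivial Schur multiplier. Then `σ` is a Schur covering group of `Q`: for every finite stem extension `τ : Δ →* Q` with `Δ` in the same universe as `Q`, the kernel of `τ` is a homomorphic image of the kernel of `σ`. -/
theorem result {Q : Type u} [Group Q] [Finite Q] {Γ : Type v} [Group Γ] [Finite Γ] (σ : Γ →* Q) (hσ : Cfsg.IsStemExtension σ) (hΓ : Cfsg.HasCyclicSchurMultiplier Γ 1) (Δ : Type u) [Group Δ] [Finite Δ] (τ : Δ →* Q) (hτ : Cfsg.IsStemExtension τ) : ∃ π : σ.ker →* τ.ker, Function.Surjective π := by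
  classical
  let P : Subgroup (Γ × Δ) := (σ.comp (MonoidHom.fst Γ Δ)).eqLocus (τ.comp (MonoidHom.snd Γ Δ))
  have hP : ∀ p : P, σ p.1.1 = τ p.1.2 := fun p => p.2
  let ξ : P →* Γ := (MonoidHom.fst Γ Δ).comp P.subtype
  let η : P →* Δ := (MonoidHom.snd Γ Δ).comp P.subtype
  have hξs : Function.Surjective ξ := by
    intro g
    obtain ⟨d, hd⟩ := hτ.1 (σ g)
    exact ⟨⟨(g, d), hd.symm⟩, rfl⟩
  have hηs : Function.Surjective η := by
    intro d
    obtain ⟨g, hg⟩ := hσ.1 (τ d)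
    exact ⟨⟨(g, d), hg⟩, rfl⟩
  have hξc : ξ.ker ≤ Subgroup.center P := by
    intro p hp
    have hp1 : p.1.1 = 1 := hp
    have hp2 : p.1.2 ∈ τ.ker := by rw [MonoidHom.mem_ker, ← hP, hp1, map_one]
    rw [Subgroup.mem_center_iff]
    intro q
    apply Subtype.ext
    apply Prod.ext
    · simp [hp1]
    · exact Subgroup.mem_center_iff.1 (hτ.2.1 hp2) q.1.2
  obtain ⟨θ, hθ⟩ := schur_key hΓ ξ hξs hξc
  have htriv : ∀ p : P, p ∈ commutator P → ξ p = 1 → p = 1 := by
    intro p hp1 hp2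
    obtain ⟨a, ha⟩ := hθ ⟨p, Subgroup.mem_inf.2 ⟨hp2, hp1⟩⟩
    have : a = 1 := Subsingleton.elim _ _
    rw [this, map_one] at ha
    exact (congrArg Subtype.val ha).symm
  have huniq : ∀ p q : P, p ∈ commutator P → q ∈ commutator P → ξ p = ξ q → p = q := by
    intro p q hp hq h
    have := htriv (p * q⁻¹) (mul_mem hp (inv_mem hq)) (by rw [map_mul, map_inv, h]; simp)
    exact mul_inv_eq_one.1 this
  have hex : ∀ k : σ.ker, ∃ w : P, w ∈ commutator P ∧ ξ w = k :=
    fun k => comm_surj ξ hξs k (hσ.2.2 k.2)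
  choose w hw1 hw2 using hex
  have hση : ∀ p : P, τ (η p) = σ (ξ p) := fun p => (hP p).symm
  let π : σ.ker →* τ.ker :=
    { toFun := fun k => ⟨η (w k), by rw [MonoidHom.mem_ker, hση, hw2]; exact k.2⟩
      map_one' := by
        apply Subtype.ext
        have : w 1 = 1 := huniq _ _ (hw1 1) (one_mem _) (by rw [hw2]; simp)
        simp [this]
      map_mul' := by
        intro a b
        apply Subtype.ext
        have : w (a * b) = w a * w b :=
          huniq _ _ (hw1 _) (mul_mem (hw1 a) (hw1 b)) (by rw [hw2, map_mul, hw2, hw2]; rfl)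
        simp [this] }
  refine ⟨π, ?_⟩
  rintro ⟨l, hl⟩
  obtain ⟨p, hp1, hp2⟩ := comm_surj η hηs l (hτ.2.2 hl)
  have hk : ξ p ∈ σ.ker := by rw [MonoidHom.mem_ker, ← hση, hp2]; exact hl
  refine ⟨⟨ξ p, hk⟩, ?_⟩
  apply Subtype.ext
  have : w ⟨ξ p, hk⟩ = p := huniq _ _ (hw1 _) hp1 (hw2 _)
  change η (w ⟨ξ p, hk⟩) = l
  rw [this, hp2]

end Cfsg.Agent.S3958
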