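import Cfsg.Statements.S3959
import Mathlib
import Cfsg.Agent.Lib.Helper21.Hopf
import Cfsg.Agent.Lib.Helper21.BilinExt
import Cfsg.Agent.Lib.Helper21.Pullback

set_option autoImplicit false
universe u v w
open Cfsg
open Cfsg.Agent.Lib.Helper21

namespace Cfsg.Agent.S3959

open TensorProduct

lemma hcprod (X : Type*) (Y : Type*) [Group X] [Group Y] :
    commutator (X × Y) = (commutator X).prod (commutator Y) := by
  rw [commutator_def, commutator_def, commutator_def, ← Subgroup.commutator_prod_prod,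
    Subgroup.top_prod_top]

lemma finite_tensor (M N : Type*) [AddCommGroup M] [AddCommGroup N] [Finite M] [Finite N] :
    Finite (TensorProduct ℤ M N) := by
  have hfin : Module.Finite ℤ (TensorProduct ℤ M N) := Module.Finite.tensorProduct ℤ M N
  apply Module.finite_of_fg_torsion
  intro t
  refine ⟨⟨(Nat.card M : ℤ), ?_⟩, ?_⟩
  · rw [mem_nonZeroDivisors_iff_ne_zero]
    exact_mod_cast Nat.card_pos.ne'
  · change (Nat.card M : ℤ) • t = 0
    induction t using TensorProduct.induction_on with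
    | zero => simp
    | tmul m n =>
      rw [TensorProduct.smul_tmul', natCast_zsmul, card_nsmul_eq_zero', TensorProduct.zero_tmul]
    | add a b ha hb => rw [smul_add, ha, hb, add_zero]

/-- abbreviation for the tensor product of the abelianizations -/
abbrev TT (Q₁ : Type u) (Q₂ : Type v) [Group Q₁] [Group Q₂] :=
  TensorProduct ℤ (Additive (Abelianization Q₁)) (Additive (Abelianization Q₂))

section part1
variable {Q₁ : Type u} {Q₂ : Type v} [Group Q₁] [Group Q₂]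
  {Γ₁ : Type u} {Γ₂ : Type v} [Group Γ₁] [Group Γ₂] (σ₁ : Γ₁ →* Q₁) (σ₂ : Γ₂ →* Q₂)

/-- the cocycle -/
def bet : BiMul (Γ₁ × Γ₂) (Multiplicative (TT Q₁ Q₂)) where
  toFun g h := Multiplicative.ofAdd
    (Additive.ofMul (Abelianization.of (σ₁ g.1)) ⊗ₜ[ℤ] Additive.ofMul (Abelianization.of (σ₂ h.2)))
  map_mul_left g h k := by
    rw [← ofAdd_add, ← TensorProduct.add_tmul]
    simp
  map_mul_right g h k := by
    rw [← ofAdd_add, ← TensorProduct.tmul_add]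
    simp

lemma bet_left (g h : Γ₁ × Γ₂) (hg : σ₁ g.1 = 1) : (bet σ₁ σ₂).toFun g h = 1 := by
  change Multiplicative.ofAdd (Additive.ofMul (Abelianization.of (σ₁ g.1)) ⊗ₜ[ℤ] _) = 1
  rw [hg, map_one, ofMul_one, TensorProduct.zero_tmul]; rfl

lemma bet_right (g h : Γ₁ × Γ₂) (hh : σ₂ h.2 = 1) : (bet σ₁ σ₂).toFun g h = 1 := by
  change Multiplicative.ofAdd (_ ⊗ₜ[ℤ] Additive.ofMul (Abelianization.of (σ₂ h.2))) = 1
  rw [hh, map_one, ofMul_one, TensorProduct.tmul_zero]; rfl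

/-- first factor -/
def j₁ : Γ₁ →* BExt (bet σ₁ σ₂) where
  toFun g := ⟨(g, 1), 1⟩
  map_one' := rfl
  map_mul' a b := by
    ext
    · simp
    · simp
    · simp [bet_right σ₁ σ₂ (a, 1) (b, 1) (map_one _)]

/-- second factor -/
def j₂ : Γ₂ →* BExt (bet σ₁ σ₂) where
  toFun g := ⟨(1, g), 1⟩
  map_one' := rfl
  map_mul' a b := by
    ext
    · simp
    · simp
    · simp [bet_left σ₁ σ₂ (1, a) (1, b) (map_one _)]

/-- the total projection -/
def sig : BExt (bet σ₁ σ₂) →* Q₁ × Q₂ := (MonoidHom.prodMap σ₁ σ₂).comp (BExt.proj _)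

lemma mem_ker_sig (x : BExt (bet σ₁ σ₂)) :
    x ∈ (sig σ₁ σ₂).ker ↔ σ₁ x.fst.1 = 1 ∧ σ₂ x.fst.2 = 1 := by
  rw [MonoidHom.mem_ker]
  change (σ₁ x.fst.1, σ₂ x.fst.2) = 1 ↔ _
  rw [Prod.ext_iff]; rfl

lemma map_comm_le {X Y : Type*} [Group X] [Group Y] (f : X →* Y) (x : X) (hx : x ∈ commutator X) :
    f x ∈ commutator Y := by
  have h1 : (commutator X).map f ≤ commutator Y := by
    rw [commutator_def, Subgroup.map_commutator, commutator_def]
    exact Subgroup.commutator_mono le_top le_top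
  exact h1 (Subgroup.mem_map_of_mem _ hx)

lemma incl_mem_comm (h₁ : Function.Surjective σ₁) (h₂ : Function.Surjective σ₂) (t : TT Q₁ Q₂) :
    BExt.incl (bet σ₁ σ₂) (Multiplicative.ofAdd t) ∈ commutator (BExt (bet σ₁ σ₂)) := by
  induction t using TensorProduct.induction_on with
  | zero => rw [ofAdd_zero, map_one]; exact one_mem _
  | tmul a b =>
    obtain ⟨q₁, hq₁⟩ := QuotientGroup.mk_surjective (Additive.toMul a)
    obtain ⟨q₂, hq₂⟩ := QuotientGroup.mk_surjective (Additive.toMul b)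
    obtain ⟨g, rfl⟩ := h₁ q₁
    obtain ⟨h, rfl⟩ := h₂ q₂
    have hc := BExt.comm_eq (bet σ₁ σ₂) (j₁ σ₁ σ₂ g) (j₂ σ₁ σ₂ h) (by
      change ((g, 1) : Γ₁ × Γ₂) * (1, h) = (1, h) * (g, 1)
      simp)
    have e1 : (bet σ₁ σ₂).toFun (j₂ σ₁ σ₂ h).fst (j₁ σ₁ σ₂ g).fst = 1 :=
      bet_left σ₁ σ₂ _ _ (map_one _)
    have e2 : (bet σ₁ σ₂).toFun (j₁ σ₁ σ₂ g).fst (j₂ σ₁ σ₂ h).fst = Multiplicative.ofAdd (a ⊗ₜ[ℤ] b) := by
      change Multiplicative.ofAdd (Additive.ofMul (Abelianization.of (σ₁ g)) ⊗ₜ[ℤ]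
        Additive.ofMul (Abelianization.of (σ₂ h))) = _
      have ea : Additive.ofMul (Abelianization.of (σ₁ g)) = a := hq₁
      have eb : Additive.ofMul (Abelianization.of (σ₂ h)) = b := hq₂
      rw [ea, eb]
    rw [e1, e2, inv_one, mul_one] at hc
    rw [← hc, commutator_def, ← commutatorElement_def]
    exact Subgroup.commutator_mem_commutator (Subgroup.mem_top _) (Subgroup.mem_top _)
  | add a b ha hb => rw [ofAdd_add, map_mul]; exact mul_mem ha hb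

lemma decomp (x : BExt (bet σ₁ σ₂)) (hx : σ₁ x.fst.1 = 1) :
    x = j₁ σ₁ σ₂ x.fst.1 * j₂ σ₁ σ₂ x.fst.2 * BExt.incl _ x.snd := by
  ext
  · simp [j₁, j₂, BExt.incl]
  · simp [j₁, j₂, BExt.incl]
  · have e1 : (bet σ₁ σ₂).toFun (x.fst.1, 1) (1, x.fst.2) = 1 := bet_left σ₁ σ₂ _ _ hx
    have e2 : ∀ g, (bet σ₁ σ₂).toFun g 1 = 1 := fun g => (bet σ₁ σ₂).one_right g
    simp [j₁, j₂, BExt.incl, e1, e2]

lemma sig_stem (h₁ : Cfsg.IsStemExtension σ₁) (h₂ : Cfsg.IsStemExtension σ₂) :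
    Cfsg.IsStemExtension (sig σ₁ σ₂) := by
  refine ⟨?_, ?_, ?_⟩
  · exact (Function.Surjective.prodMap h₁.1 h₂.1).comp (BExt.proj_surjective _)
  · intro x hx
    obtain ⟨hx1, hx2⟩ := (mem_ker_sig σ₁ σ₂ x).1 hx
    rw [Subgroup.mem_center_iff]
    intro y
    ext
    · exact Subgroup.mem_center_iff.1 (h₁.2.1 hx1) y.fst.1
    · exact Subgroup.mem_center_iff.1 (h₂.2.1 hx2) y.fst.2
    · simp only [BExt.mul_snd]
      rw [bet_left σ₁ σ₂ x.fst y.fst hx1, bet_right σ₁ σ₂ y.fst x.fst hx2, mul_comm x.snd]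
  · intro x hx
    obtain ⟨hx1, hx2⟩ := (mem_ker_sig σ₁ σ₂ x).1 hx
    rw [decomp σ₁ σ₂ x hx1]
    exact mul_mem (mul_mem (map_comm_le _ _ (h₁.2.2 hx1)) (map_comm_le _ _ (h₂.2.2 hx2)))
      (incl_mem_comm σ₁ σ₂ h₁.1 h₂.1 (Multiplicative.toAdd x.snd))

/-- the kernel -/
def kerSig : (sig σ₁ σ₂).ker ≃* σ₁.ker × σ₂.ker × Multiplicative (TT Q₁ Q₂) where
  toFun x := (⟨x.1.fst.1, ((mem_ker_sig σ₁ σ₂ x.1).1 x.2).1⟩,
    ⟨x.1.fst.2, ((mem_ker_sig σ₁ σ₂ x.1).1 x.2).2⟩, x.1.snd)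
  invFun y := ⟨⟨(y.1.1, y.2.1.1), y.2.2⟩, (mem_ker_sig σ₁ σ₂ _).2 ⟨y.1.2, y.2.1.2⟩⟩
  left_inv x := rfl
  right_inv y := rfl
  map_mul' x y := by
    refine Prod.ext rfl (Prod.ext rfl ?_)
    change x.1.snd * y.1.snd * (bet σ₁ σ₂).toFun x.1.fst y.1.fst = x.1.snd * y.1.snd
    rw [bet_left σ₁ σ₂ _ _ ((mem_ker_sig σ₁ σ₂ x.1).1 x.2).1, mul_one]

end part1

lemma comm_mul_left {X : Type*} [Group X] (a b y : X) (h : b * y * b⁻¹ * y⁻¹ ∈ Subgroup.center X) :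
    (a * b) * y * (a * b)⁻¹ * y⁻¹ = (a * y * a⁻¹ * y⁻¹) * (b * y * b⁻¹ * y⁻¹) := by
  have hz := Subgroup.mem_center_iff.1 h a
  have hz2 := Subgroup.mem_center_iff.1 h (a * y * a⁻¹ * y⁻¹)
  rw [hz2]
  calc (a * b) * y * (a * b)⁻¹ * y⁻¹
      = (a * (b * y * b⁻¹ * y⁻¹)) * y * a⁻¹ * y⁻¹ := by group
    _ = ((b * y * b⁻¹ * y⁻¹) * a) * y * a⁻¹ * y⁻¹ := by rw [hz]
    _ = _ := by group

lemma comm_mul_right {X : Type*} [Group X] (x a b : X) (h : x * b * x⁻¹ * b⁻¹ ∈ Subgroup.center X) :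
    x * (a * b) * x⁻¹ * (a * b)⁻¹ = (x * a * x⁻¹ * a⁻¹) * (x * b * x⁻¹ * b⁻¹) := by
  have hz := Subgroup.mem_center_iff.1 h a⁻¹
  calc x * (a * b) * x⁻¹ * (a * b)⁻¹ = x * a * x⁻¹ * ((x * b * x⁻¹ * b⁻¹) * a⁻¹) := by group
    _ = x * a * x⁻¹ * (a⁻¹ * (x * b * x⁻¹ * b⁻¹)) := by rw [hz]
    _ = _ := by group

lemma descend_eq {H Q K : Type*} [Group H] [Group Q] [CommGroup K] (ξ : H →* Q)
    (hξ : Function.Surjective ξ) (φ : H →* K) (hk : ξ.ker ≤ φ.ker) (x x' : H)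
    (h : Abelianization.of (ξ x) = Abelianization.of (ξ x')) : φ x = φ x' := by
  have h1 : ξ (x⁻¹ * x') ∈ commutator Q := by
    rw [← Abelianization.ker_of, MonoidHom.mem_ker, map_mul, map_mul, map_inv, map_inv, h]; simp
  obtain ⟨d, hd, hdx⟩ := exists_mem_commutator_of_surjective ξ hξ _ h1
  have h2 : d⁻¹ * (x⁻¹ * x') ∈ ξ.ker := by
    rw [MonoidHom.mem_ker, map_mul, map_inv, hdx]; simp
  have h3 : φ d = 1 := Abelianization.commutator_subset_ker φ hd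
  have h4 : φ (d⁻¹ * (x⁻¹ * x')) = 1 := hk h2
  rw [map_mul, map_inv, h3, inv_one, one_mul, map_mul, map_inv] at h4
  exact (inv_mul_eq_one.1 h4)

lemma part2 {Q₁ : Type u} {Q₂ : Type v} [Group Q₁] [Group Q₂] [Finite Q₁] [Finite Q₂] {A B : Type w}
    [CommGroup A] [CommGroup B] (hA : Cfsg.HasSchurMultiplier Q₁ A) (hB : Cfsg.HasSchurMultiplier Q₂ B)
    (Γ : Type (max u v)) [Group Γ] [Finite Γ] (σ : Γ →* Q₁ × Q₂) (hσ : Cfsg.IsStemExtension σ) :
    ∃ π : A × B × Multiplicative (TT Q₁ Q₂) →* σ.ker, Function.Surjective π := by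
  classical
  let p₁ : Γ →* Q₁ := (MonoidHom.fst Q₁ Q₂).comp σ
  let p₂ : Γ →* Q₂ := (MonoidHom.snd Q₁ Q₂).comp σ
  let H₁ : Subgroup Γ := p₂.ker
  let H₂ : Subgroup Γ := p₁.ker
  let ξ₁ : H₁ →* Q₁ := p₁.comp H₁.subtype
  let ξ₂ : H₂ →* Q₂ := p₂.comp H₂.subtype
  have hker : ∀ g, p₁ g = 1 → p₂ g = 1 → g ∈ σ.ker := by
    intro g h1 h2
    rw [MonoidHom.mem_ker]; exact Prod.ext h1 h2
  have hξ₁s : Function.Surjective ξ₁ := by
    intro q
    obtain ⟨g, hg⟩ := hσ.1 (q, 1)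
    refine ⟨⟨g, ?_⟩, ?_⟩
    · change (σ g).2 = 1; rw [hg]
    · change (σ g).1 = q; rw [hg]
  have hξ₂s : Function.Surjective ξ₂ := by
    intro q
    obtain ⟨g, hg⟩ := hσ.1 (1, q)
    refine ⟨⟨g, ?_⟩, ?_⟩
    · change (σ g).1 = 1; rw [hg]
    · change (σ g).2 = q; rw [hg]
  have hξ₁k : ∀ k ∈ ξ₁.ker, (k : Γ) ∈ σ.ker := fun k hk => hker _ hk k.2
  have hξ₂k : ∀ k ∈ ξ₂.ker, (k : Γ) ∈ σ.ker := fun k hk => hker _ k.2 hk
  have hξ₁c : ξ₁.ker ≤ Subgroup.center H₁ := by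
    intro k hk
    rw [Subgroup.mem_center_iff]
    intro g
    apply Subtype.ext
    exact Subgroup.mem_center_iff.1 (hσ.2.1 (hξ₁k k hk)) g
  have hξ₂c : ξ₂.ker ≤ Subgroup.center H₂ := by
    intro k hk
    rw [Subgroup.mem_center_iff]
    intro g
    apply Subtype.ext
    exact Subgroup.mem_center_iff.1 (hσ.2.1 (hξ₂k k hk)) g
  have hcc : ∀ x ∈ H₁, ∀ y ∈ H₂, x * y * x⁻¹ * y⁻¹ ∈ σ.ker := by
    intro x hx y hy
    apply hker
    · have : p₁ y = 1 := hy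
      simp [this]
    · have : p₂ x = 1 := hx
      simp [this]
  let _ : CommGroup σ.ker := { (inferInstance : Group σ.ker) with
    mul_comm := fun a b => Subtype.ext (Subgroup.mem_center_iff.1 (hσ.2.1 b.2) (a : Γ)) }
  let c : H₁ → H₂ → σ.ker := fun x y => ⟨x * y * (x : Γ)⁻¹ * (y : Γ)⁻¹, hcc x x.2 y y.2⟩
  have hcl : ∀ x x' y, c (x * x') y = c x y * c x' y := by
    intro x x' y
    apply Subtype.ext
    exact comm_mul_left (x : Γ) x' y (hσ.2.1 (hcc x' x'.2 y y.2))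
  have hcr : ∀ x y y', c x (y * y') = c x y * c x y' := by
    intro x y y'
    apply Subtype.ext
    exact comm_mul_right (x : Γ) y y' (hσ.2.1 (hcc x x.2 y' y'.2))
  have hW₁ : ∀ x x' y, Abelianization.of (ξ₁ x) = Abelianization.of (ξ₁ x') → c x y = c x' y := by
    intro x x' y h
    refine descend_eq ξ₁ hξ₁s (MonoidHom.mk' (fun x => c x y) (fun a b => hcl a b y)) ?_ x x' h
    intro k hk
    rw [MonoidHom.mem_ker]
    apply Subtype.ext
    change (k : Γ) * y * (k : Γ)⁻¹ * (y : Γ)⁻¹ = 1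
    rw [← Subgroup.mem_center_iff.1 (hσ.2.1 (hξ₁k k hk)) y]
    simp
  have hW₂ : ∀ x y y', Abelianization.of (ξ₂ y) = Abelianization.of (ξ₂ y') → c x y = c x y' := by
    intro x y y' h
    refine descend_eq ξ₂ hξ₂s (MonoidHom.mk' (fun y => c x y) (fun a b => hcr x a b)) ?_ y y' h
    intro k hk
    rw [MonoidHom.mem_ker]
    apply Subtype.ext
    change (x : Γ) * k * (x : Γ)⁻¹ * (k : Γ)⁻¹ = 1
    rw [Subgroup.mem_center_iff.1 (hσ.2.1 (hξ₂k k hk)) x]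
    simp
  have hs₁ : Function.Surjective (fun x : H₁ => Additive.ofMul (Abelianization.of (ξ₁ x))) := by
    intro a
    obtain ⟨q, hq⟩ := QuotientGroup.mk_surjective (Additive.toMul a)
    obtain ⟨x, rfl⟩ := hξ₁s q
    exact ⟨x, hq⟩
  have hs₂ : Function.Surjective (fun x : H₂ => Additive.ofMul (Abelianization.of (ξ₂ x))) := by
    intro a
    obtain ⟨q, hq⟩ := QuotientGroup.mk_surjective (Additive.toMul a)
    obtain ⟨x, rfl⟩ := hξ₂s q
    exact ⟨x, hq⟩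
  let F : Additive (Abelianization Q₁) → Additive (Abelianization Q₂) → Additive σ.ker :=
    fun a b => Additive.ofMul (c (Function.surjInv hs₁ a) (Function.surjInv hs₂ b))
  have hF : ∀ x y, F (Additive.ofMul (Abelianization.of (ξ₁ x))) (Additive.ofMul (Abelianization.of (ξ₂ y)))
      = Additive.ofMul (c x y) := by
    intro x y
    change Additive.ofMul (c _ _) = _
    congr 1
    rw [hW₁ _ x _ (Function.surjInv_eq hs₁ (Additive.ofMul (Abelianization.of (ξ₁ x)))),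
      hW₂ _ _ y (Function.surjInv_eq hs₂ (Additive.ofMul (Abelianization.of (ξ₂ y))))]
  have hFl : ∀ a a' b, F (a + a') b = F a b + F a' b := by
    intro a a' b
    obtain ⟨x, rfl⟩ := hs₁ a
    obtain ⟨x', rfl⟩ := hs₁ a'
    obtain ⟨y, rfl⟩ := hs₂ b
    have e1 : Additive.ofMul (Abelianization.of (ξ₁ x)) + Additive.ofMul (Abelianization.of (ξ₁ x'))
        = Additive.ofMul (Abelianization.of (ξ₁ (x * x'))) := by
      rw [map_mul, map_mul]; rfl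
    simp only []
    rw [e1, hF, hF, hF, hcl]; rfl
  have hFr : ∀ a b b', F a (b + b') = F a b + F a b' := by
    intro a b b'
    obtain ⟨x, rfl⟩ := hs₁ a
    obtain ⟨y, rfl⟩ := hs₂ b
    obtain ⟨y', rfl⟩ := hs₂ b'
    have e1 : Additive.ofMul (Abelianization.of (ξ₂ y)) + Additive.ofMul (Abelianization.of (ξ₂ y'))
        = Additive.ofMul (Abelianization.of (ξ₂ (y * y'))) := by
      rw [map_mul, map_mul]; rfl
    simp only []
    rw [e1, hF, hF, hF, hcr]; rfl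
  let F' : Additive (Abelianization Q₁) →+ Additive (Abelianization Q₂) →+ Additive σ.ker :=
    AddMonoidHom.mk' (fun a => AddMonoidHom.mk' (F a) (hFr a)) (by
      intro a a'
      apply AddMonoidHom.ext
      intro b
      exact hFl a a' b)
  let tm : TT Q₁ Q₂ →+ Additive σ.ker := TensorProduct.liftAddHom F' (by
    intro r m n
    rw [map_zsmul, map_zsmul]; rfl)
  have htm : ∀ x y, tm (Additive.ofMul (Abelianization.of (ξ₁ x)) ⊗ₜ[ℤ]
      Additive.ofMul (Abelianization.of (ξ₂ y))) = Additive.ofMul (c x y) := fun x y => hF x y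
  let f₃ : Multiplicative (TT Q₁ Q₂) →* σ.ker :=
    { toFun := fun t => Additive.toMul (tm (Multiplicative.toAdd t))
      map_one' := by simp
      map_mul' := by intro a b; simp }
  let D : Subgroup Γ := (σ.ker.subtype.comp f₃).range
  have hDk : D ≤ σ.ker := by rintro _ ⟨t, rfl⟩; exact (f₃ t).2
  have hDn : D.Normal := by
    constructor
    intro d hd g
    rw [Subgroup.mem_center_iff.1 (hσ.2.1 (hDk hd)) g]
    simpa using hd
  have hcD : ∀ (x : H₁) (y : H₂), (x : Γ) * y * (x : Γ)⁻¹ * (y : Γ)⁻¹ ∈ D := by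
    intro x y
    refine ⟨Multiplicative.ofAdd (Additive.ofMul (Abelianization.of (ξ₁ x)) ⊗ₜ[ℤ]
      Additive.ofMul (Abelianization.of (ξ₂ y))), ?_⟩
    change ((Additive.toMul (tm _) : σ.ker) : Γ) = _
    rw [toAdd_ofAdd, htm]
    rfl
  let μ : H₁ × H₂ →* Γ ⧸ D := MonoidHom.noncommCoprod ((QuotientGroup.mk' D).comp H₁.subtype)
    ((QuotientGroup.mk' D).comp H₂.subtype) (by
      intro x y
      change (QuotientGroup.mk' D (x : Γ)) * (QuotientGroup.mk' D (y : Γ)) =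
        (QuotientGroup.mk' D (y : Γ)) * (QuotientGroup.mk' D (x : Γ))
      rw [← map_mul, ← map_mul]
      have e1 : (x : Γ) * y = ((x : Γ) * y * (x : Γ)⁻¹ * (y : Γ)⁻¹) * (y * x) := by group
      rw [e1, map_mul]
      have e2 : QuotientGroup.mk' D ((x : Γ) * y * (x : Γ)⁻¹ * (y : Γ)⁻¹) = 1 :=
        (QuotientGroup.eq_one_iff _).2 (hcD x y)
      rw [e2, one_mul])
  have hμ : ∀ a b, μ (a, b) = QuotientGroup.mk' D ((a : Γ) * (b : Γ)) := fun a b => rfl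
  have hμs : Function.Surjective μ := by
    intro g'
    obtain ⟨g, rfl⟩ := QuotientGroup.mk_surjective g'
    obtain ⟨x, hx⟩ := hξ₁s (p₁ g)
    refine ⟨(x, ⟨(x : Γ)⁻¹ * g, ?_⟩), ?_⟩
    · change p₁ ((x : Γ)⁻¹ * g) = 1
      have : p₁ (x : Γ) = p₁ g := hx
      rw [map_mul, map_inv, this]; simp
    · rw [hμ]; simp
  obtain ⟨θ₁, hθ₁⟩ := schur_key hA ξ₁ hξ₁s hξ₁c
  obtain ⟨θ₂, hθ₂⟩ := schur_key hB ξ₂ hξ₂s hξ₂c
  let f₁ : A →* σ.ker :=
    { toFun := fun a => ⟨((θ₁ a : H₁) : Γ), hξ₁k _ (θ₁ a).2.1⟩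
      map_one' := by apply Subtype.ext; simp
      map_mul' := by intro a b; apply Subtype.ext; simp }
  let f₂ : B →* σ.ker :=
    { toFun := fun a => ⟨((θ₂ a : H₂) : Γ), hξ₂k _ (θ₂ a).2.1⟩
      map_one' := by apply Subtype.ext; simp
      map_mul' := by intro a b; apply Subtype.ext; simp }
  refine ⟨MonoidHom.coprod f₁ (MonoidHom.coprod f₂ f₃), ?_⟩
  rintro ⟨k, hk⟩
  obtain ⟨⟨a, b⟩, hw, hwk⟩ := exists_mem_commutator_of_surjective μ hμs (QuotientGroup.mk' D k)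
    (map_comm_le _ _ (hσ.2.2 hk))
  rw [hcprod] at hw
  rw [hμ] at hwk
  have hd : ((a : Γ) * b)⁻¹ * k ∈ D := QuotientGroup.eq.1 hwk
  have hdk := hDk hd
  have hab : (a : Γ) * b ∈ σ.ker := by
    have := σ.ker.mul_mem hk (σ.ker.inv_mem hdk)
    convert this using 1
    group
  have ha : a ∈ ξ₁.ker := by
    have h1 : p₁ ((a : Γ) * b) = 1 := by
      change (σ ((a : Γ) * b)).1 = 1; rw [(MonoidHom.mem_ker).1 hab]; rfl
    rw [map_mul] at h1
    have h2 : p₁ (b : Γ) = 1 := b.2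
    rw [h2, mul_one] at h1
    exact h1
  have hb : b ∈ ξ₂.ker := by
    have h1 : p₂ ((a : Γ) * b) = 1 := by
      change (σ ((a : Γ) * b)).2 = 1; rw [(MonoidHom.mem_ker).1 hab]; rfl
    rw [map_mul] at h1
    have h2 : p₂ (a : Γ) = 1 := a.2
    rw [h2, one_mul] at h1
    exact h1
  obtain ⟨α, hα⟩ := hθ₁ ⟨a, Subgroup.mem_inf.2 ⟨ha, hw.1⟩⟩
  obtain ⟨β, hβ⟩ := hθ₂ ⟨b, Subgroup.mem_inf.2 ⟨hb, hw.2⟩⟩
  obtain ⟨t, ht⟩ := hd
  refine ⟨(α, β, t), ?_⟩
  apply Subtype.ext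
  change ((θ₁ α : H₁) : Γ) * (((θ₂ β : H₂) : Γ) * ((f₃ t : σ.ker) : Γ)) = k
  have ht' : ((f₃ t : σ.ker) : Γ) = ((a : Γ) * b)⁻¹ * k := ht
  rw [hα, hβ, ht']
  group

/-- Let `Q₁` and `Q₂` be finite groups with Schur multipliers `A` and `B`. Then the Schur multiplier of `Q₁ × Q₂` is isomorphic to `A × B × (Q₁ᵃᵇ ⊗ Q₂ᵃᵇ)`, the last factor being the tensor product over the integers of the commutator quotients, written multiplicatively. -/
theorem result {Q₁ : Type u} {Q₂ : Type v} [Group Q₁] [Group Q₂] [Finite Q₁] [Finite Q₂] {A B : Type w} [CommGroup A] [CommGroup B] (hA : Cfsg.HasSchurMultiplier Q₁ A) (hB : Cfsg.HasSchurMultiplier Q₂ B) : Cfsg.HasSchurMultiplier (Q₁ × Q₂) (A × B × Multiplicative (TensorProduct ℤ (Additive (Abelianization Q₁)) (Additive (Abelianization Q₂)))) := by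
  constructor
  · obtain ⟨Γ₁, _, _, σ₁, h₁, ⟨e₁⟩⟩ := hA.1
    obtain ⟨Γ₂, _, _, σ₂, h₂, ⟨e₂⟩⟩ := hB.1
    have hfT : Finite (Multiplicative (TT Q₁ Q₂)) := finite_tensor _ _
    exact ⟨BExt (bet σ₁ σ₂), inferInstance, inferInstance, sig σ₁ σ₂, sig_stem σ₁ σ₂ h₁ h₂,
      ⟨(kerSig σ₁ σ₂).trans (MulEquiv.prodCongr e₁ (MulEquiv.prodCongr e₂ (MulEquiv.refl _)))⟩⟩
  · intro Γ _ _ σ hσ
    exact part2 hA hB Γ σ hσ

end Cfsg.Agent.S3959
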