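import Cfsg.Statements.S3960
import Mathlib
import Cfsg.Agent.Lib.Helper21.FreeCentral

set_option autoImplicit false
universe u
open Cfsg
open Cfsg.Agent.Lib.Helper21

namespace Cfsg.Agent.S3960

/-- A finite perfect group `Q` has a universal central extension: a finite perfect group `G` in the universe of `Q` and a surjective homomorphism `π : G →* Q` with central kernel such that for every group `X` in that universe and every surjective homomorphism `ξ : X →* Q` with central kernel there is exactly one homomorphism `η : G →* X` with `ξ ∘ η = π`. -/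
theorem result {Q : Type u} [Group Q] [Finite Q] (hQ : Group.IsPerfect Q) : ∃ (G : Type u) (_ : Group G) (_ : Finite G) (π : G →* Q), Group.IsPerfect G ∧ Function.Surjective π ∧ π.ker ≤ Subgroup.center G ∧ ∀ (X : Type u) [Group X] (ξ : X →* Q), Function.Surjective ξ → ξ.ker ≤ Subgroup.center X → ∃! η : G →* X, ξ.comp η = π := by
  have hs := fcePi_surjective Q
  have hc := fcePi_ker_le_center Q
  have hperf : Group.IsPerfect (commutator (FCE Q)) :=
    commutator_isPerfect_of_central_perfect hQ (fcePi Q) hs hc
  refine ⟨commutator (FCE Q), inferInstance, finite_commutator_of_central (fcePi Q) hc,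
    (fcePi Q).comp (commutator (FCE Q)).subtype, hperf,
    commutator_map_surjective_of_perfect hQ (fcePi Q) hs, ?_, ?_⟩
  · intro k hk
    have h1 : (k : FCE Q) ∈ Subgroup.center (FCE Q) := hc hk
    rw [Subgroup.mem_center_iff]
    intro g
    exact Subtype.ext (Subgroup.mem_center_iff.1 h1 g)
  · intro X _ ξ hξs hξc
    obtain ⟨f, hf⟩ := fce_lift ξ hξs hξc
    refine ⟨f.comp (commutator (FCE Q)).subtype, ?_, ?_⟩
    · change ξ.comp (f.comp (commutator (FCE Q)).subtype) = _
      rw [← MonoidHom.comp_assoc, hf]
    · intro η hη
      apply perfect_lift_unique hperf ξ hξc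
      rw [hη, ← MonoidHom.comp_assoc, hf]

end Cfsg.Agent.S3960
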