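import Cfsg.Statements.S3961
import Mathlib
import Cfsg.Agent.Lib.Helper21.FreeCentral
import Cfsg.Agent.Lib.Helper21.Schur

set_option autoImplicit false
universe u v
open Cfsg
open Cfsg.Agent.Lib.Helper21

namespace Cfsg.Agent.S3961

/-- Let `π : G →* Q` be a surjective homomorphism with central kernel from a finite perfect group `G` (a perfect cover of `Q`). Then `π` is universal, in the sense that every surjective homomorphism `ξ : X →* Q` with central kernel from a group `X` in the universe of `G` admits a homomorphism `η : G →* X` with `ξ ∘ η = π`, if and only if `G` has trivial Schur multiplier. -/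
theorem result {G : Type u} {Q : Type v} [Group G] [Group Q] [Finite G] (hG : Group.IsPerfect G) (π : G →* Q) (hπ : Function.Surjective π) (hker : π.ker ≤ Subgroup.center G) : (∀ (X : Type u) [Group X] (ξ : X →* Q), Function.Surjective ξ → ξ.ker ≤ Subgroup.center X → ∃ η : G →* X, ξ.comp η = π) ↔ Cfsg.HasCyclicSchurMultiplier G 1 := by
  constructor
  · intro huniv
    apply hasTrivialSchurMultiplier_of
    intro Γ _ _ σ hσ
    obtain ⟨hs, hc, hd⟩ := hσ
    -- Γ is perfect
    have hΓ : Group.IsPerfect Γ := by
      constructor
      rw [eq_top_iff]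
      intro γ _
      obtain ⟨y, hy⟩ := commutator_map_surjective_of_perfect hG σ hs (σ γ)
      have h1 : (y : Γ)⁻¹ * γ ∈ σ.ker := by
        rw [MonoidHom.mem_ker, map_mul, map_inv]
        have : σ (y : Γ) = σ γ := hy
        rw [this]; simp
      have h2 : γ = (y : Γ) * ((y : Γ)⁻¹ * γ) := by group
      rw [h2]
      exact Subgroup.mul_mem _ y.2 (hd h1)
    have hξc : (π.comp σ).ker ≤ Subgroup.center Γ := by
      intro z hz
      apply perfect_mem_center_of_commutators hΓ
      intro g
      apply hc
      have hz' : σ z ∈ Subgroup.center G := hker hz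
      rw [MonoidHom.mem_ker, map_mul, map_mul, map_mul, map_inv, map_inv,
        ← Subgroup.mem_center_iff.1 hz' (σ g)]
      group
    obtain ⟨η, hη⟩ := huniv Γ (π.comp σ) (hπ.comp hs) hξc
    have hση : σ.comp η = MonoidHom.id G := by
      apply perfect_lift_unique hG π hker
      rw [← MonoidHom.comp_assoc, hη]
      rfl
    have hrange : η.range = ⊤ := by
      rw [eq_top_iff, ← hΓ.commutator_eq_top]
      refine (commutator_le_commutator_of_central_supplement η.range ?_).trans ?_
      · intro x
        refine ⟨η (σ x), ⟨_, rfl⟩, hc ?_⟩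
        rw [MonoidHom.mem_ker, map_mul, map_inv]
        have : σ (η (σ x)) = σ x := DFunLike.congr_fun hση (σ x)
        rw [this]; simp
      · rw [Subgroup.commutator_le]
        intro a ha b hb
        exact Subgroup.mul_mem _ (Subgroup.mul_mem _ (Subgroup.mul_mem _ ha hb) (Subgroup.inv_mem _ ha))
          (Subgroup.inv_mem _ hb)
    have hbot : σ.ker = ⊥ := by
      rw [eq_bot_iff]
      intro k hk
      have : k ∈ η.range := hrange ▸ Subgroup.mem_top k
      obtain ⟨g, rfl⟩ := this
      have h1 : σ (η g) = g := DFunLike.congr_fun hση g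
      rw [MonoidHom.mem_ker, h1] at hk
      rw [hk, map_one]; exact Subgroup.one_mem _
    rw [hbot]; simp
  · intro hmult X _ ξ hξs hξc
    -- the pullback
    let P : Subgroup (G × X) :=
      { carrier := {p | π p.1 = ξ p.2}
        one_mem' := by simp
        mul_mem' := by
          intro a b ha hb
          simp only [Set.mem_ofPred_eq, Prod.fst_mul, Prod.snd_mul, map_mul] at ha hb ⊢
          rw [ha, hb]
        inv_mem' := by
          intro a ha
          simp only [Set.mem_ofPred_eq, Prod.fst_inv, Prod.snd_inv, map_inv] at ha ⊢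
          rw [ha] }
    let pr1 : P →* G := (MonoidHom.fst G X).comp P.subtype
    let pr2 : P →* X := (MonoidHom.snd G X).comp P.subtype
    have hcomm : ∀ p : P, π (pr1 p) = ξ (pr2 p) := fun p => p.2
    have hpr1s : Function.Surjective pr1 := by
      intro g
      obtain ⟨x, hx⟩ := hξs (π g)
      exact ⟨⟨(g, x), hx.symm⟩, rfl⟩
    have hpr1c : pr1.ker ≤ Subgroup.center P := by
      intro k hk
      have h1 : pr1 k = 1 := hk
      have h2 : pr2 k ∈ Subgroup.center X := by
        apply hξc
        rw [MonoidHom.mem_ker, ← hcomm, h1, map_one]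
      rw [Subgroup.mem_center_iff]
      intro g
      apply Subtype.ext
      apply Prod.ext
      · change pr1 g * pr1 k = pr1 k * pr1 g
        rw [h1]; simp
      · exact Subgroup.mem_center_iff.1 h2 (pr2 g)
    have hfin : Finite (commutator P) := finite_commutator_of_central pr1 hpr1c
    have hperf : Group.IsPerfect (commutator P) :=
      commutator_isPerfect_of_central_perfect hG pr1 hpr1s hpr1c
    let σ : commutator P →* G := pr1.comp (commutator P).subtype
    have hσs : Function.Surjective σ := commutator_map_surjective_of_perfect hG pr1 hpr1s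
    have hσ : Cfsg.IsStemExtension σ := by
      refine ⟨hσs, ?_, ?_⟩
      · intro k hk
        have h1 : (k : P) ∈ Subgroup.center P := hpr1c hk
        rw [Subgroup.mem_center_iff]
        intro g
        exact Subtype.ext (Subgroup.mem_center_iff.1 h1 g)
      · rw [hperf.commutator_eq_top]; exact le_top
    obtain ⟨ρ, hρ⟩ := hmult.2 (commutator P) σ hσ
    have hinj : Function.Injective σ := by
      rw [injective_iff_map_eq_one]
      intro a ha
      obtain ⟨z, hz⟩ := hρ ⟨a, ha⟩
      have hz1 : z = 1 := Subsingleton.elim (α := ZMod 1) _ _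
      rw [hz1, map_one] at hz
      exact (congrArg Subtype.val hz).symm
    let e : commutator P ≃* G := MulEquiv.ofBijective σ ⟨hinj, hσs⟩
    refine ⟨(pr2.comp (commutator P).subtype).comp e.symm.toMonoidHom, ?_⟩
    ext g
    change ξ (pr2 ((e.symm g : commutator P) : P)) = π g
    rw [← hcomm]
    congr 1
    exact e.apply_symm_apply g

end Cfsg.Agent.S3961
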