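import Cfsg.Statements.S3963
import Mathlib
import Cfsg.Agent.Lib.Helper21.Schur
import Cfsg.Agent.Lib.Helper21.DihQuat

set_option autoImplicit false
open Cfsg

namespace Cfsg.Agent.S3963

/-- For every `n ≥ 1` the dicyclic (generalized quaternion) group of order `4 n` has trivial Schur multiplier. -/
theorem result (n : ℕ) [NeZero n] : Cfsg.HasCyclicSchurMultiplier (QuaternionGroup n) 1 := by
  apply Cfsg.Agent.Lib.Helper21.hasTrivialSchurMultiplier_of
  intro Γ _ _ σ hσ
  obtain ⟨x, hx⟩ := hσ.1 (QuaternionGroup.xa 0)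
  have := Cfsg.Agent.Lib.Helper21.qrot_normal n
  have h1 := Cfsg.Agent.Lib.Helper21.stem_card_count σ hσ (Cfsg.Agent.Lib.Helper21.qrot n)
    (Cfsg.Agent.Lib.Helper21.qrot_isCyclic n) x (by rw [hx]; exact Cfsg.Agent.Lib.Helper21.qrot_sup n)
  rw [hx] at h1
  have h2 := Cfsg.Agent.Lib.Helper21.card_qrot_inf_centralizer_le n
  rw [← h1] at h2
  -- the image contains a nontrivial element
  have h3 : 1 < Nat.card ((((Cfsg.Agent.Lib.Helper21.qrot n).comap σ) ⊓
      Subgroup.centralizer ({x} : Set Γ)).map σ) := by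
    rw [Subgroup.one_lt_card_iff_ne_bot]
    intro hbot
    have hmem : σ (x ^ 2) ∈ (((Cfsg.Agent.Lib.Helper21.qrot n).comap σ) ⊓
      Subgroup.centralizer ({x} : Set Γ)).map σ := by
      apply Subgroup.mem_map_of_mem
      refine Subgroup.mem_inf.2 ⟨?_, ?_⟩
      · rw [Subgroup.mem_comap, map_pow, hx, QuaternionGroup.xa_sq]
        exact (Cfsg.Agent.Lib.Helper21.mem_qrot n _).2 ⟨_, rfl⟩
      · rw [Subgroup.mem_centralizer_singleton_iff]
        group
    rw [hbot, Subgroup.mem_bot, map_pow, hx, QuaternionGroup.xa_sq, QuaternionGroup.one_def,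
      QuaternionGroup.a.injEq, ZMod.natCast_eq_zero_iff] at hmem
    have hn0 : 0 < n := Nat.pos_of_ne_zero (NeZero.ne n)
    have := Nat.le_of_dvd hn0 hmem
    omega
  have h4 : 0 < Nat.card σ.ker := Nat.card_pos
  nlinarith

end Cfsg.Agent.S3963
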