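import Cfsg.Statements.S3964
import Mathlib
import Cfsg.Agent.Lib.Helper21.Schur
import Cfsg.Agent.Lib.Helper21.DihQuat

set_option autoImplicit false
open Cfsg

namespace Cfsg.Agent.S3964

/-- For odd `n` the dihedral group of order `2 n` has trivial Schur multiplier. -/
theorem result (n : ℕ) (hn : Odd n) : Cfsg.HasCyclicSchurMultiplier (DihedralGroup n) 1 := by
  have : NeZero n := ⟨by rintro rfl; simp at hn⟩
  apply Cfsg.Agent.Lib.Helper21.hasTrivialSchurMultiplier_of
  intro Γ _ _ σ hσ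
  obtain ⟨x, hx⟩ := hσ.1 (DihedralGroup.sr 0)
  have := Cfsg.Agent.Lib.Helper21.rot_normal n
  have h1 := Cfsg.Agent.Lib.Helper21.stem_card_count σ hσ (Cfsg.Agent.Lib.Helper21.rot n)
    (Cfsg.Agent.Lib.Helper21.rot_isCyclic n) x (by rw [hx]; exact Cfsg.Agent.Lib.Helper21.rot_sup n)
  rw [hx, Cfsg.Agent.Lib.Helper21.rot_inf_centralizer_of_odd n hn, Subgroup.card_bot] at h1
  exact Nat.eq_one_of_mul_eq_one_right h1

end Cfsg.Agent.S3964
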