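import Cfsg.Statements.S3966
import Mathlib
import Cfsg.Agent.Lib.Helper21.DihQuat

set_option autoImplicit false
open Cfsg

namespace Cfsg.Agent.S3966

/-- the reduction `ZMod (2n) → ZMod n` -/
noncomputable def red (n : ℕ) : ZMod (2 * n) →+* ZMod n := ZMod.castHom (Dvd.intro_left 2 rfl) (ZMod n)

lemma red_n (n : ℕ) : red n (n : ZMod (2 * n)) = 0 := by
  rw [map_natCast]; exact ZMod.natCast_self n

/-- the covering map -/
noncomputable def cov (n : ℕ) : QuaternionGroup n →* DihedralGroup n where
  toFun g := match g with
    | QuaternionGroup.a i => DihedralGroup.r (red n i)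
    | QuaternionGroup.xa i => DihedralGroup.sr (red n i)
  map_one' := by
    rw [QuaternionGroup.one_def]
    simp
  map_mul' g h := by
    cases g <;> cases h <;> simp [map_add, map_sub]

/-- For even `n ≥ 2` the dicyclic group of order `4 n` is a stem extension of the dihedral group of order `2 n` with kernel of order `2`: there is a surjective homomorphism `QuaternionGroup n →* DihedralGroup n` whose kernel is central, lies in the commutator subgroup and has two elements. Together with the order of the multiplier this exhibits the dicyclic group as a Schur covering group of the dihedral group. -/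
theorem result (n : ℕ) [NeZero n] (hn : Even n) : ∃ σ : QuaternionGroup n →* DihedralGroup n, Cfsg.IsStemExtension σ ∧ Nat.card σ.ker = 2 := by
  have hsurj : Function.Surjective (cov n) := by
    intro d
    cases d with
    | r i =>
      obtain ⟨j, hj⟩ := ZMod.castHom_surjective (Dvd.intro_left 2 rfl : n ∣ 2 * n) i
      exact ⟨QuaternionGroup.a j, congrArg DihedralGroup.r hj⟩
    | sr i =>
      obtain ⟨j, hj⟩ := ZMod.castHom_surjective (Dvd.intro_left 2 rfl : n ∣ 2 * n) i
      exact ⟨QuaternionGroup.xa j, congrArg DihedralGroup.sr hj⟩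
  have hcard : Nat.card (cov n).ker = 2 := by
    have h1 : Nat.card (cov n).ker * (cov n).ker.index = Nat.card (QuaternionGroup n) :=
      Subgroup.card_mul_index _
    rw [Subgroup.index_ker, MonoidHom.range_eq_top_of_surjective _ hsurj, Subgroup.card_top,
      DihedralGroup.nat_card, Nat.card_eq_fintype_card (α := QuaternionGroup n), QuaternionGroup.card] at h1
    have hn0 : 0 < n := Nat.pos_of_ne_zero (NeZero.ne n)
    nlinarith
  have hnn : (n : ZMod (2 * n)) + n = 0 := by
    rw [← Nat.cast_add, ← two_mul]; exact ZMod.natCast_self _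
  have hmemk : QuaternionGroup.a (n : ZMod (2 * n)) ∈ (cov n).ker := by
    rw [MonoidHom.mem_ker]
    change DihedralGroup.r (red n n) = 1
    rw [red_n]; rfl
  have hne : QuaternionGroup.a (n : ZMod (2 * n)) ≠ (1 : QuaternionGroup n) := by
    rw [QuaternionGroup.one_def]
    intro h
    rw [QuaternionGroup.a.injEq, ZMod.natCast_eq_zero_iff] at h
    have hn0 : 0 < n := Nat.pos_of_ne_zero (NeZero.ne n)
    have := Nat.le_of_dvd hn0 h
    omega
  have hker : ∀ k ∈ (cov n).ker, k = 1 ∨ k = QuaternionGroup.a (n : ZMod (2 * n)) := by
    intro k hk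
    by_contra hcon
    push Not at hcon
    have h3 : 2 < Nat.card (cov n).ker := by
      rw [Nat.card_eq_fintype_card]
      exact Fintype.two_lt_card_iff.2 ⟨⟨k, hk⟩, 1, ⟨_, hmemk⟩,
        fun h => hcon.1 (congrArg Subtype.val h), fun h => hcon.2 (congrArg Subtype.val h),
        fun h => hne (congrArg Subtype.val h).symm⟩
    omega
  refine ⟨cov n, ⟨hsurj, ?_, ?_⟩, hcard⟩
  · intro k hk
    rcases hker k hk with rfl | rfl
    · exact Subgroup.one_mem _
    · rw [Subgroup.mem_center_iff]
      intro g
      cases g with
      | a j => simp [add_comm]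
      | xa j =>
        simp only [QuaternionGroup.xa_mul_a, QuaternionGroup.a_mul_xa, QuaternionGroup.xa.injEq]
        calc j + (n : ZMod (2 * n)) = j - n + (n + n) := by ring
          _ = j - n := by rw [hnn, add_zero]
  · intro k hk
    rcases hker k hk with rfl | rfl
    · exact Subgroup.one_mem _
    · obtain ⟨m, hm⟩ := hn
      have h1 : (QuaternionGroup.xa (0 : ZMod (2 * n)) : QuaternionGroup n) *
          (QuaternionGroup.a (m : ZMod (2 * n)) : QuaternionGroup n) *
          (QuaternionGroup.xa (0 : ZMod (2 * n)) : QuaternionGroup n)⁻¹ *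
          (QuaternionGroup.a (m : ZMod (2 * n)) : QuaternionGroup n)⁻¹ ∈
          commutator (QuaternionGroup n) := by
        rw [commutator_def]
        exact Subgroup.commutator_mem_commutator (Subgroup.mem_top _) (Subgroup.mem_top _)
      convert h1 using 1
      rw [Cfsg.Agent.Lib.Helper21.inv_xa', Cfsg.Agent.Lib.Helper21.inv_a']
      simp only [QuaternionGroup.xa_mul_a, QuaternionGroup.xa_mul_xa, QuaternionGroup.a_mul_a,
        QuaternionGroup.a.injEq]
      have hm' : (n : ZMod (2 * n)) = m + m := by rw [hm]; push_cast; ring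
      calc (n : ZMod (2 * n)) = n + n - n := by ring
        _ = n + n - (m + m) := by rw [← hm']
        _ = (n : ZMod (2 * n)) + (n + 0) - (0 + m) + -m := by ring

end Cfsg.Agent.S3966
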