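import Cfsg.Statements.S3965
import Mathlib
import Cfsg.Agent.Lib.Helper21.Schur
import Cfsg.Agent.Lib.Helper21.DihQuat
import Cfsg.Agent.S3966

set_option autoImplicit false
open Cfsg

namespace Cfsg.Agent.S3965

/-- For even `n ≥ 2` the dihedral group of order `2 n` has Schur multiplier cyclic of order `2`. -/
theorem result (n : ℕ) [NeZero n] (hn : Even n) : Cfsg.HasCyclicSchurMultiplier (DihedralGroup n) 2 := by
  have hcyc2 : ∀ {K : Type} [Group K], Nat.card K ∣ 2 → IsCyclic K := by
    intro K _ hK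
    rcases (Nat.dvd_prime Nat.prime_two).1 hK with h | h
    · have : Subsingleton K := (Nat.card_eq_one_iff_unique.1 h).1
      infer_instance
    · have := Fact.mk Nat.prime_two
      exact isCyclic_of_prime_card h
  apply Cfsg.Agent.Lib.Helper21.hasCyclicSchurMultiplier_of
  · obtain ⟨σ, hσ, hc⟩ := Cfsg.Agent.S3966.result n hn
    exact ⟨QuaternionGroup n, inferInstance, inferInstance, σ, hσ, hcyc2 (by rw [hc]), hc⟩
  · intro Γ _ _ σ hσ
    obtain ⟨x, hx⟩ := hσ.1 (DihedralGroup.sr 0)
    have := Cfsg.Agent.Lib.Helper21.rot_normal n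
    have h1 := Cfsg.Agent.Lib.Helper21.stem_card_count σ hσ (Cfsg.Agent.Lib.Helper21.rot n)
      (Cfsg.Agent.Lib.Helper21.rot_isCyclic n) x (by rw [hx]; exact Cfsg.Agent.Lib.Helper21.rot_sup n)
    rw [hx] at h1
    have h2 := Cfsg.Agent.Lib.Helper21.card_rot_inf_centralizer_le n
    have h3 : Nat.card σ.ker ∣ 2 := by
      have h4 : Nat.card σ.ker ∣ Nat.card (Cfsg.Agent.Lib.Helper21.rot n ⊓
          Subgroup.centralizer ({DihedralGroup.sr 0} : Set (DihedralGroup n)) : Subgroup _) :=
        Dvd.intro _ h1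
      have h5 : 0 < Nat.card (Cfsg.Agent.Lib.Helper21.rot n ⊓
          Subgroup.centralizer ({DihedralGroup.sr 0} : Set (DihedralGroup n)) : Subgroup _) := Nat.card_pos
      have h6 : Nat.card (Cfsg.Agent.Lib.Helper21.rot n ⊓
          Subgroup.centralizer ({DihedralGroup.sr 0} : Set (DihedralGroup n)) : Subgroup _) ∣ 2 := by
        interval_cases (Nat.card (Cfsg.Agent.Lib.Helper21.rot n ⊓
          Subgroup.centralizer ({DihedralGroup.sr 0} : Set (DihedralGroup n)) : Subgroup _)) <;> simp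
      exact h4.trans h6
    exact ⟨hcyc2 h3, h3⟩

end Cfsg.Agent.S3965
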