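import Cfsg.Statements.S3968
import Cfsg.Agent.Lib.Helper2.CharBurn
import Cfsg.Agent.Lib.Helper2.CharDeg
import Cfsg.Agent.Lib.Helper7.CharBasic

set_option autoImplicit false
open Cfsg

namespace Cfsg.Agent.S3968

open Cfsg.Agent.Lib.Helper2 in
/-- An element acting as a scalar in a faithful representation is central. -/
theorem central_of_norm {G : Type*} [Group G] [Finite G] {n : ℕ}
    (ρ : Representation ℂ G (Fin n → ℂ))
    (hfaith : ∀ g : G, ρ.character g = ρ.character 1 → g = 1) (x : G)
    (hx : ‖ρ.character x‖ = (Module.finrank ℂ (Fin n → ℂ) : ℝ)) : x ∈ Subgroup.center G := by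
  obtain ⟨ω, hω⟩ := (norm_char_eq_iff ρ x).1 hx
  rw [Subgroup.mem_center_iff]
  intro g
  have h1 : ρ (g * x * g⁻¹ * x⁻¹) = 1 := by
    have hc : ρ g * ρ x = ρ x * ρ g := by
      rw [hω]
      ext v
      simp
    calc ρ (g * x * g⁻¹ * x⁻¹) = ρ g * ρ x * ρ g⁻¹ * ρ x⁻¹ := by simp only [map_mul]
      _ = ρ x * ρ g * ρ g⁻¹ * ρ x⁻¹ := by rw [hc]
      _ = ρ (x * g * g⁻¹ * x⁻¹) := by simp only [map_mul]
      _ = 1 := by simp
  have h2 : g * x * g⁻¹ * x⁻¹ = 1 := by
    apply hfaith
    simp only [Representation.character, h1, map_one]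
  calc g * x = (g * x * g⁻¹ * x⁻¹) * (x * g) := by group
    _ = x * g := by rw [h2, one_mul]

theorem list_sum_eq {P : Type*} (l : List (P → ℂ)) (c d : P) (h : ∀ ψ ∈ l, ψ c = ψ d) :
    l.sum c = l.sum d := by
  induction l with
  | nil => simp
  | cons a l ih =>
    rw [List.sum_cons, Pi.add_apply, Pi.add_apply, h a (by simp),
      ih (fun ψ hψ => h ψ (by simp [hψ]))]

/-- Let `p` be a prime and `G` a finite group with a faithful irreducible complex character of degree `p` (so `G` is an irreducible linear group in `p` variables). If `p ^ 2` divides the order of `G`, then the centre of `G` is nontrivial. -/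
theorem result {G : Type*} [Group G] [Finite G] (p : ℕ) (hp : p.Prime) (χ : Cfsg.IrrCharacter G) (hdeg : χ.1 1 = p) (hfaith : ∀ g : G, χ.1 g = χ.1 1 → g = 1) (hdiv : p ^ 2 ∣ Nat.card G) : Subgroup.center G ≠ ⊥ := by
  classical
  intro hZ
  haveI : Fact p.Prime := ⟨hp⟩
  obtain ⟨χ, n, ρ, hirr, rfl⟩ := χ
  haveI := hirr
  simp only at hdeg hfaith
  have hfr : Module.finrank ℂ (Fin n → ℂ) = n := by simp
  have hn : n = p := by
    rw [Representation.char_one, hfr] at hdeg
    exact_mod_cast hdeg
  have hcen : ∀ x : G, ‖ρ.character x‖ = (Module.finrank ℂ (Fin n → ℂ) : ℝ) → x = 1 := by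
    intro x hx
    have := central_of_norm ρ hfaith x hx
    rw [hZ] at this
    exact Subgroup.mem_bot.1 this
  obtain ⟨P⟩ : Nonempty (Sylow p G) := inferInstance
  have hPcard : Nat.card (P : Subgroup G) = p ^ (Nat.card G).factorization p :=
    P.card_eq_multiplicity
  have h2le : 2 ≤ (Nat.card G).factorization p :=
    (hp.pow_dvd_iff_le_factorization Nat.card_pos.ne').1 hdiv
  have hp2P : p ^ 2 ∣ Nat.card (P : Subgroup G) := by
    rw [hPcard]; exact pow_dvd_pow p h2le
  -- vanishing
  have hK : ∀ x : G, (P : Subgroup G) ≤ Subgroup.centralizer ({x} : Set G) → x ≠ 1 →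
      ρ.character x = 0 := by
    intro x hx hx1
    have hcop : Nat.Coprime (Module.finrank ℂ (Fin n → ℂ))
        (Subgroup.centralizer ({x} : Set G)).index := by
      rw [hfr, hn]
      rw [hp.coprime_iff_not_dvd]
      intro hd
      exact P.not_dvd_index (hd.trans (Subgroup.index_dvd_of_le hx))
    rcases Cfsg.Agent.Lib.Helper2.burnside_coprime ρ x hcop with h | h
    · exact h
    · exact absurd (hcen x h) hx1
  have hχ : Cfsg.IsCharacter G ρ.character := ⟨n, ρ, rfl⟩
  have hχP : Cfsg.IsCharacter (P : Subgroup G) (fun x : (P : Subgroup G) => ρ.character x) :=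
    Cfsg.Agent.Lib.Helper2.IsCharacter.restrict _ hχ
  obtain ⟨l, hl, hsum⟩ := Cfsg.Agent.Lib.Helper2.IsCharacter.exists_list_irr hχP
  by_cases hlin : ∀ ψ ∈ l, ψ 1 = 1
  · -- P abelian
    have hab : ∀ x y : (P : Subgroup G), x * y = y * x := by
      intro x y
      have h1 : l.sum (x * y * x⁻¹ * y⁻¹) = l.sum 1 := by
        apply list_sum_eq
        intro ψ hψ
        obtain ⟨f, hf⟩ := Cfsg.Agent.Lib.Helper7.exists_hom_of_linear
          (Cfsg.Agent.Lib.Helper2.IsIrrCharacter.isCharacter (hl ψ hψ)) (hlin ψ hψ)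
        rw [hf, hf]
        have : f (x * y * x⁻¹ * y⁻¹) = f 1 := by
          simp only [map_mul, map_inv, map_one]
          rw [mul_comm (f x) (f y)]
          simp
        rw [this]
      rw [← hsum] at h1
      have h2 : ((x * y * x⁻¹ * y⁻¹ : (P : Subgroup G)) : G) = 1 := hfaith _ h1
      have h3 : x * y * x⁻¹ * y⁻¹ = 1 := Subtype.ext h2
      calc x * y = (x * y * x⁻¹ * y⁻¹) * (y * x) := by group
        _ = y * x := by rw [h3, one_mul]
    have hvan : ∀ x : (P : Subgroup G), x ≠ 1 → ρ.character (x : G) = 0 := by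
      intro x hx
      apply hK
      · intro y hy
        rw [Subgroup.mem_centralizer_iff]
        intro z hz
        rw [Set.mem_singleton_iff] at hz
        subst hz
        have := hab x ⟨y, hy⟩
        exact congrArg Subtype.val this
      · intro h
        exact hx (Subtype.ext h)
    haveI : Fintype (P : Subgroup G) := Fintype.ofFinite _
    obtain ⟨m, hm⟩ := Cfsg.Agent.Lib.Helper2.IsCharacter.classInner_nat hχP
      (Cfsg.Agent.Lib.Helper2.IsCharacter.one (G := (P : Subgroup G)))
    have hs : ∑ g : (P : Subgroup G), ρ.character (g : G) * (starRingEnd ℂ) (1 : ℂ) = p := by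
      rw [Finset.sum_eq_single (1 : (P : Subgroup G))]
      · simp [hdeg]
      · intro b _ hb
        rw [hvan b hb, zero_mul]
      · intro h
        exact absurd (Finset.mem_univ _) h
    have hm2 : (p : ℂ) = (Nat.card (P : Subgroup G) : ℂ) * m := by
      rw [← hm, Cfsg.classInner, hs]
      have : (Nat.card (P : Subgroup G) : ℂ) ≠ 0 := by exact_mod_cast Nat.card_pos.ne'
      field_simp
    have hm3 : p = Nat.card (P : Subgroup G) * m := by exact_mod_cast hm2
    have hd : p ^ 2 ∣ p := hp2P.trans ⟨m, hm3⟩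
    have := Nat.le_of_dvd hp.pos hd
    nlinarith [hp.two_le]
  · -- some constituent of degree p
    push Not at hlin
    obtain ⟨ψ, hψl, hψ1⟩ := hlin
    obtain ⟨d, hd0, hd1, hdd⟩ := Cfsg.Agent.Lib.Helper2.IsIrrCharacter.exists_degree (hl ψ hψl)
    have hdne : d ≠ 1 := by
      intro h
      apply hψ1
      rw [hd1, h]; simp
    have hpd : p ∣ d := by
      rw [hPcard] at hdd
      obtain ⟨j, -, rfl⟩ := (Nat.dvd_prime_pow hp).1 hdd
      rcases Nat.eq_zero_or_pos j with rfl | hj
      · exact absurd (pow_zero p) hdne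
      · exact dvd_pow_self p hj.ne'
    obtain ⟨l1, l2, rfl⟩ := List.append_of_mem hψl
    have hφ : Cfsg.IsCharacter (P : Subgroup G) (l1.sum + l2.sum) :=
      Cfsg.Agent.Lib.Helper2.IsCharacter.add
        (Cfsg.Agent.Lib.Helper2.IsCharacter.list_sum l1 (fun a ha =>
          Cfsg.Agent.Lib.Helper2.IsIrrCharacter.isCharacter (hl a (by simp [ha]))))
        (Cfsg.Agent.Lib.Helper2.IsCharacter.list_sum l2 (fun a ha =>
          Cfsg.Agent.Lib.Helper2.IsIrrCharacter.isCharacter (hl a (by simp [ha]))))
    have hdecomp : (fun x : (P : Subgroup G) => ρ.character x) = ψ + (l1.sum + l2.sum) := by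
      rw [hsum, List.sum_append, List.sum_cons]
      abel
    obtain ⟨k, σ, hσ⟩ := hφ
    have hk : (p : ℂ) = d + k := by
      have := congrFun hdecomp 1
      simp only [Pi.add_apply, OneMemClass.coe_one] at this
      rw [← Pi.add_apply, ← hσ, hdeg, hd1, Representation.char_one] at this
      simpa using this
    have hk' : p = d + k := by exact_mod_cast hk
    have hdp : d = p ∧ k = 0 := by
      have := Nat.le_of_dvd hd0 hpd
      omega
    obtain ⟨hdp, hk0⟩ := hdp
    obtain ⟨n', τ, hτirr, hτ⟩ := hl ψ hψl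
    haveI := hτirr
    have hn' : n' = p := by
      rw [← hτ, Representation.char_one] at hd1
      have : (n' : ℂ) = d := by simpa using hd1
      have : n' = d := by exact_mod_cast this
      omega
    -- nontrivial centre of P
    haveI : Nontrivial (P : Subgroup G) := by
      rw [← Finite.one_lt_card_iff_nontrivial]
      have := Nat.le_of_dvd Nat.card_pos hp2P
      nlinarith [hp.two_le]
    haveI := P.2.center_nontrivial
    obtain ⟨z, hz⟩ := exists_ne (1 : Subgroup.center (P : Subgroup G))
    have hzc : ∀ g : (P : Subgroup G), g * (z : (P : Subgroup G)) = z * g := by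
      intro g
      exact Subgroup.mem_center_iff.1 z.2 g
    obtain ⟨c, hc⟩ := Cfsg.Agent.Lib.Helper2.schur τ (τ (z : (P : Subgroup G))) (by
      intro g
      have : τ (z : (P : Subgroup G)) * τ g = τ g * τ (z : (P : Subgroup G)) := by
        rw [← map_mul, ← map_mul, hzc g]
      exact this)
    have hnorm : ‖τ.character (z : (P : Subgroup G))‖ = (Module.finrank ℂ (Fin n' → ℂ) : ℝ) :=
      (Cfsg.Agent.Lib.Helper2.norm_char_eq_iff τ _).2 ⟨c, hc⟩
    have hσz : σ.character (z : (P : Subgroup G)) = 0 := by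
      have := Cfsg.Agent.Lib.Helper2.norm_char_le σ (z : (P : Subgroup G))
      have h0 : (Module.finrank ℂ (Fin k → ℂ) : ℝ) = 0 := by simp [hk0]
      rw [h0] at this
      exact norm_le_zero_iff.1 this
    have hval : ρ.character (((z : (P : Subgroup G)) : G)) = τ.character (z : (P : Subgroup G)) := by
      have := congrFun hdecomp (z : (P : Subgroup G))
      rw [this, Pi.add_apply, ← hσ, hσz, add_zero, hτ]
    have hz1 : (((z : (P : Subgroup G)) : G)) = 1 := by
      apply hcen
      rw [hval, hnorm]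
      simp [hn, hn']
    apply hz
    apply Subtype.ext
    apply Subtype.ext
    exact hz1

end Cfsg.Agent.S3968
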