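import Cfsg.Statements.S3969
import Mathlib.GroupTheory.Transfer

set_option autoImplicit false
open Cfsg

namespace Cfsg.Agent.S3969

theorem card_sup_dvd {A : Type*} [CommGroup A] (H K : Subgroup A) :
    Nat.card (H ⊔ K : Subgroup A) ∣ Nat.card H * Nat.card K := by
  have h1 : (⊥ : Subgroup A).relIndex H * H.relIndex (H ⊔ K) = (⊥ : Subgroup A).relIndex (H ⊔ K) :=
    Subgroup.relIndex_mul_relIndex _ _ _ bot_le le_sup_left
  rw [Subgroup.relIndex_bot_left, Subgroup.relIndex_bot_left, Subgroup.relIndex_sup_left] at h1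
  rw [← h1]
  exact Nat.mul_dvd_mul_left _ (Subgroup.relIndex_dvd_card H K)

theorem card_closure_dvd {A : Type*} [CommGroup A] [Finite A] (p : ℕ) (hexp : ∀ a : A, a ^ p = 1)
    (S : Finset A) : Nat.card (Subgroup.closure (S : Set A)) ∣ p ^ S.card := by
  classical
  induction S using Finset.induction_on with
  | empty => simp
  | insert a S ha ih =>
    rw [Finset.coe_insert, Finset.card_insert_of_notMem ha, Set.insert_eq, Subgroup.closure_union,
      pow_succ']
    refine (card_sup_dvd _ _).trans (Nat.mul_dvd_mul ?_ ih)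
    rw [← Subgroup.zpowers_eq_closure, Nat.card_zpowers]
    exact orderOf_dvd_of_pow_eq_one (hexp a)

theorem card_ker_pow_dvd {A : Type*} [CommGroup A] [Finite A] (p : ℕ) :
    Nat.card (powMonoidHom p : A →* A).ker ∣ p ^ Group.rank A := by
  classical
  set f : A →* A := powMonoidHom p with hf
  have h1 : Nat.card f.ker * f.ker.index = Nat.card A := Subgroup.card_mul_index _
  have h2 : Nat.card f.range * f.range.index = Nat.card A := Subgroup.card_mul_index _
  rw [Subgroup.index_ker] at h1
  have h3 : Nat.card f.ker = f.range.index := by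
    have h0 : 0 < Nat.card f.range := Nat.card_pos
    apply Nat.eq_of_mul_eq_mul_left h0
    rw [h2, ← h1, mul_comm]
  rw [h3]
  obtain ⟨S, hS1, hS2⟩ := Group.rank_spec A
  have hexp : ∀ a : A ⧸ f.range, a ^ p = 1 := by
    intro a
    induction a using QuotientGroup.induction_on with
    | H a =>
      rw [← QuotientGroup.mk_pow, QuotientGroup.eq_one_iff]
      exact ⟨a, rfl⟩
  have h4 := card_closure_dvd p hexp (S.image (QuotientGroup.mk' f.range))
  rw [Finset.coe_image, ← MonoidHom.map_closure, hS2,
    Subgroup.map_top_of_surjective _ (QuotientGroup.mk'_surjective _), Subgroup.card_top] at h4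
  have h5 : f.range.index = Nat.card (A ⧸ f.range) := rfl
  rw [h5]
  exact h4.trans (pow_dvd_pow p (Finset.card_image_le.trans_eq hS1))

theorem card_omega_dvd {A : Type*} [Group A] [Finite A] (hc : ∀ a b : A, a * b = b * a) (p : ℕ)
    (V : Subgroup A) (hV : ∀ a, a ∈ V ↔ a ^ p = 1) : Nat.card V ∣ p ^ Group.rank A := by
  letI : CommGroup A := { ‹Group A› with mul_comm := hc }
  have h := card_ker_pow_dvd (A := A) p
  have hVk : V = (powMonoidHom p : A →* A).ker := by
    ext a
    rw [hV, MonoidHom.mem_ker]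
    rfl
  rw [hVk]
  exact h

theorem fixes_of_coprime {G : Type*} [Group G] [Finite G] (p q d : ℕ) [Fact p.Prime]
    [Fact q.Prime] (hpq : p ≠ q) (V : Subgroup G) (hV : Nat.card V ∣ p ^ d) (h : G)
    (hn : ∀ x ∈ V, h * x * h⁻¹ ∈ V) (k : ℕ) (hq : h ^ q ^ k = 1)
    (hcop : ∀ i, 1 ≤ i → i ≤ d → ¬ q ∣ p ^ i - 1) : ∀ x ∈ V, h * x * h⁻¹ = x := by
  classical
  have hp : p.Prime := Fact.out
  have hqp : q.Prime := Fact.out
  let f : Function.End V := fun v => ⟨h * v * h⁻¹, hn v v.2⟩
  have hfv : ∀ v : V, ((f v : V) : G) = h * v * h⁻¹ := fun v => rfl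
  have hf : ∀ n (v : V), (((f ^ n) v : V) : G) = h ^ n * v * (h ^ n)⁻¹ := by
    intro n
    induction n with
    | zero =>
      intro v
      rw [pow_zero, pow_zero]
      show (v : G) = 1 * v * 1⁻¹
      simp
    | succ n ih =>
      intro v
      rw [pow_succ']
      show ((f ((f ^ n) v) : V) : G) = _
      rw [hfv, ih, pow_succ']
      group
  have hf1 : f ^ q ^ k = 1 := by
    funext v
    apply Subtype.ext
    rw [hf, hq]
    show 1 * (v : G) * 1⁻¹ = v
    simp
  let F : Subgroup V :=
    { carrier := {v | f v = v}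
      mul_mem' := by
        intro a b ha hb
        have ha' : h * (a : G) * h⁻¹ = a := by rw [← hfv]; exact congrArg Subtype.val ha
        have hb' : h * (b : G) * h⁻¹ = b := by rw [← hfv]; exact congrArg Subtype.val hb
        apply Subtype.ext
        show h * ((a : G) * b) * h⁻¹ = (a : G) * b
        calc h * ((a : G) * b) * h⁻¹ = (h * a * h⁻¹) * (h * b * h⁻¹) := by group
          _ = (a : G) * b := by rw [ha', hb']
      one_mem' := by
        apply Subtype.ext
        show h * (1 : G) * h⁻¹ = 1
        group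
      inv_mem' := by
        intro a ha
        have ha' : h * (a : G) * h⁻¹ = a := by rw [← hfv]; exact congrArg Subtype.val ha
        apply Subtype.ext
        show h * ((a : G))⁻¹ * h⁻¹ = (a : G)⁻¹
        calc h * ((a : G))⁻¹ * h⁻¹ = (h * a * h⁻¹)⁻¹ := by group
          _ = (a : G)⁻¹ := by rw [ha'] }
  have := Fintype.ofFinite V
  have h1 := Equiv.Perm.card_fixedPoints_modEq (p := q) hf1
  have h2 : Fintype.card (Function.fixedPoints f) = Nat.card F := by
    rw [← Nat.card_eq_fintype_card]
    rfl
  rw [h2, ← Nat.card_eq_fintype_card] at h1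
  obtain ⟨e, he, hVe⟩ := (Nat.dvd_prime_pow hp).1 hV
  obtain ⟨c, hc, hFc⟩ := (Nat.dvd_prime_pow hp).1 (hVe ▸ Subgroup.card_subgroup_dvd_card F)
  by_cases hce : c = e
  · have hFt : F = ⊤ := Subgroup.eq_top_of_card_eq F (by rw [hFc, hVe, hce])
    intro x hx
    have : (⟨x, hx⟩ : V) ∈ F := hFt ▸ Subgroup.mem_top _
    exact congrArg Subtype.val this
  · exfalso
    have hlt : c < e := lt_of_le_of_ne hc hce
    rw [hVe, hFc] at h1
    have h3 : q ∣ p ^ e - p ^ c :=
      (Nat.modEq_iff_dvd' (Nat.pow_le_pow_right hp.pos hc)).1 h1.symm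
    have h4 : p ^ e - p ^ c = p ^ c * (p ^ (e - c) - 1) := by
      rw [Nat.mul_sub, mul_one, ← pow_add, Nat.add_sub_cancel' hc]
    rw [h4] at h3
    rcases (Nat.Prime.dvd_mul hqp).1 h3 with h5 | h5
    · exact hpq ((Nat.prime_dvd_prime_iff_eq hqp hp).1 (hqp.dvd_of_dvd_pow h5)).symm
    · exact hcop (e - c) (by omega) (by omega) h5

theorem centralizes_of_omega {G : Type*} [Group G] [Finite G] (p : ℕ) [Fact p.Prime]
    (P : Subgroup G) (hP : IsPGroup p P) (hab : ∀ x ∈ P, ∀ y ∈ P, x * y = y * x) (h : G)
    (hn : ∀ x ∈ P, h * x * h⁻¹ ∈ P) (m : ℕ) (hm : h ^ m = 1) (hmp : m.Coprime p)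
    (hV : ∀ x ∈ P, x ^ p = 1 → h * x * h⁻¹ = x) : ∀ x ∈ P, h * x * h⁻¹ = x := by
  have key : ∀ k : ℕ, ∀ x ∈ P, x ^ p ^ k = 1 → h * x * h⁻¹ = x := by
    intro k
    induction k with
    | zero =>
      intro x _ hx1
      rw [pow_zero, pow_one] at hx1
      rw [hx1]; group
    | succ k ih =>
      intro x hx hx1
      have h1 : h * x ^ p * h⁻¹ = x ^ p := by
        apply ih _ (P.pow_mem hx p)
        rw [← pow_mul, ← pow_succ']
        exact hx1
      set z := h * x * h⁻¹ * x⁻¹ with hz
      have hzP : z ∈ P := P.mul_mem (hn x hx) (P.inv_mem hx)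
      have hzp : z ^ p = 1 := by
        have hcomm : Commute (h * x * h⁻¹) x⁻¹ := hab _ (hn x hx) _ (P.inv_mem hx)
        rw [hz, hcomm.mul_pow, conj_pow, h1, inv_pow, mul_inv_cancel]
      have hzf : h * z * h⁻¹ = z := hV z hzP hzp
      have hx2 : h * x * h⁻¹ = z * x := by rw [hz]; group
      have hpow : ∀ n : ℕ, h ^ n * x * (h ^ n)⁻¹ = z ^ n * x := by
        intro n
        induction n with
        | zero => simp
        | succ n ihn =>
          have hzn : h * z ^ n * h⁻¹ = z ^ n := by rw [← conj_pow, hzf]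
          calc h ^ (n + 1) * x * (h ^ (n + 1))⁻¹ = h * (h ^ n * x * (h ^ n)⁻¹) * h⁻¹ := by
                rw [pow_succ']; group
            _ = h * (z ^ n * x) * h⁻¹ := by rw [ihn]
            _ = (h * z ^ n * h⁻¹) * (h * x * h⁻¹) := by group
            _ = z ^ n * (z * x) := by rw [hzn, hx2]
            _ = z ^ (n + 1) * x := by rw [pow_succ]; group
      have hzm : z ^ m = 1 := by
        have := hpow m
        rw [hm] at this
        simpa using this.symm
      have hz1 : z = 1 := by
        have h2 : orderOf z ∣ Nat.gcd m p :=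
          Nat.dvd_gcd (orderOf_dvd_of_pow_eq_one hzm) (orderOf_dvd_of_pow_eq_one hzp)
        rw [hmp] at h2
        exact orderOf_eq_one_iff.1 (Nat.dvd_one.1 h2)
      rw [hx2, hz1, one_mul]
  intro x hx
  obtain ⟨k, hk⟩ := hP ⟨x, hx⟩
  exact key k x hx (by simpa using congrArg Subtype.val hk)

/-- Let `P` be an abelian Sylow `p`-subgroup of the finite group `G`, generated by `d` elements (`d` its minimal number of generators). If the order of `G` is coprime to `(p - 1)(p ^ 2 - 1) ⋯ (p ^ d - 1)`, then `G` has a normal `p`-complement. (The classical statement needs only the largest number of cyclic factors of `P` of equal order in place of `d`; the form here follows from it.) -/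
theorem result {G : Type*} [Group G] [Finite G] (p : ℕ) [Fact p.Prime] (P : Sylow p G) (hab : IsMulCommutative (P : Subgroup G)) (hcop : Nat.Coprime (Nat.card G) (∏ i ∈ Finset.Icc 1 (Group.rank (P : Subgroup G)), (p ^ i - 1))) : Cfsg.HasNormalPComplement p G := by
  classical
  have hp : p.Prime := Fact.out
  have habP : ∀ x ∈ (P : Subgroup G), ∀ y ∈ (P : Subgroup G), x * y = y * x := by
    intro x hx y hy
    exact congrArg Subtype.val (hab.is_comm.comm ⟨x, hx⟩ ⟨y, hy⟩)
  set d := Group.rank (P : Subgroup G) with hd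
  -- Ω₁(P)
  let V : Subgroup G :=
    { carrier := {x | x ∈ (P : Subgroup G) ∧ x ^ p = 1}
      mul_mem' := by
        rintro a b ⟨ha, ha1⟩ ⟨hb, hb1⟩
        refine ⟨(P : Subgroup G).mul_mem ha hb, ?_⟩
        have hcomm : Commute a b := habP a ha b hb
        rw [hcomm.mul_pow, ha1, hb1, one_mul]
      one_mem' := ⟨(P : Subgroup G).one_mem, one_pow _⟩
      inv_mem' := by
        rintro a ⟨ha, ha1⟩
        exact ⟨(P : Subgroup G).inv_mem ha, by rw [inv_pow, ha1, inv_one]⟩ }
  have hVmem : ∀ x, x ∈ V ↔ x ∈ (P : Subgroup G) ∧ x ^ p = 1 := fun x => Iff.rfl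
  have hVP : V ≤ (P : Subgroup G) := fun x hx => hx.1
  have hVcard : Nat.card V ∣ p ^ d := by
    have h1 := card_omega_dvd (A := (P : Subgroup G))
      (fun a b => hab.is_comm.comm a b) p (V.subgroupOf (P : Subgroup G)) (by
        intro a
        rw [Subgroup.mem_subgroupOf, hVmem]
        constructor
        · intro h; exact Subtype.ext (by simpa using h.2)
        · intro h; exact ⟨a.2, by simpa using congrArg Subtype.val h⟩)
    rwa [Nat.card_congr (Subgroup.subgroupOfEquivOfLe hVP).toEquiv] at h1
  have hNC : Subgroup.normalizer ((P : Subgroup G) : Set G) ≤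
      Subgroup.centralizer ((P : Subgroup G) : Set G) := by
    set N := Subgroup.normalizer ((P : Subgroup G) : Set G) with hN
    set D : Subgroup N := (Subgroup.centralizer ((P : Subgroup G) : Set G)).subgroupOf N with hD
    have hDtop : D = ⊤ := by
      rw [← Subgroup.index_eq_one, Nat.eq_one_iff_not_exists_prime_dvd]
      intro q hq hqd
      haveI : Fact q.Prime := ⟨hq⟩
      obtain ⟨S⟩ : Nonempty (Sylow q N) := inferInstance
      have hSD : (S : Subgroup N) ≤ D := by
        intro s hs
        rw [hD, Subgroup.mem_subgroupOf, Subgroup.mem_centralizer_iff]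
        have hsn : ∀ x ∈ (P : Subgroup G), (s : G) * x * (s : G)⁻¹ ∈ (P : Subgroup G) :=
          fun x hx => (Subgroup.mem_normalizer_iff.1 s.2 x).1 hx
        obtain ⟨k, hk⟩ := S.2 ⟨s, hs⟩
        have hk' : (s : G) ^ q ^ k = 1 := by
          have := congrArg Subtype.val (congrArg Subtype.val hk)
          simpa using this
        suffices hfix : ∀ x ∈ (P : Subgroup G), (s : G) * x * (s : G)⁻¹ = x by
          intro x hx
          have := hfix x hx
          rw [mul_inv_eq_iff_eq_mul] at this
          exact this.symm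
        by_cases hqp : q = p
        · subst hqp
          have hz : IsPGroup q (Subgroup.zpowers (s : G)) := by
            rw [IsPGroup.iff_orderOf] 
            intro y
            obtain ⟨y, hy⟩ := y
            obtain ⟨n, rfl⟩ := Subgroup.mem_zpowers_iff.1 hy
            have h1 : orderOf (⟨(s : G) ^ n, hy⟩ : Subgroup.zpowers (s : G)) ∣ q ^ k := by
              apply orderOf_dvd_of_pow_eq_one
              apply Subtype.ext
              show ((s : G) ^ n) ^ q ^ k = 1
              rw [← zpow_natCast, ← zpow_mul, mul_comm, zpow_mul, zpow_natCast, hk', one_zpow]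
            obtain ⟨j, _, hj⟩ := (Nat.dvd_prime_pow hq).1 h1
            exact ⟨j, hj⟩
          have h2 := hz.inf_normalizer_sylow P
          have h3 : (s : G) ∈ Subgroup.zpowers (s : G) ⊓ (P : Subgroup G) := by
            rw [← h2]
            exact Subgroup.mem_inf.2 ⟨Subgroup.mem_zpowers _, s.2⟩
          have hsP := (Subgroup.mem_inf.1 h3).2
          intro x hx
          rw [habP _ hsP x hx]; group
        · by_cases hs1 : (s : G) = 1
          · intro x _; rw [hs1]; group
          have hqG : q ∣ Nat.card G := by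
            have h1 : orderOf (s : G) ∣ q ^ k := orderOf_dvd_of_pow_eq_one hk'
            obtain ⟨j, _, hj⟩ := (Nat.dvd_prime_pow hq).1 h1
            have hj0 : j ≠ 0 := by
              rintro rfl
              rw [pow_zero, orderOf_eq_one_iff] at hj
              exact hs1 hj
            have : q ∣ orderOf (s : G) := hj ▸ dvd_pow_self q hj0
            exact this.trans (orderOf_dvd_natCard _)
          have hc : ∀ i, 1 ≤ i → i ≤ d → ¬ q ∣ p ^ i - 1 := by
            intro i h1 h2 h3
            have h4 : q ∣ ∏ i ∈ Finset.Icc 1 d, (p ^ i - 1) :=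
              h3.trans (Finset.dvd_prod_of_mem _ (Finset.mem_Icc.2 ⟨h1, h2⟩))
            exact hq.one_lt.ne' (Nat.dvd_one.1 (hcop ▸ Nat.dvd_gcd hqG h4))
          have hVn : ∀ x ∈ V, (s : G) * x * (s : G)⁻¹ ∈ V := by
            intro x hx
            exact ⟨hsn x hx.1, by rw [conj_pow, hx.2]; group⟩
          have hfV := fixes_of_coprime p q d (Ne.symm hqp) V hVcard (s : G) hVn k hk' hc
          refine centralizes_of_omega p (P : Subgroup G) P.2 habP (s : G) hsn (q ^ k) hk' ?_ ?_
          · exact Nat.Coprime.pow_left k ((Nat.coprime_primes hq hp).2 hqp)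
          · intro x hx hx1
            exact hfV x ⟨hx, hx1⟩
      exact S.not_dvd_index (hqd.trans (Subgroup.index_dvd_of_le hSD))
    intro g hg
    have : (⟨g, hg⟩ : N) ∈ D := hDtop ▸ Subgroup.mem_top _
    exact this
  exact ⟨P, (MonoidHom.transferSylow P hNC).ker, inferInstance,
    MonoidHom.ker_transferSylow_isComplement' P hNC⟩

end Cfsg.Agent.S3969
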