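import Cfsg.Statements.S3970
import Mathlib
import Cfsg.Agent.S4208
import Cfsg.Agent.Lib.Helper1.Frattini
-- import your own Cfsg.Agent.* helpers here

set_option autoImplicit false
open Cfsg

namespace Cfsg.Agent.S3970

open Cfsg.Agent.Lib

theorem frattini_index {P : Type*} [Group P] [Finite P] {p : ℕ} [hp : Fact p.Prime]
    (hP : IsPGroup p P) (hc : ∀ a b : P, a * b = b * a) (hr : Group.rank P ≤ 2) :
    ∃ r ≤ 2, (frattini P).index = p ^ r := by
  let _ : CommGroup P := { ‹Group P› with mul_comm := hc }
  have h1 : Nat.card (P ⧸ frattini P) ∣ p ^ Group.rank (P ⧸ frattini P) := by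
    apply card_dvd_exponent_pow_rank'
    intro g
    obtain ⟨x, rfl⟩ := QuotientGroup.mk_surjective g
    rw [← QuotientGroup.mk_pow, QuotientGroup.eq_one_iff]
    exact Helper1.pgroup_pow_mem_frattini hP x
  have h2 : Group.rank (P ⧸ frattini P) ≤ Group.rank P :=
    Group.rank_le_of_surjective (QuotientGroup.mk' _) (QuotientGroup.mk'_surjective _)
  have h3 : (frattini P).index ∣ p ^ 2 := by
    rw [Subgroup.index_eq_card]
    exact h1.trans (pow_dvd_pow p (h2.trans hr))
  exact (Nat.dvd_prime_pow hp.out).1 h3

theorem normalizer_le_centralizer {G : Type*} [Group G] [Finite G] {p : ℕ} [hp : Fact p.Prime]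
    (hmin : ∀ q : ℕ, q.Prime → q ∣ Nat.card G → p ≤ q) (P : Sylow p G)
    (hc : IsMulCommutative (P : Subgroup G)) (hr : Group.rank (P : Subgroup G) ≤ 2)
    (h12 : ¬ 12 ∣ Nat.card G) :
    Subgroup.normalizer (P : Set G) ≤ Subgroup.centralizer (P : Set G) := by
  have key := Subgroup.card_dvd_of_injective _
    (QuotientGroup.kerLift_injective (P : Subgroup G).normalizerMonoidHom)
  rw [Subgroup.normalizerMonoidHom_ker, ← Subgroup.index, ← Subgroup.relIndex] at key
  refine Subgroup.relIndex_eq_one.mp ?_
  obtain ⟨m, hm⟩ : ∃ m, m = (Subgroup.centralizer (P : Set G)).relIndex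
    (Subgroup.normalizer (P : Set G)) := ⟨_, rfl⟩
  rw [← hm]
  have key' : m ∣ Nat.card (MulAut (P : Subgroup G)) := hm ▸ key
  have hmidx : m ∣ (P : Subgroup G).index := by
    rw [hm]
    exact (Subgroup.relIndex_dvd_of_le_left _ (P : Subgroup G).le_centralizer).trans
      (Subgroup.relIndex_dvd_index_of_le (P : Subgroup G).le_normalizer)
  obtain ⟨n, hn⟩ := P.2.exists_card_eq
  obtain ⟨r, hr2, hfr⟩ := frattini_index P.2 (fun a b => hc.is_comm.comm a b) hr
  have hAut := S4208.result hn hfr
  have hndvd : ¬ p ∣ m := fun h => P.not_dvd_index (h.trans hmidx)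
  have hcop : Nat.Coprime m p := ((Nat.Prime.coprime_iff_not_dvd hp.out).2 hndvd).symm
  have h1 : m ∣ ∏ i ∈ Finset.range r, (p ^ r - p ^ i) :=
    Nat.Coprime.dvd_of_dvd_mul_left (hcop.pow_right _) (key'.trans hAut)
  by_contra hne
  obtain ⟨s, hs, hsm⟩ := Nat.exists_prime_and_dvd hne
  have hsG : s ∣ Nat.card G := hsm.trans (hmidx.trans (Subgroup.index_dvd_card _))
  have hps : p ≤ s := hmin s hs hsG
  have hsp : s ≠ p := by rintro rfl; exact hndvd hsm
  have hlt : p < s := lt_of_le_of_ne hps (Ne.symm hsp)
  have hs1 := hsm.trans h1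
  have hp2 := hp.out.two_le
  have hsub : ¬ s ∣ p - 1 := fun h => by
    have := Nat.le_of_dvd (by omega) h
    omega
  interval_cases r
  · simp at hs1
    exact hs.one_lt.ne' hs1
  · simp at hs1
    exact hsub hs1
  · rw [Finset.prod_range_succ, Finset.prod_range_one, pow_zero, pow_one] at hs1
    have e1 : p ^ 2 - 1 = (p + 1) * (p - 1) := by
      have := Nat.sq_sub_sq p 1
      simpa using this
    have e2 : p ^ 2 - p = p * (p - 1) := by rw [sq, Nat.mul_sub_one]
    rw [e1, e2] at hs1
    have hs2 : s ∣ p + 1 := by
      rcases (Nat.Prime.dvd_mul hs).1 hs1 with h | h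
      · rcases (Nat.Prime.dvd_mul hs).1 h with h | h
        · exact h
        · exact absurd h hsub
      · rcases (Nat.Prime.dvd_mul hs).1 h with h | h
        · exact absurd ((Nat.prime_dvd_prime_iff_eq hs hp.out).1 h) hsp
        · exact absurd h hsub
    have hs3 : s = p + 1 := by
      have := Nat.le_of_dvd (by omega) hs2
      omega
    have hp2' : p = 2 := by
      rcases hp.out.eq_two_or_odd' with h | h
      · exact h
      · exfalso
        have hev : Even s := by rw [hs3]; exact h.add_one
        have := (Nat.Prime.even_iff hs).1 hev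
        omega
    subst hp2'
    have h3 : 3 ∣ Nat.card G := by
      have : s = 3 := by omega
      exact this ▸ hsG
    have h4 : 4 ∣ Nat.card G := by
      have h5 : (frattini (P : Subgroup G)).index ∣ Nat.card (P : Subgroup G) :=
        Subgroup.index_dvd_card _
      rw [hfr] at h5
      exact h5.trans (Subgroup.card_subgroup_dvd_card _)
    exact h12 (Nat.Coprime.mul_dvd_of_dvd_of_dvd (by norm_num : Nat.Coprime 4 3) h4 h3)

universe u

theorem main : ∀ (n : ℕ) (G : Type u) [Group G] [Finite G], Nat.card G = n →
    (∀ p : ℕ, p.Prime → p ∣ Nat.card G → (∃ q : ℕ, q.Prime ∧ q ∣ Nat.card G ∧ p < q) →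
      ∀ P : Sylow p G, IsMulCommutative (P : Subgroup G) ∧ Group.rank (P : Subgroup G) ≤ 2) →
    ¬ 12 ∣ Nat.card G → Group.IsSolvable G := by
  intro n
  induction n using Nat.strong_induction_on with
  | _ n ih =>
    intro G _ _ hn h h12
    by_cases h1 : Nat.card G = 1
    · have := (Nat.card_eq_one_iff_unique.mp h1).1
      infer_instance
    have hpp := Nat.minFac_prime h1
    obtain ⟨p, hp⟩ : ∃ p, p = (Nat.card G).minFac := ⟨_, rfl⟩
    rw [← hp] at hpp
    haveI : Fact p.Prime := ⟨hpp⟩
    have hpd : p ∣ Nat.card G := hp ▸ Nat.minFac_dvd _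
    have hmin : ∀ q : ℕ, q.Prime → q ∣ Nat.card G → p ≤ q :=
      fun q hq hqd => hp ▸ Nat.minFac_le_of_dvd hq.two_le hqd
    by_cases hq : ∃ q : ℕ, q.Prime ∧ q ∣ Nat.card G ∧ p < q
    · obtain ⟨P⟩ : Nonempty (Sylow p G) := inferInstance
      obtain ⟨hc, hr⟩ := h p hpp hpd hq P
      have hNC := normalizer_le_centralizer hmin P hc hr h12
      have hK := MonoidHom.ker_transferSylow_isComplement' P hNC
      have hndK := MonoidHom.not_dvd_card_ker_transferSylow P hNC
      obtain ⟨K, hKdef⟩ : ∃ K, K = (MonoidHom.transferSylow P hNC).ker := ⟨_, rfl⟩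
      rw [← hKdef] at hK hndK
      have hcard : Nat.card K * Nat.card (P : Subgroup G) = Nat.card G := hK.card_mul_card
      obtain ⟨a, ha⟩ := P.2.exists_card_eq
      have hP1 : 1 < Nat.card (P : Subgroup G) := by
        have h2 : (P : Subgroup G) ≠ ⊥ := P.ne_bot_of_dvd_card hpd
        exact (Subgroup.one_lt_card_iff_ne_bot _).2 h2
      have hKpos : 0 < Nat.card K := Nat.card_pos
      have hlt : Nat.card K < n := by
        rw [← hn, ← hcard]
        nlinarith
      have hKsol : Group.IsSolvable K := by
        apply ih (Nat.card K) hlt K rfl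
        · intro p' hp' hp'd hq' Q
          haveI : Fact p'.Prime := ⟨hp'⟩
          have hne : p' ≠ p := by rintro rfl; exact hndK hp'd
          obtain ⟨Q', hQ'⟩ : ∃ Q', Q' = (Q : Subgroup K).map K.subtype := ⟨_, rfl⟩
          have e : (Q : Subgroup K) ≃* Q' :=
            hQ' ▸ Subgroup.equivMapOfInjective (Q : Subgroup K) K.subtype K.subtype_injective
          have hfac : (Nat.card G).factorization p' = (Nat.card K).factorization p' := by
            rw [← hcard, Nat.factorization_mul hKpos.ne' (by omega)]
            have : (Nat.card (P : Subgroup G)).factorization p' = 0 := by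
              apply Nat.factorization_eq_zero_of_not_dvd
              rw [ha]
              intro hd
              exact hne ((Nat.prime_dvd_prime_iff_eq hp' hpp).1 (hp'.dvd_of_dvd_pow hd))
            simp [this]
          have hcQ : Nat.card Q' = p' ^ (Nat.card G).factorization p' := by
            rw [← Nat.card_congr e.toEquiv, hfac]
            exact Q.card_eq_multiplicity
          obtain ⟨q, hq1, hq2, hq3⟩ := hq'
          have hdK : Nat.card K ∣ Nat.card G := Subgroup.card_subgroup_dvd_card K
          obtain ⟨hc', hr'⟩ := h p' hp' (hp'd.trans hdK) ⟨q, hq1, hq2.trans hdK, hq3⟩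
            (Sylow.ofCard Q' hcQ)
          rw [Sylow.coe_ofCard] at hc' hr'
          refine ⟨⟨⟨fun x y => e.injective ?_⟩⟩, ?_⟩
          · rw [map_mul, map_mul]
            exact hc'.is_comm.comm _ _
          · rw [Group.rank_congr e]
            exact hr'
        · intro h0
          exact h12 (h0.trans (Subgroup.card_subgroup_dvd_card K))
      haveI := hKsol
      haveI : Group.IsSolvable (P : Subgroup G) :=
        isSolvable_of_comm (fun x y => hc.is_comm.comm x y)
      exact Group.isSolvable_of_ker_le_range K.subtype (MonoidHom.transferSylow P hNC)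
        (by rw [Subgroup.range_subtype, hKdef])
    · have hpow : Nat.card G = p ^ (Nat.card G).primeFactorsList.length := by
        apply Nat.eq_prime_pow_of_unique_prime_dvd Nat.card_pos.ne'
        intro d hd hdd
        by_contra hne
        exact hq ⟨d, hd, hdd, lt_of_le_of_ne (hmin d hd hdd) (Ne.symm hne)⟩
      have hPG : IsPGroup p G := IsPGroup.of_card hpow
      haveI := hPG.isNilpotent
      infer_instance

/-- Let `G` be a finite group such that for every prime `p` dividing its order, other than the largest such prime, the Sylow `p`-subgroups are abelian and generated by at most two elements, and suppose `12` does not divide the order of `G`. Then `G` is solvable. In particular a group of cube-free order not divisible by `12` is solvable. -/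
theorem result {G : Type*} [Group G] [Finite G] (h : ∀ p : ℕ, p.Prime → p ∣ Nat.card G → (∃ q : ℕ, q.Prime ∧ q ∣ Nat.card G ∧ p < q) → ∀ P : Sylow p G, IsMulCommutative (P : Subgroup G) ∧ Group.rank (P : Subgroup G) ≤ 2) (h12 : ¬ 12 ∣ Nat.card G) : Group.IsSolvable G := by
  exact main _ G rfl h h12

end Cfsg.Agent.S3970
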