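import Cfsg.Statements.S3973
import Mathlib
import Cfsg.Agent.Lib.Helper21.MultTransfer

set_option autoImplicit false
open Cfsg
open Cfsg.Agent.Lib.Helper21

namespace Cfsg.Agent.S3973

lemma linalg {ι : Type} [Fintype ι] {Z V : Type*} [AddCommGroup Z] [AddCommGroup V] (n : ℕ)
    (bV : Module.Basis (Fin n) ℤ V) (Λ : (ι → ℤ) →ₗ[ℤ] Z) (hΛ : Function.Surjective Λ)
    (ab : Z →ₗ[ℤ] V) (N : ℤ) (hN : N ≠ 0) (hab : ∀ v : V, N • v ∈ LinearMap.range ab) :
    ∃ (k : ℕ) (t : Fin k → Z), n + k = Fintype.card ι ∧ (∀ i, ab (t i) = 0) ∧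
      ∀ z, ab z = 0 → z ∈ Submodule.span ℤ (Set.range t) := by
  classical
  have hfV : Module.Finite ℤ V := Module.Finite.of_basis bV
  have hfreeV : Module.Free ℤ V := Module.Free.of_basis bV
  set L : (ι → ℤ) →ₗ[ℤ] V := ab ∘ₗ Λ with hL
  have hrange : LinearMap.range L = LinearMap.range ab := by
    rw [hL, LinearMap.range_comp, LinearMap.range_eq_top.2 hΛ, Submodule.map_top]
  have hrn : Module.finrank ℤ (LinearMap.range L) + Module.finrank ℤ (LinearMap.ker L)
      = Module.finrank ℤ (ι → ℤ) := by
    rw [← Submodule.finrank_quotient_add_finrank (LinearMap.ker L),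
      LinearEquiv.finrank_eq (L.quotKerEquivRange)]
  have hV : Module.finrank ℤ V = n := by
    rw [Module.finrank_eq_card_basis bV]; simp
  have hr1 : Module.finrank ℤ (LinearMap.range L) ≤ n := by
    rw [← hV]; exact Submodule.finrank_le _
  have hr2 : n ≤ Module.finrank ℤ (LinearMap.range L) := by
    rw [← hV]
    let f : V →ₗ[ℤ] LinearMap.range L :=
      LinearMap.codRestrict _ (N • LinearMap.id) (fun v => by rw [hrange]; exact hab v)
    apply LinearMap.finrank_le_finrank_of_injective (f := f)
    intro v w hvw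
    have h1 : N • v = N • w := congrArg Subtype.val hvw
    exact smul_right_injective V hN h1
  obtain ⟨k, ⟨b⟩⟩ := Submodule.nonempty_basis_of_pid (Pi.basisFun ℤ ι) (LinearMap.ker L)
  have hk : Module.finrank ℤ (LinearMap.ker L) = k := by
    rw [Module.finrank_eq_card_basis b]; simp
  refine ⟨k, fun i => Λ (b i : ι → ℤ), ?_, ?_, ?_⟩
  · rw [hk, Module.finrank_fintype_fun_eq_card] at hrn
    omega
  · intro i
    exact (b i).2
  · intro z hz
    obtain ⟨c, rfl⟩ := hΛ z
    have hc : c ∈ LinearMap.ker L := hz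
    have h1 := b.sum_repr ⟨c, hc⟩
    have h2 : c = ∑ i, (b.repr ⟨c, hc⟩ i) • (b i : ι → ℤ) := by
      have h3 := congrArg (LinearMap.ker L).subtype h1
      rw [map_sum] at h3
      simpa using h3.symm
    rw [h2, map_sum]
    apply Submodule.sum_mem
    intro i _
    rw [map_smul]
    exact Submodule.smul_mem _ _ (Submodule.subset_span ⟨i, rfl⟩)

section
variable {F Q : Type*} [Group F] [Group Q] (φ : F →* Q)

lemma gRel_le_commutator : gRel φ ≤ commutator F := by
  unfold gRel
  rw [commutator_def]
  exact Subgroup.commutator_mono le_top le_rfl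

/-- the map to the abelianization of `F` -/
def gAb : GCE φ →* Abelianization F :=
  QuotientGroup.lift (gRel φ) Abelianization.of (fun x hx => by
    have : x ∈ (Abelianization.of (G := F)).ker := by
      rw [Abelianization.ker_of]; exact gRel_le_commutator φ hx
    exact this)

lemma gAb_ker : (gAb φ).ker = commutator (GCE φ) := by
  apply le_antisymm
  · intro e he
    obtain ⟨x, rfl⟩ := QuotientGroup.mk_surjective e
    have hx : x ∈ (Abelianization.of (G := F)).ker := he
    rw [Abelianization.ker_of] at hx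
    have h1 : (commutator F).map (QuotientGroup.mk' (gRel φ)) ≤ commutator (GCE φ) := by
      rw [commutator_def, Subgroup.map_commutator, commutator_def]
      exact Subgroup.commutator_mono le_top le_top
    exact h1 (Subgroup.mem_map_of_mem _ hx)
  · exact Abelianization.commutator_subset_ker _

end

/-- If a finite group is presented by `n` generators and a finite set of `r` relators, then its Schur multiplier can be generated by `r - n` elements. In particular a finite group with a presentation having as many relators as generators has trivial Schur multiplier. -/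
theorem result (n : ℕ) (rels : Finset (FreeGroup (Fin n))) [Finite (PresentedGroup (rels : Set (FreeGroup (Fin n))))] {A : Type*} [CommGroup A] [Finite A] (hA : Cfsg.HasSchurMultiplier (PresentedGroup (rels : Set (FreeGroup (Fin n)))) A) : Group.rank A ≤ rels.card - n := by
  classical
  let φ : FreeGroup (Fin n) →* PresentedGroup (rels : Set (FreeGroup (Fin n))) :=
    PresentedGroup.mk (rels : Set (FreeGroup (Fin n)))
  have hφ : Function.Surjective φ := QuotientGroup.mk'_surjective _
  have hker : φ.ker = Subgroup.normalClosure (rels : Set (FreeGroup (Fin n))) := QuotientGroup.ker_mk' _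
  obtain ⟨eA⟩ := g_schur_equiv hφ hA
  let _ := kerCommGroup φ
  have hrk : ∀ r : rels, (QuotientGroup.mk r.1 : GCE φ) ∈ (gPi φ).ker := by
    intro r
    rw [MonoidHom.mem_ker, gPi_mk]
    have : r.1 ∈ φ.ker := by
      rw [hker]; exact Subgroup.subset_normalClosure (Finset.mem_coe.2 r.2)
    exact this
  let zr : rels → (gPi φ).ker := fun r => ⟨QuotientGroup.mk r.1, hrk r⟩
  let Λ : (rels → ℤ) →ₗ[ℤ] Additive (gPi φ).ker :=
    Fintype.linearCombination ℤ (fun r => Additive.ofMul (zr r))
  have hΛ : Function.Surjective Λ := by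
    rw [← LinearMap.range_eq_top, Fintype.range_linearCombination]
    set W := Submodule.span ℤ (Set.range fun r : rels => Additive.ofMul (zr r)) with hW
    let HZ : Subgroup (gPi φ).ker := Subgroup.toAddSubgroup.symm W.toAddSubgroup
    let H : Subgroup (GCE φ) := HZ.map (gPi φ).ker.subtype
    have hHn : H.Normal := by
      constructor
      rintro _ ⟨z, hz, rfl⟩ g
      have := Subgroup.mem_center_iff.1 (gPi_ker_le_center φ z.2) g
      change g * (z : GCE φ) * g⁻¹ ∈ H
      rw [this, mul_inv_cancel_right]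
      exact ⟨z, hz, rfl⟩
    have hle : Subgroup.normalClosure (rels : Set (FreeGroup (Fin n))) ≤
        H.comap (QuotientGroup.mk' (gRel φ)) := by
      apply Subgroup.normalClosure_le_normal
      intro r hr
      have h : Additive.ofMul (zr ⟨r, Finset.mem_coe.1 hr⟩) ∈ W :=
        Submodule.subset_span ⟨⟨r, Finset.mem_coe.1 hr⟩, rfl⟩
      exact ⟨zr ⟨r, Finset.mem_coe.1 hr⟩, h, rfl⟩
    rw [eq_top_iff]
    intro z _
    obtain ⟨x, hx⟩ := QuotientGroup.mk_surjective ((Additive.toMul z : (gPi φ).ker) : GCE φ)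
    have hxk : x ∈ φ.ker := by
      have h1 : gPi φ (QuotientGroup.mk x) = 1 := by rw [hx]; exact (Additive.toMul z).2
      exact h1
    rw [hker] at hxk
    obtain ⟨z', hz', hzz⟩ := hle hxk
    have h2 : z' = Additive.toMul z := Subtype.ext (hzz.trans hx)
    rw [h2] at hz'
    exact hz'
  let ab : Additive (gPi φ).ker →ₗ[ℤ] FreeAbelianGroup (Fin n) :=
    (MonoidHom.toAdditive ((gAb φ).comp (gPi φ).ker.subtype)).toIntLinearMap
  have hab0 : ∀ z : Additive (gPi φ).ker, ab z = 0 ↔
      ((Additive.toMul z : (gPi φ).ker) : GCE φ) ∈ commutator (GCE φ) := by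
    intro z
    rw [← gAb_ker, MonoidHom.mem_ker]
    rfl
  have hab : ∀ v : FreeAbelianGroup (Fin n),
      ((Nat.card (PresentedGroup (rels : Set (FreeGroup (Fin n)))) : ℕ) : ℤ) • v ∈ LinearMap.range ab := by
    intro v
    obtain ⟨f, hf⟩ := QuotientGroup.mk_surjective (Additive.toMul v)
    set N := Nat.card (PresentedGroup (rels : Set (FreeGroup (Fin n)))) with hN
    have hfN : (QuotientGroup.mk (f ^ N) : GCE φ) ∈ (gPi φ).ker := by
      rw [MonoidHom.mem_ker, gPi_mk, map_pow, hN]
      exact pow_card_eq_one'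
    refine ⟨Additive.ofMul ⟨_, hfN⟩, ?_⟩
    rw [natCast_zsmul]
    change (Additive.ofMul (Abelianization.of (f ^ N)) : FreeAbelianGroup (Fin n)) = N • v
    rw [map_pow]
    have hv : v = Additive.ofMul (Abelianization.of f) := hf.symm
    rw [hv]
    rfl
  obtain ⟨k, t, hkn, ht0, hspan⟩ := linalg n (FreeAbelianGroup.basis (Fin n)) Λ hΛ ab _
    (by exact_mod_cast (Nat.card_pos (α := PresentedGroup (rels : Set (FreeGroup (Fin n))))).ne') hab
  have htT : ∀ i, ((Additive.toMul (t i) : (gPi φ).ker) : GCE φ) ∈ gT φ :=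
    fun i => Subgroup.mem_inf.2 ⟨(Additive.toMul (t i)).2, (hab0 _).1 (ht0 i)⟩
  let S : Finset A := Finset.univ.image (fun i => eA.symm ⟨_, htT i⟩)
  have hclosure : Subgroup.closure (S : Set A) = ⊤ := by
    rw [eq_top_iff]
    intro a _
    let H : Subgroup (GCE φ) :=
      ((Subgroup.closure (S : Set A)).map eA.toMonoidHom).map (gT φ).subtype
    have hmemH : ∀ z : Additive (gPi φ).ker, z ∈ Submodule.span ℤ (Set.range t) →
        ((Additive.toMul z : (gPi φ).ker) : GCE φ) ∈ H := by
      intro z hz
      induction hz using Submodule.span_induction with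
      | mem x hx =>
        obtain ⟨i, rfl⟩ := hx
        refine ⟨⟨_, htT i⟩, ⟨eA.symm ⟨_, htT i⟩, Subgroup.subset_closure ?_, ?_⟩, rfl⟩
        · exact Finset.mem_coe.2 (Finset.mem_image_of_mem _ (Finset.mem_univ i))
        · exact eA.apply_symm_apply _
      | zero => exact H.one_mem
      | add x y _ _ hx hy => exact H.mul_mem hx hy
      | smul c x _ hx => exact H.zpow_mem hx c
    have h0 : ab (Additive.ofMul ⟨eA a, (eA a).2.1⟩) = 0 := (hab0 _).2 (eA a).2.2
    obtain ⟨_, ⟨a', ha', rfl⟩, h⟩ := hmemH _ (hspan _ h0)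
    have : a' = a := eA.injective (Subtype.ext h)
    rw [← this]; exact ha'
  have h1 := Group.rank_le hclosure
  have h2 : S.card ≤ k := by
    refine Finset.card_image_le.trans ?_
    simp
  rw [Fintype.card_coe] at hkn
  omega

end Cfsg.Agent.S3973
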