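import Cfsg.Statements.S3974
import Mathlib
import Cfsg.Agent.Lib.Helper21.ProjRep
import Cfsg.Agent.Lib.Helper21.Pullback

set_option autoImplicit false
universe u v
open Cfsg
open Cfsg.Agent.Lib.Helper21

namespace Cfsg.Agent.S3974

lemma map_comm_le {X Y : Type*} [Group X] [Group Y] (f : X →* Y) (x : X) (hx : x ∈ commutator X) :
    f x ∈ commutator Y := by
  have h1 : (commutator X).map f ≤ commutator Y := by
    rw [commutator_def, Subgroup.map_commutator, commutator_def]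
    exact Subgroup.commutator_mono le_top le_top
  exact h1 (Subgroup.mem_map_of_mem _ hx)

lemma extend_coprime_comm {B D : Type*} [CommGroup B] [CommGroup D] [Finite D] (a : ℕ)
    (ha : Nat.Coprime a (Nat.card D)) (H : Subgroup B) (hH : ∀ b : B, b ^ a ∈ H) (l : H →* D) :
    ∃ μ : B →* D, ∀ s : H, μ s = l s := by
  have hinj : Function.Injective (powMonoidHom a : D →* D) := by
    rw [injective_iff_map_eq_one]
    intro d hd
    have h1 : d ^ a = 1 := hd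
    have h2 : d ^ Nat.card D = 1 := pow_card_eq_one'
    have := pow_gcd_eq_one.2 ⟨h1, h2⟩
    rwa [Nat.Coprime.gcd_eq_one ha, pow_one] at this
  let W : D ≃* D := MulEquiv.ofBijective _ (Finite.injective_iff_bijective.1 hinj)
  let pw : B →* H :=
    { toFun := fun b => ⟨b ^ a, hH b⟩
      map_one' := by apply Subtype.ext; simp
      map_mul' := by intro x y; apply Subtype.ext; simp [mul_pow] }
  refine ⟨W.symm.toMonoidHom.comp (l.comp pw), ?_⟩
  intro s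
  change W.symm (l (pw s)) = l s
  rw [MulEquiv.symm_apply_eq]
  change l (pw s) = (l s) ^ a
  rw [← map_pow]
  congr 1

lemma extend_coprime {E D : Type*} [Group E] [Group D] [Finite D] (hcomm : ∀ a b : D, a * b = b * a)
    (a : ℕ) (ha : Nat.Coprime a (Nat.card D)) (S : Subgroup E) (hS : S ⊓ commutator E = ⊥)
    (hSa : ∀ e : E, ∃ s ∈ S, s⁻¹ * e ^ a ∈ commutator E) (l : S →* D) :
    ∃ μ : E →* D, ∀ s : S, μ s = l s := by
  let _ : CommGroup D := { (inferInstance : Group D) with mul_comm := hcomm }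
  let ι : S →* Abelianization E := Abelianization.of.comp S.subtype
  have hι : Function.Injective ι := by
    rw [injective_iff_map_eq_one]
    intro s hs
    have h1 : (s : E) ∈ (Abelianization.of (G := E)).ker := hs
    rw [Abelianization.ker_of] at h1
    have h2 : (s : E) ∈ S ⊓ commutator E := ⟨s.2, h1⟩
    rw [hS, Subgroup.mem_bot] at h2
    exact Subtype.ext h2
  let eqv : S ≃* ι.range := MonoidHom.ofInjective hι
  have hH : ∀ b : Abelianization E, b ^ a ∈ ι.range := by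
    intro b
    obtain ⟨e, rfl⟩ := QuotientGroup.mk_surjective b
    obtain ⟨s, hs, hse⟩ := hSa e
    refine ⟨⟨s, hs⟩, ?_⟩
    rw [← Abelianization.ker_of, MonoidHom.mem_ker, map_mul, map_inv, inv_mul_eq_one] at hse
    rw [map_pow] at hse
    exact hse
  obtain ⟨μ, hμ⟩ := extend_coprime_comm a ha ι.range hH (l.comp eqv.symm.toMonoidHom)
  refine ⟨μ.comp Abelianization.of, ?_⟩
  intro s
  have h1 := hμ (eqv s)
  have h2 : (l.comp eqv.symm.toMonoidHom) (eqv s) = l s := by simp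
  rw [h2] at h1
  exact h1

lemma cover_facts {Q : Type u} [Group Q] [Finite Q] {A : Type v} [CommGroup A]
    (hA : Cfsg.HasSchurMultiplier Q A) {Γ : Type*} [Group Γ] [Finite Γ] (σ : Γ →* Q)
    (hσ : Cfsg.IsStemExtension σ) (hk : Nonempty (σ.ker ≃* A)) :
    ∃ g : FCE Q →* Γ, σ.comp g = fcePi Q ∧ Function.Surjective g ∧
      g.ker ⊓ commutator (FCE Q) = ⊥ ∧
      (∀ z ∈ (fcePi Q).ker, ∃ s ∈ g.ker, s⁻¹ * z ∈ commutator (FCE Q)) := by
  obtain ⟨g, hg⟩ := fce_lift σ hσ.1 hσ.2.1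
  have hg' : ∀ e, σ (g e) = fcePi Q e := fun e => DFunLike.congr_fun hg e
  have hmap := fceT_map σ hσ.2.1 g hg
  rw [inf_eq_left.2 hσ.2.2] at hmap
  have hgs : Function.Surjective g := by
    intro d
    obtain ⟨e, he⟩ := fcePi_surjective Q (σ d)
    have hk : (g e)⁻¹ * d ∈ σ.ker := by
      rw [MonoidHom.mem_ker, map_mul, map_inv, hg', he]; simp
    rw [← hmap] at hk
    obtain ⟨t, _, ht⟩ := hk
    refine ⟨e * t, ?_⟩
    rw [map_mul, ht]; group
  obtain ⟨eA⟩ := schur_equiv hA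
  obtain ⟨ek⟩ := hk
  have hfinT := fceT_finite Q
  have hcard : Nat.card (fceT Q) = Nat.card σ.ker := Nat.card_congr (eA.symm.trans ek.symm).toEquiv
  let gT : fceT Q → σ.ker := fun t => ⟨g t, hmap ▸ Subgroup.mem_map_of_mem _ t.2⟩
  have hgTs : Function.Surjective gT := by
    rintro ⟨k, hk⟩
    rw [← hmap] at hk
    obtain ⟨t, ht, rfl⟩ := hk
    exact ⟨⟨t, ht⟩, rfl⟩
  have hgTi : Function.Injective gT :=
    (Function.Surjective.bijective_of_nat_card_le hgTs hcard.le).1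
  refine ⟨g, hg, hgs, ?_, ?_⟩
  · rw [eq_bot_iff]
    intro x hx
    obtain ⟨h1, h2⟩ := Subgroup.mem_inf.1 hx
    have h3 : x ∈ fceT Q := Subgroup.mem_inf.2
      ⟨by rw [MonoidHom.mem_ker, ← hg', (MonoidHom.mem_ker).1 h1, map_one], h2⟩
    have h4 : gT ⟨x, h3⟩ = gT 1 := by
      apply Subtype.ext
      change g x = g 1
      rw [(MonoidHom.mem_ker).1 h1, map_one]
    have := hgTi h4
    rw [Subgroup.mem_bot]
    exact congrArg Subtype.val this
  · intro z hz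
    have h1 : g z ∈ σ.ker := by rw [MonoidHom.mem_ker, hg']; exact hz
    rw [← hmap] at h1
    obtain ⟨t, ht, htz⟩ := h1
    refine ⟨z * t⁻¹, ?_, ?_⟩
    · rw [MonoidHom.mem_ker, map_mul, map_inv, htz]; simp
    · have : (z * t⁻¹)⁻¹ * z = t := by group
      rw [this]; exact ht.2

lemma pow_mem_sup {Q : Type u} [Group Q] [Finite Q] (S : Subgroup (FCE Q)) (hSk : S ≤ (fcePi Q).ker)
    (hS2 : ∀ z ∈ (fcePi Q).ker, ∃ s ∈ S, s⁻¹ * z ∈ commutator (FCE Q)) (e : FCE Q) (a : ℕ)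
    (ha : (Abelianization.of (fcePi Q e)) ^ a = 1) : ∃ s ∈ S, s⁻¹ * e ^ a ∈ commutator (FCE Q) := by
  have h1 : fcePi Q (e ^ a) ∈ commutator Q := by
    rw [← Abelianization.ker_of, MonoidHom.mem_ker, map_pow, map_pow]; exact ha
  obtain ⟨d, hd, hde⟩ := exists_mem_commutator_of_surjective (fcePi Q) (fcePi_surjective Q) _ h1
  have hz : d⁻¹ * e ^ a ∈ (fcePi Q).ker := by
    rw [MonoidHom.mem_ker, map_mul, map_inv, hde]; simp
  obtain ⟨s, hs, hsz⟩ := hS2 _ hz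
  refine ⟨s, hs, ?_⟩
  have hc := Subgroup.mem_center_iff.1 (fcePi_ker_le_center Q (hSk (S.inv_mem hs))) d
  have : s⁻¹ * e ^ a = d * (s⁻¹ * (d⁻¹ * e ^ a)) := by
    rw [← mul_assoc d, hc]; group
  rw [this]
  exact mul_mem hd hsz

lemma covers_iso {Q : Type u} [Group Q] [Finite Q] {A : Type v} [CommGroup A]
    (hA : Cfsg.HasSchurMultiplier Q A)
    (hcop : Nat.Coprime (Nat.card (Abelianization Q)) (Nat.card A))
    (Γ₁ Γ₂ : Type u) [Group Γ₁] [Finite Γ₁] [Group Γ₂] [Finite Γ₂] (σ₁ : Γ₁ →* Q) (σ₂ : Γ₂ →* Q)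
    (h₁ : Cfsg.IsStemExtension σ₁) (h₂ : Cfsg.IsStemExtension σ₂) (k₁ : Nonempty (σ₁.ker ≃* A))
    (k₂ : Nonempty (σ₂.ker ≃* A)) : ∃ e : Γ₁ ≃* Γ₂, σ₂.comp e.toMonoidHom = σ₁ := by
  classical
  obtain ⟨g₁, hg₁, hg₁s, hS1, hS2⟩ := cover_facts hA σ₁ h₁ k₁
  obtain ⟨g₂, hg₂, hg₂s, -, -⟩ := cover_facts hA σ₂ h₂ k₂
  have hg₁' : ∀ e, σ₁ (g₁ e) = fcePi Q e := fun e => DFunLike.congr_fun hg₁ e
  have hg₂' : ∀ e, σ₂ (g₂ e) = fcePi Q e := fun e => DFunLike.congr_fun hg₂ e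
  have hSk : g₁.ker ≤ (fcePi Q).ker := by
    intro x hx
    rw [MonoidHom.mem_ker, ← hg₁', (MonoidHom.mem_ker).1 hx, map_one]
  obtain ⟨e₁⟩ := k₁
  obtain ⟨e₂⟩ := k₂
  let l : g₁.ker →* σ₂.ker :=
    { toFun := fun s => ⟨g₂ s, by rw [MonoidHom.mem_ker, hg₂']; exact hSk s.2⟩
      map_one' := by apply Subtype.ext; simp
      map_mul' := by intro a b; apply Subtype.ext; simp }
  obtain ⟨μ, hμ⟩ := extend_coprime
    (fun a b : σ₂.ker => Subtype.ext (Subgroup.mem_center_iff.1 (h₂.2.1 b.2) (a : Γ₂)))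
    (Nat.card (Abelianization Q)) (by rw [Nat.card_congr e₂.toEquiv]; exact hcop) g₁.ker hS1
    (fun e => pow_mem_sup g₁.ker hSk hS2 e _ pow_card_eq_one') l
  let lam : FCE Q →* Γ₂ :=
    { toFun := fun e => g₂ e * ((μ e : Γ₂))⁻¹
      map_one' := by simp
      map_mul' := by
        intro a b
        have hc := Subgroup.mem_center_iff.1 (h₂.2.1 (σ₂.ker.inv_mem (μ a).2)) (g₂ b * ((μ b : Γ₂))⁻¹)
        have e2 : ((μ (a * b) : σ₂.ker) : Γ₂) = (μ a : Γ₂) * (μ b : Γ₂) := by simp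
        rw [map_mul, e2, mul_inv_rev, mul_assoc, ← mul_assoc (g₂ b), hc, mul_assoc] }
  have hker : g₁.ker ≤ lam.ker := by
    intro s hs
    rw [MonoidHom.mem_ker]
    have h1 := hμ ⟨s, hs⟩
    have h2 : ((μ s : σ₂.ker) : Γ₂) = g₂ s := congrArg Subtype.val h1
    change g₂ s * ((μ s : Γ₂))⁻¹ = 1
    rw [h2, mul_inv_cancel]
  obtain ⟨ε, hε⟩ := exists_descend g₁ hg₁s lam hker
  have hε' : ∀ e, ε (g₁ e) = lam e := fun e => DFunLike.congr_fun hε e
  have hσε : ∀ x, σ₂ (ε x) = σ₁ x := by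
    intro x
    obtain ⟨e, rfl⟩ := hg₁s x
    rw [hε', hg₁']
    change σ₂ (g₂ e * ((μ e : Γ₂))⁻¹) = _
    rw [map_mul, map_inv, hg₂', (MonoidHom.mem_ker).1 (μ e).2]; simp
  have hεs : Function.Surjective ε := by
    have hsup : ∀ x : Γ₂, ∃ h ∈ ε.range, h⁻¹ * x ∈ σ₂.ker := by
      intro x
      obtain ⟨y, hy⟩ := h₁.1 (σ₂ x)
      refine ⟨ε y, ⟨y, rfl⟩, ?_⟩
      rw [MonoidHom.mem_ker, map_mul, map_inv, hσε, hy]; simp
    have h1 : commutator Γ₂ ≤ ⁅ε.range, ε.range⁆ :=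
      commutator_le_commutator_of_central_supplement _ (fun x => by
        obtain ⟨h, hh, hx⟩ := hsup x
        exact ⟨h, hh, h₂.2.1 hx⟩)
    have h2 : ⁅ε.range, ε.range⁆ ≤ ε.range := Subgroup.commutator_le_self _
    intro x
    obtain ⟨h, hh, hx⟩ := hsup x
    have h3 : h * (h⁻¹ * x) ∈ ε.range := mul_mem hh (h2 (h1 (h₂.2.2 hx)))
    rw [mul_inv_cancel_left] at h3
    exact h3
  have hcard : ∀ {Γ : Type u} [Group Γ] (σ : Γ →* Q), Function.Surjective σ →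
      Nat.card Γ = Nat.card σ.ker * Nat.card Q := by
    intro Γ _ σ hs
    rw [← Subgroup.card_mul_index σ.ker, Subgroup.index_ker, MonoidHom.range_eq_top.2 hs]
    simp
  have hle : Nat.card Γ₁ ≤ Nat.card Γ₂ := by
    rw [hcard σ₁ h₁.1, hcard σ₂ h₂.1, Nat.card_congr e₁.toEquiv, Nat.card_congr e₂.toEquiv]
  refine ⟨MulEquiv.ofBijective ε (Function.Surjective.bijective_of_nat_card_le hεs hle), ?_⟩
  apply MonoidHom.ext
  intro x
  exact hσε x

lemma counter {Q : Type u} [Group Q] [Finite Q] {A : Type v} [CommGroup A]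
    (hA : Cfsg.HasSchurMultiplier Q A) (p : ℕ) (hp : p.Prime)
    (hpQ : p ∣ Nat.card (Abelianization Q)) (hpA : p ∣ Nat.card A)
    (hall : ∀ (Γ₁ Γ₂ : Type u) [Group Γ₁] [Finite Γ₁] [Group Γ₂] [Finite Γ₂] (σ₁ : Γ₁ →* Q)
      (σ₂ : Γ₂ →* Q), Cfsg.IsStemExtension σ₁ → Cfsg.IsStemExtension σ₂ → Nonempty (σ₁.ker ≃* A) →
      Nonempty (σ₂.ker ≃* A) → ∃ e : Γ₁ ≃* Γ₂, σ₂.comp e.toMonoidHom = σ₁) : False := by
  classical
  have hpf : Fact p.Prime := ⟨hp⟩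
  obtain ⟨eA⟩ := schur_equiv hA
  have hfinT := fceT_finite Q
  have hpT : p ∣ Nat.card (fceT Q) := by rw [← Nat.card_congr eA.toEquiv]; exact hpA
  have hTc : ∀ t ∈ fceT Q, t ∈ Subgroup.center (FCE Q) := fun t ht => fcePi_ker_le_center Q ht.1
  obtain ⟨S, hS, hS1, hS2⟩ := exists_complement Q (fcePi Q).ker le_rfl
  have hSc : ∀ s ∈ S, s ∈ Subgroup.center (FCE Q) := fun s hs => fcePi_ker_le_center Q (hS hs)
  let _ : CommGroup (fceT Q) := { (inferInstance : Group (fceT Q)) with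
    mul_comm := fun a b => Subtype.ext (Subgroup.mem_center_iff.1 (hTc b b.2) (a : FCE Q)) }
  let _ : CommGroup S := { (inferInstance : Group S) with
    mul_comm := fun a b => Subtype.ext (Subgroup.mem_center_iff.1 (hSc b b.2) (a : FCE Q)) }
  -- an element that is not a p-th power
  obtain ⟨t₀, ht₀⟩ : ∃ t₀ : fceT Q, ∀ t : fceT Q, t ^ p ≠ t₀ := by
    obtain ⟨u, hu⟩ := exists_prime_orderOf_dvd_card' p hpT
    have hni : ¬ Function.Injective (powMonoidHom p : fceT Q →* fceT Q) := by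
      intro hi
      have h1 : (powMonoidHom p : fceT Q →* fceT Q) u = (powMonoidHom p : fceT Q →* fceT Q) 1 := by
        simp only [powMonoidHom_apply, one_pow]
        rw [← hu]; exact pow_orderOf_eq_one u
      have h2 := hi h1
      rw [h2, orderOf_one] at hu
      exact hp.one_lt.ne hu
    rw [Finite.injective_iff_surjective] at hni
    unfold Function.Surjective at hni
    push Not at hni
    exact hni
  -- an element b
  obtain ⟨b, ⟨s₀, hs₀, hb1⟩, hb2⟩ : ∃ b : FCE Q, (∃ s ∈ S, s⁻¹ * b ^ p ∈ commutator (FCE Q)) ∧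
      ¬ ∃ s ∈ S, s⁻¹ * b ∈ commutator (FCE Q) := by
    obtain ⟨q', hq'⟩ := exists_prime_orderOf_dvd_card' p hpQ
    obtain ⟨q, rfl⟩ := QuotientGroup.mk_surjective q'
    obtain ⟨b, rfl⟩ := fcePi_surjective Q q
    refine ⟨b, pow_mem_sup S hS hS2 b p ?_, ?_⟩
    · rw [← hq']; exact pow_orderOf_eq_one _
    · rintro ⟨s, hs, hsb⟩
      have h1 := map_comm_le (fcePi Q) _ hsb
      rw [map_mul, map_inv, (MonoidHom.mem_ker).1 (hS hs), inv_one, one_mul,
        ← Abelianization.ker_of, MonoidHom.mem_ker] at h1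
      have h2 : orderOf (Abelianization.of (fcePi Q b)) = p := hq'
      rw [h1, orderOf_one] at h2
      exact hp.one_lt.ne h2
  -- linear algebra
  let L : Additive S →ₗ[ℤ] FreeAbelianGroup Q :=
    (MonoidHom.toAdditive ((fceAb Q).comp S.subtype)).toIntLinearMap
  have hL : ∀ s : S, L (Additive.ofMul s) = (Additive.ofMul (fceAb Q s) : FreeAbelianGroup Q) :=
    fun s => rfl
  obtain ⟨k, ⟨bW⟩⟩ := Submodule.nonempty_basis_of_pid (FreeAbelianGroup.basis Q) (LinearMap.range L)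
  set w₀ : LinearMap.range L := L.rangeRestrict (Additive.ofMul ⟨s₀, hs₀⟩) with hw₀
  have hp0 : (p : ℤ) ≠ 0 := by exact_mod_cast hp.ne_zero
  obtain ⟨j, hj⟩ : ∃ j, ¬ (p : ℤ) ∣ bW.repr w₀ j := by
    by_contra hcon
    push Not at hcon
    choose c' hc' using hcon
    let w' : LinearMap.range L := ∑ i, c' i • bW i
    have h1 : (p : ℤ) • w' = w₀ := by
      rw [← bW.sum_repr w₀, Finset.smul_sum]
      refine Finset.sum_congr rfl (fun i _ => ?_)
      rw [smul_smul, ← hc']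
    obtain ⟨s', hs'⟩ := w'.2
    have h2 : (p : ℤ) • (Additive.ofMul (fceAb Q b) : FreeAbelianGroup Q) = (p : ℤ) • L s' := by
      rw [hs']
      have h3 : (p : ℤ) • (w' : FreeAbelianGroup Q) = (w₀ : FreeAbelianGroup Q) :=
        congrArg Subtype.val h1
      rw [h3]
      have h4 : (w₀ : FreeAbelianGroup Q) = (Additive.ofMul (fceAb Q s₀) : FreeAbelianGroup Q) := rfl
      rw [h4, natCast_zsmul]
      have h5 : fceAb Q s₀ = fceAb Q (b ^ p) := by
        rw [← fceAb_ker, MonoidHom.mem_ker, map_mul, map_inv, inv_mul_eq_one] at hb1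
        exact hb1
      rw [h5, map_pow]
      rfl
    have hfree : Module.Free ℤ (FreeAbelianGroup Q) := Module.Free.of_basis (FreeAbelianGroup.basis Q)
    have h3 : (Additive.ofMul (fceAb Q b) : FreeAbelianGroup Q) = L s' :=
      smul_right_injective (FreeAbelianGroup Q) hp0 h2
    apply hb2
    refine ⟨(Additive.toMul s' : S), (Additive.toMul s').2, ?_⟩
    rw [← fceAb_ker, MonoidHom.mem_ker, map_mul, map_inv, inv_mul_eq_one]
    exact h3.symm
  let cj : S → ℤ := fun s => bW.repr (L.rangeRestrict (Additive.ofMul s)) j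
  have hcj : ∀ s s', cj (s * s') = cj s + cj s' := by
    intro s s'
    change bW.repr (L.rangeRestrict (Additive.ofMul s + Additive.ofMul s')) j = _
    rw [map_add, map_add]; rfl
  let θ : S →* fceT Q := MonoidHom.mk' (fun s => t₀ ^ cj s) (by
    intro a b
    rw [hcj, zpow_add])
  have hθ : ∀ s, θ s = t₀ ^ cj s := fun s => rfl
  let γ : S →* FCE Q := MonoidHom.mk' (fun s => (s : FCE Q) * (θ s : FCE Q)) (by
    intro a b
    have hc := Subgroup.mem_center_iff.1 (hTc _ (θ a).2) (b : FCE Q)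
    have e1 : ((θ (a * b) : fceT Q) : FCE Q) = (θ a : FCE Q) * (θ b : FCE Q) := by
      rw [map_mul]; rfl
    rw [e1]
    calc ((a * b : S) : FCE Q) * ((θ a : FCE Q) * (θ b : FCE Q))
        = (a : FCE Q) * ((b : FCE Q) * (θ a : FCE Q)) * (θ b : FCE Q) := by
          rw [Subgroup.coe_mul]; group
      _ = (a : FCE Q) * ((θ a : FCE Q) * (b : FCE Q)) * (θ b : FCE Q) := by rw [hc]
      _ = _ := by group)
  have hγ : ∀ s : S, γ s = (s : FCE Q) * (θ s : FCE Q) := fun s => rfl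
  have hSθk : γ.range ≤ (fcePi Q).ker := by
    rintro _ ⟨s, rfl⟩
    rw [hγ]
    exact mul_mem (hS s.2) (θ s).2.1
  have hSθ1 : γ.range ⊓ commutator (FCE Q) = ⊥ := by
    rw [eq_bot_iff]
    rintro _ ⟨⟨s, rfl⟩, hx⟩
    have hx' : (s : FCE Q) * (θ s : FCE Q) ∈ commutator (FCE Q) := hx
    have h1 : (s : FCE Q) ∈ commutator (FCE Q) := by
      have := mul_mem hx' (inv_mem (θ s).2.2)
      rwa [mul_inv_cancel_right] at this
    have h2 : (s : FCE Q) ∈ S ⊓ commutator (FCE Q) := ⟨s.2, h1⟩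
    rw [hS1, Subgroup.mem_bot] at h2
    have h3 : s = 1 := Subtype.ext h2
    rw [h3, map_one]
    exact Subgroup.mem_bot.2 rfl
  have hSθ2 : ∀ z ∈ (fcePi Q).ker, ∃ s ∈ γ.range, s⁻¹ * z ∈ commutator (FCE Q) := by
    intro z hz
    obtain ⟨s, hs, hsz⟩ := hS2 z hz
    refine ⟨γ ⟨s, hs⟩, ⟨_, rfl⟩, ?_⟩
    rw [hγ, mul_inv_rev, mul_assoc]
    exact mul_mem (inv_mem (θ ⟨s, hs⟩).2.2) hsz
  have n1 := normal_of_le_ker S hS
  have n2 := normal_of_le_ker γ.range hSθk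
  obtain ⟨f1, st1, ⟨e1⟩⟩ := cover_of_complement S hS hS1 hS2
  obtain ⟨f2, st2, ⟨e2⟩⟩ := cover_of_complement γ.range hSθk hSθ1 hSθ2
  obtain ⟨e, he⟩ := hall (FCE Q ⧸ S) (FCE Q ⧸ γ.range) _ _ st1 st2 ⟨e1.trans eA.symm⟩
    ⟨e2.trans eA.symm⟩
  set σ₂ := QuotientGroup.lift γ.range (fcePi Q) (fun _ hx => hSθk hx) with hσ₂
  have he' : ∀ x : FCE Q, σ₂ (e (QuotientGroup.mk x)) = fcePi Q x :=
    fun x => DFunLike.congr_fun he (QuotientGroup.mk x)
  have hmem : ∀ x : FCE Q, (QuotientGroup.mk x : FCE Q ⧸ γ.range)⁻¹ * e (QuotientGroup.mk x) ∈ σ₂.ker := by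
    intro x
    rw [MonoidHom.mem_ker, map_mul, map_inv, he']
    change (fcePi Q x)⁻¹ * fcePi Q x = 1
    simp
  let χ : FCE Q →* σ₂.ker :=
    { toFun := fun x => ⟨_, hmem x⟩
      map_one' := by apply Subtype.ext; simp
      map_mul' := by
        intro a b
        apply Subtype.ext
        have hc := Subgroup.mem_center_iff.1 (st2.2.1 (hmem a)) (QuotientGroup.mk b : FCE Q ⧸ γ.range)⁻¹
        change (QuotientGroup.mk (a * b) : FCE Q ⧸ γ.range)⁻¹ * e (QuotientGroup.mk (a * b)) =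
          ((QuotientGroup.mk a : FCE Q ⧸ γ.range)⁻¹ * e (QuotientGroup.mk a)) *
          ((QuotientGroup.mk b : FCE Q ⧸ γ.range)⁻¹ * e (QuotientGroup.mk b))
        rw [QuotientGroup.mk_mul, QuotientGroup.mk_mul, map_mul, mul_inv_rev,
          ← mul_assoc ((QuotientGroup.mk a : FCE Q ⧸ γ.range)⁻¹ * e (QuotientGroup.mk a)), ← hc]
        group }
  have hχ : ∀ x, ((χ x : σ₂.ker) : FCE Q ⧸ γ.range) =
      (QuotientGroup.mk x : FCE Q ⧸ γ.range)⁻¹ * e (QuotientGroup.mk x) := fun x => rfl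
  have hχcomm : ∀ d ∈ commutator (FCE Q), χ d = 1 := fun d hd => commutator_le_ker_of_comm
    (fun a b : σ₂.ker => Subtype.ext (Subgroup.mem_center_iff.1 (st2.2.1 b.2) (a : FCE Q ⧸ γ.range)))
    χ hd
  -- χ(b)^p = χ(s₀)
  have h1 : χ b ^ p = χ s₀ := by
    rw [← map_pow]
    have : b ^ p = s₀ * (s₀⁻¹ * b ^ p) := by group
    rw [this, map_mul, hχcomm _ hb1, mul_one]
  have h2 : ((χ s₀ : σ₂.ker) : FCE Q ⧸ γ.range) = QuotientGroup.mk ((θ ⟨s₀, hs₀⟩ : fceT Q) : FCE Q) := by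
    rw [hχ]
    have e3 : (QuotientGroup.mk s₀ : FCE Q ⧸ S) = 1 := (QuotientGroup.eq_one_iff _).2 hs₀
    rw [e3, map_one, mul_one, inv_eq_iff_mul_eq_one, ← QuotientGroup.mk_mul,
      QuotientGroup.eq_one_iff]
    exact ⟨⟨s₀, hs₀⟩, rfl⟩
  obtain ⟨t₁, ht₁, hχb⟩ : ∃ t₁ ∈ fceT Q, ((χ b : σ₂.ker) : FCE Q ⧸ γ.range) = QuotientGroup.mk t₁ := by
    obtain ⟨z, hz⟩ := QuotientGroup.mk_surjective ((χ b : σ₂.ker) : FCE Q ⧸ γ.range)
    have hzk : z ∈ (fcePi Q).ker := by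
      have : σ₂ (QuotientGroup.mk z) = 1 := by rw [hz]; exact (χ b).2
      exact this
    obtain ⟨s', hs', hsz⟩ := hSθ2 z hzk
    refine ⟨s'⁻¹ * z, Subgroup.mem_inf.2 ⟨mul_mem (inv_mem (hSθk hs')) hzk, hsz⟩, ?_⟩
    rw [← hz, QuotientGroup.mk_mul, QuotientGroup.mk_inv, (QuotientGroup.eq_one_iff s').2 hs']
    simp
  have h3 : (QuotientGroup.mk (t₁ ^ p) : FCE Q ⧸ γ.range) =
      QuotientGroup.mk ((θ ⟨s₀, hs₀⟩ : fceT Q) : FCE Q) := by
    rw [← h2, ← h1, QuotientGroup.mk_pow, ← hχb]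
    rfl
  have h4 : (t₁ ^ p)⁻¹ * ((θ ⟨s₀, hs₀⟩ : fceT Q) : FCE Q) ∈ γ.range ⊓ commutator (FCE Q) :=
    ⟨QuotientGroup.eq.1 h3, Subgroup.mul_mem _ (Subgroup.inv_mem _ (Subgroup.pow_mem _ ht₁.2 p))
      (θ ⟨s₀, hs₀⟩).2.2⟩
  rw [hSθ1, Subgroup.mem_bot, inv_mul_eq_one] at h4
  have h5 : (⟨t₁, ht₁⟩ : fceT Q) ^ p = t₀ ^ cj ⟨s₀, hs₀⟩ := by
    rw [← hθ]
    exact Subtype.ext h4
  have hcop : IsCoprime (p : ℤ) (cj ⟨s₀, hs₀⟩) :=
    (Prime.coprime_iff_not_dvd (Nat.prime_iff_prime_int.1 hp)).2 hj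
  obtain ⟨u, v, huv⟩ := hcop
  set τ : fceT Q := ⟨t₁, ht₁⟩ with hτ
  apply ht₀ (t₀ ^ u * τ ^ v)
  calc (t₀ ^ u * τ ^ v) ^ p = (t₀ ^ u) ^ (p : ℤ) * (τ ^ (p : ℤ)) ^ v := by
        rw [mul_pow, ← zpow_natCast, ← zpow_natCast (τ ^ v), ← zpow_mul τ, ← zpow_mul τ, mul_comm v]
    _ = t₀ ^ (u * p) * (t₀ ^ cj ⟨s₀, hs₀⟩) ^ v := by rw [zpow_natCast τ, h5, zpow_mul]
    _ = t₀ ^ (u * p + v * cj ⟨s₀, hs₀⟩) := by rw [← zpow_mul, zpow_add, mul_comm (cj ⟨s₀, hs₀⟩)]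
    _ = t₀ := by rw [huv, zpow_one]

/-- Let `Q` be a finite group with Schur multiplier `A`. Any two Schur covering groups of `Q` (finite stem extensions `σ₁ : Γ₁ →* Q`, `σ₂ : Γ₂ →* Q` with kernels isomorphic to `A`, `Γ₁, Γ₂` in the universe of `Q`) are isomorphic over `Q` — there is a group isomorphism `e : Γ₁ ≃* Γ₂` with `σ₂ ∘ e = σ₁` — if and only if the order of the commutator quotient of `Q` is coprime to the order of `A`. In particular a finite perfect group has a unique Schur covering group up to isomorphism over it. -/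
theorem result {Q : Type u} [Group Q] [Finite Q] {A : Type v} [CommGroup A] (hA : Cfsg.HasSchurMultiplier Q A) : (∀ (Γ₁ Γ₂ : Type u) [Group Γ₁] [Finite Γ₁] [Group Γ₂] [Finite Γ₂] (σ₁ : Γ₁ →* Q) (σ₂ : Γ₂ →* Q), Cfsg.IsStemExtension σ₁ → Cfsg.IsStemExtension σ₂ → Nonempty (σ₁.ker ≃* A) → Nonempty (σ₂.ker ≃* A) → ∃ e : Γ₁ ≃* Γ₂, σ₂.comp e.toMonoidHom = σ₁) ↔ Nat.Coprime (Nat.card (Abelianization Q)) (Nat.card A) := by
  constructor
  · intro hall
    by_contra hcop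
    obtain ⟨p, hp, h1, h2⟩ := Nat.Prime.not_coprime_iff_dvd.1 hcop
    exact counter hA p hp h1 h2 hall
  · intro hcop Γ₁ Γ₂ _ _ _ _ σ₁ σ₂ h₁ h₂ k₁ k₂
    exact covers_iso hA hcop Γ₁ Γ₂ σ₁ σ₂ h₁ h₂ k₁ k₂

end Cfsg.Agent.S3974
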