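import Cfsg.Statements.S3976
import Mathlib
import Cfsg.Agent.Lib.Helper21.Wielandt

set_option autoImplicit false
open Cfsg
open scoped Pointwise

namespace Cfsg.Agent.S3976

/-- Let `p` be a prime and `G` a group of order `p ^ m`. For every `s ≤ m` the number of normal subgroups of `G` of order `p ^ s` is congruent to `1` modulo `p`. -/
theorem result {G : Type*} [Group G] [Finite G] (p m s : ℕ) (hp : p.Prime) (hG : Nat.card G = p ^ m) (hs : s ≤ m) : Nat.card {H : Subgroup G // H.Normal ∧ Nat.card H = p ^ s} ≡ 1 [MOD p] := by
  classical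
  have hpf : Fact p.Prime := ⟨hp⟩
  have h1 := Cfsg.Agent.Lib.Helper21.card_subgroups_modEq_one (G := G) p s
    (by rw [hG]; exact pow_dvd_pow p hs)
  let A : SubMulAction (ConjAct G) (Subgroup G) :=
    { carrier := {H | Nat.card H = p ^ s}
      smul_mem' := by
        intro g H hH
        change Nat.card (g • H : Subgroup G) = p ^ s
        rw [← hH]
        exact Subgroup.card_map_of_injective (MulDistribMulAction.toMulEquiv G g).injective }
  have hP : IsPGroup p (ConjAct G) := IsPGroup.of_card (n := m) hG
  have h2 := hP.card_modEq_card_fixedPoints A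
  have h3 : Nat.card A = Nat.card {H : Subgroup G // Nat.card H = p ^ s} := rfl
  have h4 : Nat.card (MulAction.fixedPoints (ConjAct G) A) =
      Nat.card {H : Subgroup G // H.Normal ∧ Nat.card H = p ^ s} := by
    apply Nat.card_congr
    refine
      { toFun := fun H => ⟨H.1.1, ?_, H.1.2⟩
        invFun := fun H => ⟨⟨H.1, H.2.2⟩, ?_⟩
        left_inv := fun H => rfl
        right_inv := fun H => rfl }
    · constructor
      intro n hn g
      have h5 : ConjAct.toConjAct g • H.1 = H.1 := H.2 (ConjAct.toConjAct g)
      have h6 : (ConjAct.toConjAct g • H.1.1 : Subgroup G) = H.1.1 := congrArg Subtype.val h5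
      rw [← h6]
      exact ⟨n, hn, rfl⟩
    · intro g
      apply Subtype.ext
      have := H.2.1
      exact Subgroup.Normal.conjAct this g
  rw [h3, h4] at h2
  exact h2.symm.trans h1

end Cfsg.Agent.S3976
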