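import Cfsg.Statements.S3980
import Mathlib
import Cfsg.Agent.Lib.Helper21.Hopf

set_option autoImplicit false
universe u v w
open Cfsg
open Cfsg.Agent.Lib.Helper21

namespace Cfsg.Agent.S3980

lemma comm_surj {X : Type*} {Y : Type*} [Group X] [Group Y] (f : X →* Y) (hs : Function.Surjective f)
    (y : Y) (hy : y ∈ commutator Y) : ∃ x : X, x ∈ commutator X ∧ f x = y := by
  have h1 : (commutator X).map f = commutator Y := by
    rw [commutator_def, Subgroup.map_commutator, ← MonoidHom.range_eq_map,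
      MonoidHom.range_eq_top.2 hs, commutator_def]
  rw [← h1] at hy
  obtain ⟨x, hx, rfl⟩ := hy
  exact ⟨x, hx, rfl⟩

lemma hcprod (X : Type*) (Y : Type*) [Group X] [Group Y] :
    commutator (X × Y) = (commutator X).prod (commutator Y) := by
  rw [commutator_def, commutator_def, commutator_def, ← Subgroup.commutator_prod_prod,
    Subgroup.top_prod_top]

lemma comm_pow_eq_one {X : Type*} [Group X] {Q : Type*} [Group Q] [Finite Q] (H : Subgroup X) (y : X)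
    (hy : ∀ x ∈ H, x * y * x⁻¹ * y⁻¹ ∈ Subgroup.center X)
    (ξ : H →* Q) (hξ : Function.Surjective ξ) (hk : ∀ k ∈ ξ.ker, (k : X) * y = y * k)
    (x : X) (hx : x ∈ H) :
    (x * y * x⁻¹ * y⁻¹) ^ Nat.card (Abelianization Q) = 1 := by
  let φ : H →* Subgroup.center X :=
    { toFun := fun x => ⟨x * y * x⁻¹ * y⁻¹, hy x x.2⟩
      map_one' := by ext; simp
      map_mul' := by
        intro a b
        ext
        have hz := Subgroup.mem_center_iff.1 (hy b b.2) (a : X)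
        have hz2 := Subgroup.mem_center_iff.1 (hy b b.2) ((a : X) * y * (a : X)⁻¹ * y⁻¹)
        change ((a : X) * b) * y * ((a : X) * b)⁻¹ * y⁻¹ =
          ((a : X) * y * (a : X)⁻¹ * y⁻¹) * ((b : X) * y * (b : X)⁻¹ * y⁻¹)
        rw [hz2]
        calc ((a : X) * b) * y * ((a : X) * b)⁻¹ * y⁻¹
            = ((a : X) * ((b : X) * y * (b : X)⁻¹ * y⁻¹)) * y * (a : X)⁻¹ * y⁻¹ := by group
          _ = (((b : X) * y * (b : X)⁻¹ * y⁻¹) * a) * y * (a : X)⁻¹ * y⁻¹ := by rw [hz]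
          _ = _ := by group }
  set n := Nat.card (Abelianization Q) with hn
  have h1 : (ξ ⟨x, hx⟩) ^ n ∈ commutator Q := by
    rw [← Abelianization.ker_of, MonoidHom.mem_ker, map_pow, hn]
    exact pow_card_eq_one'
  obtain ⟨c, hc, hcx⟩ := comm_surj ξ hξ _ h1
  have h2 : c⁻¹ * (⟨x, hx⟩ : H) ^ n ∈ ξ.ker := by
    rw [MonoidHom.mem_ker, map_mul, map_inv, map_pow, hcx]; simp
  have h3 : φ c = 1 := by
    have hle : commutator H ≤ φ.ker := by
      rw [commutator_def, Subgroup.commutator_le]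
      intro a _ b _
      rw [MonoidHom.mem_ker, map_commutatorElement, commutatorElement_def]
      have : φ a * φ b = φ b * φ a := by
        ext
        exact (Subgroup.mem_center_iff.1 (φ b).2 (φ a : X))
      rw [this]; group
    exact hle hc
  have h4 : φ (c⁻¹ * (⟨x, hx⟩ : H) ^ n) = 1 := by
    ext
    have := hk _ h2
    change ((c⁻¹ * (⟨x, hx⟩ : H) ^ n : H) : X) * y * ((c⁻¹ * (⟨x, hx⟩ : H) ^ n : H) : X)⁻¹ * y⁻¹ = 1
    rw [this]; group
  have h5 : φ ⟨x, hx⟩ ^ n = 1 := by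
    rw [← map_pow]
    have : (⟨x, hx⟩ : H) ^ n = c * (c⁻¹ * (⟨x, hx⟩ : H) ^ n) := by group
    rw [this, map_mul, h3, h4, one_mul]
  have := congrArg (fun z : Subgroup.center X => (z : X)) h5
  simpa [φ] using this

/-- Let `Q₁` and `Q₂` be finite groups whose commutator quotients have coprime orders, with Schur multipliers `A` and `B`. Then the Schur multiplier of `Q₁ × Q₂` is isomorphic to `A × B`. -/
theorem result {Q₁ : Type u} {Q₂ : Type v} [Group Q₁] [Group Q₂] [Finite Q₁] [Finite Q₂] {A B : Type w} [CommGroup A] [CommGroup B] (hA : Cfsg.HasSchurMultiplier Q₁ A) (hB : Cfsg.HasSchurMultiplier Q₂ B) (hcop : Nat.Coprime (Nat.card (Abelianization Q₁)) (Nat.card (Abelianization Q₂))) : Cfsg.HasSchurMultiplier (Q₁ × Q₂) (A × B) := by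
  classical
  constructor
  · obtain ⟨Γ₁, _, _, σ₁, h₁, ⟨e₁⟩⟩ := hA.1
    obtain ⟨Γ₂, _, _, σ₂, h₂, ⟨e₂⟩⟩ := hB.1
    have hkk : ∀ a b, (a, b) ∈ (MonoidHom.prodMap σ₁ σ₂).ker → σ₁ a = 1 ∧ σ₂ b = 1 := by
      intro a b hk
      simpa [MonoidHom.mem_ker, Prod.ext_iff] using hk
    refine ⟨Γ₁ × Γ₂, inferInstance, inferInstance, MonoidHom.prodMap σ₁ σ₂, ⟨?_, ?_, ?_⟩, ?_⟩
    · exact Function.Surjective.prodMap h₁.1 h₂.1
    · rintro ⟨a, b⟩ hk
      have hk' := hkk a b hk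
      rw [Subgroup.mem_center_iff]
      rintro ⟨c, d⟩
      apply Prod.ext
      · exact Subgroup.mem_center_iff.1 (h₁.2.1 hk'.1) c
      · exact Subgroup.mem_center_iff.1 (h₂.2.1 hk'.2) d
    · rintro ⟨a, b⟩ hk
      have hk' := hkk a b hk
      rw [hcprod]
      exact ⟨h₁.2.2 hk'.1, h₂.2.2 hk'.2⟩
    · refine ⟨?_⟩
      have : (MonoidHom.prodMap σ₁ σ₂).ker = σ₁.ker.prod σ₂.ker := MonoidHom.ker_prodMap _ _
      exact ((MulEquiv.subgroupCongr this).trans (Subgroup.prodEquiv _ _)).trans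
        (MulEquiv.prodCongr e₁ e₂)
  · intro Γ _ _ σ hσ
    let p₁ : Γ →* Q₁ := (MonoidHom.fst Q₁ Q₂).comp σ
    let p₂ : Γ →* Q₂ := (MonoidHom.snd Q₁ Q₂).comp σ
    let H₁ : Subgroup Γ := p₂.ker
    let H₂ : Subgroup Γ := p₁.ker
    let ξ₁ : H₁ →* Q₁ := p₁.comp H₁.subtype
    let ξ₂ : H₂ →* Q₂ := p₂.comp H₂.subtype
    have hker : ∀ g, p₁ g = 1 → p₂ g = 1 → g ∈ σ.ker := by
      intro g h1 h2
      rw [MonoidHom.mem_ker]; exact Prod.ext h1 h2
    have hξ₁s : Function.Surjective ξ₁ := by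
      intro q
      obtain ⟨g, hg⟩ := hσ.1 (q, 1)
      refine ⟨⟨g, ?_⟩, ?_⟩
      · change (σ g).2 = 1; rw [hg]
      · change (σ g).1 = q; rw [hg]
    have hξ₂s : Function.Surjective ξ₂ := by
      intro q
      obtain ⟨g, hg⟩ := hσ.1 (1, q)
      refine ⟨⟨g, ?_⟩, ?_⟩
      · change (σ g).1 = 1; rw [hg]
      · change (σ g).2 = q; rw [hg]
    have hξ₁k : ∀ k ∈ ξ₁.ker, (k : Γ) ∈ σ.ker := fun k hk => hker _ hk k.2
    have hξ₂k : ∀ k ∈ ξ₂.ker, (k : Γ) ∈ σ.ker := fun k hk => hker _ k.2 hk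
    have hξ₁c : ξ₁.ker ≤ Subgroup.center H₁ := by
      intro k hk
      rw [Subgroup.mem_center_iff]
      intro g
      apply Subtype.ext
      exact Subgroup.mem_center_iff.1 (hσ.2.1 (hξ₁k k hk)) g
    have hξ₂c : ξ₂.ker ≤ Subgroup.center H₂ := by
      intro k hk
      rw [Subgroup.mem_center_iff]
      intro g
      apply Subtype.ext
      exact Subgroup.mem_center_iff.1 (hσ.2.1 (hξ₂k k hk)) g
    have hcc : ∀ x ∈ H₁, ∀ y ∈ H₂, x * y * x⁻¹ * y⁻¹ ∈ σ.ker := by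
      intro x hx y hy
      apply hker
      · have : p₁ y = 1 := hy
        simp [this]
      · have : p₂ x = 1 := hx
        simp [this]
    have hcomm : ∀ x ∈ H₁, ∀ y ∈ H₂, x * y = y * x := by
      intro x hx y hy
      have e1 := comm_pow_eq_one H₁ y (fun x hx => hσ.2.1 (hcc x hx y hy)) ξ₁ hξ₁s
        (fun k hk => (Subgroup.mem_center_iff.1 (hσ.2.1 (hξ₁k k hk)) y).symm) x hx
      have e2 := comm_pow_eq_one H₂ x (fun y hy => by
          have := (σ.ker).inv_mem (hcc x hx y hy)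
          convert hσ.2.1 this using 1
          group) ξ₂ hξ₂s
        (fun k hk => (Subgroup.mem_center_iff.1 (hσ.2.1 (hξ₂k k hk)) x).symm) y hy
      have e2' : (x * y * x⁻¹ * y⁻¹) ^ Nat.card (Abelianization Q₂) = 1 := by
        have : x * y * x⁻¹ * y⁻¹ = (y * x * y⁻¹ * x⁻¹)⁻¹ := by group
        rw [this, inv_pow, e2, inv_one]
      have h1 : x * y * x⁻¹ * y⁻¹ = 1 := by
        have h1 := orderOf_dvd_of_pow_eq_one e1
        have h2 := orderOf_dvd_of_pow_eq_one e2'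
        have h3 := Nat.dvd_gcd h1 h2
        rw [Nat.Coprime.gcd_eq_one hcop] at h3
        exact orderOf_eq_one_iff.1 (Nat.dvd_one.1 h3)
      calc x * y = (x * y * x⁻¹ * y⁻¹) * (y * x) := by group
        _ = y * x := by rw [h1, one_mul]
    let μ : H₁ × H₂ →* Γ := MonoidHom.noncommCoprod H₁.subtype H₂.subtype
      (fun a b => hcomm a a.2 b b.2)
    have hμ : ∀ a b, μ (a, b) = (a : Γ) * (b : Γ) := fun a b => rfl
    have hμs : Function.Surjective μ := by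
      intro g
      obtain ⟨x, hx⟩ := hξ₁s (p₁ g)
      refine ⟨(x, ⟨(x : Γ)⁻¹ * g, ?_⟩), ?_⟩
      · change p₁ ((x : Γ)⁻¹ * g) = 1
        have : p₁ (x : Γ) = p₁ g := hx
        rw [map_mul, map_inv, this]; simp
      · rw [hμ]; simp
    obtain ⟨θ₁, hθ₁⟩ := schur_key hA ξ₁ hξ₁s hξ₁c
    obtain ⟨θ₂, hθ₂⟩ := schur_key hB ξ₂ hξ₂s hξ₂c
    let f₁ : A →* σ.ker :=
      { toFun := fun a => ⟨((θ₁ a : H₁) : Γ), hξ₁k _ (θ₁ a).2.1⟩
        map_one' := by ext; simp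
        map_mul' := by intro a b; ext; simp }
    let f₂ : B →* σ.ker :=
      { toFun := fun a => ⟨((θ₂ a : H₂) : Γ), hξ₂k _ (θ₂ a).2.1⟩
        map_one' := by ext; simp
        map_mul' := by intro a b; ext; simp }
    refine ⟨MonoidHom.noncommCoprod f₁ f₂ (fun a b => by
      apply Subtype.ext
      exact (Subgroup.mem_center_iff.1 (hσ.2.1 (f₂ b).2) (f₁ a : Γ))), ?_⟩
    rintro ⟨k, hk⟩
    obtain ⟨⟨a, b⟩, hw, hwk⟩ := comm_surj μ hμs k (hσ.2.2 hk)
    rw [hcprod] at hw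
    rw [hμ] at hwk
    have ha : a ∈ ξ₁.ker := by
      have h1 : p₁ k = 1 := by change (σ k).1 = 1; rw [(MonoidHom.mem_ker).1 hk]; rfl
      rw [← hwk, map_mul] at h1
      have h2 : p₁ (b : Γ) = 1 := b.2
      rw [h2, mul_one] at h1
      exact h1
    have hb : b ∈ ξ₂.ker := by
      have h1 : p₂ k = 1 := by change (σ k).2 = 1; rw [(MonoidHom.mem_ker).1 hk]; rfl
      rw [← hwk, map_mul] at h1
      have h2 : p₂ (a : Γ) = 1 := a.2
      rw [h2, one_mul] at h1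
      exact h1
    obtain ⟨α, hα⟩ := hθ₁ ⟨a, Subgroup.mem_inf.2 ⟨ha, hw.1⟩⟩
    obtain ⟨β, hβ⟩ := hθ₂ ⟨b, Subgroup.mem_inf.2 ⟨hb, hw.2⟩⟩
    refine ⟨(α, β), ?_⟩
    apply Subtype.ext
    change ((θ₁ α : H₁) : Γ) * ((θ₂ β : H₂) : Γ) = k
    rw [hα, hβ]
    exact hwk

end Cfsg.Agent.S3980
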