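import Cfsg.Statements.S3994
import Mathlib
import Cfsg.Agent.Lib.Helper21.FrobCount

set_option autoImplicit false
open Cfsg
open Cfsg.Agent.Lib.Helper21

namespace Cfsg.Agent.S3994

/-- Let G be a finite group and n a positive integer. The number of elements of G whose order is divisible by n is either 0 or divisible by the largest divisor of the order of G that is coprime to n. -/
theorem result {G : Type*} [Group G] [Finite G] (n : ℕ) (hn : 0 < n) :
    Nat.card {g : G // n ∣ orderOf g} = 0 ∨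
      (Nat.card G / Nat.gcd (Nat.card G) (n ^ Nat.card G)) ∣ Nat.card {g : G // n ∣ orderOf g} := by
  right
  set N := Nat.card G with hN
  have hNpos : 0 < N := Nat.card_pos
  set A := Nat.gcd N (n ^ N) with hA
  have hAN : A ∣ N := Nat.gcd_dvd_left _ _
  have hKN : N / A ∣ N := Nat.div_dvd_of_dvd hAN
  have hAK : A * (N / A) = N := Nat.mul_div_cancel' hAN
  have key : ∀ p : ℕ, p.Prime → p ∣ n → ¬ p ∣ N / A := by
    intro p hp hpn hpK
    obtain ⟨v, m, hm, hNv⟩ := Nat.exists_eq_pow_mul_and_not_dvd hNpos.ne' p hp.ne_one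
    have hvN : v ≤ N := by
      have h1 : p ^ v ≤ N := Nat.le_of_dvd hNpos ⟨m, hNv⟩
      have h2 : v < p ^ v := Nat.lt_pow_self hp.one_lt
      omega
    have hpvA : p ^ v ∣ A := by
      apply Nat.dvd_gcd ⟨m, hNv⟩
      exact (pow_dvd_pow p hvN).trans (pow_dvd_pow_of_dvd hpn N)
    have h3 : p ^ v * p ∣ N := by
      rw [← hAK]
      exact Nat.mul_dvd_mul hpvA hpK
    rw [hNv] at h3
    exact hm (Nat.dvd_of_mul_dvd_mul_left (pow_pos hp.pos v) h3)
  have hcop : Nat.Coprime A (N / A) := by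
    apply Nat.coprime_of_dvd
    intro p hp hpA hpK
    have h1 : p ∣ n ^ N := hpA.trans (Nat.gcd_dvd_right _ _)
    exact key p hp (hp.dvd_of_dvd_pow h1) hpK
  obtain ⟨e, he1, he0⟩ := Nat.chineseRemainder hcop 1 0
  have hKe : N / A ∣ e := (Nat.modEq_zero_iff_dvd).mp he0
  have hiff : ∀ g : G, n ∣ orderOf g ↔ n ∣ orderOf (g ^ e) := by
    intro g
    constructor
    · intro h
      have h1 := orderOf_pow (n := e) g
      have h2 : orderOf (g ^ e) * Nat.gcd (orderOf g) e = orderOf g := by
        rw [h1]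
        exact Nat.div_mul_cancel (Nat.gcd_dvd_left _ _)
      have h3 : Nat.Coprime n (Nat.gcd (orderOf g) e) := by
        apply Nat.coprime_of_dvd
        intro p hp hpn hpt
        have hpe : p ∣ e := hpt.trans (Nat.gcd_dvd_right _ _)
        have hpN : p ∣ N := (hpt.trans (Nat.gcd_dvd_left _ _)).trans (orderOf_dvd_natCard g)
        have hpA : p ∣ A := Nat.dvd_gcd hpN (dvd_pow hpn hNpos.ne')
        have h4 : e ≡ 1 [MOD p] := he1.of_dvd hpA
        have h5 : e ≡ 0 [MOD p] := (Nat.modEq_zero_iff_dvd).mpr hpe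
        have h6 : 1 ≡ 0 [MOD p] := h4.symm.trans h5
        have h7 : p ∣ 1 := (Nat.modEq_zero_iff_dvd).mp h6
        exact hp.one_lt.ne' (Nat.dvd_one.mp h7)
      rw [← h2] at h
      exact h3.dvd_of_dvd_mul_right h
    · intro h
      exact h.trans (orderOf_pow_dvd e)
  have h1 : Nat.card {g : G // n ∣ orderOf g} = Nat.card {g : G // n ∣ orderOf (g ^ e)} :=
    Nat.card_congr (Equiv.subtypeEquivRight hiff)
  rw [h1]
  apply dvd_card_pow_mem e (N / A) (fun c => n ∣ orderOf c)
  · intro g x hx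
    show n ∣ orderOf (g * x * g⁻¹)
    have : orderOf (g * x * g⁻¹) = orderOf x := (MulAut.conj g).orderOf_eq x
    rw [this]
    exact hx
  · intro c _
    exact (Nat.dvd_gcd (Dvd.dvd.mul_left hKe _) hKN).trans (gcd_dvd_card_isConj_pow c e)

end Cfsg.Agent.S3994
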