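import Cfsg.Statements.S3995
import Mathlib
import Cfsg.Agent.S4212
import Cfsg.Agent.S0016

set_option autoImplicit false
open Cfsg

namespace Cfsg.Agent.S3995


/-- number of elements of order `m` -/
noncomputable def cnt (G : Type*) [Group G] (m : ℕ) : ℕ := Nat.card {g : G // orderOf g = m}

theorem cnt_one (G : Type*) [Group G] : cnt G 1 = 1 := by
  unfold cnt
  rw [Nat.card_eq_one_iff_exists]
  refine ⟨⟨1, orderOf_one⟩, ?_⟩
  rintro ⟨y, hy⟩
  exact Subtype.ext (orderOf_eq_one_iff.mp hy)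

theorem cnt_eq_zero {G : Type*} [Group G] {m : ℕ} (hm : ∀ g : G, orderOf g ≠ m) : cnt G m = 0 := by
  unfold cnt
  haveI : IsEmpty {g : G // orderOf g = m} := ⟨fun g => hm g.1 g.2⟩
  exact Nat.card_of_isEmpty

theorem eq_of_cnt_one {G : Type*} [Group G] [Finite G] {m : ℕ} (h : cnt G m = 1) {a b : G}
    (ha : orderOf a = m) (hb : orderOf b = m) : a = b := by
  unfold cnt at h
  obtain ⟨x, hx⟩ := Nat.card_eq_one_iff_exists.mp h
  have h1 := hx ⟨a, ha⟩
  have h2 := hx ⟨b, hb⟩
  exact congrArg Subtype.val (h1.trans h2.symm)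

theorem frob {G : Type*} [Group G] [Finite G] (d : ℕ) (hd : d ∣ Nat.card G) :
    d ∣ Nat.card {x : G // x ^ d = 1} := by
  have h := Cfsg.Agent.S4212.result (1 : G) d
  have h1 : Nat.card {y : G // IsConj 1 y} = 1 := by
    rw [Nat.card_eq_one_iff_exists]
    refine ⟨⟨1, IsConj.refl 1⟩, ?_⟩
    rintro ⟨y, hy⟩
    exact Subtype.ext (isConj_one_right.mp hy)
  have h2 : Nat.card {x : G // IsConj 1 (x ^ d)} = Nat.card {x : G // x ^ d = 1} := by
    apply Nat.card_congr
    apply Equiv.subtypeEquivRight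
    intro x
    constructor
    · intro hx; exact isConj_one_right.mp hx
    · intro hx; rw [hx]
  rw [h1, one_mul, h2, Nat.gcd_eq_left hd] at h
  exact h

theorem card_roots {G : Type*} [Group G] [Finite G] (d : ℕ) (hd : 0 < d) :
    Nat.card {x : G // x ^ d = 1} = ∑ m ∈ d.divisors, cnt G m := by
  classical
  haveI : Fintype G := Fintype.ofFinite G
  rw [Nat.card_eq_fintype_card, Fintype.card_subtype,
    Finset.card_eq_sum_card_fiberwise (f := fun x : G => orderOf x) (t := d.divisors)]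
  · apply Finset.sum_congr rfl
    intro m hm
    unfold cnt
    rw [Nat.card_eq_fintype_card, Fintype.card_subtype]
    congr 1
    ext x
    simp only [Finset.mem_filter, Finset.mem_univ, true_and]
    constructor
    · exact fun h => h.2
    · intro h
      refine ⟨?_, h⟩
      rw [← orderOf_dvd_iff_pow_eq_one, h]
      exact Nat.dvd_of_mem_divisors hm
  · intro x hx
    simp only [Finset.coe_filter, Finset.mem_univ, true_and, Set.mem_setOf_eq] at hx
    simp only [Finset.mem_coe, Nat.mem_divisors]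
    exact ⟨orderOf_dvd_of_pow_eq_one hx, hd.ne'⟩

theorem key {G : Type*} [Group G] [Finite G] (d : ℕ) (hd : d ∣ Nat.card G) :
    d ∣ ∑ m ∈ d.divisors, cnt G m := by
  have hd0 : 0 < d := Nat.pos_of_dvd_of_pos hd Nat.card_pos
  rw [← card_roots d hd0]
  exact frob d hd

theorem sum_div_prime_mul (p m : ℕ) (hp : p.Prime) (hpm : ¬ p ∣ m) (hm : m ≠ 0) (f : ℕ → ℕ) :
    ∑ d ∈ (p * m).divisors, f d = ∑ d ∈ m.divisors, f d + ∑ d ∈ m.divisors, f (p * d) := by
  classical
  have h1 : (p * m).divisors = m.divisors ∪ m.divisors.image (fun d => p * d) := by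
    ext d
    simp only [Nat.mem_divisors, Finset.mem_union, Finset.mem_image]
    constructor
    · rintro ⟨hd, -⟩
      by_cases hpd : p ∣ d
      · obtain ⟨e, rfl⟩ := hpd
        right
        exact ⟨e, ⟨Nat.dvd_of_mul_dvd_mul_left hp.pos hd, hm⟩, rfl⟩
      · left
        exact ⟨(Nat.Coprime.dvd_mul_left
          ((Nat.Prime.coprime_iff_not_dvd hp).mpr hpd).symm).mp hd, hm⟩
    · rintro (⟨hd, -⟩ | ⟨e, ⟨he, -⟩, rfl⟩)
      · exact ⟨hd.mul_left p, mul_ne_zero hp.ne_zero hm⟩
      · exact ⟨Nat.mul_dvd_mul_left p he, mul_ne_zero hp.ne_zero hm⟩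
  have h2 : Disjoint m.divisors (m.divisors.image (fun d => p * d)) := by
    rw [Finset.disjoint_left]
    intro d hd hd'
    obtain ⟨e, -, rfl⟩ := Finset.mem_image.mp hd'
    exact hpm ((dvd_mul_right p e).trans (Nat.dvd_of_mem_divisors hd))
  rw [h1, Finset.sum_union h2, Finset.sum_image]
  intro a _ b _ hab
  exact Nat.eq_of_mul_eq_mul_left hp.pos hab

/-- an element of order `p ^ j` has a power of order `p ^ i` for `i ≤ j` -/
theorem exists_order_pow {G : Type*} [Group G] {p : ℕ} (hp : p.Prime) {g : G} {j i : ℕ}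
    (hg : orderOf g = p ^ j) (hij : i ≤ j) : ∃ y : G, orderOf y = p ^ i := by
  refine ⟨g ^ (p ^ (j - i)), ?_⟩
  have h1 : p ^ (j - i) ∣ orderOf g := by rw [hg]; exact pow_dvd_pow p (Nat.sub_le j i)
  rw [orderOf_pow_of_dvd (pow_ne_zero _ hp.ne_zero) h1, hg]
  exact Nat.pow_div (Nat.sub_le j i) hp.pos |>.trans (by congr 1; omega)

structure Data (G : Type*) [Group G] (n : ℕ) : Prop where
  hn : n ≠ 1
  hA : ∀ g : G, cnt G (orderOf g) = 1 ∨ cnt G (orderOf g) = n
  hB : ∃ g : G, cnt G (orderOf g) = n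

theorem Data.hC {G : Type*} [Group G] [Finite G] {n : ℕ} (D : Data G n) (g : G)
    (hg : 3 ≤ orderOf g) : cnt G (orderOf g) = n := by
  rcases D.hA g with h | h
  · exfalso
    have h1 : g = g⁻¹ := eq_of_cnt_one h rfl (orderOf_inv g)
    have h2 : g ^ 2 = 1 := by
      rw [pow_two]
      exact mul_eq_one_iff_eq_inv.mpr h1
    have := orderOf_le_of_pow_eq_one (by norm_num) h2
    omega
  · exact h

theorem Data.hD {G : Type*} [Group G] [Finite G] {n : ℕ} (D : Data G n) (m : ℕ) (hm : 3 ≤ m) :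
    cnt G m = 0 ∨ cnt G m = n := by
  by_cases h : ∃ g : G, orderOf g = m
  · obtain ⟨g, rfl⟩ := h
    exact Or.inr (D.hC g hm)
  · push Not at h
    exact Or.inl (cnt_eq_zero h)

theorem hP1 {G : Type*} [Group G] [Finite G] {p : ℕ} (hp : p.Prime) (hpG : p ∣ Nat.card G) :
    p ∣ 1 + cnt G p := by
  have := key (G := G) p hpG
  rw [Nat.Prime.sum_divisors hp, cnt_one, add_comm] at this
  exact this

theorem Data.hE {G : Type*} [Group G] [Finite G] {n : ℕ} (D : Data G n) {p : ℕ} (hp : p.Prime)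
    (hpn : cnt G p = n) (g : G) : orderOf g ≠ p ^ 2 := by
  intro hg
  have hdvd : p ^ 2 ∣ Nat.card G := hg ▸ orderOf_dvd_natCard g
  have h3 : 3 ≤ orderOf g := by
    rw [hg]
    have := hp.two_le
    nlinarith
  have h1 := D.hC g h3
  rw [hg] at h1
  have h2 := key (G := G) (p ^ 2) hdvd
  rw [Nat.sum_divisors_prime_pow hp] at h2
  simp only [Finset.sum_range_succ, Finset.range_zero, Finset.sum_empty, pow_zero, pow_one,
    zero_add, cnt_one, hpn, h1] at h2
  have h4 : p ∣ 1 + n := hpn ▸ hP1 hp ((dvd_pow_self p two_ne_zero).trans hdvd)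
  have h5 : p ∣ 1 + n + n := (dvd_pow_self p two_ne_zero).trans h2
  have h6 : p ∣ n := (Nat.dvd_add_right h4).mp h5
  have h7 : p ∣ 1 := (Nat.dvd_add_left h6).mp h4
  exact hp.one_lt.ne' (Nat.dvd_one.mp h7)

theorem Data.hF {G : Type*} [Group G] [Finite G] {n : ℕ} (D : Data G n) {p q : ℕ} (hp : p.Prime)
    (hq : q.Prime) (hpq : p ≠ q) (hpG : p ∣ Nat.card G) (hqG : q ∣ Nat.card G)
    (hpn : cnt G p = n) (hqn : cnt G q = n) : False := by
  have hcop : Nat.Coprime p q := (Nat.coprime_primes hp hq).mpr hpq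
  have hdvd : p * q ∣ Nat.card G := hcop.mul_dvd_of_dvd_of_dvd hpG hqG
  have h2 := key (G := G) (p * q) hdvd
  rw [sum_div_prime_mul p q hp (fun h => hpq ((Nat.prime_dvd_prime_iff_eq hp hq).mp h)) hq.ne_zero,
    Nat.Prime.sum_divisors hq, Nat.Prime.sum_divisors hq, cnt_one, mul_one, hpn, hqn] at h2
  have h4 : p ∣ 1 + n := hpn ▸ hP1 hp hpG
  have h4' : q ∣ 1 + n := hqn ▸ hP1 hq hqG
  have h3 : 3 ≤ p * q := by
    have := hp.two_le
    have := hq.two_le
    nlinarith
  have aux : ∀ r : ℕ, r.Prime → r ∣ 1 + n → r ∣ n + 1 + (cnt G (p * q) + n) → r = 2 := by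
    intro r hr hr1 hr2
    rcases D.hD (p * q) h3 with h | h
    · exfalso
      rw [h, zero_add] at hr2
      have h6 : r ∣ n := (Nat.dvd_add_right (by rwa [add_comm] at hr1)).mp hr2
      have h7 : r ∣ 1 := (Nat.dvd_add_left h6).mp hr1
      exact hr.one_lt.ne' (Nat.dvd_one.mp h7)
    · rw [h] at hr2
      have h6 : r ∣ n + n := (Nat.dvd_add_right (by rwa [add_comm] at hr1)).mp hr2
      have h7 : r ∣ (n + n) + 2 := by
        have : (n + n) + 2 = 2 * (1 + n) := by ring
        rw [this]; exact hr1.mul_left 2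
      have h8 : r ∣ 2 := (Nat.dvd_add_right h6).mp h7
      exact (Nat.prime_dvd_prime_iff_eq hr Nat.prime_two).mp h8
  have e1 := aux p hp h4 ((dvd_mul_right p q).trans h2)
  have e2 := aux q hq h4' ((dvd_mul_left q p).trans h2)
  exact hpq (e1.trans e2.symm)

theorem orderOf_eq_pow {G : Type*} [Group G] {p : ℕ} (hp : p.Prime) (hG : IsPGroup p G) (g : G) :
    ∃ j : ℕ, orderOf g = p ^ j := by
  obtain ⟨k, hk⟩ := hG g
  obtain ⟨j, -, hj⟩ := (Nat.dvd_prime_pow hp).1 (orderOf_dvd_of_pow_eq_one hk)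
  exact ⟨j, hj⟩

theorem isPGroup_of_unique {G : Type*} [Group G] [Finite G] {p : ℕ} (hp : p.Prime)
    (h : ∀ q : ℕ, q.Prime → q ∣ Nat.card G → q = p) : IsPGroup p G := by
  haveI : Fact p.Prime := ⟨hp⟩
  have := Nat.eq_prime_pow_of_unique_prime_dvd (n := Nat.card G) (p := p) Nat.card_pos.ne'
    (fun {d} hd hdd => h d hd hdd)
  exact IsPGroup.of_card this

theorem caseA {G : Type*} [Group G] [Finite G] {n : ℕ} (D : Data G n)
    (h2 : ¬ (2 ∣ Nat.card G ∧ cnt G 2 = 1)) :
    ∃ p : ℕ, p.Prime ∧ IsPGroup p G ∧ 3 ≤ Nat.card G ∧ Monoid.exponent G = p := by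
  have hall : ∀ p : ℕ, p.Prime → p ∣ Nat.card G → cnt G p = n := by
    intro p hp hpG
    haveI : Fact p.Prime := ⟨hp⟩
    obtain ⟨g, hg⟩ := exists_prime_orderOf_dvd_card' p hpG
    by_cases hp2 : p = 2
    · subst hp2
      rcases D.hA g with h | h
      · rw [hg] at h
        exact absurd ⟨hpG, h⟩ h2
      · rwa [hg] at h
    · have h3 : 3 ≤ orderOf g := by
        rw [hg]
        have := hp.two_le
        omega
      have := D.hC g h3
      rwa [hg] at this
  have hne : Nat.card G ≠ 1 := by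
    intro h1
    obtain ⟨g, hg⟩ := D.hB
    haveI : Subsingleton G := (Nat.card_eq_one_iff_unique.mp h1).1
    have : g = 1 := Subsingleton.elim _ _
    rw [this, orderOf_one, cnt_one] at hg
    exact D.hn hg.symm
  set p := (Nat.card G).minFac with hpdef
  have hp : p.Prime := Nat.minFac_prime hne
  have hpG : p ∣ Nat.card G := Nat.minFac_dvd _
  have hG : IsPGroup p G := by
    apply isPGroup_of_unique hp
    intro q hq hqG
    by_contra hqp
    exact D.hF hq hp hqp hqG hpG (hall q hq hqG) (hall p hp hpG)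
  have hord : ∀ g : G, g ≠ 1 → orderOf g = p := by
    intro g hg
    obtain ⟨j, hj⟩ := orderOf_eq_pow hp hG g
    rcases Nat.lt_or_ge j 2 with h | h
    · interval_cases j
      · rw [pow_zero, orderOf_eq_one_iff] at hj
        exact absurd hj hg
      · rwa [pow_one] at hj
    · obtain ⟨y, hy⟩ := exists_order_pow hp hj h
      exact absurd hy (D.hE hp (hall p hp hpG) y)
  haveI : Nontrivial G := by
    rw [← Finite.one_lt_card_iff_nontrivial]
    have : 0 < Nat.card G := Nat.card_pos
    omega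
  refine ⟨p, hp, hG, ?_, (Monoid.exponent_eq_prime_iff hp).mpr hord⟩
  by_contra hlt
  have hc2 : Nat.card G = 2 := by
    have : 0 < Nat.card G := Nat.card_pos
    omega
  have h2G : 2 ∣ Nat.card G := by rw [hc2]
  have h5 := hall 2 Nat.prime_two h2G
  have h6 := card_roots (G := G) 2 (by norm_num)
  rw [Nat.Prime.sum_divisors Nat.prime_two, cnt_one, h5] at h6
  have h7 : Nat.card {x : G // x ^ 2 = 1} ≤ Nat.card G := Finite.card_subtype_le _
  have h8 := hP1 (G := G) Nat.prime_two h2G
  rw [h5] at h8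
  have := D.hn
  omega

theorem caseB1 {G : Type*} [Group G] [Finite G] {n : ℕ} (D : Data G n)
    (h2 : cnt G 2 = 1) (hodd : ∀ p : ℕ, p.Prime → p ∣ Nat.card G → p = 2) :
    Nonempty (G ≃* QuaternionGroup 2) ∨ (IsCyclic G ∧ Nat.card G = 4) := by
  haveI : Fact (Nat.Prime 2) := ⟨Nat.prime_two⟩
  have hG : IsPGroup 2 G := isPGroup_of_unique Nat.prime_two hodd
  obtain ⟨y, hy⟩ : ∃ y : G, orderOf y = 2 ^ 2 := by
    obtain ⟨g, hg⟩ := D.hB
    obtain ⟨j, hj⟩ := orderOf_eq_pow Nat.prime_two hG g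
    rcases Nat.lt_or_ge j 2 with h | h
    · exfalso
      interval_cases j
      · rw [hj, pow_zero, cnt_one] at hg
        exact D.hn hg.symm
      · rw [hj, pow_one, h2] at hg
        exact D.hn hg.symm
    · exact exists_order_pow Nat.prime_two hj h
  have h4 : cnt G (2 ^ 2) = n := by
    have := D.hC y (by rw [hy]; norm_num)
    rwa [hy] at this
  have hk4 := key (G := G) (2 ^ 2) (hy ▸ orderOf_dvd_natCard y)
  rw [Nat.sum_divisors_prime_pow Nat.prime_two] at hk4
  simp only [Finset.sum_range_succ, Finset.range_zero, Finset.sum_empty, pow_zero, pow_one,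
    zero_add, cnt_one, h2, h4] at hk4
  have hno8 : ∀ w : G, orderOf w ≠ 2 ^ 3 := by
    intro w hw
    have h8 : cnt G (2 ^ 3) = n := by
      have := D.hC w (by rw [hw]; norm_num)
      rwa [hw] at this
    have hk8 := key (G := G) (2 ^ 3) (hw ▸ orderOf_dvd_natCard w)
    rw [Nat.sum_divisors_prime_pow Nat.prime_two] at hk8
    simp only [Finset.sum_range_succ, Finset.range_zero, Finset.sum_empty, pow_zero, pow_one,
      zero_add, cnt_one, h2, h4, h8] at hk8
    norm_num at hk4 hk8
    omega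
  have hdvd4 : ∀ g : G, orderOf g ∣ 4 := by
    intro g
    obtain ⟨j, hj⟩ := orderOf_eq_pow Nat.prime_two hG g
    rcases Nat.lt_or_ge j 3 with h | h
    · rw [hj, show (4 : ℕ) = 2 ^ 2 from rfl]
      exact pow_dvd_pow 2 (by omega)
    · obtain ⟨w, hw⟩ := exists_order_pow Nat.prime_two hj h
      exact absurd hw (hno8 w)
  have huniq : ∀ H K : Subgroup G, Nat.card H = 2 → Nat.card K = 2 → H = K := by
    have aux : ∀ H : Subgroup G, Nat.card H = 2 → ∀ z : G, orderOf z = 2 →
        H = Subgroup.zpowers z := by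
      intro H hH z hz
      obtain ⟨a, ha⟩ := exists_prime_orderOf_dvd_card' (G := H) 2 (by rw [hH])
      rw [← Subgroup.orderOf_coe] at ha
      have haz : (a : G) = z := eq_of_cnt_one h2 ha hz
      symm
      apply Subgroup.eq_of_le_of_card_ge
      · rw [Subgroup.zpowers_le, ← haz]; exact a.2
      · rw [hH, Nat.card_zpowers, hz]
    intro H K hH hK
    obtain ⟨a, ha⟩ := exists_prime_orderOf_dvd_card' (G := H) 2 (by rw [hH])
    rw [← Subgroup.orderOf_coe] at ha
    rw [aux H hH _ ha, aux K hK _ ha]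
  rcases Cfsg.Agent.S0016.result 2 hG huniq with hc | ⟨-, k, ⟨e⟩⟩
  · right
    refine ⟨hc, ?_⟩
    obtain ⟨g, hg⟩ := hc.exists_generator
    have h5 := orderOf_eq_card_of_forall_mem_zpowers hg
    apply Nat.dvd_antisymm
    · rw [← h5]; exact hdvd4 g
    · have := orderOf_dvd_natCard y
      rwa [hy] at this
  · have h5 : orderOf (e.symm (QuaternionGroup.a 1)) = 2 * 2 ^ k := by
      rw [MulEquiv.orderOf_eq, QuaternionGroup.orderOf_a_one]
    have h6 := hdvd4 (e.symm (QuaternionGroup.a 1))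
    rw [h5] at h6
    have h7 : 2 ^ k ∣ 2 ^ 1 := by
      have : 2 * 2 ^ k ∣ 2 * 2 ^ 1 := by simpa using h6
      exact Nat.dvd_of_mul_dvd_mul_left (by norm_num) this
    have h8 : k ≤ 1 := (Nat.pow_dvd_pow_iff_le_right (by norm_num)).mp h7
    interval_cases k
    · right
      rw [pow_zero] at e
      haveI := QuaternionGroup.quaternionGroup_one_isCyclic
      refine ⟨isCyclic_of_surjective e.symm e.symm.surjective, ?_⟩
      rw [Nat.card_congr e.toEquiv, Nat.card_eq_fintype_card, QuaternionGroup.card, mul_one]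
    · left
      rw [pow_one] at e
      exact ⟨e⟩

theorem caseB2 {G : Type*} [Group G] [Finite G] {n : ℕ} (D : Data G n) (h2G : 2 ∣ Nat.card G)
    (h2 : cnt G 2 = 1) {p : ℕ} (hp : p.Prime) (hp2 : p ≠ 2) (hpG : p ∣ Nat.card G) :
    ∃ (p : ℕ) (P : Type) (_ : Group P) (_ : Finite P), p.Prime ∧ p ≠ 2 ∧ IsPGroup p P ∧
      Monoid.exponent P = p ∧ Nonempty (G ≃* Multiplicative (ZMod 2) × P) := by
  haveI : Fact (Nat.Prime 2) := ⟨Nat.prime_two⟩
  haveI : Fact p.Prime := ⟨hp⟩
  have hp3 : 3 ≤ p := by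
    have := hp.two_le
    omega
  obtain ⟨z, hz⟩ := exists_prime_orderOf_dvd_card' (G := G) 2 h2G
  obtain ⟨x, hx⟩ := exists_prime_orderOf_dvd_card' (G := G) p hpG
  have hpn : cnt G p = n := by
    have := D.hC x (by rw [hx]; exact hp3)
    rwa [hx] at this
  have hprimes : ∀ r : ℕ, r.Prime → r ∣ Nat.card G → r = 2 ∨ r = p := by
    intro r hr hrG
    by_contra hcon
    push Not at hcon
    haveI : Fact r.Prime := ⟨hr⟩
    obtain ⟨w, hw⟩ := exists_prime_orderOf_dvd_card' (G := G) r hrG
    have hrn : cnt G r = n := by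
      have := D.hC w (by
        rw [hw]
        have := hr.two_le
        omega)
      rwa [hw] at this
    exact D.hF hr hp hcon.2 hrG hpG hrn hpn
  have hzc : ∀ g : G, g * z * g⁻¹ = z := by
    intro g
    apply eq_of_cnt_one h2 _ hz
    have := MulEquiv.orderOf_eq (MulAut.conj g) z
    rw [MulAut.conj_apply] at this
    rw [this, hz]
  have hzcomm : ∀ g : G, Commute z g := by
    intro g
    have := hzc g
    rw [mul_inv_eq_iff_eq_mul] at this
    exact this.symm
  have hcop2p : Nat.Coprime 2 p := (Nat.coprime_primes Nat.prime_two hp).mpr (Ne.symm hp2)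
  have h2p : cnt G (p * 2) = n := by
    have h1 : orderOf (z * x) = p * 2 := by
      rw [(hzcomm x).orderOf_mul_eq_mul_orderOf_of_coprime (by rw [hz, hx]; exact hcop2p), hz, hx,
        mul_comm]
    have := D.hC (z * x) (by rw [h1]; omega)
    rwa [h1] at this
  have hp1n : p ∣ 1 + n := hpn ▸ hP1 hp hpG
  have not4 : ¬ 4 ∣ Nat.card G := by
    intro h4
    obtain ⟨Q, hQ⟩ := Sylow.exists_subgroup_card_pow_prime 2 (n := 2) (G := G) (by simpa using h4)
    obtain ⟨a, haQ, ha1, haz⟩ : ∃ a ∈ Q, a ≠ 1 ∧ a ≠ z := by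
      by_contra hcon
      push Not at hcon
      have hsub : (Q : Set G) ⊆ {1, z} := by
        intro a ha
        by_cases h1 : a = 1
        · left; exact h1
        · right; exact hcon a ha h1
      have h5 : Nat.card Q ≤ 2 := by
        have e1 : Nat.card Q = (Q : Set G).ncard := rfl
        rw [e1]
        refine (Set.ncard_le_ncard hsub (Set.toFinite _)).trans ?_
        exact (Set.ncard_insert_le _ _).trans (by rw [Set.ncard_singleton])
      rw [hQ] at h5
      norm_num at h5
    have ha4 : orderOf a = 2 ^ 2 := by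
      have h5 : orderOf a ∣ 2 ^ 2 := by
        rw [← hQ]
        exact Subgroup.orderOf_dvd_natCard Q haQ
      obtain ⟨j, hj2, hj⟩ := (Nat.dvd_prime_pow Nat.prime_two).1 h5
      interval_cases j
      · rw [pow_zero, orderOf_eq_one_iff] at hj
        exact absurd hj ha1
      · rw [pow_one] at hj
        exact absurd (eq_of_cnt_one h2 hj hz) haz
      · exact hj
    have h4n : cnt G (2 ^ 2) = n := by
      have := D.hC a (by rw [ha4]; norm_num)
      rwa [ha4] at this
    have hnd : ¬ p ∣ 2 ^ 2 := by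
      intro h
      exact hp2 ((Nat.prime_dvd_prime_iff_eq hp Nat.prime_two).mp (hp.dvd_of_dvd_pow h))
    have hdvd : p * 2 ^ 2 ∣ Nat.card G :=
      Nat.Coprime.mul_dvd_of_dvd_of_dvd ((Nat.Prime.coprime_iff_not_dvd hp).mpr hnd) hpG
        (by simpa using h4)
    have hk := key (G := G) (p * 2 ^ 2) hdvd
    rw [sum_div_prime_mul p (2 ^ 2) hp hnd (by norm_num), Nat.sum_divisors_prime_pow Nat.prime_two,
      Nat.sum_divisors_prime_pow Nat.prime_two] at hk
    simp only [Finset.sum_range_succ, Finset.range_zero, Finset.sum_empty, pow_zero, pow_one,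
      zero_add, cnt_one, h2, h4n, mul_one, hpn, h2p] at hk
    have hk' : p ∣ 1 + 1 + n + (n + n + cnt G (p * 2 ^ 2)) := (dvd_mul_right p _).trans hk
    rcases D.hD (p * 2 ^ 2) (by omega) with h | h
    · rw [h] at hk'
      have e1 : 3 * (1 + n) = (1 + 1 + n + (n + n + 0)) + 1 := by ring
      have h6 : p ∣ (1 + 1 + n + (n + n + 0)) + 1 := e1 ▸ hp1n.mul_left 3
      have h7 : p ∣ 1 := (Nat.dvd_add_right hk').mp h6
      exact hp.one_lt.ne' (Nat.dvd_one.mp h7)
    · rw [h] at hk'
      have e1 : 4 * (1 + n) = (1 + 1 + n + (n + n + n)) + 2 := by ring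
      have h6 : p ∣ (1 + 1 + n + (n + n + n)) + 2 := e1 ▸ hp1n.mul_left 4
      have h7 : p ∣ 2 := (Nat.dvd_add_right hk').mp h6
      exact hp2 ((Nat.prime_dvd_prime_iff_eq hp Nat.prime_two).mp h7)
  obtain ⟨P⟩ : Nonempty (Sylow p G) := inferInstance
  have hcardmul := (P : Subgroup G).card_mul_index
  have hidx : (P : Subgroup G).index = 2 := by
    have h5 : ∀ r : ℕ, r.Prime → r ∣ (P : Subgroup G).index → r = 2 := by
      intro r hr hrd
      rcases hprimes r hr (hrd.trans (Subgroup.index_dvd_card _)) with h | h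
      · exact h
      · exact absurd (h ▸ hrd) P.not_dvd_index
    have h6 := Nat.eq_prime_pow_of_unique_prime_dvd (n := (P : Subgroup G).index) (p := 2)
      (Subgroup.index_ne_zero_of_finite) (fun {d} hd hdd => h5 d hd hdd)
    set a := (P : Subgroup G).index.primeFactorsList.length with ha
    have h7 : a ≤ 1 := by
      by_contra hcon
      apply not4
      have : 2 ^ 2 ∣ (P : Subgroup G).index := by rw [h6]; exact pow_dvd_pow 2 (by omega)
      exact (by simpa using this : 4 ∣ (P : Subgroup G).index).trans (Subgroup.index_dvd_card _)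
    have h8 : 2 ∣ (P : Subgroup G).index := by
      obtain ⟨k, hk⟩ := IsPGroup.iff_card.mp P.2
      have h9 : Nat.Coprime 2 (Nat.card (P : Subgroup G)) := by
        rw [hk]; exact Nat.Coprime.pow_right k hcop2p
      exact h9.dvd_of_dvd_mul_left (hcardmul ▸ h2G)
    interval_cases a
    · rw [h6] at h8; norm_num at h8
    · rw [h6]; norm_num
  have hZcard : Nat.card (Subgroup.zpowers z) = 2 := by rw [Nat.card_zpowers, hz]
  let f : (Subgroup.zpowers z) × (P : Subgroup G) →* G :=
    MonoidHom.noncommCoprod (Subgroup.zpowers z).subtype (P : Subgroup G).subtype (by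
      intro a b
      obtain ⟨i, hi⟩ := Subgroup.mem_zpowers_iff.mp a.2
      show Commute (a : G) (b : G)
      rw [← hi]
      exact (hzcomm _).zpow_left i)
  have hdisj : Disjoint (Subgroup.zpowers z) (P : Subgroup G) := by
    apply Subgroup.disjoint_of_coprime_natCard
    obtain ⟨k, hk⟩ := IsPGroup.iff_card.mp P.2
    rw [hZcard, hk]
    exact Nat.Coprime.pow_right k hcop2p
  have hfinj : Function.Injective f := by
    rw [injective_iff_map_eq_one]
    rintro ⟨a, b⟩ hab
    have hab' : (a : G) * (b : G) = 1 := hab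
    have h5 : (a : G) = (b : G)⁻¹ := mul_eq_one_iff_eq_inv.mp hab'
    have h6 : (a : G) ∈ (P : Subgroup G) := by rw [h5]; exact Subgroup.inv_mem _ b.2
    have h7 : (a : G) = 1 := Subgroup.disjoint_def.mp hdisj a.2 h6
    have h8 : (b : G) = 1 := by
      rw [h7] at h5
      exact inv_eq_one.mp h5.symm
    exact Prod.ext (Subtype.ext h7) (Subtype.ext h8)
  have hfbij : Function.Bijective f := by
    apply hfinj.bijective_of_nat_card_le
    rw [Nat.card_prod, hZcard, ← hcardmul, hidx, mul_comm]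
  let e1 : (Subgroup.zpowers z) × (P : Subgroup G) ≃* G := MulEquiv.ofBijective f hfbij
  let e2 : (Subgroup.zpowers z) ≃* Multiplicative (ZMod 2) :=
    mulEquivOfPrimeCardEq (p := 2) hZcard (by simp)
  let e3 : (P : Subgroup G) ≃* Shrink.{0} (P : Subgroup G) := Shrink.mulEquiv.symm
  have hPne : Nontrivial (P : Subgroup G) := by
    rw [Subgroup.nontrivial_iff_ne_bot]
    exact P.ne_bot_of_dvd_card hpG
  have hexp : Monoid.exponent (P : Subgroup G) = p := by
    rw [Monoid.exponent_eq_prime_iff hp]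
    intro g hg
    obtain ⟨j, hj⟩ := orderOf_eq_pow hp P.2 g
    rcases Nat.lt_or_ge j 2 with h | h
    · interval_cases j
      · rw [pow_zero, orderOf_eq_one_iff] at hj
        exact absurd hj hg
      · rwa [pow_one] at hj
    · rw [← Subgroup.orderOf_coe] at hj
      obtain ⟨y, hy⟩ := exists_order_pow hp hj h
      exact absurd hy (D.hE hp hpn y)
  refine ⟨p, Shrink.{0} (P : Subgroup G), inferInstance, Finite.of_equiv _ e3.toEquiv, hp, hp2,
    P.2.of_equiv e3, ?_, ⟨e1.symm.trans (MulEquiv.prodCongr e2 e3)⟩⟩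
  rw [← Monoid.exponent_eq_of_mulEquiv e3, hexp]

/-- Let G be a finite group such that the numbers of elements of each order that occurs in G (the numbers #{g : o(g) = m}, m ranging over the element orders of G) take exactly two values, 1 and some n ≠ 1. Then either G is a p-group of exponent p and order at least 3 for some prime p, or G is the quaternion group of order 8, or G is cyclic of order 4, or G ≅ Z₂ × P for a p-group P of exponent p with p an odd prime. -/
theorem result {G : Type*} [Group G] [Finite G] (n : ℕ) (hn : n ≠ 1) (h : ((fun m : ℕ => Nat.card {g : G // orderOf g = m}) '' Set.range (orderOf : G → ℕ)) = {1, n}) :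
    (∃ p : ℕ, p.Prime ∧ IsPGroup p G ∧ 3 ≤ Nat.card G ∧ Monoid.exponent G = p) ∨
      Nonempty (G ≃* QuaternionGroup 2) ∨ (IsCyclic G ∧ Nat.card G = 4) ∨
      (∃ (p : ℕ) (P : Type) (_ : Group P) (_ : Finite P), p.Prime ∧ p ≠ 2 ∧ IsPGroup p P ∧ Monoid.exponent P = p ∧
        Nonempty (G ≃* Multiplicative (ZMod 2) × P)) := by
  have D : Data G n := by
    refine ⟨hn, ?_, ?_⟩
    · intro g
      have h1 : cnt G (orderOf g) ∈ ({1, n} : Set ℕ) := by
        rw [← h]
        exact ⟨orderOf g, ⟨g, rfl⟩, rfl⟩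
      simpa using h1
    · have h1 : n ∈ ((fun m : ℕ => Nat.card {g : G // orderOf g = m}) ''
          Set.range (orderOf : G → ℕ)) := by
        rw [h]; simp
      obtain ⟨m, ⟨g, rfl⟩, hm⟩ := h1
      exact ⟨g, hm⟩
  by_cases h2 : 2 ∣ Nat.card G ∧ cnt G 2 = 1
  · by_cases hodd : ∀ p : ℕ, p.Prime → p ∣ Nat.card G → p = 2
    · rcases caseB1 D h2.2 hodd with h' | h'
      · exact Or.inr (Or.inl h')
      · exact Or.inr (Or.inr (Or.inl h'))
    · push Not at hodd
      obtain ⟨p, hp, hpG, hp2⟩ := hodd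
      exact Or.inr (Or.inr (Or.inr (caseB2 D h2.1 h2.2 hp hp2 hpG)))
  · exact Or.inl (caseA D h2)

end Cfsg.Agent.S3995
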