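import Cfsg.Statements.S3997
-- import your own Cfsg.Agent.* helpers here

set_option autoImplicit false
open Cfsg

namespace Cfsg.Agent.S3997

/-- Let G and H be finite groups with the same order type: for every m they have the same number of elements of order m. If G is nilpotent then so is H. -/
theorem result {G H : Type*} [Group G] [Finite G] [Group H] [Finite H] (hT : (∀ m : ℕ, Nat.card {g : G // orderOf g = m} = Nat.card {h : H // orderOf h = m})) (hG : Group.IsNilpotent G) :
    Group.IsNilpotent H := by
  classical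
  -- an order preserving bijection
  let e : G ≃ H := (Equiv.sigmaFiberEquiv (orderOf : G → ℕ)).symm.trans
    ((Equiv.sigmaCongrRight (fun m => Classical.choice (Finite.card_eq.1 (hT m)))).trans
      (Equiv.sigmaFiberEquiv (orderOf : H → ℕ)))
  have he : ∀ g : G, orderOf (e g) = orderOf g := by
    intro g
    exact ((Classical.choice (Finite.card_eq.1 (hT (orderOf g)))) ⟨g, rfl⟩).2
  have hcard : Nat.card G = Nat.card H := Nat.card_congr e
  apply ((Group.isNilpotent_of_finite_tfae (G := H)).out 0 3 rfl rfl).mpr
  intro p hp P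
  obtain ⟨Q⟩ : Nonempty (Sylow p G) := inferInstance
  have hQn : (Q : Subgroup G).Normal := inferInstance
  have hQ : ∀ g : G, (∃ k : ℕ, orderOf g = p ^ k) → g ∈ (Q : Subgroup G) := by
    rintro g ⟨k, hk⟩
    have hz : IsPGroup p (Subgroup.zpowers g) := by
      apply IsPGroup.of_card (n := k)
      rw [Nat.card_zpowers, hk]
    obtain ⟨Q', hQ'⟩ := hz.exists_le_sylow
    haveI := Sylow.unique_of_normal Q hQn
    have : Q' = Q := Subsingleton.elim _ _
    rw [← this]
    exact hQ' (Subgroup.mem_zpowers g)
  set T : Set H := {h : H | ∃ k : ℕ, orderOf h = p ^ k} with hTdef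
  have hPT : ((P : Subgroup H) : Set H) ⊆ T := by
    intro h hh
    obtain ⟨k, hk⟩ := (IsPGroup.iff_orderOf.1 P.2) ⟨h, hh⟩
    refine ⟨k, ?_⟩
    rw [← hk]
    exact (Subgroup.orderOf_mk h hh).symm
  have hTle : T.ncard ≤ ((P : Subgroup H) : Set H).ncard := by
    have h1 : T.ncard ≤ ((Q : Subgroup G) : Set G).ncard := by
      apply Set.ncard_le_ncard_of_injOn e.symm
      · rintro h ⟨k, hk⟩
        apply hQ
        refine ⟨k, ?_⟩
        rw [← hk, ← he (e.symm h), Equiv.apply_symm_apply]
      · exact e.symm.injective.injOn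
    have h2 : ((Q : Subgroup G) : Set G).ncard = ((P : Subgroup H) : Set H).ncard := by
      have hQc := Q.card_eq_multiplicity
      have hPc := P.card_eq_multiplicity
      rw [← Nat.card_coe_set_eq, ← Nat.card_coe_set_eq]
      change Nat.card (Q : Subgroup G) = Nat.card (P : Subgroup H)
      rw [hQc, hPc, hcard]
    omega
  have hEq : ((P : Subgroup H) : Set H) = T :=
    Set.eq_of_subset_of_ncard_le hPT hTle (Set.toFinite _)
  constructor
  intro n hn g
  have h1 : n ∈ T := hEq ▸ hn
  obtain ⟨k, hk⟩ := h1
  have h2 : g * n * g⁻¹ ∈ T := by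
    refine ⟨k, ?_⟩
    rw [← hk]
    have := orderOf_injective (MulAut.conj g).toMonoidHom (MulAut.conj g).injective n
    simpa using this
  have h3 : g * n * g⁻¹ ∈ ((P : Subgroup H) : Set H) := hEq.symm ▸ h2
  exact h3

end Cfsg.Agent.S3997
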