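import Cfsg.Statements.S3998
import Mathlib
import Cfsg.Agent.S0531
import Cfsg.Agent.S0532
import Cfsg.Agent.Lib.Helper4.Supersolvable2
-- import your own Cfsg.Agent.* helpers here

set_option autoImplicit false
open Cfsg

namespace Cfsg.Agent.S3998

universe u v

theorem ss_sylow_normal {X : Type u} [Group X] [Finite X] (hX : Cfsg.IsSupersolvable X) (p : ℕ)
    [Fact p.Prime] (hdvd : p ∣ Nat.card X) (hmax : ∀ q : ℕ, q.Prime → q ∣ Nat.card X → q ≤ p)
    (P : Sylow p X) : (P : Subgroup X).Normal :=
  Cfsg.Agent.S0532.result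
    (fun H => Cfsg.Agent.S0531.result (Cfsg.Agent.Lib.Helper4.ss_subgroup hX H)) p hdvd hmax P

theorem count_quot {X : Type u} [Group X] [Finite X] (P : Subgroup X) [P.Normal] (k : ℕ)
    (hP : ∀ x, x ∈ P ↔ x ^ k = 1) (m : ℕ) :
    Nat.card {g : X // g ^ (m * k) = 1} = Nat.card P * Nat.card {x : X ⧸ P // x ^ m = 1} := by
  have e := QuotientGroup.preimageMkEquivSubgroupProdSet P {x : X ⧸ P | x ^ m = 1}
  rw [← Nat.card_prod]
  refine Eq.trans ?_ (Nat.card_congr e)
  apply Nat.card_congr
  apply Equiv.subtypeEquivRight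
  intro g
  rw [Set.mem_preimage, Set.mem_ofPred_eq, pow_mul, ← hP, ← QuotientGroup.mk_pow,
    QuotientGroup.eq_one_iff]

theorem mem_sylow_iff {X : Type u} [Group X] [Finite X] (p : ℕ) [Fact p.Prime] (P : Sylow p X)
    (hn : (P : Subgroup X).Normal) (x : X) :
    x ∈ (P : Subgroup X) ↔ x ^ (Nat.card (P : Subgroup X)) = 1 := by
  constructor
  · intro hx
    have := pow_card_eq_one' (G := (P : Subgroup X)) (x := ⟨x, hx⟩)
    exact congrArg Subtype.val this
  · intro hx
    obtain ⟨a, ha⟩ := (IsPGroup.iff_card.1 P.2)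
    rw [ha] at hx
    have hz : IsPGroup p (Subgroup.zpowers x) := by
      obtain ⟨j, -, hj⟩ := (Nat.dvd_prime_pow Fact.out).1 (orderOf_dvd_of_pow_eq_one hx)
      apply IsPGroup.of_card (n := j)
      rw [Nat.card_zpowers, hj]
    obtain ⟨Q', hQ'⟩ := hz.exists_le_sylow
    haveI := Sylow.unique_of_normal P hn
    have : Q' = P := Subsingleton.elim _ _
    rw [← this]
    exact hQ' (Subgroup.mem_zpowers x)

theorem main : ∀ (n : ℕ) (G : Type u) (H : Type v) [Group G] [Finite G] [Group H] [Finite H],
    Nat.card G = n →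
    (∀ m : ℕ, Nat.card {g : G // g ^ m = 1} = Nat.card {h : H // h ^ m = 1}) →
    Cfsg.IsSupersolvable G → Group.IsSolvable H := by
  intro n
  induction n using Nat.strong_induction_on with
  | _ n ih =>
  intro G H _ _ _ _ hn hT hG
  have hcard : Nat.card G = Nat.card H := by
    have := hT 0
    simp only [pow_zero] at this
    rw [Nat.card_congr (Equiv.subtypeUnivEquiv (fun _ => trivial)),
      Nat.card_congr (Equiv.subtypeUnivEquiv (fun _ => trivial))] at this
    exact this
  by_cases h1 : n = 1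
  · have : Subsingleton H := by
      rw [← Finite.card_le_one_iff_subsingleton]; omega
    exact Group.isSolvable_of_comm (fun a b => Subsingleton.elim _ _)
  -- largest prime
  have hn0 : n ≠ 0 := by rw [← hn]; exact Nat.card_pos.ne'
  have hne : (Nat.primeFactors n).Nonempty := by
    rw [Nat.nonempty_primeFactors]; omega
  obtain ⟨p, hpm, hpmax⟩ := Finset.exists_max_image (Nat.primeFactors n) id hne
  have hpp : p.Prime := Nat.prime_of_mem_primeFactors hpm
  haveI : Fact p.Prime := ⟨hpp⟩
  have hpd : p ∣ n := Nat.dvd_of_mem_primeFactors hpm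
  have hmax : ∀ q : ℕ, q.Prime → q ∣ n → q ≤ p := fun q hq hqd =>
    hpmax q (Nat.mem_primeFactors.2 ⟨hq, hqd, hn0⟩)
  obtain ⟨P⟩ : Nonempty (Sylow p G) := inferInstance
  obtain ⟨Q⟩ : Nonempty (Sylow p H) := inferInstance
  have hPn : (P : Subgroup G).Normal := ss_sylow_normal hG p (hn ▸ hpd) (hn ▸ hmax) P
  have hPQ : Nat.card (P : Subgroup G) = Nat.card (Q : Subgroup H) := by
    rw [P.card_eq_multiplicity, Q.card_eq_multiplicity, hcard]
  set k := Nat.card (P : Subgroup G) with hk
  have hPmem := mem_sylow_iff p P hPn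
  -- Q is exactly the set of solutions
  have hcP : Nat.card {g : G // g ^ k = 1} = k := by
    rw [hk]
    apply Nat.card_congr
    apply Equiv.subtypeEquivRight
    intro g
    exact (hPmem g).symm
  have hsub : ((Q : Subgroup H) : Set H) ⊆ {h : H | h ^ k = 1} := by
    intro h hh
    have := pow_card_eq_one' (G := (Q : Subgroup H)) (x := ⟨h, hh⟩)
    rw [← hPQ] at this
    exact congrArg Subtype.val this
  have hEq : ((Q : Subgroup H) : Set H) = {h : H | h ^ k = 1} := by
    apply Set.eq_of_subset_of_ncard_le hsub _ (Set.toFinite _)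
    rw [← Nat.card_coe_set_eq, ← Nat.card_coe_set_eq]
    change Nat.card {h : H // h ^ k = 1} ≤ Nat.card (Q : Subgroup H)
    rw [← hT k, hcP, ← hPQ]
  have hQmem : ∀ h : H, h ∈ (Q : Subgroup H) ↔ h ^ k = 1 := by
    intro h
    have : h ∈ ((Q : Subgroup H) : Set H) ↔ h ∈ {h : H | h ^ k = 1} := by rw [hEq]
    exact this
  have hQn : (Q : Subgroup H).Normal := by
    constructor
    intro x hx g
    rw [hQmem] at hx ⊢
    rw [conj_pow, hx]; simp
  have hkpos : 0 < k := Nat.card_pos
  have hk1 : 1 < k := by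
    rw [hk, P.card_eq_multiplicity, hn]
    apply Nat.one_lt_pow _ hpp.one_lt
    exact (Nat.pos_of_ne_zero (fun h0 => by
      have := (hpp.dvd_iff_one_le_factorization hn0).1 hpd
      omega)).ne'
  have hsolvQ : Group.IsSolvable (H ⧸ (Q : Subgroup H)) := by
    apply ih (Nat.card (G ⧸ (P : Subgroup G))) _ (G ⧸ (P : Subgroup G)) (H ⧸ (Q : Subgroup H)) rfl
    · intro m
      have h1 := count_quot (P : Subgroup G) k hPmem m
      have h2 := count_quot (Q : Subgroup H) k hQmem m
      rw [hT, h2, ← hPQ, ← hk] at h1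
      exact (Nat.eq_of_mul_eq_mul_left hkpos h1).symm
    · exact Cfsg.Agent.Lib.Helper4.ss_quotient hG _
    · have := Subgroup.card_eq_card_quotient_mul_card_subgroup (P : Subgroup G)
      rw [hn, ← hk] at this
      have hq : 0 < Nat.card (G ⧸ (P : Subgroup G)) := Nat.card_pos
      nlinarith
  have hsolvP : Group.IsSolvable (Q : Subgroup H) := by
    have := Q.2.isNilpotent
    exact IsNilpotent.to_isSolvable
  exact Group.isSolvable_of_ker_le_range (Q : Subgroup H).subtype (QuotientGroup.mk' (Q : Subgroup H))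
    (by simp)

/-- Let G and H be finite groups with the same order type (for every m the same number of elements of order m). If G is supersolvable then H is solvable. -/
theorem result {G H : Type*} [Group G] [Finite G] [Group H] [Finite H] (hT : (∀ m : ℕ, Nat.card {g : G // orderOf g = m} = Nat.card {h : H // orderOf h = m})) (hG : Cfsg.IsSupersolvable G) :
    Group.IsSolvable H := by
  classical
  let e : G ≃ H := (Equiv.sigmaFiberEquiv (orderOf : G → ℕ)).symm.trans
    ((Equiv.sigmaCongrRight (fun m => Classical.choice (Finite.card_eq.1 (hT m)))).trans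
      (Equiv.sigmaFiberEquiv (orderOf : H → ℕ)))
  have he : ∀ g : G, orderOf (e g) = orderOf g := by
    intro g
    exact ((Classical.choice (Finite.card_eq.1 (hT (orderOf g)))) ⟨g, rfl⟩).2
  apply main _ G H rfl _ hG
  intro m
  apply Nat.card_congr
  apply e.subtypeEquiv
  intro g
  rw [← orderOf_dvd_iff_pow_eq_one, ← orderOf_dvd_iff_pow_eq_one, he]

end Cfsg.Agent.S3998
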