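import Cfsg.Statements.S4005
import Cfsg.Agent.Lib.Helper2.CharBurn
import Cfsg.Agent.Lib.Helper1.Basic
import Cfsg.Agent.S0058
import Mathlib

set_option autoImplicit false
open Cfsg

namespace Cfsg.Agent.S4005

/-- A finite group whose set of element orders is exactly {1, 2, 3} has either a normal elementary abelian 3-subgroup of index 2 or a normal elementary abelian 2-subgroup of index 3. -/
theorem result {G : Type*} [Group G] [Finite G] (h : Set.range (orderOf : G → ℕ) = {k : ℕ | 1 ≤ k ∧ k ≤ 3}) :
    (∃ N : Subgroup G, N.Normal ∧ Cfsg.IsElementaryAbelian 3 N ∧ N.index = 2) ∨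
      (∃ N : Subgroup G, N.Normal ∧ Cfsg.IsElementaryAbelian 2 N ∧ N.index = 3) := by
  classical
  have ho : ∀ g : G, orderOf g = 1 ∨ orderOf g = 2 ∨ orderOf g = 3 := by
    intro g
    have : orderOf g ∈ Set.range (orderOf : G → ℕ) := ⟨g, rfl⟩
    rw [h] at this
    obtain ⟨h1, h2⟩ := this
    omega
  obtain ⟨t, ht⟩ : ∃ t : G, orderOf t = 2 := by
    have : (2:ℕ) ∈ Set.range (orderOf : G → ℕ) := by rw [h]; exact ⟨by norm_num, by norm_num⟩
    exact this
  obtain ⟨c, hc⟩ : ∃ c : G, orderOf c = 3 := by
    have : (3:ℕ) ∈ Set.range (orderOf : G → ℕ) := by rw [h]; exact ⟨by norm_num, by norm_num⟩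
    exact this
  have f2 : Fact (Nat.Prime 2) := ⟨Nat.prime_two⟩
  have f3 : Fact (Nat.Prime 3) := ⟨Nat.prime_three⟩
  have hpr : ∀ r : ℕ, r.Prime → r ∣ Nat.card G → r = 2 ∨ r = 3 := by
    intro r hr hd
    have : Fact r.Prime := ⟨hr⟩
    obtain ⟨x, hx⟩ := exists_prime_orderOf_dvd_card' r hd
    rcases ho x with h1 | h1 | h1
    · rw [hx] at h1; exact absurd h1 hr.one_lt.ne'
    · left; rw [← hx, h1]
    · right; rw [← hx, h1]
  have hno6 : ∀ x y : G, orderOf x = 2 → orderOf y = 3 → ¬ Commute x y := by
    intro x y hx hy hxy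
    have := hxy.orderOf_mul_eq_mul_orderOf_of_coprime (by rw [hx, hy]; norm_num)
    rw [hx, hy] at this
    rcases ho (x * y) with h1 | h1 | h1 <;> omega
  obtain T : Sylow 2 G := default
  obtain ⟨a, ha⟩ := IsPGroup.iff_card.mp T.2
  have hidx : ∃ b, (T : Subgroup G).index = 3 ^ b := by
    refine ⟨_, Nat.eq_prime_pow_of_unique_prime_dvd (Subgroup.index_ne_zero_of_finite) ?_⟩
    intro d hd hdd
    rcases hpr d hd (hdd.trans (Subgroup.index_dvd_card _)) with h1 | h1
    · exact absurd (h1 ▸ hdd) T.not_dvd_index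
    · exact h1
  obtain ⟨b, hb⟩ := hidx
  have hcard : Nat.card G = 2 ^ a * 3 ^ b := by
    rw [← ha, ← hb, Subgroup.card_mul_index]
  have hsol : Group.IsSolvable G := Lib.Helper2.burnside_paqb 2 3 a b Nat.prime_two Nat.prime_three hcard
  have hnt : Nontrivial G := ⟨t, 1, by intro h1; rw [h1, orderOf_one] at ht; omega⟩
  obtain ⟨p, hp, V, hVchar, hVp, hVne, hVab⟩ := Lib.Helper1.exists_char_pSubgroup_of_solvable G
  have hVn : V.Normal := inferInstance
  obtain ⟨v, hvV, hv1⟩ := (Subgroup.ne_bot_iff_exists_ne_one).mp hVne |>.imp (fun x hx => hx) |> fun ⟨x, hx⟩ => (⟨x.1, x.2, fun h => hx (Subtype.ext h)⟩ : ∃ v, v ∈ V ∧ v ≠ 1)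
  -- elements of 2-subgroups are involutions
  have hsq : ∀ S : Sylow 2 G, ∀ x ∈ S, x ^ 2 = 1 := by
    intro S x hx
    obtain ⟨k, hk⟩ := (IsPGroup.iff_orderOf.mp S.2) ⟨x, hx⟩
    rw [Subgroup.orderOf_mk] at hk
    rcases ho x with h1 | h1 | h1
    · rw [orderOf_eq_one_iff.mp h1, one_pow]
    · rw [← h1, pow_orderOf_eq_one]
    · exfalso
      rw [h1] at hk
      have : (3:ℕ) ∣ 2 ^ k := by rw [← hk]
      have := Nat.Prime.dvd_of_dvd_pow Nat.prime_three this
      omega
  have hcomm : ∀ S : Sylow 2 G, ∀ x ∈ S, ∀ y ∈ S, x * y = y * x := by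
    intro S x hx y hy
    have h1 := hsq S x hx
    have h2 := hsq S y hy
    have h3 := hsq S (x * y) (mul_mem hx hy)
    have hxi : x⁻¹ = x := by rw [inv_eq_iff_mul_eq_one, ← sq, h1]
    have hyi : y⁻¹ = y := by rw [inv_eq_iff_mul_eq_one, ← sq, h2]
    have hxyi : (x * y)⁻¹ = x * y := by rw [inv_eq_iff_mul_eq_one, ← sq, h3]
    rw [← hxyi, mul_inv_rev, hxi, hyi]
  have fp : Fact p.Prime := ⟨hp⟩
  obtain ⟨k, hk⟩ := (IsPGroup.iff_orderOf.mp hVp) ⟨v, hvV⟩
  rw [Subgroup.orderOf_mk] at hk
  have hk0 : k ≠ 0 := by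
    rintro rfl
    rw [pow_zero, orderOf_eq_one_iff] at hk
    exact hv1 hk
  have hpv : p ∣ orderOf v := by rw [hk]; exact dvd_pow_self p hk0
  rcases ho v with hov | hov | hov
  · exact absurd (orderOf_eq_one_iff.mp hov) hv1
  · -- p = 2
    right
    have hp2 : p = 2 := by
      rw [hov] at hpv
      exact (Nat.prime_dvd_prime_iff_eq hp Nat.prime_two).mp hpv
    subst hp2
    have hTC : ∀ S : Sylow 2 G, (S : Subgroup G) = Subgroup.centralizer {v} := by
      intro S
      have hvS : v ∈ S := IsPGroup.le_sylow_of_normal hVp S hvV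
      have h1 : (S : Subgroup G) ≤ Subgroup.centralizer {v} := by
        intro x hx
        rw [Subgroup.mem_centralizer_singleton_iff]
        exact hcomm S x hx v hvS
      have h2 : IsPGroup 2 (Subgroup.centralizer ({v} : Set G)) := by
        rintro ⟨x, hx⟩
        refine ⟨1, ?_⟩
        rw [Subgroup.mem_centralizer_singleton_iff] at hx
        apply Subtype.ext
        simp only [pow_one, Subgroup.coe_pow, Subgroup.coe_one]
        rcases ho x with h1 | h1 | h1
        · rw [orderOf_eq_one_iff.mp h1, one_pow]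
        · rw [← h1, pow_orderOf_eq_one]
        · exact absurd (show Commute v x from hx.symm) (hno6 v x hov h1)
      exact (S.3 h2 h1).symm
    have hsub : Subsingleton (Sylow 2 G) := ⟨fun S S' => Sylow.ext (by rw [hTC S, hTC S'])⟩
    have hTn : (T : Subgroup G).Normal := Sylow.normal_of_subsingleton T
    refine ⟨T, hTn, ⟨⟨⟨fun x y => Subtype.ext (hcomm T x x.2 y y.2)⟩⟩, hsq T⟩, ?_⟩
    rw [hb]
    have hb0 : b ≠ 0 := by
      rintro rfl
      rw [pow_zero, Subgroup.index_eq_one] at hb
      have : c ∈ (T : Subgroup G) := by rw [hb]; trivial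
      have := orderOf_dvd_of_pow_eq_one (hsq T c this)
      rw [hc] at this
      omega
    have hb2 : b < 2 := by
      by_contra hb2
      push Not at hb2
      obtain ⟨A, hA⟩ := Sylow.exists_subgroup_card_pow_prime (G := G) 3 (n := 2) (by
        rw [hcard]; exact Dvd.dvd.mul_left (pow_dvd_pow 3 hb2) _)
      have hAc : IsMulCommutative A := IsPGroup.isMulCommutative_of_card_eq_prime_sq hA
      have hA3 : ∀ x ∈ A, x ≠ 1 → orderOf x = 3 := by
        intro x hx hx1
        have h1 : orderOf x ∣ 3 ^ 2 := by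
          rw [← hA]
          have := orderOf_dvd_natCard (⟨x, hx⟩ : A)
          rwa [Subgroup.orderOf_mk] at this
        rcases ho x with h2 | h2 | h2
        · exact absurd (orderOf_eq_one_iff.mp h2) hx1
        · rw [h2] at h1; norm_num at h1
        · exact h2
      have hAnc : ¬ IsCyclic A := by
        intro hcyc
        obtain ⟨g, hg⟩ := hcyc.exists_generator
        have h1 := orderOf_eq_card_of_forall_mem_zpowers hg
        rw [hA, ← Subgroup.orderOf_coe] at h1
        rcases ho (g : G) with h2 | h2 | h2 <;> omega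
      have key := S0058.result A (T : Subgroup G) hAnc (by
        rw [Subgroup.normalizer_eq_top (H := (T : Subgroup G))]; exact le_top) (by
        rw [hA, ha]
        exact Nat.Coprime.pow _ _ (by norm_num))
      have hbot : (⨆ a ∈ {a : G | a ∈ A ∧ a ≠ 1}, (T : Subgroup G) ⊓ Subgroup.centralizer {a}) = ⊥ := by
        rw [eq_bot_iff]
        refine iSup₂_le ?_
        rintro y ⟨hyA, hy1⟩ x ⟨hxT, hxC⟩
        rw [Subgroup.mem_bot]
        by_contra hx1
        have hx2 : orderOf x = 2 := orderOf_eq_prime (hsq T x hxT) hx1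
        have hxC' : x ∈ Subgroup.centralizer {y} := hxC
        rw [Subgroup.mem_centralizer_singleton_iff] at hxC'
        exact hno6 x y hx2 (hA3 y hyA hy1) hxC'
      rw [hbot] at key
      have : v ∈ (T : Subgroup G) := IsPGroup.le_sylow_of_normal hVp T hvV
      rw [← key, Subgroup.mem_bot] at this
      exact hv1 this
    have : b = 1 := by omega
    rw [this, pow_one]
  · -- p = 3
    left
    have hp3 : p = 3 := by
      rw [hov] at hpv
      exact (Nat.prime_dvd_prime_iff_eq hp Nat.prime_three).mp hpv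
    subst hp3
    have hV3 : ∀ x ∈ V, x ≠ 1 → orderOf x = 3 := by
      intro x hx hx1
      obtain ⟨k, hk⟩ := (IsPGroup.iff_orderOf.mp hVp) ⟨x, hx⟩
      rw [Subgroup.orderOf_mk] at hk
      rcases ho x with h2 | h2 | h2
      · exact absurd (orderOf_eq_one_iff.mp h2) hx1
      · exfalso
        rw [h2] at hk
        have : (2:ℕ) ∣ 3 ^ k := by rw [← hk]
        have := Nat.Prime.dvd_of_dvd_pow Nat.prime_two this
        omega
      · exact h2
    -- involutions invert V
    have hinv : ∀ s : G, orderOf s = 2 → ∀ x ∈ V, s * x * s⁻¹ = x⁻¹ := by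
      intro s hs x hx
      have hxs : s * x * s⁻¹ ∈ V := hVn.conj_mem x hx s
      have hs2 : s * s = 1 := by rw [← sq, ← hs, pow_orderOf_eq_one]
      have hsi : s⁻¹ = s := by rw [inv_eq_iff_mul_eq_one, hs2]
      have hy : x * (s * x * s⁻¹) ∈ V := mul_mem hx hxs
      have hcm : x * (s * x * s⁻¹) = (s * x * s⁻¹) * x := by
        have := hVab.is_comm.comm ⟨x, hx⟩ ⟨_, hxs⟩
        exact congrArg Subtype.val this
      have hfix : Commute s (x * (s * x * s⁻¹)) := by
        show s * (x * (s * x * s⁻¹)) = (x * (s * x * s⁻¹)) * s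
        rw [hcm]
        rw [hsi]
        calc s * (s * x * s * x) = (s * s) * x * s * x := by group
          _ = x * s * x := by rw [hs2, one_mul]
          _ = x * s * x * (s * s) := by rw [hs2, mul_one]
          _ = _ := by
            have : s * x * s * x = x * (s * x * s) := by rw [← hsi] at hcm ⊢; simpa [hsi] using hcm.symm
            rw [this]; group
      by_contra hne
      have hy1 : x * (s * x * s⁻¹) ≠ 1 := by
        intro h1
        exact hne (eq_inv_of_mul_eq_one_right h1)
      exact hno6 s _ hs (hV3 _ hy hy1) hfix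
    have hTt : ∀ s ∈ T, ∀ s' ∈ T, s ≠ 1 → s' ≠ 1 → s = s' := by
      intro s hs s' hs' hs1 hs'1
      have h2 : orderOf s = 2 := orderOf_eq_prime (hsq T s hs) hs1
      have h2' : orderOf s' = 2 := orderOf_eq_prime (hsq T s' hs') hs'1
      by_contra hne
      have h3 : s * s' ≠ 1 := by
        intro h
        apply hne
        have : s' * s' = 1 := by rw [← sq, hsq T s' hs']
        calc s = s * (s' * s') := by rw [this, mul_one]
          _ = s' := by rw [← mul_assoc, h, one_mul]
      have h4 : orderOf (s * s') = 2 := orderOf_eq_prime (hsq T _ (mul_mem hs hs')) h3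
      apply hno6 _ v h4 hov
      show s * s' * v = v * (s * s')
      have e1 := hinv s' h2' v hvV
      have e2 := hinv s h2 v⁻¹ (inv_mem hvV)
      rw [inv_inv] at e2
      calc s * s' * v = s * (s' * v * s'⁻¹) * s⁻¹ * (s * s') := by group
        _ = v * (s * s') := by rw [e1, e2]
    have ha0 : a ≠ 0 := by
      rintro rfl
      have h1 : (2:ℕ) ∣ Nat.card G := ht ▸ orderOf_dvd_natCard t
      rw [hcard, pow_zero, one_mul] at h1
      have := Nat.Prime.dvd_of_dvd_pow Nat.prime_two h1
      omega
    obtain ⟨s, hsT, hs1⟩ : ∃ s ∈ T, s ≠ 1 := by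
      by_contra hcon
      push Not at hcon
      have : (T : Subgroup G) = ⊥ := by
        rw [eq_bot_iff]
        intro x hx
        exact Subgroup.mem_bot.mpr (hcon x hx)
      rw [this, Subgroup.card_bot] at ha
      have : 2 ∣ 2 ^ a := dvd_pow_self 2 ha0
      rw [← ha] at this
      omega
    have hs2 : orderOf s = 2 := orderOf_eq_prime (hsq T s hsT) hs1
    have hTz : (T : Subgroup G) = Subgroup.zpowers s := by
      apply le_antisymm
      · intro x hx
        by_cases hx1 : x = 1
        · rw [hx1]; exact one_mem _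
        · rw [hTt x hx s hsT hx1 hs1]; exact Subgroup.mem_zpowers s
      · rw [Subgroup.zpowers_le]; exact hsT
    have hT2 : Nat.card (T : Subgroup G) = 2 := by
      rw [hTz, Nat.card_zpowers, hs2]
    have hNC : Subgroup.normalizer ((T : Subgroup G) : Set G) ≤ Subgroup.centralizer ((T : Subgroup G) : Set G) := by
      intro g hg
      rw [Subgroup.mem_centralizer_iff]
      intro x hx
      by_cases hx1 : x = 1
      · rw [hx1]; simp
      · have h1 : g * x * g⁻¹ ∈ (T : Subgroup G) := (Subgroup.mem_normalizer_iff.mp hg x).mp hx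
        have h2 : g * x * g⁻¹ ≠ 1 := by
          intro h
          apply hx1
          have : x = g⁻¹ * (g * x * g⁻¹) * g := by group
          rw [this, h]; group
        have h3 := hTt _ h1 x hx h2 hx1
        calc x * g = (g * x * g⁻¹) * g := by rw [h3]
          _ = g * x := by group
    have hcompl := MonoidHom.ker_transferSylow_isComplement' T hNC
    set K := (MonoidHom.transferSylow T hNC).ker with hK
    have hKn : K.Normal := MonoidHom.normal_ker _
    have hKi : K.index = 2 := by rw [hcompl.symm.index_eq_card, hT2]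
    have hKc : Nat.card K = 3 ^ b := by rw [← hcompl.index_eq_card, hb]
    have hK3 : ∀ x ∈ K, x ^ 3 = 1 := by
      intro x hx
      have h1 : orderOf x ∣ 3 ^ b := by
        rw [← hKc]
        have := orderOf_dvd_natCard (⟨x, hx⟩ : K)
        rwa [Subgroup.orderOf_mk] at this
      rcases ho x with h2 | h2 | h2
      · rw [orderOf_eq_one_iff.mp h2, one_pow]
      · exfalso
        rw [h2] at h1
        have := Nat.Prime.dvd_of_dvd_pow Nat.prime_two h1
        omega
      · rw [← h2, pow_orderOf_eq_one]
    have hsK : s ∉ K := by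
      intro h
      have := orderOf_dvd_of_pow_eq_one (hK3 s h)
      rw [hs2] at this
      omega
    have hss : s * s = 1 := by rw [← sq, hsq T s hsT]
    have hinvK : ∀ x ∈ K, s * x * s = x⁻¹ := by
      intro x hx
      have h1 : s * x ∉ K := by
        intro h
        apply hsK
        have := mul_mem h (inv_mem hx)
        simpa using this
      have h2 : (s * x) ^ 2 = 1 := by
        rcases ho (s * x) with h2 | h2 | h2
        · rw [orderOf_eq_one_iff.mp h2, one_pow]
        · rw [← h2, pow_orderOf_eq_one]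
        · exfalso
          apply h1
          have h3 : (s * x) ^ 3 = 1 := by rw [← h2, pow_orderOf_eq_one]
          have h4 : s * x = ((s * x) ^ 2) ^ 2 := by
            rw [← pow_mul]
            show s * x = (s * x) ^ (3 + 1)
            rw [pow_add, h3, one_mul, pow_one]
          rw [h4]
          exact pow_mem (Subgroup.sq_mem_of_index_two hKi _) 2
      rw [sq] at h2
      apply eq_inv_of_mul_eq_one_left
      rw [← h2]; group
    refine ⟨K, hKn, ⟨⟨⟨fun x y => Subtype.ext ?_⟩⟩, hK3⟩, hKi⟩
    show (x : G) * y = y * x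
    have e1 := hinvK x x.2
    have e2 := hinvK y y.2
    have e3 := hinvK (x * y) (mul_mem x.2 y.2)
    have e4 : s * ((x : G) * y) * s = (s * x * s) * (s * y * s) := by
      calc s * ((x : G) * y) * s = s * x * 1 * y * s := by group
        _ = s * x * (s * s) * y * s := by rw [hss]
        _ = _ := by group
    rw [e4, e1, e2, mul_inv_rev] at e3
    have := congrArg (·⁻¹) e3
    simpa using this.symm

end Cfsg.Agent.S4005
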