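import Cfsg.Statements.S4200
import Mathlib

set_option autoImplicit false
open Cfsg

namespace Cfsg.Agent.S4200

open Subgroup in
theorem card_mul_le {X : Type*} [Group X] [Finite X] (K Y : Subgroup X) :
    Nat.card K * Nat.card Y ≤
      Nat.card (K ⊓ Y : Subgroup X) * Nat.card {x : X // ∃ k ∈ K, x * k⁻¹ ∈ Y} := by
  classical
  rw [← Nat.card_prod, ← Nat.card_prod]
  let τ : {x : X // ∃ k ∈ K, x * k⁻¹ ∈ Y} → X := fun s => s.2.choose
  have hτ : ∀ s, τ s ∈ K ∧ s.1 * (τ s)⁻¹ ∈ Y := fun s => s.2.choose_spec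
  have hS : ∀ p : K × Y, ∃ k ∈ K, ((p.2 : X) * p.1) * k⁻¹ ∈ Y :=
    fun p => ⟨p.1, p.1.2, by simp⟩
  apply Nat.card_le_card_of_injective (fun p : K × Y =>
     ((⟨τ ⟨(p.2 : X) * p.1, hS p⟩ * (p.1 : X)⁻¹,
        mem_inf.2 ⟨K.mul_mem (hτ _).1 (K.inv_mem p.1.2), by
        have h1 := (hτ ⟨(p.2 : X) * p.1, hS p⟩).2
        have h2 : (p.1 : X) * (τ ⟨(p.2 : X) * p.1, hS p⟩)⁻¹ ∈ Y := by
          have := Y.mul_mem (Y.inv_mem p.2.2) h1
          simpa [mul_assoc] using this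
        have := Y.inv_mem h2
        simpa using this⟩⟩, ⟨(p.2 : X) * p.1, hS p⟩) :
        (K ⊓ Y : Subgroup X) × {x : X // ∃ k ∈ K, x * k⁻¹ ∈ Y}))
  intro p q hpq
  simp only [Prod.mk.injEq, Subtype.mk.injEq] at hpq
  obtain ⟨h1, h2⟩ := hpq
  have h3 : τ ⟨(p.2 : X) * p.1, hS p⟩ = τ ⟨(q.2 : X) * q.1, hS q⟩ := by
    congr 1; exact Subtype.ext h2
  rw [h3] at h1
  have h4 : (p.1 : X) = q.1 := inv_injective (mul_left_cancel h1)
  have h5 : (p.2 : X) = q.2 := by rw [h4] at h2; exact mul_right_cancel h2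
  exact Prod.ext (Subtype.ext h4) (Subtype.ext h5)

theorem card_le_index_mul {X : Type*} [Group X] [Finite X] (K Y : Subgroup X) :
    Nat.card K ≤ Y.index * Nat.card (K ⊓ Y : Subgroup X) := by
  have h := card_mul_le K Y
  have h2 : Nat.card {x : X // ∃ k ∈ K, x * k⁻¹ ∈ Y} ≤ Nat.card X := Finite.card_subtype_le _
  have h3 : Nat.card Y * Y.index = Nat.card X := Y.card_mul_index
  have hpos : 0 < Nat.card Y := Nat.card_pos
  apply Nat.le_of_mul_le_mul_right _ hpos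
  calc Nat.card K * Nat.card Y
      ≤ Nat.card (K ⊓ Y : Subgroup X) * Nat.card {x : X // ∃ k ∈ K, x * k⁻¹ ∈ Y} := h
    _ ≤ Nat.card (K ⊓ Y : Subgroup X) * Nat.card X := Nat.mul_le_mul_left _ h2
    _ = Y.index * Nat.card (K ⊓ Y : Subgroup X) * Nat.card Y := by rw [← h3]; ring

theorem card_lt_index_mul {X : Type*} [Group X] [Finite X] (K Y : Subgroup X) (x0 : X)
    (hx0 : ¬ ∃ k ∈ K, x0 * k⁻¹ ∈ Y) :
    Nat.card K < Y.index * Nat.card (K ⊓ Y : Subgroup X) := by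
  have h := card_mul_le K Y
  have h2 : Nat.card {x : X // ∃ k ∈ K, x * k⁻¹ ∈ Y} < Nat.card X := Finite.card_subtype_lt hx0
  have h3 : Nat.card Y * Y.index = Nat.card X := Y.card_mul_index
  have hpos : 0 < Nat.card Y := Nat.card_pos
  have hpos2 : 0 < Nat.card (K ⊓ Y : Subgroup X) := Nat.card_pos
  apply Nat.lt_of_mul_lt_mul_right (a := Nat.card Y)
  calc Nat.card K * Nat.card Y
      ≤ Nat.card (K ⊓ Y : Subgroup X) * Nat.card {x : X // ∃ k ∈ K, x * k⁻¹ ∈ Y} := h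
    _ < Nat.card (K ⊓ Y : Subgroup X) * Nat.card X := Nat.mul_lt_mul_of_pos_left h2 hpos2
    _ = Y.index * Nat.card (K ⊓ Y : Subgroup X) * Nat.card Y := by rw [← h3]; ring

open Subgroup in
theorem pairs_eq_sum {X : Type*} [Group X] [Finite X] (A : X → Prop) (Z : Subgroup X)
    [Fintype {x : X // A x}] :
    Nat.card {p : X × X // A p.1 ∧ p.2 ∈ Z ∧ Commute p.1 p.2} =
      ∑ x : {x : X // A x}, Nat.card (centralizer {x.1} ⊓ Z : Subgroup X) := by
  rw [← Nat.card_sigma]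
  apply Nat.card_congr
  exact
    { toFun := fun p => ⟨⟨p.1.1, p.2.1⟩, ⟨p.1.2,
        mem_inf.2 ⟨mem_centralizer_singleton_iff.2 p.2.2.2.symm.eq, p.2.2.1⟩⟩⟩
      invFun := fun s => ⟨(s.1.1, s.2.1), s.1.2, (mem_inf.1 s.2.2).2,
        (mem_centralizer_singleton_iff.1 (mem_inf.1 s.2.2).1).symm⟩
      left_inv := fun p => rfl
      right_inv := fun s => rfl }

open Subgroup in
theorem pairs_le {X : Type*} [Group X] [Finite X] (Y : Subgroup X) (A : X → Prop) :
    Nat.card {p : X × X // A p.1 ∧ p.2 ∈ (⊤ : Subgroup X) ∧ Commute p.1 p.2} ≤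
      Y.index * Nat.card {p : X × X // A p.1 ∧ p.2 ∈ Y ∧ Commute p.1 p.2} := by
  classical
  haveI := Fintype.ofFinite {x : X // A x}
  rw [pairs_eq_sum, pairs_eq_sum, Finset.mul_sum]
  apply Finset.sum_le_sum
  intro x _
  rw [inf_top_eq]
  exact card_le_index_mul _ Y

open Subgroup in
theorem pairs_lt {X : Type*} [Group X] [Finite X] (Y : Subgroup X) (A : X → Prop) (x1 : X)
    (hx1 : A x1) (x0 : X) (hx0 : ¬ ∃ k ∈ centralizer {x1}, x0 * k⁻¹ ∈ Y) :
    Nat.card {p : X × X // A p.1 ∧ p.2 ∈ (⊤ : Subgroup X) ∧ Commute p.1 p.2} <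
      Y.index * Nat.card {p : X × X // A p.1 ∧ p.2 ∈ Y ∧ Commute p.1 p.2} := by
  classical
  haveI := Fintype.ofFinite {x : X // A x}
  rw [pairs_eq_sum, pairs_eq_sum, Finset.mul_sum]
  apply Finset.sum_lt_sum
  · intro x _
    rw [inf_top_eq]
    exact card_le_index_mul _ Y
  · refine ⟨⟨x1, hx1⟩, Finset.mem_univ _, ?_⟩
    rw [inf_top_eq]
    exact card_lt_index_mul _ Y x0 hx0

/-- Let Y be a subgroup of the finite group X, of index m. Then the numbers of conjugacy classes satisfy k(Y) ≤ m·k(X) and k(X) ≤ m·k(Y), and the second inequality is strict unless Y is normal in X. -/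
theorem result {X : Type*} [Group X] [Finite X] (Y : Subgroup X) : Nat.card (ConjClasses Y) ≤ Y.index * Nat.card (ConjClasses X) ∧ Nat.card (ConjClasses X) ≤ Y.index * Nat.card (ConjClasses Y) ∧ (¬ Y.Normal → Nat.card (ConjClasses X) < Y.index * Nat.card (ConjClasses Y)) := by
  classical
  set m := Y.index with hm
  have hXY : Nat.card Y * m = Nat.card X := Y.card_mul_index
  have hYpos : 0 < Nat.card Y := Nat.card_pos
  have hmpos : 0 < m := Nat.pos_of_ne_zero Subgroup.index_ne_zero_of_finite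
  have ha : Nat.card {p : X × X // True ∧ p.2 ∈ (⊤ : Subgroup X) ∧ Commute p.1 p.2} =
      Nat.card (ConjClasses X) * Nat.card X := by
    rw [← card_comm_eq_card_conjClasses_mul_card]
    exact Nat.card_congr (Equiv.subtypeEquivRight (fun p => by simp))
  have hc : Nat.card {p : X × X // p.1 ∈ Y ∧ p.2 ∈ Y ∧ Commute p.1 p.2} =
      Nat.card (ConjClasses Y) * Nat.card Y := by
    rw [← card_comm_eq_card_conjClasses_mul_card]
    exact Nat.card_congr
      { toFun := fun p => ⟨(⟨p.1.1, p.2.1⟩, ⟨p.1.2, p.2.2.1⟩), Subtype.ext p.2.2.2.eq⟩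
        invFun := fun p => ⟨(p.1.1.1, p.1.2.1), p.1.1.2, p.1.2.2, congrArg Subtype.val p.2.eq⟩
        left_inv := fun p => rfl
        right_inv := fun p => rfl }
  have hb : Nat.card {p : X × X // True ∧ p.2 ∈ Y ∧ Commute p.1 p.2} =
      Nat.card {p : X × X // p.1 ∈ Y ∧ p.2 ∈ (⊤ : Subgroup X) ∧ Commute p.1 p.2} :=
    Nat.card_congr
      { toFun := fun p => ⟨(p.1.2, p.1.1), p.2.2.1, Subgroup.mem_top _, p.2.2.2.symm⟩
        invFun := fun p => ⟨(p.1.2, p.1.1), trivial, p.2.1, p.2.2.2.symm⟩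
        left_inv := fun p => rfl
        right_inv := fun p => rfl }
  have h1 := pairs_le Y (fun _ => True)
  have h2 := pairs_le Y (fun x => x ∈ Y)
  have h3 : Nat.card {p : X × X // p.1 ∈ Y ∧ p.2 ∈ Y ∧ Commute p.1 p.2} ≤
      Nat.card {p : X × X // True ∧ p.2 ∈ (⊤ : Subgroup X) ∧ Commute p.1 p.2} :=
    Nat.card_le_card_of_injective
      (fun p => ⟨p.1, trivial, Subgroup.mem_top _, p.2.2.2⟩)
      (fun p q h => Subtype.ext (by simpa using congrArg Subtype.val h))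
  rw [ha, hb] at h1
  rw [hc] at h2 h3
  rw [ha] at h3
  refine ⟨?_, ?_, ?_⟩
  · apply Nat.le_of_mul_le_mul_right _ hYpos
    calc Nat.card (ConjClasses Y) * Nat.card Y ≤ Nat.card (ConjClasses X) * Nat.card X := h3
      _ = m * Nat.card (ConjClasses X) * Nat.card Y := by rw [← hXY]; ring
  · apply Nat.le_of_mul_le_mul_right _ (Nat.mul_pos hYpos hmpos)
    calc Nat.card (ConjClasses X) * (Nat.card Y * m) = Nat.card (ConjClasses X) * Nat.card X := by
          rw [hXY]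
      _ ≤ m * _ := h1
      _ ≤ m * (m * (Nat.card (ConjClasses Y) * Nat.card Y)) := Nat.mul_le_mul_left _ h2
      _ = m * Nat.card (ConjClasses Y) * (Nat.card Y * m) := by ring
  · intro hn
    have hex : ∃ y ∈ Y, ∃ x0 : X, x0 * y * x0⁻¹ ∉ Y := by
      by_contra hcon
      push Not at hcon
      exact hn ⟨fun n hn g => hcon n hn g⟩
    obtain ⟨y, hy, x0, hx0⟩ := hex
    have h2' := pairs_lt Y (fun x => x ∈ Y) y hy x0 (by
      rintro ⟨k, hk, hw⟩
      apply hx0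
      rw [Subgroup.mem_centralizer_singleton_iff] at hk
      have : x0 * y * x0⁻¹ = (x0 * k⁻¹) * y * (x0 * k⁻¹)⁻¹ := by
        have hk2 : k⁻¹ * y * k = y := by
          rw [mul_assoc, ← hk, ← mul_assoc, inv_mul_cancel, one_mul]
        calc x0 * y * x0⁻¹ = x0 * (k⁻¹ * y * k) * x0⁻¹ := by rw [hk2]
          _ = (x0 * k⁻¹) * y * (x0 * k⁻¹)⁻¹ := by group
      rw [this]
      exact Y.mul_mem (Y.mul_mem hw hy) (Y.inv_mem hw))
    rw [hc] at h2'
    apply Nat.lt_of_mul_lt_mul_right (a := Nat.card Y * m)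
    calc Nat.card (ConjClasses X) * (Nat.card Y * m) = Nat.card (ConjClasses X) * Nat.card X := by
          rw [hXY]
      _ ≤ m * _ := h1
      _ < m * (m * (Nat.card (ConjClasses Y) * Nat.card Y)) := Nat.mul_lt_mul_of_pos_left h2' hmpos
      _ = m * Nat.card (ConjClasses Y) * (Nat.card Y * m) := by ring

end Cfsg.Agent.S4200
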