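import Cfsg.Statements.S4201
import Cfsg.Agent.Lib.Helper21.KPi3

set_option autoImplicit false
open Cfsg

namespace Cfsg.Agent.S4201

/-- If N is a normal subgroup of the finite group X then k(X) ≤ k(N)·k(X ⧸ N), where k denotes the number of conjugacy classes. -/
theorem result {X : Type*} [Group X] [Finite X] (N : Subgroup X) [N.Normal] : Nat.card (ConjClasses X) ≤ Nat.card (ConjClasses N) * Nat.card (ConjClasses (X ⧸ N)) := by
  have key : ∀ (H : Type _) [Group H],
      Nat.card (ConjClasses H) =
      Nat.card {C : ConjClasses H // ∀ g : H, ConjClasses.mk g = C →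
        Cfsg.Agent.Lib.Helper21.isPiElt Set.univ g} := by
    intro H _
    exact Nat.card_congr (Equiv.subtypeUnivEquiv (fun C g _ q _ _ => Set.mem_univ q)).symm
  rw [key X, key N, key (X ⧸ N)]
  exact Cfsg.Agent.Lib.Helper21.kpi_le_mul N Set.univ

end Cfsg.Agent.S4201
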