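import Cfsg.Statements.S4203
import Mathlib
import Cfsg.Agent.Lib.Helper1.CoprimeSylow
import Cfsg.Agent.S0144
-- import your own Cfsg.Agent.* helpers here

set_option autoImplicit false
open Cfsg

namespace Cfsg.Agent.S4203

open Cfsg.Agent.Lib.Helper1

/-- a subgroup containing the normalizer of a Sylow `p`-subgroup has index `≡ 1 (mod p)` -/
theorem index_modEq_one {G : Type*} [Group G] [Finite G] {p : ℕ} [Fact p.Prime] (P : Sylow p G)
    (M : Subgroup G) (hM : Subgroup.normalizer ((P : Subgroup G) : Set G) ≤ M) : M.index ≡ 1 [MOD p] := by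
  have hp : p.Prime := Fact.out
  have hPM : (P : Subgroup G) ≤ M := Subgroup.le_normalizer.trans hM
  have h1 := relIndex_normalizer_modEq (K := M) hPM P.2
  have h2 := relIndex_normalizer_modEq (K := ⊤) (le_top : (P : Subgroup G) ≤ ⊤) P.2
  rw [inf_of_le_right hM] at h1
  rw [top_inf_eq, Subgroup.relIndex_top_right] at h2
  have h3 : (P : Subgroup G).relIndex M ≡ (P : Subgroup G).index [MOD p] := h1.symm.trans h2
  rw [← Subgroup.relIndex_mul_index hPM] at h3
  have hcop : Nat.Coprime p ((P : Subgroup G).relIndex M) := by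
    rw [Nat.Prime.coprime_iff_not_dvd hp]
    intro h
    exact P.not_dvd_index (h.trans (Subgroup.relIndex_dvd_index_of_le hPM))
  have h4 : (P : Subgroup G).relIndex M * 1 ≡ (P : Subgroup G).relIndex M * M.index [MOD p] := by
    rwa [mul_one]
  exact (Nat.ModEq.cancel_left_of_coprime (by rwa [Nat.coprime_iff_gcd_eq_one] at hcop) h4).symm

theorem main : ∀ (n : ℕ) (G : Type*) [Group G] [Finite G], Nat.card G = n →
    (∀ M : Subgroup G, IsCoatom M → ∃ p : ℕ, p.Prime ∧ (M.index = p ∨ M.index = p ^ 2)) →
    Group.IsSolvable G := by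
  intro n
  induction n using Nat.strong_induction_on with
  | _ n ih =>
  intro G _ _ hn h
  by_cases h1 : Nat.card G = 1
  · have : Subsingleton G := (Nat.card_eq_one_iff_unique.mp h1).1
    infer_instance
  have hne : (Nat.card G).primeFactors.Nonempty := Nat.nonempty_primeFactors.mpr (by
    have := Nat.card_pos (α := G); omega)
  obtain ⟨p, hp⟩ : ∃ p, p = (Nat.card G).primeFactors.max' hne := ⟨_, rfl⟩
  have hpmem : p ∈ (Nat.card G).primeFactors := hp ▸ Finset.max'_mem _ hne
  have hpp : p.Prime := Nat.prime_of_mem_primeFactors hpmem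
  have hpd : p ∣ Nat.card G := Nat.dvd_of_mem_primeFactors hpmem
  have hmax : ∀ q : ℕ, q.Prime → q ∣ Nat.card G → q ≤ p := by
    intro q hq hqd
    rw [hp]
    exact Finset.le_max' _ q (Nat.mem_primeFactors.mpr ⟨hq, hqd, Nat.card_pos.ne'⟩)
  have : Fact p.Prime := ⟨hpp⟩
  obtain ⟨P⟩ : Nonempty (Sylow p G) := inferInstance
  by_cases hPn : (P : Subgroup G).Normal
  · -- quotient
    have hPne : (P : Subgroup G) ≠ ⊥ := P.ne_bot_of_dvd_card hpd
    have hlt : Nat.card (G ⧸ (P : Subgroup G)) < n := by
      rw [← hn, ← (P : Subgroup G).card_mul_index]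
      have h1 : 1 < Nat.card (P : Subgroup G) := by
        rw [Subgroup.one_lt_card_iff_ne_bot]; exact hPne
      have h2 : 0 < (P : Subgroup G).index := Nat.pos_of_ne_zero (Subgroup.index_ne_zero_of_finite)
      change (P : Subgroup G).index < _
      nlinarith
    have hq : Group.IsSolvable (G ⧸ (P : Subgroup G)) := by
      apply ih _ hlt _ rfl
      intro M hM
      have h2 := h _ (Subgroup.isCoatom_comap_of_surjective (QuotientGroup.mk'_surjective (P : Subgroup G)) hM)
      rwa [Subgroup.index_comap_of_surjective _ (QuotientGroup.mk'_surjective _)] at h2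
    have hPs : Group.IsSolvable (P : Subgroup G) := by
      have := P.2.isNilpotent
      infer_instance
    exact Group.isSolvable_of_ker_le_range (P : Subgroup G).subtype (QuotientGroup.mk' (P : Subgroup G))
      (by rw [QuotientGroup.ker_mk', Subgroup.range_subtype])
  · have hNtop : Subgroup.normalizer ((P : Subgroup G) : Set G) ≠ ⊤ := by
      intro h'
      exact hPn (Subgroup.normalizer_eq_top_iff.mp h')
    obtain ⟨M, hM, hNM⟩ := (eq_top_or_exists_le_coatom _).resolve_left hNtop
    have hmod := index_modEq_one P M hNM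
    obtain ⟨q, hq, hidx⟩ := h M hM
    have hqd : q ∣ Nat.card G := by
      have h2 : M.index ∣ Nat.card G := Subgroup.index_dvd_card M
      rcases hidx with h3 | h3
      · rw [h3] at h2; exact h2
      · rw [h3] at h2; exact (dvd_pow_self q (by norm_num)).trans h2
    have hqp := hmax q hq hqd
    have hq2 := hq.two_le
    have hno : ¬ p ∣ q - 1 := by
      intro h3
      have := Nat.le_of_dvd (by omega) h3
      omega
    have hp3 : p = 3 ∧ q = 2 := by
      rcases hidx with h3 | h3
      · exfalso
        rw [h3] at hmod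
        exact hno ((Nat.modEq_iff_dvd' (by omega)).mp hmod.symm)
      · rw [h3] at hmod
        have h4 : p ∣ q ^ 2 - 1 := (Nat.modEq_iff_dvd' (by nlinarith)).mp hmod.symm
        have h5 : q ^ 2 - 1 = (q - 1) * (q + 1) := by
          obtain ⟨r, rfl⟩ : ∃ r, q = r + 1 := ⟨q - 1, by omega⟩
          simp only [Nat.add_sub_cancel]
          have : (r + 1) ^ 2 = r * (r + 1 + 1) + 1 := by ring
          rw [this, Nat.add_sub_cancel]
        rw [h5] at h4
        rcases (Nat.Prime.dvd_mul hpp).mp h4 with h6 | h6
        · exact absurd h6 hno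
        · have h7 := Nat.le_of_dvd (by omega) h6
          have h8 : q ≠ p := by
            rintro rfl
            have : q ∣ 1 := (Nat.dvd_add_right (dvd_refl q)).mp h6
            have := Nat.le_of_dvd (by norm_num) this
            omega
          have h9 : p = q + 1 := by omega
          rcases hq.eq_two_or_odd' with h10 | h10
          · exact ⟨by omega, h10⟩
          · exfalso
            have h11 : Even p := by rw [h9]; exact h10.add_one
            have h12 : p = 2 := (Nat.Prime.even_iff hpp).mp h11
            omega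
    obtain ⟨rfl, -⟩ := hp3
    obtain ⟨a, m, hm, hcm⟩ := Nat.exists_eq_two_pow_mul_odd (Nat.card_pos (α := G)).ne'
    obtain ⟨b, m', hm', hmm⟩ := Nat.exists_eq_pow_mul_and_not_dvd hm.pos.ne' 3 (by norm_num)
    have hm1 : m' = 1 := by
      rw [Nat.eq_one_iff_not_exists_prime_dvd]
      intro r hr hrm
      have hrm2 : r ∣ m := by rw [hmm]; exact hrm.mul_left _
      have hrG : r ∣ Nat.card G := by rw [hcm]; exact hrm2.mul_left _
      have hr3 := hmax r hr hrG
      have hr2 := hr.two_le
      have : r = 2 ∨ r = 3 := by omega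
      rcases this with rfl | rfl
      · exact (Nat.not_even_iff_odd.mpr hm) (even_iff_two_dvd.mpr hrm2)
      · exact hm' hrm
    exact Cfsg.Agent.S0144.result 2 3 a b Nat.prime_two Nat.prime_three (by rw [hcm, hmm, hm1, mul_one])

/-- A finite group in which every maximal subgroup has index a prime or the square of a prime is solvable. -/
theorem result {G : Type*} [Group G] [Finite G] (h : ∀ M : Subgroup G, IsCoatom M → ∃ p : ℕ, p.Prime ∧ (M.index = p ∨ M.index = p ^ 2)) : Group.IsSolvable G := by
  exact main _ G rfl h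

end Cfsg.Agent.S4203
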