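import Cfsg.Statements.S4204
-- import your own Cfsg.Agent.* helpers here

set_option autoImplicit false
open Cfsg

namespace Cfsg.Agent.S4204

open scoped commutatorElement

/-- Shifted lower central series: `⊤` in degree `0`. -/
def lcs' {G : Type*} [Group G] (H : Subgroup G) : ℕ → Subgroup G
  | 0 => ⊤
  | i + 1 => H.lowerCentralSeries i

theorem lcs'_normal {G : Type*} [Group G] (H : Subgroup G) [H.Normal] (i : ℕ) :
    (lcs' H i).Normal := by
  cases i with
  | zero => exact (inferInstance : (⊤ : Subgroup G).Normal)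
  | succ i => exact (inferInstance : (H.lowerCentralSeries i).Normal)

theorem lcs'_comm {G : Type*} [Group G] (H : Subgroup G) [H.Normal] (i : ℕ) :
    ⁅lcs' H i, H⁆ ≤ lcs' H (i + 1) := by
  cases i with
  | zero => exact Subgroup.commutator_le_right _ _
  | succ i => exact le_rfl

theorem lcs'_eq_bot {G : Type*} [Group G] (H : Subgroup G) (c i : ℕ)
    (hH : H.lowerCentralSeries c = ⊥) (hi : c + 1 ≤ i) : lcs' H i = ⊥ := by
  obtain ⟨j, rfl⟩ : ∃ j, i = j + 1 := ⟨i - 1, by omega⟩
  have : H.lowerCentralSeries j ≤ H.lowerCentralSeries c :=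
    H.lowerCentralSeries_antitone (by omega)
  rw [hH] at this
  exact le_bot_iff.1 this

/-- If `H` and `K` are normal subgroups of a finite group with `H` nilpotent of class at most `c` and `K` nilpotent of class at most `d` (the terms with index `c`, respectively `d`, of their lower central series are trivial, indices starting at `0`), then `HK` is nilpotent of class at most `c + d`. -/
theorem result {G : Type*} [Group G] [Finite G] (H K : Subgroup G) [H.Normal] [K.Normal] (c d : ℕ) (hH : H.lowerCentralSeries c = ⊥) (hK : K.lowerCentralSeries d = ⊥) : (H ⊔ K).lowerCentralSeries (c + d) = ⊥ := by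
  let M : ℕ → Subgroup G := fun n =>
    ⨆ ij : {ij : ℕ × ℕ // ij.1 + ij.2 = n + 1}, lcs' H ij.1.1 ⊓ lcs' K ij.1.2
  have hMn : ∀ n, (M n).Normal := by
    intro n
    haveI : ∀ ij : {ij : ℕ × ℕ // ij.1 + ij.2 = n + 1},
        (lcs' H ij.1.1 ⊓ lcs' K ij.1.2).Normal := by
      intro ij
      haveI := lcs'_normal H ij.1.1
      haveI := lcs'_normal K ij.1.2
      infer_instance
    exact Subgroup.iSup_normal _
  have hterm : ∀ n i j, i + j = n + 1 → lcs' H i ⊓ lcs' K j ≤ M n := by
    intro n i j hij
    exact le_iSup (fun ij : {ij : ℕ × ℕ // ij.1 + ij.2 = n + 1} =>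
      lcs' H ij.1.1 ⊓ lcs' K ij.1.2) ⟨(i, j), hij⟩
  have hstep : ∀ n, ⁅M n, H ⊔ K⁆ ≤ M (n + 1) := by
    intro n
    haveI := hMn (n + 1)
    rw [Subgroup.commutator_le]
    intro x hx
    refine Subgroup.iSup_induction (C := fun x => ∀ z ∈ H ⊔ K, ⁅x, z⁆ ∈ M (n + 1)) _ hx ?_ ?_ ?_
    · rintro ⟨⟨i, j⟩, hij⟩ x ⟨hxA, hxB⟩ z hz
      simp only at hij hxA hxB
      obtain ⟨h, hh, k, hk, rfl⟩ := Subgroup.mem_sup_of_normal_right.1 hz
      haveI := lcs'_normal H i
      haveI := lcs'_normal K j
      have h1 : ⁅x, h⁆ ∈ M (n + 1) := by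
        apply hterm (n + 1) (i + 1) j (by omega)
        exact ⟨lcs'_comm H i (Subgroup.commutator_mem_commutator hxA hh),
          Subgroup.commutator_le_left (lcs' K j) H (Subgroup.commutator_mem_commutator hxB hh)⟩
      have h2 : ⁅x, k⁆ ∈ M (n + 1) := by
        apply hterm (n + 1) i (j + 1) (by omega)
        exact ⟨Subgroup.commutator_le_left (lcs' H i) K (Subgroup.commutator_mem_commutator hxA hk),
          lcs'_comm K j (Subgroup.commutator_mem_commutator hxB hk)⟩
      rw [commutatorElement_mul_right_eq_mul_conj, mul_assoc, mul_assoc, ← mul_assoc h]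
      exact (M (n + 1)).mul_mem h1 ((hMn (n + 1)).conj_mem _ h2 h)
    · intro z _
      rw [commutatorElement_one_left]
      exact one_mem _
    · intro x y hx hy z hz
      rw [commutatorElement_mul_left_eq_conj_mul]
      exact (M (n + 1)).mul_mem ((hMn (n + 1)).conj_mem _ (hy z hz) x) (hx z hz)
  have hle : ∀ n, (H ⊔ K).lowerCentralSeries n ≤ M n := by
    intro n
    induction n with
    | zero =>
      rw [Subgroup.lowerCentralSeries_zero]
      apply sup_le
      · refine le_trans ?_ (hterm 0 1 0 rfl)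
        exact le_inf le_rfl le_top
      · refine le_trans ?_ (hterm 0 0 1 rfl)
        exact le_inf le_top le_rfl
    | succ n ih =>
      rw [Subgroup.lowerCentralSeries_succ]
      exact (Subgroup.commutator_mono ih le_rfl).trans (hstep n)
  have hbot : M (c + d) = ⊥ := by
    apply le_bot_iff.1
    apply iSup_le
    rintro ⟨⟨i, j⟩, hij⟩
    simp only at hij ⊢
    by_cases hi : c + 1 ≤ i
    · rw [lcs'_eq_bot H c i hH hi]; exact inf_le_left
    · rw [lcs'_eq_bot K d j hK (by omega)]; exact inf_le_right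
  exact le_bot_iff.1 (hbot ▸ hle (c + d))

end Cfsg.Agent.S4204
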