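import Cfsg.Statements.S4205
-- import your own Cfsg.Agent.* helpers here

set_option autoImplicit false
open Cfsg

namespace Cfsg.Agent.S4205

/-- In a finite group whose upper central series reaches the whole group at step `c` (nilpotent of class at most `c`), starting from any subgroup and taking normalizers `c` times reaches the whole group. -/
theorem result {G : Type*} [Group G] [Finite G] (c : ℕ) (hG : Subgroup.upperCentralSeries G c = ⊤) (H : Subgroup G) : (fun K : Subgroup G => Subgroup.normalizer (K : Set G))^[c] H = ⊤ := by
  have key : ∀ i : ℕ, Subgroup.upperCentralSeries G i ≤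
      (fun K : Subgroup G => Subgroup.normalizer (K : Set G))^[i] H := by
    intro i
    induction i with
    | zero => simp
    | succ i ih =>
      rw [Function.iterate_succ_apply']
      set K := (fun K : Subgroup G => Subgroup.normalizer (K : Set G))^[i] H with hK
      show Subgroup.upperCentralSeries G (i + 1) ≤ Subgroup.normalizer (K : Set G)
      rw [Subgroup.le_normalizer_iff]
      intro z hz k hk
      have h1 : z * k * z⁻¹ * k⁻¹ ∈ Subgroup.upperCentralSeries G i :=
        (Subgroup.mem_upperCentralSeries_succ_iff.1 hz) k
      have h2 : z * k * z⁻¹ = (z * k * z⁻¹ * k⁻¹) * k := by group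
      rw [h2]
      exact K.mul_mem (ih h1) hk
  exact top_le_iff.1 (hG ▸ key c)

end Cfsg.Agent.S4205
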