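import Cfsg.Statements.S4213
import Mathlib
import Cfsg.Agent.Lib.Helper21.FrobCount

set_option autoImplicit false
open Cfsg
open Cfsg.Agent.Lib.Helper21
open scoped commutatorElement

namespace Cfsg.Agent.S4213

universe u

lemma exists_normal_exp_p {G : Type*} [Group G] [Finite G] [hsol : Group.IsSolvable G]
    [Nontrivial G] :
    ∃ (p : ℕ) (K : Subgroup G), p.Prime ∧ K.Normal ∧ K ≠ ⊥ ∧ ∀ x ∈ K, x ^ p = 1 := by
  classical
  have hex : ∃ m, derivedSeries G m = ⊥ := (Group.isSolvable_def G).1 hsol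
  have hm := Nat.find_spec hex
  have hmin := fun k (hk : k < Nat.find hex) => Nat.find_min hex hk
  generalize Nat.find hex = m at hm hmin
  rcases m with _ | k
  · exfalso
    rw [derivedSeries_zero] at hm
    exact top_ne_bot hm
  have hA : derivedSeries G k ≠ ⊥ := hmin k (Nat.lt_succ_self k)
  have hAn : (derivedSeries G k).Normal := derivedSeries_normal G k
  rw [derivedSeries_succ] at hm
  generalize derivedSeries G k = A at hm hA hAn
  have hcomm : ∀ a ∈ A, ∀ b ∈ A, a * b = b * a := by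
    intro a ha b hb
    have h1 : ⁅a, b⁆ ∈ ⁅A, A⁆ := Subgroup.commutator_mem_commutator ha hb
    rw [hm, Subgroup.mem_bot] at h1
    exact commutatorElement_eq_one_iff_mul_comm.1 h1
  have hc1 : Nat.card A ≠ 1 := by
    have := (Subgroup.one_lt_card_iff_ne_bot A).2 hA
    omega
  have hp : (Nat.card A).minFac.Prime := Nat.minFac_prime hc1
  have hpd : (Nat.card A).minFac ∣ Nat.card A := Nat.minFac_dvd _
  generalize (Nat.card A).minFac = p at hp hpd
  haveI : Fact p.Prime := ⟨hp⟩
  obtain ⟨x, hx⟩ := exists_prime_orderOf_dvd_card' (G := A) p hpd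
  let K : Subgroup G :=
    { carrier := {a | a ∈ A ∧ a ^ p = 1}
      one_mem' := ⟨A.one_mem, one_pow _⟩
      mul_mem' := by
        rintro a b ⟨ha, ha'⟩ ⟨hb, hb'⟩
        refine ⟨A.mul_mem ha hb, ?_⟩
        have hc : Commute a b := hcomm a ha b hb
        rw [hc.mul_pow, ha', hb', one_mul]
      inv_mem' := by
        rintro a ⟨ha, ha'⟩
        exact ⟨A.inv_mem ha, by rw [inv_pow, ha', inv_one]⟩ }
  refine ⟨p, K, hp, ⟨?_⟩, ?_, fun a ha => ha.2⟩
  · rintro a ⟨ha, ha'⟩ g
    exact ⟨hAn.conj_mem a ha g, by rw [conj_pow, ha', mul_one, mul_inv_cancel]⟩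
  · intro hK
    have hxK : (x : G) ∈ K := by
      refine ⟨x.2, ?_⟩
      have h1 : x ^ p = 1 := by rw [← hx]; exact pow_orderOf_eq_one x
      have h2 := congrArg Subtype.val h1
      simpa using h2
    rw [hK, Subgroup.mem_bot] at hxK
    have hx1 : x = 1 := Subtype.ext hxK
    rw [hx1, orderOf_one] at hx
    exact hp.one_lt.ne hx

lemma card_preimage {G : Type*} [Group G] (K : Subgroup G) (t : Set (G ⧸ K)) :
    Nat.card {x : G // (QuotientGroup.mk x : G ⧸ K) ∈ t} = Nat.card K * Nat.card t := by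
  rw [← Nat.card_prod]
  exact Nat.card_congr (QuotientGroup.preimageMkEquivSubgroupProdSet K t)

lemma of_card {G : Type*} [Group G] [Finite G] (n : ℕ)
    (hcount : Nat.card {x : G // x ^ n = 1} = n) (C : Subgroup G) (hC : Nat.card C = n) :
    C.Normal ∧ (C : Set G) = {x : G | x ^ n = 1} := by
  have hset : (C : Set G) = {x : G | x ^ n = 1} := by
    refine Set.eq_of_subset_of_ncard_le ?_ ?_ (Set.toFinite _)
    · intro x hx
      have h1 : (⟨x, hx⟩ : C) ^ Nat.card C = 1 := pow_card_eq_one'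
      rw [hC] at h1
      have h2 := congrArg Subtype.val h1
      simpa using h2
    · rw [← Nat.card_coe_set_eq, ← Nat.card_coe_set_eq]
      exact le_of_eq (hcount.trans hC.symm)
  refine ⟨⟨fun x hx g => ?_⟩, hset⟩
  have hx' : x ∈ (C : Set G) := hx
  rw [hset] at hx'
  have hx2 : x ^ n = 1 := hx'
  have : g * x * g⁻¹ ∈ (C : Set G) := by
    rw [hset]
    show (g * x * g⁻¹) ^ n = 1
    rw [conj_pow, hx2, mul_one, mul_inv_cancel]
  exact this

theorem main : ∀ (N : ℕ) (G : Type u) [Group G] [Finite G] [Group.IsSolvable G],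
    Nat.card G = N → ∀ n : ℕ, n ∣ Nat.card G → Nat.card {x : G // x ^ n = 1} = n →
    ∃ C : Subgroup G, Nat.card C = n := by
  intro N
  induction N using Nat.strong_induction_on with
  | _ N ih =>
  intro G _ _ _ hN n hn hcount
  rcases subsingleton_or_nontrivial G with hs | hnt
  · refine ⟨⊥, ?_⟩
    rw [Nat.card_of_subsingleton (1 : G)] at hn
    rw [Subgroup.card_bot]
    exact (Nat.dvd_one.1 hn).symm
  obtain ⟨p, K, hp, hKn, hKne, hKexp⟩ := exists_normal_exp_p (G := G)
  haveI : Fact p.Prime := ⟨hp⟩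
  have hk : Nat.card G = Nat.card (G ⧸ K) * Nat.card K :=
    Subgroup.card_eq_card_quotient_mul_card_subgroup K
  have hk1 : 1 < Nat.card K := (Subgroup.one_lt_card_iff_ne_bot K).2 hKne
  have hQpos : 0 < Nat.card (G ⧸ K) := Nat.card_pos
  have hQlt : Nat.card (G ⧸ K) < N := by
    rw [← hN, hk]
    nlinarith
  have hn0 : 0 < n := Nat.pos_of_dvd_of_pos hn Nat.card_pos
  have hmemK : ∀ (m : ℕ) (x : G), ((x : G ⧸ K)) ^ m = 1 → x ^ m ∈ K := by
    intro m x hx
    rw [← QuotientGroup.eq_one_iff, QuotientGroup.mk_pow]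
    exact hx
  have hincl : ∀ m, m * p ∣ n → ∀ x : G, ((x : G ⧸ K)) ^ m = 1 → x ^ n = 1 := by
    rintro m ⟨c, hc⟩ x hx
    rw [hc, pow_mul, pow_mul, hKexp _ (hmemK m x hx), one_pow]
  have hcardcomap : ∀ Hb : Subgroup (G ⧸ K),
      Nat.card (Hb.comap (QuotientGroup.mk' K)) = Nat.card K * Nat.card Hb :=
    fun Hb => card_preimage K (Hb : Set (G ⧸ K))
  have hcpos : ∀ m : ℕ, 0 < Nat.card {y : G ⧸ K // y ^ m = 1} := by
    intro m
    haveI : Nonempty {y : G ⧸ K // y ^ m = 1} := ⟨⟨1, one_pow _⟩⟩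
    exact Nat.card_pos
  by_cases hpn : p ∣ n
  · -- case p ∣ n
    have hpk : p ∣ Nat.card K := by
      obtain ⟨a, ha⟩ := Subgroup.ne_bot_iff_exists_ne_one.1 hKne
      have h1 : a ^ p = 1 := Subtype.ext (by simpa using hKexp a a.2)
      have h2 : orderOf a = p := orderOf_eq_prime h1 ha
      rw [← h2]
      exact orderOf_dvd_natCard a
    obtain ⟨n', k', hcop, hn', hk'⟩ := Nat.exists_coprime n (Nat.card K)
    have hpg : p ∣ Nat.gcd n (Nat.card K) := Nat.dvd_gcd hpn hpk
    have hgk : Nat.gcd n (Nat.card K) ∣ Nat.card K := Nat.gcd_dvd_right _ _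
    have hg0 : 0 < Nat.gcd n (Nat.card K) := Nat.gcd_pos_of_pos_left _ hn0
    generalize Nat.gcd n (Nat.card K) = g at hn' hk' hpg hgk hg0
    have hn'0 : 0 < n' := by
      rcases Nat.eq_zero_or_pos n' with h | h
      · rw [h, zero_mul] at hn'; omega
      · exact h
    have hn'Q : n' ∣ Nat.card (G ⧸ K) := by
      have h1 : n' * g ∣ (Nat.card (G ⧸ K) * k') * g := by
        rw [mul_assoc, ← hk', ← hn', ← hk]
        exact hn
      exact hcop.dvd_of_dvd_mul_right (Nat.dvd_of_mul_dvd_mul_right hg0 h1)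
    have hdvd : n' * p ∣ n := by
      rw [hn']
      exact Nat.mul_dvd_mul_left n' hpg
    obtain ⟨t, ht⟩ := frobenius_dvd (G := G ⧸ K) n' hn'Q
    have hle : Nat.card K * Nat.card {y : G ⧸ K // y ^ n' = 1} ≤ n := by
      have h1 := card_preimage K {y : G ⧸ K | y ^ n' = 1}
      have h2 : Nat.card {x : G // (QuotientGroup.mk x : G ⧸ K) ∈ {y : G ⧸ K | y ^ n' = 1}}
          ≤ Nat.card {x : G // x ^ n = 1} := by
        apply Nat.card_le_card_of_injective
          (fun x => (⟨x.1, hincl n' hdvd x.1 x.2⟩ : {x : G // x ^ n = 1}))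
        intro a b hab
        have hab' : a.1 = b.1 := (Subtype.mk.injEq _ _ _ _).mp hab
        exact Subtype.ext hab'
      rw [h1, hcount] at h2
      exact h2
    have hcp := hcpos n'
    rw [ht] at hle hcp
    have ht0 : 0 < t := by
      rcases Nat.eq_zero_or_pos t with h | h
      · rw [h, mul_zero] at hcp; omega
      · exact h
    have hgle : g ≤ Nat.card K := Nat.le_of_dvd (by omega) hgk
    have hKpos : 0 < Nat.card K := by omega
    have ht1 : t ≤ 1 := by
      have h3 : (n' * Nat.card K) * t ≤ (n' * Nat.card K) * 1 := by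
        calc (n' * Nat.card K) * t = Nat.card K * (n' * t) := by ring
          _ ≤ n := hle
          _ = n' * g := hn'
          _ ≤ n' * Nat.card K := Nat.mul_le_mul_left _ hgle
          _ = (n' * Nat.card K) * 1 := by ring
      exact Nat.le_of_mul_le_mul_left h3 (Nat.mul_pos hn'0 hKpos)
    have ht2 : t = 1 := by omega
    rw [ht2, mul_one] at ht hle
    have hKg : Nat.card K = g := by
      have h4 : n' * Nat.card K ≤ n' * g := by
        calc n' * Nat.card K = Nat.card K * n' := by ring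
          _ ≤ n := hle
          _ = n' * g := hn'
      exact le_antisymm (Nat.le_of_mul_le_mul_left h4 hn'0) hgle
    obtain ⟨Hb, hHb⟩ := ih (Nat.card (G ⧸ K)) hQlt (G ⧸ K) rfl n' hn'Q ht
    refine ⟨Hb.comap (QuotientGroup.mk' K), ?_⟩
    rw [hcardcomap, hHb, hKg, hn', mul_comm]
  · -- case p ∤ n
    have hcopnp : Nat.Coprime n p := ((Nat.Prime.coprime_iff_not_dvd hp).2 hpn).symm
    have hKp : IsPGroup p K := fun a => ⟨1, by
      rw [pow_one]
      exact Subtype.ext (by simpa using hKexp a a.2)⟩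
    obtain ⟨i, hi⟩ := IsPGroup.iff_card.1 hKp
    have hcopnk : Nat.Coprime n (Nat.card K) := by
      rw [hi]
      exact Nat.Coprime.pow_right i hcopnp
    have hnQ : n ∣ Nat.card (G ⧸ K) := by
      rw [hk] at hn
      exact hcopnk.dvd_of_dvd_mul_right hn
    let f : {x : G // x ^ n = 1} → {y : G ⧸ K // y ^ n = 1} :=
      fun x => ⟨(x.1 : G ⧸ K), by rw [← QuotientGroup.mk_pow, x.2]; rfl⟩
    have hsurj : Function.Surjective f := by
      rintro ⟨y, hy⟩
      obtain ⟨g, rfl⟩ := QuotientGroup.mk_surjective y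
      have hgK : g ^ n ∈ K := hmemK n g hy
      obtain ⟨e, he1, he0⟩ := Nat.chineseRemainder hcopnp 1 0
      obtain ⟨c, hc⟩ : p ∣ e := (Nat.modEq_zero_iff_dvd).1 he0
      refine ⟨⟨g ^ e, ?_⟩, ?_⟩
      · rw [← pow_mul, mul_comm, pow_mul, hc, pow_mul, hKexp _ hgK, one_pow]
      · apply Subtype.ext
        show ((g ^ e : G) : G ⧸ K) = (g : G ⧸ K)
        rw [QuotientGroup.mk_pow]
        have h5 : (g : G ⧸ K) ^ e = (g : G ⧸ K) ^ 1 := by
          rw [pow_eq_pow_iff_modEq]
          exact he1.of_dvd (orderOf_dvd_of_pow_eq_one hy)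
        rw [h5, pow_one]
    have hcle : Nat.card {y : G ⧸ K // y ^ n = 1} ≤ n := by
      have := Nat.card_le_card_of_surjective f hsurj
      rwa [hcount] at this
    have hceq : Nat.card {y : G ⧸ K // y ^ n = 1} = n :=
      le_antisymm hcle (Nat.le_of_dvd (hcpos n) (frobenius_dvd (G := G ⧸ K) n hnQ))
    obtain ⟨Hb, hHb⟩ := ih (Nat.card (G ⧸ K)) hQlt (G ⧸ K) rfl n hnQ hceq
    have hcH := hcardcomap Hb
    have hKH : K ≤ Hb.comap (QuotientGroup.mk' K) := by
      intro x hx
      show (x : G ⧸ K) ∈ Hb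
      rw [(QuotientGroup.eq_one_iff x).2 hx]
      exact Hb.one_mem
    generalize Hb.comap (QuotientGroup.mk' K) = H at hcH hKH
    have hcardN : Nat.card (K.subgroupOf H) = Nat.card K :=
      Nat.card_congr (Subgroup.subgroupOfEquivOfLe hKH).toEquiv
    have hKpos : 0 < Nat.card K := by omega
    have hidx : (K.subgroupOf H).index = n := by
      have h6 := (K.subgroupOf H).card_mul_index
      rw [hcardN, hcH, hHb] at h6
      exact Nat.eq_of_mul_eq_mul_left hKpos h6
    obtain ⟨C, hC⟩ := Subgroup.exists_right_complement'_of_coprime (N := K.subgroupOf H)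
      (by rw [hcardN, hidx]; exact hcopnk.symm)
    have h7 := hC.card_mul_card
    rw [hcardN, hcH, hHb] at h7
    refine ⟨C.map H.subtype, ?_⟩
    rw [Subgroup.card_map_of_injective H.subtype_injective]
    exact Nat.eq_of_mul_eq_mul_left hKpos h7


/-- If `G` is a finite solvable group and `n` divides the order of `G` and exactly `n` elements `x` of `G` satisfy `x^n = 1`, then these elements form a normal subgroup. -/
theorem result {G : Type*} [Group G] [Finite G] [Group.IsSolvable G] (n : ℕ) (hn : n ∣ Nat.card G) (hcount : Nat.card {x : G // x ^ n = 1} = n) : ∃ H : Subgroup G, H.Normal ∧ (H : Set G) = {x : G | x ^ n = 1} := by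
  obtain ⟨C, hC⟩ := main (Nat.card G) G rfl n hn hcount
  exact ⟨C, of_card n hcount C hC⟩

end Cfsg.Agent.S4213
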