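import Cfsg.Statements.S4214
import Cfsg.Agent.S0003
import Cfsg.Agent.S0004
import Cfsg.Agent.S0005
import Cfsg.Agent.Lib.Helper4.MinNormal
import Cfsg.Agent.Lib.Helper1.Wielandt
import Cfsg.Agent.Lib.Helper15.Frob

set_option autoImplicit false
open Cfsg

namespace Cfsg.Agent.S4214

open Subgroup
open scoped Pointwise
open Cfsg.Agent.Lib.Helper15 (mem_conj_smul_iff)

universe u

/-- the property required of each factor -/
def PF (G : Type*) [Group G] (m f : ℕ) : Prop :=
  (∃ q e : ℕ, q.Prime ∧ f = q ^ e) ∧
  (∃ K L : Subgroup G, K.Normal ∧ L.Normal ∧ K < L ∧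
    (∀ M : Subgroup G, M.Normal → K ≤ M → M ≤ L → M = K ∨ M = L) ∧ f ∣ K.relIndex L) ∧
  (∃ q : ℕ, q.Prime ∧ q ∣ m ∧ f ≡ 1 [MOD q])

/-- products of good factors -/
def Good (G : Type*) [Group G] (m x : ℕ) : Prop :=
  ∃ l : List ℕ, x = l.prod ∧ ∀ f ∈ l, PF G m f

theorem Good.one (G : Type*) [Group G] (m : ℕ) : Good G m 1 := ⟨[], rfl, by simp⟩

theorem Good.mul {G : Type*} [Group G] {m x y : ℕ} (hx : Good G m x) (hy : Good G m y) :
    Good G m (x * y) := by
  obtain ⟨l1, rfl, h1⟩ := hx
  obtain ⟨l2, rfl, h2⟩ := hy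
  refine ⟨l1 ++ l2, (List.prod_append).symm, fun f hf => ?_⟩
  rcases List.mem_append.1 hf with h | h
  · exact h1 f h
  · exact h2 f h

theorem PF.lift {G : Type*} [Group G] (N : Subgroup G) [N.Normal] {m' m f : ℕ} (hm : m' ∣ m)
    (h : PF (G ⧸ N) m' f) : PF G m f := by
  obtain ⟨h1, ⟨K, L, hK, hL, hKL, hmin, hdvd⟩, ⟨q, hq, hqm, hmod⟩⟩ := h
  have hs := QuotientGroup.mk'_surjective N
  refine ⟨h1, ⟨K.comap (QuotientGroup.mk' N), L.comap (QuotientGroup.mk' N), hK.comap _,
    hL.comap _, (comap_lt_comap_of_surjective hs).2 hKL, ?_, ?_⟩, ⟨q, hq, hqm.trans hm, hmod⟩⟩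
  · intro M hM hKM hML
    have hker : (QuotientGroup.mk' N).ker ≤ M := by
      refine le_trans ?_ hKM
      intro x hx
      rw [mem_comap, MonoidHom.mem_ker.1 hx]; exact one_mem _
    have hMn : (M.map (QuotientGroup.mk' N)).Normal := hM.map _ hs
    have h2 : K ≤ M.map (QuotientGroup.mk' N) := by
      rw [← map_comap_eq_self_of_surjective hs K]; exact map_mono hKM
    have h3 : M.map (QuotientGroup.mk' N) ≤ L := by
      rw [← map_comap_eq_self_of_surjective hs L]; exact map_mono hML
    rcases hmin _ hMn h2 h3 with e | e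
    · left; rw [← e, comap_map_eq_self hker]
    · right; rw [← e, comap_map_eq_self hker]
  · rw [relIndex_comap, map_comap_eq_self_of_surjective hs]; exact hdvd

theorem Good.lift {G : Type*} [Group G] (N : Subgroup G) [N.Normal] {m' m x : ℕ} (hm : m' ∣ m)
    (h : Good (G ⧸ N) m' x) : Good G m x := by
  obtain ⟨l, hl, hl'⟩ := h
  exact ⟨l, hl, fun f hf => PF.lift N hm (hl' f hf)⟩

theorem card_mul_relIndex' {G : Type*} [Group G] {H K : Subgroup G} (h : H ≤ K) :
    Nat.card H * H.relIndex K = Nat.card K := by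
  have := relIndex_mul_relIndex ⊥ H K bot_le h
  rwa [relIndex_bot_left, relIndex_bot_left] at this

theorem card_sup_mul {G : Type*} [Group G] (A N : Subgroup G) [N.Normal] :
    Nat.card ↥(A ⊔ N) * Nat.card ↥(A ⊓ N) = Nat.card A * Nat.card N := by
  have h1 : Nat.card N * N.relIndex (A ⊔ N) = Nat.card ↥(A ⊔ N) := card_mul_relIndex' le_sup_right
  have h2 : Nat.card ↥(N ⊓ A) * (N ⊓ A).relIndex A = Nat.card A := card_mul_relIndex' inf_le_right
  rw [relIndex_sup_right] at h1
  rw [inf_relIndex_right] at h2
  rw [inf_comm, ← h1, ← h2]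
  ring

theorem card_hall {G : Type*} [Group G] [Finite G] [Group.IsSolvable G] (m n : ℕ)
    (hG : Nat.card G = m * n) (hmn : m.Coprime n) (H : Subgroup G) (hH : Nat.card H = m) :
    Nat.card {K : Subgroup G // Nat.card K = m} = (normalizer (H : Set G)).index := by
  letI : MulAction G (Subgroup G) := MulAction.compHom (Subgroup G) (MulAut.conj : G →* MulAut G)
  have hsm : ∀ (g : G) (K : Subgroup G), g • K = MulAut.conj g • K := fun _ _ => rfl
  have hstab : MulAction.stabilizer G H = normalizer (H : Set G) := by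
    ext g
    rw [MulAction.mem_stabilizer_iff, hsm, mem_normalizer_iff]
    constructor
    · intro e x
      have e1 : g⁻¹ * (g * x * g⁻¹) * g = x := by group
      constructor
      · intro hx
        have h1 : g * x * g⁻¹ ∈ MulAut.conj g • H := by
          rw [mem_conj_smul_iff, e1]; exact hx
        rwa [e] at h1
      · intro hx
        have h1 : g * x * g⁻¹ ∈ MulAut.conj g • H := by rw [e]; exact hx
        rwa [mem_conj_smul_iff, e1] at h1
    · intro h
      ext x
      rw [mem_conj_smul_iff, h (g⁻¹ * x * g)]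
      have e1 : g * (g⁻¹ * x * g) * g⁻¹ = x := by group
      rw [e1]
  have horb : MulAction.orbit G H = {K : Subgroup G | Nat.card K = m} := by
    ext K
    constructor
    · rintro ⟨g, rfl⟩
      show Nat.card ↥(MulAut.conj g • H) = m
      rw [← hH]; exact (Nat.card_congr (equivSMul (MulAut.conj g) H).toEquiv).symm
    · intro hK
      obtain ⟨g, hg⟩ := Cfsg.Agent.S0004.result m n hG hmn H K hH hK
      exact ⟨g, hg⟩
  rw [← hstab, MulAction.index_stabilizer, horb]
  exact Nat.card_coe_set_eq _

theorem lemL {G : Type*} [Group G] [Finite G] (N : Subgroup G) [hNn : N.Normal] (r a : ℕ)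
    (hr : r.Prime) (hN : Nat.card N = r ^ a) :
    ∀ (k : ℕ) (A : Subgroup G), Nat.card A = k → Group.IsSolvable A → (Nat.card A).Coprime r →
      ∃ l : List ℕ, Nat.card N = Nat.card ↥(N ⊓ centralizer (A : Set G)) * l.prod ∧
        ∀ f ∈ l, (∃ e, f = r ^ e) ∧ f ∣ Nat.card N ∧
          ∃ q : ℕ, q.Prime ∧ q ∣ Nat.card A ∧ f ≡ 1 [MOD q] := by
  classical
  intro k
  induction k using Nat.strong_induction_on with
  | _ k ih =>
    intro A hA hsol hcop
    by_cases hbot : A = ⊥
    · subst hbot
      refine ⟨[], ?_, by simp⟩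
      have e1 : N ⊓ centralizer (((⊥ : Subgroup G) : Set G)) = N := by
        rw [inf_eq_left]
        intro x _
        rw [mem_centralizer_iff]
        intro h hh
        have h1 : h = 1 := hh
        rw [h1]; simp
      rw [e1]; simp
    · have hnt : Nontrivial A := (nontrivial_iff_ne_bot A).2 hbot
      obtain ⟨A1', hn, hp⟩ := Cfsg.Agent.Lib.Helper1.exists_normal_prime_index (G := A)
      obtain ⟨p, hpdef⟩ : ∃ p, p = A1'.index := ⟨_, rfl⟩
      rw [← hpdef] at hp
      have : Fact p.Prime := ⟨hp⟩
      obtain ⟨A1, hA1def⟩ : ∃ A1, A1 = A1'.map A.subtype := ⟨_, rfl⟩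
      have hA1le : A1 ≤ A := by rw [hA1def]; exact map_subtype_le _
      have hsub : A1.subgroupOf A = A1' := by
        rw [hA1def]; exact comap_map_eq_self_of_injective A.subtype_injective A1'
      have hrel : A1.relIndex A = p := by
        unfold relIndex; rw [hsub, hpdef]
      have hcard : Nat.card A1 * p = Nat.card A := by rw [← hrel]; exact card_mul_relIndex' hA1le
      have hpos1 : 0 < Nat.card A1 := Nat.card_pos
      have hlt : Nat.card A1 < k := by
        rw [← hA, ← hcard]
        have := hp.two_le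
        nlinarith
      have hsol1 : Group.IsSolvable A1 :=
        Group.isSolvable_of_isSolvable_injective (Subgroup.inclusion_injective hA1le)
      have hpA : p ∣ Nat.card A := Dvd.intro_left _ hcard
      have hcop1 : (Nat.card A1).Coprime r := Nat.Coprime.coprime_dvd_left (Dvd.intro _ hcard) hcop
      obtain ⟨l1, hl1, hl1'⟩ := ih _ hlt A1 rfl hsol1 hcop1
      have hmemA1 : ∀ x : A, (x : G) ∈ A1 ↔ x ∈ A1' := by
        intro x
        rw [← hsub, mem_subgroupOf]
      have hnA : ∀ b ∈ A, ∀ x ∈ A1, b * x * b⁻¹ ∈ A1 := by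
        intro b hb x hx
        have h1 := hn.conj_mem ⟨x, hA1le hx⟩ ((hmemA1 ⟨x, hA1le hx⟩).1 hx) ⟨b, hb⟩
        exact (hmemA1 _).2 h1
      obtain ⟨a0, ha0A, ha0⟩ : ∃ a0 ∈ A, a0 ∉ A1 := by
        by_contra hcon
        push Not at hcon
        have h1 : A1.relIndex A = 1 := relIndex_eq_one.2 hcon
        rw [hrel] at h1
        exact hp.one_lt.ne' h1
      have ha0p : a0 ^ p ∈ A1 := by
        have h1 := A1'.pow_index_mem (⟨a0, ha0A⟩ : A)
        rw [← hpdef] at h1
        exact (hmemA1 _).2 h1
      have hgen : ∀ x : G, (∀ b ∈ A1, b * x = x * b) → a0 * x = x * a0 → ∀ b ∈ A, b * x = x * b := by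
        intro x hx1 hx2
        have hD1 : A1 ≤ A ⊓ centralizer {x} := by
          intro b hb
          refine Subgroup.mem_inf.2 ⟨hA1le hb, ?_⟩
          rw [mem_centralizer_iff]
          intro h hh
          rw [Set.mem_singleton_iff.1 hh]
          exact (hx1 b hb).symm
        have hD2 : a0 ∈ A ⊓ centralizer {x} := by
          refine Subgroup.mem_inf.2 ⟨ha0A, ?_⟩
          rw [mem_centralizer_iff]
          intro h hh
          rw [Set.mem_singleton_iff.1 hh]
          exact hx2.symm
        have h1 := relIndex_mul_relIndex A1 (A ⊓ centralizer {x}) A hD1 inf_le_left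
        rw [hrel] at h1
        have h2 : A1.relIndex (A ⊓ centralizer {x}) ≠ 1 := by
          intro e
          exact ha0 (relIndex_eq_one.1 e hD2)
        have h3 : A1.relIndex (A ⊓ centralizer {x}) = p :=
          (hp.eq_one_or_self_of_dvd _ (Dvd.intro _ h1)).resolve_left h2
        rw [h3] at h1
        have h4 : (A ⊓ centralizer {x}).relIndex A = 1 := by
          have : p * (A ⊓ centralizer {x}).relIndex A = p * 1 := by rw [h1, mul_one]
          exact Nat.eq_of_mul_eq_mul_left hp.pos this
        intro b hb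
        have h5 : b ∈ centralizer {x} := (Subgroup.mem_inf.1 (relIndex_eq_one.1 h4 hb)).2
        rw [mem_centralizer_iff] at h5
        exact (h5 x rfl).symm
      have hN21 : N ⊓ centralizer (A : Set G) ≤ N ⊓ centralizer (A1 : Set G) :=
        inf_le_inf_left N (centralizer_le hA1le)
      have hσmem : ∀ x ∈ N ⊓ centralizer (A1 : Set G), a0 * x * a0⁻¹ ∈ N ⊓ centralizer (A1 : Set G) := by
        intro x hx
        obtain ⟨hx1, hx2⟩ := Subgroup.mem_inf.1 hx
        refine Subgroup.mem_inf.2 ⟨hNn.conj_mem x hx1 a0, ?_⟩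
        rw [mem_centralizer_iff] at hx2 ⊢
        intro b hb
        have h1 : a0⁻¹ * b * a0 ∈ A1 := by
          have := hnA a0⁻¹ (A.inv_mem ha0A) b hb
          simpa using this
        have h2 := hx2 _ h1
        calc b * (a0 * x * a0⁻¹) = a0 * ((a0⁻¹ * b * a0) * x) * a0⁻¹ := by group
          _ = a0 * (x * (a0⁻¹ * b * a0)) * a0⁻¹ := by rw [h2]
          _ = a0 * x * a0⁻¹ * b := by group
      let σ : Function.End ↥(N ⊓ centralizer (A1 : Set G)) :=
        fun x => ⟨a0 * x * a0⁻¹, hσmem x x.2⟩
      have hσ : ∀ x, ((σ x : ↥(N ⊓ centralizer (A1 : Set G))) : G) = a0 * x * a0⁻¹ := fun _ => rfl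
      have hpow : ∀ (j : ℕ) (x : ↥(N ⊓ centralizer (A1 : Set G))),
          (((σ ^ j : Function.End ↥(N ⊓ centralizer (A1 : Set G))) x :
            ↥(N ⊓ centralizer (A1 : Set G))) : G) = a0 ^ j * x * (a0 ^ j)⁻¹ := by
        intro j
        induction j with
        | zero =>
          intro x
          rw [pow_zero, pow_zero]
          show (x : G) = 1 * x * 1⁻¹
          simp
        | succ j ihj =>
          intro x
          rw [pow_succ' σ j]
          show ((σ ((σ ^ j : Function.End ↥(N ⊓ centralizer (A1 : Set G))) x) :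
            ↥(N ⊓ centralizer (A1 : Set G))) : G) = _
          rw [hσ, ihj, pow_succ' a0 j, mul_inv_rev]
          simp only [mul_assoc]
      have hσp : σ ^ p ^ 1 = 1 := by
        funext x
        apply Subtype.ext
        rw [pow_one, hpow]
        have hx2 := (Subgroup.mem_inf.1 x.2).2
        rw [mem_centralizer_iff] at hx2
        rw [hx2 _ ha0p, mul_inv_cancel_right]
        rfl
      have : Fintype ↥(N ⊓ centralizer (A1 : Set G)) := Fintype.ofFinite _
      have hmod := Equiv.Perm.card_fixedPoints_modEq hσp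
      rw [← Nat.card_eq_fintype_card, ← Nat.card_eq_fintype_card] at hmod
      have hfix : Nat.card ↥(Function.fixedPoints σ) = Nat.card ↥(N ⊓ centralizer (A : Set G)) := by
        refine Nat.card_congr
          { toFun := fun x => ⟨x.1.1, ?_⟩
            invFun := fun y => ⟨⟨y.1, hN21 y.2⟩, ?_⟩
            left_inv := fun x => rfl
            right_inv := fun y => rfl }
        · obtain ⟨hx1, hx2⟩ := Subgroup.mem_inf.1 x.1.2
          refine Subgroup.mem_inf.2 ⟨hx1, ?_⟩
          rw [mem_centralizer_iff] at hx2 ⊢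
          have h1 : a0 * (x.1 : G) * a0⁻¹ = x.1 := congrArg Subtype.val x.2
          have h2 : a0 * (x.1 : G) = x.1 * a0 := mul_inv_eq_iff_eq_mul.1 h1
          exact hgen _ hx2 h2
        · apply Subtype.ext
          show a0 * (y : G) * a0⁻¹ = y
          have hy2 := (Subgroup.mem_inf.1 y.2).2
          rw [mem_centralizer_iff] at hy2
          rw [hy2 a0 ha0A, mul_inv_cancel_right]
      rw [hfix] at hmod
      have hf := card_mul_relIndex' hN21
      obtain ⟨f, hfdef⟩ : ∃ f, f = (N ⊓ centralizer (A : Set G)).relIndex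
        (N ⊓ centralizer (A1 : Set G)) := ⟨_, rfl⟩
      rw [← hfdef] at hf
      have hfN : f ∣ Nat.card N :=
        (Dvd.intro_left _ hf).trans (card_dvd_of_le inf_le_left)
      have hc2 : Nat.card ↥(N ⊓ centralizer (A : Set G)) ∣ r ^ a := by
        rw [← hN]; exact card_dvd_of_le inf_le_left
      have hpr : p.Coprime r := Nat.Coprime.coprime_dvd_left hpA hcop
      have hgcd : Nat.gcd p (Nat.card ↥(N ⊓ centralizer (A : Set G))) = 1 :=
        Nat.Coprime.coprime_dvd_right hc2 (Nat.Coprime.pow_right a hpr)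
      have hf1 : f ≡ 1 [MOD p] := by
        apply Nat.ModEq.cancel_right_of_coprime hgcd
        rw [one_mul, mul_comm, hf]
        exact hmod
      refine ⟨f :: l1, ?_, ?_⟩
      · rw [List.prod_cons, hl1, ← hf]; ring
      · intro f' hf'
        rcases List.mem_cons.1 hf' with rfl | h
        · refine ⟨?_, hfN, p, hp, hpA, hf1⟩
          rw [hN] at hfN
          obtain ⟨e, -, he⟩ := (Nat.dvd_prime_pow hr).1 hfN
          exact ⟨e, he⟩
        · obtain ⟨h1, h2, q, hq, hqd, hqm⟩ := hl1' f' h
          exact ⟨h1, h2, q, hq, hqd.trans (Dvd.intro _ hcard), hqm⟩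

theorem main : ∀ (k : ℕ) (G : Type u) [Group G] [Finite G] [Group.IsSolvable G], Nat.card G = k →
    ∀ (m n : ℕ), Nat.card G = m * n → m.Coprime n → ∀ H : Subgroup G, Nat.card H = m →
      Good G m (normalizer (H : Set G)).index := by
  intro k
  induction k using Nat.strong_induction_on with
  | _ k ih =>
    intro G _ _ _ hk m n hG hmn H hH
    by_cases hnt : Nontrivial G
    swap
    · rw [not_nontrivial_iff_subsingleton] at hnt
      have e1 : normalizer (H : Set G) = ⊤ :=
        eq_top_iff.2 (fun x _ => by rw [Subsingleton.elim x 1]; exact one_mem _)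
      rw [e1, index_top]; exact Good.one G m
    have htop : (⊤ : Subgroup G) ≠ ⊥ := (nontrivial_iff_ne_bot ⊤).1 inferInstance
    obtain ⟨N, -, hNmin⟩ :=
      Cfsg.Agent.Lib.Helper4.exists_minNormal_le _ (⊤ : Subgroup G) rfl inferInstance htop
    obtain ⟨r, hr, hNp⟩ := Cfsg.Agent.Lib.Helper4.minNormal_isPGroup hNmin
    obtain ⟨hNn, hNbot, hNm⟩ := hNmin
    have : Fact r.Prime := ⟨hr⟩
    obtain ⟨a, ha⟩ := IsPGroup.iff_card.1 hNp
    have ha0 : a ≠ 0 := by
      rintro rfl
      rw [pow_zero] at ha
      exact hNbot (card_eq_one.1 ha)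
    have hs := QuotientGroup.mk'_surjective N
    have hq : Nat.card (G ⧸ N) * Nat.card N = Nat.card G := by
      rw [← index_eq_card]; exact N.index_mul_card
    have hN2 : 2 ≤ Nat.card N := by
      rw [ha]
      calc 2 ≤ r := hr.two_le
        _ = r ^ 1 := (pow_one r).symm
        _ ≤ r ^ a := Nat.pow_le_pow_right hr.pos (Nat.one_le_iff_ne_zero.2 ha0)
    have hqpos : 0 < Nat.card (G ⧸ N) := Nat.card_pos
    have hlt : Nat.card (G ⧸ N) < k := by
      rw [← hk, ← hq]; nlinarith
    have hmpos : 0 < m := by rw [← hH]; exact Nat.card_pos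
    have hnorm : ∀ Hb : Subgroup (G ⧸ N), (normalizer (Hb : Set (G ⧸ N))).index
        = (normalizer ((Hb.comap (QuotientGroup.mk' N) : Subgroup G) : Set G)).index := by
      intro Hb
      rw [← comap_normalizer_eq_of_surjective Hb hs, index_comap_of_surjective _ hs]
    by_cases hrm : r ∣ m
    · have hcopN : (Nat.card N).Coprime n := by
        rw [ha]
        exact Nat.Coprime.pow_left a (Nat.Coprime.coprime_dvd_left hrm hmn)
      obtain ⟨H', hH', hNH'⟩ := Cfsg.Agent.S0005.result m n hG hmn N hcopN
      obtain ⟨g, hg⟩ := Cfsg.Agent.S0004.result m n hG hmn H' H hH' hH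
      have hNH : N ≤ H := by
        intro x hx
        rw [← hg, mem_conj_smul_iff]
        apply hNH'
        have := hNn.conj_mem x hx g⁻¹
        simpa using this
      have hcomap : (H.map (QuotientGroup.mk' N)).comap (QuotientGroup.mk' N) = H :=
        comap_map_eq_self (by rw [QuotientGroup.ker_mk']; exact hNH)
      have hidx : (H.map (QuotientGroup.mk' N)).index = H.index := by
        have := index_comap_of_surjective (H.map (QuotientGroup.mk' N)) hs
        rw [hcomap] at this
        exact this.symm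
      have hHn : H.index = n := by
        have h1 := H.card_mul_index
        rw [hH, hG] at h1
        exact Nat.eq_of_mul_eq_mul_left hmpos h1
      have hcq : Nat.card (G ⧸ N) = Nat.card ↥(H.map (QuotientGroup.mk' N)) * n := by
        rw [← hHn, ← hidx]; exact ((H.map (QuotientGroup.mk' N)).card_mul_index).symm
      have hdvd : Nat.card ↥(H.map (QuotientGroup.mk' N)) ∣ m := by
        rw [← hH]; exact H.card_map_dvd (QuotientGroup.mk' N)
      have h1 := ih _ hlt (G ⧸ N) rfl _ n hcq (Nat.Coprime.coprime_dvd_left hdvd hmn)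
        (H.map (QuotientGroup.mk' N)) rfl
      rw [hnorm, hcomap] at h1
      exact Good.lift N hdvd h1
    · have hrn : r ∣ n := by
        have h1 : r ∣ m * n := by
          rw [← hG]
          exact (dvd_pow_self r ha0).trans (ha ▸ card_subgroup_dvd_card N)
        exact (hr.dvd_mul.1 h1).resolve_left hrm
      have hmr : m.Coprime r := ((Nat.Prime.coprime_iff_not_dvd hr).2 hrm).symm
      have hcopHN : m.Coprime (Nat.card N) := by rw [ha]; exact Nat.Coprime.pow_right a hmr
      have hinf : H ⊓ N = ⊥ := inf_eq_bot_of_coprime (by rw [hH]; exact hcopHN)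
      have hcHb : Nat.card ↥(H.map (QuotientGroup.mk' N)) = m := by
        rw [← relIndex_ker, QuotientGroup.ker_mk', ← inf_relIndex_right, inf_comm, hinf,
          relIndex_bot_left, hH]
      have hNdn : Nat.card N ∣ n :=
        Nat.Coprime.dvd_of_dvd_mul_left hcopHN.symm (hG ▸ card_subgroup_dvd_card N)
      obtain ⟨n', hn'⟩ := hNdn
      have hNpos : 0 < Nat.card N := Nat.card_pos
      have hcq : Nat.card (G ⧸ N) = m * n' := by
        have h1 : Nat.card (G ⧸ N) * Nat.card N = (m * n') * Nat.card N := by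
          rw [hq, hG, hn']; ring
        exact Nat.eq_of_mul_eq_mul_right hNpos h1
      have hmn' : m.Coprime n' := Nat.Coprime.coprime_dvd_right (Dvd.intro_left _ hn'.symm) hmn
      have h1 := ih _ hlt (G ⧸ N) rfl m n' hcq hmn' (H.map (QuotientGroup.mk' N)) hcHb
      have hcomap : (H.map (QuotientGroup.mk' N)).comap (QuotientGroup.mk' N) = H ⊔ N := by
        rw [comap_map_eq, QuotientGroup.ker_mk']
      rw [hnorm, hcomap] at h1
      have h1' : Good G m (normalizer ((H ⊔ N : Subgroup G) : Set G)).index :=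
        Good.lift N dvd_rfl h1
      have hcardT : Nat.card ↥(H ⊔ N) = m * Nat.card N := by
        have := card_sup_mul H N
        rwa [hinf, card_bot, mul_one, hH] at this
      have hfr : normalizer ((H ⊔ N : Subgroup G) : Set G) = N ⊔ normalizer (H : Set G) := by
        apply le_antisymm
        · intro g hg
          have hgT : ∀ x ∈ H, g * x * g⁻¹ ∈ H ⊔ N := fun x hx =>
            (mem_normalizer_iff.1 hg x).1 (le_sup_left (a := H) hx)
          have hle2 : MulAut.conj g • H ≤ H ⊔ N := by
            intro x hx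
            rw [mem_conj_smul_iff] at hx
            have h2 := hgT _ hx
            have e : g * (g⁻¹ * x * g) * g⁻¹ = x := by group
            rwa [e] at h2
          have c1 : Nat.card ↥(H.subgroupOf (H ⊔ N)) = m := by
            rw [← hH]; exact Nat.card_congr (subgroupOfEquivOfLe le_sup_left).toEquiv
          have c2 : Nat.card ↥((MulAut.conj g • H).subgroupOf (H ⊔ N)) = m := by
            rw [← hH]
            exact (Nat.card_congr (subgroupOfEquivOfLe hle2).toEquiv).trans
              (Nat.card_congr (equivSMul (MulAut.conj g) H).toEquiv).symm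
          obtain ⟨t, ht⟩ := Cfsg.Agent.S0004.result (G := ↥(H ⊔ N)) m (Nat.card N) hcardT hcopHN
            (H.subgroupOf (H ⊔ N)) ((MulAut.conj g • H).subgroupOf (H ⊔ N)) c1 c2
          have htT : (t : G) ∈ N ⊔ H := by rw [sup_comm]; exact t.2
          obtain ⟨n1, hn1, h1, hh1, hnh⟩ := mem_sup_of_normal_left.1 htT
          have K1 : ∀ y : ↥(H ⊔ N), g⁻¹ * (y : G) * g ∈ H ↔ (t : G)⁻¹ * y * t ∈ H := by
            intro y
            have e1 : y ∈ (MulAut.conj g • H).subgroupOf (H ⊔ N) ↔ g⁻¹ * (y : G) * g ∈ H := by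
              rw [mem_subgroupOf, mem_conj_smul_iff]
            have e2 : y ∈ MulAut.conj t • H.subgroupOf (H ⊔ N) ↔ (t : G)⁻¹ * y * t ∈ H := by
              rw [mem_conj_smul_iff, mem_subgroupOf]
              rfl
            rw [← e1, ← e2, ht]
          have hmem : n1⁻¹ * g ∈ normalizer (H : Set G) := by
            rw [mem_normalizer_iff]
            intro x
            have e0 : n1⁻¹ * g * x * (n1⁻¹ * g)⁻¹ = n1⁻¹ * (g * x * g⁻¹) * n1 := by group
            rw [e0]
            constructor
            · intro hx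
              have h3 := (K1 ⟨g * x * g⁻¹, hgT x hx⟩).1 (by
                have e : g⁻¹ * (g * x * g⁻¹) * g = x := by group
                show g⁻¹ * (g * x * g⁻¹) * g ∈ H
                rw [e]; exact hx)
              have h3' : (t : G)⁻¹ * (g * x * g⁻¹) * t ∈ H := h3
              rw [← hnh] at h3'
              have h4 := H.mul_mem (H.mul_mem hh1 h3') (H.inv_mem hh1)
              have e : h1 * ((n1 * h1)⁻¹ * (g * x * g⁻¹) * (n1 * h1)) * h1⁻¹
                  = n1⁻¹ * (g * x * g⁻¹) * n1 := by group
              rwa [e] at h4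
            · intro hw
              have hyT : g * x * g⁻¹ ∈ H ⊔ N := by
                have h5 : n1 * (n1⁻¹ * (g * x * g⁻¹) * n1) * n1⁻¹ ∈ H ⊔ N :=
                  mul_mem (mul_mem (le_sup_right (b := N) hn1) (le_sup_left (a := H) hw))
                    (inv_mem (le_sup_right (b := N) hn1))
                have e : n1 * (n1⁻¹ * (g * x * g⁻¹) * n1) * n1⁻¹ = g * x * g⁻¹ := by group
                rwa [e] at h5
              have h6 : (t : G)⁻¹ * (g * x * g⁻¹) * t ∈ H := by
                rw [← hnh]
                have h7 := H.mul_mem (H.mul_mem (H.inv_mem hh1) hw) hh1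
                have e : h1⁻¹ * (n1⁻¹ * (g * x * g⁻¹) * n1) * h1
                    = (n1 * h1)⁻¹ * (g * x * g⁻¹) * (n1 * h1) := by group
                rwa [e] at h7
              have h8 := (K1 ⟨g * x * g⁻¹, hyT⟩).2 h6
              have h8' : g⁻¹ * (g * x * g⁻¹) * g ∈ H := h8
              have e : g⁻¹ * (g * x * g⁻¹) * g = x := by group
              rwa [e] at h8'
          have e : g = n1 * (n1⁻¹ * g) := by group
          rw [e]
          exact mul_mem_sup hn1 hmem
        · have aux : ∀ z ∈ normalizer (H : Set G), ∀ x ∈ H ⊔ N, z * x * z⁻¹ ∈ H ⊔ N := by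
            intro z hz x hx
            obtain ⟨h, hh, n2, hn2, rfl⟩ := mem_sup_of_normal_right.1 hx
            have e : z * (h * n2) * z⁻¹ = (z * h * z⁻¹) * (z * n2 * z⁻¹) := by group
            rw [e]
            exact mul_mem_sup ((mem_normalizer_iff.1 hz h).1 hh) (hNn.conj_mem n2 hn2 z)
          apply sup_le
          · exact le_sup_right.trans le_normalizer
          · intro y hy
            rw [mem_normalizer_iff]
            intro x
            constructor
            · exact aux y hy x
            · intro hx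
              have h2 := aux y⁻¹ (inv_mem hy) _ hx
              have e : y⁻¹ * (y * x * y⁻¹) * y⁻¹⁻¹ = x := by group
              rwa [e] at h2
      have i1 : (normalizer (H : Set G)).relIndex (N ⊔ normalizer (H : Set G))
          * (N ⊔ normalizer (H : Set G)).index = (normalizer (H : Set G)).index :=
        relIndex_mul_index le_sup_right
      have i2 : Nat.card ↥(normalizer (H : Set G))
          * (normalizer (H : Set G)).relIndex (N ⊔ normalizer (H : Set G))
          = Nat.card ↥(N ⊔ normalizer (H : Set G)) := card_mul_relIndex' le_sup_right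
      have i3 := card_sup_mul (normalizer (H : Set G)) N
      rw [sup_comm, ← i2] at i3
      have hApos : 0 < Nat.card ↥(normalizer (H : Set G)) := Nat.card_pos
      have i4 : (normalizer (H : Set G)).relIndex (N ⊔ normalizer (H : Set G))
          * Nat.card ↥(normalizer (H : Set G) ⊓ N) = Nat.card N := by
        rw [mul_assoc] at i3
        exact Nat.eq_of_mul_eq_mul_left hApos i3
      have i5 : normalizer (H : Set G) ⊓ N = N ⊓ centralizer (H : Set G) := by
        apply le_antisymm
        · intro x hx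
          obtain ⟨hx1, hx2⟩ := Subgroup.mem_inf.1 hx
          refine Subgroup.mem_inf.2 ⟨hx2, ?_⟩
          rw [mem_centralizer_iff]
          intro h hh
          have h2 : x * h * x⁻¹ * h⁻¹ ∈ H ⊓ N := by
            refine Subgroup.mem_inf.2 ⟨H.mul_mem ((mem_normalizer_iff.1 hx1 h).1 hh) (H.inv_mem hh), ?_⟩
            have h3 := N.mul_mem hx2 (hNn.conj_mem x⁻¹ (N.inv_mem hx2) h)
            have e : x * (h * x⁻¹ * h⁻¹) = x * h * x⁻¹ * h⁻¹ := by group
            rwa [e] at h3
          rw [hinf, mem_bot] at h2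
          have h4 : x * h * x⁻¹ = h := mul_inv_eq_one.1 h2
          exact (mul_inv_eq_iff_eq_mul.1 h4).symm
        · intro x hx
          obtain ⟨hx1, hx2⟩ := Subgroup.mem_inf.1 hx
          exact Subgroup.mem_inf.2 ⟨centralizer_le_normalizer _ hx2, hx1⟩
      rw [i5] at i4
      obtain ⟨l, hl, hl'⟩ := lemL N r a hr ha _ H rfl inferInstance (by rw [hH]; exact hmr)
      have hcpos : 0 < Nat.card ↥(N ⊓ centralizer (H : Set G)) := Nat.card_pos
      have i6 : (normalizer (H : Set G)).relIndex (N ⊔ normalizer (H : Set G)) = l.prod := by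
        have h2 : Nat.card ↥(N ⊓ centralizer (H : Set G))
            * (normalizer (H : Set G)).relIndex (N ⊔ normalizer (H : Set G))
            = Nat.card ↥(N ⊓ centralizer (H : Set G)) * l.prod := by
          rw [← hl, mul_comm, i4]
        exact Nat.eq_of_mul_eq_mul_left hcpos h2
      have hgood : Good G m ((normalizer (H : Set G)).relIndex (N ⊔ normalizer (H : Set G))) := by
        refine ⟨l, i6, fun f hf => ?_⟩
        obtain ⟨⟨e, he⟩, hfN, q, hq', hqd, hqm⟩ := hl' f hf
        refine ⟨⟨r, e, hr, he⟩, ⟨⊥, N, inferInstance, hNn, bot_lt_iff_ne_bot.2 hNbot, ?_, ?_⟩,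
          ⟨q, hq', hH ▸ hqd, hqm⟩⟩
        · intro M hM _ hMN
          exact hNm M hM hMN
        · rw [relIndex_bot_left]; exact hfN
      rw [← i1]
      rw [hfr] at h1'
      exact hgood.mul h1'

/-- Let `G` be a finite solvable group of order `mn` with `gcd(m, n) = 1`. Then the number of subgroups of order `m` is a product of natural numbers each of which is a power of a prime, divides the order of some chief factor of `G` (a quotient `L/K` of normal subgroups `K < L` of `G` with no normal subgroup of `G` strictly between them), and is congruent to `1` modulo some prime divisor of `m`. -/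
theorem result {G : Type*} [Group G] [Finite G] [Group.IsSolvable G] (m n : ℕ) (hG : Nat.card G = m * n) (hmn : Nat.Coprime m n) : ∃ (k : ℕ) (f : Fin k → ℕ), Nat.card {H : Subgroup G // Nat.card H = m} = ∏ i, f i ∧ ∀ i, (∃ q e : ℕ, q.Prime ∧ f i = q ^ e) ∧ (∃ K L : Subgroup G, K.Normal ∧ L.Normal ∧ K < L ∧ (∀ M : Subgroup G, M.Normal → K ≤ M → M ≤ L → M = K ∨ M = L) ∧ f i ∣ K.relIndex L) ∧ (∃ q : ℕ, q.Prime ∧ q ∣ m ∧ f i ≡ 1 [MOD q]) := by
  obtain ⟨H, hH⟩ := Cfsg.Agent.S0003.result m n hG hmn
  have h1 := card_hall m n hG hmn H hH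
  obtain ⟨l, hl, hl'⟩ := main _ G rfl m n hG hmn H hH
  refine ⟨l.length, fun i => l[i.1], ?_, fun i => hl' _ (List.getElem_mem _)⟩
  rw [h1, hl]
  exact (Fin.prod_univ_getElem l).symm

end Cfsg.Agent.S4214
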