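import Cfsg.Statements.S4217
import Cfsg.Agent.S0051
import Cfsg.Agent.Lib.Helper5.Card

set_option autoImplicit false
open Cfsg

namespace Cfsg.Agent.S4217

open Subgroup

section
variable {G : Type*} [Group G] [Finite G]

theorem local_step (A : Subgroup G) [hAn0 : A.Normal] (hA : IsMulCommutative A) (p : ℕ)
    [hp : Fact p.Prime] (U K : Subgroup G) (hKA : K ⊓ A = ⊥) (hKU : K ⊔ A = U)
    (hU : ¬ p ∣ U.index) :
    ∃ H : Subgroup G, (∀ a ∈ A, a ∈ H → (orderOf a).Coprime p) ∧
      H.index ≤ p ^ (Nat.card A).factorization p := by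
  classical
  obtain ⟨e, m, hm, hAm⟩ :=
    Nat.exists_eq_pow_mul_and_not_dvd (Nat.card_pos (α := A)).ne' p hp.out.ne_one
  have hcomm : ∀ a ∈ A, ∀ b ∈ A, a * b = b * a := fun a ha b hb =>
    congrArg Subtype.val (hA.is_comm.comm ⟨a, ha⟩ ⟨b, hb⟩)
  let B : Subgroup G :=
    { carrier := {a | a ∈ A ∧ a ^ m = 1}
      one_mem' := ⟨A.one_mem, one_pow m⟩
      mul_mem' := by
        rintro a b ⟨ha, ha'⟩ ⟨hb, hb'⟩
        refine ⟨A.mul_mem ha hb, ?_⟩
        rw [(show Commute a b from hcomm a ha b hb).mul_pow, ha', hb', one_mul]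
      inv_mem' := by
        rintro a ⟨ha, ha'⟩
        exact ⟨A.inv_mem ha, by rw [inv_pow, ha', inv_one]⟩ }
  have hBn : B.Normal := by
    refine ⟨fun a ha g => ⟨hAn0.conj_mem a ha.1 g, ?_⟩⟩
    rw [conj_pow, ha.2, mul_one, mul_inv_cancel]
  have hBA : B ≤ A := fun a ha => ha.1
  have hπ : Function.Surjective (QuotientGroup.mk' B) := QuotientGroup.mk'_surjective B
  have hker : (QuotientGroup.mk' B).ker = B := QuotientGroup.ker_mk' B
  generalize hπdef : QuotientGroup.mk' B = π at hπ hker
  have hone : ∀ x : G, π x = 1 ↔ x ∈ B := fun x => by rw [← MonoidHom.mem_ker, hker]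
  have hAn : (A.map π).Normal := hAn0.map π hπ
  have hAc : IsMulCommutative (A.map π) := by
    refine ⟨⟨?_⟩⟩
    rintro ⟨_, a, ha, rfl⟩ ⟨_, b, hb, rfl⟩
    apply Subtype.ext
    show π a * π b = π b * π a
    rw [← map_mul, ← map_mul, hcomm a ha b hb]
  have hAp : IsPGroup p (A.map π) := by
    rintro ⟨_, a, ha, rfl⟩
    refine ⟨e, Subtype.ext ?_⟩
    show π a ^ p ^ e = 1
    rw [← map_pow, hone]
    refine ⟨A.pow_mem ha _, ?_⟩
    rw [← pow_mul, ← hAm]
    have := pow_card_eq_one' (x := (⟨a, ha⟩ : A))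
    exact congrArg Subtype.val this
  obtain ⟨k, hk⟩ := hAp.exists_card_eq
  have hkle : p ^ k ≤ p ^ (Nat.card A).factorization p := by
    have h1 : p ^ k ∣ Nat.card A := hk ▸ card_map_dvd A π
    exact Nat.pow_le_pow_right hp.out.pos
      ((hp.out.pow_dvd_iff_le_factorization (Nat.card_pos).ne').1 h1)
  have hAU : A ≤ U := hKU ▸ le_sup_right
  have hidx : (U.map π).index = U.index :=
    index_map_eq U hπ (by rw [hker]; exact hBA.trans hAU)
  obtain ⟨Hb, hHb⟩ := Cfsg.Agent.S0051.result (A.map π) (U.map π) (map_mono hAU)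
    (by rw [hk, hidx]; exact Nat.Coprime.pow_left k ((Nat.Prime.coprime_iff_not_dvd hp.out).2 hU))
    (K.map π) (map_mono (hKU ▸ le_sup_left))
    (by
      rw [eq_bot_iff]
      intro y hy
      obtain ⟨hy1, hy2⟩ := mem_inf.1 hy
      obtain ⟨x, hx, rfl⟩ := hy1
      obtain ⟨a, ha, hax⟩ := hy2
      have h1 : a⁻¹ * x ∈ B := by
        rw [← hone, map_mul, map_inv, hax, inv_mul_cancel]
      have h2 : x ∈ A := by
        have := A.mul_mem ha (hBA h1)
        rwa [mul_inv_cancel_left] at this
      have h3 : x ∈ K ⊓ A := mem_inf.2 ⟨hx, h2⟩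
      rw [hKA, mem_bot] at h3
      rw [h3, map_one]; exact one_mem _)
    (by rw [← Subgroup.map_sup, sup_comm, hKU])
  refine ⟨Hb.comap π, ?_, ?_⟩
  · intro a ha haH
    have h1 : π a ∈ A.map π ⊓ Hb := mem_inf.2 ⟨mem_map_of_mem π ha, haH⟩
    rw [hHb.disjoint.eq_bot, mem_bot, hone] at h1
    have h3 : orderOf a ∣ m := orderOf_dvd_of_pow_eq_one h1.2
    exact Nat.Coprime.coprime_dvd_left h3 ((Nat.Prime.coprime_iff_not_dvd hp.out).2 hm).symm
  · rw [index_comap_of_surjective _ hπ, hHb.index_eq_card, hk]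
    exact hkle

end

/-- Let `A` be an abelian normal subgroup of the finite group `G`. Then `A` has a complement in `G` if and only if, for every prime `p` dividing the index of `A`, there are a Sylow `p`-subgroup `S` of `G/A` and a subgroup `K` of `G` with `K ∩ A = 1` and `KA` equal to the preimage of `S` (that is, `A` has a complement in the preimage of a Sylow `p`-subgroup of `G/A`). -/
theorem result {G : Type*} [Group G] [Finite G] (A : Subgroup G) [A.Normal] (hA : IsMulCommutative A) : (∃ K : Subgroup G, K.IsComplement' A) ↔ ∀ p : ℕ, p.Prime → p ∣ A.index → ∃ (S : Sylow p (G ⧸ A)) (K : Subgroup G), K ⊓ A = ⊥ ∧ K ⊔ A = (S : Subgroup (G ⧸ A)).comap (QuotientGroup.mk' A) := by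
  constructor
  · rintro ⟨K, hK⟩ p hp _
    have : Fact p.Prime := ⟨hp⟩
    let S : Sylow p (G ⧸ A) := default
    refine ⟨S, K ⊓ (S : Subgroup (G ⧸ A)).comap (QuotientGroup.mk' A), ?_, ?_⟩
    · rw [eq_bot_iff, ← hK.disjoint.eq_bot]
      exact inf_le_inf_right _ inf_le_left
    · apply le_antisymm
      · apply sup_le inf_le_right
        intro a ha
        rw [mem_comap]
        have h1 : QuotientGroup.mk' A a = 1 := (QuotientGroup.eq_one_iff a).2 ha
        rw [h1]; exact one_mem _
      · intro l hl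
        have hl' : l ∈ ((K ⊔ A : Subgroup G) : Set G) := by rw [hK.sup_eq_top]; trivial
        rw [mul_normal] at hl'
        obtain ⟨k, hk, a, ha, rfl⟩ := Set.mem_mul.1 hl'
        refine mul_mem_sup (mem_inf.2 ⟨hk, ?_⟩) ha
        rw [mem_comap] at hl ⊢
        rw [map_mul, (show QuotientGroup.mk' A a = 1 from (QuotientGroup.eq_one_iff a).2 ha),
          mul_one] at hl
        exact hl
  · intro hloc
    classical
    have hstep : ∀ p : ℕ, p.Prime → ∃ H : Subgroup G,
        (∀ a ∈ A, a ∈ H → (orderOf a).Coprime p) ∧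
          H.index ≤ p ^ (Nat.card A).factorization p := by
      intro p hp
      have : Fact p.Prime := ⟨hp⟩
      by_cases hd : p ∣ A.index
      · obtain ⟨S, K, h1, h2⟩ := hloc p hp hd
        apply local_step A hA p _ K h1 h2
        rw [index_comap_of_surjective _ (QuotientGroup.mk'_surjective A)]
        exact S.not_dvd_index
      · exact local_step A hA p A ⊥ (bot_inf_eq _) (bot_sup_eq _) hd
    choose! Hf hHf1 hHf2 using hstep
    have hdisj : Disjoint (⨅ p : (Nat.card A).primeFactors, Hf p) A := by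
      rw [disjoint_def]
      intro a haH haA
      by_contra hne
      have ho : orderOf a ≠ 1 := by rwa [Ne, orderOf_eq_one_iff]
      obtain ⟨q, hq, hqd⟩ := Nat.exists_prime_and_dvd ho
      have hqA : q ∣ Nat.card A := hqd.trans (by
        have := orderOf_dvd_natCard (⟨a, haA⟩ : A)
        rwa [Subgroup.orderOf_mk] at this)
      have hqP : q ∈ (Nat.card A).primeFactors :=
        Nat.mem_primeFactors.2 ⟨hq, hqA, (Nat.card_pos).ne'⟩
      have h1 : a ∈ Hf q := (mem_iInf.1 haH) ⟨q, hqP⟩
      have h2 := hHf1 q hq a haA h1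
      exact hq.one_lt.ne' (Nat.Coprime.eq_one_of_dvd h2.symm hqd)
    have hidx : (⨅ p : (Nat.card A).primeFactors, Hf p).index ≤ Nat.card A := by
      calc (⨅ p : (Nat.card A).primeFactors, Hf p).index
          ≤ ∏ p : (Nat.card A).primeFactors, (Hf p).index := index_iInf_le _
        _ ≤ ∏ p : (Nat.card A).primeFactors, (p : ℕ) ^ (Nat.card A).factorization p :=
            Finset.prod_le_prod (fun _ _ => Nat.zero_le _)
              (fun p _ => hHf2 p (Nat.prime_of_mem_primeFactors p.2))
        _ = ∏ p ∈ (Nat.card A).primeFactors, p ^ (Nat.card A).factorization p :=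
            Finset.prod_coe_sort (Nat.card A).primeFactors
              (fun p => p ^ (Nat.card A).factorization p)
        _ = Nat.card A := by
            have h3 := Nat.prod_factorization_pow_eq_self (Nat.card_pos (α := A)).ne'
            rw [Finsupp.prod, Nat.support_factorization] at h3
            exact h3
    generalize (⨅ p : (Nat.card A).primeFactors, Hf p) = H at hdisj hidx
    refine ⟨H, isComplement'_of_card_mul_and_disjoint ?_ hdisj⟩
    have h1 := Cfsg.Agent.Lib.Helper5.card_sup_mul_card_inf H A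
      (by rw [normalizer_eq_top]; exact le_top)
    rw [hdisj.eq_bot, card_bot, mul_one] at h1
    have h2 : Nat.card ↥(H ⊔ A) ≤ Nat.card G := card_le_card_group _
    have h3 := H.card_mul_index
    have h4 : Nat.card H * H.index ≤ Nat.card H * Nat.card A := Nat.mul_le_mul_left _ hidx
    omega

end Cfsg.Agent.S4217
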