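import Cfsg.Statements.S4218
import Mathlib
import Cfsg.Agent.S0012
import Cfsg.Agent.S0029
import Cfsg.Agent.Lib.Helper13.PPrimeP
import Cfsg.Agent.Lib.Helper5.PPrimeQuot
import Cfsg.Agent.Lib.Helper5.PSolv
import Cfsg.Agent.Lib.Helper1.Frattini

set_option autoImplicit false
open Cfsg
open scoped commutatorElement

namespace Cfsg.Agent.S4218

lemma frattini_equiv {A B : Type*} [Group A] [Group B] (e : A ≃* B) (x : A) :
    e x ∈ frattini B ↔ x ∈ frattini A := by
  rw [Cfsg.Agent.Lib.Helper1.mem_frattini_iff, Cfsg.Agent.Lib.Helper1.mem_frattini_iff]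
  constructor
  · intro h M hM
    have h1 : IsCoatom (e.mapSubgroup M) := (e.mapSubgroup.isCoatom_iff M).2 hM
    obtain ⟨y, hy, hxy⟩ := h _ h1
    have : y = x := e.injective hxy
    rwa [← this]
  · intro h M hM
    have h1 : IsCoatom (e.comapSubgroup M) := (e.comapSubgroup.isCoatom_iff M).2 hM
    exact h _ h1

lemma frattini_of_surj {A B : Type*} [Group A] [Group B] (θ : A →* B)
    (hθ : Function.Surjective θ) (K : Subgroup A) [K.Normal] (hK : θ.ker = K) (x : A) :
    QuotientGroup.mk' K x ∈ frattini (A ⧸ K) ↔ θ x ∈ frattini B := by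
  subst hK
  exact (frattini_equiv (QuotientGroup.quotientKerEquivOfSurjective θ hθ)
    (QuotientGroup.mk' θ.ker x)).symm

/-- In a group `X` with `O_{p'}(X) = 1`, `p`-solvable: the elements acting trivially on the Frattini
quotient of `O_p(X)` lie in `O_p(X)`. -/
lemma key {X : Type*} [Group X] [Finite X] {p : ℕ} [Fact p.Prime] (hX : Cfsg.IsPSolvable p X)
    (hO : Cfsg.pPrimeCore p X = ⊥) (g : X)
    (hg : ∀ k ∈ Cfsg.pCore p X, g * k * g⁻¹ * k⁻¹ ∈
      (frattini (Cfsg.pCore p X)).map (Cfsg.pCore p X).subtype) : g ∈ Cfsg.pCore p X := by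
  set P := Cfsg.pCore p X with hP
  have hPn : P.Normal := inferInstance
  set Φ := (frattini P).map P.subtype with hΦ
  have hΦn : Φ.Normal := ConjAct.normal_of_characteristic_of_normal
  have hPp : IsPGroup p P := Cfsg.Agent.Lib.Helper5.pCore_isPGroup
  let C : Subgroup X :=
    { carrier := {c | ∀ k ∈ P, c * k * c⁻¹ * k⁻¹ ∈ Φ}
      one_mem' := by
        intro k _
        have : (1 : X) * k * 1⁻¹ * k⁻¹ = 1 := by group
        rw [this]
        exact Φ.one_mem
      mul_mem' := by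
        intro a b ha hb k hk
        have h1 := hΦn.conj_mem _ (hb k hk) a
        have h2 := Φ.mul_mem h1 (ha k hk)
        have h3 : a * (b * k * b⁻¹ * k⁻¹) * a⁻¹ * (a * k * a⁻¹ * k⁻¹)
            = a * b * k * (a * b)⁻¹ * k⁻¹ := by group
        rwa [h3] at h2
      inv_mem' := by
        intro a ha k hk
        have h1 := hΦn.conj_mem _ (Φ.inv_mem (ha k hk)) a⁻¹
        have h3 : a⁻¹ * (a * k * a⁻¹ * k⁻¹)⁻¹ * a⁻¹⁻¹ = a⁻¹ * k * a⁻¹⁻¹ * k⁻¹ := by group
        rwa [h3] at h1 }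
  have hCn : C.Normal := by
    constructor
    intro c hc h k hk
    have hk' : h⁻¹ * k * h⁻¹⁻¹ ∈ P := hPn.conj_mem k hk h⁻¹
    have h1 := hΦn.conj_mem _ (hc _ hk') h
    have h3 : h * (c * (h⁻¹ * k * h⁻¹⁻¹) * c⁻¹ * (h⁻¹ * k * h⁻¹⁻¹)⁻¹) * h⁻¹
        = h * c * h⁻¹ * k * (h * c * h⁻¹)⁻¹ * k⁻¹ := by group
    rwa [h3] at h1
  have hCp : IsPGroup p C := by
    rintro ⟨c, hc⟩
    have ho : orderOf c ≠ 0 := (orderOf_pos c).ne'
    obtain ⟨s, m, hm, hsm⟩ := Nat.exists_eq_pow_mul_and_not_dvd ho p (Fact.out : p.Prime).ne_one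
    refine ⟨s, Subtype.ext ?_⟩
    show c ^ p ^ s = 1
    have hc' : c ^ p ^ s ∈ C := C.pow_mem hc _
    have hord : orderOf (c ^ p ^ s) = m := by
      rw [orderOf_pow_of_dvd (pow_ne_zero _ (Fact.out : p.Prime).ne_zero) ⟨m, hsm⟩, hsm,
        Nat.mul_div_cancel_left _ (pow_pos (Fact.out : p.Prime).pos _)]
    generalize c ^ p ^ s = d at hc' hord
    have hmp : m.Coprime p := ((Nat.Prime.coprime_iff_not_dvd Fact.out).2 hm).symm
    have h1 : Subgroup.zpowers d ≤ Subgroup.centralizer (P : Set X) := by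
      apply Cfsg.Agent.S0029.result (Subgroup.zpowers d) P
      · rw [Subgroup.normalizer_eq_top]
        exact le_top
      · rw [Nat.card_zpowers, hord]
        obtain ⟨j, hj⟩ := IsPGroup.iff_card.1 (hPp.to_subgroup (frattini P))
        rw [hj]
        exact Nat.Coprime.pow_right _ hmp
      · intro a ha k hk
        have : a ∈ C := (Subgroup.zpowers_le.2 hc') ha
        exact this k hk
    have h2 : d ∈ P :=
      Cfsg.Agent.Lib.Helper5.centralizer_pCore_le hX hO (h1 (Subgroup.mem_zpowers d))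
    obtain ⟨j, hj⟩ := hPp ⟨d, h2⟩
    have hj' : d ^ p ^ j = 1 := by
      have := congrArg Subtype.val hj
      simpa using this
    have h3 : orderOf d ∣ p ^ j := orderOf_dvd_of_pow_eq_one hj'
    rw [hord] at h3
    have h4 : m = 1 := Nat.eq_one_of_dvd_coprimes (Nat.Coprime.pow_right j hmp) dvd_rfl h3
    rw [h4] at hord
    exact orderOf_eq_one_iff.1 hord
  exact Cfsg.Agent.Lib.Helper5.le_pCore hCn hCp hg


/-- Let `G` be a finite `p`-solvable group, `N₀ = O_{p'}(G)`, `P₁ = O_{p',p}(G)`, and let `F ≤ P₁` be the preimage of the Frattini subgroup of `P₁/N₀`. Then an element `g` of `G` induces the identity on `P₁/F` by conjugation (that is, `g x g⁻¹ x⁻¹ ∈ F` for all `x ∈ P₁`) if and only if `g ∈ P₁`: the group `G/P₁` acts faithfully on `P₁/F`. -/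
theorem result {G : Type*} [Group G] [Finite G] {p : ℕ} [Fact p.Prime] (hG : Cfsg.IsPSolvable p G) (g : G) : (∀ x ∈ Cfsg.pPrimePCore p G, g * x * g⁻¹ * x⁻¹ ∈ ((frattini (↥(Cfsg.pPrimePCore p G) ⧸ (Cfsg.pPrimeCore p G).subgroupOf (Cfsg.pPrimePCore p G))).comap (QuotientGroup.mk' ((Cfsg.pPrimeCore p G).subgroupOf (Cfsg.pPrimePCore p G)))).map (Cfsg.pPrimePCore p G).subtype) ↔ g ∈ Cfsg.pPrimePCore p G := by
  set D := Cfsg.pPrimeCore p G with hD
  set W := Cfsg.pPrimePCore p G with hW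
  set P := Cfsg.pCore p (G ⧸ D) with hP
  let θ : W →* P := ((QuotientGroup.mk' D).comp W.subtype).codRestrict P (fun x => x.2)
  have hθ : Function.Surjective θ := by
    rintro ⟨y, hy⟩
    obtain ⟨x, rfl⟩ := QuotientGroup.mk'_surjective D y
    exact ⟨⟨x, hy⟩, rfl⟩
  have hker : θ.ker = D.subgroupOf W := by
    ext x
    rw [MonoidHom.mem_ker, Subgroup.mem_subgroupOf]
    constructor
    · intro h
      have h1 : (QuotientGroup.mk' D) x.1 = 1 := congrArg Subtype.val h
      exact (QuotientGroup.eq_one_iff _).1 h1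
    · intro h
      apply Subtype.ext
      exact (QuotientGroup.eq_one_iff _).2 h
  have hfr := frattini_of_surj θ hθ (D.subgroupOf W) hker
  constructor
  · intro h
    have hX : Cfsg.IsPSolvable p (G ⧸ D) :=
      Cfsg.Agent.Lib.Helper5.isPSolvable_of_surjective (QuotientGroup.mk' D)
        (QuotientGroup.mk'_surjective D) hG
    have hO : Cfsg.pPrimeCore p (G ⧸ D) = ⊥ := Cfsg.Agent.Lib.Helper5.pPrimeCore_quot_pPrimeCore
    have := key hX hO (QuotientGroup.mk' D g) (by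
      intro k hk
      obtain ⟨x, rfl⟩ := QuotientGroup.mk'_surjective D k
      obtain ⟨w, hw, hwx⟩ := h x hk
      have h1 : θ w ∈ frattini P := (hfr w).1 hw
      refine ⟨θ w, h1, ?_⟩
      show (QuotientGroup.mk' D) w.1 = _
      have h2 : w.1 = g * x * g⁻¹ * x⁻¹ := hwx
      rw [h2]
      simp)
    exact this
  · intro hg x hx
    have hRp : IsPGroup p (↥W ⧸ D.subgroupOf W) := by
      intro r
      obtain ⟨w, rfl⟩ := QuotientGroup.mk_surjective r
      obtain ⟨k, hk⟩ := Cfsg.Agent.Lib.Helper13.pp_pow_mem (p := p) w.1 w.2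
      refine ⟨k, ?_⟩
      rw [← QuotientGroup.mk_pow]
      apply (QuotientGroup.eq_one_iff _).2
      rw [Subgroup.mem_subgroupOf]
      simpa using hk
    have hcomm := (Cfsg.Agent.S0012.result p hRp).1
    refine ⟨(⟨g, hg⟩ : W) * ⟨x, hx⟩ * (⟨g, hg⟩ : W)⁻¹ * (⟨x, hx⟩ : W)⁻¹, ?_, rfl⟩
    apply hcomm
    have h1 : ⁅QuotientGroup.mk' (D.subgroupOf W) ⟨g, hg⟩, QuotientGroup.mk' (D.subgroupOf W) ⟨x, hx⟩⁆
        ∈ ⁅(⊤ : Subgroup (↥W ⧸ D.subgroupOf W)), ⊤⁆ :=
      Subgroup.commutator_mem_commutator (Subgroup.mem_top _) (Subgroup.mem_top _)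
    rw [commutator_def]
    rw [commutatorElement_def] at h1
    rw [map_mul, map_mul, map_mul, map_inv, map_inv]
    exact h1

end Cfsg.Agent.S4218
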