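import Cfsg.Statements.S4219
import Cfsg.Agent.Lib.Helper17.Syl

set_option autoImplicit false
open Cfsg

namespace Cfsg.Agent.S4219

open Cfsg.Agent.Lib.Helper17

/-- Let a finite group `G` act `t`-fold transitively on a finite set, let `H` be the stabilizer of `t` distinct points and `P` a Sylow `p`-subgroup of `H`. Then the normalizer of `P` in `G` is `t`-fold transitive on the fixed points of `P`: any `t` distinct fixed points of `P` can be carried to any other `t` distinct fixed points of `P` by an element normalizing `P`. -/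
theorem result {G : Type*} [Group G] [Finite G] {α : Type*} [Fintype α] [MulAction G α] {t : ℕ} (hG : MulAction.IsMultiplyPretransitive G α t) (x : Fin t ↪ α) {p : ℕ} [Fact p.Prime] (P : Sylow p (MulAction.stabilizer G x)) (a b : Fin t ↪ α) (ha : ∀ i, a i ∈ MulAction.fixedPoints ((P : Subgroup (MulAction.stabilizer G x)).map (MulAction.stabilizer G x).subtype) α) (hb : ∀ i, b i ∈ MulAction.fixedPoints ((P : Subgroup (MulAction.stabilizer G x)).map (MulAction.stabilizer G x).subtype) α) : ∃ g ∈ Subgroup.normalizer ((((P : Subgroup (MulAction.stabilizer G x)).map (MulAction.stabilizer G x).subtype) : Subgroup G) : Set G), g • a = b := by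
  classical
  have hsyl : IsSyl p ((P : Subgroup (MulAction.stabilizer G x)).map
      (MulAction.stabilizer G x).subtype) (MulAction.stabilizer G x) := isSyl_of_sylow P
  generalize ((P : Subgroup (MulAction.stabilizer G x)).map
      (MulAction.stabilizer G x).subtype) = P' at *
  have key : ∀ a : Fin t ↪ α, (∀ i, a i ∈ MulAction.fixedPoints P' α) →
      ∃ g ∈ Subgroup.normalizer (P' : Set G), g • x = a := by
    intro a ha
    obtain ⟨g, hg⟩ := hG.exists_smul_eq x a
    have hle : P'.map (MulAut.conj g⁻¹).toMonoidHom ≤ MulAction.stabilizer G x := by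
      intro y hy
      rw [mem_map_conj, inv_inv] at hy
      rw [MulAction.mem_stabilizer_iff]
      ext i
      have h2 : (g * y * g⁻¹) • a i = a i := ha i ⟨_, hy⟩
      rw [← hg] at h2
      have h3 : (g • x) i = g • x i := rfl
      rw [h3, mul_smul, mul_smul, inv_smul_smul] at h2
      exact smul_left_cancel g h2
    have hsyl2 : IsSyl p (P'.map (MulAut.conj g⁻¹).toMonoidHom) (MulAction.stabilizer G x) :=
      hsyl.of_card_le hle (hsyl.isPGroup.map _) (by rw [card_map_conj])
    obtain ⟨h, hh, heq⟩ := hsyl2.conj hsyl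
    rw [map_conj_map_conj] at heq
    have hn : h * g⁻¹ ∈ Subgroup.normalizer (P' : Set G) := mem_normalizer_iff_map_conj.2 heq.symm
    refine ⟨(h * g⁻¹)⁻¹, inv_mem hn, ?_⟩
    have hx : h⁻¹ • x = x := by
      rw [inv_smul_eq_iff]; exact (MulAction.mem_stabilizer_iff.1 hh).symm
    rw [mul_inv_rev, inv_inv, mul_smul, hx, hg]
  obtain ⟨g1, hg1, h1⟩ := key a ha
  obtain ⟨g2, hg2, h2⟩ := key b hb
  refine ⟨g2 * g1⁻¹, mul_mem hg2 (inv_mem hg1), ?_⟩
  rw [mul_smul, ← h1, inv_smul_smul, h2]

end Cfsg.Agent.S4219
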