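import Cfsg.Statements.S4223
-- import your own Cfsg.Agent.* helpers here

set_option autoImplicit false
open Cfsg

namespace Cfsg.Agent.S4223

/-- directly indecomposable nontrivial group -/
def Indec (A : Type*) [Group A] : Prop :=
  Nontrivial A ∧ ∀ H K : Subgroup A, H.Normal → K.Normal → H ⊓ K = ⊥ → H ⊔ K = ⊤ → H = ⊥ ∨ K = ⊥

theorem iterate_normal {A : Type*} [Group A] (f : A →* A)
    (hf : ∀ a x, f (a * x * a⁻¹) = a * f x * a⁻¹) (k : ℕ) (a x : A) :
    f^[k] (a * x * a⁻¹) = a * f^[k] x * a⁻¹ := by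
  induction k with
  | zero => rfl
  | succ k ih => rw [Function.iterate_succ_apply', ih, hf, ← Function.iterate_succ_apply' f]

theorem fitting {A : Type*} [Group A] [Finite A] (hA : Indec A) (f : A →* A)
    (hf : ∀ a x, f (a * x * a⁻¹) = a * f x * a⁻¹) :
    Function.Injective f ∨ ∃ k : ℕ, ∀ x, f^[k] x = 1 := by
  obtain ⟨m, n, hmn, he⟩ := Finite.exists_ne_map_eq_of_infinite (fun n : ℕ => (f^[n] : A → A))
  wlog hlt : m < n generalizing m n
  · exact this n m hmn.symm he.symm (lt_of_le_of_ne (not_lt.1 hlt) hmn.symm)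
  obtain ⟨d, rfl⟩ : ∃ d, n = m + d := ⟨n - m, by omega⟩
  have hd : 0 < d := by omega
  have he' : (f^[m] : A → A) = f^[m + d] := he
  have h1 : ∀ a, m ≤ a → (f^[a + d] : A → A) = f^[a] := by
    intro a ha
    obtain ⟨c, rfl⟩ : ∃ c, a = c + m := ⟨a - m, by omega⟩
    rw [add_assoc, Function.iterate_add, Function.iterate_add f c m, ← he']
  have h2 : ∀ t a, m ≤ a → (f^[a + t * d] : A → A) = f^[a] := by
    intro t
    induction t with
    | zero => intro a _; simp
    | succ t ih =>
      intro a ha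
      have e1 : a + (t + 1) * d = (a + t * d) + d := by ring
      rw [e1, h1 _ (le_trans ha (Nat.le_add_right _ _)), ih a ha]
  obtain ⟨a, ha, hma, ha0⟩ : ∃ a, a = (m + 1) * d ∧ m ≤ a ∧ 0 < a :=
    ⟨(m + 1) * d, rfl, by nlinarith, by positivity⟩
  have hid : (f^[a + a] : A → A) = f^[a] := by
    have := h2 (m + 1) a hma
    rwa [← ha] at this
  let ψ : A →* A :=
    { toFun := f^[a]
      map_one' := iterate_map_one f a
      map_mul' := iterate_map_mul f a }
  have hψ : ∀ x, ψ x = f^[a] x := fun _ => rfl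
  have hidem : ∀ x, ψ (ψ x) = ψ x := by
    intro x
    rw [hψ, hψ, ← Function.iterate_add_apply, hid]
  have hKn : ψ.range.Normal := ⟨by
    rintro _ ⟨y, rfl⟩ g
    exact ⟨g * y * g⁻¹, iterate_normal f hf a g y⟩⟩
  have hinf : ψ.ker ⊓ ψ.range = ⊥ := by
    rw [eq_bot_iff]
    rintro x ⟨hx1, y, rfl⟩
    have hx1' : ψ (ψ y) = 1 := hx1
    rw [hidem] at hx1'
    exact hx1'
  have hsup : ψ.ker ⊔ ψ.range = ⊤ := by
    rw [eq_top_iff]
    intro x _
    have e1 : x = (x * (ψ x)⁻¹) * ψ x := by group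
    rw [e1]
    apply Subgroup.mul_mem_sup
    · rw [MonoidHom.mem_ker, map_mul, map_inv, hidem, mul_inv_cancel]
    · exact ⟨x, rfl⟩
  rcases hA.2 _ _ inferInstance hKn hinf hsup with h | h
  · left
    intro x y hxy
    have hinj : Function.Injective ψ := (MonoidHom.ker_eq_bot_iff ψ).1 h
    apply hinj
    obtain ⟨b, rfl⟩ : ∃ b, a = b + 1 := ⟨a - 1, by omega⟩
    rw [hψ, hψ, Function.iterate_succ_apply, Function.iterate_succ_apply, hxy]
  · right
    refine ⟨a, fun x => ?_⟩
    have hx : ψ x ∈ ψ.range := ⟨x, rfl⟩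
    rw [h, Subgroup.mem_bot] at hx
    exact hx

theorem local_lemma {A : Type*} [Group A] [Finite A] (hA : Indec A) (μ ν : A →* A)
    (hμ : ∀ a x, μ (a * x * a⁻¹) = a * μ x * a⁻¹) (h : ∀ x, x = μ x * ν x) :
    Function.Injective μ ∨ Function.Injective ν := by
  rcases fitting hA μ hμ with h1 | ⟨k, hk⟩
  · exact Or.inl h1
  · right
    rw [injective_iff_map_eq_one]
    intro x hx
    have h2 : μ x = x := by
      have := h x
      rw [hx, mul_one] at this
      exact this.symm
    have h3 : μ^[k] x = x := Function.iterate_fixed h2 k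
    rw [← h3, hk]

/-- projection onto the coordinates in `S` -/
def eps {κ : Type} [DecidableEq κ] {B : κ → Type*} [∀ j, Group (B j)] (S : Finset κ) :
    (∀ j, B j) →* (∀ j, B j) where
  toFun x j := if j ∈ S then x j else 1
  map_one' := by
    ext j
    by_cases h : j ∈ S <;> simp [h]
  map_mul' x y := by
    ext j
    by_cases h : j ∈ S <;> simp [h]

theorem eps_apply {κ : Type} [DecidableEq κ] {B : κ → Type*} [∀ j, Group (B j)] (S : Finset κ)
    (x : ∀ j, B j) (j : κ) : eps S x j = if j ∈ S then x j else 1 := rfl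

section
variable {A A' : Type*} [Group A] [Group A'] {κ : Type} [DecidableEq κ]
  {B : κ → Type*} [∀ j, Group (B j)]

/-- the endomorphism of `A` attached to the coordinates in `S` -/
def phi (e : A × A' ≃* (∀ j, B j)) (S : Finset κ) : A →* A :=
  (MonoidHom.fst A A').comp (e.symm.toMonoidHom.comp ((eps S).comp
    (e.toMonoidHom.comp (MonoidHom.inl A A'))))

theorem phi_apply (e : A × A' ≃* (∀ j, B j)) (S : Finset κ) (a : A) :
    phi e S a = (e.symm (eps S (e (a, 1)))).1 := rfl

theorem phi_normal (e : A × A' ≃* (∀ j, B j)) (S : Finset κ) (a x : A) :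
    phi e S (a * x * a⁻¹) = a * phi e S x * a⁻¹ := by
  rw [phi_apply, phi_apply]
  have h1 : ((a * x * a⁻¹, 1) : A × A') = (a, 1) * (x, 1) * (a, 1)⁻¹ := by
    ext <;> simp
  have h2 : ∀ g y : (∀ j, B j), eps S (g * y * g⁻¹) = g * eps S y * g⁻¹ := by
    intro g y
    ext j
    by_cases h : j ∈ S <;> simp [eps_apply, h]
  rw [h1, map_mul e, map_mul e, map_inv e, h2, map_mul e.symm, map_mul e.symm, map_inv e.symm,
    e.symm_apply_apply]
  simp

theorem phi_insert (e : A × A' ≃* (∀ j, B j)) (S : Finset κ) (j : κ) (hj : j ∉ S) (a : A) :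
    phi e (insert j S) a = phi e {j} a * phi e S a := by
  rw [phi_apply, phi_apply, phi_apply, ← Prod.fst_mul, ← map_mul]
  congr 2
  ext k
  simp only [eps_apply, Pi.mul_apply, Finset.mem_insert, Finset.mem_singleton]
  by_cases hk : k = j
  · subst hk; simp [hj]
  · simp [hk]

theorem phi_empty (e : A × A' ≃* (∀ j, B j)) (a : A) : phi e ∅ a = 1 := by
  rw [phi_apply]
  have : eps (∅ : Finset κ) (e (a, 1)) = 1 := by
    ext k; simp [eps_apply]
  rw [this, map_one]; rfl

theorem phi_univ [Fintype κ] (e : A × A' ≃* (∀ j, B j)) (a : A) : phi e Finset.univ a = a := by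
  rw [phi_apply]
  have : eps (Finset.univ : Finset κ) (e (a, 1)) = e (a, 1) := by
    ext k; simp [eps_apply]
  rw [this, e.symm_apply_apply]

theorem eps_singleton (j : κ) (x : ∀ j, B j) : eps {j} x = Pi.mulSingle j (x j) := by
  ext k
  rw [eps_apply]
  by_cases hk : k = j
  · subst hk; simp
  · simp [hk]

theorem exists_inj [Finite A] (hA : Indec A) (e : A × A' ≃* (∀ j, B j)) (S : Finset κ) :
    Function.Injective (phi e S) → ∃ j, Function.Injective (phi e {j}) := by
  induction S using Finset.induction_on with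
  | empty =>
    intro h
    exfalso
    obtain ⟨x, y, hxy⟩ := hA.1
    exact hxy (h (by rw [phi_empty, phi_empty]))
  | insert j S hj ih =>
    intro h
    have hbij : Function.Bijective (phi e (insert j S)) := Finite.injective_iff_bijective.1 h
    let θ : A ≃* A := (MulEquiv.ofBijective (phi e (insert j S)) hbij).symm
    have hθ : ∀ x, phi e (insert j S) (θ x) = x := fun x =>
      (MulEquiv.ofBijective (phi e (insert j S)) hbij).apply_symm_apply x
    have hθ' : ∀ x, θ (phi e (insert j S) x) = x := fun x =>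
      (MulEquiv.ofBijective (phi e (insert j S)) hbij).symm_apply_apply x
    have hθn : ∀ a x, θ (a * x * a⁻¹) = a * θ x * a⁻¹ := by
      intro a x
      apply h
      rw [hθ, phi_normal, hθ]
    have key := local_lemma hA ((phi e {j}).comp θ.toMonoidHom) ((phi e S).comp θ.toMonoidHom)
      (by
        intro a x
        show phi e {j} (θ (a * x * a⁻¹)) = a * phi e {j} (θ x) * a⁻¹
        rw [hθn, phi_normal])
      (by
        intro x
        show x = phi e {j} (θ x) * phi e S (θ x)
        rw [← phi_insert e S j hj, hθ])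
    rcases key with h1 | h1
    · refine ⟨j, fun x y hxy => ?_⟩
      apply h
      apply h1
      show phi e {j} (θ _) = phi e {j} (θ _)
      rw [hθ', hθ', hxy]
    · apply ih
      intro x y hxy
      apply h
      apply h1
      show phi e S (θ _) = phi e S (θ _)
      rw [hθ', hθ', hxy]

theorem ML [Finite A] [Finite A'] [Fintype κ] [∀ j, Finite (B j)] (hA : Indec A)
    (hB : ∀ j, Indec (B j)) (e : A × A' ≃* (∀ j, B j)) :
    ∃ j, Nonempty (A ≃* B j) ∧ Nonempty (A' ≃* (∀ k : {k // k ≠ j}, B k)) := by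
  obtain ⟨j, hj⟩ := exists_inj hA e Finset.univ (fun x y hxy => by
    rwa [phi_univ, phi_univ] at hxy)
  refine ⟨j, ?_⟩
  let α : A →* B j := (Pi.evalMonoidHom B j).comp (e.toMonoidHom.comp (MonoidHom.inl A A'))
  let β : B j →* A := (MonoidHom.fst A A').comp (e.symm.toMonoidHom.comp (MonoidHom.mulSingle B j))
  have hα : ∀ a, α a = e (a, 1) j := fun _ => rfl
  have hβ : ∀ b, β b = (e.symm (Pi.mulSingle j b)).1 := fun _ => rfl
  have hφ : ∀ a, phi e {j} a = β (α a) := by
    intro a
    rw [phi_apply, eps_singleton, hβ, hα]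
  have hsurj : Function.Surjective (phi e {j}) := Finite.injective_iff_surjective.1 hj
  have hRn : α.range.Normal := ⟨by
    rintro _ ⟨a, rfl⟩ b
    refine ⟨(e.symm (Pi.mulSingle j b)).1 * a * (e.symm (Pi.mulSingle j b)).1⁻¹, ?_⟩
    rw [hα, hα]
    have h1 : (((e.symm (Pi.mulSingle j b)).1 * a * (e.symm (Pi.mulSingle j b)).1⁻¹, 1) : A × A')
        = e.symm (Pi.mulSingle j b) * (a, 1) * (e.symm (Pi.mulSingle j b))⁻¹ := by
      ext <;> simp
    rw [h1, map_mul, map_mul, map_inv, e.apply_symm_apply]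
    simp⟩
  have hinf : α.range ⊓ β.ker = ⊥ := by
    rw [eq_bot_iff]
    rintro _ ⟨⟨a, rfl⟩, h2⟩
    have h2' : β (α a) = 1 := h2
    rw [← hφ] at h2'
    have : a = 1 := hj (by rw [h2', map_one])
    rw [this, map_one]; exact Subgroup.mem_bot.2 rfl
  have hsup : α.range ⊔ β.ker = ⊤ := by
    rw [eq_top_iff]
    intro b _
    obtain ⟨a, ha⟩ := hsurj (β b)
    have e1 : b = α a * ((α a)⁻¹ * b) := by group
    rw [e1]
    apply Subgroup.mul_mem_sup
    · exact ⟨a, rfl⟩
    · rw [MonoidHom.mem_ker, map_mul, map_inv, ← hφ, ha, inv_mul_cancel]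
  have hker : β.ker = ⊥ := by
    rcases (hB j).2 _ _ hRn inferInstance hinf hsup with h | h
    · exfalso
      obtain ⟨x, y, hxy⟩ := hA.1
      have h1 : ∀ a, α a = 1 := by
        intro a
        have : α a ∈ α.range := ⟨a, rfl⟩
        rw [h, Subgroup.mem_bot] at this
        exact this
      exact hxy (hj (by rw [hφ, hφ, h1, h1]))
    · exact h
  have hβinj : Function.Injective β := (MonoidHom.ker_eq_bot_iff β).1 hker
  have hβsurj : Function.Surjective β := by
    intro a
    obtain ⟨a', ha'⟩ := hsurj a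
    exact ⟨α a', by rw [← hφ, ha']⟩
  let f0 : B j ≃* A := MulEquiv.ofBijective β ⟨hβinj, hβsurj⟩
  refine ⟨⟨f0.symm⟩, ?_⟩
  let γ : A' →* (∀ k : {k // k ≠ j}, B k) :=
    { toFun := fun a' k => e (1, a') k.1
      map_one' := by
        ext k
        have : ((1, 1) : A × A') = 1 := rfl
        rw [this, map_one]; rfl
      map_mul' := by
        intro x y
        ext k
        have : ((1, x * y) : A × A') = (1, x) * (1, y) := by ext <;> simp
        rw [this, map_mul]; rfl }
  have hγ : ∀ a' k, γ a' k = e (1, a') k.1 := fun _ _ => rfl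
  have hγinj : Function.Injective γ := by
    rw [injective_iff_map_eq_one]
    intro a' ha'
    have h1 : e (1, a') = Pi.mulSingle j (e (1, a') j) := by
      ext k
      by_cases hk : k = j
      · subst hk; simp
      · rw [Pi.mulSingle_eq_of_ne hk]
        have := congrFun ha' ⟨k, hk⟩
        rw [hγ] at this
        exact this
    have h2 : β (e (1, a') j) = 1 := by
      rw [hβ, ← h1, e.symm_apply_apply]
    have h3 : e (1, a') j = 1 := hβinj (by rw [h2, map_one])
    rw [h3, Pi.mulSingle_one] at h1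
    have h4 : ((1, a') : A × A') = 1 := e.injective (by rw [h1, map_one])
    exact congrArg Prod.snd h4
  have hcard : Nat.card (∀ k : {k // k ≠ j}, B k) ≤ Nat.card A' := by
    have c1 : Nat.card (A × A') = Nat.card (∀ j, B j) := Nat.card_congr e.toEquiv
    have c2 : Nat.card (∀ j, B j) = Nat.card (B j × ∀ k : {k // k ≠ j}, B k) :=
      Nat.card_congr (Equiv.piSplitAt j B)
    have c3 : Nat.card (B j) = Nat.card A := Nat.card_congr f0.toEquiv
    rw [Nat.card_prod] at c1 c2
    rw [c2, c3] at c1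
    have hpos : 0 < Nat.card A := Nat.card_pos
    exact (Nat.eq_of_mul_eq_mul_left hpos c1).ge
  exact ⟨MulEquiv.ofBijective γ (hγinj.bijective_of_nat_card_le hcard)⟩

end

theorem main : ∀ (N : ℕ) (ι κ : Type) [Fintype ι] [Fintype κ] [DecidableEq ι] [DecidableEq κ]
    (A : ι → Type*) (B : κ → Type*) [∀ i, Group (A i)] [∀ j, Group (B j)]
    [∀ i, Finite (A i)] [∀ j, Finite (B j)],
    Fintype.card ι = N → (∀ i, Indec (A i)) → (∀ j, Indec (B j)) →
    ((∀ i, A i) ≃* (∀ j, B j)) → ∃ σ : ι ≃ κ, ∀ i, Nonempty (A i ≃* B (σ i)) := by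
  intro N
  induction N with
  | zero =>
    intro ι κ _ _ _ _ A B _ _ _ _ hc hA hB e
    have hι : IsEmpty ι := Fintype.card_eq_zero_iff.1 hc
    have hκ : IsEmpty κ := by
      by_contra hne
      rw [not_isEmpty_iff] at hne
      obtain ⟨j⟩ := hne
      obtain ⟨x, y, hxy⟩ := (hB j).1
      apply hxy
      have h1 : e.symm (Pi.mulSingle j x) = e.symm (Pi.mulSingle j y) := Subsingleton.elim _ _
      have h2 := e.symm.injective h1
      have h3 := congrFun h2 j
      simpa using h3
    exact ⟨Equiv.equivOfIsEmpty ι κ, fun i => isEmptyElim i⟩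
  | succ N ih =>
    intro ι κ _ _ _ _ A B _ _ _ _ hc hA hB e
    have hpos : 0 < Fintype.card ι := by omega
    obtain ⟨i0⟩ := Fintype.card_pos_iff.1 hpos
    let e0 : (∀ i, A i) ≃* (A i0 × ∀ i : {i // i ≠ i0}, A i) :=
      { Equiv.piSplitAt i0 A with map_mul' := fun _ _ => rfl }
    obtain ⟨j0, ⟨f0⟩, ⟨e'⟩⟩ := ML (hA i0) hB (e0.symm.trans e)
    have hc' : Fintype.card {i // i ≠ i0} = N := by
      have h1 := Fintype.card_congr (Equiv.optionSubtypeNe i0)
      rw [Fintype.card_option] at h1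
      omega
    obtain ⟨σ', hσ'⟩ := ih {i // i ≠ i0} {k // k ≠ j0} (fun i => A i.1) (fun k => B k.1) hc'
      (fun i => hA i.1) (fun k => hB k.1) e'
    let σ : ι ≃ κ := (Equiv.optionSubtypeNe i0).symm.trans
      ((Equiv.optionCongr σ').trans (Equiv.optionSubtypeNe j0))
    refine ⟨σ, fun i => ?_⟩
    by_cases hi : i = i0
    · subst hi
      have hσ : σ i = j0 := by
        simp [σ]
      rw [hσ]; exact ⟨f0⟩
    · have hσ : σ i = (σ' ⟨i, hi⟩).1 := by
        simp [σ, Equiv.optionSubtypeNe_symm_of_ne hi]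
      rw [hσ]; exact hσ' ⟨i, hi⟩

/-- If a finite group is isomorphic both to a direct product of `m` directly indecomposable nontrivial groups and to a direct product of `n` such groups (a group is directly indecomposable when it is not the internal direct product of two nontrivial normal subgroups), then `m = n` and the factors are isomorphic in pairs after a suitable matching. -/
theorem result {m n : ℕ} {A : Fin m → Type*} {B : Fin n → Type*} [∀ i, Group (A i)] [∀ j, Group (B j)] [∀ i, Finite (A i)] [∀ j, Finite (B j)] (hA : ∀ i, Nontrivial (A i) ∧ ∀ H K : Subgroup (A i), H.Normal → K.Normal → H ⊓ K = ⊥ → H ⊔ K = ⊤ → H = ⊥ ∨ K = ⊥) (hB : ∀ j, Nontrivial (B j) ∧ ∀ H K : Subgroup (B j), H.Normal → K.Normal → H ⊓ K = ⊥ → H ⊔ K = ⊤ → H = ⊥ ∨ K = ⊥) (e : ((i : Fin m) → A i) ≃* ((j : Fin n) → B j)) : ∃ σ : Fin m ≃ Fin n, ∀ i, Nonempty (A i ≃* B (σ i)) := by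
  exact main m (Fin m) (Fin n) A B (Fintype.card_fin m) hA hB e

end Cfsg.Agent.S4223
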