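import Cfsg.Statements.S4224
import Cfsg.Agent.Lib.Helper23.Regular

set_option autoImplicit false
open Cfsg

namespace Cfsg.Agent.S4224

/-- In a regular `p`-group, for all elements `a`, `b` and every power `q = p^k`: `a^q` commutes with `b` if and only if the commutator `a⁻¹b⁻¹ab` has `q`-th power equal to `1`. -/
theorem result {G : Type*} [Group G] [Finite G] {p : ℕ} [Fact p.Prime] (hG : Cfsg.IsRegularPGroup p G) (a b : G) (k : ℕ) : a ^ p ^ k * b = b * a ^ p ^ k ↔ (a⁻¹ * b⁻¹ * a * b) ^ p ^ k = 1 := by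
  have h := Cfsg.Agent.Lib.Helper23.regular_pow_eq_iff hG a⁻¹ (b⁻¹ * a⁻¹ * b) k
  have e1 : a⁻¹ * (b⁻¹ * a⁻¹ * b)⁻¹ = a⁻¹ * b⁻¹ * a * b := by group
  rw [e1, Cfsg.Agent.Lib.Helper23.conj_pow'] at h
  rw [← h, inv_pow]
  constructor
  · intro h1
    have : b * (a ^ p ^ k)⁻¹ = (a ^ p ^ k)⁻¹ * b := by
      calc b * (a ^ p ^ k)⁻¹ = (a ^ p ^ k)⁻¹ * (a ^ p ^ k * b) * (a ^ p ^ k)⁻¹ := by group
        _ = (a ^ p ^ k)⁻¹ * (b * a ^ p ^ k) * (a ^ p ^ k)⁻¹ := by rw [h1]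
        _ = (a ^ p ^ k)⁻¹ * b := by group
    calc (a ^ p ^ k)⁻¹ = b⁻¹ * (b * (a ^ p ^ k)⁻¹) := by group
      _ = b⁻¹ * ((a ^ p ^ k)⁻¹ * b) := by rw [this]
      _ = b⁻¹ * (a ^ p ^ k)⁻¹ * b := by group
  · intro h1
    have h2 : b * (a ^ p ^ k)⁻¹ = (a ^ p ^ k)⁻¹ * b := by
      calc b * (a ^ p ^ k)⁻¹ = b * (b⁻¹ * (a ^ p ^ k)⁻¹ * b) := by rw [← h1]
        _ = (a ^ p ^ k)⁻¹ * b := by group
    calc a ^ p ^ k * b = a ^ p ^ k * (b * (a ^ p ^ k)⁻¹) * a ^ p ^ k := by group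
      _ = a ^ p ^ k * ((a ^ p ^ k)⁻¹ * b) * a ^ p ^ k := by rw [h2]
      _ = b * a ^ p ^ k := by group

end Cfsg.Agent.S4224
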