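import Cfsg.Statements.S4225
import Cfsg.Agent.Lib.Helper23.Regular

set_option autoImplicit false
open Cfsg

namespace Cfsg.Agent.S4225

/-- In a regular `p`-group, for every `k` the elements whose `p^k`-th power is `1` form a characteristic subgroup. -/
theorem result {G : Type*} [Group G] [Finite G] {p : ℕ} [Fact p.Prime] (hG : Cfsg.IsRegularPGroup p G) (k : ℕ) : ∃ H : Subgroup G, H.Characteristic ∧ (H : Set G) = {x : G | x ^ p ^ k = 1} := by
  refine ⟨{ carrier := {x : G | x ^ p ^ k = 1}
            one_mem' := one_pow _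
            mul_mem' := ?_
            inv_mem' := ?_ }, ?_, rfl⟩
  · intro a b ha hb
    have ha' : a ^ p ^ k = 1 := ha
    have hb' : b ^ p ^ k = 1 := hb
    have := (Cfsg.Agent.Lib.Helper23.regular_pow_eq_iff hG a b⁻¹ k).mp (by rw [ha', inv_pow, hb', inv_one])
    simpa using this
  · intro a ha
    have ha' : a ^ p ^ k = 1 := ha
    show a⁻¹ ^ p ^ k = 1
    rw [inv_pow, ha', inv_one]
  · rw [Subgroup.characteristic_iff_comap_eq]
    intro φ
    ext x
    show (φ x) ^ p ^ k = 1 ↔ x ^ p ^ k = 1
    rw [← map_pow]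
    exact map_eq_one_iff φ φ.injective

end Cfsg.Agent.S4225
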