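import Cfsg.Statements.S4226
-- import your own Cfsg.Agent.* helpers here
import Cfsg.Agent.Lib.Helper13.ClassP

set_option autoImplicit false
open Cfsg

namespace Cfsg.Agent.S4226

open Cfsg.Agent.Lib.Helper13

/-- Let `P` be a Sylow `p`-subgroup of the finite group `G` with nilpotency class less than `p` (the term of index `p - 1` of the lower central series of `P`, indexed from `0`, is trivial), and let `N` be its normalizer. Then `O^p(N) = O^p(G) ∩ N`, where `O^p` denotes the subgroup generated by the elements of order prime to `p`; so the largest `p`-factor groups of `G` and of `N` are isomorphic. -/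
theorem result {G : Type*} [Group G] [Finite G] {p : ℕ} [Fact p.Prime] (P : Sylow p G) (hcl : (P : Subgroup G).lowerCentralSeries (p - 1) = ⊥) : Cfsg.pResidualOf p (Subgroup.normalizer ((P : Subgroup G) : Set G)) = Cfsg.pResidual p G ⊓ Subgroup.normalizer ((P : Subgroup G) : Set G) := by
  exact (tate_commutator P _ Subgroup.le_normalizer (inf_commutator_le_of_class P hcl)).symm

end Cfsg.Agent.S4226
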