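import Cfsg.Statements.S4227
-- import your own Cfsg.Agent.* helpers here
import Mathlib
import Cfsg.Agent.Lib.Helper20.PLen
import Cfsg.Agent.Lib.Helper10.PCore
import Cfsg.Agent.Lib.Helper1.Fitting
import Cfsg.Agent.S0144

set_option autoImplicit false
open Cfsg

namespace Cfsg.Agent.S4227


set_option linter.unusedSimpArgs false
open Cfsg.Agent.Lib.Helper20

theorem e3_comm {X : Type*} [Group X] (a b : X) (h1 : (a * b⁻¹) ^ 3 = 1) (h2 : (a * b) ^ 3 = 1)
    (hb : b ^ 3 = 1) : a * (b⁻¹ * a * b) = (b⁻¹ * a * b) * a := by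
  have hbb : b * b = b⁻¹ := by
    have : b * b * b = 1 := by rw [← hb]; simp only [pow_succ, pow_zero, one_mul, mul_assoc, mul_inv_rev, inv_inv, mul_inv_cancel_left, inv_mul_cancel_left, mul_inv_cancel, inv_mul_cancel, mul_one, inv_one]
    exact eq_inv_of_mul_eq_one_left this
  have hbi : b⁻¹ * b⁻¹ = b := by rw [← mul_inv_rev, hbb, inv_inv]
  have e1 : a * (b⁻¹ * a * b) * (b * a * b⁻¹) = 1 := by
    have : a * (b⁻¹ * a * b) * ((b⁻¹ * b⁻¹) * a * (b * b)) = (a * b⁻¹) ^ 3 * b ^ 3 := by simp only [pow_succ, pow_zero, one_mul, mul_assoc, mul_inv_rev, inv_inv, mul_inv_cancel_left, inv_mul_cancel_left, mul_inv_cancel, inv_mul_cancel, mul_one, inv_one]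
    rw [hbi, hbb, h1, hb, one_mul] at this
    exact this
  have e2 : a * (b * a * b⁻¹) * (b⁻¹ * a * b) = 1 := by
    have : a * (b * a * b⁻¹) * ((b * b) * a * (b⁻¹ * b⁻¹)) = (a * b) ^ 3 * (b ^ 3)⁻¹ := by simp only [pow_succ, pow_zero, one_mul, mul_assoc, mul_inv_rev, inv_inv, mul_inv_cancel_left, inv_mul_cancel_left, mul_inv_cancel, inv_mul_cancel, mul_one, inv_one]
    rw [hbb, hbi, h2, hb, inv_one, mul_one] at this
    exact this
  have hPQ : (b⁻¹ * a * b) * (b * a * b⁻¹) = (b * a * b⁻¹) * (b⁻¹ * a * b) := by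
    have f1 : a * ((b⁻¹ * a * b) * (b * a * b⁻¹)) = 1 := by rw [← mul_assoc]; exact e1
    have f2 : a * ((b * a * b⁻¹) * (b⁻¹ * a * b)) = 1 := by rw [← mul_assoc]; exact e2
    exact mul_left_cancel (f1.trans f2.symm)
  have g1 : b * ((b⁻¹ * a * b) * (b * a * b⁻¹)) * b⁻¹ = a * ((b * b) * a * (b⁻¹ * b⁻¹)) := by simp only [pow_succ, pow_zero, one_mul, mul_assoc, mul_inv_rev, inv_inv, mul_inv_cancel_left, inv_mul_cancel_left, mul_inv_cancel, inv_mul_cancel, mul_one, inv_one]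
  have g2 : b * ((b * a * b⁻¹) * (b⁻¹ * a * b)) * b⁻¹ = ((b * b) * a * (b⁻¹ * b⁻¹)) * a := by simp only [pow_succ, pow_zero, one_mul, mul_assoc, mul_inv_rev, inv_inv, mul_inv_cancel_left, inv_mul_cancel_left, mul_inv_cancel, inv_mul_cancel, mul_one, inv_one]
  rw [hbb, hbi] at g1 g2
  rw [← g1, ← g2, hPQ]

theorem word_lemma {X : Type*} [Group X] (r r1 r2 : X) (H1 : r1 = r * r2) (H2 : r2 = r1 * r)
    (H0 : r = r2 * r1) (K1 : r1 ^ 3 = 1) (K2 : r2 ^ 3 = 1) : r1 = r2 := by
  have A : r1 = r2 * r1 * r2 := by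
    calc r1 = r * r2 := H1
      _ = r2 * r1 * r2 := by rw [← H0]
  have B : r2 = r1 * r2 * r1 := by
    calc r2 = r1 * r := H2
      _ = r1 * (r2 * r1) := by rw [← H0]
      _ = r1 * r2 * r1 := by simp only [pow_succ, pow_zero, one_mul, mul_assoc, mul_inv_rev, inv_inv, mul_inv_cancel_left, inv_mul_cancel_left, mul_inv_cancel, inv_mul_cancel, mul_one, inv_one]
  have C : r1 = r1 * (r2 * r2 * r1) := by
    calc r1 = r2 * r1 * r2 := A
      _ = (r1 * r2 * r1) * r1 * (r1 * r2 * r1) := by rw [← B]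
      _ = r1 * r2 * r1 ^ 3 * r2 * r1 := by simp only [pow_succ, pow_zero, one_mul, mul_assoc, mul_inv_rev, inv_inv, mul_inv_cancel_left, inv_mul_cancel_left, mul_inv_cancel, inv_mul_cancel, mul_one, inv_one]
      _ = r1 * (r2 * r2 * r1) := by rw [K1]; simp only [pow_succ, pow_zero, one_mul, mul_assoc, mul_inv_rev, inv_inv, mul_inv_cancel_left, inv_mul_cancel_left, mul_inv_cancel, inv_mul_cancel, mul_one, inv_one]
  have D : r2 * r2 * r1 = 1 := mul_left_cancel (a := r1) (by rw [mul_one]; exact C.symm)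
  have E : r2 * r2 * r2 = 1 := by rw [← K2]; simp only [pow_succ, pow_zero, one_mul, mul_assoc, mul_inv_rev, inv_inv, mul_inv_cancel_left, inv_mul_cancel_left, mul_inv_cancel, inv_mul_cancel, mul_one, inv_one]
  exact mul_left_cancel (a := r2 * r2) (D.trans E.symm)

theorem pattern_false {X : Type*} [Group X] (x t0 t1 t2 r : X)
    (h01 : MulAut.conj x t0 = t1) (h12 : MulAut.conj x t1 = t2) (h20 : MulAut.conj x t2 = t0)
    (hE : r * MulAut.conj x r * MulAut.conj x (MulAut.conj x r) = 1) (hr3 : r ^ 3 = 1)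
    (c0 : MulAut.conj t0 r = r) (c1 : MulAut.conj t1 r = r⁻¹) (c2 : MulAut.conj t2 r = r⁻¹) :
    r = 1 := by
  have cc : ∀ t g : X, MulAut.conj (MulAut.conj x t) (MulAut.conj x g) =
      MulAut.conj x (MulAut.conj t g) := by
    intro t g
    simp only [MulAut.conj_apply]
    simp only [pow_succ, pow_zero, one_mul, mul_assoc, mul_inv_rev, inv_inv, mul_inv_cancel_left, inv_mul_cancel_left, mul_inv_cancel, inv_mul_cancel, mul_one, inv_one]
  set r1 := MulAut.conj x r with hr1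
  set r2 := MulAut.conj x r1 with hr2
  have a11 : MulAut.conj t1 r1 = r1 := by rw [← h01, hr1, cc, c0]
  have a21 : MulAut.conj t2 r1 = r1⁻¹ := by rw [← h12, hr1, cc, c1, map_inv]
  have a01 : MulAut.conj t0 r1 = r1⁻¹ := by rw [← h20, hr1, cc, c2, map_inv]
  have a22 : MulAut.conj t2 r2 = r2 := by rw [← h12, hr2, cc, a11]
  have a02 : MulAut.conj t0 r2 = r2⁻¹ := by rw [← h20, hr2, cc, a21, map_inv]
  have a12 : MulAut.conj t1 r2 = r2⁻¹ := by rw [← h01, hr2, cc, a01, map_inv]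
  have E0 := congrArg (MulAut.conj t0) hE
  have E1 := congrArg (MulAut.conj t1) hE
  have E2 := congrArg (MulAut.conj t2) hE
  rw [map_mul, map_mul, map_one, c0, a01, a02] at E0
  rw [map_mul, map_mul, map_one, c1, a11, a12] at E1
  rw [map_mul, map_mul, map_one, c2, a21, a22] at E2
  have H0 : r = r2 * r1 := by
    calc r = (r * r1⁻¹ * r2⁻¹) * (r2 * r1) := by simp only [pow_succ, pow_zero, one_mul, mul_assoc, mul_inv_rev, inv_inv, mul_inv_cancel_left, inv_mul_cancel_left, mul_inv_cancel, inv_mul_cancel, mul_one, inv_one]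
      _ = r2 * r1 := by rw [E0, one_mul]
  have H1 : r1 = r * r2 := by
    calc r1 = r * (r⁻¹ * r1 * r2⁻¹) * r2 := by simp only [pow_succ, pow_zero, one_mul, mul_assoc, mul_inv_rev, inv_inv, mul_inv_cancel_left, inv_mul_cancel_left, mul_inv_cancel, inv_mul_cancel, mul_one, inv_one]
      _ = r * r2 := by rw [E1, mul_one]
  have H2 : r2 = r1 * r := by
    calc r2 = r1 * r * (r⁻¹ * r1⁻¹ * r2) := by simp only [pow_succ, pow_zero, one_mul, mul_assoc, mul_inv_rev, inv_inv, mul_inv_cancel_left, inv_mul_cancel_left, mul_inv_cancel, inv_mul_cancel, mul_one, inv_one]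
      _ = r1 * r := by rw [E2, mul_one]
  have K1 : r1 ^ 3 = 1 := by rw [hr1, ← map_pow, hr3, map_one]
  have K2 : r2 ^ 3 = 1 := by rw [hr2, ← map_pow, K1, map_one]
  have h12' : r1 = r2 := word_lemma r r1 r2 H1 H2 H0 K1 K2
  have h3 : r1 = r1⁻¹ := by
    calc r1 = MulAut.conj t1 r1 := a11.symm
      _ = MulAut.conj t1 r2 := by rw [← h12']
      _ = r2⁻¹ := a12
      _ = r1⁻¹ := by rw [← h12']
  have h4 : r1 * r1 = 1 := by
    calc r1 * r1 = r1 * r1⁻¹ := by rw [← h3]
      _ = 1 := mul_inv_cancel r1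
  have h5 : r1 = 1 := by
    calc r1 = r1 ^ 3 * (r1 * r1)⁻¹ := by simp only [pow_succ, pow_zero, one_mul, mul_assoc, mul_inv_rev, inv_inv, mul_inv_cancel_left, inv_mul_cancel_left, mul_inv_cancel, inv_mul_cancel, mul_one, inv_one]
      _ = 1 := by rw [K1, h4]; simp
  exact (MulAut.conj x).injective (by rw [map_one]; exact h5)

theorem comm2 {X : Type*} [Group X] (s t : X) (hs : s ^ 2 = 1) (ht : t ^ 2 = 1)
    (hst : (s * t) ^ 2 = 1) : s * t = t * s := by
  have hs' : s⁻¹ = s := inv_eq_of_mul_eq_one_left (by rw [← pow_two]; exact hs)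
  have ht' : t⁻¹ = t := inv_eq_of_mul_eq_one_left (by rw [← pow_two]; exact ht)
  have hst' : (s * t)⁻¹ = s * t := inv_eq_of_mul_eq_one_left (by rw [← pow_two]; exact hst)
  calc s * t = (s * t)⁻¹ := hst'.symm
    _ = t⁻¹ * s⁻¹ := mul_inv_rev _ _
    _ = t * s := by rw [hs', ht']

theorem norm_cent {X : Type*} [Group X] (h6 : ∀ g : X, g ^ 6 = 1) (R S : Subgroup X) [R.Normal]
    (hR3 : ∀ r ∈ R, r ^ 3 = 1) (hCR : Subgroup.centralizer (R : Set X) ≤ R)
    (hS2 : ∀ s ∈ S, s ^ 2 = 1) (x : X) (hx3 : x ^ 3 = 1)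
    (hxS : ∀ s ∈ S, MulAut.conj x s ∈ S) : ∀ a ∈ S, MulAut.conj x a = a := by
  intro a ha
  by_contra hne
  have hScomm : ∀ s ∈ S, ∀ t ∈ S, s * t = t * s := fun s hs t ht =>
    comm2 s t (hS2 s hs) (hS2 t ht) (hS2 _ (S.mul_mem hs ht))
  have hSinv : ∀ s ∈ S, s⁻¹ = s := by
    intro s hs
    have := hS2 s hs
    rw [pow_two] at this
    exact inv_eq_of_mul_eq_one_left this
  set a1 := MulAut.conj x a with ha1
  set a2 := MulAut.conj x a1 with ha2
  clear_value a2 a1
  have ha1S : a1 ∈ S := ha1 ▸ hxS a ha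
  have ha2S : a2 ∈ S := ha2 ▸ hxS a1 ha1S
  have ha3 : MulAut.conj x a2 = a := by
    rw [ha2, ha1]
    simp only [MulAut.conj_apply]
    calc x * (x * (x * a * x⁻¹) * x⁻¹) * x⁻¹ = x ^ 3 * a * (x ^ 3)⁻¹ := by simp only [pow_succ, pow_zero, one_mul, mul_assoc, mul_inv_rev, inv_inv, mul_inv_cancel_left, inv_mul_cancel_left, mul_inv_cancel, inv_mul_cancel, mul_one, inv_one]
      _ = a := by rw [hx3]; simp
  set u := a * a1 with hu
  set v := a1 * a2 with hv
  set w := a2 * a with hw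
  clear_value u v w
  have huS : u ∈ S := hu ▸ S.mul_mem ha ha1S
  have hvS : v ∈ S := hv ▸ S.mul_mem ha1S ha2S
  have hxu : MulAut.conj x u = v := by rw [hu, map_mul, ← ha1, ← ha2, hv]
  have hxv : MulAut.conj x v = w := by rw [hv, map_mul, ha3, ← ha2, hw]
  have hxw : MulAut.conj x w = u := by rw [hw, map_mul, ha3, ← ha1, hu]
  have hwuv : w = u * v := by
    rw [hu, hv, hw]
    have h1 : a1 * a1 = 1 := by rw [← pow_two]; exact hS2 a1 ha1S
    calc a2 * a = a * a2 := hScomm a2 ha2S a ha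
      _ = a * (a1 * a1) * a2 := by rw [h1, mul_one]
      _ = a * a1 * (a1 * a2) := by simp only [pow_succ, pow_zero, one_mul, mul_assoc, mul_inv_rev, inv_inv, mul_inv_cancel_left, inv_mul_cancel_left, mul_inv_cancel, inv_mul_cancel, mul_one, inv_one]
  have hu1 : u ≠ 1 := by
    intro h
    apply hne
    rw [hu] at h
    have : a1 = a⁻¹ := eq_inv_of_mul_eq_one_right h
    rw [this, hSinv a ha]
  have huR : u ∉ R := by
    intro h
    apply hu1
    calc u = u ^ 3 * (u ^ 2)⁻¹ := by simp only [pow_succ, pow_zero, one_mul, mul_assoc, mul_inv_rev, inv_inv, mul_inv_cancel_left, inv_mul_cancel_left, mul_inv_cancel, inv_mul_cancel, mul_one, inv_one]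
      _ = 1 := by rw [hR3 u h, hS2 u huS]; simp
  have huC : u ∉ Subgroup.centralizer (R : Set X) := fun h => huR (hCR h)
  rw [Subgroup.mem_centralizer_iff] at huC
  push Not at huC
  obtain ⟨s, hsR, hsu⟩ := huC
  have hsR' : s ∈ R := hsR
  have hconjR : ∀ t : X, ∀ r ∈ R, MulAut.conj t r ∈ R := by
    intro t r hr
    rw [MulAut.conj_apply]
    exact ‹R.Normal›.conj_mem r hr t
  have hinvol : ∀ t ∈ S, ∀ g : X, MulAut.conj t (MulAut.conj t g) = g := by
    intro t ht g
    simp only [MulAut.conj_apply]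
    have h2 : t * t = 1 := by rw [← pow_two]; exact hS2 t ht
    calc t * (t * g * t⁻¹) * t⁻¹ = (t * t) * g * (t * t)⁻¹ := by simp only [pow_succ, pow_zero, one_mul, mul_assoc, mul_inv_rev, inv_inv, mul_inv_cancel_left, inv_mul_cancel_left, mul_inv_cancel, inv_mul_cancel, mul_one, inv_one]
      _ = g := by rw [h2]; simp
  set y := s⁻¹ * MulAut.conj u s with hy
  clear_value y
  have hyR : y ∈ R := hy ▸ R.mul_mem (R.inv_mem hsR') (hconjR u s hsR')
  have hy1 : y ≠ 1 := by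
    intro h
    apply hsu
    have h1 : MulAut.conj u s = s := by
      rw [hy] at h
      have := eq_inv_of_mul_eq_one_right h
      rwa [inv_inv] at this
    rw [MulAut.conj_apply] at h1
    calc s * u = (u * s * u⁻¹) * u := by rw [h1]
      _ = u * s := by simp only [pow_succ, pow_zero, one_mul, mul_assoc, mul_inv_rev, inv_inv, mul_inv_cancel_left, inv_mul_cancel_left, mul_inv_cancel, inv_mul_cancel, mul_one, inv_one]
  have huy : MulAut.conj u y = y⁻¹ := by
    rw [hy, map_mul, map_inv, hinvol u huS]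
    simp only [pow_succ, pow_zero, one_mul, mul_assoc, mul_inv_rev, inv_inv, mul_inv_cancel_left, inv_mul_cancel_left, mul_inv_cancel, inv_mul_cancel, mul_one, inv_one]
  set y' := MulAut.conj v y with hy'
  clear_value y'
  have hy'R : y' ∈ R := hy' ▸ hconjR v y hyR
  have hvy' : MulAut.conj v y' = y := by rw [hy']; exact hinvol v hvS y
  have huv : ∀ g : X, MulAut.conj u (MulAut.conj v g) = MulAut.conj v (MulAut.conj u g) := by
    intro g
    rw [← MulAut.mul_apply, ← MulAut.mul_apply, ← map_mul, ← map_mul, hScomm u huS v hvS]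
  have huy' : MulAut.conj u y' = y'⁻¹ := by rw [hy', huv, huy, map_inv]
  have hwc : ∀ g : X, MulAut.conj w g = MulAut.conj u (MulAut.conj v g) := by
    intro g
    rw [hwuv, map_mul, MulAut.mul_apply]
  have hE : ∀ r ∈ R, r * MulAut.conj x r * MulAut.conj x (MulAut.conj x r) = 1 := by
    intro r hr
    have hm : r * MulAut.conj x r * MulAut.conj x (MulAut.conj x r) = (r * x) ^ 3 := by
      simp only [MulAut.conj_apply]
      calc r * (x * r * x⁻¹) * (x * (x * r * x⁻¹) * x⁻¹) = (r * x) ^ 3 * (x ^ 3)⁻¹ := by simp only [pow_succ, pow_zero, one_mul, mul_assoc, mul_inv_rev, inv_inv, mul_inv_cancel_left, inv_mul_cancel_left, mul_inv_cancel, inv_mul_cancel, mul_one, inv_one]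
        _ = (r * x) ^ 3 := by rw [hx3]; simp
    have hmR : (r * x) ^ 3 ∈ R := by
      rw [← hm]
      exact R.mul_mem (R.mul_mem hr (hconjR x r hr)) (hconjR x _ (hconjR x r hr))
    rw [hm]
    have h3 := hR3 _ hmR
    have h2 : ((r * x) ^ 3) ^ 2 = 1 := by rw [← pow_mul]; exact h6 _
    calc (r * x) ^ 3 = ((r * x) ^ 3) ^ 3 * (((r * x) ^ 3) ^ 2)⁻¹ := by simp only [pow_succ, pow_zero, one_mul, mul_assoc, mul_inv_rev, inv_inv, mul_inv_cancel_left, inv_mul_cancel_left, mul_inv_cancel, inv_mul_cancel, mul_one, inv_one]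
      _ = 1 := by rw [h3, h2]; simp
  by_cases hA : y' = y
  · -- pattern (v; w, u)
    apply hy1
    apply pattern_false x v w u y hxv hxw hxu (hE y hyR) (hR3 y hyR)
    · rw [← hy']; exact hA
    · rw [hwc, ← hy', hA, huy]
    · exact huy
  by_cases hB : y * y' = y' * y
  · -- pattern (w; u, v) with r = y * y'⁻¹
    have hr1 : y * y'⁻¹ ≠ 1 := by
      intro h
      apply hA
      exact (mul_inv_eq_one.1 h).symm
    apply hr1
    have hB' : y'⁻¹ * y = y * y'⁻¹ := by
      calc y'⁻¹ * y = y'⁻¹ * (y * y') * y'⁻¹ := by simp only [pow_succ, pow_zero, one_mul, mul_assoc, mul_inv_rev, inv_inv, mul_inv_cancel_left, inv_mul_cancel_left, mul_inv_cancel, inv_mul_cancel, mul_one, inv_one]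
        _ = y'⁻¹ * (y' * y) * y'⁻¹ := by rw [hB]
        _ = y * y'⁻¹ := by simp only [pow_succ, pow_zero, one_mul, mul_assoc, mul_inv_rev, inv_inv, mul_inv_cancel_left, inv_mul_cancel_left, mul_inv_cancel, inv_mul_cancel, mul_one, inv_one]
    apply pattern_false x w u v (y * y'⁻¹) hxw hxu hxv (hE _ (R.mul_mem hyR (R.inv_mem hy'R)))
      (hR3 _ (R.mul_mem hyR (R.inv_mem hy'R)))
    · rw [hwc, map_mul, map_inv, hvy', ← hy', map_mul, map_inv, huy', huy, inv_inv, hB']
    · rw [map_mul, map_inv, huy, huy', inv_inv, mul_inv_rev, inv_inv]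
      calc y⁻¹ * y' = y⁻¹ * (y' * y) * y⁻¹ := by simp only [pow_succ, pow_zero, one_mul, mul_assoc, mul_inv_rev, inv_inv, mul_inv_cancel_left, inv_mul_cancel_left, mul_inv_cancel, inv_mul_cancel, mul_one, inv_one]
        _ = y⁻¹ * (y * y') * y⁻¹ := by rw [hB]
        _ = y' * y⁻¹ := by simp only [pow_succ, pow_zero, one_mul, mul_assoc, mul_inv_rev, inv_inv, mul_inv_cancel_left, inv_mul_cancel_left, mul_inv_cancel, inv_mul_cancel, mul_one, inv_one]
    · rw [map_mul, map_inv, hvy', ← hy', mul_inv_rev, inv_inv]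
  · -- pattern (u; v, w) with r = [y, y']
    set c := y⁻¹ * y'⁻¹ * y * y' with hc
    clear_value c
    have hcR : c ∈ R := hc ▸
      R.mul_mem (R.mul_mem (R.mul_mem (R.inv_mem hyR) (R.inv_mem hy'R)) hyR) hy'R
    have hc1 : c ≠ 1 := by
      intro h
      apply hB
      calc y * y' = y' * y * (y⁻¹ * y'⁻¹ * y * y') := by simp only [pow_succ, pow_zero, one_mul, mul_assoc, mul_inv_rev, inv_inv, mul_inv_cancel_left, inv_mul_cancel_left, mul_inv_cancel, inv_mul_cancel, mul_one, inv_one]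
        _ = y' * y := by rw [← hc, h, mul_one]
    apply hc1
    have k1 : y * (y'⁻¹ * y * y') = (y'⁻¹ * y * y') * y :=
      e3_comm y y' (hR3 _ (R.mul_mem hyR (R.inv_mem hy'R))) (hR3 _ (R.mul_mem hyR hy'R))
        (hR3 _ hy'R)
    have k2 : y' * (y⁻¹ * y' * y) = (y⁻¹ * y' * y) * y' :=
      e3_comm y' y (hR3 _ (R.mul_mem hy'R (R.inv_mem hyR))) (hR3 _ (R.mul_mem hy'R hyR))
        (hR3 _ hyR)
    have hcy : c * y = y * c := by
      rw [hc]
      calc y⁻¹ * y'⁻¹ * y * y' * y = y⁻¹ * ((y'⁻¹ * y * y') * y) := by simp only [pow_succ, pow_zero, one_mul, mul_assoc, mul_inv_rev, inv_inv, mul_inv_cancel_left, inv_mul_cancel_left, mul_inv_cancel, inv_mul_cancel, mul_one, inv_one]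
        _ = y⁻¹ * (y * (y'⁻¹ * y * y')) := by rw [k1]
        _ = y * (y⁻¹ * y'⁻¹ * y * y') := by simp only [pow_succ, pow_zero, one_mul, mul_assoc, mul_inv_rev, inv_inv, mul_inv_cancel_left, inv_mul_cancel_left, mul_inv_cancel, inv_mul_cancel, mul_one, inv_one]
    have hcy' : c * y' = y' * c := by
      rw [hc]
      have k3 : y' * (y⁻¹ * y' * y)⁻¹ = (y⁻¹ * y' * y)⁻¹ * y' := by
        calc y' * (y⁻¹ * y' * y)⁻¹
            = (y⁻¹ * y' * y)⁻¹ * ((y⁻¹ * y' * y) * y') * (y⁻¹ * y' * y)⁻¹ := by simp only [pow_succ, pow_zero, one_mul, mul_assoc, mul_inv_rev, inv_inv, mul_inv_cancel_left, inv_mul_cancel_left, mul_inv_cancel, inv_mul_cancel, mul_one, inv_one]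
          _ = (y⁻¹ * y' * y)⁻¹ * (y' * (y⁻¹ * y' * y)) * (y⁻¹ * y' * y)⁻¹ := by rw [k2]
          _ = (y⁻¹ * y' * y)⁻¹ * y' := by simp only [pow_succ, pow_zero, one_mul, mul_assoc, mul_inv_rev, inv_inv, mul_inv_cancel_left, inv_mul_cancel_left, mul_inv_cancel, inv_mul_cancel, mul_one, inv_one]
      calc y⁻¹ * y'⁻¹ * y * y' * y' = ((y⁻¹ * y' * y)⁻¹ * y') * y' := by simp only [pow_succ, pow_zero, one_mul, mul_assoc, mul_inv_rev, inv_inv, mul_inv_cancel_left, inv_mul_cancel_left, mul_inv_cancel, inv_mul_cancel, mul_one, inv_one]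
        _ = (y' * (y⁻¹ * y' * y)⁻¹) * y' := by rw [k3]
        _ = y' * (y⁻¹ * y'⁻¹ * y * y') := by simp only [pow_succ, pow_zero, one_mul, mul_assoc, mul_inv_rev, inv_inv, mul_inv_cancel_left, inv_mul_cancel_left, mul_inv_cancel, inv_mul_cancel, mul_one, inv_one]
    have huc : MulAut.conj u c = c := by
      rw [hc, map_mul, map_mul, map_mul, map_inv, map_inv, huy, huy', inv_inv, inv_inv, ← hc]
      calc y * y' * y⁻¹ * y'⁻¹ = y' * y * (y⁻¹ * y'⁻¹ * y * y') * y⁻¹ * y'⁻¹ := by simp only [pow_succ, pow_zero, one_mul, mul_assoc, mul_inv_rev, inv_inv, mul_inv_cancel_left, inv_mul_cancel_left, mul_inv_cancel, inv_mul_cancel, mul_one, inv_one]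
        _ = y' * (y * c) * y⁻¹ * y'⁻¹ := by rw [← hc]; simp only [pow_succ, pow_zero, one_mul, mul_assoc, mul_inv_rev, inv_inv, mul_inv_cancel_left, inv_mul_cancel_left, mul_inv_cancel, inv_mul_cancel, mul_one, inv_one]
        _ = y' * (c * y) * y⁻¹ * y'⁻¹ := by rw [hcy]
        _ = (y' * c) * y'⁻¹ := by simp only [pow_succ, pow_zero, one_mul, mul_assoc, mul_inv_rev, inv_inv, mul_inv_cancel_left, inv_mul_cancel_left, mul_inv_cancel, inv_mul_cancel, mul_one, inv_one]
        _ = (c * y') * y'⁻¹ := by rw [hcy']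
        _ = c := by simp only [pow_succ, pow_zero, one_mul, mul_assoc, mul_inv_rev, inv_inv, mul_inv_cancel_left, inv_mul_cancel_left, mul_inv_cancel, inv_mul_cancel, mul_one, inv_one]
    have hvc : MulAut.conj v c = c⁻¹ := by
      rw [hc, map_mul, map_mul, map_mul, map_inv, map_inv, hvy', ← hy']
      simp only [pow_succ, pow_zero, one_mul, mul_assoc, mul_inv_rev, inv_inv, mul_inv_cancel_left, inv_mul_cancel_left, mul_inv_cancel, inv_mul_cancel, mul_one, inv_one]
    apply pattern_false x u v w c hxu hxv hxw (hE c hcR) (hR3 c hcR) huc hvc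
    rw [hwc, hvc, map_inv, huc]

theorem card26 {G : Type*} [Group G] [Finite G] (h : ∀ x : G, x ^ 6 = 1) :
    ∃ a b, Nat.card G = 2 ^ a * 3 ^ b := by
  have hn : Nat.card G ≠ 0 := Nat.card_pos.ne'
  have hpr : ∀ p : ℕ, p.Prime → p ∣ Nat.card G → p = 2 ∨ p = 3 := by
    intro p hp hd
    haveI := Fact.mk hp
    obtain ⟨x, hx⟩ := exists_prime_orderOf_dvd_card' p hd
    have h1 : p ∣ 2 * 3 := by
      rw [← hx]
      exact orderOf_dvd_of_pow_eq_one (h x)
    rcases (Nat.Prime.dvd_mul hp).1 h1 with h2 | h2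
    · exact Or.inl ((Nat.prime_dvd_prime_iff_eq hp Nat.prime_two).1 h2)
    · exact Or.inr ((Nat.prime_dvd_prime_iff_eq hp Nat.prime_three).1 h2)
  have hm0 : Nat.card G / 2 ^ (Nat.card G).factorization 2 ≠ 0 :=
    (Nat.ordCompl_pos 2 hn).ne'
  have hm : Nat.card G / 2 ^ (Nat.card G).factorization 2 = 3 ^ _ :=
    Nat.eq_prime_pow_of_unique_prime_dvd hm0 (fun {d} hd hdm => by
      rcases hpr d hd (hdm.trans (Nat.ordCompl_dvd _ 2)) with h2 | h3
      · exfalso
        rw [h2] at hdm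
        exact Nat.not_dvd_ordCompl Nat.prime_two hn hdm
      · exact h3)
  refine ⟨(Nat.card G).factorization 2,
    (Nat.card G / 2 ^ (Nat.card G).factorization 2).primeFactorsList.length, ?_⟩
  rw [← hm]
  exact (Nat.ordProj_mul_ordCompl_eq_self (Nat.card G) 2).symm

theorem plen_one_of_normal {X : Type*} [Group X] [Finite X] {p : ℕ} [Fact p.Prime]
    (K : Subgroup X) [K.Normal] (hK : IsPGroup p K) (hidx : K.index.Coprime p) :
    Cfsg.PLengthLE p 1 X := by
  have h1 : Reach p 1 (⊥ : Subgroup X) := Reach.zero.succ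
  have h2 : Reach p 2 K := by
    refine Reach.step h1 bot_le inferInstance ⟨fun he => absurd he (by decide), fun _ => ?_⟩
    rw [Subgroup.relIndex_bot_left]
    exact IsPGroup.iff_card.1 hK
  have h3 : Reach p 3 (⊤ : Subgroup X) := by
    refine Reach.step h2 le_top inferInstance ⟨fun _ => ?_, fun h => absurd (by decide) h⟩
    rw [Subgroup.relIndex_top_right]
    exact hidx
  exact top_le_iff.mp h3.le_ups

theorem plen_of_quot {G : Type*} [Group G] [Finite G] {p : ℕ} [Fact p.Prime]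
    (hq : Cfsg.PLengthLE p 1 (G ⧸ Cfsg.pPrimeCore p G)) : Cfsg.PLengthLE p 1 G := by
  have h0 : Cfsg.PLengthLE p 0 ↥(Cfsg.pPrimeCore p G) :=
    plen_zero_of_coprime (Cfsg.Agent.Lib.Helper1.pPrimeCore_coprime p)
  have := plen_add (Cfsg.pPrimeCore p G) h0 hq
  simpa using this

theorem pow_of_dvd {X : Type*} [Group X] {p q k : ℕ} (hpq : Nat.Coprime p q) (s : X)
    (h6 : s ^ (p * q) = 1) (hk : s ^ (p ^ k) = 1) : s ^ p = 1 := by
  have h1 : orderOf s ∣ p * q := orderOf_dvd_of_pow_eq_one h6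
  have h2 : orderOf s ∣ p ^ k := orderOf_dvd_of_pow_eq_one hk
  have h3 : Nat.Coprime (orderOf s) q :=
    Nat.Coprime.coprime_dvd_left h2 (Nat.Coprime.pow_left k hpq)
  exact orderOf_dvd_iff_pow_eq_one.1 (Nat.Coprime.dvd_of_dvd_mul_right h3 h1)

theorem case_two {X : Type*} [Group X] [Finite X] [Group.IsSolvable X] (h : ∀ x : X, x ^ 6 = 1)
    (hO : Cfsg.pPrimeCore 2 X = ⊥) : Cfsg.PLengthLE 2 1 X := by
  haveI : Fact (Nat.Prime 2) := ⟨Nat.prime_two⟩
  haveI := Cfsg.Agent.Lib.Helper1.pCore_normal (G := X) 2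
  have hC := Cfsg.Agent.Lib.Helper1.centralizer_pCore_le (G := X) 2 hO
  let P : Sylow 2 X := default
  have hQP : Cfsg.pCore 2 X ≤ (P : Subgroup X) := by
    rw [Cfsg.Agent.Lib.Helper1.pCore_eq_iInf_sylow]
    exact iInf_le _ P
  have hP2 : ∀ s ∈ (P : Subgroup X), s ^ 2 = 1 := by
    intro s hs
    obtain ⟨k, hk⟩ := P.2 ⟨s, hs⟩
    have hk' : s ^ (2 ^ k) = 1 := by
      have := congrArg Subtype.val hk
      simpa using this
    exact pow_of_dvd (p := 2) (q := 3) (by decide) s (h s) hk'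
  have hPQ : (P : Subgroup X) ≤ Cfsg.pCore 2 X := by
    intro s hs
    apply hC
    rw [Subgroup.mem_centralizer_iff]
    intro t ht
    exact comm2 t s (hP2 t (hQP ht)) (hP2 s hs) (hP2 _ (Subgroup.mul_mem _ (hQP ht) hs))
  have heq : Cfsg.pCore 2 X = (P : Subgroup X) := le_antisymm hQP hPQ
  apply plen_one_of_normal (Cfsg.pCore 2 X) (Cfsg.Agent.Lib.Helper1.pCore_isPGroup 2)
  rw [heq]
  exact ((Nat.Prime.coprime_iff_not_dvd Nat.prime_two).2 P.not_dvd_index).symm

theorem case_three {X : Type*} [Group X] [Finite X] [Group.IsSolvable X] (h : ∀ x : X, x ^ 6 = 1)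
    (hO : Cfsg.pPrimeCore 3 X = ⊥) : Cfsg.PLengthLE 3 1 X := by
  classical
  haveI : Fact (Nat.Prime 2) := ⟨Nat.prime_two⟩
  haveI : Fact (Nat.Prime 3) := ⟨Nat.prime_three⟩
  haveI := Cfsg.Agent.Lib.Helper1.pCore_normal (G := X) 3
  have hC := Cfsg.Agent.Lib.Helper1.centralizer_pCore_le (G := X) 3 hO
  have hR3 : ∀ r ∈ Cfsg.pCore 3 X, r ^ 3 = 1 := by
    intro r hr
    obtain ⟨k, hk⟩ := (Cfsg.Agent.Lib.Helper1.pCore_isPGroup (G := X) 3) ⟨r, hr⟩
    have hk' : r ^ (3 ^ k) = 1 := by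
      have := congrArg Subtype.val hk
      simpa using this
    exact pow_of_dvd (p := 3) (q := 2) (by decide) r (h r) hk'
  let S : Sylow 2 X := default
  have hS2 : ∀ s ∈ (S : Subgroup X), s ^ 2 = 1 := by
    intro s hs
    obtain ⟨k, hk⟩ := S.2 ⟨s, hs⟩
    have hk' : s ^ (2 ^ k) = 1 := by
      have := congrArg Subtype.val hk
      simpa using this
    exact pow_of_dvd (p := 2) (q := 3) (by decide) s (h s) hk'
  have hNC : Subgroup.normalizer ((S : Subgroup X) : Set X) ≤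
      Subgroup.centralizer ((S : Subgroup X) : Set X) := by
    intro g hg
    have hg3 : g ^ 3 ∈ Subgroup.normalizer ((S : Subgroup X) : Set X) := Subgroup.pow_mem _ hg 3
    have hg4 : g ^ 4 ∈ Subgroup.normalizer ((S : Subgroup X) : Set X) := Subgroup.pow_mem _ hg 4
    have ht2 : (g ^ 3) ^ 2 = 1 := by rw [← pow_mul]; exact h g
    have hx3 : (g ^ 4) ^ 3 = 1 := by
      rw [← pow_mul]
      calc g ^ (4 * 3) = (g ^ 6) ^ 2 := by rw [← pow_mul]
        _ = 1 := by rw [h g, one_pow]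
    have htS : g ^ 3 ∈ (S : Subgroup X) := by
      have hz : IsPGroup 2 (Subgroup.zpowers (g ^ 3)) := by
        apply IsPGroup.of_card (n := (if g ^ 3 = 1 then 0 else 1))
        rw [Nat.card_zpowers]
        split_ifs with h1
        · rw [h1, orderOf_one, pow_zero]
        · rw [pow_one]; exact orderOf_eq_prime ht2 h1
      have := hz.inf_normalizer_sylow S
      exact (this.le (show g ^ 3 ∈ _ from ⟨Subgroup.mem_zpowers _, hg3⟩)).2
    have hxS : ∀ s ∈ (S : Subgroup X), MulAut.conj (g ^ 4) s ∈ (S : Subgroup X) := by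
      intro s hs
      rw [MulAut.conj_apply]
      exact (Subgroup.mem_normalizer_iff.1 hg4 s).1 hs
    have hcent := norm_cent h (Cfsg.pCore 3 X) (S : Subgroup X) hR3 hC hS2 (g ^ 4) hx3 hxS
    rw [Subgroup.mem_centralizer_iff]
    intro s hs
    have hs' : s ∈ (S : Subgroup X) := hs
    have e1 : s * g ^ 3 = g ^ 3 * s :=
      comm2 s (g ^ 3) (hS2 s hs') (hS2 _ htS) (hS2 _ (Subgroup.mul_mem _ hs' htS))
    have e2 : g ^ 4 * s = s * g ^ 4 := by
      have := hcent s hs'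
      rw [MulAut.conj_apply] at this
      calc g ^ 4 * s = (g ^ 4 * s * (g ^ 4)⁻¹) * g ^ 4 := by simp only [pow_succ, pow_zero, one_mul, mul_assoc, mul_inv_rev, inv_inv, mul_inv_cancel_left, inv_mul_cancel_left, mul_inv_cancel, inv_mul_cancel, mul_one, inv_one]
        _ = s * g ^ 4 := by rw [this]
    have e3 : g = g ^ 3 * g ^ 4 := by
      calc g = g ^ 6 * g := by rw [h g, one_mul]
        _ = g ^ 3 * g ^ 4 := by simp only [pow_succ, pow_zero, one_mul, mul_assoc, mul_inv_rev, inv_inv, mul_inv_cancel_left, inv_mul_cancel_left, mul_inv_cancel, inv_mul_cancel, mul_one, inv_one]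
    calc s * g = s * (g ^ 3 * g ^ 4) := by rw [← e3]
      _ = (s * g ^ 3) * g ^ 4 := by simp only [pow_succ, pow_zero, one_mul, mul_assoc, mul_inv_rev, inv_inv, mul_inv_cancel_left, inv_mul_cancel_left, mul_inv_cancel, inv_mul_cancel, mul_one, inv_one]
      _ = g ^ 3 * (s * g ^ 4) := by rw [e1]; simp only [pow_succ, pow_zero, one_mul, mul_assoc, mul_inv_rev, inv_inv, mul_inv_cancel_left, inv_mul_cancel_left, mul_inv_cancel, inv_mul_cancel, mul_one, inv_one]
      _ = g ^ 3 * (g ^ 4 * s) := by rw [e2]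
      _ = (g ^ 3 * g ^ 4) * s := by simp only [pow_succ, pow_zero, one_mul, mul_assoc, mul_inv_rev, inv_inv, mul_inv_cancel_left, inv_mul_cancel_left, mul_inv_cancel, inv_mul_cancel, mul_one, inv_one]
      _ = g * s := by rw [← e3]
  have hK := MonoidHom.ker_transferSylow_isComplement' S hNC
  set K := (MonoidHom.transferSylow S hNC).ker with hKdef
  haveI hKn : K.Normal := MonoidHom.normal_ker _
  have hKS : K ⊓ (S : Subgroup X) = ⊥ := hK.disjoint.eq_bot
  have hK3 : ∀ g ∈ K, g ^ 3 = 1 := by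
    intro g hg
    have ht2 : (g ^ 3) ^ 2 = 1 := by rw [← pow_mul]; exact h g
    have hz : IsPGroup 2 (Subgroup.zpowers (g ^ 3)) := by
      apply IsPGroup.of_card (n := (if g ^ 3 = 1 then 0 else 1))
      rw [Nat.card_zpowers]
      split_ifs with h1
      · rw [h1, orderOf_one, pow_zero]
      · rw [pow_one]; exact orderOf_eq_prime ht2 h1
    obtain ⟨S', hS'⟩ := hz.exists_le_sylow
    obtain ⟨c, hc⟩ := MulAction.exists_smul_eq X S S'
    have h1 : g ^ 3 ∈ (S' : Subgroup X) := hS' (Subgroup.mem_zpowers _)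
    rw [← hc, Sylow.coe_subgroup_smul] at h1
    obtain ⟨t, ht, hct⟩ := h1
    have hct' : c * t * c⁻¹ = g ^ 3 := by
      simpa [MulAut.conj_apply] using hct
    have htK : t ∈ K := by
      have : t = c⁻¹ * g ^ 3 * c⁻¹⁻¹ := by rw [← hct']; simp only [pow_succ, pow_zero, one_mul, mul_assoc, mul_inv_rev, inv_inv, mul_inv_cancel_left, inv_mul_cancel_left, mul_inv_cancel, inv_mul_cancel, mul_one, inv_one]
      rw [this]
      exact hKn.conj_mem _ (K.pow_mem hg 3) _
    have : t ∈ K ⊓ (S : Subgroup X) := ⟨htK, ht⟩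
    rw [hKS, Subgroup.mem_bot] at this
    rw [← hct', this]
    simp only [pow_succ, pow_zero, one_mul, mul_assoc, mul_inv_rev, inv_inv, mul_inv_cancel_left, inv_mul_cancel_left, mul_inv_cancel, inv_mul_cancel, mul_one, inv_one]
  have hKp : IsPGroup 3 K := by
    intro g
    refine ⟨1, ?_⟩
    apply Subtype.ext
    simpa using hK3 g.1 g.2
  apply plen_one_of_normal K hKp
  rw [hK.symm.index_eq_card]
  obtain ⟨m, hm⟩ := IsPGroup.iff_card.1 S.2
  rw [hm]
  exact Nat.Coprime.pow_left m (by decide)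

/-- A finite group in which every element has order dividing `6` has `2`-length at most `1` and `3`-length at most `1`. -/
theorem result {G : Type*} [Group G] [Finite G] (h : ∀ x : G, x ^ 6 = 1) : Cfsg.PLengthLE 2 1 G ∧ Cfsg.PLengthLE 3 1 G := by
  obtain ⟨a, b, hab⟩ := card26 h
  haveI hsol : Group.IsSolvable G := Cfsg.Agent.S0144.result 2 3 a b Nat.prime_two Nat.prime_three hab
  haveI : Fact (Nat.Prime 2) := ⟨Nat.prime_two⟩
  haveI : Fact (Nat.Prime 3) := ⟨Nat.prime_three⟩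
  have hq : ∀ (N : Subgroup G) [N.Normal], ∀ x : G ⧸ N, x ^ 6 = 1 := by
    intro N _ x
    obtain ⟨g, rfl⟩ := QuotientGroup.mk'_surjective N x
    rw [← map_pow, h g, map_one]
  constructor
  · apply plen_of_quot
    exact case_two (hq _) (Cfsg.Agent.Lib.Helper10.pPrimeCore_quotient_eq_bot 2 G)
  · apply plen_of_quot
    exact case_three (hq _) (Cfsg.Agent.Lib.Helper10.pPrimeCore_quotient_eq_bot 3 G)

end Cfsg.Agent.S4227
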