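import Cfsg.Statements.S4275
-- import your own Cfsg.Agent.* helpers here

set_option autoImplicit false
open Cfsg

namespace Cfsg.Agent.S4275

/-- Let G be a transitive group of permutations of a finite set Ω, let o ∈ Ω, and let α be an automorphism of G. Then α is induced by conjugation by a permutation of Ω normalizing G if and only if the image under α of the stabilizer of o fixes some point of Ω. -/
theorem result {Ω : Type*} [Fintype Ω] (G : Subgroup (Equiv.Perm Ω)) (htr : MulAction.IsPretransitive G Ω) (o : Ω) (α : G ≃* G) : (∃ σ : Equiv.Perm Ω, σ ∈ Subgroup.normalizer (G : Set (Equiv.Perm Ω)) ∧ ∀ g : G, ((α g : G) : Equiv.Perm Ω) = σ * (g : Equiv.Perm Ω) * σ⁻¹) ↔ ∃ ω : Ω, ∀ g ∈ (MulAction.stabilizer G o).map α.toMonoidHom, g • ω = ω := by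
  constructor
  · rintro ⟨σ, -, hσ⟩
    refine ⟨σ o, ?_⟩
    rintro _ ⟨k, hk, rfl⟩
    have hk' : (k : Equiv.Perm Ω) o = o := hk
    show ((α k : G) : Equiv.Perm Ω) (σ o) = σ o
    rw [hσ k]
    simp [hk']
  · rintro ⟨ω, hω⟩
    have hwd : ∀ g g' : G, g • o = g' • o → α g • ω = α g' • ω := by
      intro g g' h
      have h1 : g'⁻¹ * g ∈ MulAction.stabilizer G o := by
        rw [MulAction.mem_stabilizer_iff, mul_smul, h, inv_smul_smul]
      have h2 := hω (α (g'⁻¹ * g)) ⟨_, h1, rfl⟩
      rw [map_mul, map_inv, mul_smul, inv_smul_eq_iff] at h2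
      exact h2
    choose c hc using fun y => htr.exists_smul_eq o y
    let f : Ω → Ω := fun y => α (c y) • ω
    have hf : ∀ g : G, f (g • o) = α g • ω := fun g => hwd _ _ (hc (g • o))
    have hsurj : Function.Surjective f := by
      intro z
      obtain ⟨k, hk⟩ := htr.exists_smul_eq ω z
      refine ⟨α.symm k • o, ?_⟩
      rw [hf, α.apply_symm_apply, hk]
    have hbij : Function.Bijective f := ⟨Finite.injective_iff_surjective.2 hsurj, hsurj⟩
    let σ : Equiv.Perm Ω := Equiv.ofBijective f hbij
    have hσ : ∀ (g : G) (y : Ω), σ (g • y) = α g • σ y := by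
      intro g y
      obtain ⟨k, rfl⟩ := htr.exists_smul_eq o y
      show f (g • k • o) = α g • f (k • o)
      rw [← mul_smul, hf, hf, map_mul, mul_smul]
    have hconj : ∀ g : G, ((α g : G) : Equiv.Perm Ω) = σ * (g : Equiv.Perm Ω) * σ⁻¹ := by
      intro g
      ext y
      have h1 := hσ g (σ⁻¹ y)
      have h2 : σ (σ⁻¹ y) = y := by simp
      rw [h2] at h1
      simp only [Equiv.Perm.coe_mul, Function.comp_apply]
      exact h1.symm
    refine ⟨σ, ?_, hconj⟩
    rw [Subgroup.mem_normalizer_iff]
    intro h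
    constructor
    · intro hh
      rw [← hconj ⟨h, hh⟩]
      exact (α ⟨h, hh⟩).2
    · intro hh
      obtain ⟨g, hg⟩ := α.surjective ⟨_, hh⟩
      have h1 := hconj g
      rw [hg] at h1
      have h2 : h = g := mul_left_cancel (mul_right_cancel h1)
      rw [h2]
      exact g.2

end Cfsg.Agent.S4275
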