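import Cfsg.Statements.S4283
import Mathlib
import Cfsg.Agent.Lib.Helper15.Frob4

set_option autoImplicit false
open Cfsg

namespace Cfsg.Agent.S4283

open Cfsg.Agent.Lib.Helper15
open Pointwise

theorem index_centralizer_conj {G : Type*} [Group G] (x g : G) :
    (Subgroup.centralizer ({g⁻¹ * x * g} : Set G)).index = (Subgroup.centralizer ({x} : Set G)).index := by
  have h : Subgroup.centralizer ({x} : Set G)
      = (Subgroup.centralizer ({g⁻¹ * x * g} : Set G)).map ((MulAut.conj g : G ≃* G) : G →* G) := by
    ext c
    rw [Subgroup.mem_map]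
    constructor
    · intro hc
      rw [Subgroup.mem_centralizer_singleton_iff] at hc
      refine ⟨g⁻¹ * c * g, ?_, ?_⟩
      · rw [Subgroup.mem_centralizer_singleton_iff]
        calc g⁻¹ * c * g * (g⁻¹ * x * g) = g⁻¹ * (c * x) * g := by group
          _ = g⁻¹ * (x * c) * g := by rw [hc]
          _ = g⁻¹ * x * g * (g⁻¹ * c * g) := by group
      · simp [MulAut.conj_apply]; group
    · rintro ⟨d, hd, rfl⟩
      rw [Subgroup.mem_centralizer_singleton_iff] at hd ⊢
      simp only [MonoidHom.coe_coe, MulAut.conj_apply]
      calc g * d * g⁻¹ * x = g * (d * (g⁻¹ * x * g)) * g⁻¹ := by group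
        _ = g * ((g⁻¹ * x * g) * d) * g⁻¹ := by rw [hd]
        _ = x * (g * d * g⁻¹) := by group
  rw [h, Subgroup.index_map_equiv]

/-- Let G be a finite group with centre Z and let K, H be abelian subgroups of G containing Z such that G/Z is a Frobenius group with complement H/Z and kernel K/Z. Then the conjugacy class sizes of G are exactly 1, [G : K] and [G : H], and these two indices are coprime. (This is the converse half of the characterization of finite groups whose conjugacy class sizes are exactly 1, m and n with m and n coprime.) -/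
theorem result {G : Type*} [Group G] [Finite G] (K H : Subgroup G) (hZK : Subgroup.center G ≤ K) (hZH : Subgroup.center G ≤ H) (hK : IsMulCommutative K) (hH : IsMulCommutative H) (hFrob : Cfsg.IsFrobeniusComplement (H.map (QuotientGroup.mk' (Subgroup.center G)))) (hker : Cfsg.frobeniusKernel (H.map (QuotientGroup.mk' (Subgroup.center G))) = (K.map (QuotientGroup.mk' (Subgroup.center G)) : Set (G ⧸ Subgroup.center G))) : Set.range (fun x : G => (Subgroup.centralizer ({x} : Set G)).index) = ({1, K.index, H.index} : Set ℕ) ∧ K.index.Coprime H.index := by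
  obtain ⟨K', hKset, hKn, hKc, hKne, hKf⟩ := frob_exists_kernel hFrob
  have hK' : K' = K.map (QuotientGroup.mk' (Subgroup.center G)) := by
    apply SetLike.coe_injective
    rw [hKset, hker]
  subst hK'
  have hmemK : ∀ x : G, (QuotientGroup.mk' (Subgroup.center G)) x ∈ K.map (QuotientGroup.mk' (Subgroup.center G)) ↔ x ∈ K := by
    intro x
    constructor
    · rintro ⟨k, hk, hkx⟩
      have h1 : k⁻¹ * x ∈ Subgroup.center G := QuotientGroup.eq.mp hkx
      have := K.mul_mem hk (hZK h1)
      simpa using this
    · intro hx; exact ⟨x, hx, rfl⟩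
  have hmemH : ∀ x : G, (QuotientGroup.mk' (Subgroup.center G)) x ∈ H.map (QuotientGroup.mk' (Subgroup.center G)) ↔ x ∈ H := by
    intro x
    constructor
    · rintro ⟨k, hk, hkx⟩
      have h1 : k⁻¹ * x ∈ Subgroup.center G := QuotientGroup.eq.mp hkx
      have := H.mul_mem hk (hZH h1)
      simpa using this
    · intro hx; exact ⟨x, hx, rfl⟩
  have hmemZ : ∀ x : G, (QuotientGroup.mk' (Subgroup.center G)) x = 1 ↔ x ∈ Subgroup.center G := by
    intro x; exact QuotientGroup.eq_one_iff x
  have hmemker : ∀ x : G, (QuotientGroup.mk' (Subgroup.center G)) x ∈ Cfsg.frobeniusKernel (H.map (QuotientGroup.mk' (Subgroup.center G))) ↔ x ∈ K := by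
    intro x; rw [hker]; exact hmemK x
  -- centralizers
  have hcZ : ∀ x ∈ Subgroup.center G, (Subgroup.centralizer ({x} : Set G)).index = 1 := by
    intro x hx
    rw [Subgroup.index_eq_one, eq_top_iff]
    intro c _
    rw [Subgroup.mem_centralizer_singleton_iff]
    exact (Subgroup.mem_center_iff.mp hx c)
  have hcH : ∀ h ∈ H, h ∉ Subgroup.center G → Subgroup.centralizer ({h} : Set G) = H := by
    intro h hh hhZ
    apply le_antisymm
    · intro c hc
      rw [Subgroup.mem_centralizer_singleton_iff] at hc
      rw [← hmemH]
      apply frob_mem_of_conj_mem hFrob ((hmemH h).mpr hh) (fun e => hhZ ((hmemZ h).mp e))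
      rw [← map_inv, ← map_mul, ← map_mul, hmemH]
      have : c⁻¹ * h * c = h := by
        calc c⁻¹ * h * c = c⁻¹ * (h * c) := by group
          _ = c⁻¹ * (c * h) := by rw [hc]
          _ = h := by group
      rw [this]; exact hh
    · intro c hc
      rw [Subgroup.mem_centralizer_singleton_iff]
      have := hH.is_comm.comm ⟨c, hc⟩ ⟨h, hh⟩
      exact congrArg Subtype.val this
  have hcK : ∀ x ∈ K, x ∉ Subgroup.center G → Subgroup.centralizer ({x} : Set G) = K := by
    intro x hx hxZ
    apply le_antisymm
    · intro c hc
      rw [Subgroup.mem_centralizer_singleton_iff] at hc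
      by_contra hcK
      rw [← hmemker, not_mem_frobeniusKernel_iff] at hcK
      obtain ⟨hc1, g, hg⟩ := hcK
      obtain ⟨g, rfl⟩ := QuotientGroup.mk'_surjective _ g
      rw [← map_inv, ← map_mul, ← map_mul, hmemH] at hg
      have hgZ : g⁻¹ * c * g ∉ Subgroup.center G := by
        intro e
        apply hc1
        rw [hmemZ]
        have := (inferInstance : (Subgroup.center G).Normal).conj_mem _ e g
        convert this using 1
        group
      have hyK : g⁻¹ * x * g ∈ K := by
        rw [← hmemker]
        have := conj_mem_frobeniusKernel ((hmemker x).mpr hx) ((QuotientGroup.mk' (Subgroup.center G)) g⁻¹)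
        rw [← map_inv, ← map_mul, ← map_mul] at this
        simpa using this
      have hyC : g⁻¹ * x * g ∈ Subgroup.centralizer ({g⁻¹ * c * g} : Set G) := by
        rw [Subgroup.mem_centralizer_singleton_iff]
        calc g⁻¹ * x * g * (g⁻¹ * c * g) = g⁻¹ * (x * c) * g := by group
          _ = g⁻¹ * (c * x) * g := by rw [hc]
          _ = g⁻¹ * c * g * (g⁻¹ * x * g) := by group
      rw [hcH _ hg hgZ] at hyC
      have h1 := eq_one_of_mem_frobeniusKernel_of_mem ((hmemker _).mpr hyK) ((hmemH _).mpr hyC)
      rw [hmemZ] at h1
      apply hxZ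
      have := (inferInstance : (Subgroup.center G).Normal).conj_mem _ h1 g
      convert this using 1
      group
    · intro c hc
      rw [Subgroup.mem_centralizer_singleton_iff]
      have := hK.is_comm.comm ⟨c, hc⟩ ⟨x, hx⟩
      exact congrArg Subtype.val this
  constructor
  · ext n
    simp only [Set.mem_range, Set.mem_insert_iff, Set.mem_singleton_iff]
    constructor
    · rintro ⟨x, rfl⟩
      by_cases hxZ : x ∈ Subgroup.center G
      · left; exact hcZ x hxZ
      · by_cases hxK : x ∈ K
        · right; left; rw [hcK x hxK hxZ]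
        · right; right
          rw [← hmemker, not_mem_frobeniusKernel_iff] at hxK
          obtain ⟨hc1, g, hg⟩ := hxK
          obtain ⟨g, rfl⟩ := QuotientGroup.mk'_surjective _ g
          rw [← map_inv, ← map_mul, ← map_mul, hmemH] at hg
          have hgZ : g⁻¹ * x * g ∉ Subgroup.center G := by
            intro e
            apply hc1
            rw [hmemZ]
            have := (inferInstance : (Subgroup.center G).Normal).conj_mem _ e g
            convert this using 1
            group
          rw [← index_centralizer_conj x g, hcH _ hg hgZ]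
    · rintro (rfl | rfl | rfl)
      · exact ⟨1, hcZ 1 (Subgroup.one_mem _)⟩
      · obtain ⟨k, hk⟩ := Subgroup.ne_bot_iff_exists_ne_one.mp hKne
        obtain ⟨k', hk'⟩ := k
        obtain ⟨x, hx, rfl⟩ := hk'
        refine ⟨x, ?_⟩
        rw [hcK x hx]
        intro e
        apply hk
        apply Subtype.ext
        exact (hmemZ x).mpr e
      · obtain ⟨k, hk⟩ := Subgroup.ne_bot_iff_exists_ne_one.mp hFrob.1
        obtain ⟨k', hk'⟩ := k
        obtain ⟨x, hx, rfl⟩ := hk'
        refine ⟨x, ?_⟩
        rw [hcH x hx]
        intro e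
        apply hk
        apply Subtype.ext
        exact (hmemZ x).mpr e
  · have h1 : (K.map (QuotientGroup.mk' (Subgroup.center G))).index = K.index :=
      Subgroup.index_map_eq _ (QuotientGroup.mk'_surjective _) (by rw [QuotientGroup.ker_mk']; exact hZK)
    have h2 : (H.map (QuotientGroup.mk' (Subgroup.center G))).index = H.index :=
      Subgroup.index_map_eq _ (QuotientGroup.mk'_surjective _) (by rw [QuotientGroup.ker_mk']; exact hZH)
    rw [← h1, ← h2, hKc.symm.index_eq_card]
    have h3 : (H.map (QuotientGroup.mk' (Subgroup.center G))).index ≡ 1 [MOD Nat.card (H.map (QuotientGroup.mk' (Subgroup.center G)))] := frob_index_mod hFrob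
    have h4 := h3.gcd_eq
    rw [Nat.gcd_one_left] at h4
    rw [Nat.coprime_comm]
    exact h4

end Cfsg.Agent.S4283
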