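import Cfsg.Statements.S4293
import Cfsg.Agent.Lib.Helper23.Frob

set_option autoImplicit false
open Cfsg

namespace Cfsg.Agent.S4293

theorem frob_of_ring {H R : Type*} [Group H] [Finite H] [Nontrivial H] [Ring R]
    [NoZeroDivisors R] [Nontrivial R] [Module.Finite ℤ R] (ι : H →* R)
    (hι : Function.Injective ι) :
    ∃ (L : Type) (_ : Group L) (_ : Finite L) (C : Subgroup L),
      Cfsg.IsFrobeniusComplement C ∧ Nonempty (H ≃* C) := by
  have hne : ∀ h : H, h ≠ 1 → ι h - 1 ≠ 0 := by
    intro h hh h2
    apply hh; apply hι; rw [map_one]; exact sub_eq_zero.1 h2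
  by_cases hchar : ∃ m : ℕ, 0 < m ∧ (m : R) = 0
  · obtain ⟨m, hm, hm0⟩ := hchar
    have hfin : Finite R := by
      apply Module.finite_of_fg_torsion
      intro x
      refine ⟨⟨(m : ℤ), mem_nonZeroDivisors_of_ne_zero (by exact_mod_cast hm.ne')⟩, ?_⟩
      show (m : ℤ) • x = 0
      rw [natCast_zsmul, nsmul_eq_mul, hm0, zero_mul]
    apply Cfsg.Agent.Lib.Helper23.exists_frobenius_of_module (V := R) ι
    intro h hh v hv
    have h1 : (ι h - 1) * v = 0 := by rw [sub_mul, one_mul]; exact sub_eq_zero.2 hv
    rcases mul_eq_zero.1 h1 with h2 | h2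
    · exact absurd h2 (hne h hh)
    · exact h2
  · push Not at hchar
    obtain ⟨p, hpge, hp⟩ := Nat.exists_infinite_primes (Nat.card H + 1)
    let I : Submodule R R := Submodule.span R {(p : R)}
    have hpV : ∀ v : R ⧸ I, p • v = 0 := by
      intro v
      obtain ⟨r, rfl⟩ := Submodule.Quotient.mk_surjective I v
      rw [← Submodule.Quotient.mk_smul, Submodule.Quotient.mk_eq_zero, nsmul_eq_mul,
        Nat.cast_comm]
      exact Submodule.mem_span_singleton.2 ⟨r, rfl⟩
    have hfinV : Finite (R ⧸ I) := by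
      have : Module.Finite ℤ (R ⧸ I) :=
        Module.Finite.of_surjective (I.mkQ.restrictScalars ℤ) (Submodule.mkQ_surjective I)
      apply Module.finite_of_fg_torsion
      intro x
      refine ⟨⟨(p : ℤ), mem_nonZeroDivisors_of_ne_zero (by exact_mod_cast hp.ne_zero)⟩, ?_⟩
      show (p : ℤ) • x = 0
      rw [natCast_zsmul, hpV]
    have hI : I ≠ ⊤ := by
      intro htop
      have h1 : (1 : R) ∈ I := by rw [htop]; trivial
      obtain ⟨r, hr⟩ := Submodule.mem_span_singleton.1 h1
      rw [smul_eq_mul] at hr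
      have hle : (⊤ : Submodule ℤ R) ≤ Ideal.span {(p : ℤ)} • (⊤ : Submodule ℤ R) := by
        intro x _
        have hx : x = (p : ℤ) • (x * r) := by
          rw [natCast_zsmul, nsmul_eq_mul, Nat.cast_comm, mul_assoc, hr, mul_one]
        rw [hx]
        exact Submodule.smul_mem_smul (Ideal.mem_span_singleton_self _) trivial
      obtain ⟨c, hc1, hc2⟩ := Submodule.exists_sub_one_mem_and_smul_eq_zero_of_fg_of_le_smul
        (Ideal.span {(p : ℤ)}) (⊤ : Submodule ℤ R) Module.Finite.fg_top hle
      have hc3 : (c : R) = 0 := by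
        have := hc2 1 trivial
        rwa [zsmul_eq_mul, mul_one] at this
      have hc4 : (c.natAbs : R) = 0 := by
        rcases Int.natAbs_eq c with h | h
        · have : ((c.natAbs : ℤ) : R) = 0 := by rw [← h]; exact hc3
          simpa using this
        · have : ((-(c.natAbs : ℤ) : ℤ) : R) = 0 := by rw [← h]; exact hc3
          simpa using this
      have hc5 : c = 0 := by
        by_contra hc
        exact hchar c.natAbs (Int.natAbs_pos.2 hc) hc4
      rw [hc5, zero_sub, Ideal.mem_span_singleton, dvd_neg] at hc1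
      have := Int.natCast_dvd_natCast.1 (by simpa using hc1 : (p : ℤ) ∣ ((1 : ℕ) : ℤ))
      exact hp.one_lt.ne' (Nat.dvd_one.1 this)
    have hntV : Nontrivial (R ⧸ I) := Submodule.Quotient.nontrivial_iff.2 hI
    apply Cfsg.Agent.Lib.Helper23.exists_frobenius_of_module (V := R ⧸ I) ι
    intro h hh v hv
    have hσ : (∑ i ∈ Finset.range (orderOf h), (ι h) ^ i) = 0 := by
      have h1 := geom_sum_mul (ι h) (orderOf h)
      rw [← map_pow, pow_orderOf_eq_one, map_one, sub_self] at h1
      exact (mul_eq_zero.1 h1).resolve_right (hne h hh)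
    have hpow : ∀ i : ℕ, (ι h) ^ i • v = v := by
      intro i
      induction i with
      | zero => simp
      | succ i ih => rw [pow_succ, mul_smul, hv, ih]
    have hn : orderOf h • v = 0 := by
      have h1 : (∑ i ∈ Finset.range (orderOf h), (ι h) ^ i) • v = orderOf h • v := by
        rw [Finset.sum_smul, Finset.sum_congr rfl (fun i _ => hpow i)]
        simp
      rw [← h1, hσ, zero_smul]
    have hcop : Nat.Coprime p (orderOf h) := by
      rw [Nat.Prime.coprime_iff_not_dvd hp]
      intro hdvd
      have h1 := Nat.le_of_dvd (orderOf_pos h) hdvd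
      have h2 := Nat.le_of_dvd Nat.card_pos (orderOf_dvd_natCard h)
      omega
    have h1 : addOrderOf v ∣ p := addOrderOf_dvd_iff_nsmul_eq_zero.2 (hpV v)
    have h2 : addOrderOf v ∣ orderOf h := addOrderOf_dvd_iff_nsmul_eq_zero.2 hn
    have h3 : addOrderOf v ∣ 1 := by
      have := Nat.dvd_gcd h1 h2
      rwa [hcop] at this
    exact AddMonoid.addOrderOf_eq_one_iff.1 (Nat.dvd_one.1 h3)

/-- A nontrivial finite subgroup of the multiplicative group of a division ring occurs as a Frobenius complement of some finite Frobenius group. -/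
theorem result {D : Type*} [DivisionRing D] (H : Subgroup Dˣ) [Finite H] (hH : H ≠ ⊥) :
    ∃ (L : Type) (_ : Group L) (_ : Finite L) (C : Subgroup L), Cfsg.IsFrobeniusComplement C ∧ Nonempty (H ≃* C) := by
  classical
  let ι₀ : H →* D := (Units.coeHom D).comp H.subtype
  let f : MonoidAlgebra ℤ H →ₐ[ℤ] D := MonoidAlgebra.lift ℤ D H ι₀
  let R : Subalgebra ℤ D := f.range
  have hfin : Module.Finite ℤ R :=
    Module.Finite.of_surjective f.rangeRestrict.toLinearMap f.rangeRestrict_surjective
  have hmem : ∀ h : H, ι₀ h ∈ R := by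
    intro h
    exact ⟨MonoidAlgebra.of ℤ H h, by simp [f]⟩
  let ι : H →* R := ι₀.codRestrict R hmem
  have hι : Function.Injective ι := by
    intro a b hab
    have h1 : ι₀ a = ι₀ b := congrArg Subtype.val hab
    exact Subtype.ext (Units.ext h1)
  have hnt : Nontrivial H := by
    rw [Subgroup.nontrivial_iff_ne_bot]; exact hH
  exact frob_of_ring ι hι

end Cfsg.Agent.S4293
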