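import Cfsg.Statements.S4297
import Cfsg.Agent.S4293

set_option autoImplicit false
open Cfsg

namespace Cfsg.Agent.S4297

open Quaternion in
def J : ℍ[ℝ] := ⟨0, 0, 1, 0⟩

@[simp] theorem J_re : J.re = 0 := rfl
@[simp] theorem J_imI : J.imI = 0 := rfl
@[simp] theorem J_imJ : J.imJ = 1 := rfl
@[simp] theorem J_imK : J.imK = 0 := rfl

open Quaternion in
theorem coe_mul_J (z : ℂ) : (z : ℍ[ℝ]) * J =
    J * ((starRingEnd ℂ z : ℂ) : ℍ[ℝ]) := by
  ext <;> simp

open Quaternion in
theorem J_mul_J : J * J = -1 := by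
  ext <;> simp

theorem chi_n (n : ℕ) [NeZero n] : ZMod.stdAddChar (N := 2 * n) ((n : ℕ) : ZMod (2 * n)) = -1 := by
  have h := ZMod.stdAddChar_coe (N := 2 * n) (n : ℤ)
  have h2 : (((n : ℤ) : ZMod (2 * n))) = ((n : ℕ) : ZMod (2 * n)) := by simp
  rw [h2] at h
  rw [h]
  have hn : (n : ℂ) ≠ 0 := Nat.cast_ne_zero.2 (NeZero.ne n)
  have : 2 * (Real.pi : ℂ) * Complex.I * ((n : ℤ) : ℂ) / ((2 * n : ℕ) : ℂ) = Real.pi * Complex.I := by
    push_cast
    field_simp
  rw [this, Complex.exp_pi_mul_I]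

open Quaternion in
noncomputable def qmap (n : ℕ) [NeZero n] : QuaternionGroup n → ℍ[ℝ]
  | QuaternionGroup.a i => ((ZMod.stdAddChar (N := 2 * n) i : ℂ) : ℍ[ℝ])
  | QuaternionGroup.xa i => J * ((ZMod.stdAddChar (N := 2 * n) i : ℂ) : ℍ[ℝ])

open Quaternion in
noncomputable def qhom (n : ℕ) [NeZero n] : QuaternionGroup n →* ℍ[ℝ] where
  toFun := qmap n
  map_one' := by
    rw [QuaternionGroup.one_def]
    simp [qmap]
  map_mul' := by
    rintro (i | i) (j | j)
    · simp only [QuaternionGroup.a_mul_a, qmap, AddChar.map_add_eq_mul, coeComplex_mul]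
    · simp only [QuaternionGroup.a_mul_xa, qmap]
      rw [← mul_assoc, coe_mul_J, mul_assoc, ← coeComplex_mul, ← AddChar.map_neg_eq_conj,
        ← AddChar.map_add_eq_mul, neg_add_eq_sub]
    · simp only [QuaternionGroup.xa_mul_a, qmap, AddChar.map_add_eq_mul, coeComplex_mul, mul_assoc]
    · simp only [QuaternionGroup.xa_mul_xa, qmap]
      rw [mul_assoc, ← mul_assoc _ J _, coe_mul_J, mul_assoc, ← mul_assoc,
        J_mul_J, ← coeComplex_mul, ← AddChar.map_neg_eq_conj, ← AddChar.map_add_eq_mul,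
        neg_add_eq_sub, add_sub_assoc, AddChar.map_add_eq_mul, chi_n, coeComplex_mul]
      congr 1
      ext <;> simp

open Quaternion in
theorem qhom_injective (n : ℕ) [NeZero n] : Function.Injective (qhom n) := by
  rw [injective_iff_map_eq_one]
  rintro (i | i) h
  · have h1 : ((ZMod.stdAddChar (N := 2 * n) i : ℂ) : ℍ[ℝ]) = 1 := h
    have h2 : ZMod.stdAddChar (N := 2 * n) i = 1 := by
      apply Complex.ext
      · have := congrArg QuaternionAlgebra.re h1
        simpa using this
      · have := congrArg QuaternionAlgebra.imI h1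
        simpa using this
    rw [← AddChar.map_zero_eq_one (ZMod.stdAddChar (N := 2 * n))] at h2
    rw [ZMod.injective_stdAddChar h2, QuaternionGroup.one_def]
  · exfalso
    have h1 : J * ((ZMod.stdAddChar (N := 2 * n) i : ℂ) : ℍ[ℝ]) = 1 := h
    have := congrArg QuaternionAlgebra.re h1
    simp at this

/-- For every n ≥ 2 the dicyclic group of order 4n (generated by an element a of order 2n and an element x with x² = aⁿ and x a x⁻¹ = a⁻¹) occurs as a Frobenius complement of some finite Frobenius group. -/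
theorem result (n : ℕ) (hn : 2 ≤ n) :
    ∃ (L : Type) (_ : Group L) (_ : Finite L) (H : Subgroup L), Cfsg.IsFrobeniusComplement H ∧ Nonempty (H ≃* QuaternionGroup n) := by
  have hn0 : NeZero n := ⟨by omega⟩
  let F : QuaternionGroup n →* (Quaternion ℝ)ˣ := (qhom n).toHomUnits
  have hF : Function.Injective F := by
    intro a b hab
    apply qhom_injective n
    have := congrArg Units.val hab
    simpa [F] using this
  have hne : F.range ≠ ⊥ := by
    intro h
    obtain ⟨g, hg⟩ := exists_ne (1 : QuaternionGroup n)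
    have h1 : F g ∈ F.range := ⟨g, rfl⟩
    rw [h, Subgroup.mem_bot] at h1
    apply hg
    apply hF
    rw [h1, map_one]
  have hfin : Finite F.range := Finite.of_equiv _ (MonoidHom.ofInjective hF).toEquiv
  obtain ⟨L, i1, i2, K, hK, ⟨e⟩⟩ := Cfsg.Agent.S4293.result F.range hne
  exact ⟨L, i1, i2, K, hK, ⟨e.symm.trans (MonoidHom.ofInjective hF).symm⟩⟩

end Cfsg.Agent.S4297
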