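import Cfsg.Statements.S4299
import Cfsg.Agent.S4293

set_option autoImplicit false
open Cfsg

namespace Cfsg.Agent.S4299

/-- Every nontrivial finite cyclic group occurs as a Frobenius complement of some finite Frobenius group. -/
theorem result {C : Type*} [Group C] [Finite C] [IsCyclic C] [Nontrivial C] :
    ∃ (L : Type) (_ : Group L) (_ : Finite L) (H : Subgroup L), Cfsg.IsFrobeniusComplement H ∧ Nonempty (C ≃* H) := by
  classical
  have hn : NeZero (Nat.card C) := ⟨Nat.card_pos.ne'⟩
  have hcard : Nat.card (rootsOfUnity (Nat.card C) ℂ) = Nat.card C := by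
    rw [Complex.card_rootsOfUnity]
  have hne : rootsOfUnity (Nat.card C) ℂ ≠ ⊥ := by
    intro h
    rw [h, Subgroup.card_bot] at hcard
    exact (Finite.one_lt_card (α := C)).ne hcard
  obtain ⟨L, i1, i2, K, hK, ⟨e⟩⟩ := Cfsg.Agent.S4293.result (rootsOfUnity (Nat.card C) ℂ) hne
  exact ⟨L, i1, i2, K, hK, ⟨(mulEquivOfCyclicCardEq hcard.symm).trans e⟩⟩

end Cfsg.Agent.S4299
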