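import Cfsg.Statements.S4300
-- import your own Cfsg.Agent.* helpers here

set_option autoImplicit false
open Cfsg

namespace Cfsg.Agent.S4300

/-- Let G act faithfully and primitively on a set X, and suppose the stabilizer of some point is a simple group. Then either G is simple, or G has a normal subgroup, neither trivial nor the whole group, that acts regularly on X (transitively with trivial point stabilizers). -/
theorem result {G : Type*} [Group G] {X : Type*} [MulAction G X] [FaithfulSMul G X]
    (hprim : MulAction.IsPreprimitive G X) (x : X) (hsimple : IsSimpleGroup (MulAction.stabilizer G x)) :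
    IsSimpleGroup G ∨ ∃ N : Subgroup G, N.Normal ∧ N ≠ ⊥ ∧ N ≠ ⊤ ∧
      MulAction.IsPretransitive N X ∧ ∀ y : X, MulAction.stabilizer N y = ⊥ := by
  classical
  by_cases hs : IsSimpleGroup G
  · exact Or.inl hs
  right
  have hnt : Nontrivial G := by
    obtain ⟨a, b, hab⟩ := hsimple.toNontrivial.exists_pair_ne
    exact ⟨⟨a.1, b.1, fun h => hab (Subtype.ext h)⟩⟩
  obtain ⟨N, hN, hbot, htop⟩ : ∃ N : Subgroup G, N.Normal ∧ N ≠ ⊥ ∧ N ≠ ⊤ := by
    by_contra hcon
    push Not at hcon
    exact hs ⟨fun N hN => by
      by_cases h : N = ⊥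
      · exact Or.inl h
      · exact Or.inr (hcon N hN h)⟩
  have hq : MulAction.IsQuasiPreprimitive G X := inferInstance
  have htr : MulAction.IsPretransitive N X := by
    apply hq.isPretransitive_of_normal
    intro hfix
    apply hbot
    rw [eq_bot_iff]
    intro n hn
    rw [Subgroup.mem_bot]
    apply FaithfulSMul.eq_of_smul_eq_smul (α := X)
    intro y
    have hy : y ∈ MulAction.fixedPoints N X := by rw [hfix]; trivial
    rw [one_smul]
    exact hy ⟨n, hn⟩
  have hdisj : ∀ n ∈ N, n • x = x → n = 1 := by
    rcases hsimple.eq_bot_or_eq_top_of_normal (N.subgroupOf (MulAction.stabilizer G x))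
      inferInstance with h | h
    · rw [Subgroup.subgroupOf_eq_bot] at h
      intro n hn hnx
      exact Subgroup.disjoint_def.1 h hn (MulAction.mem_stabilizer_iff.2 hnx)
    · exfalso
      rw [Subgroup.subgroupOf_eq_top] at h
      apply htop
      rw [eq_top_iff]
      intro g _
      obtain ⟨n, hn⟩ := htr.exists_smul_eq x (g • x)
      have h1 : (n : G)⁻¹ * g ∈ MulAction.stabilizer G x := by
        rw [MulAction.mem_stabilizer_iff, mul_smul, ← hn]
        exact inv_smul_smul (n : G) x
      have h2 := N.mul_mem n.2 (h h1)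
      rwa [mul_inv_cancel_left] at h2
  refine ⟨N, hN, hbot, htop, htr, ?_⟩
  intro y
  rw [eq_bot_iff]
  intro n hn
  rw [Subgroup.mem_bot]
  obtain ⟨m, hm⟩ := htr.exists_smul_eq x y
  have hn' : (n : G) • y = y := MulAction.mem_stabilizer_iff.1 hn
  have hm' : (m : G) • x = y := hm
  have h1 : ((m : G)⁻¹ * n * m) • x = x := by
    rw [mul_smul, mul_smul, hm', hn', ← hm', inv_smul_smul]
  have h2 := hdisj _ (N.mul_mem (N.mul_mem (N.inv_mem m.2) n.2) m.2) h1
  apply Subtype.ext
  have h3 : (n : G) = m * ((m : G)⁻¹ * n * m) * (m : G)⁻¹ := by group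
  rw [h3, h2]
  simp

end Cfsg.Agent.S4300
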