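import Cfsg.Statements.S4301
import Mathlib
import Cfsg.Agent.Lib.Helper29.WittExt

set_option autoImplicit false
open Cfsg

namespace Cfsg.Agent.S4301

section aux

theorem exists_emb {X : Type*} {k : ℕ} (hk : 2 ≤ k) (e : Fin k ↪ X) (a b : X) (hab : a ≠ b) :
    ∃ e' : Fin k ↪ X, e' ⟨0, by omega⟩ = a ∧ e' ⟨1, by omega⟩ = b := by
  classical
  have h01 : e ⟨0, by omega⟩ ≠ e ⟨1, by omega⟩ := by
    intro h
    have := e.injective h
    simp at this
  set c := Equiv.swap (e ⟨0, by omega⟩) a (e ⟨1, by omega⟩) with hc
  have hca : c ≠ a := by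
    intro h
    have h1 : Equiv.swap (e ⟨0, by omega⟩) a (e ⟨0, by omega⟩) = a := Equiv.swap_apply_left _ _
    rw [← h1] at h
    exact h01 ((Equiv.swap (e ⟨0, by omega⟩) a).injective h).symm
  refine ⟨e.trans (Equiv.swap c b * Equiv.swap (e ⟨0, by omega⟩) a).toEmbedding, ?_, ?_⟩
  · simp only [Function.Embedding.trans_apply, Equiv.coe_toEmbedding, Equiv.Perm.mul_apply,
      Equiv.swap_apply_left]
    exact Equiv.swap_apply_of_ne_of_ne (Ne.symm hca) hab
  · simp only [Function.Embedding.trans_apply, Equiv.coe_toEmbedding, Equiv.Perm.mul_apply]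
    rw [← hc]
    exact Equiv.swap_apply_left _ _

end aux

/-- One-point extension of a multiply transitive group. Let X be a set and G a group of permutations of Option X (the set X with one extra point ∗ = none) all of whose elements fix ∗, such that G is k-transitive on the points of X for some k ≥ 2, X having at least k points. Suppose a permutation h of Option X and an element g of G satisfy: h interchanges ∗ with a point x of X and fixes a point y of X; g interchanges x and y; (g h)³ and h² lie in G; and for every f in G fixing x, the product h f h lies in G and fixes x. Then an element of the group generated by G and h fixes ∗ exactly when it lies in G, and that group acts (k+1)-transitively on Option X. -/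
theorem result {X : Type*} (G : Subgroup (Equiv.Perm (Option X))) (hfix : ∀ f ∈ G, f none = none)
    (k : ℕ) (hk : 2 ≤ k) (hkX : Nonempty (Fin k ↪ X))
    (htrans : ∀ a b : Fin k ↪ X, ∃ f ∈ G, ∀ i, f (some (a i)) = some (b i))
    (h g : Equiv.Perm (Option X)) (hg : g ∈ G) (x y : X)
    (h1 : h none = some x) (h2 : h (some x) = none) (h3 : h (some y) = some y)
    (h4 : g (some x) = some y) (h5 : g (some y) = some x)
    (h6 : (g * h) ^ 3 ∈ G) (h7 : h ^ 2 ∈ G)
    (h8 : ∀ f ∈ G, f (some x) = some x → h * f * h ∈ G ∧ (h * f * h) (some x) = some x) :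
    (∀ f ∈ Subgroup.closure ((G : Set (Equiv.Perm (Option X))) ∪ {h}), f none = none ↔ f ∈ G) ∧
      MulAction.IsMultiplyPretransitive (Subgroup.closure ((G : Set (Equiv.Perm (Option X))) ∪ {h})) (Option X) (k + 1) := by
  classical
  have hne : ∀ f ∈ G, ∀ a : Option X, a ≠ none → f a ≠ none := by
    intro f hf a ha h'
    rw [← hfix f hf] at h'
    exact ha (f.injective h')
  have hk' : ∀ a b : Fin k ↪ Option X, (∀ i, a i ∈ {z : Option X | z ≠ none}) →
      (∀ i, b i ∈ {z : Option X | z ≠ none}) → ∃ f ∈ G, ∀ i, f (a i) = b i := by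
    intro a b ha hb
    let a0 : Fin k ↪ X := ⟨fun i => (a i).get (Option.isSome_iff_ne_none.2 (ha i)), fun i j hij => by
      have : some ((a i).get (Option.isSome_iff_ne_none.2 (ha i))) =
        some ((a j).get (Option.isSome_iff_ne_none.2 (ha j))) := congrArg some hij
      rw [Option.some_get, Option.some_get] at this
      exact a.injective this⟩
    let b0 : Fin k ↪ X := ⟨fun i => (b i).get (Option.isSome_iff_ne_none.2 (hb i)), fun i j hij => by
      have : some ((b i).get (Option.isSome_iff_ne_none.2 (hb i))) =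
        some ((b j).get (Option.isSome_iff_ne_none.2 (hb j))) := congrArg some hij
      rw [Option.some_get, Option.some_get] at this
      exact b.injective this⟩
    obtain ⟨f, hf, hfi⟩ := htrans a0 b0
    refine ⟨f, hf, fun i => ?_⟩
    have := hfi i
    have ea : some (a0 i) = a i := Option.some_get _
    have eb : some (b0 i) = b i := Option.some_get _
    rwa [ea, eb] at this
  obtain ⟨e⟩ := hkX
  have h2t : ∀ a b c d : Option X, a ∈ {z : Option X | z ≠ none} → b ∈ {z : Option X | z ≠ none} →
      c ∈ {z : Option X | z ≠ none} → d ∈ {z : Option X | z ≠ none} → a ≠ b → c ≠ d →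
      ∃ f ∈ G, f a = c ∧ f b = d := by
    intro a b c d ha hb hc hd hab hcd
    obtain ⟨a, rfl⟩ := Option.ne_none_iff_exists'.1 ha
    obtain ⟨b, rfl⟩ := Option.ne_none_iff_exists'.1 hb
    obtain ⟨c, rfl⟩ := Option.ne_none_iff_exists'.1 hc
    obtain ⟨d, rfl⟩ := Option.ne_none_iff_exists'.1 hd
    obtain ⟨e1, h10, h11⟩ := exists_emb hk e a b (fun h => hab (congrArg some h))
    obtain ⟨e2, h20, h21⟩ := exists_emb hk e c d (fun h => hcd (congrArg some h))
    obtain ⟨f, hf, hfi⟩ := htrans e1 e2
    refine ⟨f, hf, ?_, ?_⟩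
    · have := hfi ⟨0, by omega⟩
      rwa [h10, h20] at this
    · have := hfi ⟨1, by omega⟩
      rwa [h11, h21] at this
  have hxy : (some x : Option X) ≠ some y := by
    intro h'
    rw [h'] at h2
    rw [h2] at h3
    simp at h3
  obtain ⟨r1, _, r3⟩ := Cfsg.Agent.Lib.Helper29.WittExt.ext G {z : Option X | z ≠ none} none
    (by simp) hfix hne h2t k hk' h g hg (some x) (some y) (by simp) (by simp) h1 h2
    (by
      intro a _ hax h'
      rw [← h2] at h'
      exact hax (h.injective h')) h4 hxy h6 h7 (fun f hf hfx => (h8 f hf hfx).1)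
  refine ⟨r1, ⟨fun a b => ?_⟩⟩
  obtain ⟨f, hf, hfi⟩ := r3 a b (fun i => by
    by_cases h' : a i = none
    · exact Or.inr h'
    · exact Or.inl h') (fun i => by
    by_cases h' : b i = none
    · exact Or.inr h'
    · exact Or.inl h')
  refine ⟨⟨f, hf⟩, ?_⟩
  ext i : 1
  exact hfi i

end Cfsg.Agent.S4301
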