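import Cfsg.Statements.S4314
import Cfsg.Agent.Lib.Helper22.Basic

set_option autoImplicit false
open Cfsg

namespace Cfsg.Agent.S4314

open MulAction
open scoped commutatorElement

theorem eq_of_le_of_index_eq {G : Type*} [Group G] [Finite G] {H K : Subgroup G} (h : H ≤ K)
    (hi : H.index = K.index) : H = K := by
  apply Subgroup.eq_of_le_of_card_ge h
  have h1 := H.card_mul_index
  have h2 := K.card_mul_index
  have h3 : 0 < K.index := Nat.pos_of_ne_zero Subgroup.index_ne_zero_of_finite
  rw [hi] at h1
  have : Nat.card H * K.index = Nat.card K * K.index := h1.trans h2.symm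
  exact (Nat.eq_of_mul_eq_mul_right h3 this).ge

theorem comm_mem {G : Type*} [Group G] [Finite G] (N : Subgroup G) (hN : N.Normal)
    (h : N.index = 1 ∨ N.index.Prime) (x y : G) : ⁅x, y⁆ ∈ N := by
  have hcyc : IsCyclic (G ⧸ N) := by
    have hc : Nat.card (G ⧸ N) = N.index := rfl
    rcases h with h | h
    · have : Subsingleton (G ⧸ N) := (Nat.card_eq_one_iff_unique.1 (hc.trans h)).1
      infer_instance
    · have : Fact N.index.Prime := ⟨h⟩
      exact isCyclic_of_prime_card hc
  have hcomm : (x : G ⧸ N) * (y : G ⧸ N) = (y : G ⧸ N) * (x : G ⧸ N) := by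
    let _ := IsCyclic.commGroup (α := G ⧸ N)
    exact mul_comm _ _
  rw [← QuotientGroup.eq_one_iff, commutatorElement_def, QuotientGroup.mk_mul, QuotientGroup.mk_mul,
    QuotientGroup.mk_mul, hcomm, QuotientGroup.mk_inv, QuotientGroup.mk_inv]
  group

theorem key {G : Type*} [Group G] [Finite G] (M : Subgroup G) (hp : M.index.Prime)
    (hMn : ¬ M.Normal)
    (h : ∀ x : G, (Subgroup.centralizer ({x} : Set G)).index = 1 ∨
      ((Subgroup.centralizer ({x} : Set G)).index).Prime)
    (g : G) (hg1 : g ∉ M.normalCore) (hg2 : g ^ M.index ∈ M.normalCore) :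
    g ∉ M ∧ (Subgroup.centralizer ({g} : Set G)).index.Prime ∧
      M.normalCore.index = (Subgroup.centralizer ({g} : Set G)).index * M.index ∧
      (∀ c ∈ Subgroup.centralizer ({g} : Set G), ∃ i : ℕ, (g ^ i)⁻¹ * c ∈ M.normalCore) ∧
      M.normalCore ≤ Subgroup.centralizer ({g} : Set G) := by
  classical
  have hK : ∀ k, k ∈ M.normalCore ↔ ∀ ω : G ⧸ M, k • ω = ω := by
    intro k
    rw [Subgroup.normalCore_eq_ker, MonoidHom.mem_ker, Equiv.ext_iff]
    rfl
  obtain ⟨ω0, hω0⟩ : ∃ ω0 : G ⧸ M, g • ω0 ≠ ω0 := by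
    by_contra hcon
    push Not at hcon
    exact hg1 ((hK g).2 hcon)
  have hinj : Function.Injective (fun i : Fin M.index => g ^ (i : ℕ) • ω0) := by
    have aux : ∀ i j : ℕ, i < j → j < M.index → g ^ i • ω0 ≠ g ^ j • ω0 := by
      intro i j hij hj heq
      apply hω0
      have h1 : g ^ (j - i) ∈ stabilizer G ω0 := by
        rw [mem_stabilizer_iff]
        have : g ^ j = g ^ i * g ^ (j - i) := by rw [← pow_add]; congr 1; omega
        rw [this, mul_smul] at heq
        exact (smul_left_cancel _ heq).symm
      have h2 : g ^ M.index ∈ stabilizer G ω0 := (hK _).1 hg2 ω0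
      have hcop : Nat.Coprime (j - i) M.index := by
        apply Nat.Coprime.symm
        rw [Nat.Prime.coprime_iff_not_dvd hp]
        intro hd
        have := Nat.le_of_dvd (by omega) hd
        omega
      exact Cfsg.Agent.Lib.Helper22.mem_of_pow_mem_of_coprime _ g _ _ hcop h1 h2
    intro i j hij
    by_contra hne
    rcases lt_or_gt_of_ne (fun h => hne (Fin.ext h)) with hlt | hlt
    · exact aux i j hlt j.2 hij
    · exact aux j i hlt i.2 hij.symm
  have hsurj : ∀ ω : G ⧸ M, ∃ i : ℕ, ω = g ^ i • ω0 := by
    have hb := hinj.bijective_of_nat_card_le (by rw [Nat.card_fin]; exact le_of_eq rfl)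
    intro ω
    obtain ⟨i, hi⟩ := hb.2 ω
    exact ⟨i, hi.symm⟩
  have hnofix : ∀ ω : G ⧸ M, g • ω ≠ ω := by
    intro ω hω
    obtain ⟨i, rfl⟩ := hsurj ω
    apply hω0
    rw [← mul_smul, ← pow_succ', pow_succ, mul_smul] at hω
    exact smul_left_cancel _ hω
  have hgM : g ∉ M := by
    intro hgM
    apply hnofix ((1 : G) : G ⧸ M)
    show ((g * 1 : G) : G ⧸ M) = ((1 : G) : G ⧸ M)
    rw [QuotientGroup.eq]
    simpa using hgM
  have hC : ∀ c ∈ Subgroup.centralizer ({g} : Set G), ∃ i : ℕ, (g ^ i)⁻¹ * c ∈ M.normalCore := by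
    intro c hc
    have hcg : c * g = g * c := Subgroup.mem_centralizer_singleton_iff.1 hc
    obtain ⟨i, hi⟩ := hsurj (c • ω0)
    refine ⟨i, (hK _).2 ?_⟩
    intro ω
    obtain ⟨j, rfl⟩ := hsurj ω
    have hcomm : c * g ^ j = g ^ j * c := ((Commute.pow_right (show Commute c g from hcg) j)).eq
    calc ((g ^ i)⁻¹ * c) • g ^ j • ω0 = (g ^ i)⁻¹ • (c * g ^ j) • ω0 := by rw [mul_smul, mul_smul]
      _ = (g ^ i)⁻¹ • g ^ j • c • ω0 := by rw [hcomm, mul_smul]
      _ = (g ^ i)⁻¹ • (g ^ j * g ^ i) • ω0 := by rw [hi, mul_smul]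
      _ = (g ^ i)⁻¹ • (g ^ i * g ^ j) • ω0 := by rw [← pow_add, ← pow_add, add_comm]
      _ = g ^ j • ω0 := by rw [mul_smul, inv_smul_smul]
  have : Fact M.index.Prime := ⟨hp⟩
  have hord : orderOf (g : G ⧸ M.normalCore) = M.index := by
    apply orderOf_eq_prime
    · rw [← QuotientGroup.mk_pow, QuotientGroup.eq_one_iff]; exact hg2
    · intro h1; exact hg1 ((QuotientGroup.eq_one_iff g).1 h1)
  set L : Subgroup G :=
    (Subgroup.zpowers (g : G ⧸ M.normalCore)).comap (QuotientGroup.mk' M.normalCore) with hL
  have hLidx : L.index * M.index = M.normalCore.index := by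
    rw [hL, Subgroup.index_comap_of_surjective _ (QuotientGroup.mk'_surjective M.normalCore)]
    conv_lhs => rw [← hord]
    rw [← Nat.card_zpowers, mul_comm, Subgroup.card_mul_index]
    rfl
  have hCL : Subgroup.centralizer ({g} : Set G) ≤ L := by
    intro c hc
    obtain ⟨i, hi⟩ := hC c hc
    rw [hL, Subgroup.mem_comap, Subgroup.mem_zpowers_iff]
    refine ⟨i, ?_⟩
    rw [zpow_natCast]
    exact QuotientGroup.eq.2 hi
  have hL1 : L.index ≠ 1 := by
    intro h1
    rw [h1, one_mul] at hLidx
    apply hMn
    have : M.normalCore = M := eq_of_le_of_index_eq (Subgroup.normalCore_le M) hLidx.symm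
    rw [← this]; infer_instance
  have hdvd : L.index ∣ (Subgroup.centralizer ({g} : Set G)).index := Subgroup.index_dvd_of_le hCL
  rcases h g with h1 | h1
  · rw [h1] at hdvd; exact absurd (Nat.dvd_one.1 hdvd) hL1
  · have heq : L.index = (Subgroup.centralizer ({g} : Set G)).index :=
      ((Nat.dvd_prime h1).1 hdvd).resolve_left hL1
    have hCLeq : Subgroup.centralizer ({g} : Set G) = L := eq_of_le_of_index_eq hCL heq.symm
    refine ⟨hgM, h1, by rw [← heq]; exact hLidx.symm, hC, ?_⟩
    rw [hCLeq]
    intro k hk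
    rw [hL, Subgroup.mem_comap]
    have : QuotientGroup.mk' M.normalCore k = 1 := (QuotientGroup.eq_one_iff k).2 hk
    rw [this]; exact one_mem _

/-- Let `G` be a finite group every conjugacy class of which has size 1 or a prime. Then either `G` is nilpotent of class at most 2, or `G/Z(G)` is a non-abelian group of order `pq` for distinct primes `p, q` (a Frobenius group of order `pq`). -/
theorem result {G : Type*} [Group G] [Finite G]
    (h : ∀ x : G, (Subgroup.centralizer ({x} : Set G)).index = 1 ∨ ((Subgroup.centralizer ({x} : Set G)).index).Prime) :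
    Subgroup.upperCentralSeries G 2 = ⊤ ∨
      ∃ p q : ℕ, p.Prime ∧ q.Prime ∧ p ≠ q ∧ Nat.card (G ⧸ Subgroup.center G) = p * q ∧ ¬ IsMulCommutative (G ⧸ Subgroup.center G) := by
  by_cases hall : ∀ x : G, (Subgroup.centralizer ({x} : Set G)).Normal
  · left
    rw [eq_top_iff]
    intro x _
    rw [show (2 : ℕ) = 1 + 1 from rfl, Subgroup.mem_upperCentralSeries_succ_iff]
    intro y
    rw [Subgroup.upperCentralSeries_one, Subgroup.mem_center_iff]
    intro z
    have := comm_mem (Subgroup.centralizer {z}) (hall z) (h z) x y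
    exact (Subgroup.mem_centralizer_singleton_iff.1 this).symm
  · right
    push Not at hall
    obtain ⟨x, hx⟩ := hall
    have hp : (Subgroup.centralizer ({x} : Set G)).index.Prime :=
      (h x).resolve_left (fun h1 => hx (by rw [Subgroup.index_eq_one.1 h1]; infer_instance))
    have hxM : ∀ k, k ∈ Subgroup.centralizer ({x} : Set G) ↔ k * x = x * k :=
      fun k => Subgroup.mem_centralizer_singleton_iff
    have hZM : Subgroup.center G ≤ Subgroup.centralizer ({x} : Set G) :=
      Subgroup.center_le_centralizer _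
    generalize Subgroup.centralizer ({x} : Set G) = M at *
    have : Fact M.index.Prime := ⟨hp⟩
    have hdvd : M.index ∣ Nat.card (G ⧸ M.normalCore) :=
      Subgroup.index_dvd_of_le (Subgroup.normalCore_le M)
    obtain ⟨gb, hgb⟩ := exists_prime_orderOf_dvd_card' M.index hdvd
    obtain ⟨g, rfl⟩ := QuotientGroup.mk_surjective gb
    have hg1 : g ∉ M.normalCore := by
      intro hg
      have h1 : ((g : G) : G ⧸ M.normalCore) = 1 := (QuotientGroup.eq_one_iff g).2 hg
      rw [h1, orderOf_one] at hgb
      exact hp.one_lt.ne hgb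
    have hg2 : g ^ M.index ∈ M.normalCore := by
      rw [← QuotientGroup.eq_one_iff, QuotientGroup.mk_pow]
      conv_lhs => rw [← hgb]
      exact pow_orderOf_eq_one _
    obtain ⟨hgM, hr, hidx, hC, hKC⟩ := key M hp hx h g hg1 hg2
    have hKg : ∀ k ∈ M.normalCore, k * g = g * k :=
      fun k hk => Subgroup.mem_centralizer_singleton_iff.1 (hKC hk)
    have hKK : ∀ k ∈ M.normalCore, ∀ k' ∈ M.normalCore, k' * k = k * k' := by
      intro k hk k' hk'
      have h1 : g * k ∉ M.normalCore := fun h' => hg1 (by
        have := M.normalCore.mul_mem h' (M.normalCore.inv_mem hk)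
        simpa using this)
      have h2 : (g * k) ^ M.index ∈ M.normalCore := by
        rw [← QuotientGroup.eq_one_iff, QuotientGroup.mk_pow, QuotientGroup.mk_mul,
          (QuotientGroup.eq_one_iff k).2 hk, mul_one, ← QuotientGroup.mk_pow,
          QuotientGroup.eq_one_iff]
        exact hg2
      obtain ⟨-, -, -, -, hKC'⟩ := key M hp hx h (g * k) h1 h2
      have e1 : k' * (g * k) = (g * k) * k' := Subgroup.mem_centralizer_singleton_iff.1 (hKC' hk')
      have e2 : k' * g = g * k' := hKg k' hk'
      rw [← mul_assoc, e2, mul_assoc, mul_assoc] at e1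
      exact mul_left_cancel e1
    have hcent : Subgroup.centralizer (M.normalCore : Set G) = ⊤ := by
      have hle : Subgroup.centralizer ({g} : Set G) ≤
          Subgroup.centralizer (M.normalCore : Set G) := by
        intro c hc
        obtain ⟨i, hi⟩ := hC c hc
        have e : c = g ^ i * ((g ^ i)⁻¹ * c) := by group
        rw [e]
        refine mul_mem (pow_mem ?_ i) ?_
        · rw [Subgroup.mem_centralizer_iff]
          exact fun k hk => hKg k hk
        · rw [Subgroup.mem_centralizer_iff]
          exact fun k hk => hKK _ hi k hk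
      have hxc : x ∈ Subgroup.centralizer (M.normalCore : Set G) := by
        rw [Subgroup.mem_centralizer_iff]
        intro k hk
        exact (hxM k).1 (Subgroup.normalCore_le M hk)
      have hxg : x ∉ Subgroup.centralizer ({g} : Set G) := by
        intro hxg
        apply hgM
        rw [Subgroup.mem_centralizer_singleton_iff] at hxg
        exact (hxM g).2 hxg.symm
      have hd := Subgroup.index_dvd_of_le hle
      rcases (Nat.dvd_prime hr).1 hd with h1 | h1
      · exact Subgroup.index_eq_one.1 h1
      · exact absurd ((eq_of_le_of_index_eq hle h1.symm) ▸ hxc) hxg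
    have hKZ : M.normalCore = Subgroup.center G := by
      apply le_antisymm
      · intro k hk
        rw [Subgroup.mem_center_iff]
        intro a
        have ha : a ∈ Subgroup.centralizer (M.normalCore : Set G) := hcent ▸ Subgroup.mem_top a
        exact (Subgroup.mem_centralizer_iff.1 ha k hk).symm
      · exact Subgroup.normal_le_normalCore.2 hZM
    have hnc : ¬ IsMulCommutative (G ⧸ Subgroup.center G) := by
      intro hc
      apply hx
      refine ⟨fun m hm a => ?_⟩
      have e : ((m : G) : G ⧸ Subgroup.center G) = ((a * m * a⁻¹ : G) : G ⧸ Subgroup.center G) := by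
        rw [QuotientGroup.mk_mul, QuotientGroup.mk_mul, QuotientGroup.mk_inv,
          hc.is_comm.comm (a : G ⧸ Subgroup.center G) (m : G ⧸ Subgroup.center G),
          mul_inv_cancel_right]
      have e2 := M.mul_mem hm (hZM (QuotientGroup.eq.1 e))
      rwa [mul_inv_cancel_left] at e2
    refine ⟨M.index, (Subgroup.centralizer ({g} : Set G)).index, hp, hr, ?_, ?_, hnc⟩
    · intro heq
      apply hnc
      have hcard : Nat.card (G ⧸ Subgroup.center G) = M.index ^ 2 := by
        show (Subgroup.center G).index = _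
        rw [← hKZ, hidx, ← heq, pow_two]
      exact ⟨⟨IsPGroup.commutative_of_card_eq_prime_sq hcard⟩⟩
    · show (Subgroup.center G).index = _
      rw [← hKZ, hidx, mul_comm]

end Cfsg.Agent.S4314
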