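import Cfsg.Statements.S4416
-- import your own Cfsg.Agent.* helpers here
import Mathlib
import Cfsg.Agent.Lib.Helper29.Extra3

set_option autoImplicit false
open Cfsg

namespace Cfsg.Agent.S4416

/-- Classification of extraspecial 2-groups in intrinsic form. An extraspecial 2-group has order 2^(2m+1) for some m ≥ 1, and the number of its elements squaring to the identity is either 2^(2m) + 2^m or 2^(2m) − 2^m; two extraspecial 2-groups of the same order with the same number of such elements are isomorphic. (The two cases are the central products of m dihedral groups of order 8, and of m − 1 dihedral groups with one quaternion group.) -/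
theorem result (E : Type*) [Group E] [Finite E] (hE : Cfsg.IsExtraspecial 2 E) :
    (∃ m : ℕ, 1 ≤ m ∧ Nat.card E = 2 ^ (2 * m + 1) ∧
      (Nat.card {x : E // x ^ 2 = 1} = 2 ^ (2 * m) + 2 ^ m ∨ Nat.card {x : E // x ^ 2 = 1} = 2 ^ (2 * m) - 2 ^ m)) ∧
    ∀ (E' : Type*) [Group E'] [Finite E'], Cfsg.IsExtraspecial 2 E' → Nat.card E' = Nat.card E →
      Nat.card {x : E' // x ^ 2 = 1} = Nat.card {x : E // x ^ 2 = 1} → Nonempty (E ≃* E') := by
  haveI : Fact (Nat.Prime 2) := ⟨Nat.prime_two⟩
  obtain ⟨z, hz, g, x, hgx⟩ := Cfsg.Agent.Lib.Helper29.Extra.of_extraspecial hE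
  constructor
  · obtain ⟨m, hm1, hm2⟩ := Cfsg.Agent.Lib.Helper29.Extra.order_count (Nat.card E) E z hz rfl
    refine ⟨m, ?_, hm1, ?_⟩
    · obtain ⟨y, hxy⟩ := hz.exists_pair hgx
      have h1 := hz.card_gt hxy
      by_contra hcon
      have : m = 0 := by omega
      rw [this] at hm1
      norm_num at hm1
      omega
    · rcases hm2 with h | h
      · left; exact h
      · right
        have h' : Nat.card {x : E // x ^ 2 = 1} + 2 ^ m = 2 ^ (2 * m) := h
        omega
  · intro E' _ _ hE' hc hN
    obtain ⟨z', hz', -⟩ := Cfsg.Agent.Lib.Helper29.Extra.of_extraspecial hE'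
    obtain ⟨F, -⟩ := Cfsg.Agent.Lib.Helper29.Extra.iso_two (Nat.card E) E z E' z' hz hz' rfl hc
      hN.symm
    exact ⟨F⟩

end Cfsg.Agent.S4416
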