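import Cfsg.Statements.S4422
-- import your own Cfsg.Agent.* helpers here
import Mathlib

set_option autoImplicit false
open Cfsg

namespace Cfsg.Agent.S4422

theorem modEq_one_of_primes (e : ℕ) : ∀ m : ℕ, m ≠ 0 →
    (∀ r : ℕ, r.Prime → r ∣ m → r ≡ 1 [MOD e]) → m ≡ 1 [MOD e] := by
  intro m
  induction m using Nat.recOnMul with
  | zero => intro h; exact absurd rfl h
  | one => intro _ _; rfl
  | prime p hp => intro _ h; exact h p hp dvd_rfl
  | mul a b iha ihb =>
    intro hab h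
    have ha : a ≠ 0 := fun h0 => hab (by rw [h0, zero_mul])
    have hb : b ≠ 0 := fun h0 => hab (by rw [h0, mul_zero])
    have h1 := iha ha (fun r hr hd => h r hr (hd.mul_right b))
    have h2 := ihb hb (fun r hr hd => h r hr (hd.mul_left a))
    simpa using h1.mul h2

/-- Primitive divisors of `q^e - 1` are congruent to 1 modulo `e`. Let `q ≥ 2` and `e ≥ 1` be natural numbers and let `m` be a divisor of `q^e - 1` that is coprime to `q^i - 1` for every `1 ≤ i < e` (so `m` divides the primitive part of `q^e - 1`, the largest such divisor). Then `m ≡ 1 (mod e)`. -/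
theorem result (q e m : ℕ) (hq : 2 ≤ q) (he : 1 ≤ e)
    (hm : m ∣ q ^ e - 1) (hcop : ∀ i : ℕ, 1 ≤ i → i < e → Nat.Coprime m (q ^ i - 1)) :
    m % e = 1 % e := by
  have hpos : ∀ i : ℕ, 1 ≤ q ^ i := fun i => Nat.one_le_pow _ _ (by omega)
  have hqe : 0 < q ^ e - 1 := by
    have : 2 ^ 1 ≤ q ^ e := (Nat.pow_le_pow_left hq 1).trans (Nat.pow_le_pow_right (by omega) he)
    omega
  have hm0 : m ≠ 0 := by
    rintro rfl
    rw [zero_dvd_iff] at hm
    omega
  apply modEq_one_of_primes e m hm0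
  intro r hr hrm
  have : Fact r.Prime := ⟨hr⟩
  have hiff : ∀ i : ℕ, (q : ZMod r) ^ i = 1 ↔ r ∣ q ^ i - 1 := by
    intro i
    rw [← ZMod.natCast_eq_zero_iff, Nat.cast_sub (hpos i), Nat.cast_pow, Nat.cast_one, sub_eq_zero]
  have hord : orderOf (q : ZMod r) = e := by
    rw [orderOf_eq_iff he]
    refine ⟨(hiff e).mpr (hrm.trans hm), ?_⟩
    intro i hi hi0 h1
    have h2 := (hiff i).mp h1
    have h3 := hcop i hi0 hi
    have h4 : r ∣ Nat.gcd m (q ^ i - 1) := Nat.dvd_gcd hrm h2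
    rw [h3] at h4
    exact hr.one_lt.ne' (Nat.dvd_one.mp h4)
  have hq0 : (q : ZMod r) ≠ 0 := by
    intro h0
    have h1 := (hiff e).mpr (hrm.trans hm)
    rw [h0, zero_pow (by omega)] at h1
    exact zero_ne_one h1
  have hdvd := ZMod.orderOf_dvd_card_sub_one hq0
  rw [hord] at hdvd
  exact ((Nat.modEq_iff_dvd' hr.one_lt.le).mpr hdvd).symm

end Cfsg.Agent.S4422
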