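import Cfsg.Statements.S4424
import Cfsg.Agent.Lib.Helper24.BrauerFeit

set_option autoImplicit false
open Cfsg

namespace Cfsg.Agent.S4424

open Cfsg.Agent.Lib.Helper7 Cfsg.Agent.Lib.Helper24


/-- Let χ be an irreducible character of the finite group G lying in the p-block B (relative to a maximal ideal M of the algebraic integers containing p), and let p^a be the p-part of the order of G. Then the class function that equals p^a · χ on the p-regular elements and vanishes on the p-singular elements is an integer combination of the irreducible characters in B: there are integers a_ψ, zero for ψ outside B, with that function equal to Σ a_ψ ψ. -/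
theorem result {G : Type*} [Group G] [Finite G] (p : ℕ) [Fact p.Prime] (M : Ideal Cfsg.AlgInt) (hM : Cfsg.IsPModular p M) (B : Set (Cfsg.IrrCharacter G)) (hB : Cfsg.IsPBlock M B) (χ : Cfsg.IrrCharacter G) (hχ : χ ∈ B) : ∃ a : Cfsg.IrrCharacter G → ℤ, (∀ ψ, ψ ∉ B → a ψ = 0) ∧ (fun x : G => if p ∣ orderOf x then (0 : ℂ) else ((p ^ (Nat.card G).factorization p : ℕ) : ℂ) * (χ : G → ℂ) x) = fun x => ∑ᶠ ψ : Cfsg.IrrCharacter G, (a ψ : ℂ) * (ψ : G → ℂ) x := by
  classical
  haveI := Fintype.ofFinite G
  haveI := Fintype.ofFinite (IrrCharacter G)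
  choose N hN using fun ψ : IrrCharacter G => exists_int_contrib (p := p) χ ψ
  refine ⟨N, fun ψ hψ => ?_, ?_⟩
  · have h := hN ψ
    rw [contrib_eq_zero hM hB hχ hψ, mul_zero] at h
    exact_mod_cast h.symm
  · funext x
    rw [finsum_eq_sum_of_fintype]
    have h1 := congrFun (classFunction_eq_sum
      (isClassFunction_regPart (p := p) (isClassFunction_irr χ))) x
    simp only [Finset.sum_apply, Pi.smul_apply, smul_eq_mul] at h1
    have h2 : (if p ∣ orderOf x then (0 : ℂ)
        else ((p ^ (Nat.card G).factorization p : ℕ) : ℂ) * (χ : G → ℂ) x)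
        = (p : ℂ) ^ (Nat.card G).factorization p * regPart p (χ : G → ℂ) x := by
      by_cases hx : p ∣ orderOf x
      · simp [regPart, hx]
      · simp [regPart, hx]
    rw [h2, h1, Finset.mul_sum]
    apply Finset.sum_congr rfl
    intro ψ _
    rw [← hN ψ, mul_assoc]

end Cfsg.Agent.S4424
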