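import Cfsg.Statements.S4425
import Cfsg.Agent.Lib.Helper25.PReg
import Cfsg.Agent.Lib.Helper25.Codegree
import Cfsg.Agent.Lib.Helper2.CharInt

set_option autoImplicit false
open Cfsg

namespace Cfsg.Agent.S4425

open Cfsg.Agent.Lib.Helper25

/-- Let χ be an irreducible character of the finite group G, p a prime, p^a the p-part of the order of G and p^b the p-part of the degree χ(1). Let χ̃ be the class function equal to p^a · χ on p-regular elements and zero on p-singular elements. Then p^(−b) · χ̃ is a generalized character of G, while p^(−(b+1)) · χ̃ is not. -/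
theorem result {G : Type*} [Group G] [Finite G] (p : ℕ) [Fact p.Prime] (χ : Cfsg.IrrCharacter G) : Cfsg.IsGeneralizedCharacter G (fun x : G => if p ∣ orderOf x then (0 : ℂ) else ((p ^ ((Nat.card G).factorization p - (Cfsg.charDegree (χ : G → ℂ)).factorization p) : ℕ) : ℂ) * (χ : G → ℂ) x) ∧ ¬ Cfsg.IsGeneralizedCharacter G (fun x : G => if p ∣ orderOf x then (0 : ℂ) else ((p ^ (Nat.card G).factorization p : ℕ) : ℂ) / ((p ^ ((Cfsg.charDegree (χ : G → ℂ)).factorization p + 1) : ℕ) : ℂ) * (χ : G → ℂ) x) := by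
  classical
  have hp : p.Prime := Fact.out
  have : Fintype G := Fintype.ofFinite G
  have : Fintype (Cfsg.IrrCharacter G) := Fintype.ofFinite _
  obtain ⟨d, hd0, hd⟩ := Cfsg.Agent.Lib.Helper7.irr_apply_one χ.2
  rw [charDegree_eq hd]
  have hG0 : Nat.card G ≠ 0 := Nat.card_pos.ne'
  set a := (Nat.card G).factorization p with ha
  set b := d.factorization p with hb
  have hχc := Cfsg.Agent.Lib.Helper7.isCharacter_of_irr χ.2
  have hdG : d ∣ Nat.card G := by
    obtain ⟨n, ρ, hirr, hρ⟩ := χ.2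
    have h4 := Cfsg.Agent.Lib.Helper2.finrank_dvd_card ρ
    have h5 : (Module.finrank ℂ (Fin n → ℂ) : ℂ) = d := by
      rw [← hd, ← hρ, Representation.char_one]
    have h6 : Module.finrank ℂ (Fin n → ℂ) = d := by exact_mod_cast h5
    rwa [h6] at h4
  have hba : b ≤ a := (Nat.factorization_le_iff_dvd hd0.ne' hG0).2 hdG p
  have hpbd : p ^ b ∣ d := Nat.ordProj_dvd d p
  obtain ⟨n', hn'eq, hn'cop, hn'pos⟩ : ∃ n', p ^ a * n' = Nat.card G ∧ p.Coprime n' ∧ 0 < n' :=
    ⟨_, Nat.ordProj_mul_ordCompl_eq_self _ _, Nat.coprime_ordCompl hp hG0, Nat.ordCompl_pos p hG0⟩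
  have hpC : (p : ℂ) ≠ 0 := by exact_mod_cast hp.ne_zero
  constructor
  · have hθ := genChar_preg p hχc
    obtain ⟨m, hm, hsum⟩ := Cfsg.Agent.Lib.Helper11.genChar_eq_sum hθ
    have hdiv : ∀ ψ : Cfsg.IrrCharacter G, ((p ^ b : ℕ) : ℤ) ∣ m ψ := by
      intro ψ
      obtain ⟨n, ρ, hirr, hρ⟩ := χ.2
      have h5 : (Module.finrank ℂ (Fin n → ℂ) : ℂ) = d := by
        rw [← hd, ← hρ, Representation.char_one]
      have hψc := Cfsg.Agent.Lib.Helper7.isCharacter_of_irr ψ.2
      have hint := Cfsg.Agent.Lib.Helper2.isIntegral_sum_mul_char_div ρ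
        (fun g => if p ∣ orderOf g then 0 else (starRingEnd ℂ) ((ψ : G → ℂ) g))
        (by
          intro g h
          have h1 : orderOf (h * g * h⁻¹) = orderOf g := by
            have := orderOf_injective (MulAut.conj h).toMonoidHom (MulAut.conj h).injective g
            simpa using this
          simp only [h1, Cfsg.Agent.Lib.Helper7.isClassFunction_of_isCharacter hψc g h])
        (by
          intro g
          split_ifs
          · exact isIntegral_zero
          · have h1 := Cfsg.Agent.Lib.Helper7.char_isIntegral hψc g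
            exact h1.map (starRingEnd ℂ).toIntAlgHom)
      rw [h5, hρ] at hint
      have hmψ := hm ψ
      unfold Cfsg.classInner at hmψ
      have hsum2 : ∑ g : G, (if p ∣ orderOf g then 0 else ((p ^ a : ℕ) : ℂ) * (χ : G → ℂ) g) *
          (starRingEnd ℂ) ((ψ : G → ℂ) g) = ((p ^ a : ℕ) : ℂ) *
          ∑ g : G, (if p ∣ orderOf g then 0 else (starRingEnd ℂ) ((ψ : G → ℂ) g)) * (χ : G → ℂ) g := by
        rw [Finset.mul_sum]
        apply Finset.sum_congr rfl
        intro g _
        split_ifs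
        · simp
        · ring
      rw [hsum2] at hmψ
      have hGeq : (Nat.card G : ℂ) = ((p ^ a : ℕ) : ℂ) * (n' : ℂ) := by
        rw [← Nat.cast_mul, hn'eq]
      have hpa : ((p ^ a : ℕ) : ℂ) ≠ 0 := by exact_mod_cast (pow_pos hp.pos a).ne'
      have hn' : (n' : ℂ) ≠ 0 := by
        exact_mod_cast hn'pos.ne'
      have hdC : (d : ℂ) ≠ 0 := by exact_mod_cast hd0.ne'
      have hT : (∑ g : G, (if p ∣ orderOf g then 0 else (starRingEnd ℂ) ((ψ : G → ℂ) g)) *
          (χ : G → ℂ) g) = (m ψ : ℂ) * (n' : ℂ) := by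
        rw [← hmψ, hGeq]
        field_simp
      rw [hT] at hint
      obtain ⟨t, ht⟩ := Cfsg.Agent.Lib.Helper2.exists_int_of_isIntegral_of_rat hint
        ((m ψ : ℚ) * n' / d) (by push_cast; ring)
      have h6 : m ψ * (n' : ℤ) = t * d := by
        have : ((m ψ * (n' : ℤ) : ℤ) : ℂ) = ((t * d : ℤ) : ℂ) := by
          push_cast
          rw [← ht]
          field_simp
        exact_mod_cast this
      have h7 : ((p ^ b : ℕ) : ℤ) ∣ m ψ * (n' : ℤ) := by
        rw [h6]
        exact Dvd.dvd.mul_left (by exact_mod_cast hpbd) _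
      refine IsCoprime.dvd_of_dvd_mul_right ?_ h7
      rw [Nat.isCoprime_iff_coprime]
      exact Nat.Coprime.pow_left _ hn'cop
    choose c hc using hdiv
    have heq : (fun x : G => if p ∣ orderOf x then (0 : ℂ) else
        ((p ^ (a - b) : ℕ) : ℂ) * (χ : G → ℂ) x) =
        ∑ ψ : Cfsg.IrrCharacter G, c ψ • (ψ : G → ℂ) := by
      have hpb : ((p ^ b : ℕ) : ℂ) ≠ 0 := by exact_mod_cast (pow_pos hp.pos b).ne'
      funext x
      have h1 := congrFun hsum x
      apply mul_left_cancel₀ hpb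
      have h2 : ((p ^ b : ℕ) : ℂ) * (if p ∣ orderOf x then (0 : ℂ) else
          ((p ^ (a - b) : ℕ) : ℂ) * (χ : G → ℂ) x) = if p ∣ orderOf x then 0 else
          ((p ^ a : ℕ) : ℂ) * (χ : G → ℂ) x := by
        split_ifs
        · simp
        · rw [← mul_assoc, ← Nat.cast_mul, ← pow_add, Nat.add_sub_cancel' hba]
      rw [h2, h1]
      simp only [Finset.sum_apply, Pi.smul_apply]
      simp only [Finset.mul_sum, zsmul_eq_mul]
      apply Finset.sum_congr rfl
      intro ψ _
      rw [hc ψ]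
      push_cast
      ring
    rw [heq]
    exact Cfsg.Agent.Lib.Helper11.genChar_sum _ _ fun ψ _ =>
      Cfsg.Agent.Lib.Helper11.genChar_zsmul (Cfsg.Agent.Lib.Helper11.genChar_of_irr ψ.2) _
  · rintro ⟨α, β, hα, hβ, hαβ⟩
    let P : Sylow p G := default
    have hres : Cfsg.IsGeneralizedCharacter (P : Subgroup G)
        (fun x : (P : Subgroup G) => α x - β x) :=
      ⟨_, _, Cfsg.Agent.Lib.Helper7.isCharacter_restrict hα _,
        Cfsg.Agent.Lib.Helper7.isCharacter_restrict hβ _, rfl⟩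
    obtain ⟨t, ht⟩ := Cfsg.Agent.Lib.Helper11.genChar_inner_char_int hres
      (Cfsg.Agent.Lib.Helper7.isCharacter_one)
    unfold Cfsg.classInner at ht
    have hval : ∀ x : (P : Subgroup G), α x - β x = if x = 1 then
        ((p ^ a : ℕ) : ℂ) / ((p ^ (b + 1) : ℕ) : ℂ) * d else 0 := by
      intro x
      have h1 := congrFun hαβ (x : G)
      simp only [Pi.sub_apply] at h1
      rw [← h1]
      by_cases hx : x = 1
      · rw [if_pos hx, hx]
        simp only [OneMemClass.coe_one, orderOf_one, Nat.dvd_one, hp.ne_one, if_false, hd]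
      · rw [if_neg hx, if_pos]
        obtain ⟨k, hk⟩ := (IsPGroup.iff_orderOf.1 P.2) x
        rw [Subgroup.orderOf_coe, hk]
        apply dvd_pow_self
        rintro rfl
        rw [pow_zero, orderOf_eq_one_iff] at hk
        exact hx hk
    simp only [hval, map_one, mul_one, Finset.sum_ite_eq', Finset.mem_univ, if_true] at ht
    have hPc : Nat.card (P : Subgroup G) = p ^ a := Sylow.card_eq_multiplicity P
    rw [hPc] at ht
    have hpa : ((p ^ a : ℕ) : ℂ) ≠ 0 := by exact_mod_cast (pow_pos hp.pos a).ne'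
    have hpb1 : ((p ^ (b + 1) : ℕ) : ℂ) ≠ 0 := by exact_mod_cast (pow_pos hp.pos _).ne'
    have h2 : ((d : ℤ) : ℂ) = ((t * (p ^ (b + 1) : ℕ) : ℤ) : ℂ) := by
      push_cast
      rw [← ht]
      push_cast
      field_simp
    have h3 : (d : ℤ) = t * (p ^ (b + 1) : ℕ) := by exact_mod_cast h2
    have h4 : ((p ^ (b + 1) : ℕ) : ℤ) ∣ (d : ℤ) := ⟨t, by rw [h3]; ring⟩
    have h5 : p ^ (b + 1) ∣ d := by exact_mod_cast h4
    exact Nat.pow_succ_factorization_not_dvd hd0.ne' hp h5

end Cfsg.Agent.S4425
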