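import Cfsg.Statements.S4430
import Cfsg.Agent.Lib.Helper7.BlockFR

set_option autoImplicit false
open Cfsg
open Cfsg.Agent.Lib.Helper7
open scoped ComplexConjugate

namespace Cfsg.Agent.S4430

/-- Let H be a subgroup of the finite group G, b a block of H whose induced block B₀ in G is defined (relative to a maximal ideal M of the algebraic integers containing p), and ξ ∈ b. For a block B of G let n_B be the value at 1 of the B-part of the induced character ξ^G (a natural number: the sum over χ ∈ B of the multiplicity of χ in ξ^G times χ(1)). Then for B = B₀ the exact power of p dividing n_B equals the exact power of p dividing ξ^G(1), while for every other block B either n_B = 0 or n_B is divisible by a strictly higher power of p than ξ^G(1). -/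
theorem result {G : Type*} [Group G] [Fintype G] (p : ℕ) [Fact p.Prime] (M : Ideal Cfsg.AlgInt) (hM : Cfsg.IsPModular p M) (H : Subgroup G) [Fintype H] (b : Set (Cfsg.IrrCharacter H)) (B₀ : Set (Cfsg.IrrCharacter G)) (hind : Cfsg.IsInducedBlock M H b B₀) (ξ : Cfsg.IrrCharacter H) (hξ : ξ ∈ b) : (∃ n : ℕ, Cfsg.blockPart B₀ (Cfsg.indFun H (ξ : H → ℂ)) 1 = (n : ℂ) ∧ n ≠ 0 ∧ n.factorization p = (Cfsg.charDegree (Cfsg.indFun H (ξ : H → ℂ))).factorization p) ∧ ∀ B : Set (Cfsg.IrrCharacter G), Cfsg.IsPBlock M B → B ≠ B₀ → ∃ n : ℕ, Cfsg.blockPart B (Cfsg.indFun H (ξ : H → ℂ)) 1 = (n : ℂ) ∧ (n = 0 ∨ (Cfsg.charDegree (Cfsg.indFun H (ξ : H → ℂ))).factorization p < n.factorization p) := by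
  classical
  haveI := hM.2.1.isPrime
  haveI := Fintype.ofFinite (IrrCharacter G)
  have hp := hM.1
  set θ := Cfsg.indFun H (ξ : H → ℂ) with hθdef
  have hθ : IsCharacter G θ :=
    Cfsg.Agent.Lib.Helper25.isCharacter_indFun H _ (isCharacter_of_irr ξ.2)
  have hξ1 := irr_apply_one_ne_zero ξ.2
  have hi : (H.index : ℂ) ≠ 0 := by exact_mod_cast H.index_ne_zero_of_finite
  have hθ1 : θ 1 = (H.index : ℂ) * (ξ : H → ℂ) 1 := Cfsg.Agent.Lib.Helper25.indFun_one H _
  have hθ10 : θ 1 ≠ 0 := by rw [hθ1]; exact mul_ne_zero hi hξ1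
  have hdeg : (charDegree θ : ℂ) = θ 1 := charDegree_cast hθ
  have hdeg0 : charDegree θ ≠ 0 := by
    intro h
    apply hθ10
    rw [← hdeg, h, Nat.cast_zero]
  have hpart : ∀ B : Set (IrrCharacter G), blockPart B θ 1 = bdeg B θ := by
    intro B
    rw [blockPart_apply, bdeg]
    simp only [blockCoeff_eq_sum, Finset.mul_sum, Finset.sum_mul]
    rw [Finset.sum_comm]
    apply Finset.sum_congr rfl
    intro χ _
    by_cases hχ : χ ∈ B
    · simp only [Set.indicator_of_mem hχ]
      rw [classInner, Finset.mul_sum, Finset.sum_mul]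
      apply Finset.sum_congr rfl
      intro g _
      ring
    · simp [Set.indicator_of_notMem hχ]
  have hform : ∀ B : Set (IrrCharacter G),
      bdeg B θ = θ 1 * Om (resH H (blockCoeff B)) ξ := by
    intro B
    have h1 := sum_indFun_mul H (ξ : H → ℂ) (isClassFunction_blockCoeff B)
    unfold bdeg Om resH
    rw [Finset.sum_congr rfl (fun g _ => mul_comm (blockCoeff B g) (θ g)), h1, hθ1,
      Finset.sum_congr rfl (fun (t : H) _ => mul_comm ((ξ : H → ℂ) t) (blockCoeff B (t : G)))]
    field_simp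
  obtain ⟨χ0, hχ0⟩ := isPBlock_nonempty hind.2.1
  have key : ∀ B : Set (IrrCharacter G), IsPBlock M B →
      MemLocalIdeal M (Om (resH H (blockCoeff B)) ξ - B.indicator (fun _ => (1 : ℂ)) χ0) := by
    intro B hB
    have h1 := induced_congr hind hξ hχ0 (isClassFunction_blockCoeff B) (fun g => osima hB g)
    rwa [Om_blockCoeff] at h1
  have hquot : ∀ (B : Set (IrrCharacter G)) (n : ℕ), bdeg B θ = n →
      (n : ℂ) / (charDegree θ : ℂ) = Om (resH H (blockCoeff B)) ξ := by
    intro B n hn
    rw [← hn, hform, hdeg]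
    field_simp
  constructor
  · obtain ⟨n, hn, -⟩ := bdeg_char B₀ hθ
    have h1 := key B₀ hind.2.1
    rw [Set.indicator_of_mem hχ0, ← hquot B₀ n hn] at h1
    have h2 : ¬ MemLocalIdeal M ((n : ℂ) / (charDegree θ : ℂ)) :=
      not_memLocalIdeal_of_sub h1 not_memLocalIdeal_one
    have h3 : MemLocalRing M ((n : ℂ) / (charDegree θ : ℂ)) :=
      memLocalRing_of_sub h1 memLocalRing_one
    have hn0 : n ≠ 0 := by
      rintro rfl
      apply h2
      rw [Nat.cast_zero, zero_div]
      exact memLocalIdeal_zero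
    refine ⟨n, by rw [hpart, hn], hn0, ?_⟩
    rw [memLocalIdeal_div_iff hM hn0 hdeg0] at h2
    rw [memLocalRing_div_iff hM hn0 hdeg0] at h3
    omega
  · intro B hB hne
    obtain ⟨n, hn, -⟩ := bdeg_char B hθ
    have h1 := key B hB
    have hχ0B : χ0 ∉ B := by
      intro h
      apply hne
      rw [isPBlock_eq_blockOf hB h, isPBlock_eq_blockOf hind.2.1 hχ0]
    rw [Set.indicator_of_notMem hχ0B, sub_zero, ← hquot B n hn] at h1
    refine ⟨n, by rw [hpart, hn], ?_⟩
    by_cases hn0 : n = 0
    · exact Or.inl hn0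
    · right
      rwa [memLocalIdeal_div_iff hM hn0 hdeg0] at h1

end Cfsg.Agent.S4430
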