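import Cfsg.Statements.S4431
import Cfsg.Agent.Lib.Helper7.BlockThird

set_option autoImplicit false
open Cfsg
open Cfsg.Agent.Lib.Helper7
open scoped ComplexConjugate

namespace Cfsg.Agent.S4431

/-- Let H be a subgroup of the finite group G and b a block of H whose induced block B₀ in G is defined (relative to a maximal ideal M of the algebraic integers containing p). Let χ be an irreducible character of G, ψ ∈ b, and let η be the class function on H equal to p^a · χ on the p-regular elements of H and zero elsewhere, p^a being the p-part of the order of H. Then (a) if χ ∉ B₀, the number [η, ψ]/ψ(1) lies in the local ideal at M; (b) if χ ∈ B₀ has height zero, it does not. -/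
theorem result {G : Type*} [Group G] [Fintype G] (p : ℕ) [Fact p.Prime] (M : Ideal Cfsg.AlgInt) (hM : Cfsg.IsPModular p M) (H : Subgroup G) [Fintype H] (b : Set (Cfsg.IrrCharacter H)) (B₀ : Set (Cfsg.IrrCharacter G)) (hind : Cfsg.IsInducedBlock M H b B₀) (χ : Cfsg.IrrCharacter G) (ψ : Cfsg.IrrCharacter H) (hψ : ψ ∈ b) : (χ ∉ B₀ → Cfsg.MemLocalIdeal M (Cfsg.classInner (fun h : H => if p ∣ orderOf h then (0 : ℂ) else ((p ^ (Nat.card H).factorization p : ℕ) : ℂ) * (χ : G → ℂ) h) (ψ : H → ℂ) / (ψ : H → ℂ) 1)) ∧ (χ ∈ B₀ → Cfsg.blockHeight p B₀ (χ : G → ℂ) = 0 → ¬ Cfsg.MemLocalIdeal M (Cfsg.classInner (fun h : H => if p ∣ orderOf h then (0 : ℂ) else ((p ^ (Nat.card H).factorization p : ℕ) : ℂ) * (χ : G → ℂ) h) (ψ : H → ℂ) / (ψ : H → ℂ) 1)) := by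
  classical
  haveI := hM.2.1.isPrime
  have hp := hM.1
  set aH := (Nat.card H).factorization p with haH
  have hcc : IsClassFunction G (regCoeff p (χ : G → ℂ)) :=
    isClassFunction_regCoeff (isClassFunction_irr χ)
  have hcS : ∀ g, MemLocalRing M (regCoeff p (χ : G → ℂ) g) :=
    memLocalRing_regCoeff (isCharacter_of_irr χ.2)
  have hH0 : (Nat.card H : ℂ) ≠ 0 := by exact_mod_cast Nat.card_pos.ne'
  have hpa0 : ((p ^ aH : ℕ) : ℂ) ≠ 0 := by exact_mod_cast pow_ne_zero _ hp.ne_zero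
  have hψ1 := irr_apply_one_ne_zero ψ.2
  have key : Cfsg.classInner (fun h : H => if p ∣ orderOf h then (0 : ℂ)
        else ((p ^ aH : ℕ) : ℂ) * (χ : G → ℂ) h) (ψ : H → ℂ) / (ψ : H → ℂ) 1
      = (((p ^ aH : ℕ) : ℂ) / (Nat.card H : ℂ)) * Om (resH H (regCoeff p (χ : G → ℂ))) ψ := by
    rw [classInner, Om]
    have e : ∑ g : H, (if p ∣ orderOf g then (0 : ℂ) else ((p ^ aH : ℕ) : ℂ) * (χ : G → ℂ) g)
          * conj ((ψ : H → ℂ) g)
        = ((p ^ aH : ℕ) : ℂ) * ∑ g : H, resH H (regCoeff p (χ : G → ℂ)) g * (ψ : H → ℂ) g := by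
      rw [Finset.mul_sum]
      apply Fintype.sum_equiv (Equiv.inv H)
      intro g
      simp only [Equiv.inv_apply, resH, regCoeff, Subgroup.coe_inv, orderOf_inv, inv_inv,
        Subgroup.orderOf_coe]
      rw [char_inv_eq_conj (isCharacter_of_irr ψ.2)]
      split_ifs
      · simp
      · ring
    rw [e]
    field_simp
  have hu1 : MemLocalRing M (((p ^ aH : ℕ) : ℂ) / (Nat.card H : ℂ)) := by
    rw [memLocalRing_div_iff hM (pow_ne_zero _ hp.ne_zero) Nat.card_pos.ne', hp.factorization_pow]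
    simp [haH]
  have hu2 : MemLocalRing M ((Nat.card H : ℂ) / ((p ^ aH : ℕ) : ℂ)) := by
    rw [memLocalRing_div_iff hM Nat.card_pos.ne' (pow_ne_zero _ hp.ne_zero), hp.factorization_pow]
    simp [haH]
  obtain ⟨χ', hχ'⟩ := isPBlock_nonempty hind.2.1
  constructor
  · intro hχ
    rw [key]
    apply memLocalIdeal_mul_left hu1
    have h1 := induced_congr hind hψ hχ' hcc hcS
    have h2 : Om (regCoeff p (χ : G → ℂ)) χ' = 0 := by
      apply Om_regCoeff_eq_zero hM χ χ'
      intro hs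
      apply hχ
      rw [isPBlock_eq_blockOf hind.2.1 hχ']
      exact sameBlock_symm hs
    rwa [h2, sub_zero] at h1
  · intro hχ h0 hcon
    rw [key] at hcon
    have h1 := induced_congr hind hψ hχ hcc hcS
    have hU := not_memLocalIdeal_Om_regCoeff hM hind.2.1 hχ h0
    apply not_memLocalIdeal_of_sub h1 hU
    have h2 := memLocalIdeal_mul_left hu2 hcon
    have e : (Nat.card H : ℂ) / ((p ^ aH : ℕ) : ℂ) * (((p ^ aH : ℕ) : ℂ) / (Nat.card H : ℂ)
        * Om (resH H (regCoeff p (χ : G → ℂ))) ψ) = Om (resH H (regCoeff p (χ : G → ℂ))) ψ := by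
      field_simp
    rwa [e] at h2

end Cfsg.Agent.S4431
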