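import Cfsg.Statements.S4435
import Cfsg.Agent.Lib.Helper7.BlockFR
import Cfsg.Agent.Lib.Helper24.BlockSection

set_option autoImplicit false
open Cfsg

namespace Cfsg.Agent.S4435

/-- Let N be a normal subgroup of the finite group G, b a block of N (relative to a maximal ideal M of the algebraic integers containing p), and T the stabilizer of b in G (the elements g such that conjugating any member of b by g gives a member of b); N ≤ T. Say that a block of T (or of G) covers b when some member has a constituent in b on restriction to N. Then: (i) every block B′ of T covering b induces a block B of G, B covers b, every ψ ∈ B′ induces to an irreducible character of G, and B consists exactly of the characters induced from members of B′; (ii) distinct blocks of T covering b induce distinct blocks of G; (iii) every block of G covering b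 is induced by some block of T covering b. -/
theorem result {G : Type*} [Group G] [Fintype G] (p : ℕ) [Fact p.Prime] (M : Ideal Cfsg.AlgInt) (hM : Cfsg.IsPModular p M) (N : Subgroup G) [hN : N.Normal] [Fintype N] (b : Set (Cfsg.IrrCharacter N)) (hb : Cfsg.IsPBlock M b) (T : Subgroup G) [Fintype T] (hT : ∀ g : G, g ∈ T ↔ ∀ θ ∈ b, ∀ θ' : Cfsg.IrrCharacter N, (∀ n : N, (θ' : N → ℂ) n = (θ : N → ℂ) ⟨g * n * g⁻¹, hN.conj_mem n n.2 g⟩) → θ' ∈ b) (hNT : N ≤ T) : (∀ B' : Set (Cfsg.IrrCharacter T), Cfsg.IsPBlock M B' → (∃ ψ ∈ B', ∃ θ ∈ b, Cfsg.classInner (fun n : N => (ψ : T → ℂ) ⟨(n : G), hNT n.2⟩) (θ : N → ℂ) ≠ 0) → ∃ B : Set (Cfsg.IrrCharacter G), Cfsg.IsInducedBlock M T B' B ∧ (∃ χ ∈ B, ∃ θ ∈ b, Cfsg.classInner (fun n : N => (χ : G → ℂ) n) (θ : N → ℂ) ≠ 0) ∧ (∀ ψ ∈ B', Cfsg.IsIrrCharacter G (Cfsg.indFun T (ψ : T → ℂ))) ∧ ∀ χ : Cfsg.IrrCharacter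 G, χ ∈ B ↔ ∃ ψ ∈ B', (χ : G → ℂ) = Cfsg.indFun T (ψ : T → ℂ)) ∧ (∀ B'₁ B'₂ : Set (Cfsg.IrrCharacter T), Cfsg.IsPBlock M B'₁ → Cfsg.IsPBlock M B'₂ → (∃ ψ ∈ B'₁, ∃ θ ∈ b, Cfsg.classInner (fun n : N => (ψ : T → ℂ) ⟨(n : G), hNT n.2⟩) (θ : N → ℂ) ≠ 0) → (∃ ψ ∈ B'₂, ∃ θ ∈ b, Cfsg.classInner (fun n : N => (ψ : T → ℂ) ⟨(n : G), hNT n.2⟩) (θ : N → ℂ) ≠ 0) → ∀ B : Set (Cfsg.IrrCharacter G), Cfsg.IsInducedBlock M T B'₁ B → Cfsg.IsInducedBlock M T B'₂ B → B'₁ = B'₂) ∧ (∀ B : Set (Cfsg.IrrCharacter G), Cfsg.IsPBlock M B → (∃ χ ∈ B, ∃ θ ∈ b, Cfsg.classInner (fun n : N => (χ : G → ℂ) n) (θ : N → ℂ) ≠ 0) → ∃ B' : Set (Cfsg.IrrCharacter T), Cfsg.IsPBlock M B' ∧ (∃ ψ ∈ B', ∃ θ ∈ b, Cfsg.classInner (fun n : N => (ψ : T → ℂ) ⟨(n : G), hNT n.2⟩) (θ : N → ℂ) ≠ 0) ∧ Cfsg.IsInducedBlock M T B' B) := by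
  haveI := Cfsg.Agent.Lib.Helper7.IsPModular.isPrime hM
  have hT' := Cfsg.Agent.Lib.Helper7.stab_hyp N T hT
  refine ⟨?_, ?_, ?_⟩
  · intro B' hB' hcov
    obtain ⟨hall, B, hind, hc, hmem⟩ := Cfsg.Agent.Lib.Helper7.fr_block N T hNT hb hT' hB' hcov
    exact ⟨B, hind, hc, fun ψ hψ => Cfsg.Agent.Lib.Helper7.fr_irr N T hNT hb hT' (hall ψ hψ), hmem⟩
  · intro B'₁ B'₂ hB₁ hB₂ hcov₁ hcov₂ B hi₁ hi₂
    obtain ⟨hall₁, B₁, hind₁, -, hmem₁⟩ := Cfsg.Agent.Lib.Helper7.fr_block N T hNT hb hT' hB₁ hcov₁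
    obtain ⟨hall₂, B₂, hind₂, -, hmem₂⟩ := Cfsg.Agent.Lib.Helper7.fr_block N T hNT hb hT' hB₂ hcov₂
    have e₁ : B = B₁ := Cfsg.Agent.Lib.Helper24.induced_unique hi₁ hind₁
    have e₂ : B = B₂ := Cfsg.Agent.Lib.Helper24.induced_unique hi₂ hind₂
    obtain ⟨ψ₁, hψ₁⟩ := Cfsg.Agent.Lib.Helper7.isPBlock_nonempty hB₁
    have h1 : (⟨Cfsg.indFun T (ψ₁ : T → ℂ),
        Cfsg.Agent.Lib.Helper7.fr_irr N T hNT hb hT' (hall₁ ψ₁ hψ₁)⟩ : Cfsg.IrrCharacter G) ∈ B₁ :=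
      (hmem₁ _).2 ⟨ψ₁, hψ₁, rfl⟩
    rw [← e₁, e₂] at h1
    obtain ⟨ψ₂, hψ₂, h2⟩ := (hmem₂ _).1 h1
    have h3 : ψ₁ = ψ₂ := Cfsg.Agent.Lib.Helper7.fr_inj N T hNT hb hT' (hall₁ ψ₁ hψ₁) (hall₂ ψ₂ hψ₂) h2
    rw [Cfsg.Agent.Lib.Helper7.isPBlock_eq_blockOf hB₁ hψ₁,
      Cfsg.Agent.Lib.Helper7.isPBlock_eq_blockOf hB₂ hψ₂, h3]
  · intro B hB hcov
    obtain ⟨χ, hχ, hov⟩ := hcov
    obtain ⟨η, hη, hc⟩ := Cfsg.Agent.Lib.Helper7.fr_exists N T hNT hT' hov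
    have he := (Cfsg.Agent.Lib.Helper7.fr_core N T hNT hb hT' hη hc).1
    have hB' : Cfsg.IsPBlock M (Cfsg.blockOf M (η : T → ℂ)) := ⟨η, rfl⟩
    have hcov' : ∃ ψ ∈ Cfsg.blockOf M (η : T → ℂ), Cfsg.Agent.Lib.Helper7.Over N T hNT b (ψ : T → ℂ) :=
      ⟨η, Cfsg.Agent.Lib.Helper7.self_mem_blockOf η, hη⟩
    obtain ⟨hall, B₁, hind, -, hmem⟩ := Cfsg.Agent.Lib.Helper7.fr_block N T hNT hb hT' hB' hcov'
    have h1 : χ ∈ B₁ := (hmem χ).2 ⟨η, Cfsg.Agent.Lib.Helper7.self_mem_blockOf η, he⟩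
    have e : B = B₁ := by
      rw [Cfsg.Agent.Lib.Helper7.isPBlock_eq_blockOf hB hχ,
        Cfsg.Agent.Lib.Helper7.isPBlock_eq_blockOf hind.2.1 h1]
    refine ⟨_, hB', hcov', ?_⟩
    rw [e]
    exact hind

end Cfsg.Agent.S4435
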