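import Cfsg.Statements.S4436
import Cfsg.Agent.Lib.Helper7.BlockFR2

set_option autoImplicit false
open Cfsg

namespace Cfsg.Agent.S4436

/-- Let N be a normal subgroup of the finite group G, b a block of N (relative to a maximal ideal M of the algebraic integers containing p), T the stabilizer of b in G, N ≤ T, and B′ a block of T covering b (some member of B′ has a constituent in b on restriction to N) that induces the block B of G. Then every defect group of B′ is a defect group of B, and for every ψ ∈ B′ the induced character ψ^G is an irreducible character of G lying in B with the same height as ψ. -/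
theorem result {G : Type*} [Group G] [Fintype G] (p : ℕ) [Fact p.Prime] (M : Ideal Cfsg.AlgInt) (hM : Cfsg.IsPModular p M) (N : Subgroup G) [hN : N.Normal] [Fintype N] (b : Set (Cfsg.IrrCharacter N)) (hb : Cfsg.IsPBlock M b) (T : Subgroup G) [Fintype T] (hT : ∀ g : G, g ∈ T ↔ ∀ θ ∈ b, ∀ θ' : Cfsg.IrrCharacter N, (∀ n : N, (θ' : N → ℂ) n = (θ : N → ℂ) ⟨g * n * g⁻¹, hN.conj_mem n n.2 g⟩) → θ' ∈ b) (hNT : N ≤ T) (B' : Set (Cfsg.IrrCharacter T)) (hB' : Cfsg.IsPBlock M B') (hcov : (∃ ψ ∈ B', ∃ θ ∈ b, Cfsg.classInner (fun n : N => (ψ : T → ℂ) ⟨(n : G), hNT n.2⟩) (θ : N → ℂ) ≠ 0)) (B : Set (Cfsg.IrrCharacter G)) (hind : Cfsg.IsInducedBlock M T B' B) : (∀ D : Subgroup T, Cfsg.IsDefectGroup p M B' D → Cfsg.IsDefectGroup p M B (D.map T.subtype)) ∧ ∀ ψ ∈ B', ∃ χ ∈ B, (χ : G → ℂ) = Cfsg.indFun T (ψ : T → ℂ) ∧ Cfsg.blockHeight p B (χ : G → ℂ) = Cfsg.blockHeight p B' (ψ : T → ℂ) := by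
  haveI := Cfsg.Agent.Lib.Helper7.IsPModular.isPrime hM
  have hT' := Cfsg.Agent.Lib.Helper7.stab_hyp N T hT
  obtain ⟨hall, B₁, hind₁, -, hmem⟩ := Cfsg.Agent.Lib.Helper7.fr_block N T hNT hb hT' hB' hcov
  have e : B = B₁ := Cfsg.Agent.Lib.Helper24.induced_unique hind hind₁
  subst e
  have hirr : ∀ ψ ∈ B', Cfsg.IsIrrCharacter G (Cfsg.indFun T (ψ : T → ℂ)) :=
    fun ψ hψ => Cfsg.Agent.Lib.Helper7.fr_irr N T hNT hb hT' (hall ψ hψ)
  refine ⟨fun D hD => Cfsg.Agent.Lib.Helper7.defectGroup_indFun T hM hind hmem hirr hD, ?_⟩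
  intro ψ hψ
  refine ⟨⟨Cfsg.indFun T (ψ : T → ℂ), hirr ψ hψ⟩, (hmem _).2 ⟨ψ, hψ, rfl⟩, rfl, ?_⟩
  exact Cfsg.Agent.Lib.Helper7.blockHeight_indFun T p hmem hirr
    (χ := ⟨Cfsg.indFun T (ψ : T → ℂ), hirr ψ hψ⟩) hψ rfl

end Cfsg.Agent.S4436
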