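import Cfsg.Statements.S4447
import Cfsg.Agent.Lib.Helper25.CopAct2

set_option autoImplicit false
open Cfsg

namespace Cfsg.Agent.S4447

open Cfsg.Agent.Lib.Helper25 Cfsg.Agent.Lib

/-- Inside a finite group Γ let S normalise G and also normalise a normal subgroup N of G, with the order of S coprime to the index of N in G and S or G/N solvable. Then for every S-invariant irreducible character χ of G, the restriction of χ to N has an S-invariant irreducible constituent. -/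
theorem result {Γ : Type*} [Group Γ] [Fintype Γ] (G S N : Subgroup Γ) [Fintype G] [Fintype N] (hnorm : ∀ s ∈ S, ∀ g ∈ G, s * g * s⁻¹ ∈ G) (hNG : N ≤ G) [hNn : (N.subgroupOf G).Normal] (hNS : ∀ s ∈ S, ∀ n ∈ N, s * n * s⁻¹ ∈ N) (hcop : (N.relIndex G).Coprime (Nat.card S)) (hsolv : Group.IsSolvable S ∨ Group.IsSolvable (G ⧸ N.subgroupOf G)) (χ : Cfsg.IrrCharacter G) (hinv : (∀ s ∈ S, ∀ g g' : G, (g' : Γ) = s * g * s⁻¹ → (χ : G → ℂ) g' = (χ : G → ℂ) g)) : ∃ θ : Cfsg.IrrCharacter N, Cfsg.classInner (fun n : N => (χ : G → ℂ) ⟨n, hNG n.2⟩) (θ : N → ℂ) ≠ 0 ∧ (∀ s ∈ S, ∀ g g' : N, (g' : Γ) = s * g * s⁻¹ → (θ : N → ℂ) g' = (θ : N → ℂ) g) := by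
  classical
  have : Fintype (N.subgroupOf G) := Fintype.ofFinite _
  have hst : ∀ (s : S) (l : G), conjAutHom G S hnorm s l ∈ N.subgroupOf G ↔ l ∈ N.subgroupOf G := by
    intro s l
    rw [Subgroup.mem_subgroupOf, Subgroup.mem_subgroupOf]
    show ((conjAut G (s : Γ) (hnorm s s.2) l : G) : Γ) ∈ N ↔ _
    rw [conjAut_apply]
    constructor
    · intro h
      have := hNS (s : Γ)⁻¹ (S.inv_mem s.2) _ h
      simpa [mul_assoc] using this
    · exact hNS s s.2 l
  obtain ⟨θ', h1, h2⟩ := exists_inv_below (conjAutHom G S hnorm) (N.subgroupOf G) hst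
    (by rw [Nat.coprime_comm]; exact hcop) hsolv χ.2 (by
      intro s g
      exact hinv s s.2 g _ (conjAut_apply G (s : Γ) (hnorm s s.2) g))
  set e := Subgroup.subgroupOfEquivOfLe hNG with he
  refine ⟨⟨(θ' : N.subgroupOf G → ℂ) ∘ e.symm, isIrrCharacter_comp_equiv e.symm θ'.2⟩, ?_, ?_⟩
  · rw [← classInner_comp_mulEquiv e]
    have e1 : (fun x => ((θ' : N.subgroupOf G → ℂ) ∘ e.symm) (e x)) = (θ' : N.subgroupOf G → ℂ) := by
      funext x
      show (θ' : N.subgroupOf G → ℂ) (e.symm (e x)) = _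
      rw [MulEquiv.symm_apply_apply]
    show classInner _ (fun x => ((θ' : N.subgroupOf G → ℂ) ∘ e.symm) (e x)) ≠ 0
    rw [e1]
    exact h1
  · intro s hs g g' hg
    have h3 := h2 ⟨s, hs⟩ (e.symm g)
    show (θ' : N.subgroupOf G → ℂ) (e.symm g') = (θ' : N.subgroupOf G → ℂ) (e.symm g)
    rw [← h3]
    apply congrArg
    apply Subtype.ext
    apply Subtype.ext
    rw [restrictAutHom_coe]
    show (g' : Γ) = ((conjAut G s (hnorm s hs) _ : G) : Γ)
    rw [conjAut_apply, hg]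
    rfl

end Cfsg.Agent.S4447
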