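import Cfsg.Statements.S4448
import Cfsg.Agent.Lib.Helper25.CopAct5

set_option autoImplicit false
open Cfsg

namespace Cfsg.Agent.S4448

open Cfsg.Agent.Lib.Helper25 Cfsg.Agent.Lib

/-- Inside a finite group Γ let S normalise G and also normalise a normal subgroup N of G, with the order of S coprime to the index of N in G and G/N solvable. Then for every S-invariant irreducible character ϑ of N, the induced character ϑ^G has an S-invariant irreducible constituent. -/
theorem result {Γ : Type*} [Group Γ] [Fintype Γ] (G S N : Subgroup Γ) [Fintype G] [Fintype N] (hnorm : ∀ s ∈ S, ∀ g ∈ G, s * g * s⁻¹ ∈ G) (hNG : N ≤ G) [hNn : (N.subgroupOf G).Normal] (hNS : ∀ s ∈ S, ∀ n ∈ N, s * n * s⁻¹ ∈ N) (hcop : (N.relIndex G).Coprime (Nat.card S)) (hsolv : Group.IsSolvable (G ⧸ N.subgroupOf G)) (θ : Cfsg.IrrCharacter N) (hinv : (∀ s ∈ S, ∀ g g' : N, (g' : Γ) = s * g * s⁻¹ → (θ : N → ℂ) g' = (θ : N → ℂ) g)) : ∃ χ : Cfsg.IrrCharacter G, Cfsg.classInner (fun n : N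 => (χ : G → ℂ) ⟨n, hNG n.2⟩) (θ : N → ℂ) ≠ 0 ∧ (∀ s ∈ S, ∀ g g' : G, (g' : Γ) = s * g * s⁻¹ → (χ : G → ℂ) g' = (χ : G → ℂ) g) := by
  classical
  have : Fintype (N.subgroupOf G) := Fintype.ofFinite _
  have hst : ∀ (s : S) (l : G), conjAutHom G S hnorm s l ∈ N.subgroupOf G ↔ l ∈ N.subgroupOf G := by
    intro s l
    rw [Subgroup.mem_subgroupOf, Subgroup.mem_subgroupOf]
    show ((conjAut G (s : Γ) (hnorm s s.2) l : G) : Γ) ∈ N ↔ _
    rw [conjAut_apply]
    constructor
    · intro h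
      have := hNS (s : Γ)⁻¹ (S.inv_mem s.2) _ h
      simpa [mul_assoc] using this
    · exact hNS s s.2 l
  obtain ⟨k, hk⟩ := (Group.isSolvable_def _).mp hsolv
  have hk' : derivedSeries G k ≤ N.subgroupOf G := by
    rw [← map_derivedSeries_eq (QuotientGroup.mk'_surjective (N.subgroupOf G)),
      Subgroup.map_eq_bot_iff, QuotientGroup.ker_mk'] at hk
    exact hk
  obtain ⟨χ, hχ, h1, h2⟩ := exists_inv_above_solvable (conjAutHom G S hnorm) k (N.subgroupOf G) hst
    hk' (by rw [Nat.coprime_comm]; exact hcop) _ (isIrrCharacter_subgroupOf N hNG θ.2) (by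
      intro s n
      refine hinv s s.2 ⟨n, Subgroup.mem_subgroupOf.mp n.2⟩ _ ?_
      show (((restrictAutHom (conjAutHom G S hnorm) (N.subgroupOf G) hst s n :
        N.subgroupOf G) : G) : Γ) = _
      rw [restrictAutHom_coe]
      exact conjAut_apply G (s : Γ) (hnorm s s.2) n)
  refine ⟨⟨χ, hχ⟩, ?_, ?_⟩
  · rw [← classInner_subgroupOf N hNG]
    exact h1
  · intro s hs g g' hg
    have h3 := h2 ⟨s, hs⟩ g
    show χ g' = χ g
    rw [← h3]
    apply congrArg
    apply Subtype.ext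
    rw [hg]
    exact (conjAut_apply G s (hnorm s hs) g).symm

end Cfsg.Agent.S4448
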