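import Cfsg.Statements.S4450
import Cfsg.Agent.Lib.Helper25.CopAct10

set_option autoImplicit false
open Cfsg

namespace Cfsg.Agent.S4450

open Cfsg.Agent.Lib.Helper25 Cfsg.Agent.Lib

/-- Let N ≤ G be normal subgroups of the finite group Γ with the index of G in Γ coprime to the index of N in G, and Γ/G or G/N solvable. Then for every irreducible character ϑ of N invariant under conjugation by Γ, the induced character ϑ^G has an irreducible constituent invariant under conjugation by Γ. -/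
theorem result {Γ : Type*} [Group Γ] [Fintype Γ] (G N : Subgroup Γ) [hG : G.Normal] [hN : N.Normal] [Fintype G] [Fintype N] (hNG : N ≤ G) (hcop : (G.index).Coprime (N.relIndex G)) (hsolv : Group.IsSolvable (Γ ⧸ G) ∨ Group.IsSolvable (G ⧸ N.subgroupOf G)) (θ : Cfsg.IrrCharacter N) (hinv : ∀ (x : Γ) (n : N), (θ : N → ℂ) ⟨x * n * x⁻¹, hN.conj_mem n n.2 x⟩ = (θ : N → ℂ) n) : ∃ χ : Cfsg.IrrCharacter G, Cfsg.classInner (fun n : N => (χ : G → ℂ) ⟨n, hNG n.2⟩) (θ : N → ℂ) ≠ 0 ∧ ∀ (x : Γ) (g : G), (χ : G → ℂ) ⟨x * g * x⁻¹, hG.conj_mem g g.2 x⟩ = (χ : G → ℂ) g := by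
  have hs : SolvHyp G N := by
    rcases hsolv with h | h
    · left
      obtain ⟨k, hk⟩ := (Group.isSolvable_def _).mp h
      refine ⟨k, ?_⟩
      rw [← map_derivedSeries_eq (QuotientGroup.mk'_surjective G),
        Subgroup.map_eq_bot_iff, QuotientGroup.ker_mk'] at hk
      exact hk
    · right
      obtain ⟨k, hk⟩ := (Group.isSolvable_def _).mp h
      refine ⟨k, ?_⟩
      rw [← map_derivedSeries_eq (QuotientGroup.mk'_surjective (N.subgroupOf G)),
        Subgroup.map_eq_bot_iff, QuotientGroup.ker_mk'] at hk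
      exact fun y hy => Subgroup.mem_subgroupOf.mp (hk hy)
  obtain ⟨χ, hχ, h0, hi⟩ := hasInvAbove_general G N hNG hcop hs θ.2 hinv
  exact ⟨⟨χ, hχ⟩, h0, hi⟩

end Cfsg.Agent.S4450
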