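import Cfsg.Statements.S4452
import Cfsg.Agent.Lib.Helper25.Cop3

set_option autoImplicit false
open Cfsg

namespace Cfsg.Agent.S4452

open Cfsg.Agent.Lib.Helper25

/-- Let the finite group G be the product of a normal subgroup K and a solvable subgroup H of coprime orders, and let N = N_G(H). Then the number of irreducible characters of G of degree coprime to the order of H equals the number of irreducible characters of N of degree coprime to the order of H. (The two sets are in fact in a canonical bijection; only the equality of their sizes is stated here.) -/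
theorem result {G : Type*} [Group G] [Finite G] (K H : Subgroup G) [K.Normal] (hKH : K ⊔ H = ⊤) (hcop : (Nat.card K).Coprime (Nat.card H)) (hsolv : Group.IsSolvable H) : Nat.card {χ : Cfsg.IrrCharacter G // (Cfsg.charDegree (χ : G → ℂ)).Coprime (Nat.card H)} = Nat.card {η : Cfsg.IrrCharacter (Subgroup.normalizer (H : Set G)) // (Cfsg.charDegree (η : Subgroup.normalizer (H : Set G) → ℂ)).Coprime (Nat.card H)} := by
  classical
  have hH𝒩 : H ≤ Subgroup.normalizer (H : Set G) := Subgroup.le_normalizer
  obtain ⟨π, hπK, hπH⟩ := exists_retract K H hKH hcop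
  have hsup : K.subgroupOf (Subgroup.normalizer (H : Set G)) ⊔
      H.subgroupOf (Subgroup.normalizer (H : Set G)) = ⊤ := by
    rw [eq_top_iff]
    intro x _
    have h1 := retract_mul_inv_mem K H π hπK hπH (x : G)
    have h2 : ((π x : H) : G) ∈ Subgroup.normalizer (H : Set G) := hH𝒩 (π x).2
    have h3 : x = (x * (⟨_, h2⟩ : Subgroup.normalizer (H : Set G))⁻¹) * ⟨_, h2⟩ := by group
    rw [h3]
    apply Subgroup.mul_mem_sup
    · rw [Subgroup.mem_subgroupOf]
      exact h1
    · rw [Subgroup.mem_subgroupOf]
      exact (π x).2
  have hcardH : Nat.card (H.subgroupOf (Subgroup.normalizer (H : Set G))) = Nat.card H :=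
    Nat.card_congr (Subgroup.subgroupOfEquivOfLe hH𝒩).toEquiv
  have hcardK : Nat.card (K.subgroupOf (Subgroup.normalizer (H : Set G))) ∣ Nat.card K :=
    Subgroup.card_comap_dvd_of_injective K _ (Subgroup.subtype_injective _)
  have hsolv' : Group.IsSolvable (H.subgroupOf (Subgroup.normalizer (H : Set G))) :=
    Group.isSolvable_of_isSolvable_injective
      (f := (Subgroup.subgroupOfEquivOfLe hH𝒩).toMonoidHom)
      (Subgroup.subgroupOfEquivOfLe hH𝒩).injective
  have hA := card_irr_coprime K H hKH hcop hsolv
  have hB := card_irr_coprime (K.subgroupOf (Subgroup.normalizer (H : Set G)))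
    (H.subgroupOf (Subgroup.normalizer (H : Set G))) hsup
    (by rw [hcardH]; exact Nat.Coprime.coprime_dvd_left hcardK hcop) hsolv'
  rw [hcardH] at hB
  rw [hA, hB]
  have hle : K ⊓ Subgroup.centralizer (H : Set G) ≤ Subgroup.normalizer (H : Set G) := by
    intro x hx
    rw [mem_inf_centralizer] at hx
    rw [Subgroup.mem_normalizer_iff]
    intro h
    constructor
    · intro hh
      have : x * h * x⁻¹ = h := by rw [← hx.2 h hh]; group
      rw [this]
      exact hh
    · intro hh
      have h1 := hx.2 _ hh
      have : x * h * x⁻¹ = h := by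
        have h2 : x * h * x⁻¹ * x = x * h := by group
        rw [h2] at h1
        have h3 := mul_left_cancel h1
        exact h3.symm
      rw [← this]
      exact hh
  have hC : K.subgroupOf (Subgroup.normalizer (H : Set G)) ⊓
      Subgroup.centralizer ((H.subgroupOf (Subgroup.normalizer (H : Set G)) :
        Subgroup (Subgroup.normalizer (H : Set G))) : Set (Subgroup.normalizer (H : Set G))) =
      (K ⊓ Subgroup.centralizer (H : Set G)).subgroupOf (Subgroup.normalizer (H : Set G)) := by
    ext x
    rw [mem_inf_centralizer, Subgroup.mem_subgroupOf, Subgroup.mem_subgroupOf, mem_inf_centralizer]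
    refine and_congr Iff.rfl ⟨fun h s hs => ?_, fun h s hs => ?_⟩
    · have := h ⟨s, hH𝒩 hs⟩ (by rw [Subgroup.mem_subgroupOf]; exact hs)
      exact congrArg Subtype.val this
    · apply Subtype.ext
      exact h s (by rw [Subgroup.mem_subgroupOf] at hs; exact hs)
  rw [hC, card_irr_congr (Subgroup.subgroupOfEquivOfLe hle)]
  congr 1
  apply Nat.card_congr
  refine ⟨fun f => f.comp (Subgroup.subgroupOfEquivOfLe hH𝒩).toMonoidHom,
    fun f => f.comp (Subgroup.subgroupOfEquivOfLe hH𝒩).symm.toMonoidHom, ?_, ?_⟩
  · intro f
    ext x
    simp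
  · intro f
    ext x
    simp

end Cfsg.Agent.S4452
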