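import Cfsg.Statements.S4454
import Cfsg.Agent.Lib.Helper25.Frob2
import Cfsg.Agent.Lib.Helper25.CopAct5

set_option autoImplicit false
open Cfsg

namespace Cfsg.Agent.S4454

open Cfsg.Agent.Lib.Helper25 Cfsg.Agent.Lib

/-- Let N ≤ G be normal subgroups of the finite group Γ with Γ/G cyclic and Γ/N a Frobenius group with kernel G/N: G ≠ Γ, N ≠ G, and no element of Γ outside G fixes a non-identity coset of N in G under conjugation. Let ϑ be an irreducible character of N invariant under conjugation by Γ and suppose ϑ is fully ramified in G: the character of G induced from ϑ equals e·χ for an irreducible character χ of G and a natural number e. Then the index of G in Γ divides e − 1 or e + 1. -/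
theorem result {Γ : Type*} [Group Γ] [Fintype Γ] (G N : Subgroup Γ) [hG : G.Normal] [hN : N.Normal] [Fintype G] [Fintype N] (hNG : N ≤ G) (hGlt : G ≠ ⊤) (hNlt : N ≠ G) (hcyc : IsCyclic (Γ ⧸ G)) (hfrob : ∀ x : Γ, x ∉ G → ∀ g : Γ, g ∈ G → x * g * x⁻¹ * g⁻¹ ∈ N → g ∈ N) (θ : Cfsg.IrrCharacter N) (hinv : ∀ (x : Γ) (n : N), (θ : N → ℂ) ⟨x * n * x⁻¹, hN.conj_mem n n.2 x⟩ = (θ : N → ℂ) n) (χ : Cfsg.IrrCharacter G) (e : ℕ) (hram : Cfsg.indFun (N.subgroupOf G) (fun n : N.subgroupOf G => (θ : N → ℂ) ⟨(n : G), n.2⟩) = fun g => (e : ℂ) * (χ : G → ℂ) g) : (G.index : ℤ) ∣ (e : ℤ) - 1 ∨ (G.index : ℤ) ∣ (e : ℤ) + 1 := by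
  classical
  have := Helper2.finite_irrCharacter (G := Γ)
  have : Fintype (IrrCharacter Γ) := Fintype.ofFinite _
  obtain ⟨q, hq⟩ := hcyc.exists_generator
  obtain ⟨x₀, rfl⟩ := QuotientGroup.mk_surjective q
  have hx₀ : x₀ ∉ G := by
    intro h
    apply hGlt
    rw [eq_top_iff]
    intro y _
    obtain ⟨i, hi⟩ := Subgroup.mem_zpowers_iff.mp (hq (y : Γ ⧸ G))
    have h1 : ((x₀ : Γ ⧸ G)) = 1 := (QuotientGroup.eq_one_iff x₀).mpr h
    rw [h1, one_zpow] at hi
    exact (QuotientGroup.eq_one_iff y).mp hi.symm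
  set C : Subgroup Γ := N ⊔ Subgroup.zpowers x₀ with hC
  have hNC : N ≤ C := le_sup_left
  have hx₀C : x₀ ∈ C := (le_sup_right : Subgroup.zpowers x₀ ≤ C) (Subgroup.mem_zpowers x₀)
  have hCdec : ∀ c ∈ C, ∃ n ∈ N, ∃ i : ℤ, c = n * x₀ ^ i := by
    intro c hc
    obtain ⟨n, hn, z, hz, rfl⟩ := Subgroup.mem_sup_of_normal_left.mp hc
    obtain ⟨i, rfl⟩ := Subgroup.mem_zpowers_iff.mp hz
    exact ⟨n, hn, i, rfl⟩
  have hCG : ∀ c ∈ C, c ∈ G → c ∈ N := by
    intro c hc hcG
    obtain ⟨n, hn, i, rfl⟩ := hCdec c hc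
    have h1 : x₀ ^ i ∈ G := (Subgroup.mul_mem_cancel_left G (hNG hn)).mp hcG
    have h2 : x₀ ^ i ∈ N := by
      apply hfrob x₀ hx₀ _ h1
      have : x₀ * x₀ ^ i * x₀⁻¹ * (x₀ ^ i)⁻¹ = 1 := by group
      rw [this]
      exact N.one_mem
    exact N.mul_mem hn h2
  have hΓdec : ∀ y : Γ, ∃ g ∈ G, ∃ c ∈ C, y = g * c := by
    intro y
    obtain ⟨i, hi⟩ := Subgroup.mem_zpowers_iff.mp (hq (y : Γ ⧸ G))
    refine ⟨y * (x₀ ^ i)⁻¹, ?_, x₀ ^ i, C.zpow_mem hx₀C i, by group⟩
    rw [← QuotientGroup.eq_one_iff, QuotientGroup.mk_mul, QuotientGroup.mk_inv,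
      QuotientGroup.mk_zpow, hi, mul_inv_cancel]
  have hTI : ∀ c ∈ C, c ∉ N → ∀ y : Γ, y⁻¹ * c * y ∈ C → y ∈ C := by
    intro c hc hcN y hy
    obtain ⟨g, hg, c', hc', rfl⟩ := hΓdec y
    have h1 : g⁻¹ * c * g ∈ C := by
      have := C.mul_mem (C.mul_mem hc' hy) (C.inv_mem hc')
      have e : c' * ((g * c')⁻¹ * c * (g * c')) * c'⁻¹ = g⁻¹ * c * g := by group
      rwa [e] at this
    have hcG : c ∉ G := fun h => hcN (hCG c hc h)
    have h2 : g⁻¹ ∈ N := by
      apply hfrob c hcG g⁻¹ (G.inv_mem hg)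
      apply hCG
      · have := C.mul_mem hc (C.inv_mem h1)
        have e : c * (g⁻¹ * c * g)⁻¹ = c * g⁻¹ * c⁻¹ * g⁻¹⁻¹ := by group
        rwa [e] at this
      · have := G.mul_mem (hG.conj_mem g⁻¹ (G.inv_mem hg) c) hg
        simpa using this
    exact C.mul_mem (hNC ((Subgroup.inv_mem_iff N).mp h2)) hc'
  have hsup : C ⊔ G = ⊤ := by
    rw [eq_top_iff]
    intro y _
    obtain ⟨g, hg, c, hc, rfl⟩ := hΓdec y
    exact Subgroup.mul_mem _ ((le_sup_right : G ≤ C ⊔ G) hg) ((le_sup_left : C ≤ C ⊔ G) hc)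
  have hinf : G ⊓ C = N := by
    apply le_antisymm
    · intro c hc
      exact hCG c hc.2 hc.1
    · exact le_inf hNG hNC
  have hidx : N.relIndex C = G.index := by
    rw [← hinf, Subgroup.inf_relIndex_right, ← Subgroup.relIndex_sup_right, hsup,
      Subgroup.relIndex_top_right]
  set s := G.index with hs
  set m := N.relIndex G with hm
  have hcardC : Nat.card C = s * Nat.card N := by
    rw [← hidx, mul_comm, ← (N.subgroupOf C).card_mul_index,
      Nat.card_congr (Subgroup.subgroupOfEquivOfLe hNC).toEquiv]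
    rfl
  have hcardG : Nat.card G = m * Nat.card N := by
    rw [mul_comm, ← (N.subgroupOf G).card_mul_index,
      Nat.card_congr (Subgroup.subgroupOfEquivOfLe hNG).toEquiv]
    rfl
  have hCidx : C.index = m := by
    have h1 := C.card_mul_index
    have h2 := G.card_mul_index
    rw [hcardC] at h1
    rw [hcardG, ← h1] at h2
    have hpos : 0 < s * Nat.card N := Nat.mul_pos (Nat.pos_of_ne_zero G.index_ne_zero_of_finite)
      Nat.card_pos
    have : s * Nat.card N * C.index = s * Nat.card N * m := by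
      rw [← h2]; ring
    exact Nat.eq_of_mul_eq_mul_left hpos this
  -- the extension to `C`
  have hcycC : IsCyclic (C ⧸ N.subgroupOf C) := by
    refine ⟨⟨((⟨x₀, hx₀C⟩ : C) : C ⧸ N.subgroupOf C), fun z => ?_⟩⟩
    obtain ⟨c, rfl⟩ := QuotientGroup.mk_surjective z
    obtain ⟨n, hn, i, hc⟩ := hCdec c c.2
    refine ⟨i, ?_⟩
    show ((⟨x₀, hx₀C⟩ : C) : C ⧸ N.subgroupOf C) ^ i = _
    rw [← QuotientGroup.mk_zpow, QuotientGroup.eq]
    rw [Subgroup.mem_subgroupOf]
    have : (((⟨x₀, hx₀C⟩ : C) ^ i)⁻¹ * c : C).1 = (x₀ ^ i)⁻¹ * n * x₀ ^ i := by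
      simp only [Subgroup.coe_mul, Subgroup.coe_inv, Subgroup.coe_zpow]
      rw [hc]
      group
    rw [this]
    have h3 := hN.conj_mem n hn (x₀ ^ i)⁻¹
    simpa using h3
  obtain ⟨ψ, hψ, hψext⟩ := exists_extension_of_cyclic_quotient (N.subgroupOf C) hcycC _
    (isIrrCharacter_subgroupOf N hNC θ.2) (by
      intro g n
      exact hinv g ⟨n, Subgroup.mem_subgroupOf.mp n.2⟩)
  have hψN : ∀ n : N, ψ ⟨n, hNC n.2⟩ = (θ : N → ℂ) n := fun n =>
    hψext ⟨⟨n, hNC n.2⟩, Subgroup.mem_subgroupOf.mpr n.2⟩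
  have hψres : (fun n : N => ψ ⟨n, hNC n.2⟩) = (θ : N → ℂ) := funext hψN
  have hnorm := card_mul_norm_indFun_ti C N hNC hTI hψ (by rw [hψres]; exact θ.2) (by
    intro y n
    rw [hψN n, ← hinv y n]
    exact hψN ⟨y * n * y⁻¹, hN.conj_mem n n.2 y⟩)
  -- facts on `e`
  have : Fintype (N.subgroupOf G) := Fintype.ofFinite _
  have : Fintype C := Fintype.ofFinite _
  set θ' : N.subgroupOf G → ℂ := fun n : N.subgroupOf G => (θ : N → ℂ) ⟨(n : G), n.2⟩ with hθ'
  have hθ'irr : IsIrrCharacter (N.subgroupOf G) θ' := isIrrCharacter_subgroupOf N hNG θ.2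
  have hχc := Helper7.isCharacter_of_irr χ.2
  have hχcf := Helper7.isClassFunction_of_isCharacter hχc
  have hram' : indFun (N.subgroupOf G) θ' = (e : ℂ) • (χ : G → ℂ) := by
    rw [hram]
    rfl
  have he2 : e ^ 2 = m := by
    have h1 := classInner_indFun_self_of_invariant (N.subgroupOf G) hθ'irr (by
      intro g
      funext n
      exact hinv g ⟨n, Subgroup.mem_subgroupOf.mp n.2⟩)
    rw [hram', classInner_smul_left, classInner_smul_right, Helper7.classInner_irr_self χ.2] at h1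
    simp only [Complex.conj_natCast, mul_one] at h1
    have h2 : ((e ^ 2 : ℕ) : ℂ) = ((N.subgroupOf G).index : ℂ) := by
      rw [← h1]; push_cast; ring
    exact_mod_cast h2
  have hdeg : (m : ℂ) * (θ : N → ℂ) 1 = (e : ℂ) * (χ : G → ℂ) 1 := by
    have h1 := congrFun hram' 1
    rw [indFun_one] at h1
    exact h1
  have hm0 : m ≠ 0 := Subgroup.index_ne_zero_of_finite
  have he0 : (e : ℂ) ≠ 0 := by
    intro h
    have : e = 0 := by exact_mod_cast h
    rw [this] at he2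
    exact hm0 (by rw [← he2]; norm_num)
  have hχinv : ∀ x : Γ, conjFun G (χ : G → ℂ) x = (χ : G → ℂ) := by
    intro x
    funext g
    have h1 := indFun_aut_invariant (N.subgroupOf G) (MulAut.conjNormal x : MulAut G) (by
      intro l
      rw [Subgroup.mem_subgroupOf, Subgroup.mem_subgroupOf]
      show x * l * x⁻¹ ∈ N ↔ _
      constructor
      · intro h
        have := hN.conj_mem _ h x⁻¹
        simpa [mul_assoc] using this
      · intro h
        exact hN.conj_mem _ h x) (ψ := θ') (by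
      intro t
      exact hinv x ⟨t, Subgroup.mem_subgroupOf.mp t.2⟩) g
    rw [hram', Pi.smul_apply, Pi.smul_apply, smul_eq_mul, smul_eq_mul] at h1
    exact mul_left_cancel₀ he0 h1
  obtain ⟨hX1, hX2⟩ := irr_over_cyclic G hcyc χ.2 hχinv
  set X := Finset.univ.filter (fun ξ : IrrCharacter Γ =>
      classInner (fun g : G => (ξ : Γ → ℂ) g) (χ : G → ℂ) ≠ 0) with hX
  obtain ⟨a, ha, hsum⟩ := Helper7.character_eq_sum_nat
    (isCharacter_indFun C ψ (Helper7.isCharacter_of_irr hψ))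
  have haX : ∀ ξ : IrrCharacter Γ, ξ ∉ X → a ξ = 0 := by
    intro ξ hξ
    by_contra h0
    apply hξ
    rw [hX, Finset.mem_filter]
    refine ⟨Finset.mem_univ _, ?_⟩
    have hξc := Helper7.isCharacter_of_irr ξ.2
    have hξcf := Helper7.isClassFunction_of_isCharacter hξc
    have h1 : classInner (fun c : C => (ξ : Γ → ℂ) c) ψ ≠ 0 := by
      have h2 := ha ξ
      rw [frobenius_reciprocity C ψ _ hξcf] at h2
      rw [← classInner_conj_symm, h2]
      simpa using h0
    have h3 : classInner (fun n : N => (ξ : Γ → ℂ) n) (θ : N → ℂ) ≠ 0 :=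
      constituent_trans (Subgroup.inclusion hNC) (Helper7.isCharacter_restrict hξc C) hψ h1 θ.2 (by
        have : (fun x : N => ψ (Subgroup.inclusion hNC x)) = (θ : N → ℂ) := hψres
        rw [this, Helper7.classInner_irr_self θ.2]
        exact one_ne_zero)
    have h4 := classInner_subgroupOf N hNG (fun n : N => (ξ : Γ → ℂ) n) (θ : N → ℂ)
    rw [← h4] at h3
    have h5 := frobenius_reciprocity (N.subgroupOf G) θ' (fun g : G => (ξ : Γ → ℂ) g)
      (Helper7.isClassFunction_of_isCharacter (Helper7.isCharacter_restrict hξc G))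
    rw [hram', classInner_smul_left] at h5
    intro h6
    apply h3
    rw [← classInner_conj_symm]
    have h7 : classInner θ' (fun h : N.subgroupOf G => (ξ : Γ → ℂ) ((h : G) : Γ)) = 0 := by
      rw [← h5, ← classInner_conj_symm, h6, map_zero, mul_zero]
    rw [map_eq_zero]
    exact h7
  have hχ1 := Helper7.irr_apply_one_ne_zero χ.2
  have hS1 : ∑ ξ ∈ X, a ξ = e := by
    have h1 := congrFun hsum 1
    rw [indFun_one, hCidx, Finset.sum_apply] at h1
    have h2 : ψ 1 = (θ : N → ℂ) 1 := hψN 1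
    rw [h2, hdeg] at h1
    have h3 : ∑ ξ : IrrCharacter Γ, (a ξ • (ξ : Γ → ℂ)) 1
        = (∑ ξ ∈ X, (a ξ : ℂ)) * (χ : G → ℂ) 1 := by
      rw [Finset.sum_mul, ← Finset.sum_subset (Finset.subset_univ X)]
      · apply Finset.sum_congr rfl
        intro ξ hξ
        have h4 := congrFun (hX1 ξ (Finset.mem_filter.mp hξ).2) 1
        rw [Pi.smul_apply, nsmul_eq_mul]
        congr 1
      · intro ξ _ hξ
        rw [haX ξ hξ, zero_smul]
        rfl
    rw [h3] at h1
    have h5 := mul_right_cancel₀ hχ1 h1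
    exact_mod_cast h5.symm
  have hS2 : X.card * ∑ ξ ∈ X, (a ξ) ^ 2 = e ^ 2 + X.card - 1 := by
    have h1 : classInner (indFun C ψ) (indFun C ψ) = ((∑ ξ ∈ X, (a ξ) ^ 2 : ℕ) : ℂ) := by
      rw [Helper7.classInner_eq_sum (indFun_isClassFunction C ψ)]
      push_cast
      rw [← Finset.sum_subset (Finset.subset_univ X)]
      · apply Finset.sum_congr rfl
        intro ξ _
        rw [ha ξ, Complex.conj_natCast]
        ring
      · intro ξ _ hξ
        rw [ha ξ, haX ξ hξ]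
        simp
    rw [h1, hcardC, hCidx] at hnorm
    have hNc : (Nat.card N : ℂ) ≠ 0 := by exact_mod_cast Nat.card_pos.ne'
    have h2 : (s : ℂ) * ((∑ ξ ∈ X, (a ξ) ^ 2 : ℕ) : ℂ) = (s : ℂ) + ((m : ℂ) - 1) := by
      apply mul_right_cancel₀ hNc
      push_cast at hnorm ⊢
      linear_combination hnorm
    have h3 : s * (∑ ξ ∈ X, (a ξ) ^ 2) + 1 = s + m := by
      have : ((s * (∑ ξ ∈ X, (a ξ) ^ 2) + 1 : ℕ) : ℂ) = ((s + m : ℕ) : ℂ) := by
        push_cast at h2 ⊢
        linear_combination h2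
      exact_mod_cast this
    rw [hX2, he2]
    show s * (∑ ξ ∈ X, (a ξ) ^ 2) = m + s - 1
    omega
  have hs2 : 2 ≤ X.card := by
    rw [hX2]
    have h1 : s ≠ 0 := G.index_ne_zero_of_finite
    have h2 : s ≠ 1 := fun h => hGlt (Subgroup.index_eq_one.mp h)
    omega
  have := frob_arith X a e hs2 hS1 hS2
  rw [hX2] at this
  exact this

end Cfsg.Agent.S4454
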