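import Cfsg.Statements.S4457
import Cfsg.Agent.Lib.Helper25.TwoDeg6
import Cfsg.Agent.Lib.Helper25.FS5
import Cfsg.Agent.S4456

set_option autoImplicit false
open Cfsg

namespace Cfsg.Agent.S4457

open Cfsg.Agent.Lib.Helper25 Cfsg.Agent.Lib

/-- Let G be a finite group whose irreducible character degrees are exactly 1 and m (m ≠ 1). Then either G has an abelian normal subgroup of index m, or m is a power of a prime p and G is the direct product of a p-group and an abelian group: there are normal subgroups P and A with P a p-group, A abelian, P ⊓ A = 1 and P ⊔ A = G. -/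
theorem result {G : Type*} [Group G] [Finite G] (m : ℕ) (hcd : ∀ χ : Cfsg.IrrCharacter G, Cfsg.charDegree (χ : G → ℂ) = 1 ∨ Cfsg.charDegree (χ : G → ℂ) = m) (hm : ∃ χ : Cfsg.IrrCharacter G, Cfsg.charDegree (χ : G → ℂ) = m) (hm1 : m ≠ 1) : (∃ A : Subgroup G, A.Normal ∧ (∀ a ∈ A, ∀ b ∈ A, a * b = b * a) ∧ A.index = m) ∨ ∃ p e : ℕ, p.Prime ∧ m = p ^ e ∧ ∃ P A : Subgroup G, P.Normal ∧ A.Normal ∧ IsPGroup p P ∧ (∀ a ∈ A, ∀ b ∈ A, a * b = b * a) ∧ P ⊓ A = ⊥ ∧ P ⊔ A = ⊤ := by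
  have hcd' : ∀ χ : G → ℂ, IsIrrCharacter G χ → χ 1 = 1 ∨ χ 1 = m := by
    intro χ hχ
    rw [apply_one_eq_charDegree hχ]
    rcases hcd ⟨χ, hχ⟩ with h | h
    · left
      have h' : charDegree χ = 1 := h
      rw [h', Nat.cast_one]
    · right
      have h' : charDegree χ = m := h
      rw [h']
  have hm' : ∃ χ : G → ℂ, IsIrrCharacter G χ ∧ χ 1 = m := by
    obtain ⟨χ, hχ⟩ := hm
    exact ⟨χ, χ.2, by rw [apply_one_eq_charDegree χ.2, hχ]⟩
  have hN : ∀ q : ℕ, q.Prime → q ∣ m → ∃ N : Subgroup G, N.Normal ∧ (Nat.card N).Coprime q ∧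
      ∃ k : ℕ, N.index = q ^ k := by
    intro q hq hqm
    apply Cfsg.Agent.S4456.result q hq
    intro χ hne
    rcases hcd χ with h | h
    · exact absurd h hne
    · rw [h]
      exact hqm
  rcases two_deg_structure m hcd' hm' hm1 hN with ⟨A, h1, h2, h3, -⟩ | h
  · left
    exact ⟨A, h1, h2, h3⟩
  · right
    exact h

end Cfsg.Agent.S4457
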