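import Cfsg.Statements.S4458
import Cfsg.Agent.Lib.Helper25.TwoDeg7
import Cfsg.Agent.Lib.Helper25.FS5
import Cfsg.Agent.S4456

set_option autoImplicit false
open Cfsg

namespace Cfsg.Agent.S4458

open Cfsg.Agent.Lib.Helper25 Cfsg.Agent.Lib

/-- If a finite group has exactly two irreducible character degrees, 1 and m with m ≠ 1, then its commutator subgroup is abelian. -/
theorem result {G : Type*} [Group G] [Finite G] (m : ℕ) (hcd : ∀ χ : Cfsg.IrrCharacter G, Cfsg.charDegree (χ : G → ℂ) = 1 ∨ Cfsg.charDegree (χ : G → ℂ) = m) (hm : ∃ χ : Cfsg.IrrCharacter G, Cfsg.charDegree (χ : G → ℂ) = m) (hm1 : m ≠ 1) : ∀ a ∈ commutator G, ∀ b ∈ commutator G, a * b = b * a := by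
  have hcd' : ∀ χ : G → ℂ, IsIrrCharacter G χ → χ 1 = 1 ∨ χ 1 = m := by
    intro χ hχ
    rw [apply_one_eq_charDegree hχ]
    rcases hcd ⟨χ, hχ⟩ with h | h
    · left
      have h' : charDegree χ = 1 := h
      rw [h', Nat.cast_one]
    · right
      have h' : charDegree χ = m := h
      rw [h']
  have hm' : ∃ χ : G → ℂ, IsIrrCharacter G χ ∧ χ 1 = m := by
    obtain ⟨χ, hχ⟩ := hm
    exact ⟨χ, χ.2, by rw [apply_one_eq_charDegree χ.2, hχ]⟩
  have hN : ∀ q : ℕ, q.Prime → q ∣ m → ∃ N : Subgroup G, N.Normal ∧ (Nat.card N).Coprime q ∧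
      ∃ k : ℕ, N.index = q ^ k := by
    intro q hq hqm
    apply Cfsg.Agent.S4456.result q hq
    intro χ hne
    rcases hcd χ with h | h
    · exact absurd h hne
    · rw [h]
      exact hqm
  rcases two_deg_structure m hcd' hm' hm1 hN with ⟨A, h1, h2, h3, h4⟩ |
    ⟨p, e, hp, hme, P, A, hPn, hAn, hP, hAab, hinf, hsup⟩
  · have hle : commutator G ≤ A := by
      rw [commutator_def, Subgroup.commutator_le]
      intro x _ y _
      rw [commutatorElement_def]
      exact h4 x y
    intro a ha b hb
    exact h2 a (hle ha) b (hle hb)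
  · have : Fact p.Prime := ⟨hp⟩
    have hAc : A ≤ Subgroup.center G := by
      intro a ha
      rw [Subgroup.mem_center_iff]
      have h1 : P ⊔ A ≤ Subgroup.centralizer {a} := by
        apply sup_le
        · intro x hx
          rw [Subgroup.mem_centralizer_singleton_iff]
          exact (Subgroup.commute_of_normal_of_disjoint P A hPn hAn (disjoint_iff.mpr hinf) x a hx ha).eq
        · intro x hx
          rw [Subgroup.mem_centralizer_singleton_iff]
          exact hAab x hx a ha
      intro g
      have h2 : g ∈ Subgroup.centralizer {a} := h1 (hsup ▸ Subgroup.mem_top g)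
      exact Subgroup.mem_centralizer_singleton_iff.mp h2
    have hmap : P.map (QuotientGroup.mk' A) = ⊤ := by
      have h1 : (P ⊔ A).map (QuotientGroup.mk' A) = ⊤ := by
        rw [hsup, ← MonoidHom.range_eq_map, MonoidHom.range_eq_top]
        exact QuotientGroup.mk'_surjective A
      rw [Subgroup.map_sup, QuotientGroup.map_mk'_self, sup_bot_eq] at h1
      exact h1
    have hpq : IsPGroup p (G ⧸ A) := by
      have h1 : IsPGroup p (P.map (QuotientGroup.mk' A)) := hP.map _
      rw [hmap] at h1
      exact h1.of_equiv Subgroup.topEquiv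
    have hnq : Group.IsNilpotent (G ⧸ A) := hpq.isNilpotent
    have hnil : Group.IsNilpotent G :=
      Subgroup.isNilpotent_of_ker_le_center (QuotientGroup.mk' A)
        (by rw [QuotientGroup.ker_mk']; exact hAc)
    apply derived_comm_of_monomial m hcd'
    intro _ χ hχ
    exact nilpotent_monomial_aux _ G rfl χ hχ

end Cfsg.Agent.S4458
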