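import Cfsg.Statements.S4459
import Cfsg.Agent.Lib.Helper25.CdP6
import Cfsg.Agent.Lib.Helper25.TwoDeg7
import Cfsg.Agent.Lib.Helper25.PRes3
import Cfsg.Agent.S4456
import Cfsg.Agent.Lib.Helper2.CharInt2
import Cfsg.Agent.S4458

set_option autoImplicit false
open Cfsg

namespace Cfsg.Agent.S4459

open Cfsg.Agent.Lib.Helper25 Cfsg.Agent.Lib

/-- Let G be a non-abelian finite group and p a prime. Then the irreducible character degrees of G are exactly 1 and p if and only if either G has an abelian normal subgroup of index p or the centre of G has index p³. -/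
theorem result {G : Type*} [Group G] [Finite G] (hG : ∃ a b : G, a * b ≠ b * a) (p : ℕ) (hp : p.Prime) : ((∀ χ : Cfsg.IrrCharacter G, Cfsg.charDegree (χ : G → ℂ) = 1 ∨ Cfsg.charDegree (χ : G → ℂ) = p) ∧ ∃ χ : Cfsg.IrrCharacter G, Cfsg.charDegree (χ : G → ℂ) = p) ↔ ((∃ A : Subgroup G, A.Normal ∧ (∀ a ∈ A, ∀ b ∈ A, a * b = b * a) ∧ A.index = p) ∨ (Subgroup.center G).index = p ^ 3) := by
  classical
  cases nonempty_fintype G
  constructor
  · rintro ⟨hcd, hm⟩
    have hcd' : ∀ χ : G → ℂ, IsIrrCharacter G χ → χ 1 = 1 ∨ χ 1 = p := by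
      intro χ hχ
      rw [apply_one_eq_charDegree hχ]
      rcases hcd ⟨χ, hχ⟩ with h | h
      · left
        have h' : charDegree χ = 1 := h
        rw [h', Nat.cast_one]
      · right
        have h' : charDegree χ = p := h
        rw [h']
    have hm' : ∃ χ : G → ℂ, IsIrrCharacter G χ ∧ χ 1 = p := by
      obtain ⟨χ, hχ⟩ := hm
      exact ⟨χ, χ.2, by rw [apply_one_eq_charDegree χ.2, hχ]⟩
    have hN : ∀ q : ℕ, q.Prime → q ∣ p → ∃ N : Subgroup G, N.Normal ∧ (Nat.card N).Coprime q ∧
        ∃ k : ℕ, N.index = q ^ k := by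
      intro q hq hqm
      apply Cfsg.Agent.S4456.result q hq
      intro χ hne
      rcases hcd χ with h | h
      · exact absurd h hne
      · rw [h]
        exact hqm
    rcases two_deg_structure p hcd' hm' hp.one_lt.ne' hN with ⟨A, h1, h2, h3, -⟩ |
      ⟨p', e, hp', hme, P, A, hPn, hAn, hP, hAab, hinf, hsup⟩
    · exact Or.inl ⟨A, h1, h2, h3⟩
    · have hpp : p' = p := by
        have he : e ≠ 0 := by
          rintro rfl
          rw [pow_zero] at hme
          exact hp.one_lt.ne' hme
        exact (Nat.prime_dvd_prime_iff_eq hp' hp).1 (hme ▸ dvd_pow_self p' he)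
      subst hpp
      have : Fact p'.Prime := ⟨hp'⟩
      have hAc : A ≤ Subgroup.center G := by
        intro a ha
        rw [Subgroup.mem_center_iff]
        have h1 : P ⊔ A ≤ Subgroup.centralizer {a} := by
          apply sup_le
          · intro x hx
            rw [Subgroup.mem_centralizer_singleton_iff]
            exact (Subgroup.commute_of_normal_of_disjoint P A hPn hAn (disjoint_iff.mpr hinf) x a hx
              ha).eq
          · intro x hx
            rw [Subgroup.mem_centralizer_singleton_iff]
            exact hAab x hx a ha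
        intro g
        have h2 : g ∈ Subgroup.centralizer {a} := h1 (hsup ▸ Subgroup.mem_top g)
        exact Subgroup.mem_centralizer_singleton_iff.mp h2
      have hpG : ∃ n, (Subgroup.center G).index = p' ^ n := by
        have h1 := index_sup_mul_card P A
        rw [hsup, hinf, Subgroup.index_top, Subgroup.card_bot, one_mul, mul_one,
          ← A.card_mul_index] at h1
        have hpos : 0 < Nat.card A := Nat.card_pos
        have h2 : Nat.card P = A.index := Nat.eq_of_mul_eq_mul_left hpos h1
        obtain ⟨j, hj⟩ := IsPGroup.iff_card.1 hP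
        have h3 : (Subgroup.center G).index ∣ p' ^ j := by
          rw [← hj, h2]
          exact Subgroup.index_dvd_of_le hAc
        obtain ⟨n, -, hn⟩ := (Nat.dvd_prime_pow hp').1 h3
        exact ⟨n, hn⟩
      exact cdp_nilpotent p' hp' hcd' hm' (Cfsg.Agent.S4458.result p' hcd hm hp'.one_lt.ne') hpG
  · intro h
    have hcd : ∀ χ : Cfsg.IrrCharacter G, Cfsg.charDegree (χ : G → ℂ) = 1 ∨
        Cfsg.charDegree (χ : G → ℂ) = p := by
      rcases h with ⟨A, hAn, hAab, hAp⟩ | hZ
      · intro χ
        obtain ⟨d, hd, hdvd⟩ := ito_aux _ G rfl A hAab χ χ.2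
        rw [charDegree_eq hd]
        rw [hAp] at hdvd
        exact (Nat.dvd_prime hp).1 hdvd
      · intro χ
        have h1 : charDegree (χ : G → ℂ) ∣ p ^ 3 := by
          rw [← hZ]
          obtain ⟨χ, n, ρ, hρ, rfl⟩ := χ
          have := Cfsg.Agent.Lib.Helper2.finrank_dvd_index_center ρ
          simpa [charDegree] using this
        obtain ⟨j, -, hj⟩ := (Nat.dvd_prime_pow hp).1 h1
        have h2 := card_center_mul_sq_le χ.2
        rw [← (Subgroup.center G).card_mul_index, hZ, hj] at h2
        have hpos : 0 < Nat.card (Subgroup.center G) := Nat.card_pos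
        have h3 : (p ^ j) ^ 2 ≤ p ^ 3 := Nat.le_of_mul_le_mul_left h2 hpos
        rw [← pow_mul] at h3
        have h4 : j * 2 ≤ 3 := (Nat.pow_le_pow_iff_right hp.one_lt).1 h3
        rw [hj]
        have h5 : j = 0 ∨ j = 1 := by omega
        rcases h5 with rfl | rfl
        · left; simp
        · right; simp
    refine ⟨hcd, ?_⟩
    by_contra hcon
    push Not at hcon
    obtain ⟨a, b, hab⟩ := hG
    apply hab
    apply comm_of_forall_linear
    intro χ
    rw [apply_one_eq_charDegree χ.2, (hcd χ).resolve_right (hcon χ), Nat.cast_one]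

end Cfsg.Agent.S4459
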