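import Cfsg.Statements.S4468
import Cfsg.Agent.Lib.Helper1.ItoB
import Cfsg.Agent.Lib.Helper1.ItoC
import Cfsg.Agent.Lib.Helper25.Gallagher2

set_option autoImplicit false
open Cfsg

namespace Cfsg.Agent.S4468

/-- Let the finite p-solvable group G have a faithful character χ of degree n ≤ p − 1 and suppose that a Sylow p-subgroup of G is not normal. Then n = p − 1, n is a power of 2, and χ is irreducible. -/
theorem result {G : Type*} [Group G] [Finite G] (χ : G → ℂ) (hχ : Cfsg.IsCharacter G χ) (hfaith : ∀ g : G, χ g = χ 1 → g = 1) (n : ℕ) (hn : Cfsg.charDegree χ = n) (p : ℕ) (hp : p.Prime) (hsolv : Cfsg.IsPSolvable p G) (hnp : n + 1 ≤ p) (P : Sylow p G) (hP : ¬ (P : Subgroup G).Normal) : n + 1 = p ∧ (∃ k : ℕ, n = 2 ^ k) ∧ Cfsg.IsIrrCharacter G χ := by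
  classical
  haveI : Fact p.Prime := ⟨hp⟩
  have hn1 : χ 1 = n := by rw [← hn]; exact (Cfsg.Agent.Lib.Helper7.charDegree_cast hχ).symm
  -- `P` is abelian
  have hab : ∀ x ∈ (P : Subgroup G), ∀ y ∈ (P : Subgroup G), x * y = y * x := by
    cases nonempty_fintype G
    have : Finite (IrrCharacter (P : Subgroup G)) := Cfsg.Agent.Lib.Helper2.finite_irrCharacter
    let _ : Fintype (IrrCharacter (P : Subgroup G)) := Fintype.ofFinite _
    obtain ⟨m, hm, hsum⟩ := Cfsg.Agent.Lib.Helper7.character_eq_sum_nat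
      (Cfsg.Agent.Lib.Helper7.isCharacter_restrict hχ (P : Subgroup G))
    choose e he0 he using fun η : IrrCharacter (P : Subgroup G) =>
      Cfsg.Agent.Lib.Helper7.irr_apply_one η.2
    have hdsum : n = ∑ η : IrrCharacter (P : Subgroup G), m η * e η := by
      have h1 := congrFun hsum 1
      simp only [Finset.sum_apply, Pi.smul_apply, he, Subgroup.coe_one, hn1] at h1
      simp only [nsmul_eq_mul] at h1
      exact_mod_cast h1
    obtain ⟨k, hk⟩ := IsPGroup.iff_card.1 P.isPGroup'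
    have hlin : ∀ η : IrrCharacter (P : Subgroup G), m η ≠ 0 → e η = 1 := by
      intro η hη
      have h1 : m η * e η ≤ n := by
        rw [hdsum]
        exact Finset.single_le_sum (f := fun η => m η * e η)
          (fun _ _ => Nat.zero_le _) (Finset.mem_univ η)
      have h2 : e η ≤ m η * e η := Nat.le_mul_of_pos_left _ (Nat.pos_of_ne_zero hη)
      have h3 : e η ∣ p ^ k := by
        have := Cfsg.Agent.Lib.Helper7.charDegree_dvd_card η
        rwa [Cfsg.Agent.Lib.Helper25.charDegree_eq (he η), hk] at this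
      obtain ⟨j, -, hj⟩ := (Nat.dvd_prime_pow hp).1 h3
      rcases Nat.eq_zero_or_pos j with rfl | hjpos
      · simpa using hj
      · exfalso
        have : p ≤ e η := by
          rw [hj]
          calc p = p ^ 1 := (pow_one p).symm
            _ ≤ p ^ j := Nat.pow_le_pow_right hp.pos hjpos
        omega
    intro x hx y hy
    have hc : x * y * x⁻¹ * y⁻¹ ∈ (P : Subgroup G) :=
      Subgroup.mul_mem _ (Subgroup.mul_mem _ (Subgroup.mul_mem _ hx hy) (Subgroup.inv_mem _ hx))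
        (Subgroup.inv_mem _ hy)
    have h1 : χ (x * y * x⁻¹ * y⁻¹) = χ 1 := by
      have h2 := congrFun hsum ⟨_, hc⟩
      have h3 := congrFun hsum 1
      simp only [Finset.sum_apply, Pi.smul_apply, Subgroup.coe_one] at h2 h3
      rw [h2, h3]
      apply Finset.sum_congr rfl
      intro η _
      by_cases hη : m η = 0
      · rw [hη]; simp
      · have h4 : (η : ↥(P : Subgroup G) → ℂ) 1 = 1 := by rw [he, hlin η hη]; simp
        obtain ⟨f, hf⟩ := Cfsg.Agent.Lib.Helper7.exists_hom_of_linear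
          (Cfsg.Agent.Lib.Helper7.isCharacter_of_irr η.2) h4
        have h5 : (⟨x * y * x⁻¹ * y⁻¹, hc⟩ : (P : Subgroup G)) =
            ⟨x, hx⟩ * ⟨y, hy⟩ * ⟨x, hx⟩⁻¹ * ⟨y, hy⟩⁻¹ := rfl
        rw [hf, hf, h5, map_mul, map_mul, map_mul, map_inv, map_inv, map_one]
        congr 2
        rw [mul_comm (f ⟨x, hx⟩) (f ⟨y, hy⟩), mul_inv_cancel_right, mul_inv_cancel]
    have h2 := hfaith _ h1
    have : x * y = (x * y * x⁻¹ * y⁻¹) * (y * x) := by group
    rw [this, h2, one_mul]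
  have hnc : ¬ ∀ u ∈ (P : Subgroup G), ∀ k ∈ Cfsg.pPrimeCore p G, u * k = k * u :=
    fun h => hP (Cfsg.Agent.Lib.Helper1.ito_normal_of_centralizes hsolv P hab h)
  push Not at hnc
  obtain ⟨t, ht, k, hk, hne⟩ := hnc
  obtain ⟨a, ha⟩ : ∃ a : ℕ, orderOf t = p ^ a := by
    obtain ⟨a, ha⟩ := IsPGroup.iff_orderOf.1 P.isPGroup' ⟨t, ht⟩
    exact ⟨a, by rw [← ha]; simp⟩
  have hKcop : (Nat.card (Cfsg.pPrimeCore p G)).Coprime p :=
    Cfsg.Agent.Lib.Helper5.pPrimeCore_coprime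
  obtain ⟨r, R, hr, hRp, hRK, hnorm, k', hk', hne'⟩ :=
    Cfsg.Agent.Lib.Helper1.ito_exists_rgroup (Cfsg.pPrimeCore p G) hKcop t ha ⟨k, hk, hne⟩
  have hRX : R ≤ R ⊔ Subgroup.zpowers t := le_sup_left
  have hTX : Subgroup.zpowers t ≤ R ⊔ Subgroup.zpowers t := le_sup_right
  have htX : t ∈ R ⊔ Subgroup.zpowers t := hTX (Subgroup.mem_zpowers t)
  haveI hRn : (R.subgroupOf (R ⊔ Subgroup.zpowers t)).Normal := by
    rw [Subgroup.normal_subgroupOf_iff_le_normalizer hRX]
    exact sup_le Subgroup.le_normalizer hnorm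
  have hcardR : Nat.card (R.subgroupOf (R ⊔ Subgroup.zpowers t)) = Nat.card R :=
    Nat.card_congr (Subgroup.subgroupOfEquivOfLe hRX).toEquiv
  have hRcop : (Nat.card R).Coprime p :=
    Nat.Coprime.coprime_dvd_left (Subgroup.card_dvd_of_le hRK) hKcop
  obtain ⟨h1, h2, h3⟩ := Cfsg.Agent.Lib.Helper1.ito_core (X := ↥(R ⊔ Subgroup.zpowers t))
    (R.subgroupOf (R ⊔ Subgroup.zpowers t)) hp ⟨t, htX⟩ (a := a)
    (by rw [Subgroup.orderOf_mk]; exact ha)
    (by
      rw [eq_top_iff, ← Subgroup.subgroupOf_self, Subgroup.subgroupOf_sup hRX hTX]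
      refine sup_le_sup le_rfl ?_
      intro x hx
      obtain ⟨i, hi⟩ := Subgroup.mem_zpowers_iff.1 (Subgroup.mem_subgroupOf.1 hx)
      exact Subgroup.mem_zpowers_iff.2 ⟨i, Subtype.ext (by simpa using hi)⟩)
    (by rw [hcardR]; exact hRcop)
    (χ := fun x => χ x) (Cfsg.Agent.Lib.Helper7.isCharacter_restrict hχ _)
    (by
      intro k _ hk
      exact Subtype.ext (hfaith k hk))
    n hn1 hnp
    ⟨⟨k', hRX hk'⟩, Subgroup.mem_subgroupOf.2 hk', fun h => hne' (congrArg Subtype.val h)⟩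
  refine ⟨h1, ?_, ?_⟩
  · rw [hcardR] at h2
    haveI : Fact r.Prime := ⟨hr⟩
    obtain ⟨b, hb⟩ := IsPGroup.iff_card.1 hRp
    rw [hb] at h2
    obtain ⟨j, -, hj⟩ := (Nat.dvd_prime_pow hr).1 h2
    rcases hr.eq_two_or_odd' with rfl | hodd
    · exact ⟨j, hj⟩
    · -- `n` is odd, so `p` is even
      have hnodd : Odd n := by rw [hj]; exact hodd.pow
      have hpe : Even p := by rw [← h1]; exact hnodd.add_one
      have hp2 : p = 2 := (Nat.Prime.even_iff hp).1 hpe
      exact ⟨0, by omega⟩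
  · have h4 := Cfsg.Agent.Lib.Helper25.isIrrCharacter_of_restrict
      (R.subgroupOf (R ⊔ Subgroup.zpowers t))
      (Cfsg.Agent.Lib.Helper7.isCharacter_restrict hχ (R ⊔ Subgroup.zpowers t)) h3
    exact Cfsg.Agent.Lib.Helper25.isIrrCharacter_of_restrict (R ⊔ Subgroup.zpowers t) hχ h4

end Cfsg.Agent.S4468
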