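import Cfsg.Statements.S4476
import Cfsg.Agent.Lib.Helper25.FS5

set_option autoImplicit false
open Cfsg

namespace Cfsg.Agent.S4476

open Cfsg.Agent.Lib.Helper25

/-- Let G be a finite group of even order g with exactly t involutions, and put α = (g − 1)/t (a rational number). Then (a) some non-identity element x of G has at most α² conjugates; and (b) some non-principal real-valued irreducible character of G has degree at most α. -/
theorem result {G : Type*} [Group G] [Fintype G] (heven : Even (Nat.card G)) (t : ℕ) (ht : Nat.card {x : G // orderOf x = 2} = t) : (∃ x : G, x ≠ 1 ∧ ((Subgroup.centralizer ({x} : Set G)).index : ℚ) ≤ (((Nat.card G : ℚ) - 1) / t) ^ 2) ∧ ∃ χ : Cfsg.IrrCharacter G, (χ : G → ℂ) ≠ (fun _ => 1) ∧ (∀ g : G, ((χ : G → ℂ) g).im = 0) ∧ (Cfsg.charDegree (χ : G → ℂ) : ℚ) ≤ ((Nat.card G : ℚ) - 1) / t := by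
  classical
  have := Cfsg.Agent.Lib.Helper2.finite_irrCharacter (G := G)
  cases nonempty_fintype (Cfsg.IrrCharacter G)
  -- there is an involution
  have ht0 : 0 < t := by
    rw [← ht]
    obtain ⟨x, hx⟩ := exists_prime_orderOf_dvd_card' (G := G) 2 heven.two_dvd
    exact Nat.card_pos_iff.2 ⟨⟨⟨x, hx⟩⟩, inferInstance⟩
  set one : Cfsg.IrrCharacter G := ⟨fun _ => 1, Cfsg.Agent.Lib.Helper7.isIrrCharacter_one⟩ with hone
  set R' : Finset (Cfsg.IrrCharacter G) :=
    Finset.univ.filter (fun χ : Cfsg.IrrCharacter G => ∀ g, ((χ : G → ℂ) g).im = 0) with hR'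
  set R := R'.erase one with hR
  have hone' : one ∈ R' := by
    rw [hR', Finset.mem_filter]
    exact ⟨Finset.mem_univ _, fun g => by simp [hone]⟩
  have hd1 : Cfsg.charDegree (one : G → ℂ) = 1 := charDegree_eq (d := 1) (by simp [hone])
  have h1 : t ≤ ∑ χ ∈ R, Cfsg.charDegree (χ : G → ℂ) := by
    have := succ_involutions_le (G := G)
    rw [ht, ← hR', ← Finset.add_sum_erase _ _ hone', hd1] at this
    rw [hR]
    omega
  have h2 : ∑ χ ∈ R, (Cfsg.charDegree (χ : G → ℂ)) ^ 2 + 1 ≤ Nat.card G := by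
    rw [← sum_charDegree_sq (G := G), ← Finset.add_sum_erase _ _ (Finset.mem_univ one), hd1]
    have : ∑ χ ∈ R, (Cfsg.charDegree (χ : G → ℂ)) ^ 2
        ≤ ∑ χ ∈ Finset.univ.erase one, (Cfsg.charDegree (χ : G → ℂ)) ^ 2 :=
      Finset.sum_le_sum_of_subset (Finset.erase_subset_erase _ (Finset.subset_univ _))
    omega
  have h3 : (∑ χ ∈ R, Cfsg.charDegree (χ : G → ℂ)) ^ 2
      ≤ R.card * ∑ χ ∈ R, (Cfsg.charDegree (χ : G → ℂ)) ^ 2 := sq_sum_le_card_mul_sum_sq
  have hg2 : 2 ≤ Nat.card G := Nat.le_of_dvd Nat.card_pos heven.two_dvd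
  obtain ⟨g', hg'⟩ : ∃ g', Nat.card G = g' + 1 := ⟨Nat.card G - 1, by omega⟩
  have hg'0 : 0 < g' := by omega
  have hkey : t ^ 2 ≤ R.card * g' := by
    calc t ^ 2 ≤ (∑ χ ∈ R, Cfsg.charDegree (χ : G → ℂ)) ^ 2 := Nat.pow_le_pow_left h1 2
      _ ≤ R.card * ∑ χ ∈ R, (Cfsg.charDegree (χ : G → ℂ)) ^ 2 := h3
      _ ≤ R.card * g' := Nat.mul_le_mul_left _ (by omega)
  have hkeyQ : (t : ℚ) ^ 2 ≤ R.card * g' := by exact_mod_cast hkey
  have hRne : R.Nonempty := by
    rw [Finset.nonempty_iff_ne_empty]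
    intro h
    rw [h] at h1
    simp at h1
    omega
  have htQ : (0 : ℚ) < t := by exact_mod_cast ht0
  have hgQ : (0 : ℚ) < g' := by exact_mod_cast hg'0
  have hcast : (Nat.card G : ℚ) - 1 = g' := by rw [hg']; push_cast; ring
  rw [hcast]
  constructor
  · by_contra hcon
    push Not at hcon
    have hk : R.card + 1 ≤ Fintype.card (Cfsg.IrrCharacter G) := by
      rw [← Finset.card_univ, ← Finset.card_erase_add_one (Finset.mem_univ one)]
      exact Nat.add_le_add_right
        (Finset.card_le_card (Finset.erase_subset_erase _ (Finset.subset_univ _))) 1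
    have hsum := sum_card_centralizer (G := G)
    rw [← Finset.add_sum_erase _ _ (Finset.mem_univ (1 : G))] at hsum
    have hc1 : Nat.card (Subgroup.centralizer ({1} : Set G)) = Nat.card G := by
      have : Subgroup.centralizer ({1} : Set G) = ⊤ := by
        rw [eq_top_iff]; intro x _; simp [Subgroup.mem_centralizer_iff]
      rw [this, Subgroup.card_top]
    rw [hc1] at hsum
    have hsum' : R.card * Nat.card G ≤
        ∑ x ∈ Finset.univ.erase (1 : G), Nat.card (Subgroup.centralizer ({x} : Set G)) := by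
      have : (R.card + 1) * Nat.card G ≤ Fintype.card (Cfsg.IrrCharacter G) * Nat.card G :=
        Nat.mul_le_mul_right _ hk
      rw [← hsum] at this
      linarith
    have hsumQ : (R.card : ℚ) * Nat.card G ≤
        ∑ x ∈ Finset.univ.erase (1 : G), (Nat.card (Subgroup.centralizer ({x} : Set G)) : ℚ) := by
      exact_mod_cast hsum'
    have hterm : ∀ x ∈ Finset.univ.erase (1 : G),
        (Nat.card (Subgroup.centralizer ({x} : Set G)) : ℚ) * ((g' : ℚ) / t) ^ 2
          < Nat.card G := by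
      intro x hx
      have hx1 := hcon x (Finset.ne_of_mem_erase hx)
      have hci : (Nat.card (Subgroup.centralizer ({x} : Set G)) : ℚ)
          * (Subgroup.centralizer ({x} : Set G)).index = Nat.card G := by
        exact_mod_cast (Subgroup.centralizer ({x} : Set G)).card_mul_index
      rw [← hci]
      apply mul_lt_mul_of_pos_left hx1
      exact_mod_cast Nat.card_pos
    have hne : (Finset.univ.erase (1 : G)).Nonempty := by
      rw [← Finset.card_pos, Finset.card_erase_of_mem (Finset.mem_univ _), Finset.card_univ,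
        ← Nat.card_eq_fintype_card]
      omega
    have hlt := Finset.sum_lt_sum_of_nonempty hne hterm
    rw [← Finset.sum_mul, Finset.sum_const, Finset.card_erase_of_mem (Finset.mem_univ _),
      Finset.card_univ, ← Nat.card_eq_fintype_card, nsmul_eq_mul] at hlt
    have hG0 : (0 : ℚ) < Nat.card G := by exact_mod_cast Nat.card_pos
    have h5 : (R.card : ℚ) * Nat.card G * ((g' : ℚ) / t) ^ 2 < ((Nat.card G - 1 : ℕ) : ℚ) * Nat.card G :=
      lt_of_le_of_lt (mul_le_mul_of_nonneg_right hsumQ (by positivity)) hlt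
    have h6 : ((Nat.card G - 1 : ℕ) : ℚ) = g' := by
      have : Nat.card G - 1 = g' := by omega
      rw [this]
    rw [h6] at h5
    have h7 : (R.card : ℚ) * ((g' : ℚ) / t) ^ 2 < g' := by
      have : (R.card : ℚ) * ((g' : ℚ) / t) ^ 2 * (Nat.card G : ℚ) < (g' : ℚ) * (Nat.card G : ℚ) := by
        calc (R.card : ℚ) * ((g' : ℚ) / t) ^ 2 * (Nat.card G : ℚ)
            = (R.card : ℚ) * (Nat.card G : ℚ) * ((g' : ℚ) / t) ^ 2 := by ring
          _ < (g' : ℚ) * (Nat.card G : ℚ) := h5
      exact lt_of_mul_lt_mul_right this hG0.le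
    rw [div_pow, mul_div_assoc', div_lt_iff₀ (by positivity)] at h7
    have h8 : (R.card : ℚ) * g' < (t : ℚ) ^ 2 := by
      have : (R.card : ℚ) * g' * g' < (t : ℚ) ^ 2 * g' := by
        calc (R.card : ℚ) * g' * g' = R.card * (g' : ℚ) ^ 2 := by ring
          _ < g' * (t : ℚ) ^ 2 := h7
          _ = (t : ℚ) ^ 2 * g' := by ring
      exact lt_of_mul_lt_mul_right this hgQ.le
    linarith
  · by_contra hcon
    push Not at hcon
    have hterm : ∀ χ ∈ R, ((g' : ℚ) / t) ^ 2 < ((Cfsg.charDegree (χ : G → ℂ) : ℕ) : ℚ) ^ 2 := by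
      intro χ hχ
      have hχ1 : (χ : G → ℂ) ≠ fun _ => 1 := by
        intro h
        exact (Finset.ne_of_mem_erase hχ) (Subtype.ext h)
      have hχ2 : ∀ g, ((χ : G → ℂ) g).im = 0 :=
        (Finset.mem_filter.1 (Finset.mem_of_mem_erase hχ)).2
      have := hcon χ hχ1 hχ2
      exact pow_lt_pow_left₀ this (by positivity) two_ne_zero
    have hlt := Finset.sum_lt_sum_of_nonempty hRne hterm
    rw [Finset.sum_const, nsmul_eq_mul] at hlt
    have h2Q : ∑ χ ∈ R, ((Cfsg.charDegree (χ : G → ℂ) : ℕ) : ℚ) ^ 2 ≤ g' := by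
      have : ∑ χ ∈ R, (Cfsg.charDegree (χ : G → ℂ)) ^ 2 ≤ g' := by omega
      exact_mod_cast this
    have h7 : (R.card : ℚ) * ((g' : ℚ) / t) ^ 2 < g' := lt_of_lt_of_le hlt h2Q
    rw [div_pow, mul_div_assoc', div_lt_iff₀ (by positivity)] at h7
    have h8 : (R.card : ℚ) * g' < (t : ℚ) ^ 2 := by
      have : (R.card : ℚ) * g' * g' < (t : ℚ) ^ 2 * g' := by
        calc (R.card : ℚ) * g' * g' = R.card * (g' : ℚ) ^ 2 := by ring
          _ < g' * (t : ℚ) ^ 2 := h7
          _ = (t : ℚ) ^ 2 * g' := by ring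
      exact lt_of_mul_lt_mul_right this hgQ.le
    linarith

end Cfsg.Agent.S4476
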