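import Cfsg.Statements.S4477
import Cfsg.Agent.Lib.Helper25.FS6
import Cfsg.Agent.S0154

set_option autoImplicit false
open Cfsg

namespace Cfsg.Agent.S4477

open Cfsg.Agent.Lib.Helper25

set_option maxHeartbeats 1600000 in
/-- Let G be a finite 2-group whose number of involutions is congruent to 1 modulo 4. Then G is cyclic or its commutator subgroup has index 4. -/
theorem result {G : Type*} [Group G] [Finite G] (hG : IsPGroup 2 G) (ht : Nat.card {x : G // orderOf x = 2} % 4 = 1) : IsCyclic G ∨ (commutator G).index = 4 := by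
  classical
  by_contra hcon
  push Not at hcon
  obtain ⟨hcyc, hidx⟩ := hcon
  cases nonempty_fintype G
  have := Cfsg.Agent.Lib.Helper2.finite_irrCharacter (G := G)
  cases nonempty_fintype (Cfsg.IrrCharacter G)
  obtain ⟨n, hn⟩ := IsPGroup.iff_card.1 hG
  set t := Nat.card {x : G // orderOf x = 2} with ht'
  -- degrees
  have hdeg : ∀ χ : Cfsg.IrrCharacter G, Cfsg.charDegree (χ : G → ℂ) = 1 ∨
      Cfsg.charDegree (χ : G → ℂ) = 2 ∨ 4 ∣ Cfsg.charDegree (χ : G → ℂ) := by
    intro χ
    have h := Cfsg.Agent.Lib.Helper7.charDegree_dvd_card χ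
    rw [hn] at h
    obtain ⟨k, -, hk⟩ := (Nat.dvd_prime_pow Nat.prime_two).1 h
    rw [hk]
    rcases k with _ | _ | k
    · left; rfl
    · right; left; rfl
    · right; right
      exact pow_dvd_pow 2 (show 2 ≤ k + 1 + 1 by omega)
  set L := Finset.univ.filter (fun χ : Cfsg.IrrCharacter G =>
    Cfsg.charDegree (χ : G → ℂ) = 1 ∧ ∀ g, ((χ : G → ℂ) g).im = 0) with hL
  set R2 := Finset.univ.filter (fun χ : Cfsg.IrrCharacter G =>
    Cfsg.charDegree (χ : G → ℂ) = 2 ∧ ∀ g, ((χ : G → ℂ) g).im = 0) with hR2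
  set N2 := Finset.univ.filter (fun χ : Cfsg.IrrCharacter G =>
    Cfsg.charDegree (χ : G → ℂ) = 2 ∧ ¬ ∀ g, ((χ : G → ℂ) g).im = 0) with hN2
  set A1 := Finset.univ.filter (fun χ : Cfsg.IrrCharacter G =>
    Cfsg.charDegree (χ : G → ℂ) = 1) with hA1
  set A2 := Finset.univ.filter (fun χ : Cfsg.IrrCharacter G =>
    Cfsg.charDegree (χ : G → ℂ) = 2) with hA2
  have hd1 : ∀ χ : Cfsg.IrrCharacter G, Cfsg.charDegree (χ : G → ℂ) = 1 ↔ (χ : G → ℂ) 1 = 1 := by
    intro χ
    rw [apply_one_eq_charDegree χ.2]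
    exact_mod_cast Iff.rfl
  -- the counts
  have hLcard : L.card = Nat.card (realLin G) := by
    rw [← card_real_linear, Nat.card_eq_fintype_card, Fintype.card_subtype, hL]
    congr 1
    ext χ
    simp only [Finset.mem_filter, Finset.mem_univ, true_and, hd1]
  have hA1card : A1.card = (commutator G).index := by
    rw [← Cfsg.Agent.S0154.result, Nat.card_eq_fintype_card, Fintype.card_subtype, hA1]
    congr 1
    ext χ
    simp only [Finset.mem_filter, Finset.mem_univ, true_and, hd1]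
  have h4L : 4 ∣ L.card := hLcard ▸ four_dvd_card_realLin hG hcyc
  have hLpos : 0 < L.card := by
    rw [hLcard]
    haveI := finite_hom_units (G := G)
    exact Nat.card_pos
  have hLA : L.card ≤ A1.card := by
    apply Finset.card_le_card
    intro χ hχ
    rw [hL, Finset.mem_filter] at hχ
    rw [hA1, Finset.mem_filter]
    exact ⟨Finset.mem_univ _, hχ.2.1⟩
  have hA2card : A2.card = R2.card + N2.card := by
    rw [hA2, hR2, hN2, ← Finset.card_union_of_disjoint]
    · congr 1
      ext χ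
      simp only [Finset.mem_filter, Finset.mem_univ, true_and, Finset.mem_union]
      tauto
    · rw [Finset.disjoint_filter]
      intro χ _ h1 h2
      exact h2.2 h1.2
  have hN2even : Even N2.card := by
    convert even_card_nonreal (G := G) 2
  -- Frobenius-Schur count mod 4
  have hz : ∀ χ : Cfsg.IrrCharacter G, ∃ z : ℤ, fsInd (χ : G → ℂ) * (χ : G → ℂ) 1 = z ∧
      (z : ZMod 4) = (if Cfsg.charDegree (χ : G → ℂ) = 1 ∧ ∀ g, ((χ : G → ℂ) g).im = 0 then 1 else 0)
        + 2 * (if Cfsg.charDegree (χ : G → ℂ) = 2 ∧ ∀ g, ((χ : G → ℂ) g).im = 0 then 1 else 0) := by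
    intro χ
    rw [apply_one_eq_charDegree χ.2]
    by_cases hr : ∀ g, ((χ : G → ℂ) g).im = 0
    · have hne : fsInd (χ : G → ℂ) ≠ 0 := by
        intro h0
        obtain ⟨g, hg⟩ := (fsInd_eq_zero_iff χ.2).1 h0
        exact hg (hr g)
      rcases hdeg χ with h | h | h
      · refine ⟨1, ?_, ?_⟩
        · rw [fsInd_eq_one_of_odd χ.2 hr 1 ((hd1 χ).1 h ▸ by simp) (by decide), h]
          simp
        · simp [h, hr]
      · rcases fsInd_trichotomy χ.2 with h0 | h0 | h0
        · exact absurd h0 hne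
        · refine ⟨2, ?_, ?_⟩
          · rw [h0, h]; simp
          · simp [h, hr]
        · refine ⟨-2, ?_, ?_⟩
          · rw [h0, h]; simp
          · simp [h, hr]
            decide
      · have h1 : Cfsg.charDegree (χ : G → ℂ) ≠ 1 := by
          intro h'; rw [h'] at h; omega
        have h2 : Cfsg.charDegree (χ : G → ℂ) ≠ 2 := by
          intro h'; rw [h'] at h; omega
        have hc0 : ((Cfsg.charDegree (χ : G → ℂ) : ℕ) : ZMod 4) = 0 :=
          (ZMod.natCast_eq_zero_iff _ _).2 h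
        rcases fsInd_trichotomy χ.2 with h0 | h0 | h0
        · exact absurd h0 hne
        · refine ⟨Cfsg.charDegree (χ : G → ℂ), ?_, ?_⟩
          · rw [h0]; simp
          · simp [h1, h2, hc0]
        · refine ⟨-Cfsg.charDegree (χ : G → ℂ), ?_, ?_⟩
          · rw [h0]; simp
          · simp [h1, h2, hc0]
    · refine ⟨0, ?_, ?_⟩
      · have hr' := hr
        push Not at hr'
        rw [(fsInd_eq_zero_iff χ.2).2 hr']
        simp
      · simp [hr]
  choose z hz1 hz2 using hz
  have hsum : ((t + 1 : ℕ) : ℂ) = ∑ χ : Cfsg.IrrCharacter G, (z χ : ℂ) := by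
    rw [← card_sq_eq_one (G := G)]
    simp only [← hz1]
    convert card_sqrt_eq_sum (G := G) 1
  have hsumZ : ((t + 1 : ℕ) : ℤ) = ∑ χ : Cfsg.IrrCharacter G, z χ := by exact_mod_cast hsum
  have hsum4 : ((t + 1 : ℕ) : ZMod 4) = ((L.card + 2 * R2.card : ℕ) : ZMod 4) := by
    have := congrArg (fun a : ℤ => (a : ZMod 4)) hsumZ
    simp only [Int.cast_natCast, Int.cast_sum, hz2, Finset.sum_add_distrib, ← Finset.mul_sum,
      Finset.sum_boole] at this
    rw [this]
    push_cast
    rfl
  have hmod4 := (ZMod.natCast_eq_natCast_iff _ _ 4).1 hsum4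
  -- sum of squares mod 8
  have hsq : ∀ χ : Cfsg.IrrCharacter G, (((Cfsg.charDegree (χ : G → ℂ)) ^ 2 : ℕ) : ZMod 8)
      = (if Cfsg.charDegree (χ : G → ℂ) = 1 then 1 else 0)
        + 4 * (if Cfsg.charDegree (χ : G → ℂ) = 2 then 1 else 0) := by
    intro χ
    rcases hdeg χ with h | h | h
    · simp [h]
    · simp only [h]
      decide
    · have h1 : Cfsg.charDegree (χ : G → ℂ) ≠ 1 := by
        intro h'; rw [h'] at h; omega
      have h2 : Cfsg.charDegree (χ : G → ℂ) ≠ 2 := by
        intro h'; rw [h'] at h; omega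
      have : 8 ∣ (Cfsg.charDegree (χ : G → ℂ)) ^ 2 := by
        obtain ⟨c, hc⟩ := h
        rw [hc]
        exact ⟨2 * c ^ 2, by ring⟩
      rw [(ZMod.natCast_eq_zero_iff _ _).2 this]
      simp [h1, h2]
  have hsum8 : ((Nat.card G : ℕ) : ZMod 8) = ((A1.card + 4 * A2.card : ℕ) : ZMod 8) := by
    rw [← sum_charDegree_sq (G := G)]
    push_cast
    have : ∀ χ : Cfsg.IrrCharacter G, ((Cfsg.charDegree (χ : G → ℂ) : ℕ) : ZMod 8) ^ 2
      = (if Cfsg.charDegree (χ : G → ℂ) = 1 then 1 else 0)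
        + 4 * (if Cfsg.charDegree (χ : G → ℂ) = 2 then 1 else 0) := by
      intro χ
      rw [← hsq χ]
      push_cast
      rfl
    simp only [this, Finset.sum_add_distrib, ← Finset.mul_sum, Finset.sum_boole]
    rfl
  have hmod8 := (ZMod.natCast_eq_natCast_iff _ _ 8).1 hsum8
  -- the index is a power of two
  have hidxdvd : (commutator G).index ∣ 2 ^ n := hn ▸ (commutator G).index_dvd_card
  obtain ⟨j, -, hj⟩ := (Nat.dvd_prime_pow Nat.prime_two).1 hidxdvd
  have h8 : 8 ∣ (commutator G).index := by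
    rw [hj]
    have hj3 : 3 ≤ j := by
      by_contra hlt
      push Not at hlt
      rw [hA1card, hj] at hLA
      rw [hj] at hidx
      obtain ⟨c, hc⟩ := h4L
      interval_cases j <;> omega
    exact pow_dvd_pow 2 hj3
  have h8G : 8 ∣ Nat.card G := h8.trans (commutator G).index_dvd_card
  rw [hA1card] at hmod8
  unfold Nat.ModEq at hmod4 hmod8
  obtain ⟨c, hc⟩ := hN2even
  omega

end Cfsg.Agent.S4477
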