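import Cfsg.Statements.S4478
import Cfsg.Agent.Lib.Helper7.BlockFirst
import Cfsg.Agent.Lib.Helper25.FrobSchur
import Cfsg.Agent.Lib.Helper2.CharMore

set_option autoImplicit false
open Cfsg

namespace Cfsg.Agent.S4478

open Cfsg.Agent.Lib.Helper2
theorem not_dvd_div {n x p : ℕ} (hp : p.Prime) (hn : n ≠ 0) (hx : x ∣ n)
    (h : p ^ (n.factorization p) ∣ x) : ¬ p ∣ n / x := by
  intro hd
  obtain ⟨k, hk⟩ := hx
  have hx0 : 0 < x := Nat.pos_of_ne_zero (fun h0 => hn (by simp [hk, h0]))
  rw [hk, Nat.mul_div_cancel_left _ hx0] at hd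
  apply Nat.pow_succ_factorization_not_dvd hn hp
  rw [pow_succ]
  calc p ^ n.factorization p * p ∣ x * k := mul_dvd_mul h hd
    _ = n := hk.symm

theorem vanish {G : Type*} [Group G] [Finite G] (χ : Cfsg.IrrCharacter G) {q : ℕ} (hq : q.Prime)
    (h : q ^ (Nat.card G).factorization q ∣ Cfsg.charDegree (χ : G → ℂ)) {g : G}
    (hg : q ∣ orderOf g) : (χ : G → ℂ) g = 0 := by
  obtain ⟨M, hM⟩ := Cfsg.Agent.Lib.Helper7.exists_isPModular hq
  exact Cfsg.Agent.Lib.Helper7.char_eq_zero_of_defect_zero hM χ
    (not_dvd_div hq Nat.card_pos.ne' (Cfsg.Agent.Lib.Helper7.charDegree_dvd_card χ) h) hg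

theorem sum_sq_odd {G : Type*} [Group G] [Fintype G] (f : G → ℂ) :
    ∑ g ∈ Finset.univ.filter (fun g : G => Odd (orderOf g)), f (g * g) =
      ∑ g ∈ Finset.univ.filter (fun g : G => Odd (orderOf g)), f g := by
  have key : ∀ g : G, Odd (orderOf g) → g ^ (2 * ((orderOf g + 1) / 2)) = g := by
    intro g hg
    obtain ⟨k, hk⟩ := hg
    have : 2 * ((orderOf g + 1) / 2) = orderOf g + 1 := by omega
    rw [this, pow_succ, pow_orderOf_eq_one, one_mul]
  have hord : ∀ g : G, Odd (orderOf g) → orderOf (g * g) = orderOf g := by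
    intro g hg
    rw [← pow_two]
    exact Nat.Coprime.orderOf_pow (Nat.coprime_two_right.2 hg)
  refine Finset.sum_nbij' (fun g => g * g) (fun g => g ^ ((orderOf g + 1) / 2)) ?_ ?_ ?_ ?_ ?_
  · intro g hg
    simp only [Finset.mem_filter, Finset.mem_univ, true_and] at hg ⊢
    rw [hord g hg]; exact hg
  · intro g hg
    simp only [Finset.mem_filter, Finset.mem_univ, true_and] at hg ⊢
    exact Odd.of_dvd_nat hg (orderOf_pow_dvd _)
  · intro g hg
    simp only [Finset.mem_filter, Finset.mem_univ, true_and] at hg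
    show (g * g) ^ ((orderOf (g * g) + 1) / 2) = g
    rw [hord g hg, ← pow_two, ← pow_mul]
    exact key g hg
  · intro g hg
    simp only [Finset.mem_filter, Finset.mem_univ, true_and] at hg
    show g ^ ((orderOf g + 1) / 2) * g ^ ((orderOf g + 1) / 2) = g
    rw [← pow_add, ← two_mul]
    exact key g hg
  · intro g _
    rfl

/-- Let G be a finite group of even order and χ an irreducible character of G whose degree x is divisible by the full power of 2 dividing the order of G and, for every odd prime p such that G has an element of order 2p, by the full power of p dividing the order of G. Then all involutions of G are conjugate, the centralizer of every involution has order exactly x with x coprime to its index, and the Frobenius–Schur indicator of χ equals 1. -/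
theorem result {G : Type*} [Group G] [Fintype G] (heven : Even (Nat.card G)) (χ : Cfsg.IrrCharacter G) (h2 : 2 ^ (Nat.card G).factorization 2 ∣ Cfsg.charDegree (χ : G → ℂ)) (hp : ∀ p : ℕ, p.Prime → p ≠ 2 → (∃ g : G, orderOf g = 2 * p) → p ^ (Nat.card G).factorization p ∣ Cfsg.charDegree (χ : G → ℂ)) : (∀ s t : G, orderOf s = 2 → orderOf t = 2 → IsConj s t) ∧ (∀ s : G, orderOf s = 2 → Nat.card (Subgroup.centralizer ({s} : Set G)) = Cfsg.charDegree (χ : G → ℂ) ∧ (Nat.card (Subgroup.centralizer ({s} : Set G))).Coprime (Subgroup.centralizer ({s} : Set G)).index) ∧ (Nat.card G : ℂ)⁻¹ * ∑ g : G, (χ : G → ℂ) (g * g) = 1 := by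
  classical
  have hχc : Cfsg.IsCharacter G (χ : G → ℂ) := IsIrrCharacter.isCharacter χ.2
  set x := Cfsg.charDegree (χ : G → ℂ) with hx
  have hx1 : (χ : G → ℂ) 1 = (x : ℂ) := (Cfsg.Agent.Lib.Helper7.charDegree_cast hχc).symm
  have hxpos : 0 < x := Cfsg.Agent.Lib.Helper7.charDegree_pos χ
  have hxn : x ∣ Nat.card G := Cfsg.Agent.Lib.Helper7.charDegree_dvd_card χ
  have hn0 : Nat.card G ≠ 0 := Nat.card_pos.ne'
  have h2n : 2 ∣ Nat.card G := heven.two_dvd
  have hv2 : ∀ g : G, 2 ∣ orderOf g → (χ : G → ℂ) g = 0 :=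
    fun g hg => vanish χ Nat.prime_two h2 hg
  have hfull : ∀ s : G, orderOf s = 2 → ∀ q : ℕ, q.Prime →
      q ∣ Nat.card (Subgroup.centralizer ({s} : Set G)) →
      q ^ (Nat.card G).factorization q ∣ x := by
    intro s hs q hq hqd
    by_cases hq2 : q = 2
    · subst hq2; exact h2
    · apply hp q hq hq2
      haveI : Fact q.Prime := ⟨hq⟩
      obtain ⟨u, hu⟩ := exists_prime_orderOf_dvd_card' q hqd
      refine ⟨s * (u : G), ?_⟩
      have hcomm : Commute s (u : G) := (Subgroup.mem_centralizer_singleton_iff.1 u.2).symm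
      have hou : orderOf (u : G) = q := by rw [Subgroup.orderOf_coe]; exact hu
      have hcop : (orderOf s).Coprime (orderOf (u : G)) := by
        rw [hs, hou]; exact (Nat.coprime_primes Nat.prime_two hq).2 (Ne.symm hq2)
      rw [hcomm.orderOf_mul_eq_mul_orderOf_of_coprime hcop, hs, hou]
  have hsq : ∀ g : G, ¬ Odd (orderOf g) →
      (χ : G → ℂ) (g * g) = if orderOf g = 2 then (x : ℂ) else 0 := by
    intro g hg
    have hev : 2 ∣ orderOf g := (Nat.not_odd_iff_even.1 hg).two_dvd
    split_ifs with h2o
    · have : g * g = 1 := by rw [← pow_two, ← h2o]; exact pow_orderOf_eq_one g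
      rw [this, hx1]
    · obtain ⟨r, hr⟩ := hev
      have hopos : 0 < orderOf g := orderOf_pos g
      have hord : orderOf (g * g) = r := by
        rw [← pow_two, orderOf_pow_of_dvd two_ne_zero ⟨r, hr⟩, hr]
        simp
      have hr1 : r ≠ 1 := by rintro rfl; exact h2o (by simpa using hr)
      by_cases hr2 : 2 ∣ r
      · exact hv2 _ (hord ▸ hr2)
      · obtain ⟨q, hq, hqr⟩ := Nat.exists_prime_and_dvd hr1
        have hq2 : q ≠ 2 := by rintro rfl; exact hr2 hqr
        obtain ⟨k, hk⟩ := hqr
        have hk0 : k ≠ 0 := by rintro rfl; simp at hk; omega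
        have hel : orderOf (g ^ k) = 2 * q := by
          rw [orderOf_pow_of_dvd hk0 ⟨2 * q, by rw [hr, hk]; ring⟩, hr, hk]
          rw [show 2 * (q * k) = 2 * q * k by ring]
          exact Nat.mul_div_cancel _ (Nat.pos_of_ne_zero hk0)
        exact vanish χ hq (hp q hq hq2 ⟨g ^ k, hel⟩) (hord ▸ ⟨k, hk⟩)
  -- χ is not principal
  have hne : (χ : G → ℂ) ≠ fun _ => 1 := by
    intro h
    have h1 : (x : ℂ) = 1 := by rw [← hx1, h]
    have h1' : x = 1 := by exact_mod_cast h1
    have hpos : 0 < (Nat.card G).factorization 2 :=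
      Nat.Prime.factorization_pos_of_dvd Nat.prime_two hn0 h2n
    have : 2 ∣ x := dvd_trans (dvd_pow_self 2 hpos.ne') h2
    omega
  have hsum0 : ∑ g : G, (χ : G → ℂ) g = 0 := by
    have h := irr_orthogonal χ.2 IsIrrCharacter.one hne
    rw [classInner_def] at h
    have h' := (mul_eq_zero.1 h).resolve_left (inv_ne_zero card_ne_zero')
    simpa using h'
  have hsumodd : ∑ g ∈ Finset.univ.filter (fun g : G => Odd (orderOf g)), (χ : G → ℂ) g = 0 := by
    have h := Finset.sum_filter_add_sum_filter_not Finset.univ (fun g : G => Odd (orderOf g))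
      (fun g => (χ : G → ℂ) g)
    rw [hsum0] at h
    have h2' : ∑ g ∈ Finset.univ.filter (fun g : G => ¬ Odd (orderOf g)), (χ : G → ℂ) g = 0 := by
      apply Finset.sum_eq_zero
      intro g hg
      simp only [Finset.mem_filter, Finset.mem_univ, true_and] at hg
      exact hv2 g (Nat.not_odd_iff_even.1 hg).two_dvd
    rw [h2', add_zero] at h
    exact h
  set I := (Finset.univ.filter (fun g : G => orderOf g = 2)).card with hI
  have hsumsq : ∑ g : G, (χ : G → ℂ) (g * g) = (I : ℂ) * x := by
    rw [← Finset.sum_filter_add_sum_filter_not Finset.univ (fun g : G => Odd (orderOf g))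
      (fun g => (χ : G → ℂ) (g * g)), sum_sq_odd (fun g => (χ : G → ℂ) g), hsumodd, zero_add]
    rw [Finset.sum_congr rfl (fun g hg => hsq g (by
      simpa only [Finset.mem_filter, Finset.mem_univ, true_and] using hg))]
    rw [← Finset.sum_filter, Finset.filter_filter, Finset.sum_const, nsmul_eq_mul]
    congr 2
    rw [hI]
    congr 1
    ext g
    simp only [Finset.mem_filter, Finset.mem_univ, true_and]
    constructor
    · exact fun h => h.2
    · intro h
      exact ⟨by rw [h]; decide, h⟩
  haveI : Fact (Nat.Prime 2) := ⟨Nat.prime_two⟩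
  obtain ⟨t0, ht0⟩ := exists_prime_orderOf_dvd_card' (G := G) 2 h2n
  have hIpos : 0 < I := Finset.card_pos.2 ⟨t0, by simp [ht0]⟩
  have hfs : (Nat.card G : ℂ)⁻¹ * ∑ g : G, (χ : G → ℂ) (g * g) = 1 := by
    have htri := Cfsg.Agent.Lib.Helper25.fsInd_trichotomy χ.2
    unfold Cfsg.Agent.Lib.Helper25.fsInd at htri
    rw [hsumsq] at htri ⊢
    have hpos : (0 : ℝ) < (Nat.card G : ℝ)⁻¹ * ((I : ℝ) * x) := by positivity
    have hcast : (Nat.card G : ℂ)⁻¹ * ((I : ℂ) * x) = (((Nat.card G : ℝ)⁻¹ * ((I : ℝ) * x) : ℝ) : ℂ) := by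
      push_cast; ring
    rw [hcast] at htri ⊢
    rcases htri with h | h | h
    · exfalso
      have : (Nat.card G : ℝ)⁻¹ * ((I : ℝ) * x) = 0 := by exact_mod_cast h
      linarith
    · exact h
    · exfalso
      have : (Nat.card G : ℝ)⁻¹ * ((I : ℝ) * x) = -1 := by exact_mod_cast h
      linarith
  have hIx : I * x = Nat.card G := by
    rw [hsumsq] at hfs
    have hc : (Nat.card G : ℂ) ≠ 0 := card_ne_zero'
    have : (I : ℂ) * x = Nat.card G := by
      field_simp at hfs
      exact hfs
    exact_mod_cast this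
  -- centralizer order divides x
  have hCdvd : ∀ s : G, orderOf s = 2 → Nat.card (Subgroup.centralizer ({s} : Set G)) ∣ x := by
    intro s hs
    rw [← Nat.factorization_prime_le_iff_dvd Nat.card_pos.ne' hxpos.ne']
    intro q hq
    by_cases hqd : q ∣ Nat.card (Subgroup.centralizer ({s} : Set G))
    · have h1 := hfull s hs q hq hqd
      have h2' : (Nat.card (Subgroup.centralizer ({s} : Set G))).factorization q ≤
          (Nat.card G).factorization q :=
        (Nat.factorization_le_iff_dvd Nat.card_pos.ne' hn0).2 (Subgroup.card_subgroup_dvd_card _) q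
      exact h2'.trans ((hq.pow_dvd_iff_le_factorization hxpos.ne').1 h1)
    · rw [Nat.factorization_eq_zero_of_not_dvd hqd]; exact Nat.zero_le _
  have hcls : ∀ s : G, orderOf s = 2 →
      (Finset.univ.filter (fun g : G => IsConj s g)).card *
        Nat.card (Subgroup.centralizer ({s} : Set G)) = Nat.card G := by
    intro s hs
    have h1 : (MulAction.orbit (ConjAct G) s).ncard *
        Nat.card (MulAction.stabilizer (ConjAct G) s) = Nat.card (ConjAct G) := by
      rw [← MulAction.index_stabilizer]; exact Subgroup.index_mul_card _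
    rw [← Subgroup.nat_card_centralizer_nat_card_stabilizer] at h1
    have h3 : MulAction.orbit (ConjAct G) s =
        ((Finset.univ.filter (fun g : G => IsConj s g) : Finset G) : Set G) := by
      ext g
      rw [ConjAct.mem_orbit_conjAct, isConj_comm]
      simp only [Finset.coe_filter, Finset.mem_univ, true_and, Set.mem_ofPred_eq]
    rw [h3, Set.ncard_coe_finset] at h1
    exact h1
  have hkey : ∀ s : G, orderOf s = 2 →
      (Finset.univ.filter (fun g : G => IsConj s g)) =
        Finset.univ.filter (fun g : G => orderOf g = 2) ∧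
      Nat.card (Subgroup.centralizer ({s} : Set G)) = x := by
    intro s hs
    have hsub : (Finset.univ.filter (fun g : G => IsConj s g)) ⊆
        Finset.univ.filter (fun g : G => orderOf g = 2) := by
      intro g hg
      simp only [Finset.mem_filter, Finset.mem_univ, true_and] at hg ⊢
      obtain ⟨c, hc⟩ := isConj_iff.1 hg
      rw [← hs, ← hc, ← MulAut.conj_apply]
      exact MulEquiv.orderOf_eq _ _
    have hle := Finset.card_le_card hsub
    have hCle := Nat.le_of_dvd hxpos (hCdvd s hs)
    have hprod := hcls s hs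
    have hc_eq : (Finset.univ.filter (fun g : G => IsConj s g)).card = I := by
      by_contra hne'
      have hlt : (Finset.univ.filter (fun g : G => IsConj s g)).card < I := lt_of_le_of_ne hle hne'
      have : (Finset.univ.filter (fun g : G => IsConj s g)).card *
          Nat.card (Subgroup.centralizer ({s} : Set G)) < I * x :=
        calc _ ≤ (Finset.univ.filter (fun g : G => IsConj s g)).card * x :=
              Nat.mul_le_mul_left _ hCle
          _ < I * x := Nat.mul_lt_mul_of_pos_right hlt hxpos
      omega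
    refine ⟨Finset.eq_of_subset_of_card_le hsub (by rw [hc_eq]), ?_⟩
    rw [hc_eq, ← hIx] at hprod
    exact Nat.eq_of_mul_eq_mul_left hIpos hprod
  refine ⟨?_, ?_, hfs⟩
  · intro s t hs ht
    have h := (hkey s hs).1
    have ht' : t ∈ Finset.univ.filter (fun g : G => orderOf g = 2) := by simp [ht]
    rw [← h] at ht'
    simpa using ht'
  · intro s hs
    refine ⟨(hkey s hs).2, ?_⟩
    apply Nat.coprime_of_dvd
    intro q hq hq1 hq2
    have hidx : (Subgroup.centralizer ({s} : Set G)).index = Nat.card G / x := by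
      have := Subgroup.card_mul_index (Subgroup.centralizer ({s} : Set G))
      rw [(hkey s hs).2] at this
      exact (Nat.div_eq_of_eq_mul_right hxpos this.symm).symm
    exact not_dvd_div hq hn0 hxn (hfull s hs q hq hq1) (hidx ▸ hq2)

end Cfsg.Agent.S4478
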