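import Cfsg.Statements.S4479
import Cfsg.Agent.Lib.Helper1.KleinOrder

set_option autoImplicit false
open Cfsg

namespace Cfsg.Agent.S4479

open Cfsg.Agent.Lib.Helper7 Cfsg.Agent.Lib.Helper24 Cfsg.Agent.Lib.Helper1

/-- An order formula from the principal 2-block. Let G be a finite group of order 4·g₀ with g₀ odd having no normal 2-complement (no normal subgroup of order g₀); let P be a Sylow 2-subgroup, J an involution of P, and fix a maximal ideal M of the algebraic integers containing 2. Suppose the principal 2-block consists of the principal character and three further distinct characters χ₁, χ₂, χ₃ of degrees x₁, x₂, x₃, with χ_i(J) = ε_i = ±1. Then, writing c(J) and c(P) for the orders of the centralizers of J and of P, the order of G equals 8·α·c(J)³/c(P)² with α = x₁x₂x₃ / ((x₁ + ε₁)(x₂ + ε₂)(x₃ + ε₃)). -/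
theorem result {G : Type*} [Group G] [Finite G] (M : Ideal Cfsg.AlgInt) (hM : Cfsg.IsPModular 2 M) (g₀ : ℕ) (hg₀ : Odd g₀) (hG : Nat.card G = 4 * g₀) (hnc : ¬ ∃ N : Subgroup G, N.Normal ∧ Nat.card N = g₀) (P : Sylow 2 G) (J : G) (hJ : J ∈ (P : Subgroup G)) (hJ2 : orderOf J = 2) (χ₁ χ₂ χ₃ : Cfsg.IrrCharacter G) (ε₁ ε₂ ε₃ : ℤ) (hB : Cfsg.principalBlock M G = {χ : Cfsg.IrrCharacter G | (χ : G → ℂ) = (fun _ => 1) ∨ χ = χ₁ ∨ χ = χ₂ ∨ χ = χ₃}) (hdist : (χ₁ : G → ℂ) ≠ (fun _ => 1) ∧ (χ₂ : G → ℂ) ≠ (fun _ => 1) ∧ (χ₃ : G → ℂ) ≠ (fun _ => 1) ∧ χ₁ ≠ χ₂ ∧ χ₁ ≠ χ₃ ∧ χ₂ ≠ χ₃) (hε : (ε₁ = 1 ∨ ε₁ = -1) ∧ (ε₂ = 1 ∨ ε₂ = -1) ∧ (ε₃ = 1 ∨ ε₃ = -1)) (hval : (χ₁ : G → ℂ) J = ε₁ ∧ (χ₂ : G → ℂ) J = ε₂ ∧ (χ₃ : G → ℂ) J = ε₃) : (Nat.card G : ℚ) = 8 * (((Cfsg.charDegree (χ₁ : G → ℂ) : ℚ) * Cfsg.charDegree (χ₂ : G → ℂ) * Cfsg.charDegree (χ₃ : G → ℂ)) / ((Cfsg.charDegree (χ₁ : G → ℂ) + ε₁)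 * (Cfsg.charDegree (χ₂ : G → ℂ) + ε₂) * (Cfsg.charDegree (χ₃ : G → ℂ) + ε₃))) * (Nat.card (Subgroup.centralizer ({J} : Set G)) : ℚ) ^ 3 / (Nat.card (Subgroup.centralizer ((P : Subgroup G) : Set G)) : ℚ) ^ 2 := by
  classical
  haveI := hM.2.1.isPrime
  haveI := Fintype.ofFinite G
  haveI := Fintype.ofFinite (Cfsg.IrrCharacter G)
  obtain ⟨hP4, hexp, hK⟩ := klein_setup g₀ hg₀ hG hnc P
  obtain ⟨n, hn⟩ := hK.exists_value
  have hfil : Finset.univ.filter (· ∈ Cfsg.principalBlock M G) = {oneIrr G, χ₁, χ₂, χ₃} := by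
    ext χ
    simp only [Finset.mem_filter, Finset.mem_univ, true_and, hB, Set.mem_setOf_eq,
      Finset.mem_insert, Finset.mem_singleton]
    constructor
    · rintro (h | h)
      · left; exact Subtype.ext h
      · right; exact h
    · rintro (h | h)
      · left; rw [h]; rfl
      · right; exact h
  obtain ⟨hd1, hd2, hd3, hd12, hd13, hd23⟩ := hdist
  have ho1 : oneIrr G ≠ χ₁ := fun h => hd1 (by rw [← h]; rfl)
  have ho2 : oneIrr G ≠ χ₂ := fun h => hd2 (by rw [← h]; rfl)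
  have ho3 : oneIrr G ≠ χ₃ := fun h => hd3 (by rw [← h]; rfl)
  have hsum := klein_order_sum hK hM hn P hP4 hexp J hJ hJ2
  have hth := hK.theta hM hn 1
  rw [hfil, Finset.sum_insert (by simp [ho1, ho2, ho3]), Finset.sum_insert (by simp [hd12, hd13]),
    Finset.sum_insert (by simp [hd23]), Finset.sum_singleton] at hsum hth
  rw [hK.value_one hn] at hsum hth
  have hn1 : (n χ₁ : ℂ) = ε₁ := by rw [← hn χ₁ J hJ2, hval.1]
  have hn2 : (n χ₂ : ℂ) = ε₂ := by rw [← hn χ₂ J hJ2, hval.2.1]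
  have hn3 : (n χ₃ : ℂ) = ε₃ := by rw [← hn χ₃ J hJ2, hval.2.2]
  rw [hn1, hn2, hn3, ← charDegree_cast (isCharacter_of_irr χ₁.2), ← charDegree_cast (isCharacter_of_irr χ₂.2),
    ← charDegree_cast (isCharacter_of_irr χ₃.2)] at hsum hth
  have hone1 : (oneIrr G : G → ℂ) 1 = 1 := rfl
  rw [hone1] at hsum hth
  rw [if_neg (by simp)] at hth
  have hx1 : ((Cfsg.charDegree (χ₁ : G → ℂ) : ℕ) : ℂ) ≠ 0 := by
    exact_mod_cast (charDegree_pos χ₁).ne'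
  have hx2 : ((Cfsg.charDegree (χ₂ : G → ℂ) : ℕ) : ℂ) ≠ 0 := by
    exact_mod_cast (charDegree_pos χ₂).ne'
  have hx3 : ((Cfsg.charDegree (χ₃ : G → ℂ) : ℕ) : ℂ) ≠ 0 := by
    exact_mod_cast (charDegree_pos χ₃).ne'
  have he1 : (ε₁ : ℂ) ^ 2 = 1 := by rcases hε.1 with h | h <;> rw [h] <;> norm_num
  have he2 : (ε₂ : ℂ) ^ 2 = 1 := by rcases hε.2.1 with h | h <;> rw [h] <;> norm_num
  have he3 : (ε₃ : ℂ) ^ 2 = 1 := by rcases hε.2.2 with h | h <;> rw [h] <;> norm_num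
  have hcJ : (Nat.card (Subgroup.centralizer ({J} : Set G)) : ℂ) ≠ 0 := by
    exact_mod_cast Nat.card_pos.ne'
  have hcP : (Nat.card (Subgroup.centralizer ((P : Subgroup G) : Set G)) : ℂ) ≠ 0 := by
    exact_mod_cast Nat.card_pos.ne'
  apply Rat.cast_injective (α := ℂ)
  push_cast
  generalize ((Cfsg.charDegree (χ₁ : G → ℂ) : ℕ) : ℂ) = x₁ at *
  generalize ((Cfsg.charDegree (χ₂ : G → ℂ) : ℕ) : ℂ) = x₂ at *
  generalize ((Cfsg.charDegree (χ₃ : G → ℂ) : ℕ) : ℂ) = x₃ at *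
  generalize (Nat.card (Subgroup.centralizer ({J} : Set G)) : ℂ) = cJ at *
  generalize (Nat.card (Subgroup.centralizer ((P : Subgroup G) : Set G)) : ℂ) = cP at *
  generalize (Nat.card G : ℂ) = a at *
  generalize (ε₁ : ℂ) = e₁ at *
  generalize (ε₂ : ℂ) = e₂ at *
  generalize (ε₃ : ℂ) = e₃ at *
  have hD : (x₁ + e₁) * (x₂ + e₂) * (x₃ + e₃)
      = x₁ * x₂ * x₃ * (((1 : ℤ) : ℂ) / 1 + (e₁ / x₁ + (e₂ / x₂ + e₃ / x₃))) := by
    field_simp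
    push_cast
    push_cast at hth
    linear_combination (e₁ * e₂ * e₃) * hth - (e₂ * e₃ * x₁) * he1 - (e₁ * e₃ * x₂) * he2
      - (e₁ * e₂ * x₃) * he3
  have hmain : a * ((x₁ + e₁) * (x₂ + e₂) * (x₃ + e₃)) * cP ^ 2 = 8 * (x₁ * x₂ * x₃) * cJ ^ 3 := by
    rw [hD]
    linear_combination (x₁ * x₂ * x₃) * hsum
  have hD0 : (x₁ + e₁) * (x₂ + e₂) * (x₃ + e₃) ≠ 0 := by
    intro h
    rw [h, mul_zero, zero_mul] at hmain
    have : 8 * (x₁ * x₂ * x₃) * cJ ^ 3 ≠ 0 :=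
      mul_ne_zero (mul_ne_zero (by norm_num) (mul_ne_zero (mul_ne_zero hx1 hx2) hx3))
        (pow_ne_zero 3 hcJ)
    exact this hmain.symm
  rw [eq_div_iff (pow_ne_zero 2 hcP), mul_div_assoc', div_mul_eq_mul_div, eq_div_iff hD0]
  linear_combination hmain

end Cfsg.Agent.S4479
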