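import Cfsg.Statements.S4480
import Cfsg.Agent.Lib.Helper1.KleinOrder2

set_option autoImplicit false
open Cfsg

namespace Cfsg.Agent.S4480

open Cfsg.Agent.Lib.Helper7 Cfsg.Agent.Lib.Helper24 Cfsg.Agent.Lib.Helper1 Cfsg.Agent.Lib.Helper25

/-- Same setting as the Klein-four order formula: G of order 4·g₀ (g₀ odd) with no normal 2-complement, P a Sylow 2-subgroup, J an involution of P, M over 2, principal 2-block {1, χ₁, χ₂, χ₃} with χ_i(J) = ε_i = ±1. Suppose ε₁ε₂ε₃ = −1 and ε₃ = −1, and put q = x₃ = χ₃(1). Then there is a natural number m with 4·c(J) = m·c(P)·(q + 1), and the order of G equals (m³·c(P)/4)·(q³ − q)/2, that is 8·#G = m³·c(P)·(q³ − q). -/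
theorem result {G : Type*} [Group G] [Finite G] (M : Ideal Cfsg.AlgInt) (hM : Cfsg.IsPModular 2 M) (g₀ : ℕ) (hg₀ : Odd g₀) (hG : Nat.card G = 4 * g₀) (hnc : ¬ ∃ N : Subgroup G, N.Normal ∧ Nat.card N = g₀) (P : Sylow 2 G) (J : G) (hJ : J ∈ (P : Subgroup G)) (hJ2 : orderOf J = 2) (χ₁ χ₂ χ₃ : Cfsg.IrrCharacter G) (ε₁ ε₂ ε₃ : ℤ) (hB : Cfsg.principalBlock M G = {χ : Cfsg.IrrCharacter G | (χ : G → ℂ) = (fun _ => 1) ∨ χ = χ₁ ∨ χ = χ₂ ∨ χ = χ₃}) (hdist : (χ₁ : G → ℂ) ≠ (fun _ => 1) ∧ (χ₂ : G → ℂ) ≠ (fun _ => 1) ∧ (χ₃ : G → ℂ) ≠ (fun _ => 1) ∧ χ₁ ≠ χ₂ ∧ χ₁ ≠ χ₃ ∧ χ₂ ≠ χ₃) (hε : (ε₁ = 1 ∨ ε₁ = -1) ∧ (ε₂ = 1 ∨ ε₂ = -1) ∧ (ε₃ = 1 ∨ ε₃ = -1)) (hval : (χ₁ : G → ℂ) J = ε₁ ∧ (χ₂ : G → ℂ) J = ε₂ ∧ (χ₃ : G → ℂ) J = ε₃) (hprod : ε₁ * ε₂ * ε₃ = -1) (hε₃ : ε₃ = -1) : ∃ m : ℕ, 4 * Nat.card (Subgroup.centralizer ({J} : Set G)) = m * Nat.card (Subgroup.centralizer ((P : Subgroup G) : Set G))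 * (Cfsg.charDegree (χ₃ : G → ℂ) + 1) ∧ 8 * Nat.card G = m ^ 3 * Nat.card (Subgroup.centralizer ((P : Subgroup G) : Set G)) * (Cfsg.charDegree (χ₃ : G → ℂ) ^ 3 - Cfsg.charDegree (χ₃ : G → ℂ)) := by
  classical
  haveI := hM.2.1.isPrime
  haveI := Fintype.ofFinite G
  haveI := Fintype.ofFinite (Cfsg.IrrCharacter G)
  obtain ⟨hP4, hexp, hK⟩ := klein_setup g₀ hg₀ hG hnc P
  obtain ⟨n, hn⟩ := hK.exists_value
  have hfil : Finset.univ.filter (· ∈ Cfsg.principalBlock M G) = {oneIrr G, χ₁, χ₂, χ₃} := by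
    ext χ
    simp only [Finset.mem_filter, Finset.mem_univ, true_and, hB, Set.mem_setOf_eq,
      Finset.mem_insert, Finset.mem_singleton]
    constructor
    · rintro (h | h)
      · left; exact Subtype.ext h
      · right; exact h
    · rintro (h | h)
      · left; rw [h]; rfl
      · right; exact h
  obtain ⟨hd1, hd2, hd3, hd12, hd13, hd23⟩ := hdist
  have ho1 : oneIrr G ≠ χ₁ := fun h => hd1 (by rw [← h]; rfl)
  have ho2 : oneIrr G ≠ χ₂ := fun h => hd2 (by rw [← h]; rfl)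
  have ho3 : oneIrr G ≠ χ₃ := fun h => hd3 (by rw [← h]; rfl)
  have hsum := klein_order_sum hK hM hn P hP4 hexp J hJ hJ2
  have hth := hK.theta hM hn 1
  have hfs := klein_fs_sum hK hM J hJ2
  rw [hfil, Finset.sum_insert (by simp [ho1, ho2, ho3]), Finset.sum_insert (by simp [hd12, hd13]),
    Finset.sum_insert (by simp [hd23]), Finset.sum_singleton] at hsum hth hfs
  rw [hK.value_one hn] at hsum hth
  have hn1 : (n χ₁ : ℂ) = ε₁ := by rw [← hn χ₁ J hJ2, hval.1]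
  have hn2 : (n χ₂ : ℂ) = ε₂ := by rw [← hn χ₂ J hJ2, hval.2.1]
  have hn3 : (n χ₃ : ℂ) = ε₃ := by rw [← hn χ₃ J hJ2, hval.2.2]
  have hn1' : n χ₁ = ε₁ := by exact_mod_cast hn1
  have hn2' : n χ₂ = ε₂ := by exact_mod_cast hn2
  have hn3' : n χ₃ = ε₃ := by exact_mod_cast hn3
  have hm1 := hK.mod_four hn χ₁
  have hm2 := hK.mod_four hn χ₂
  have hm3 := hK.mod_four hn χ₃
  rw [hn1'] at hm1
  rw [hn2'] at hm2
  rw [hn3'] at hm3
  rw [hn1, hn2, hn3, ← charDegree_cast (Cfsg.Agent.Lib.Helper7.isCharacter_of_irr χ₁.2),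
    ← charDegree_cast (Cfsg.Agent.Lib.Helper7.isCharacter_of_irr χ₂.2),
    ← charDegree_cast (Cfsg.Agent.Lib.Helper7.isCharacter_of_irr χ₃.2)] at hsum hth
  rw [hval.1, hval.2.1, hval.2.2] at hfs
  have hone1 : ∀ g, (oneIrr G : G → ℂ) g = 1 := fun _ => rfl
  rw [hone1] at hsum hth hfs
  rw [if_neg (by simp)] at hth
  have hx1 := charDegree_pos χ₁
  have hx2 := charDegree_pos χ₂
  have hx3 := charDegree_pos χ₃
  have hth' : (1 : ℤ) + (ε₁ * (Cfsg.charDegree (χ₁ : G → ℂ) : ℤ) + (ε₂ * (Cfsg.charDegree (χ₂ : G → ℂ) : ℤ)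
      + ε₃ * (Cfsg.charDegree (χ₃ : G → ℂ) : ℤ))) = 0 := by
    have : (((1 : ℤ) + (ε₁ * (Cfsg.charDegree (χ₁ : G → ℂ) : ℤ) + (ε₂ * (Cfsg.charDegree (χ₂ : G → ℂ) : ℤ)
      + ε₃ * (Cfsg.charDegree (χ₃ : G → ℂ) : ℤ))) : ℤ) : ℂ) = ((0 : ℤ) : ℂ) := by
      push_cast
      push_cast at hth
      linear_combination hth
    exact_mod_cast this
  have he12 : ε₁ = 1 ∧ ε₂ = 1 := by
    subst hε₃
    rcases hε.1 with h1 | h1 <;> rcases hε.2.1 with h2 | h2 <;> subst h1 h2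
    · exact ⟨rfl, rfl⟩
    · norm_num at hprod
    · norm_num at hprod
    · exfalso; omega
  obtain ⟨rfl, rfl⟩ := he12
  subst hε₃
  have hν : ∀ χ : Cfsg.IrrCharacter G, Odd (Cfsg.charDegree (χ : G → ℂ)) →
      (fsInd (χ : G → ℂ) = 0 ∧ ∃ g, ((χ : G → ℂ) g).im ≠ 0) ∨
      (fsInd (χ : G → ℂ) = 1 ∧ ∀ g, ((χ : G → ℂ) g).im = 0) := by
    intro χ hodd
    by_cases h : ∃ g, ((χ : G → ℂ) g).im ≠ 0
    · left; exact ⟨(fsInd_eq_zero_iff χ.2).2 h, h⟩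
    · right
      push Not at h
      exact ⟨fsInd_eq_one_of_odd χ.2 h _
        (charDegree_cast (Cfsg.Agent.Lib.Helper7.isCharacter_of_irr χ.2)).symm hodd, h⟩
  have hν0 : fsInd (oneIrr G : G → ℂ) = 1 :=
    fsInd_eq_one_of_odd (oneIrr G).2 (fun g => by simp [hone1]) 1 (by simp [hone1]) odd_one
  have hodd1 : Odd (Cfsg.charDegree (χ₁ : G → ℂ)) := by
    rw [Nat.odd_iff]; omega
  have hodd2 : Odd (Cfsg.charDegree (χ₂ : G → ℂ)) := by
    rw [Nat.odd_iff]; omega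
  have hodd3 : Odd (Cfsg.charDegree (χ₃ : G → ℂ)) := by
    rw [Nat.odd_iff]; omega
  rw [hν0] at hfs
  have hkey : (∃ g, ((χ₁ : G → ℂ) g).im ≠ 0) ∧ ∀ g, ((χ₃ : G → ℂ) g).im = 0 := by
    rcases hν χ₁ hodd1 with ⟨h1, h1'⟩ | ⟨h1, h1'⟩ <;> rcases hν χ₂ hodd2 with ⟨h2, h2'⟩ | ⟨h2, h2'⟩ <;>
      rcases hν χ₃ hodd3 with ⟨h3, h3'⟩ | ⟨h3, h3'⟩ <;> rw [h1, h2, h3] at hfs <;>
      first
        | exact ⟨h1', h3'⟩
        | (exfalso; norm_num at hfs)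
  obtain ⟨⟨g1, hg1⟩, hreal3⟩ := hkey
  have hc3 : conjIrr χ₃ = χ₃ := by
    apply Subtype.ext
    funext g
    rw [conjIrr_apply, Complex.conj_eq_iff_im]
    exact hreal3 g
  have hconj : conjIrr χ₁ = χ₂ := by
    have hmem : conjIrr χ₁ ∈ Cfsg.principalBlock M G := by
      apply conjIrr_mem_principalBlock
      rw [hB]; right; left; rfl
    rw [hB] at hmem
    rcases hmem with h | h | h | h
    · exfalso
      apply hd1
      funext g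
      have := congrFun h g
      rw [conjIrr_apply] at this
      have h2 := congrArg (starRingEnd ℂ) this
      simpa using h2
    · exfalso
      apply hg1
      have := congrFun (congrArg Subtype.val h) g1
      rw [conjIrr_apply, Complex.conj_eq_iff_im] at this
      exact this
    · exact h
    · exfalso
      apply hd13
      rw [← conjIrr_conjIrr χ₁, h, hc3]
  have hdeg : Cfsg.charDegree (χ₂ : G → ℂ) = Cfsg.charDegree (χ₁ : G → ℂ) := by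
    rw [← hconj]
    simp [Cfsg.charDegree, conjIrr_apply]
  rw [hdeg] at hsum hth'
  have hq : Cfsg.charDegree (χ₃ : G → ℂ) = 2 * Cfsg.charDegree (χ₁ : G → ℂ) + 1 := by omega
  have hs : Cfsg.charDegree (χ₁ : G → ℂ) + 1 = 2 * ((Cfsg.charDegree (χ₁ : G → ℂ) + 1) / 2) := by
    omega
  obtain ⟨k, hk⟩ := Subgroup.card_dvd_of_le
    (Subgroup.centralizer_le (Set.singleton_subset_iff.mpr hJ) :
      Subgroup.centralizer ((P : Subgroup G) : Set G) ≤ Subgroup.centralizer ({J} : Set G))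
  have hcJ0 : 0 < Nat.card (Subgroup.centralizer ({J} : Set G)) := Nat.card_pos
  have hcP0 : 0 < Nat.card (Subgroup.centralizer ((P : Subgroup G) : Set G)) := Nat.card_pos
  have hk0 : 0 < k := by
    rcases Nat.eq_zero_or_pos k with h | h
    · rw [h, mul_zero] at hk; omega
    · exact h
  refine klein_arith (Nat.card G) _ _ (Cfsg.charDegree (χ₁ : G → ℂ)) _
    (Subgroup.centralizer ({J} : Set G)).index k _ hcP0 hk0 hq hs
    ((Subgroup.centralizer ({J} : Set G)).index_mul_card).symm (by rw [hk, mul_comm]) ?_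
  have hx1' : ((Cfsg.charDegree (χ₁ : G → ℂ) : ℕ) : ℂ) ≠ 0 := by exact_mod_cast hx1.ne'
  have hx3' : ((Cfsg.charDegree (χ₃ : G → ℂ) : ℕ) : ℂ) ≠ 0 := by exact_mod_cast hx3.ne'
  have hq' : ((Cfsg.charDegree (χ₃ : G → ℂ) : ℕ) : ℂ)
      = 2 * ((Cfsg.charDegree (χ₁ : G → ℂ) : ℕ) : ℂ) + 1 := by exact_mod_cast hq
  have hfin : (Nat.card G : ℂ) * (((Cfsg.charDegree (χ₁ : G → ℂ) : ℕ) : ℂ) + 1) ^ 2
      * (Nat.card (Subgroup.centralizer ((P : Subgroup G) : Set G)) : ℂ) ^ 2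
      = 4 * ((Cfsg.charDegree (χ₁ : G → ℂ) : ℕ) : ℂ) * ((Cfsg.charDegree (χ₃ : G → ℂ) : ℕ) : ℂ)
        * (Nat.card (Subgroup.centralizer ({J} : Set G)) : ℂ) ^ 3 := by
    generalize ((Cfsg.charDegree (χ₁ : G → ℂ) : ℕ) : ℂ) = x at *
    generalize ((Cfsg.charDegree (χ₃ : G → ℂ) : ℕ) : ℂ) = q at *
    generalize (Nat.card (Subgroup.centralizer ({J} : Set G)) : ℂ) = cJ at *
    generalize (Nat.card (Subgroup.centralizer ((P : Subgroup G) : Set G)) : ℂ) = cP at *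
    generalize (Nat.card G : ℂ) = a at *
    have hS : (((1 : ℤ) : ℂ) / 1 + (((1 : ℤ) : ℂ) / x + (((1 : ℤ) : ℂ) / x + ((-1 : ℤ) : ℂ) / q))) * (x * q)
        = 2 * (x + 1) ^ 2 := by
      push_cast
      field_simp
      rw [hq']; ring
    linear_combination (x * q / 2) * hsum - (a * cP ^ 2 / 2) * hS
  exact_mod_cast hfin

end Cfsg.Agent.S4480
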