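import Cfsg.Statements.S4483
import Cfsg.Agent.Lib.Helper24.RealBlock
import Cfsg.Agent.Lib.Helper24.PrincipalBound

set_option autoImplicit false
open Cfsg

namespace Cfsg.Agent.S4483

/-- Let G be a finite group of order 2^n·g₀ with g₀ odd, and M a maximal ideal of the algebraic integers containing 2. Every real-valued irreducible character of G of odd degree lies in the principal 2-block; consequently G has at most 2^(2n) real-valued irreducible characters of odd degree. -/
theorem result {G : Type*} [Group G] [Finite G] (M : Ideal Cfsg.AlgInt) (hM : Cfsg.IsPModular 2 M) : (∀ χ : Cfsg.IrrCharacter G, (∀ g : G, ((χ : G → ℂ) g).im = 0) → Odd (Cfsg.charDegree (χ : G → ℂ)) → χ ∈ Cfsg.principalBlock M G) ∧ Nat.card {χ : Cfsg.IrrCharacter G // (∀ g : G, ((χ : G → ℂ) g).im = 0) ∧ Odd (Cfsg.charDegree (χ : G → ℂ))} ≤ 2 ^ (2 * (Nat.card G).factorization 2) := by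
  classical
  haveI := hM.2.1.isPrime
  haveI := Fintype.ofFinite G
  have key : ∀ χ : Cfsg.IrrCharacter G, (∀ g : G, ((χ : G → ℂ) g).im = 0) →
      Odd (Cfsg.charDegree (χ : G → ℂ)) → χ ∈ Cfsg.principalBlock M G := by
    intro χ hre hodd
    apply Cfsg.Agent.Lib.Helper24.mem_principalBlock_of_odd hM χ χ
      (Cfsg.Agent.Lib.Helper7.sameBlock_refl _)
    · intro g _
      rw [Cfsg.Agent.Lib.Helper7.char_inv_eq_conj (Cfsg.Agent.Lib.Helper7.isCharacter_of_irr χ.2)]
      exact (Complex.conj_eq_iff_im.2 (hre g)).symm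
    · intro h
      exact (Nat.not_even_iff_odd.2 hodd) (even_iff_two_dvd.2 h)
  refine ⟨key, ?_⟩
  refine le_trans ?_ (Cfsg.Agent.Lib.Helper24.card_principalBlock_le (G := G) hM)
  apply Nat.card_le_card_of_injective
    (fun χ : {χ : Cfsg.IrrCharacter G // (∀ g : G, ((χ : G → ℂ) g).im = 0) ∧
        Odd (Cfsg.charDegree (χ : G → ℂ))} =>
      (⟨χ.1, key χ.1 χ.2.1 χ.2.2⟩ : Cfsg.principalBlock M G))
  intro χ ψ h
  apply Subtype.ext
  exact congrArg (fun z : Cfsg.principalBlock M G => z.1) h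

end Cfsg.Agent.S4483
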