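import Cfsg.Statements.S4487
import Cfsg.Agent.Lib.Helper24.BlockSupp

set_option autoImplicit false
open Cfsg

namespace Cfsg.Agent.S4487

/-- Let G be a finite group and p a prime such that G has no non-trivial normal subgroup of order prime to p and C_G(O_p(G)) ≤ O_p(G). Then G has a single p-block: any two irreducible characters lie in the same block relative to every maximal ideal M of the algebraic integers containing p. -/
theorem result {G : Type*} [Group G] [Finite G] (p : ℕ) [Fact p.Prime] (M : Ideal Cfsg.AlgInt) (hM : Cfsg.IsPModular p M) (hcore : Cfsg.pPrimeCore p G = ⊥) (hconstr : Subgroup.centralizer ((Cfsg.pCore p G) : Set G) ≤ Cfsg.pCore p G) (χ ψ : Cfsg.IrrCharacter G) : Cfsg.SameBlock M (χ : G → ℂ) (ψ : G → ℂ) := by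
  open Cfsg.Agent.Lib.Helper7 Cfsg.Agent.Lib.Helper24 in
  classical
  haveI := Fintype.ofFinite G
  haveI := hM.2.1.isPrime
  have hPn : (Cfsg.pCore p G).Normal := Subgroup.sSup_normal _ (fun _ h => h.1)
  have hPp : IsPGroup p (Cfsg.pCore p G) :=
    Sylow.sSup_of_normal _ (fun _ h => h.2) (fun _ h => h.1)
  have hB : Cfsg.IsPBlock M (Cfsg.blockOf M (χ : G → ℂ)) := ⟨χ, rfl⟩
  have h0 : ∀ g : G, g ≠ 1 → Cfsg.blockCoeff (Cfsg.blockOf M (χ : G → ℂ)) g = 0 := by
    intro g hg
    by_cases hgc : g ∈ Subgroup.centralizer ((Cfsg.pCore p G) : Set G)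
    · apply blockCoeff_eq_zero_of_singular hM hB
      obtain ⟨k, hk⟩ := IsPGroup.iff_orderOf.1 hPp ⟨g, hconstr hgc⟩
      rw [Subgroup.orderOf_mk] at hk
      rw [hk]
      apply dvd_pow_self
      rintro rfl
      rw [pow_zero, orderOf_eq_one_iff] at hk
      exact hg hk
    · exact blockCoeff_eq_zero_of_not_mem_centralizer hM hB _ hPp hgc
  have hOm : ∀ φ : Cfsg.IrrCharacter G,
      Om (Cfsg.blockCoeff (Cfsg.blockOf M (χ : G → ℂ))) φ
        = Cfsg.blockCoeff (Cfsg.blockOf M (χ : G → ℂ)) 1 := by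
    intro φ
    rw [Om, Finset.sum_eq_single 1]
    · rw [mul_div_assoc, div_self (irr_apply_one_ne_zero φ.2), mul_one]
    · intro g _ hg
      rw [h0 g hg, zero_mul]
    · intro h; exact absurd (Finset.mem_univ _) h
  have h1 := hOm χ
  have h2 := hOm ψ
  rw [Om_blockCoeff] at h1 h2
  rw [Set.indicator_of_mem (self_mem_blockOf χ)] at h1
  rw [← h1] at h2
  by_contra hcon
  have : ψ ∉ Cfsg.blockOf M (χ : G → ℂ) := hcon
  rw [Set.indicator_of_notMem this] at h2
  exact zero_ne_one h2

end Cfsg.Agent.S4487
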