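import Cfsg.Statements.S4488
import Cfsg.Agent.Lib.Helper7.BlockHeight
import Cfsg.Agent.Lib.Helper2.CharGal2
import Cfsg.Agent.Lib.Helper2.CharMore
import Cfsg.Agent.Lib.Helper2.CharInt

set_option autoImplicit false
open Cfsg

namespace Cfsg.Agent.S4488

open Cfsg.Agent.Lib.Helper2
open scoped IntermediateField

theorem sigma_list {N m : ℕ} (σ : cycField N →ₐ[ℚ] ℂ)
    (hσ : ∀ z : cycField N, (z : ℂ) ^ N = 1 → σ z = (z : ℂ) ^ m) (hN : N ≠ 0) :
    ∀ l : List ℂ, (∀ z ∈ l, z ^ N = 1) → ∀ h : l.sum ∈ cycField N,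
      σ ⟨l.sum, h⟩ = (l.map (· ^ m)).sum := by
  intro l
  induction l with
  | nil =>
    intro _ h
    have : (⟨([] : List ℂ).sum, h⟩ : cycField N) = 0 := by
      apply Subtype.ext; simp
    rw [this, map_zero]; simp
  | cons z l ih =>
    intro hl h
    have hz : z ^ N = 1 := hl z (by simp)
    have hzm : z ∈ cycField N := mem_cycField_of_pow_eq_one hN hz
    have hl' : ∀ w ∈ l, w ^ N = 1 := fun w hw => hl w (by simp [hw])
    have hs : l.sum ∈ cycField N :=
      list_sum_mem (fun w hw => mem_cycField_of_pow_eq_one hN (hl' w hw))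
    have : (⟨(z :: l).sum, h⟩ : cycField N) = ⟨z, hzm⟩ + ⟨l.sum, hs⟩ := by
      apply Subtype.ext; simp
    rw [this, map_add, ih hl' hs, hσ ⟨z, hzm⟩ hz]
    simp

theorem gal_fix {G : Type*} [Group G] [Finite G] {p : ℕ} (hp : p.Prime) {χ : G → ℂ}
    (hχ : Cfsg.IsCharacter G χ) {r : ℕ} (hr : 0 < r) (hpr : ¬ p ∣ r)
    (hrat : ∀ g : G, χ g ∈ cycField r) {x : G} {k : ℕ} (hx : orderOf x = p ^ k) {i : ℕ}
    (hi : ¬ p ∣ i) : χ (x ^ i) = χ x := by
  have hcop : r.Coprime (p ^ k) :=
    Nat.Coprime.pow_right k ((Nat.Prime.coprime_iff_not_dvd hp).2 hpr).symm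
  obtain ⟨m, hm1, hm2⟩ := Nat.chineseRemainder hcop 1 i
  set N := r * p ^ k with hNdef
  have hN : N ≠ 0 := (Nat.mul_pos hr (pow_pos hp.pos k)).ne'
  have hmr : m.Coprime r := by
    have := hm1.gcd_eq
    rw [Nat.Coprime, this]; simp
  have hmp : m.Coprime (p ^ k) := by
    have := hm2.gcd_eq
    rw [Nat.Coprime, this]
    exact Nat.Coprime.pow_right k ((Nat.Prime.coprime_iff_not_dvd hp).2 hi).symm
  have hmN : m.Coprime N := Nat.Coprime.mul_right hmr hmp
  obtain ⟨σ, hσ⟩ := exists_embedding_of_coprime hN hmN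
  obtain ⟨l, hl1, hl2⟩ := Cfsg.Agent.Lib.Helper7.exists_eigenvalues hχ x
  have hlN : ∀ z ∈ l, z ^ N = 1 := by
    intro z hz
    rw [hNdef, mul_comm, pow_mul, ← hx, hl1 z hz, one_pow]
  have hχx : χ x = l.sum := by
    have := hl2 1
    simpa using this
  have hχm : χ (x ^ m) = (l.map (· ^ m)).sum := by
    have := hl2 (m : ℤ)
    simpa using this
  have hzr : zetaN r ^ N = 1 := by
    rw [hNdef, pow_mul, (zetaN_isPrimitiveRoot r hr.ne').pow_eq_one, one_pow]
  have hle : cycField r ≤ cycField N := by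
    unfold cycField
    rw [IntermediateField.adjoin_simple_le_iff]
    exact mem_cycField_of_pow_eq_one hN hzr
  have hmem : l.sum ∈ cycField N := hχx ▸ hle (hrat x)
  have h1 := sigma_list σ hσ hN l hlN hmem
  have hfix : σ.comp (IntermediateField.inclusion hle) = (cycField r).val := by
    apply IntermediateField.adjoin_algHom_ext
    intro y hy
    rw [Set.mem_singleton_iff] at hy
    subst hy
    have h3 : σ ⟨zetaN r, mem_cycField_of_pow_eq_one hN hzr⟩ = zetaN r ^ m := hσ _ hzr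
    have h4 : zetaN r ^ m = zetaN r ^ 1 := by
      have hr1 := (zetaN_isPrimitiveRoot r hr.ne').pow_eq_one
      rw [pow_eq_pow_mod m hr1, pow_eq_pow_mod 1 hr1]
      exact congrArg _ hm1
    rw [pow_one] at h4
    exact h3.trans h4
  have h2 : σ ⟨l.sum, hmem⟩ = l.sum := by
    have := congrArg (fun f => f ⟨l.sum, hχx ▸ hrat x⟩) hfix
    exact this
  have hxm : x ^ m = x ^ i := by
    rw [pow_eq_pow_iff_modEq, hx]; exact hm2
  rw [← hxm, hχm, ← h1, h2, hχx]

theorem geom_re_nonneg {o : ℕ} : ∀ l : List ℂ, (∀ μ ∈ l, μ ^ o = 1) →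
    0 ≤ (∑ i ∈ Finset.range o, (l.map (· ^ i)).sum).re := by
  intro l
  induction l with
  | nil => intro _; simp
  | cons μ l ih =>
    intro hl
    have hμ : μ ^ o = 1 := hl μ (by simp)
    have hl' : ∀ w ∈ l, w ^ o = 1 := fun w hw => hl w (by simp [hw])
    simp only [List.map_cons, List.sum_cons, Finset.sum_add_distrib, Complex.add_re]
    have h1 : 0 ≤ (∑ i ∈ Finset.range o, μ ^ i).re := by
      by_cases h : μ = 1
      · subst h; simp
      · have := mul_neg_geom_sum μ o
        rw [hμ, sub_self] at this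
        have h0 : ∑ i ∈ Finset.range o, μ ^ i = 0 :=
          (mul_eq_zero.1 this).resolve_left (sub_ne_zero.2 (Ne.symm h))
        rw [h0]; simp
    exact add_nonneg h1 (ih hl')

theorem card_mult (p q : ℕ) (hp : 0 < p) :
    ((Finset.range (p * q)).filter (fun i => p ∣ i)).card = q := by
  have : (Finset.range (p * q)).filter (fun i => p ∣ i) = (Finset.range q).image (fun a => p * a) := by
    ext i
    simp only [Finset.mem_filter, Finset.mem_range, Finset.mem_image]
    constructor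
    · rintro ⟨h1, a, rfl⟩
      exact ⟨a, lt_of_mul_lt_mul_left h1 (Nat.zero_le _), rfl⟩
    · rintro ⟨a, ha, rfl⟩
      exact ⟨Nat.mul_lt_mul_of_pos_left ha hp, dvd_mul_right _ _⟩
  rw [this, Finset.card_image_of_injective _ (fun a b h => Nat.eq_of_mul_eq_mul_left hp h),
    Finset.card_range]

theorem value_form {G : Type*} [Group G] [Finite G] {p : ℕ} (hp : p.Prime) {χ : G → ℂ}
    (hχ : Cfsg.IsCharacter G χ) (hfaith : ∀ g : G, χ g = χ 1 → g = 1) {r : ℕ} (hr : 0 < r)
    (hpr : ¬ p ∣ r) (hrat : ∀ g : G, χ g ∈ cycField r) {n : ℕ} (hn : χ 1 = n) {x : G} {k : ℕ}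
    (hx : orderOf x = p ^ k) (hx1 : x ≠ 1) :
    ∃ j : ℕ, 1 ≤ j ∧ (p - 1) * j ≤ n ∧ χ x = (n : ℂ) - (p : ℂ) * j := by
  have hk : k ≠ 0 := by
    rintro rfl
    rw [pow_zero, orderOf_eq_one_iff] at hx
    exact hx1 hx
  have hpG : p ∣ Nat.card G :=
    dvd_trans (dvd_trans (dvd_pow_self p hk) (hx ▸ dvd_rfl)) (orderOf_dvd_natCard x)
  -- rational integer
  obtain ⟨z, hz⟩ : ∃ z : ℤ, χ x = z := by
    haveI := finiteDimensional_cycField (Nat.card G) Nat.card_pos.ne'
    obtain ⟨q, hq⟩ := rat_of_fixed (cycField (Nat.card G)) ⟨χ x, char_mem_cycField hχ x⟩ (by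
      intro σ
      obtain ⟨m, hm, hσ⟩ := embedding_char σ
      rw [hσ χ hχ x _ rfl]
      apply gal_fix hp hχ hr hpr hrat hx
      intro hpm
      have := Nat.dvd_gcd hpm hpG
      rw [hm] at this
      exact hp.one_lt.ne' (Nat.dvd_one.1 this))
    exact exists_int_of_isIntegral_of_rat (Cfsg.Agent.Lib.Helper7.char_isIntegral hχ x) q hq
  have hnorm := Cfsg.Agent.Lib.Helper7.char_norm_le hχ
  have hn_re : (χ 1).re = n := by rw [hn]; simp
  have hzle : z ≤ n := by
    have h1 := hnorm x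
    rw [hn_re, hz] at h1
    have h2 : (z : ℝ) ≤ ‖(z : ℂ)‖ := by
      rw [Complex.norm_intCast]; exact le_abs_self _
    exact_mod_cast h2.trans h1
  have hzne : z ≠ n := by
    intro h
    apply hx1
    apply hfaith
    rw [hz, hn, h]; simp
  obtain ⟨d, hd⟩ : ∃ d : ℕ, (n : ℤ) - z = d := ⟨((n : ℤ) - z).toNat, by omega⟩
  have hd0 : d ≠ 0 := by rintro rfl; omega
  obtain ⟨M, hM⟩ := Cfsg.Agent.Lib.Helper7.exists_isPModular hp
  have hpd : p ∣ d := by
    rw [← Cfsg.Agent.Lib.Helper7.memLocalIdeal_natCast_iff hM]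
    have h1 := Cfsg.Agent.Lib.Helper7.char_congr_mul hM hχ (Commute.one_right x) ⟨k, hx⟩
      (by rw [orderOf_one]; exact fun h => hp.one_lt.ne' (Nat.dvd_one.1 h))
    have h2 := Cfsg.Agent.Lib.Helper7.memLocalIdeal_sub_comm h1
    rw [mul_one, hn, hz] at h2
    have h3 : ((n : ℂ) - (z : ℂ)) = (d : ℂ) := by
      have : (((n : ℤ) - z : ℤ) : ℂ) = ((d : ℤ) : ℂ) := by rw [hd]
      push_cast at this
      exact this
    rw [h3] at h2
    exact h2
  obtain ⟨j, rfl⟩ := hpd
  -- lower bound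
  obtain ⟨l, hl1, hl2⟩ := Cfsg.Agent.Lib.Helper7.exists_eigenvalues hχ x
  have hS := geom_re_nonneg (o := orderOf x) l hl1
  have hSeq : ∑ i ∈ Finset.range (orderOf x), (l.map (· ^ i)).sum =
      ∑ i ∈ Finset.range (orderOf x), χ (x ^ i) := by
    refine Finset.sum_congr rfl fun i _ => ?_
    have := hl2 (i : ℤ)
    simp only [zpow_natCast] at this
    exact this.symm
  rw [hSeq] at hS
  obtain ⟨k', rfl⟩ := Nat.exists_eq_succ_of_ne_zero hk
  set q := p ^ k' with hq
  have hoq : orderOf x = p * q := by rw [hx, pow_succ, mul_comm]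
  rw [hoq, ← Finset.sum_filter_add_sum_filter_not (Finset.range (p * q)) (fun i => p ∣ i),
    Complex.add_re] at hS
  have hT : (∑ i ∈ (Finset.range (p * q)).filter (fun i => p ∣ i), χ (x ^ i)).re ≤ q * n := by
    rw [Complex.re_sum]
    calc ∑ i ∈ (Finset.range (p * q)).filter (fun i => p ∣ i), (χ (x ^ i)).re
        ≤ ∑ i ∈ (Finset.range (p * q)).filter (fun i => p ∣ i), (n : ℝ) := by
          refine Finset.sum_le_sum fun i _ => ?_
          have := hnorm (x ^ i)
          rw [hn_re] at this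
          exact (Complex.re_le_norm _).trans this
      _ = q * n := by rw [Finset.sum_const, card_mult p q hp.pos, nsmul_eq_mul]
  have hU : (∑ i ∈ (Finset.range (p * q)).filter (fun i => ¬ p ∣ i), χ (x ^ i)).re =
      ((p - 1 : ℕ) * q : ℕ) * (z : ℝ) := by
    have hcard : ((Finset.range (p * q)).filter (fun i => ¬ p ∣ i)).card = (p - 1) * q := by
      have h1 := Finset.card_filter_add_card_filter_not (s := Finset.range (p * q)) (fun i => p ∣ i)
      rw [card_mult p q hp.pos, Finset.card_range] at h1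
      have h2 : p * q = (p - 1) * q + q := by
        obtain ⟨p', rfl⟩ := Nat.exists_eq_succ_of_ne_zero hp.pos.ne'
        simp [Nat.succ_mul]
      omega
    rw [Finset.sum_congr rfl (fun i hi => gal_fix hp hχ hr hpr hrat hx
      (Finset.mem_filter.1 hi).2), Finset.sum_const, hcard, hz]
    simp
  rw [hU] at hS
  have hqpos : (0 : ℝ) < q := by exact_mod_cast pow_pos hp.pos k'
  have hlow : 0 ≤ ((p - 1 : ℕ) : ℝ) * z + n := by
    have h1 : 0 ≤ (q : ℝ) * (((p - 1 : ℕ) : ℝ) * z + n) := by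
      push_cast at hS ⊢
      nlinarith
    exact nonneg_of_mul_nonneg_right h1 hqpos
  have hlowZ : 0 ≤ ((p - 1 : ℕ) : ℤ) * z + n := by exact_mod_cast hlow
  refine ⟨j, ?_, ?_, ?_⟩
  · rcases Nat.eq_zero_or_pos j with rfl | h
    · simp at hd0
    · exact h
  · have hzj : z = n - (p * j : ℕ) := by omega
    have hp1 : ((p - 1 : ℕ) : ℤ) = (p : ℤ) - 1 := by
      rw [Nat.cast_sub hp.one_lt.le]; simp
    rw [hzj, hp1] at hlowZ
    push_cast at hlowZ
    have h3 : ((p : ℤ) - 1) * j * p ≤ n * p := by nlinarith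
    have h4 : ((p : ℤ) - 1) * j ≤ n := le_of_mul_le_mul_right h3 (by exact_mod_cast hp.pos)
    have h5 : (((p - 1) * j : ℕ) : ℤ) ≤ n := by
      push_cast; rw [hp1]; exact h4
    exact_mod_cast h5
  · rw [hz]
    have hzj : z = n - (p * j : ℕ) := by omega
    rw [hzj]; push_cast; ring

theorem isGen_prod {H : Type*} [Group H] {ι : Type*} (s : Finset ι) (f : ι → H → ℂ)
    (h : ∀ i ∈ s, Cfsg.IsGeneralizedCharacter H (f i)) :
    Cfsg.IsGeneralizedCharacter H (fun g => ∏ i ∈ s, f i g) := by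
  classical
  induction s using Finset.induction_on with
  | empty =>
    simp only [Finset.prod_empty]
    exact IsCharacter.isGeneralizedCharacter IsCharacter.one
  | insert a s ha ih =>
    have h1 := h a (Finset.mem_insert_self a s)
    have h2 := ih (fun i hi => h i (Finset.mem_insert_of_mem hi))
    have h3 := IsGeneralizedCharacter.mul h1 h2
    convert h3 using 1
    ext g
    simp [Finset.prod_insert ha]

theorem arith (p n : ℕ) (hp : p.Prime) :
    n / (p - 1) + ((n / (p - 1)).factorial).factorization p =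
      ∑ i ∈ Finset.range (n + 1), n / ((p - 1) * p ^ i) := by
  have hlog : Nat.log p (n / (p - 1)) < n + 1 :=
    lt_of_le_of_lt (Nat.log_le_self _ _) (Nat.lt_succ_of_le (Nat.div_le_self _ _))
  rw [Nat.factorization_factorial hp hlog, Finset.sum_range_succ', Finset.sum_Ico_eq_sum_range]
  simp only [pow_zero, mul_one, Nat.add_sub_cancel]
  rw [add_comm]
  congr 1
  refine Finset.sum_congr rfl fun i _ => ?_
  rw [Nat.div_div_eq_div_mul, add_comm]

/-- Let the finite group G have a faithful p-rational character χ of degree n (all values of χ lie in the field generated over ℚ by a root of unity of order prime to p), and let p^a be the order of a Sylow p-subgroup of G. Then a ≤ Σ_{i ≥ 0} ⌊n / ((p − 1)·p^i)⌋ (a finite sum; the terms vanish once (p − 1)p^i > n). -/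
theorem result {G : Type*} [Group G] [Finite G] (p : ℕ) (hp : p.Prime) (χ : G → ℂ) (hχ : Cfsg.IsCharacter G χ) (hfaith : ∀ g : G, χ g = χ 1 → g = 1) (hrat : (∃ r : ℕ, 0 < r ∧ ¬ p ∣ r ∧ ∀ g : G, χ g ∈ IntermediateField.adjoin ℚ ({Complex.exp (2 * Real.pi * Complex.I / r)} : Set ℂ))) (n : ℕ) (hn : Cfsg.charDegree χ = n) : (Nat.card G).factorization p ≤ ∑ i ∈ Finset.range (n + 1), n / ((p - 1) * p ^ i) := by
  classical
  obtain ⟨r, hr, hpr, hrat'⟩ := hrat
  have hrat : ∀ g : G, χ g ∈ cycField r := hrat'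
  have hn1 : χ 1 = n := by rw [← hn]; exact (Cfsg.Agent.Lib.Helper7.charDegree_cast hχ).symm
  haveI : Fact p.Prime := ⟨hp⟩
  obtain ⟨P⟩ : Nonempty (Sylow p G) := inferInstance
  haveI : Fintype (P : Subgroup G) := Fintype.ofFinite _
  set R := n / (p - 1) with hR
  let θ : ↥(P : Subgroup G) → ℂ := fun g => ∏ j ∈ Finset.range R, (χ (g : G) - ((n : ℂ) - (p : ℂ) * ((j + 1 : ℕ) : ℂ)))
  have hχP : Cfsg.IsCharacter (P : Subgroup G) (fun g => χ (g : G)) := IsCharacter.restrict _ hχ
  have hθ : Cfsg.IsGeneralizedCharacter (P : Subgroup G) θ := by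
    apply isGen_prod
    intro j _
    have h1 := IsCharacter.isGeneralizedCharacter hχP
    have h2 := IsGeneralizedCharacter.zsmul
      (IsCharacter.isGeneralizedCharacter (IsCharacter.one (G := (P : Subgroup G)))) ((n : ℤ) - p * (j + 1 : ℕ))
    have h3 := IsGeneralizedCharacter.sub h1 h2
    convert h3 using 1
    ext g
    simp
  have hθ0 : ∀ g : (P : Subgroup G), g ≠ 1 → θ g = 0 := by
    intro g hg
    obtain ⟨k, hk⟩ := (IsPGroup.iff_orderOf.1 P.isPGroup') g
    have hk' : orderOf (g : G) = p ^ k := by rw [Subgroup.orderOf_coe]; exact hk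
    obtain ⟨j, hj1, hj2, hj3⟩ := value_form hp hχ hfaith hr hpr hrat hn1 hk'
      (fun h => hg (Subtype.ext h))
    obtain ⟨j', rfl⟩ : ∃ j', j = j' + 1 := ⟨j - 1, by omega⟩
    apply Finset.prod_eq_zero (i := j')
    · rw [Finset.mem_range, Nat.lt_iff_add_one_le]
      rw [hR, Nat.le_div_iff_mul_le (Nat.sub_pos_of_lt hp.one_lt), mul_comm]
      exact hj2
    · rw [hj3, sub_self]
  have hθ1 : θ 1 = ((p ^ R * R.factorial : ℕ) : ℂ) := by
    show ∏ j ∈ Finset.range R, (χ ((1 : (P : Subgroup G)) : G) - ((n : ℂ) - (p : ℂ) * ((j + 1 : ℕ) : ℂ))) = _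
    rw [Subgroup.coe_one, hn1]
    have : ∀ j ∈ Finset.range R, ((n : ℂ) - ((n : ℂ) - (p : ℂ) * ((j + 1 : ℕ) : ℂ))) =
        (p : ℂ) * ((j + 1 : ℕ) : ℂ) := by
      intro j _; ring
    rw [Finset.prod_congr rfl this, Finset.prod_mul_distrib, Finset.prod_const, Finset.card_range]
    rw [← Finset.prod_range_add_one_eq_factorial]
    push_cast
    rfl
  obtain ⟨c, hc⟩ := IsGeneralizedCharacter.classInner_int hθ
    (IsCharacter.isGeneralizedCharacter (IsCharacter.one (G := (P : Subgroup G))))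
  rw [classInner_def] at hc
  have hsum : ∑ g : (P : Subgroup G), θ g * (starRingEnd ℂ) 1 = θ 1 := by
    rw [Finset.sum_eq_single 1]
    · simp
    · intro g _ hg; rw [hθ0 g hg]; simp
    · intro h; exact absurd (Finset.mem_univ _) h
  rw [hsum, hθ1] at hc
  have hcard : Nat.card (P : Subgroup G) = p ^ (Nat.card G).factorization p :=
    Sylow.card_eq_multiplicity P
  have hdvd : p ^ (Nat.card G).factorization p ∣ p ^ R * R.factorial := by
    rw [← hcard]
    have hne : (Nat.card (P : Subgroup G) : ℂ) ≠ 0 := card_ne_zero'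
    have h1 : ((p ^ R * R.factorial : ℕ) : ℂ) = (Nat.card (P : Subgroup G) : ℂ) * c := by
      rw [← hc]; field_simp
    have h2 : ((p ^ R * R.factorial : ℕ) : ℤ) = (Nat.card (P : Subgroup G) : ℤ) * c := by
      exact_mod_cast h1
    have h3 : ((Nat.card (P : Subgroup G) : ℕ) : ℤ) ∣ ((p ^ R * R.factorial : ℕ) : ℤ) := ⟨c, h2⟩
    exact_mod_cast h3
  have hne : p ^ R * R.factorial ≠ 0 := (Nat.mul_pos (pow_pos hp.pos _) (Nat.factorial_pos _)).ne'
  have hle := (hp.pow_dvd_iff_le_factorization hne).1 hdvd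
  rw [Nat.factorization_mul (pow_pos hp.pos _).ne' (Nat.factorial_pos _).ne'] at hle
  simp only [Finsupp.coe_add, Pi.add_apply, Nat.factorization_pow, Finsupp.coe_smul, Pi.smul_apply,
    hp.factorization_self, smul_eq_mul, mul_one] at hle
  rw [← arith p n hp]
  exact hle

end Cfsg.Agent.S4488
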