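import Cfsg.Statements.S4490
import Cfsg.Agent.Lib.Helper24.RealBlock
import Cfsg.Agent.Lib.Helper7.BlockHeight

set_option autoImplicit false
open Cfsg

namespace Cfsg.Agent.S4490

open Cfsg.Agent.Lib.Helper7 Cfsg.Agent.Lib.Helper24


/-- Let G be a finite group and M a maximal ideal of the algebraic integers containing 2. Every 2-block B of G whose defect groups are the Sylow 2-subgroups of G (a block of full defect) and which is not the principal block is different from its complex-conjugate block, the block formed by the complex conjugates of the members of B. -/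
theorem result {G : Type*} [Group G] [Finite G] (M : Ideal Cfsg.AlgInt) (hM : Cfsg.IsPModular 2 M) (B : Set (Cfsg.IrrCharacter G)) (hB : Cfsg.IsPBlock M B) (P : Sylow 2 G) (hfull : Cfsg.IsDefectGroup 2 M B (P : Subgroup G)) (hnp : B ≠ Cfsg.principalBlock M G) : {ψ : Cfsg.IrrCharacter G | ∃ χ ∈ B, (ψ : G → ℂ) = fun g => (starRingEnd ℂ) ((χ : G → ℂ) g)} ≠ B := by
  classical
  haveI := Fintype.ofFinite G
  haveI := hM.2.1.isPrime
  haveI : Fact (Nat.Prime 2) := ⟨hM.1⟩
  intro hconj
  apply hnp
  obtain ⟨χ, hχ, hdeg⟩ := exists_height_zero hB 2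
  have h1 := card_defectGroup hM hB hfull
  have h2 : Nat.card (P : Subgroup G) = 2 ^ (Nat.card G).factorization 2 := P.card_eq_multiplicity
  rw [h2] at h1
  have h3 := Nat.pow_right_injective (le_refl 2) h1
  rw [blockDefect] at h3
  have h4 := sInf_le_factorization_card hB 2
  have h5 : (charDegree (χ : G → ℂ)).factorization 2 = 0 := by omega
  have hodd : ¬ 2 ∣ charDegree (χ : G → ℂ) := by
    intro hd
    have := (Nat.Prime.dvd_iff_one_le_factorization Nat.prime_two (charDegree_pos χ).ne').1 hd
    omega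
  have hχ' : χ ∈ {ψ : Cfsg.IrrCharacter G | ∃ χ ∈ B, (ψ : G → ℂ)
      = fun g => (starRingEnd ℂ) ((χ : G → ℂ) g)} := by rw [hconj]; exact hχ
  obtain ⟨ψ, hψ, hψχ⟩ := hχ'
  have h6 : χ ∈ principalBlock M G := by
    apply mem_principalBlock_of_odd hM χ ψ (sameBlock_of_mem hB hχ hψ) _ hodd
    intro g _
    rw [char_inv_eq_conj (isCharacter_of_irr χ.2), hψχ]
    simp
  exact eq_principalBlock hB hχ h6

end Cfsg.Agent.S4490
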