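import Cfsg.Statements.S4491
import Cfsg.Agent.Lib.Helper24.BlockDim

set_option autoImplicit false
open Cfsg

namespace Cfsg.Agent.S4491

open Cfsg.Agent.Lib.Helper7 Cfsg.Agent.Lib.Helper24


/-- Let B be a p-block of defect d of the finite group G (relative to a maximal ideal M of the algebraic integers containing p), and let p^a be the p-part of the order of G. Then the exact power of p dividing the sum of the squares of the degrees of the irreducible characters in B is p^(2a − d). -/
theorem result {G : Type*} [Group G] [Finite G] (p : ℕ) [Fact p.Prime] (M : Ideal Cfsg.AlgInt) (hM : Cfsg.IsPModular p M) (B : Set (Cfsg.IrrCharacter G)) (hB : Cfsg.IsPBlock M B) : (∑ᶠ χ ∈ B, Cfsg.charDegree (χ : G → ℂ) ^ 2).factorization p = 2 * (Nat.card G).factorization p - Cfsg.blockDefect p B := by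
  classical
  haveI := hM.2.1.isPrime
  haveI := Fintype.ofFinite (Cfsg.IrrCharacter G)
  obtain ⟨P⟩ : Nonempty (Sylow p G) := inferInstance
  haveI : Fintype (P : Subgroup G) := Fintype.ofFinite _
  choose n hn using fun ψ : Cfsg.IrrCharacter G => exists_trivial_mult (P : Subgroup G) ψ
  have h1 := blockDim_eq hM hB (P : Subgroup G) P.isPGroup' n hn
  have h2 := blockDim_weight hM hB P n hn
  have h3 : ∑ᶠ χ ∈ B, Cfsg.charDegree (χ : G → ℂ) ^ 2
      = ∑ ψ : Cfsg.IrrCharacter G, B.indicator (fun ψ => Cfsg.charDegree (ψ : G → ℂ) ^ 2) ψ := by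
    rw [finsum_mem_def, finsum_eq_sum_of_fintype]
  have hc : Nat.card (P : Subgroup G) = p ^ (Nat.card G).factorization p := P.card_eq_multiplicity
  have hS0 : ∑ ψ : Cfsg.IrrCharacter G,
      B.indicator (fun ψ => Cfsg.charDegree (ψ : G → ℂ) * n ψ) ψ ≠ 0 := by
    intro h
    rw [h, mul_zero] at h1
    obtain ⟨χ, hχ⟩ := isPBlock_nonempty hB
    have h4 := (Finset.sum_eq_zero_iff.1 h1) χ (Finset.mem_univ _)
    rw [Set.indicator_of_mem hχ] at h4
    exact (pow_ne_zero 2 (charDegree_pos χ).ne') h4
  rw [h3, h1, hc, Nat.factorization_mul (pow_ne_zero _ hM.1.ne_zero) hS0, hM.1.factorization_pow]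
  simp only [Finsupp.coe_add, Pi.add_apply, Finsupp.single_eq_same, h2]
  have h5 := sInf_le_factorization_card hB p
  rw [Cfsg.blockDefect]
  omega

end Cfsg.Agent.S4491
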