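import Cfsg.Statements.S4492
import Cfsg.Agent.Lib.Helper7.BlockPCons2

set_option autoImplicit false
open Cfsg

namespace Cfsg.Agent.S4492

/-- Let G be a finite p-solvable group, N = O_{p'}(G) its largest normal subgroup of order prime to p, and θ an irreducible character of N invariant under conjugation by G; fix a maximal ideal M of the algebraic integers containing p. Then the irreducible characters of G lying over θ (those whose restriction to N contains θ) form a single p-block of G, and the defect groups of that block are exactly the Sylow p-subgroups of G. -/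
theorem result {G : Type*} [Group G] [Fintype G] (p : ℕ) [Fact p.Prime] (M : Ideal Cfsg.AlgInt) (hM : Cfsg.IsPModular p M) (hsolv : Cfsg.IsPSolvable p G) (N : Subgroup G) [hN : N.Normal] [Fintype N] (hNdef : N = Cfsg.pPrimeCore p G) (θ : Cfsg.IrrCharacter N) (hinv : ∀ (g : G) (n : N), (θ : N → ℂ) ⟨g * n * g⁻¹, hN.conj_mem n n.2 g⟩ = (θ : N → ℂ) n) : ∃ B : Set (Cfsg.IrrCharacter G), Cfsg.IsPBlock M B ∧ (∀ χ : Cfsg.IrrCharacter G, χ ∈ B ↔ Cfsg.classInner (fun n : N => (χ : G → ℂ) n) (θ : N → ℂ) ≠ 0) ∧ (∀ P : Sylow p G, Cfsg.IsDefectGroup p M B (P : Subgroup G)) ∧ ∀ D : Subgroup G, Cfsg.IsDefectGroup p M B D → ∃ P : Sylow p G, D = (P : Subgroup G) := by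
  classical
  have hcons := Cfsg.Agent.Lib.Helper7.isPConstrained_of_isPSolvable hsolv
  obtain ⟨P0⟩ : Nonempty (Sylow p ↥(Cfsg.pPrimePCore p G)) := inferInstance
  have hQS : ¬ p ∣ ((P0 : Subgroup ↥(Cfsg.pPrimePCore p G)).map
      (Cfsg.pPrimePCore p G).subtype).relIndex (Cfsg.pPrimePCore p G) := by
    have h1 : ((P0 : Subgroup ↥(Cfsg.pPrimePCore p G)).map
      (Cfsg.pPrimePCore p G).subtype).subgroupOf (Cfsg.pPrimePCore p G) = P0 :=
      Subgroup.comap_map_eq_self_of_injective (Subgroup.subtype_injective _) _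
    unfold Subgroup.relIndex
    rw [h1]
    exact P0.not_dvd_index
  obtain ⟨B, hB, hmem, hd⟩ := Cfsg.Agent.Lib.Helper7.fong_pconstrained hM N hNdef
    (Subgroup.map_subtype_le _) (P0.2.map _) hQS (hcons P0) θ
    (fun g => Subtype.ext (funext fun n => hinv g n))
  exact ⟨B, hB, hmem, fun P => Cfsg.Agent.Lib.Helper7.isDefectGroup_of_full_defect hM hB hd P,
    fun D hD => Cfsg.Agent.Lib.Helper7.exists_sylow_of_full_defect hM hB hd hD⟩

end Cfsg.Agent.S4492
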