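import Cfsg.Statements.S4493
import Cfsg.Agent.Lib.Helper25.ItoMichler
import Cfsg.Agent.Lib.Helper25.Ito
import Cfsg.Agent.S0187

set_option autoImplicit false
open Cfsg

namespace Cfsg.Agent.S4493

/-- Let G be a finite solvable group and p a prime. Then G has a normal abelian Sylow p-subgroup if and only if no irreducible character degree of G is divisible by p. -/
theorem result {G : Type*} [Group G] [Finite G] (hsolv : Group.IsSolvable G) (p : ℕ) (hp : p.Prime) : (∃ P : Subgroup G, P.Normal ∧ (∀ x ∈ P, ∀ y ∈ P, x * y = y * x) ∧ IsPGroup p P ∧ ¬ p ∣ P.index) ↔ ∀ χ : Cfsg.IrrCharacter G, ¬ p ∣ Cfsg.charDegree (χ : G → ℂ) := by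
  classical
  cases nonempty_fintype G
  haveI : Fact p.Prime := ⟨hp⟩
  have hdegc : ∀ (χ : G → ℂ) (d : ℕ), χ 1 = d → Cfsg.charDegree χ = d := by
    intro χ d hd
    simp [Cfsg.charDegree, hd]
  constructor
  · rintro ⟨P, hn, hc, -, hidx⟩ χ hdvd
    obtain ⟨d, hd, hdi⟩ := Cfsg.Agent.Lib.Helper25.ito_aux _ G rfl P hc χ χ.2
    rw [hdegc _ d hd] at hdvd
    exact hidx (hdvd.trans hdi)
  · intro h
    have hdeg : Cfsg.Agent.Lib.Helper25.PPrimeDegrees p G := by
      intro χ hχ d hd hdvd
      apply h ⟨χ, hχ⟩
      rw [hdegc _ d hd]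
      exact hdvd
    let P : Sylow p G := default
    have hn : (P : Subgroup G).Normal := by
      refine Cfsg.Agent.Lib.Helper25.sylow_normal_aux p (fun G _ => Group.IsSolvable G) ?_ ?_ _ G
        rfl hsolv hdeg P
      · intro G _ _ N _ hG
        exact Group.isSolvable_of_surjective (f := QuotientGroup.mk' N) (QuotientGroup.mk'_surjective N)
      · intro G _ _ _ hG
        obtain ⟨n, hn⟩ := hG.solvable
        have hex : ∃ n, derivedSeries G n = ⊥ := ⟨n, hn⟩
        have hk := Nat.find_spec hex
        set k := Nat.find hex with hkdef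
        have hk0 : k ≠ 0 := by
          intro h0
          rw [h0, derivedSeries_zero] at hk
          exact top_ne_bot hk
        obtain ⟨j, hj⟩ := Nat.exists_eq_succ_of_ne_zero hk0
        have hA1 : derivedSeries G j ≠ ⊥ := Nat.find_min hex (by omega)
        set A := derivedSeries G j with hA
        have hAn : A.Normal := derivedSeries_normal G j
        have hAc : ∀ a ∈ A, ∀ b ∈ A, a * b = b * a := by
          intro a ha b hb
          have h1 := Subgroup.commutator_mem_commutator ha hb
          have h2 : ⁅A, A⁆ = ⊥ := by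
            rw [hj, derivedSeries_succ] at hk
            exact hk
          rw [h2, Subgroup.mem_bot] at h1
          exact commutatorElement_eq_one_iff_mul_comm.1 h1
        by_cases hpA : p ∣ Nat.card A
        · let S : Sylow p A := default
          have hSn : (S : Subgroup A).Normal := by
            refine ⟨fun x hx g => ?_⟩
            have : g * x * g⁻¹ = x := by
              apply Subtype.ext
              have := hAc g g.2 x x.2
              simp only [Subgroup.coe_mul, InvMemClass.coe_inv]
              rw [this]; group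
            rwa [this]
          haveI hSc : (S : Subgroup A).Characteristic := Sylow.characteristic_of_normal S hSn
          refine ⟨(S : Subgroup A).map A.subtype, inferInstance, ?_, Or.inl (S.2.map _)⟩
          rw [Ne, Subgroup.map_eq_bot_iff_of_injective _ A.subtype_injective]
          exact Sylow.ne_bot_of_dvd_card S hpA
        · exact ⟨A, hAn, hA1, Or.inr ((Nat.Prime.coprime_iff_not_dvd hp).2 hpA).symm⟩
    refine ⟨P, hn, ?_, P.2, P.not_dvd_index⟩
    intro x hx y hy
    exact congrArg Subtype.val (Cfsg.Agent.Lib.Helper25.sylow_comm_of_pPrimeDegrees p P hdeg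
      (fun hl => Cfsg.Agent.S0187.result.2 hl) ⟨x, hx⟩ ⟨y, hy⟩)

end Cfsg.Agent.S4493
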