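import Cfsg.Statements.S4497
import Cfsg.Agent.Lib.Helper24.SelfCent

set_option autoImplicit false
open Cfsg

namespace Cfsg.Agent.S4497

open Cfsg.Agent.Lib.Helper24.SC in
open scoped commutatorElement in
theorem key {G : Type*} [Group G] [Finite G] {p : ℕ} {x : G} (h : Hyp p x)
    (hxL : x ∈ commutator G) (S : Subgroup (commutator G)) (hS : S.Normal)
    (hKS : (Cfsg.pPrimeCore p G).subgroupOf (commutator G) ≤ S) :
    S = (Cfsg.pPrimeCore p G).subgroupOf (commutator G) ∨ S = ⊤ := by
  obtain ⟨hKn, hKc⟩ := pPrimeCore_mem (G := G) p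
  have hKd : ¬ p ∣ Nat.card (Cfsg.pPrimeCore p G) :=
    (Nat.Prime.coprime_iff_not_dvd h.hp).1 hKc.symm
  have hL := h.subgroup hxL
  by_cases hd : p ∣ Nat.card S
  · right
    have hPS := hL.le_of_dvd hd
    have hcS := hL.commutator_le hPS
    have hDn : ((commutator (commutator G)).map (commutator G).subtype).Normal :=
      ConjAct.normal_of_characteristic_of_normal
    rw [eq_top_iff]
    intro l _
    by_cases hD : p ∣ Nat.card ((commutator (commutator G)).map (commutator G).subtype)
    · have h1 := h.commutator_le (h.le_of_dvd hD)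
      obtain ⟨l', hl', hll⟩ := h1 l.2
      have : l' = l := Subtype.ext hll
      exact hcS (this ▸ hl')
    · have hDK : (commutator (commutator G)).map (commutator G).subtype ≤ Cfsg.pPrimeCore p G :=
        le_pPrimeCore hDn ((Nat.Prime.coprime_iff_not_dvd h.hp).2 hD).symm
      have hq := h.quotient hKd
      have h1 : (l : G) * x * (l : G)⁻¹ * x⁻¹ ∈ Cfsg.pPrimeCore p G := by
        apply hDK
        refine ⟨⁅l, ⟨x, hxL⟩⁆, ?_, rfl⟩
        have e := commutator_def (commutator G)
        have h5 : ⁅l, (⟨x, hxL⟩ : commutator G)⁆ ∈ ⁅(⊤ : Subgroup (commutator G)), ⊤⁆ :=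
          Subgroup.commutator_mem_commutator (Subgroup.mem_top _) (Subgroup.mem_top _)
        exact e.symm ▸ h5
      have h2 : (QuotientGroup.mk (l : G) : G ⧸ Cfsg.pPrimeCore p G) ∈
          Subgroup.centralizer ({(QuotientGroup.mk x : G ⧸ Cfsg.pPrimeCore p G)} : Set _) := by
        rw [Subgroup.mem_centralizer_singleton_iff]
        rw [← QuotientGroup.eq_one_iff] at h1
        simp only [QuotientGroup.mk_mul, QuotientGroup.mk_inv] at h1
        rw [mul_inv_eq_one, mul_inv_eq_iff_eq_mul] at h1
        exact h1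
      rw [hq.hC] at h2
      obtain ⟨k, hk⟩ := h2
      simp only at hk
      rw [← QuotientGroup.mk_zpow, QuotientGroup.eq] at hk
      have h3 : (⟨x, hxL⟩ : commutator G) ^ k ∈ S := zpow_mem (hPS (Subgroup.mem_zpowers _)) k
      have h4 : ((⟨x, hxL⟩ : commutator G) ^ k)⁻¹ * l ∈ S := by
        apply hKS
        rw [Subgroup.mem_subgroupOf]
        simpa using hk
      have := mul_mem h3 h4
      rwa [mul_inv_cancel_left] at this
  · left
    apply le_antisymm _ hKS
    have h1 : S ≤ Cfsg.pPrimeCore p (commutator G) :=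
      le_pPrimeCore hS ((Nat.Prime.coprime_iff_not_dvd h.hp).2 hd).symm
    intro s hs
    rw [Subgroup.mem_subgroupOf]
    exact pPrimeCore_map_le p (commutator G) ⟨s, h1 hs, rfl⟩


/-- Let the finite group G contain an element x of prime order p with C_G(x) = ⟨x⟩, let t be the number of conjugacy classes of elements of order p, and let S* = O_{p′}(G) be the largest normal subgroup of order prime to p. Then S* ≤ G′; if t ≠ p − 1 the quotient G′/S* is simple (in particular non-trivial); if t = p − 1 then G′ = S*. -/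
theorem result {G : Type*} [Group G] [Finite G] (p : ℕ) (hp : p.Prime) (x : G) (hx : orderOf x = p) (hC : Subgroup.centralizer ({x} : Set G) = Subgroup.zpowers x) (t : ℕ) (ht : Nat.card {C : ConjClasses G // ∃ g ∈ C.carrier, orderOf g = p} = t) : Cfsg.pPrimeCore p G ≤ commutator G ∧ (t ≠ p - 1 → ∀ h : ((Cfsg.pPrimeCore p G).subgroupOf (commutator G)).Normal, IsSimpleGroup (↥(commutator G) ⧸ (Cfsg.pPrimeCore p G).subgroupOf (commutator G))) ∧ (t = p - 1 → commutator G = Cfsg.pPrimeCore p G) := by
  have h : Cfsg.Agent.Lib.Helper24.SC.Hyp p x := ⟨hp, hx, hC⟩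
  have hcl := h.card_classes
  rw [ht] at hcl
  have hp1 : 0 < p - 1 := by have := hp.two_le; omega
  obtain ⟨hKn, hKc⟩ := Cfsg.Agent.Lib.Helper24.SC.pPrimeCore_mem (G := G) p
  have hKd : ¬ p ∣ Nat.card (Cfsg.pPrimeCore p G) :=
    (Nat.Prime.coprime_iff_not_dvd hp).1 hKc.symm
  have hKL : Cfsg.pPrimeCore p G ≤ commutator G := h.le_commutator hKd
  refine ⟨hKL, ?_, ?_⟩
  · intro hne hnorm
    have hN : ¬ Subgroup.normalizer (Subgroup.zpowers x : Set G) ≤ Subgroup.zpowers x := by
      intro hle
      rw [Subgroup.relIndex_eq_one.2 hle, mul_one] at hcl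
      exact hne hcl
    have hxL : x ∈ commutator G := h.le_commutator_of_ne hN (Subgroup.mem_zpowers x)
    refine { exists_pair_ne := ?_, eq_bot_or_eq_top_of_normal := ?_ }
    · refine ⟨QuotientGroup.mk (⟨x, hxL⟩ : commutator G), 1, ?_⟩
      intro h1
      rw [QuotientGroup.eq_one_iff, Subgroup.mem_subgroupOf] at h1
      exact h.ne_one (h.eq_one_of_mem hKd h1 (Subgroup.mem_zpowers x))
    · intro S' hS'
      have hsurj := QuotientGroup.mk'_surjective
        ((Cfsg.pPrimeCore p G).subgroupOf (commutator G))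
      have hle : (Cfsg.pPrimeCore p G).subgroupOf (commutator G) ≤
          S'.comap (QuotientGroup.mk' ((Cfsg.pPrimeCore p G).subgroupOf (commutator G))) := by
        intro a ha
        rw [Subgroup.mem_comap]
        have : QuotientGroup.mk' ((Cfsg.pPrimeCore p G).subgroupOf (commutator G)) a = 1 :=
          (QuotientGroup.eq_one_iff a).2 ha
        rw [this]
        exact one_mem _
      rcases key h hxL _ (hS'.comap _) hle with h1 | h1
      · left
        rw [← Subgroup.map_comap_eq_self_of_surjective hsurj S', h1, QuotientGroup.map_mk'_self]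
      · right
        rw [← Subgroup.map_comap_eq_self_of_surjective hsurj S', h1,
          Subgroup.map_top_of_surjective _ hsurj]
  · intro heq
    have he : (Subgroup.zpowers x).relIndex
        (Subgroup.normalizer (Subgroup.zpowers x : Set G)) = 1 := by
      rw [heq] at hcl
      exact Nat.eq_of_mul_eq_mul_left hp1 (by rw [hcl, mul_one])
    obtain ⟨K, hKn', hK⟩ := h.exists_complement (Subgroup.relIndex_eq_one.1 he)
    have h1 := h.commutator_eq_of_complement hK
    apply le_antisymm _ hKL
    rw [h1]
    exact Cfsg.Agent.Lib.Helper24.SC.le_pPrimeCore hKn'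
      ((Nat.Prime.coprime_iff_not_dvd hp).2 (h.not_dvd_of_complement hK)).symm

end Cfsg.Agent.S4497
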