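import Cfsg.Statements.S4498
import Cfsg.Agent.Lib.Helper24.BlockComb

set_option autoImplicit false
open Cfsg

namespace Cfsg.Agent.S4498

/-- Let p and q be distinct primes dividing the order of the finite group G, and suppose G has no element of order p·q. Fix maximal ideals M_p over p and M_q over q of the algebraic integers. Then the principal p-block and the principal q-block of G have a non-principal irreducible character in common. -/
theorem result {G : Type*} [Group G] [Finite G] (p q : ℕ) [Fact p.Prime] [Fact q.Prime] (hpq : p ≠ q) (hp : p ∣ Nat.card G) (hq : q ∣ Nat.card G) (hno : ∀ g : G, orderOf g ≠ p * q) (Mp Mq : Ideal Cfsg.AlgInt) (hMp : Cfsg.IsPModular p Mp) (hMq : Cfsg.IsPModular q Mq) : ∃ χ : Cfsg.IrrCharacter G, (χ : G → ℂ) ≠ (fun _ => 1) ∧ χ ∈ Cfsg.principalBlock Mp G ∧ χ ∈ Cfsg.principalBlock Mq G := by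
  open Cfsg.Agent.Lib.Helper7 Cfsg.Agent.Lib.Helper24 in
  classical
  haveI := Fintype.ofFinite G
  haveI := Fintype.ofFinite (Cfsg.IrrCharacter G)
  haveI := hMp.2.1.isPrime
  haveI := hMq.2.1.isPrime
  have hpp := hMp.1
  have hqp := hMq.1
  obtain ⟨x, hx⟩ := exists_prime_orderOf_dvd_card' p hp
  obtain ⟨y, hy⟩ := exists_prime_orderOf_dvd_card' q hq
  by_contra hcon
  push Not at hcon
  set a : Cfsg.IrrCharacter G → ℂ :=
    (Cfsg.principalBlock Mp G).indicator (fun χ => (χ : G → ℂ) x⁻¹) with ha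
  set ψ : G → ℂ := ∑ χ : Cfsg.IrrCharacter G, a χ • (χ : G → ℂ) with hψ
  have hψg : ∀ g, ψ g = ∑ᶠ χ ∈ Cfsg.principalBlock Mp G, (χ : G → ℂ) g * (χ : G → ℂ) x⁻¹ := by
    intro g
    rw [finsum_mem_eq_sum_indicator, hψ, Finset.sum_apply]
    apply Finset.sum_congr rfl
    intro χ _
    by_cases h : χ ∈ Cfsg.principalBlock Mp G
    · simp [ha, Set.indicator_of_mem h, mul_comm]
    · simp [ha, Set.indicator_of_notMem h]
  have hψ0 : ∀ g, q ∣ orderOf g → ψ g = 0 := by
    intro g hg
    obtain ⟨z, hz⟩ := exists_pPart hpp g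
    by_cases hconj : IsConj z x
    · exfalso
      have hzo : orderOf z = p := by
        obtain ⟨c, hc⟩ := isConj_iff.1 hconj
        rw [← hx, ← hc, orderOf_conj']
      have h1 : p ∣ orderOf g := hzo ▸ IsPPart.orderOf_dvd hpp hz
      have h2 : p * q ∣ orderOf g :=
        Nat.Coprime.mul_dvd_of_dvd_of_dvd ((Nat.coprime_primes hpp hqp).2 hpq) h1 hg
      exact hno _ (orderOf_pow_orderOf_div (orderOf_pos g).ne' h2)
    · rw [hψg]
      exact block_orthogonality hMp isPBlock_principalBlock hz
        (isPPart_self hpp (k := 1) (by rw [hx, pow_one])) hconj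
  have hind : ({g : G | ¬ q ∣ orderOf g} : Set G).indicator ψ = ψ := by
    ext g
    by_cases hg : q ∣ orderOf g
    · rw [Set.indicator_of_notMem (by simpa using hg), hψ0 g hg]
    · rw [Set.indicator_of_mem (by simpa using hg)]
  have h1 := blockPart_indicator hMq (isPBlock_principalBlock (G := G))
    (isSectionClosed_regular hqp) ψ
  rw [hind] at h1
  have h2 := congrFun h1 y
  rw [Set.indicator_of_notMem (by simp [hy])] at h2
  rw [hψ, blockPart_comb, Finset.sum_eq_single (oneIrr G)] at h2
  · rw [Set.indicator_of_mem oneIrr_mem_principalBlock, ha,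
      Set.indicator_of_mem oneIrr_mem_principalBlock] at h2
    simp [oneIrr] at h2
  · intro χ _ hχ
    have hχ1 : (χ : G → ℂ) ≠ fun _ => 1 := fun h => hχ (Subtype.ext h)
    by_cases hq' : χ ∈ Cfsg.principalBlock Mq G
    · have hp' : χ ∉ Cfsg.principalBlock Mp G := fun h => hcon χ hχ1 h hq'
      rw [Set.indicator_of_mem hq', ha, Set.indicator_of_notMem hp', zero_mul]
    · rw [Set.indicator_of_notMem hq', zero_mul]
  · intro h; exact absurd (Finset.mem_univ _) h

end Cfsg.Agent.S4498
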