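import Cfsg.Statements.S4499
import Cfsg.Agent.Lib.Helper10.BlockContrib

set_option autoImplicit false
open Cfsg

namespace Cfsg.Agent.S4499

/-- Let G be a finite group whose order has p-part p^a (a ≥ 1), and fix a maximal ideal M of the algebraic integers containing p. If the degree of one irreducible character of a p-block B is divisible by p^(a−1), then the degree of every irreducible character in B is divisible by p^(a−1) (so B has defect at most 1). -/
theorem result {G : Type*} [Group G] [Finite G] (p : ℕ) [Fact p.Prime] (M : Ideal Cfsg.AlgInt) (hM : Cfsg.IsPModular p M) (hpa : p ∣ Nat.card G) (B : Set (Cfsg.IrrCharacter G)) (hB : Cfsg.IsPBlock M B) (χ : Cfsg.IrrCharacter G) (hχ : χ ∈ B) (hdiv : p ^ ((Nat.card G).factorization p - 1) ∣ Cfsg.charDegree (χ : G → ℂ)) (ψ : Cfsg.IrrCharacter G) (hψ : ψ ∈ B) : p ^ ((Nat.card G).factorization p - 1) ∣ Cfsg.charDegree (ψ : G → ℂ) := by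
  classical
  haveI := Fintype.ofFinite (Cfsg.IrrCharacter G)
  haveI := hM.2.1.isPrime
  have hp := hM.1
  have hχ0 : Cfsg.charDegree (χ : G → ℂ) ≠ 0 := (Cfsg.Agent.Lib.Helper7.charDegree_pos χ).ne'
  have hψ0 : Cfsg.charDegree (ψ : G → ℂ) ≠ 0 := (Cfsg.Agent.Lib.Helper7.charDegree_pos ψ).ne'
  rw [Nat.Prime.pow_dvd_iff_le_factorization hp hχ0] at hdiv
  rw [Nat.Prime.pow_dvd_iff_le_factorization hp hψ0]
  have hs1 := Cfsg.Agent.Lib.Helper7.sInf_le_of_mem p hχ
  have hs2 := Cfsg.Agent.Lib.Helper7.sInf_le_of_mem p hψ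
  have hsa := Cfsg.Agent.Lib.Helper7.sInf_le_factorization_card hB p
  by_cases hpos : 0 < Cfsg.blockHeight p B (χ : G → ℂ)
  · have h1 := (Cfsg.Agent.Lib.Helper10.height_bound hM hB hχ hpos).1
    rw [Cfsg.blockHeight, Cfsg.blockDefect] at h1
    omega
  · rw [Cfsg.blockHeight] at hpos
    omega

end Cfsg.Agent.S4499
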