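import Cfsg.Statements.S4505
import Cfsg.Agent.Lib.Helper24.MinMax

set_option autoImplicit false
open Cfsg

namespace Cfsg.Agent.S4505

open Cfsg.Agent.Lib.Helper7 Cfsg.Agent.Lib.Helper24


/-- Let G be a finite group, p a prime and M a maximal ideal of the algebraic integers containing p. For every σ, the number of p-blocks of defect exactly σ is at most the number of conjugacy classes of p-regular elements whose centralizer has order divisible by p^σ but not by p^(σ+1). -/
theorem result {G : Type*} [Group G] [Finite G] (p : ℕ) [Fact p.Prime] (M : Ideal Cfsg.AlgInt) (hM : Cfsg.IsPModular p M) (σ : ℕ) : Nat.card {B : Set (Cfsg.IrrCharacter G) // Cfsg.IsPBlock M B ∧ Cfsg.blockDefect p B = σ} ≤ Nat.card {C : ConjClasses G // ∃ g : G, ConjClasses.mk g = C ∧ ¬ p ∣ orderOf g ∧ (Nat.card (Subgroup.centralizer ({g} : Set G))).factorization p = σ} := by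
  haveI := hM.2.1.isPrime
  haveI := Fintype.ofFinite G
  apply card_blocks_le hM _ _ (fun B hB => hB.1)
  intro B B' hB hB' χ hχ K hK
  have hK' : ¬ (¬ p ∣ orderOf K.out ∧
      (Nat.card (Subgroup.centralizer ({K.out} : Set G))).factorization p = σ) := by
    intro h
    exact hK ⟨K.out, Quotient.out_eq' K, h.1, h.2⟩
  by_cases hreg : p ∣ orderOf K.out
  · rw [blockCoeff_eq_zero_of_singular hM hB.1 hreg, zero_mul]; exact memLocalIdeal_zero
  · have hne : (Nat.card (Subgroup.centralizer ({K.out} : Set G))).factorization p ≠ σ :=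
      fun h => hK' ⟨hreg, h⟩
    rcases lt_or_gt_of_ne hne with hlt | hgt
    · exact memLocalIdeal_mul_left (osima hB.1 _)
        (centralChar_memLocalIdeal_of_lt hM hB'.1 (by rw [hB'.2]; exact hlt) hχ)
    · exact memLocalIdeal_mul_right
        (blockCoeff_memLocalIdeal_of_lt hM hB.1 (by rw [hB.2]; exact hgt))
        (memLocalRing_centralChar χ _)

end Cfsg.Agent.S4505
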