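import Cfsg.Statements.S4506
import Cfsg.Agent.Lib.Helper25.PReg
import Cfsg.Agent.Lib.Helper11.GenChar
import Cfsg.Agent.Lib.Helper7.BlockCentral
import Cfsg.Agent.Lib.Helper7.BlockDefect
import Cfsg.Agent.Lib.Helper24.Integrality
import Cfsg.Agent.Lib.Helper24.BlockDefect
import Cfsg.Agent.Lib.Helper1.PRatF

set_option autoImplicit false
open Cfsg

namespace Cfsg.Agent.S4506

open Cfsg.Agent.Lib.Helper1 Cfsg.Agent.Lib.Helper7
open scoped ComplexConjugate

theorem isIntegral_Om' {G : Type*} [Group G] [Fintype G] (c : G → ℂ)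
    (hc : Cfsg.IsClassFunction G c) (hint : ∀ g, IsIntegral ℤ (c g)) (χ : Cfsg.IrrCharacter G) :
    IsIntegral ℤ (Om c χ) := by
  rw [Om]
  obtain ⟨χ, n, ρ, hρ, rfl⟩ := χ
  have := Cfsg.Agent.Lib.Helper24.isIntegral_sum_mul_character_div ρ c hc hint
  simpa using this

/-- Let G be a finite group, p a prime, p^a the p-part of the order of G and g′ its p′-part. Call two irreducible characters p-conjugate when one is obtained from the other by applying a field automorphism of ℂ that fixes the g′-th roots of unity, and let r be the number of characters p-conjugate to the irreducible character χ (χ included). Then the exponent of p in r·χ(1) is at most a; and if p^a divides r·χ(1) then p^a already divides χ(1). -/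
theorem result {G : Type*} [Group G] [Finite G] (p : ℕ) (hp : p.Prime) (χ : Cfsg.IrrCharacter G) (r : ℕ) (hr : Nat.card {ψ : Cfsg.IrrCharacter G // ∃ σ : ℂ ≃+* ℂ, σ (Complex.exp (2 * Real.pi * Complex.I / ((Nat.card G / p ^ (Nat.card G).factorization p) : ℕ))) = Complex.exp (2 * Real.pi * Complex.I / ((Nat.card G / p ^ (Nat.card G).factorization p) : ℕ)) ∧ (ψ : G → ℂ) = fun g => σ ((χ : G → ℂ) g)} = r) : (r * Cfsg.charDegree (χ : G → ℂ)).factorization p ≤ (Nat.card G).factorization p ∧ (p ^ (Nat.card G).factorization p ∣ r * Cfsg.charDegree (χ : G → ℂ) → p ^ (Nat.card G).factorization p ∣ Cfsg.charDegree (χ : G → ℂ)) := by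
  classical
  haveI : Fact p.Prime := ⟨hp⟩
  haveI := Fintype.ofFinite G
  haveI : Fintype (Cfsg.IrrCharacter G) := Fintype.ofFinite _
  have hn0 : Nat.card G ≠ 0 := Nat.card_pos.ne'
  have hnm : Nat.card G = p ^ (Nat.card G).factorization p *
      (Nat.card G / p ^ (Nat.card G).factorization p) :=
    (Nat.ordProj_mul_ordCompl_eq_self (Nat.card G) p).symm
  have hpm : ¬ p ∣ Nat.card G / p ^ (Nat.card G).factorization p := Nat.not_dvd_ordCompl hp hn0
  generalize hm : Nat.card G / p ^ (Nat.card G).factorization p = m at hr hnm hpm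
  set a := (Nat.card G).factorization p with ha
  have hm0 : m ≠ 0 := fun h => hpm (h ▸ dvd_zero p)
  haveI : NeZero m := ⟨hm0⟩
  have hζ : IsPrimitiveRoot (Complex.exp (2 * Real.pi * Complex.I / (m : ℕ))) m :=
    Complex.isPrimitiveRoot_exp m hm0
  generalize Complex.exp (2 * Real.pi * Complex.I / (m : ℕ)) = ζ at hr hζ
  have hχc := Cfsg.Agent.Lib.Helper7.isCharacter_of_irr χ.2
  set d := Cfsg.charDegree (χ : G → ℂ) with hd
  have hdc : (d : ℂ) = (χ : G → ℂ) 1 := charDegree_cast hχc
  have hd0 : d ≠ 0 := (charDegree_pos χ).ne'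
  let O : Finset (Cfsg.IrrCharacter G) := Finset.univ.filter
    (fun ψ => ∃ σ : ℂ ≃+* ℂ, σ ζ = ζ ∧ (ψ : G → ℂ) = fun g => σ ((χ : G → ℂ) g))
  have hrO : O.card = r := by
    rw [← hr, Nat.card_eq_fintype_card, Fintype.card_subtype]
  have hχO : χ ∈ O := Finset.mem_filter.2 ⟨Finset.mem_univ _, RingEquiv.refl ℂ, rfl, rfl⟩
  have hr0 : r ≠ 0 := by
    rw [← hrO]
    exact (Finset.card_pos.2 ⟨χ, hχO⟩).ne'
  -- (A)
  have hA : ∀ ψ ∈ O, ∀ g : G, ¬ p ∣ orderOf g → (ψ : G → ℂ) g = (χ : G → ℂ) g := by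
    intro ψ hψ g hg
    obtain ⟨σ, hσ, hψσ⟩ := (Finset.mem_filter.1 hψ).2
    rw [hψσ]
    obtain ⟨ι, hι, μ, hμ, hsum⟩ := pr_eigen hχc g
    have h1 := hsum 1
    simp only [pow_one] at h1
    show σ ((χ : G → ℂ) g) = (χ : G → ℂ) g
    rw [h1, map_sum]
    apply Finset.sum_congr rfl
    intro i _
    have hom : orderOf g ∣ m := by
      have h2 : orderOf g ∣ p ^ a * m := hnm ▸ orderOf_dvd_natCard g
      exact Nat.Coprime.dvd_of_dvd_mul_left
        (Nat.Coprime.pow_right a ((Nat.Prime.coprime_iff_not_dvd hp).2 hg).symm) h2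
    have h3 : μ i ^ m = 1 := by
      obtain ⟨c, hc⟩ := hom
      rw [hc, pow_mul, hμ, one_pow]
    obtain ⟨e, -, he⟩ := hζ.eq_pow_of_pow_eq_one h3
    rw [← he, map_pow, hσ]
  -- the truncated character
  let f : G → ℂ := fun x : G => if p ∣ orderOf x then 0 else
      ((p ^ (Nat.card G).factorization p : ℕ) : ℂ) * (χ : G → ℂ) x
  have hf : Cfsg.IsGeneralizedCharacter G f := Cfsg.Agent.Lib.Helper25.genChar_preg p hχc
  obtain ⟨z, hz, hfsum⟩ := Cfsg.Agent.Lib.Helper11.genChar_eq_sum hf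
  set k := z χ with hk
  have hzO : ∀ ψ ∈ O, z ψ = k := by
    intro ψ hψ
    have h1 : Cfsg.classInner f (ψ : G → ℂ) = Cfsg.classInner f (χ : G → ℂ) := by
      unfold Cfsg.classInner
      congr 1
      apply Finset.sum_congr rfl
      intro g _
      by_cases hg : p ∣ orderOf g
      · simp only [f, if_pos hg, zero_mul]
      · rw [hA ψ hψ g hg]
    rw [hz, hz] at h1
    exact_mod_cast h1
  have hpars : ∑ ψ, z ψ * z ψ = (p : ℤ) ^ a * k := by
    have h1 := Cfsg.Agent.Lib.Helper11.genChar_inner_eq_sum hf z z hz hz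
    have h2 : Cfsg.classInner f f = ((p ^ a : ℕ) : ℂ) * Cfsg.classInner f (χ : G → ℂ) := by
      unfold Cfsg.classInner
      rw [mul_left_comm]
      congr 1
      rw [Finset.mul_sum]
      apply Finset.sum_congr rfl
      intro g _
      by_cases hg : p ∣ orderOf g
      · simp only [f, if_pos hg, zero_mul, mul_zero]
      · simp only [f, if_neg hg, map_mul, Complex.conj_natCast]
        ring
    rw [h2, hz] at h1
    have h3 : (((p : ℤ) ^ a * k : ℤ) : ℂ) = ((∑ ψ, z ψ * z ψ : ℤ) : ℂ) := by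
      rw [← h1]; push_cast; ring
    exact_mod_cast h3.symm
  have hf1 : f 1 ≠ 0 := by
    have h1 : ¬ p ∣ orderOf (1 : G) := by
      rw [orderOf_one]; exact fun h => hp.one_lt.ne' (Nat.dvd_one.1 h)
    simp only [f, if_neg h1]
    exact mul_ne_zero (by exact_mod_cast (pow_pos hp.pos _).ne') (irr_apply_one_ne_zero χ.2)
  have hppos : (0 : ℤ) < (p : ℤ) ^ a := pow_pos (by exact_mod_cast hp.pos) a
  have hkpos : 0 < k := by
    have h1 : k * k ≤ ∑ ψ, z ψ * z ψ :=
      Finset.single_le_sum (f := fun ψ => z ψ * z ψ) (fun ψ _ => mul_self_nonneg _)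
        (Finset.mem_univ χ)
    rcases lt_trichotomy k 0 with h | h | h
    · exfalso
      have h2 : (p : ℤ) ^ a * k < 0 := mul_neg_of_pos_of_neg hppos h
      have h3 : 0 ≤ k * k := mul_self_nonneg _
      omega
    · exfalso
      rw [h, mul_zero] at hpars
      have h2 : ∀ ψ ∈ Finset.univ, z ψ * z ψ = 0 :=
        (Finset.sum_eq_zero_iff_of_nonneg (fun ψ _ => mul_self_nonneg _)).1 hpars
      apply hf1
      rw [hfsum, Finset.sum_apply]
      apply Finset.sum_eq_zero
      intro ψ hψ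
      rw [mul_self_eq_zero.1 (h2 ψ hψ)]
      simp
    · exact h
  obtain ⟨K, hK⟩ : ∃ K : ℕ, (K : ℤ) = k := ⟨k.toNat, Int.toNat_of_nonneg hkpos.le⟩
  have hK0 : 0 < K := by
    have : (0 : ℤ) < (K : ℤ) := hK ▸ hkpos
    exact_mod_cast this
  -- (E)
  have hE : p ^ d.factorization p ∣ K := by
    let c : G → ℂ := fun g => if p ∣ orderOf g then 0 else (χ : G → ℂ) g⁻¹
    have hcf := isClassFunction_irr χ
    have hc : Cfsg.IsClassFunction G c := by
      intro g x
      have h1 : orderOf (x * g * x⁻¹) = orderOf g := by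
        have := orderOf_injective (MulAut.conj x).toMonoidHom (MulAut.conj x).injective g
        simpa using this
      have h2 : (x * g * x⁻¹)⁻¹ = x * g⁻¹ * x⁻¹ := by group
      simp only [c, h1, h2, hcf g⁻¹ x]
    have hint : ∀ g, IsIntegral ℤ (c g) := by
      intro g
      simp only [c]
      split_ifs
      · exact isIntegral_zero
      · exact char_isIntegral hχc _
    have ht := isIntegral_Om' c hc hint χ
    have h1 : Om c χ = ((K * m : ℕ) : ℂ) / (d : ℂ) := by
      have h2 : (k : ℂ) = (Nat.card G : ℂ)⁻¹ * (((p ^ a : ℕ) : ℂ) * ∑ g, c g * (χ : G → ℂ) g) := by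
        rw [← hz]
        unfold Cfsg.classInner
        congr 1
        rw [Finset.mul_sum]
        apply Finset.sum_congr rfl
        intro g _
        by_cases hg : p ∣ orderOf g
        · simp only [f, c, if_pos hg, zero_mul, mul_zero]
        · simp only [f, c, if_neg hg]
          rw [← char_inv_eq_conj hχc]
          ring
      have hGc : (Nat.card G : ℂ) = ((p ^ a : ℕ) : ℂ) * (m : ℂ) := by
        rw [hnm]; push_cast; ring
      have hpc : ((p ^ a : ℕ) : ℂ) ≠ 0 := by exact_mod_cast (pow_pos hp.pos _).ne'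
      have hmc : (m : ℂ) ≠ 0 := by exact_mod_cast hm0
      have hdc0 : (d : ℂ) ≠ 0 := by exact_mod_cast hd0
      rw [Om, ← hdc]
      rw [hGc] at h2
      have hKc : (k : ℂ) = (K : ℂ) := by rw [← hK]; simp
      rw [hKc] at h2
      push_cast
      rw [h2]
      field_simp
    rw [h1] at ht
    have h3 := Cfsg.Agent.Lib.Helper24.dvd_of_isIntegral_div (K * m) d hd0 ht
    have h4 : p ^ d.factorization p ∣ K * m := (Nat.ordProj_dvd d p).trans h3
    exact Nat.Coprime.dvd_of_dvd_mul_right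
      (Nat.Coprime.pow_left _ ((Nat.Prime.coprime_iff_not_dvd hp).2 hpm)) h4
  -- (F)
  have hsumO : ∑ ψ ∈ O, z ψ * z ψ = (r : ℤ) * (k * k) := by
    rw [Finset.sum_congr rfl (fun ψ hψ => by rw [hzO ψ hψ]), Finset.sum_const, hrO, nsmul_eq_mul]
  have hF : (r : ℤ) * (k * k) ≤ (p : ℤ) ^ a * k := by
    rw [← hsumO, ← hpars]
    exact Finset.sum_le_sum_of_subset_of_nonneg (Finset.subset_univ _)
      (fun ψ _ _ => mul_self_nonneg _)
  have hF' : r * K ≤ p ^ a := by
    have h1 : (r : ℤ) * k ≤ (p : ℤ) ^ a := by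
      have h2 : ((r : ℤ) * k) * k ≤ (p : ℤ) ^ a * k := by rw [mul_assoc]; exact hF
      exact le_of_mul_le_mul_right h2 hkpos
    rw [← hK] at h1
    exact_mod_cast h1
  have hfac : (r * d).factorization p = r.factorization p + d.factorization p := by
    rw [Nat.factorization_mul hr0 hd0]; rfl
  have h1r : p ^ r.factorization p ≤ r := Nat.ordProj_le p hr0
  have h1K : p ^ d.factorization p ≤ K := Nat.le_of_dvd hK0 hE
  have hchain : p ^ (r.factorization p + d.factorization p) ≤ r * K := by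
    rw [pow_add]; exact Nat.mul_le_mul h1r h1K
  constructor
  · rw [hfac]
    exact (Nat.pow_le_pow_iff_right hp.one_lt).1 (hchain.trans hF')
  · intro hdvd
    have h2 : a ≤ r.factorization p + d.factorization p := by
      rw [← hfac]
      exact (Nat.Prime.pow_dvd_iff_le_factorization hp (mul_ne_zero hr0 hd0)).1 hdvd
    have h3 : r * K = p ^ a :=
      le_antisymm hF' ((Nat.pow_le_pow_right hp.pos h2).trans hchain)
    have h4 : (r : ℤ) * (k * k) = (p : ℤ) ^ a * k := by
      rw [← mul_assoc, ← hK]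
      have : ((r * K : ℕ) : ℤ) = ((p ^ a : ℕ) : ℤ) := by rw [h3]
      push_cast at this
      rw [this]
    have hzero : ∀ ψ, ψ ∉ O → z ψ = 0 := by
      have h5 : ∑ ψ ∈ Finset.univ \ O, z ψ * z ψ = 0 := by
        have h6 := Finset.sum_sdiff (f := fun ψ => z ψ * z ψ) (Finset.subset_univ O)
        rw [hsumO, hpars, h4] at h6
        linarith
      have h7 := (Finset.sum_eq_zero_iff_of_nonneg (fun ψ _ => mul_self_nonneg _)).1 h5
      intro ψ hψ
      exact mul_self_eq_zero.1 (h7 ψ (Finset.mem_sdiff.2 ⟨Finset.mem_univ _, hψ⟩))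
    have hΨ : ∀ u : G, p ∣ orderOf u → ∑ ψ ∈ O, (ψ : G → ℂ) u = 0 := by
      intro u hu
      have h5 : f u = 0 := by simp only [f, if_pos hu]
      rw [hfsum, Finset.sum_apply] at h5
      have h6 : ∑ ψ, (z ψ • (ψ : G → ℂ)) u = (k : ℂ) * ∑ ψ ∈ O, (ψ : G → ℂ) u := by
        rw [Finset.mul_sum, ← Finset.sum_subset (Finset.subset_univ O)]
        · apply Finset.sum_congr rfl
          intro ψ hψ
          rw [Pi.smul_apply, hzO ψ hψ, zsmul_eq_mul]
        · intro ψ _ hψ
          rw [hzero ψ hψ]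
          simp
      rw [h6] at h5
      exact (mul_eq_zero.1 h5).resolve_left (by exact_mod_cast hkpos.ne')
    obtain ⟨P⟩ : Nonempty (Sylow p G) := inferInstance
    haveI : Fintype (P : Subgroup G) := Fintype.ofFinite _
    have hPcard : Nat.card (P : Subgroup G) = p ^ a := P.card_eq_multiplicity
    obtain ⟨n₀, hn₀⟩ := classInner_char_nat (isCharacter_restrict hχc (P : Subgroup G))
      (Cfsg.Agent.Lib.Helper7.isCharacter_of_irr (Cfsg.Agent.Lib.Helper24.oneIrr (P : Subgroup G)).2)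
    have hn₀' : (Nat.card (P : Subgroup G) : ℂ)⁻¹ * ∑ u : (P : Subgroup G), (χ : G → ℂ) u = n₀ := by
      rw [← hn₀]
      unfold Cfsg.classInner
      congr 1
      apply Finset.sum_congr rfl
      intro u _
      have : (Cfsg.Agent.Lib.Helper24.oneIrr (P : Subgroup G) : ↥(P : Subgroup G) → ℂ) u = 1 := rfl
      rw [this, map_one, mul_one]
    have hψP : ∀ ψ ∈ O, (Nat.card (P : Subgroup G) : ℂ)⁻¹ *
        ∑ u : (P : Subgroup G), (ψ : G → ℂ) u = n₀ := by
      intro ψ hψ
      obtain ⟨σ, hσ, hψσ⟩ := (Finset.mem_filter.1 hψ).2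
      have h5 := congrArg σ hn₀'
      rw [map_mul, map_inv₀, map_natCast, map_natCast, map_sum] at h5
      rw [hψσ]
      exact h5
    have hψ1 : ∀ ψ ∈ O, (ψ : G → ℂ) 1 = d := by
      intro ψ hψ
      obtain ⟨σ, hσ, hψσ⟩ := (Finset.mem_filter.1 hψ).2
      rw [hψσ]
      show σ ((χ : G → ℂ) 1) = d
      rw [← hdc, map_natCast]
    have h8 : ∑ ψ ∈ O, ((Nat.card (P : Subgroup G) : ℂ)⁻¹ *
        ∑ u : (P : Subgroup G), (ψ : G → ℂ) u) = (r : ℂ) * n₀ := by
      rw [Finset.sum_congr rfl hψP, Finset.sum_const, hrO, nsmul_eq_mul]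
    rw [← Finset.mul_sum, Finset.sum_comm, Finset.sum_eq_single (1 : (P : Subgroup G))] at h8
    · simp only [OneMemClass.coe_one] at h8
      rw [Finset.sum_congr rfl hψ1, Finset.sum_const, hrO, nsmul_eq_mul, hPcard] at h8
      have hpc : ((p ^ a : ℕ) : ℂ) ≠ 0 := by exact_mod_cast (pow_pos hp.pos _).ne'
      have hrc : (r : ℂ) ≠ 0 := by exact_mod_cast hr0
      have h9 : (d : ℂ) = ((p ^ a * n₀ : ℕ) : ℂ) := by
        push_cast
        push_cast at h8 hpc
        field_simp at h8
        linear_combination h8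
      have h10 : d = p ^ a * n₀ := by exact_mod_cast h9
      exact ⟨n₀, h10⟩
    · intro u _ hu
      apply hΨ
      have hu1 : (u : G) ≠ 1 := fun h => hu (Subtype.ext h)
      obtain ⟨j, hj⟩ := IsPGroup.iff_orderOf.1 P.2 u
      rw [Subgroup.orderOf_coe, hj]
      cases j with
      | zero =>
        exfalso
        rw [pow_zero, orderOf_eq_one_iff] at hj
        exact hu hj
      | succ j => exact dvd_pow_self p (Nat.succ_ne_zero j)
    · intro h
      exact absurd (Finset.mem_univ _) h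

end Cfsg.Agent.S4506
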