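import Cfsg.Statements.S4509
import Cfsg.Agent.Lib.Helper24.SelfCent

set_option autoImplicit false
open Cfsg

namespace Cfsg.Agent.S4509

open Cfsg.Agent.Lib.Helper24.SC Subgroup
open scoped commutatorElement

theorem card_sup_of_inf_eq_bot {G : Type*} [Group G] [Finite G] (A B : Subgroup G) [B.Normal]
    (hAB : A ⊓ B = ⊥) : Nat.card (A ⊔ B : Subgroup G) = Nat.card A * Nat.card B := by
  have h1 : B.relIndex (A ⊔ B) * Nat.card B = Nat.card (A ⊔ B : Subgroup G) := by
    rw [relIndex, mul_comm]
    have := (B.subgroupOf (A ⊔ B)).card_mul_index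
    rwa [Nat.card_congr (subgroupOfEquivOfLe (le_sup_right : B ≤ A ⊔ B)).toEquiv] at this
  rw [← h1, relIndex_sup_right, ← inf_relIndex_right, inf_comm, hAB, relIndex_bot_left]

theorem exists_rep {G : Type*} [Group G] {N S : Subgroup G} [S.Normal] (h : N ⊔ S = ⊤)
    (a : G ⧸ S) : ∃ n ∈ N, (QuotientGroup.mk n : G ⧸ S) = a := by
  obtain ⟨g, rfl⟩ := QuotientGroup.mk_surjective a
  have hg : g ∈ N ⊔ S := by rw [h]; trivial
  rw [← SetLike.mem_coe, mul_normal, Set.mem_mul] at hg
  obtain ⟨n, hn', s, hs, rfl⟩ := hg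
  refine ⟨n, hn', ?_⟩
  rw [QuotientGroup.mk_mul, (QuotientGroup.eq_one_iff s).2 hs, mul_one]

theorem relIndex_normalizer {G : Type*} [Group G] [Finite G] {p : ℕ} {x : G} (h : Hyp p x)
    {S : Subgroup G} [S.Normal] (hS : ¬ p ∣ Nat.card S) :
    (normalizer (zpowers x : Set G)).relIndex (normalizer (zpowers x : Set G) ⊔ S)
      = Nat.card S := by
  rw [← relIndex_eq_relIndex_sup, ← inf_relIndex_right, inf_comm, h.inf_normalizer_eq_bot hS,
    relIndex_bot_left]

theorem C_core {G : Type*} [Group G] [Finite G] {p : ℕ} {x : G} (h : Hyp p x)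
    (hPL : zpowers x ≤ commutator G)
    (hne : ⁅commutator G, commutator G⁆ ≠ commutator G) :
    Nat.card (⁅commutator G, commutator G⁆ : Subgroup G)
        = (normalizer (zpowers x : Set G)).index ∧
      Nat.card (commutator G) = p * (normalizer (zpowers x : Set G)).index := by
  have hDL : ⁅commutator G, commutator G⁆ ≤ commutator G := Subgroup.commutator_le_left _ _
  have hDn : (⁅commutator G, commutator G⁆ : Subgroup G).Normal := inferInstance
  have hD : ¬ p ∣ Nat.card (⁅commutator G, commutator G⁆ : Subgroup G) := by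
    intro hd
    exact hne (le_antisymm hDL (h.commutator_le (h.le_of_dvd hd)))
  have hq := h.quotient hD
  have hL : commutator G = zpowers x ⊔ ⁅commutator G, commutator G⁆ := by
    apply le_antisymm _ (sup_le hPL hDL)
    intro l hl
    have h1 : l * x * l⁻¹ * x⁻¹ ∈ (⁅commutator G, commutator G⁆ : Subgroup G) :=
      Subgroup.commutator_mem_commutator hl (hPL (mem_zpowers x))
    have h2 : (QuotientGroup.mk l : G ⧸ (⁅commutator G, commutator G⁆ : Subgroup G)) ∈
        Subgroup.centralizer ({(QuotientGroup.mk x :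
          G ⧸ (⁅commutator G, commutator G⁆ : Subgroup G))} : Set _) := by
      rw [Subgroup.mem_centralizer_singleton_iff]
      rw [← QuotientGroup.eq_one_iff] at h1
      simp only [QuotientGroup.mk_mul, QuotientGroup.mk_inv] at h1
      rw [mul_inv_eq_one, mul_inv_eq_iff_eq_mul] at h1
      exact h1
    rw [hq.hC] at h2
    obtain ⟨k, hk⟩ := h2
    simp only at hk
    rw [← QuotientGroup.mk_zpow, QuotientGroup.eq] at hk
    have h3 : x ^ k ∈ zpowers x ⊔ ⁅commutator G, commutator G⁆ :=
      (le_sup_left : zpowers x ≤ _) (zpow_mem (mem_zpowers x) k)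
    have h4 := mul_mem h3 ((le_sup_right : _ ≤ zpowers x ⊔ ⁅commutator G, commutator G⁆) hk)
    rwa [mul_inv_cancel_left] at h4
  have hsup := h.sup_normalizer hPL
  have hsup2 : normalizer (zpowers x : Set G) ⊔ ⁅commutator G, commutator G⁆ = ⊤ := by
    rw [eq_top_iff, ← hsup]
    apply sup_le le_sup_left
    rw [hL]
    exact sup_le (le_trans le_normalizer le_sup_left) (by rw [← hL]; exact le_sup_right)
  have h1 := relIndex_normalizer h hD
  rw [hsup2, relIndex_top_right] at h1
  refine ⟨h1.symm, ?_⟩
  have h2 := card_sup_of_inf_eq_bot (zpowers x) ⁅commutator G, commutator G⁆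
    (by rw [inf_comm]; exact h.inf_eq_bot hD)
  rw [← hL, h.card, ← h1] at h2
  exact h2

theorem A_core {G : Type*} [Group G] [Finite G] {p : ℕ} {x : G} (h : Hyp p x)
    (hPL : zpowers x ≤ commutator G) (S : Subgroup G) [S.Normal]
    (hS : Nat.card S = (normalizer (zpowers x : Set G)).index) (hSd : ¬ p ∣ Nat.card S) :
    ⁅commutator G, commutator G⁆ ≠ commutator G := by
  intro heq
  have h1 := relIndex_normalizer h hSd
  have h2 := relIndex_mul_index
    (le_sup_left : normalizer (zpowers x : Set G) ≤ normalizer (zpowers x : Set G) ⊔ S)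
  rw [h1, hS] at h2
  have hpos : 0 < (normalizer (zpowers x : Set G)).index :=
    Nat.pos_of_ne_zero (FiniteIndex.index_ne_zero)
  have h3 : (normalizer (zpowers x : Set G) ⊔ S).index = 1 :=
    Nat.eq_of_mul_eq_mul_left hpos (by rw [h2, mul_one])
  rw [index_eq_one] at h3
  have hnorm : ((zpowers x).map (QuotientGroup.mk' S)).Normal := by
    refine ⟨fun a ha b => ?_⟩
    obtain ⟨y, hy, rfl⟩ := ha
    obtain ⟨n, hn, rfl⟩ := exists_rep h3 b
    exact ⟨n * y * n⁻¹, (mem_normalizer_iff.1 hn y).1 hy, by simp⟩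
  have hMn : (S ⊔ zpowers x).Normal := by
    rw [← QuotientGroup.comap_map_mk']
    exact hnorm.comap _
  have hLM : commutator G ≤ S ⊔ zpowers x := h.commutator_le le_sup_right
  have hDS : ⁅commutator G, commutator G⁆ ≤ S := by
    rw [Subgroup.commutator_le]
    intro a ha b hb
    have ha' := hLM ha
    have hb' := hLM hb
    rw [← QuotientGroup.comap_map_mk', mem_comap] at ha' hb'
    obtain ⟨y, ⟨i, rfl⟩, hy⟩ := ha'
    obtain ⟨z, ⟨j, rfl⟩, hz⟩ := hb'
    rw [← QuotientGroup.eq_one_iff, commutatorElement_def]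
    simp only [QuotientGroup.mk'_apply] at hy hz
    simp only [QuotientGroup.mk_mul, QuotientGroup.mk_inv]
    rw [← hy, ← hz]
    simp only [QuotientGroup.mk_zpow]
    rw [mul_inv_eq_one, mul_inv_eq_iff_eq_mul, ← zpow_add, ← zpow_add, add_comm]
  rw [heq] at hDS
  exact h.ne_one (h.eq_one_of_mem hSd (hDS (hPL (mem_zpowers x))) (mem_zpowers x))


/-- Let the finite group G contain an element x of prime order p with C_G(x) = ⟨x⟩; let t be the number of conjugacy classes of elements of order p and 1 + n·p the number of subgroups of order p. Then G has a normal subgroup of order 1 + n·p if and only if either t = p − 1, or t < p − 1 and G″ ≠ G′. Moreover, if t = p − 1 then G′ has order 1 + n·p and G/G′ is cyclic of order p; and if t < p − 1 and G″ ≠ G′ then G″ has order 1 + n·p and G′ has order p·(1 + n·p). -/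
theorem result {G : Type*} [Group G] [Finite G] (p : ℕ) (hp : p.Prime) (x : G) (hx : orderOf x = p) (hC : Subgroup.centralizer ({x} : Set G) = Subgroup.zpowers x) (t : ℕ) (ht : Nat.card {C : ConjClasses G // ∃ g ∈ C.carrier, orderOf g = p} = t) (n : ℕ) (hn : Nat.card {H : Subgroup G // Nat.card H = p} = 1 + n * p) : ((∃ S : Subgroup G, S.Normal ∧ Nat.card S = 1 + n * p) ↔ (t = p - 1 ∨ (t < p - 1 ∧ derivedSeries G 2 ≠ derivedSeries G 1))) ∧ (t = p - 1 → Nat.card (commutator G) = 1 + n * p ∧ IsCyclic (G ⧸ commutator G) ∧ (commutator G).index = p) ∧ (t < p - 1 → derivedSeries G 2 ≠ derivedSeries G 1 → Nat.card (derivedSeries G 2) = 1 + n * p ∧ Nat.card (commutator G) = p * (1 + n * p)) := by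
  have h : Cfsg.Agent.Lib.Helper24.SC.Hyp p x := ⟨hp, hx, hC⟩
  have hcl := h.card_classes
  rw [ht] at hcl
  rw [h.card_subgroups] at hn
  have hp1 : 0 < p - 1 := by have := hp.two_le; omega
  have hds : derivedSeries G 2 = ⁅commutator G, commutator G⁆ := by
    rw [show (2 : ℕ) = 1 + 1 from rfl, derivedSeries_succ, derivedSeries_one]
  rw [hds, derivedSeries_one]
  have hPL : t ≠ p - 1 → zpowers x ≤ commutator G := by
    intro hne
    apply h.le_commutator_of_ne
    intro hle
    rw [Subgroup.relIndex_eq_one.2 hle, mul_one] at hcl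
    exact hne hcl
  have hB : t = p - 1 → Nat.card (commutator G) = 1 + n * p ∧ IsCyclic (G ⧸ commutator G) ∧
      (commutator G).index = p := by
    intro heq
    have he : (Subgroup.zpowers x).relIndex
        (Subgroup.normalizer (Subgroup.zpowers x : Set G)) = 1 := by
      rw [heq] at hcl
      exact Nat.eq_of_mul_eq_mul_left hp1 (by rw [hcl, mul_one])
    have hNP := Subgroup.relIndex_eq_one.1 he
    obtain ⟨K, hKn, hK⟩ := h.exists_complement hNP
    have hi : (commutator G).index = p := by
      rw [h.commutator_eq_of_complement hK, h.index_of_complement hK]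
    refine ⟨?_, ?_, hi⟩
    · rw [h.commutator_eq_of_complement hK, ← hK.index_eq_card, ← hn,
        le_antisymm hNP le_normalizer]
    · haveI : Fact p.Prime := ⟨hp⟩
      exact isCyclic_of_prime_card (by rw [← index_eq_card, hi])
  have hCC : t < p - 1 → ⁅commutator G, commutator G⁆ ≠ commutator G →
      Nat.card (⁅commutator G, commutator G⁆ : Subgroup G) = 1 + n * p ∧
        Nat.card (commutator G) = p * (1 + n * p) := by
    intro hlt hne
    have := C_core h (hPL hlt.ne) hne
    rwa [hn] at this
  refine ⟨⟨?_, ?_⟩, hB, hCC⟩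
  · rintro ⟨S, hSn, hS⟩
    by_cases heq : t = p - 1
    · exact Or.inl heq
    · right
      have hle : t ≤ p - 1 := by
        rw [← hcl]
        apply Nat.le_mul_of_pos_right
        rcases Nat.eq_zero_or_pos ((Subgroup.zpowers x).relIndex
          (Subgroup.normalizer (Subgroup.zpowers x : Set G))) with h0 | h0
        · rw [h0] at hcl; omega
        · exact h0
      refine ⟨lt_of_le_of_ne hle heq, ?_⟩
      apply A_core h (hPL heq) S (by rw [hS, hn])
      rw [hS]
      intro hd
      have : p ∣ 1 := (Nat.dvd_add_left (Dvd.intro_left n rfl)).1 hd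
      exact hp.one_lt.ne' (Nat.dvd_one.1 this)
  · rintro (heq | ⟨hlt, hne⟩)
    · exact ⟨commutator G, inferInstance, (hB heq).1⟩
    · exact ⟨⁅commutator G, commutator G⁆, inferInstance, (hCC hlt hne).1⟩

end Cfsg.Agent.S4509
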