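import Cfsg.Statements.S4510
import Cfsg.Agent.Lib.Helper24.MinMax

set_option autoImplicit false
open Cfsg

namespace Cfsg.Agent.S4510

open Cfsg.Agent.Lib.Helper7 Cfsg.Agent.Lib.Helper24


/-- Let G be a finite group, p a prime, M a maximal ideal of the algebraic integers containing p, and call the defect of a conjugacy class the exponent of p in the order of the centralizer of its elements. Two irreducible characters lying in p-blocks of defect exactly d lie in the same block if and only if their central characters (class size times χ(x)/χ(1)) agree modulo the local ideal at M at every p-regular element x whose class has defect exactly d. -/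
theorem result {G : Type*} [Group G] [Finite G] (p : ℕ) [Fact p.Prime] (M : Ideal Cfsg.AlgInt) (hM : Cfsg.IsPModular p M) (d : ℕ) (χ ψ : Cfsg.IrrCharacter G) (hχ : Cfsg.blockDefect p (Cfsg.blockOf M (χ : G → ℂ)) = d) (hψ : Cfsg.blockDefect p (Cfsg.blockOf M (ψ : G → ℂ)) = d) : Cfsg.SameBlock M (χ : G → ℂ) (ψ : G → ℂ) ↔ ∀ x : G, ¬ p ∣ orderOf x → (Nat.card (Subgroup.centralizer ({x} : Set G))).factorization p = d → Cfsg.MemLocalIdeal M (Cfsg.centralChar (χ : G → ℂ) x - Cfsg.centralChar (ψ : G → ℂ) x) := by
  classical
  haveI := hM.2.1.isPrime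
  haveI := Fintype.ofFinite G
  haveI := Fintype.ofFinite (ConjClasses G)
  constructor
  · intro h x _ _
    exact h x
  · intro h
    set B := Cfsg.blockOf M (χ : G → ℂ) with hBdef
    set B' := Cfsg.blockOf M (ψ : G → ℂ) with hB'def
    have hB : Cfsg.IsPBlock M B := ⟨χ, rfl⟩
    have hB' : Cfsg.IsPBlock M B' := ⟨ψ, rfl⟩
    have hχB : χ ∈ B := self_mem_blockOf χ
    have hψB' : ψ ∈ B' := self_mem_blockOf ψ
    have h1 : MemLocalIdeal M (Om (Cfsg.blockCoeff B) χ - Om (Cfsg.blockCoeff B) ψ) := by
      rw [Om_eq_sum_centralChar (isClassFunction_blockCoeff _),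
        Om_eq_sum_centralChar (isClassFunction_blockCoeff _), ← Finset.sum_sub_distrib]
      apply memLocalIdeal_sum
      intro K _
      rw [← mul_sub]
      by_cases hreg : p ∣ orderOf K.out
      · rw [blockCoeff_eq_zero_of_singular hM hB hreg, zero_mul]; exact memLocalIdeal_zero
      · rcases lt_trichotomy
          ((Nat.card (Subgroup.centralizer ({K.out} : Set G))).factorization p) d with hlt | heq | hgt
        · exact memLocalIdeal_mul_left (osima hB _) (memLocalIdeal_sub
            (centralChar_memLocalIdeal_of_lt hM hB (by rw [hχ]; exact hlt) hχB)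
            (centralChar_memLocalIdeal_of_lt hM hB' (by rw [hψ]; exact hlt) hψB'))
        · exact memLocalIdeal_mul_left (osima hB _) (h K.out hreg heq)
        · exact memLocalIdeal_mul_right
            (blockCoeff_memLocalIdeal_of_lt hM hB (by rw [hχ]; exact hgt))
            (memLocalRing_sub (memLocalRing_centralChar χ _) (memLocalRing_centralChar ψ _))
    rw [Om_blockCoeff, Set.indicator_of_mem hχB] at h1
    by_contra hcon
    have hψB : ψ ∉ B := hcon
    rw [Set.indicator_of_notMem hψB, sub_zero] at h1
    exact not_memLocalIdeal_one h1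

end Cfsg.Agent.S4510
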