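import Cfsg.Statements.S4513
import Cfsg.Agent.Lib.Helper24.DefectOne
import Cfsg.Agent.Lib.Helper24.BlockSection
import Cfsg.Agent.Lib.Helper7.BlockEFM
import Cfsg.Agent.Lib.Helper7.BlockFMT

set_option autoImplicit false
open Cfsg

namespace Cfsg.Agent.S4513

open Cfsg.Agent.Lib.Helper7 Cfsg.Agent.Lib.Helper24
open scoped ComplexConjugate

theorem defectGroup_of_eq_normalizer {G : Type*} [Group G] [Finite G] {p : ℕ} [Fact p.Prime]
    {M : Ideal Cfsg.AlgInt} (hM : Cfsg.IsPModular p M) {P H : Subgroup G} (hP : IsPGroup p P)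
    (hH : H = Subgroup.normalizer (P : Set G)) {β : Set (Cfsg.IrrCharacter H)}
    {B : Set (Cfsg.IrrCharacter G)} (hind : Cfsg.IsInducedBlock M H β B)
    (h : Cfsg.IsDefectGroup p M B P) : Cfsg.IsDefectGroup p M β (P.subgroupOf H) := by
  subst hH
  exact (defectGroup_normalizer_iff hM hP hind).1 h

theorem mem_zpowers_two {G : Type*} [Group G] {x : G} (hx : orderOf x = 2) (h : G) :
    h ∈ Subgroup.zpowers x ↔ h = 1 ∨ h = x := by
  constructor
  · rintro ⟨k, rfl⟩
    have h1 := zpow_mod_orderOf x k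
    rw [hx] at h1
    simp only
    rw [← h1]
    have h2 : k % ((2 : ℕ) : ℤ) = 0 ∨ k % ((2 : ℕ) : ℤ) = 1 := by omega
    rcases h2 with h2 | h2
    · left; rw [h2, zpow_zero]
    · right; rw [h2, zpow_one]
  · rintro (rfl | rfl)
    · exact one_mem _
    · exact Subgroup.mem_zpowers _

theorem centralizer_eq_normalizer {G : Type*} [Group G] {x : G} (hx : orderOf x = 2) :
    Subgroup.centralizer ({x} : Set G) = Subgroup.normalizer (Subgroup.zpowers x : Set G) := by
  have hx1 : x ≠ 1 := by
    intro h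
    rw [h, orderOf_one] at hx
    omega
  ext g
  rw [mem_centralizer_singleton, Subgroup.mem_normalizer_iff]
  constructor
  · intro hg h
    have e : g * x * g⁻¹ = x := by rw [← hg, mul_inv_cancel_right]
    rw [mem_zpowers_two hx, mem_zpowers_two hx]
    constructor
    · rintro (rfl | rfl)
      · left; simp
      · right; exact e
    · rintro (h1 | h1)
      · left
        have : g * h = g := by
          have := congrArg (· * g) h1
          simpa using this
        simpa using this
      · right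
        rw [← e] at h1
        have := mul_right_cancel h1
        exact mul_left_cancel this
  · intro hg
    have h1 := (hg x).1 (Subgroup.mem_zpowers x)
    rw [mem_zpowers_two hx] at h1
    rcases h1 with h1 | h1
    · exfalso
      apply hx1
      have : g * x = g := by
        have := congrArg (· * g) h1
        simpa using this
      simpa using this
    · have := congrArg (· * g) h1
      simp only [inv_mul_cancel_right] at this
      exact this.symm


/-- Blocks of defect one for p = 2. Let M be a maximal ideal of the algebraic integers containing 2, B a 2-block of the finite group G whose defect group is the subgroup generated by an involution x, C = C_G(x), b a block of C inducing B and θ a member of b taking the same value at x as at 1 (there is exactly one). Then B consists of exactly two irreducible characters, which agree on every element of odd order, and they can be labelled χ₁, χ₂ with signs ε₁, ε₂ = ±1, ε₁ε₂ = −1, such that χᵢ(x y) = εᵢ θ(y) for every element y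 of C of odd order. -/
theorem result {G : Type*} [Group G] [Finite G] (M : Ideal Cfsg.AlgInt) (hM : Cfsg.IsPModular 2 M) (x : G) (hx : orderOf x = 2)
    (B : Set (Cfsg.IrrCharacter G)) (hB : Cfsg.IsPBlock M B) (hBD : Cfsg.IsDefectGroup 2 M B (Subgroup.zpowers x))
    (b : Set (Cfsg.IrrCharacter ↥(Subgroup.centralizer ({x} : Set G)))) (hb : Cfsg.IsInducedBlock M (Subgroup.centralizer ({x} : Set G)) b B)
    (θ : Cfsg.IrrCharacter ↥(Subgroup.centralizer ({x} : Set G))) (hθ : θ ∈ b)
    (hθx : ∀ z : ↥(Subgroup.centralizer ({x} : Set G)), (z : G) = x → (θ : ↥(Subgroup.centralizer ({x} : Set G)) → ℂ) z = (θ : ↥(Subgroup.centralizer ({x} : Set G)) → ℂ) 1) :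
    Nat.card B = 2 ∧ (∀ χ ∈ B, ∀ ψ ∈ B, ∀ g : G, ¬ 2 ∣ orderOf g → (χ : G → ℂ) g = (ψ : G → ℂ) g) ∧
      ∃ χ₁ ∈ B, ∃ χ₂ ∈ B, χ₁ ≠ χ₂ ∧ ∃ ε₁ ε₂ : ℤ, (ε₁ = 1 ∨ ε₁ = -1) ∧ (ε₂ = 1 ∨ ε₂ = -1) ∧ ε₁ * ε₂ = -1 ∧
        ∀ y : ↥(Subgroup.centralizer ({x} : Set G)), ¬ 2 ∣ orderOf y →
          (χ₁ : G → ℂ) (x * y) = (ε₁ : ℂ) * (θ : ↥(Subgroup.centralizer ({x} : Set G)) → ℂ) y ∧ (χ₂ : G → ℂ) (x * y) = (ε₂ : ℂ) * (θ : ↥(Subgroup.centralizer ({x} : Set G)) → ℂ) y := by
  classical
  haveI := hM.2.1.isPrime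
  haveI : Fact (Nat.Prime 2) := ⟨hM.1⟩
  haveI := Fintype.ofFinite G
  haveI := Fintype.ofFinite (IrrCharacter G)
  haveI := Fintype.ofFinite (Subgroup.centralizer ({x} : Set G))
  haveI := Fintype.ofFinite (IrrCharacter (Subgroup.centralizer ({x} : Set G)))
  have hd : blockDefect 2 B = 1 := by
    have h1 := card_defectGroup hM hB hBD
    rw [Nat.card_zpowers, hx] at h1
    have h2 : 2 ^ 1 = 2 ^ blockDefect 2 B := by simpa using h1
    exact (Nat.pow_right_injective (le_refl 2) h2).symm
  obtain ⟨χ₁, χ₂, hne, hBeq, hodd, heven⟩ := defect_one_two hM hB hd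
  have hχ₁ : χ₁ ∈ B := by rw [hBeq]; simp
  have hχ₂ : χ₂ ∈ B := by rw [hBeq]; simp
  have hCN := centralizer_eq_normalizer hx
  have hPG : IsPGroup 2 (Subgroup.zpowers x) := by
    apply IsPGroup.of_card (n := 1)
    rw [Nat.card_zpowers, hx, pow_one]
  have hDC : Subgroup.zpowers x ≤ Subgroup.centralizer ({x} : Set G) := by
    rw [hCN]
    exact Subgroup.le_normalizer
  have hbdef := defectGroup_of_eq_normalizer hM hPG hCN hb hBD
  have hdb : blockDefect 2 b = 1 := by
    have h1 := card_defectGroup hM hb.1 hbdef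
    rw [card_subgroupOf_of_le hDC, Nat.card_zpowers, hx] at h1
    have h2 : 2 ^ 1 = 2 ^ blockDefect 2 b := by simpa using h1
    exact (Nat.pow_right_injective (le_refl 2) h2).symm
  have hA : indSet M (Subgroup.centralizer ({x} : Set G)) B = b := by
    ext ψ
    constructor
    · intro hψ
      have hψ' : IsInducedBlock M (Subgroup.centralizer ({x} : Set G))
        (blockOf M (ψ : Subgroup.centralizer ({x} : Set G) → ℂ)) B := hψ
      have h1 := defectGroup_of_eq_normalizer hM hPG hCN hψ' hBD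
      rw [eq_of_induced_normalizer hM hPG hCN hbdef h1 hb hψ']
      exact self_mem_blockOf ψ
    · intro hψ
      show IsInducedBlock M (Subgroup.centralizer ({x} : Set G))
        (blockOf M (ψ : Subgroup.centralizer ({x} : Set G) → ℂ)) B
      rw [← isPBlock_eq_blockOf hb.1 hψ]
      exact hb
  obtain ⟨θ₁, θ₂, hθne, hbeq, hθodd, -⟩ := defect_one_two hM hb.1 hdb
  have hθ₁ : ∀ y : Subgroup.centralizer ({x} : Set G), ¬ 2 ∣ orderOf y →
      (θ₁ : Subgroup.centralizer ({x} : Set G) → ℂ) y
        = (θ : Subgroup.centralizer ({x} : Set G) → ℂ) y := by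
    intro y hy
    rw [hbeq] at hθ
    rcases hθ with rfl | hθ
    · rfl
    · rw [Set.mem_singleton_iff] at hθ
      rw [hθ]
      exact hθodd y hy
  have hθ₂ : ∀ y : Subgroup.centralizer ({x} : Set G), ¬ 2 ∣ orderOf y →
      (θ₂ : Subgroup.centralizer ({x} : Set G) → ℂ) y
        = (θ : Subgroup.centralizer ({x} : Set G) → ℂ) y := by
    intro y hy
    rw [← hθodd y hy]
    exact hθ₁ y hy
  have hxp : ∃ k : ℕ, orderOf x = 2 ^ k := ⟨1, by rw [hx, pow_one]⟩
  obtain ⟨n, hn⟩ : ∃ n : ℂ, ∀ y : Subgroup.centralizer ({x} : Set G), ¬ 2 ∣ orderOf y →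
      (χ₁ : G → ℂ) (x * y) = n * (θ : Subgroup.centralizer ({x} : Set G) → ℂ) y := by
    refine ⟨classInner (fun c : Subgroup.centralizer ({x} : Set G) => (χ₁ : G → ℂ) (x * (c : G)))
        (θ₁ : Subgroup.centralizer ({x} : Set G) → ℂ)
      + classInner (fun c : Subgroup.centralizer ({x} : Set G) => (χ₁ : G → ℂ) (x * (c : G)))
        (θ₂ : Subgroup.centralizer ({x} : Set G) → ℂ), ?_⟩
    intro y hy
    have h1 := blockPart_indSet hM hxp hB χ₁ y hy
    rw [hA, Set.indicator_of_mem hχ₁] at h1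
    rw [← h1, hbeq]
    rw [blockPart_apply, ← finsum_mem_eq_sum_indicator, finsum_mem_pair hθne, hθ₁ y hy, hθ₂ y hy]
    ring
  have h1odd : ¬ 2 ∣ orderOf (1 : Subgroup.centralizer ({x} : Set G)) := by
    rw [orderOf_one]; omega
  obtain ⟨t, ht, hθ1⟩ := irr_apply_one θ.2
  have ht0 : (t : ℂ) ≠ 0 := by exact_mod_cast ht.ne'
  have hx1 : (χ₁ : G → ℂ) x = n * t := by
    have := hn 1 h1odd
    rw [hθ1] at this
    simpa using this
  have hxinv : x⁻¹ = x := by
    have : x ^ 2 = 1 := by rw [← hx]; exact pow_orderOf_eq_one x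
    rw [inv_eq_iff_mul_eq_one, ← sq]
    exact this
  have hreal : conj ((χ₁ : G → ℂ) x) = (χ₁ : G → ℂ) x := by
    rw [← char_inv_eq_conj (isCharacter_of_irr χ₁.2), hxinv]
  have hnreal : conj n = n := by
    rw [hx1, map_mul, Complex.conj_natCast] at hreal
    exact mul_right_cancel₀ ht0 hreal
  have hxeven : 2 ∣ orderOf x := by rw [hx]
  have hnsq : n * n = 1 := by
    have h1 := section_orthogonality hM hxp hB 1 1 h1odd h1odd
    rw [hA, ← finsum_mem_eq_sum_indicator, ← finsum_mem_eq_sum_indicator, hBeq, hbeq,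
      finsum_mem_pair hne, finsum_mem_pair hθne, hθ₁ 1 h1odd, hθ₂ 1 h1odd, hθ1] at h1
    simp only [Subgroup.coe_one, mul_one] at h1
    rw [heven x hxeven, map_neg, hreal, hx1, Complex.conj_natCast] at h1
    have h2 : (n * n - 1) * ((t : ℂ) * t) = 0 := by linear_combination (1 / 2 : ℂ) * h1
    rcases mul_eq_zero.1 h2 with h3 | h3
    · linear_combination h3
    · exact absurd h3 (mul_ne_zero ht0 ht0)
  have hχ₂v : ∀ y : Subgroup.centralizer ({x} : Set G), ¬ 2 ∣ orderOf y →
      (χ₂ : G → ℂ) (x * y) = - n * (θ : Subgroup.centralizer ({x} : Set G) → ℂ) y := by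
    intro y hy
    have hy' : ¬ 2 ∣ orderOf (y : G) := by rwa [Subgroup.orderOf_coe]
    have hcomm : Commute x (y : G) := commute_of_mem_centralizer y
    have hcop : Nat.Coprime (orderOf x) (orderOf (y : G)) := by
      rw [hx]
      exact (Nat.Prime.coprime_iff_not_dvd Nat.prime_two).2 hy'
    have hord : 2 ∣ orderOf (x * (y : G)) := by
      rw [hcomm.orderOf_mul_eq_mul_orderOf_of_coprime hcop, hx]
      exact dvd_mul_right _ _
    rw [heven _ hord, hn y hy]
    ring
  refine ⟨?_, ?_, χ₁, hχ₁, χ₂, hχ₂, hne, ?_⟩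
  · rw [hBeq, Nat.card_coe_set_eq, Set.ncard_pair hne]
  · intro χ hχ ψ hψ g hg
    rw [hBeq] at hχ hψ
    rcases hχ with rfl | hχ <;> rcases hψ with rfl | hψ
    · rfl
    · rw [Set.mem_singleton_iff] at hψ
      rw [hψ]; exact hodd g hg
    · rw [Set.mem_singleton_iff] at hχ
      rw [hχ]; exact (hodd g hg).symm
    · rw [Set.mem_singleton_iff] at hχ hψ
      rw [hχ, hψ]
  · have hn1 : n = 1 ∨ n = -1 := by
      have : (n - 1) * (n + 1) = 0 := by linear_combination hnsq
      rcases mul_eq_zero.1 this with h | h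
      · left; linear_combination h
      · right; linear_combination h
    rcases hn1 with hn1 | hn1
    · refine ⟨1, -1, Or.inl rfl, Or.inr rfl, by norm_num, ?_⟩
      intro y hy
      rw [hn y hy, hχ₂v y hy, hn1]
      push_cast
      exact ⟨rfl, rfl⟩
    · refine ⟨-1, 1, Or.inr rfl, Or.inl rfl, by norm_num, ?_⟩
      intro y hy
      rw [hn y hy, hχ₂v y hy, hn1]
      push_cast
      refine ⟨rfl, by ring⟩

end Cfsg.Agent.S4513
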