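import Cfsg.Statements.S4633
import Cfsg.Agent.Lib.Helper26.CtrK

set_option autoImplicit false
open Cfsg

namespace Cfsg.Agent.S4633

/-- Let B be a block of the finite group G relative to a maximal ideal M of the algebraic integers containing the prime p, with a nontrivial cyclic defect group P. Let c be a block of C_G(P) inducing B and T the stabilizer of c in N_G(P) (the elements of N_G(P) conjugating c to itself); T contains C_G(P). Then T/C_G(P) is cyclic of order dividing p − 1, and it acts freely on the non-identity elements of P: an element of T fixing some non-identity element of P under conjugation lies in C_G(P). -/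
theorem result {G : Type*} [Group G] [Finite G] (p : ℕ) [Fact p.Prime] (M : Ideal Cfsg.AlgInt) (hM : Cfsg.IsPModular p M) (B : Set (Cfsg.IrrCharacter G)) (hB : Cfsg.IsPBlock M B) (P : Subgroup G) (hPD : Cfsg.IsDefectGroup p M B P) (hP1 : P ≠ ⊥) (hcyc : IsCyclic P) (c : Set (Cfsg.IrrCharacter (Subgroup.centralizer (P : Set G)))) (hc : Cfsg.IsInducedBlock M (Subgroup.centralizer (P : Set G)) c B) (T : Subgroup G) (hT : ∀ g : G, g ∈ T ↔ (g ∈ Subgroup.normalizer (P : Set G) ∧ Cfsg.StabilizesBlock (Subgroup.centralizer (P : Set G)) c g)) [hn : ((Subgroup.centralizer (P : Set G)).subgroupOf T).Normal] : IsCyclic (T ⧸ (Subgroup.centralizer (P : Set G)).subgroupOf T) ∧ (Subgroup.centralizer (P : Set G)).relIndex T ∣ p - 1 ∧ ∀ g ∈ T, ∀ x ∈ P, x ≠ 1 → g * x * g⁻¹ = x → g ∈ Subgroup.centralizer (P : Set G) := by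
  classical
  haveI := Fintype.ofFinite G
  haveI := hM.2.1.isPrime
  haveI := Cfsg.Agent.Lib.Helper7.resField_charP hM
  have hp : p.Prime := Fact.out
  have hab := Cfsg.Agent.Lib.Helper26.BP.ab_of_cyclic hcyc
  obtain ⟨hPp, hm, htm⟩ := Cfsg.Agent.Lib.Helper26.BP.setup_ab hM hB hPD hab hc
  have eT := Cfsg.Agent.Lib.Helper26.BP.eq_stabP hc.1 hT
  have hfree : ∀ g ∈ T, ∀ x ∈ P, x ≠ 1 → g * x * g⁻¹ = x →
      g ∈ Subgroup.centralizer (P : Set G) := by
    intro g hg x hx hx1 hgx
    exact Cfsg.Agent.Lib.Helper26.BP.free_of_cyclic hM hm htm hcyc (eT ▸ hg) hx hx1 hgx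
  -- an element of order p
  have hdvd : p ∣ Nat.card P := by
    obtain ⟨n, hn⟩ := IsPGroup.iff_card.mp hPp
    rcases Nat.eq_zero_or_pos n with rfl | hn0
    · exfalso
      rw [pow_zero] at hn
      exact hP1 ((Subgroup.card_eq_one).1 hn)
    · rw [hn]; exact dvd_pow_self p hn0.ne'
  obtain ⟨x0, hx0⟩ := exists_prime_orderOf_dvd_card' p hdvd
  obtain ⟨x, hxP, hxo⟩ : ∃ x : G, x ∈ P ∧ orderOf x = p :=
    ⟨x0, x0.2, by rw [Subgroup.orderOf_coe]; exact hx0⟩
  have hx1 : x ≠ 1 := by
    intro h
    rw [h, orderOf_one] at hxo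
    exact hp.one_lt.ne hxo
  have hZP : Subgroup.zpowers x ≤ P := by rwa [Subgroup.zpowers_le]
  have hTN : T ≤ Subgroup.normalizer ((Subgroup.zpowers x : Subgroup G) : Set G) := fun g hg =>
    Cfsg.Agent.Lib.Helper26.CycAct.normalizer_le_of_cyclic hcyc hZP ((hT g).1 hg).1
  let ψ : T →* MulAut (Subgroup.zpowers x) :=
    (Subgroup.zpowers x).normalizerMonoidHom.comp (Subgroup.inclusion hTN)
  have hker : ∀ g : T, ψ g = 1 ↔ g ∈ (Subgroup.centralizer (P : Set G)).subgroupOf T := by
    intro g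
    have h1 : ψ g = 1 ↔ Subgroup.inclusion hTN g ∈ (Subgroup.zpowers x).normalizerMonoidHom.ker :=
      Iff.rfl
    rw [h1, Subgroup.normalizerMonoidHom_ker, Subgroup.mem_subgroupOf, Subgroup.mem_subgroupOf]
    show (g : G) ∈ Subgroup.centralizer ((Subgroup.zpowers x : Subgroup G) : Set G) ↔ _
    constructor
    · intro h
      apply hfree g g.2 x hxP hx1
      have := (Subgroup.mem_centralizer_iff.1 h) x (Subgroup.mem_zpowers x)
      rw [← this]; group
    · intro h
      exact Subgroup.centralizer_le hZP h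
  let f : T ⧸ (Subgroup.centralizer (P : Set G)).subgroupOf T →* MulAut (Subgroup.zpowers x) :=
    QuotientGroup.lift _ ψ (fun g hg => (hker g).2 hg)
  have hf : Function.Injective f := by
    rw [injective_iff_map_eq_one]
    intro q hq
    obtain ⟨g, rfl⟩ := QuotientGroup.mk_surjective q
    have : ψ g = 1 := hq
    exact (QuotientGroup.eq_one_iff g).2 ((hker g).1 this)
  have hcard : Nat.card (Subgroup.zpowers x) = p := by rw [Nat.card_zpowers, hxo]
  haveI : Fact (Nat.card (Subgroup.zpowers x)).Prime := ⟨hcard ▸ hp⟩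
  haveI : IsCyclic (MulAut (Subgroup.zpowers x)) :=
    isCyclic_of_injective (IsCyclic.mulAutMulEquiv (Subgroup.zpowers x)).toMonoidHom
      (IsCyclic.mulAutMulEquiv (Subgroup.zpowers x)).injective
  refine ⟨isCyclic_of_injective f hf, ?_, hfree⟩
  have h2 := Subgroup.card_dvd_of_injective f hf
  rw [IsCyclic.card_mulAut, hcard, Nat.totient_prime hp] at h2
  exact h2

end Cfsg.Agent.S4633
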