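import Cfsg.Statements.S4636
-- import your own Cfsg.Agent.* helpers here
import Mathlib
import Cfsg.Agent.Lib.Helper17.SE
import Cfsg.Agent.Lib.Helper18.MinNonCyclic
import Cfsg.Agent.Lib.Helper18.TransferTI

set_option autoImplicit false
open scoped Pointwise
open Cfsg

namespace Cfsg.Agent.S4636
open scoped Pointwise
open Cfsg.Agent.Lib.Helper17 Cfsg.Agent.Lib.Helper18

theorem mem_Z {G : Type*} [Group G] [Finite G] (p : ℕ) [Fact p.Prime] (P Z : Subgroup G)
    (hcyc : IsCyclic P) (hZ : Z ≤ P) (hZcard : Nat.card Z = p) {y : G} (hy : y ∈ P)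
    (hyp : y ^ p = 1) : y ∈ Z := by
  let _ : CommGroup ↥P := hcyc.commGroup
  let K : Subgroup ↥P := (powMonoidHom p : ↥P →* ↥P).ker
  have hK : Nat.card K ≤ p := card_le_of_isCyclic_of_pow inferInstance (Fact.out : p.Prime).pos (by
    rintro ⟨x, hx⟩
    exact Subtype.ext hx)
  have hle : Z.subgroupOf P ≤ K := by
    intro z hz
    change z ^ p = 1
    have h1 : (⟨(z : G), hz⟩ : Z) ^ Nat.card Z = 1 := pow_card_eq_one'
    rw [hZcard] at h1
    have h3 : (z : G) ^ p = 1 := congrArg Subtype.val h1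
    exact Subtype.ext h3
  have hc : Nat.card (Z.subgroupOf P) = p := by
    rw [← hZcard]
    exact Nat.card_congr (Subgroup.subgroupOfEquivOfLe hZ).toEquiv
  have h2 := Subgroup.eq_of_le_of_card_ge hle (by rw [hc]; exact hK)
  have hyK : (⟨y, hy⟩ : P) ∈ K := Subtype.ext hyp
  rw [← h2] at hyK
  exact hyK

/-- Let P be a nontrivial cyclic p-subgroup of the finite group G and Z its subgroup of order p. For every x outside N_G(Z), P meets its conjugate xPx⁻¹ trivially; consequently N_G(Q) ≤ N_G(Z) for every nontrivial subgroup Q of P. -/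
theorem result {G : Type*} [Group G] [Finite G] (p : ℕ) [Fact p.Prime] (P : Subgroup G) (hP : IsPGroup p P) (hP1 : P ≠ ⊥) (hcyc : IsCyclic P) (Z : Subgroup G) (hZ : Z ≤ P) (hZcard : Nat.card Z = p) : (∀ x : G, x ∉ Subgroup.normalizer (Z : Set G) → P ⊓ MulAut.conj x • P = ⊥) ∧ ∀ Q : Subgroup G, Q ≤ P → Q ≠ ⊥ → Subgroup.normalizer (Q : Set G) ≤ Subgroup.normalizer (Z : Set G) := by
  have hZp : ∀ z ∈ Z, z ^ p = 1 := by
    intro z hz
    have h1 : (⟨z, hz⟩ : Z) ^ Nat.card Z = 1 := pow_card_eq_one'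
    rw [hZcard] at h1
    exact congrArg Subtype.val h1
  have hZQ : ∀ Q : Subgroup G, Q ≤ P → Q ≠ ⊥ → Z ≤ Q := by
    intro Q hQ hQ1
    obtain ⟨y, hyQ, hyo⟩ := exists_orderOf_eq_of_ne_bot (hP.to_le hQ) hQ1
    have hyZ : y ∈ Z := mem_Z p P Z hcyc hZ hZcard (hQ hyQ) (by rw [← hyo, pow_orderOf_eq_one])
    have h1 : Subgroup.zpowers y = Z := Subgroup.eq_of_le_of_card_ge
      (Subgroup.zpowers_le.mpr hyZ) (by rw [Nat.card_zpowers, hyo, hZcard])
    rw [← h1]
    exact Subgroup.zpowers_le.mpr hyQ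
  have hN : ∀ g : G, Z.map (MulAut.conj g).toMonoidHom ≤ P →
      g ∈ Subgroup.normalizer (Z : Set G) := by
    intro g hg
    apply mem_normalizer_of_map_conj_le
    intro w hw
    have hwP := hg hw
    obtain ⟨z, hz, rfl⟩ := hw
    refine mem_Z p P Z hcyc hZ hZcard hwP ?_
    rw [← map_pow, hZp z hz, map_one]
  refine ⟨?_, ?_⟩
  · intro x hx
    by_contra hne
    have h1 := hZQ _ inf_le_left hne
    apply hx
    have h2 : x⁻¹ ∈ Subgroup.normalizer (Z : Set G) := by
      apply hN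
      rintro _ ⟨z, hz, rfl⟩
      obtain ⟨w, hw, hwz⟩ := (h1 hz).2
      have : z = x * w * x⁻¹ := hwz.symm
      rw [this]
      simp only [MulEquiv.coe_toMonoidHom, MulAut.conj_apply]
      have e : x⁻¹ * (x * w * x⁻¹) * x⁻¹⁻¹ = w := by group
      rw [e]
      exact hw
    simpa using inv_mem h2
  · intro Q hQ hQ1 g hg
    apply hN
    refine le_trans ?_ hQ
    rw [← map_conj_eq_of_mem_normalizer hg]
    exact Subgroup.map_mono (hZQ Q hQ hQ1)

end Cfsg.Agent.S4636
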