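import Cfsg.Statements.S4642
import Cfsg.Agent.Lib.Helper7.BlockPType

set_option autoImplicit false
open Cfsg

namespace Cfsg.Agent.S4642

/-- Let G be a finite group, p a prime, M a maximal ideal of the algebraic integers containing p, K the largest normal subgroup of G of order prime to p, and L the preimage in G of the largest normal p-subgroup of G/K. Let Q be a Sylow p-subgroup of L and suppose C_G(Q) ≤ L. Let θ be an irreducible character of K invariant under conjugation by every element of G, and let B be the set of irreducible characters of G whose restriction to K contains θ. Then B is a block of G, every Sylow p-subgroup of G is a defect group of B, and B is of principal type: for every p-subgroup R of G exactly one block of C_G(R) induces B. -/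
theorem result {G : Type*} [Group G] [Fintype G] (p : ℕ) [Fact p.Prime] (M : Ideal Cfsg.AlgInt) (hM : Cfsg.IsPModular p M) (K : Subgroup G) (hK : K = Cfsg.pPrimeCore p G) [Fintype K] (L : Subgroup G) (hL : L = Cfsg.pPrimePCore p G) (Q : Subgroup G) (hQL : Q ≤ L) (hQp : IsPGroup p Q) (hQS : ¬ p ∣ Q.relIndex L) (hCQ : Subgroup.centralizer (Q : Set G) ≤ L) (θ : Cfsg.IrrCharacter K) (hθ : ∀ g : G, Cfsg.IsConjCharOf K g (θ : K → ℂ) (θ : K → ℂ)) (B : Set (Cfsg.IrrCharacter G)) (hBdef : ∀ χ : Cfsg.IrrCharacter G, χ ∈ B ↔ Cfsg.classInner (fun k : K => (χ : G → ℂ) k) (θ : K → ℂ) ≠ 0) : Cfsg.IsPBlock M B ∧ (∀ S : Sylow p G, Cfsg.IsDefectGroup p M B S) ∧ ∀ R : Subgroup G, IsPGroup p R → ∃! f : Set (Cfsg.IrrCharacter (Subgroup.centralizer (R : Set G))), Cfsg.IsInducedBlock M (Subgroup.centralizer (R : Set G)) f B := by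
  classical
  subst hL
  haveI hKn : K.Normal := by rw [hK]; exact Cfsg.pPrimeCore_normal p G
  have hθ' : ∀ g : G, Cfsg.Agent.Lib.Helper7.conjIrr K θ g = θ := by
    intro g
    have := (Cfsg.Agent.Lib.Helper7.isConjCharOf_iff K g⁻¹ θ θ).1 (hθ g⁻¹)
    rw [inv_inv] at this
    exact this.symm
  obtain ⟨B0, hB0, hmem, hd⟩ := Cfsg.Agent.Lib.Helper7.fong_pconstrained hM K hK
    hQL hQp hQS hCQ θ hθ'
  have hBB : B = B0 := by
    ext χ
    rw [hBdef, hmem]
  subst hBB
  have hcons : Cfsg.IsPConstrained p G := by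
    intro P x hx
    have hQ'p : IsPGroup p (Q.subgroupOf (Cfsg.pPrimePCore p G)) :=
      hQp.comap_of_injective _ (Subgroup.subtype_injective _)
    obtain ⟨g, hg⟩ := MulAction.exists_smul_eq (Cfsg.pPrimePCore p G) (hQ'p.toSylow hQS) P
    have h1 : (g : G)⁻¹ * x * (g : G) ∈ Subgroup.centralizer (Q : Set G) := by
      rw [Subgroup.mem_centralizer_iff]
      intro q hq
      have hq' : g * ⟨q, hQL hq⟩ * g⁻¹ ∈ (P : Subgroup (Cfsg.pPrimePCore p G)) := by
        rw [← hg]
        rw [Sylow.coe_subgroup_smul, Subgroup.mem_pointwise_smul_iff_inv_smul_mem]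
        have e : (MulAut.conj g)⁻¹ • (g * ⟨q, hQL hq⟩ * g⁻¹) = (⟨q, hQL hq⟩ : Cfsg.pPrimePCore p G) := by
          rw [← map_inv, MulAut.smul_def, MulAut.conj_apply]
          group
        rw [e]
        exact hq
      have h2 := (Subgroup.mem_centralizer_iff.1 hx) ((g : G) * q * (g : G)⁻¹)
        ⟨_, hq', rfl⟩
      calc q * ((g : G)⁻¹ * x * (g : G))
          = (g : G)⁻¹ * (((g : G) * q * (g : G)⁻¹) * x) * (g : G) := by group
        _ = (g : G)⁻¹ * (x * ((g : G) * q * (g : G)⁻¹)) * (g : G) := by rw [h2]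
        _ = (g : G)⁻¹ * x * (g : G) * q := by group
    have h3 := hCQ h1
    have h4 : x = (g : G) * ((g : G)⁻¹ * x * (g : G)) * (g : G)⁻¹ := by group
    rw [h4]
    exact mul_mem (mul_mem g.2 h3) (inv_mem g.2)
  refine ⟨hB0, fun S => Cfsg.Agent.Lib.Helper7.isDefectGroup_of_full_defect hM hB0 hd S, ?_⟩
  intro R hR
  exact Cfsg.Agent.Lib.Helper7.existsUnique_induced_centralizer K hM hK hcons θ hθ' hB0 hmem R hR

end Cfsg.Agent.S4642
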