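import Cfsg.Statements.S4646
import Cfsg.Agent.Lib.Helper24.BrauerPrincipal
import Cfsg.Agent.Lib.Helper24.BlockPNilp
import Cfsg.Agent.Lib.Helper24.BlockRank
import Cfsg.Agent.Lib.Helper7.BlockKer2
import Cfsg.Agent.S0071

set_option autoImplicit false
open Cfsg

namespace Cfsg.Agent.S4646

open Cfsg.Agent.Lib.Helper7 Cfsg.Agent.Lib.Helper24


/-- For a finite group G, a prime p and a maximal ideal M of the algebraic integers containing p: the principal block of G is nilpotent if and only if its p-regular rank is 1 (the trivial Brauer character is its only irreducible Brauer character). -/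
theorem result {G : Type*} [Group G] [Finite G] (p : ℕ) [Fact p.Prime] (M : Ideal Cfsg.AlgInt) (hM : Cfsg.IsPModular p M) : Cfsg.IsNilpotentBlock p M (Cfsg.principalBlock M G) ↔ Cfsg.blockRank p (Cfsg.principalBlock M G) = 1 := by
  classical
  haveI := Fintype.ofFinite G
  haveI := hM.2.1.isPrime
  have hp : p.Prime := hM.1
  obtain ⟨v, hv⟩ : ∃ v : G → ℂ, v = pRegularPart p (fun _ : G => (1 : ℂ)) := ⟨_, rfl⟩
  have hreg1 : IsPRegular p (1 : G) := by
    show ¬ p ∣ orderOf (1 : G)
    rw [orderOf_one]
    exact hp.one_lt.ne' ∘ Nat.dvd_one.1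
  have hpr : ∀ (χ : G → ℂ) (g : G), IsPRegular p g → pRegularPart p χ g = χ g := by
    intro χ g hg
    simp [pRegularPart, hg]
  have hps : ∀ (χ : G → ℂ) (g : G), ¬ IsPRegular p g → pRegularPart p χ g = 0 := by
    intro χ g hg
    simp [pRegularPart, hg]
  have hv1 : v 1 = 1 := by rw [hv, hpr _ _ hreg1]
  have hv0 : v ≠ 0 := fun h => by rw [h] at hv1; simp at hv1
  have hvmem : v ∈ (fun χ : IrrCharacter G => pRegularPart p (χ : G → ℂ)) '' principalBlock M G :=
    ⟨oneIrr G, oneIrr_mem_principalBlock, hv.symm⟩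
  constructor
  · intro hnil
    obtain ⟨P⟩ : Nonempty (Sylow p G) := inferInstance
    obtain ⟨N, hN, hc⟩ := (Cfsg.Agent.S0071.result P).2 (fun Q hQ g hg hgo =>
      hnil.2 Q (principalBlock M _)
        ((isBrauerPairOf_principal_iff hM (P.2.to_le hQ) isPBlock_principalBlock).2 rfl) g hg
        (stabilizesBlock_principal _ g (normalizer_le_normalizer_centralizer Q hg))
        (fun hd => hp.one_lt.ne' (Nat.dvd_one.1 (hgo ▸ Nat.dvd_gcd hd (dvd_refl p)))))
    haveI := hN
    have hNc : (Nat.card N).Coprime p := by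
      rw [← hc.index_eq_card]
      exact ((Nat.Prime.coprime_iff_not_dvd hp).mpr P.not_dvd_index).symm
    obtain ⟨k, hk⟩ := P.2.exists_card_eq
    have hidx : N.index = p ^ k := by rw [hc.symm.index_eq_card]; exact hk
    have hχ : ∀ χ ∈ principalBlock M G,
        pRegularPart p (χ : G → ℂ) = ((χ : G → ℂ) 1) • v := by
      intro χ hχ
      funext g
      by_cases hg : IsPRegular p g
      · rw [hpr _ _ hg, Pi.smul_apply, hv, hpr _ _ hg, smul_eq_mul, mul_one]
        exact (mem_principalBlock_iff_of_index hM N hNc hidx χ).1 hχ g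
          ((regular_iff_mem_of_index hp N hNc hidx g).1 hg)
      · rw [hps _ _ hg, Pi.smul_apply, hv, hps _ _ hg, smul_zero]
    have hspan : Submodule.span ℂ
        ((fun χ : IrrCharacter G => pRegularPart p (χ : G → ℂ)) '' principalBlock M G)
        = Submodule.span ℂ {v} := by
      apply le_antisymm
      · rw [Submodule.span_le]
        rintro _ ⟨χ, hχB, rfl⟩
        show pRegularPart p (χ : G → ℂ) ∈ Submodule.span ℂ {v}
        rw [hχ χ hχB]
        exact Submodule.smul_mem _ _ (Submodule.mem_span_singleton_self v)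
      · rw [Submodule.span_le, Set.singleton_subset_iff]
        exact Submodule.subset_span hvmem
    rw [blockRank, hspan, finrank_span_singleton hv0]
  · intro hr
    rw [blockRank] at hr
    have hker : ∀ g : G, IsPRegular p g → g ∈ blockKer (principalBlock M G) := by
      intro g hg χ hχ
      have h1 := (finrank_eq_one_iff_of_nonzero' (⟨v, Submodule.subset_span hvmem⟩ :
        Submodule.span ℂ ((fun χ : IrrCharacter G => pRegularPart p (χ : G → ℂ)) ''
          principalBlock M G)) (fun h => hv0 (congrArg Subtype.val h))).1 hr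
        ⟨pRegularPart p (χ : G → ℂ), Submodule.subset_span ⟨χ, hχ, rfl⟩⟩
      obtain ⟨c, hc⟩ := h1
      have hc' : c • v = pRegularPart p (χ : G → ℂ) := congrArg Subtype.val hc
      have e1 := congrFun hc' 1
      have e2 := congrFun hc' g
      rw [Pi.smul_apply, hpr _ _ hreg1, hv1] at e1
      rw [Pi.smul_apply, hpr _ _ hg, hv, hpr _ _ hg] at e2
      rw [← e1, ← e2]
    obtain ⟨K, hKn, hK, hKp, -, -⟩ := blockKer_main hM isPBlock_principalBlock
      (oneIrr_mem_principalBlock (M := M) (G := G))
    refine ⟨isPBlock_principalBlock, fun Q e hQe x hxN _ hxreg => ?_⟩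
    have hxK : x ∈ K := by
      have : x ∈ (K : Set G) := hK ▸ hker x hxreg
      exact this
    have hdisj : K ⊓ Q = ⊥ := by
      obtain ⟨k, hk⟩ := hQe.1.1.exists_card_eq
      apply Subgroup.inf_eq_bot_of_coprime
      rw [hk]
      exact Nat.Coprime.pow_right k ((Nat.Prime.coprime_iff_not_dvd hp).mpr hKp).symm
    rw [Subgroup.mem_centralizer_iff]
    intro q hq
    have h1 : x * q * x⁻¹ * q⁻¹ ∈ K ⊓ Q := by
      constructor
      · have : x * q * x⁻¹ * q⁻¹ = x * (q * x⁻¹ * q⁻¹) := by group
        rw [this]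
        exact K.mul_mem hxK (hKn.conj_mem _ (K.inv_mem hxK) q)
      · exact Q.mul_mem ((Subgroup.mem_normalizer_iff.1 hxN q).1 hq) (Q.inv_mem hq)
    rw [hdisj, Subgroup.mem_bot] at h1
    have : x * q = q * x := by
      have h2 : x * q * x⁻¹ * q⁻¹ * (q * x) = q * x := by rw [h1, one_mul]
      rw [← h2]; group
    exact this.symm

end Cfsg.Agent.S4646
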