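import Cfsg.Statements.S4652
import Cfsg.Agent.Lib.Helper24.BlockDefect

set_option autoImplicit false
open Cfsg

namespace Cfsg.Agent.S4652

/-- Fix a prime p and a maximal ideal M of the algebraic integers containing p. The defect groups of the principal p-block of a finite group G are exactly the Sylow p-subgroups of G: a subgroup D is a defect group of the principal block if and only if D is a Sylow p-subgroup. -/
theorem result {G : Type*} [Group G] [Fintype G] (p : ℕ) [Fact p.Prime] (M : Ideal Cfsg.AlgInt) (hM : Cfsg.IsPModular p M) (D : Subgroup G) : Cfsg.IsDefectGroup p M (Cfsg.principalBlock M G) D ↔ ∃ S : Sylow p G, (S : Subgroup G) = D := by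
  open Cfsg.Agent.Lib.Helper7 Cfsg.Agent.Lib.Helper24 in
  classical
  haveI := hM.2.1.isPrime
  have key : ∀ g : G, Cfsg.IsDefectClass M (Cfsg.principalBlock M G) g →
      ¬ p ∣ (Subgroup.centralizer ({g} : Set G)).index := by
    intro g hg hd
    have h3 := hg.2.2 (oneIrr G) oneIrr_mem_principalBlock
    apply h3
    have : Cfsg.centralChar ((oneIrr G : Cfsg.IrrCharacter G) : G → ℂ) g
        = ((Subgroup.centralizer ({g} : Set G)).index : ℂ) := centralChar_one g
    rw [this, memLocalIdeal_natCast_iff hM]
    exact hd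
  constructor
  · rintro ⟨g, hg, P, rfl⟩
    exact exists_sylow_eq_map (key g hg) P
  · rintro ⟨S, rfl⟩
    obtain ⟨g, hg⟩ := exists_defectClass (M := M) (isPBlock_principalBlock (G := G))
    obtain ⟨P₀⟩ : Nonempty (Sylow p (Subgroup.centralizer ({g} : Set G))) := inferInstance
    obtain ⟨S₀, hS₀⟩ := exists_sylow_eq_map (key g hg) P₀
    obtain ⟨c, hc⟩ := MulAction.exists_smul_eq G S₀ S
    have h1 : Cfsg.IsDefectGroup p M (Cfsg.principalBlock M G) (S₀ : Subgroup G) :=
      ⟨g, hg, P₀, hS₀⟩
    have h2 := isDefectGroup_conj h1 c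
    have h3 : (S : Subgroup G) = (S₀ : Subgroup G).map (MulAut.conj c).toMonoidHom := by
      rw [← hc, Sylow.coe_subgroup_smul]
      rfl
    rw [h3]
    exact h2

end Cfsg.Agent.S4652
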