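import Cfsg.Statements.S4655
import Cfsg.Agent.Lib.Helper26.BPTrans

set_option autoImplicit false
open Cfsg

namespace Cfsg.Agent.S4655

/-- Fix a prime p and a maximal ideal M of the algebraic integers containing p. Let (P, e) be a Brauer pair of the finite group G (P a p-subgroup, e a p-block of C_G(P)) and Q a subgroup of P. Then there is exactly one p-block f of C_G(Q) such that the Brauer pair (Q, f) lies below (P, e). -/
theorem result {G : Type*} [Group G] [Fintype G] (p : ℕ) [Fact p.Prime] (M : Ideal Cfsg.AlgInt) (hM : Cfsg.IsPModular p M) (P Q : Subgroup G) (e : Set (Cfsg.IrrCharacter (Subgroup.centralizer (P : Set G)))) (hPe : Cfsg.IsBrauerPair p M P e) (hQP : Q ≤ P) : ∃! f : Set (Cfsg.IrrCharacter (Subgroup.centralizer (Q : Set G))), Cfsg.IsPBlock M f ∧ Cfsg.SubpairLE p M Q f P e := by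
  classical
  haveI := hM.2.1.isPrime
  haveI := Cfsg.Agent.Lib.Helper7.resField_charP hM
  open Cfsg.Agent.Lib.Helper26.BP in
  obtain ⟨ε, hε⟩ := exists_le (isPair_of_isBrauerPair hPe) (Q := Q) hQP
  have hpair := hε.isPair_left (Cfsg.Agent.Lib.Helper26.BP.isPair_of_isBrauerPair hPe)
  open Cfsg.Agent.Lib.Helper26.BP in
  obtain ⟨f, hf, rfl⟩ := exists_of_isBlk_cen_top (Q := Q) hpair.blk
  have hQf : IsBrauerPair p M Q f := ⟨hpair.pg, hf⟩
  refine ⟨f, ⟨hf, (Cfsg.Agent.Lib.Helper26.BP.subpairLE_iff hQf hPe).2 hε⟩, ?_⟩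
  rintro f' ⟨hf', hle'⟩
  have h1 := Cfsg.Agent.Lib.Helper26.BP.le_of_subpairLE hle'
  have h2 := Cfsg.Agent.Lib.Helper26.BP.LE.unique h1 hε rfl
  exact Cfsg.Agent.Lib.Helper26.BP.sbl_injective hf' hf (congrArg Prod.snd h2)

end Cfsg.Agent.S4655
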