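import Cfsg.Statements.S4656
import Cfsg.Agent.Lib.Helper26.BPTrans

set_option autoImplicit false
open Cfsg

namespace Cfsg.Agent.S4656

/-- Fix a prime p and a maximal ideal M of the algebraic integers containing p. Let (P, e) be a Brauer pair of the finite group G and Q a normal subgroup of P. Then there is exactly one p-block f of C_G(Q) that is stable under conjugation by P and such that e occurs in the Brauer-map image at P of the idempotent of f; that is, exactly one f with (Q, f) normally below (P, e). -/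
theorem result {G : Type*} [Group G] [Fintype G] (p : ℕ) [Fact p.Prime] (M : Ideal Cfsg.AlgInt) (hM : Cfsg.IsPModular p M) (P Q : Subgroup G) (e : Set (Cfsg.IrrCharacter (Subgroup.centralizer (P : Set G)))) (hPe : Cfsg.IsBrauerPair p M P e) (hQP : Q ≤ P) (hPN : P ≤ Subgroup.normalizer (Q : Set G)) : ∃! f : Set (Cfsg.IrrCharacter (Subgroup.centralizer (Q : Set G))), Cfsg.IsNormalSubpair p M Q f P e := by
  classical
  haveI := hM.2.1.isPrime
  haveI := Cfsg.Agent.Lib.Helper7.resField_charP hM
  open Cfsg.Agent.Lib.Helper26.BP in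
  obtain ⟨ε, hε⟩ := exists_ns (isPair_of_isBrauerPair hPe) (Q := Q) hQP hPN
  open Cfsg.Agent.Lib.Helper26.BP in
  obtain ⟨f, hf, rfl⟩ := exists_of_isBlk_cen_top (Q := Q) hε.1.blk
  have hQf : IsBrauerPair p M Q f := ⟨hε.1.pg, hf⟩
  refine ⟨f, (Cfsg.Agent.Lib.Helper26.BP.isNormalSubpair_iff hQf hPe).2 hε, ?_⟩
  intro f' hf'
  have h1 := (Cfsg.Agent.Lib.Helper26.BP.isNormalSubpair_iff hf'.1 hPe).1 hf'
  have h2 := Cfsg.Agent.Lib.Helper26.BP.NS.unique h1 hε rfl
  exact Cfsg.Agent.Lib.Helper26.BP.sbl_injective hf'.1.2 hf (congrArg Prod.snd h2)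

end Cfsg.Agent.S4656
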