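import Cfsg.Statements.S4657
import Cfsg.Agent.Lib.Helper26.BPTrans

set_option autoImplicit false
open Cfsg

namespace Cfsg.Agent.S4657

/-- Fix a prime p and a maximal ideal M of the algebraic integers containing p. Every Brauer pair (P, e) of the finite group G is a Brauer pair of exactly one p-block B of G. -/
theorem result {G : Type*} [Group G] [Fintype G] (p : ℕ) [Fact p.Prime] (M : Ideal Cfsg.AlgInt) (hM : Cfsg.IsPModular p M) (P : Subgroup G) (e : Set (Cfsg.IrrCharacter (Subgroup.centralizer (P : Set G)))) (hPe : Cfsg.IsBrauerPair p M P e) : ∃! B : Set (Cfsg.IrrCharacter G), Cfsg.IsBrauerPairOf p M B P e := by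
  classical
  haveI := hM.2.1.isPrime
  haveI := Cfsg.Agent.Lib.Helper7.resField_charP hM
  have hN : P ≤ Subgroup.normalizer ((⊥ : Subgroup G) : Set G) := by
    intro x _
    rw [← Cfsg.Agent.Lib.Helper26.BP.cjS_eq_self_iff]
    exact Subgroup.map_bot _
  open Cfsg.Agent.Lib.Helper26.BP in
  obtain ⟨β, hβ⟩ := exists_ns (isPair_of_isBrauerPair hPe) (Q := ⊥) bot_le hN
  have hb := hβ.1.blk
  rw [show Cfsg.Agent.Lib.Helper26.BP.cen ⊤ ((⊥, β) : Cfsg.Agent.Lib.Helper26.BP.FP M G).1 = ⊤ from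
    Cfsg.Agent.Lib.Helper26.BP.cen_bot ⊤] at hb
  open Cfsg.Agent.Lib.Helper26.BP in
  obtain ⟨B, hB, rfl⟩ := exists_of_isBlk_top hb
  refine ⟨B, (Cfsg.Agent.Lib.Helper26.BP.isBrauerPairOf_iff hB hPe).2 hβ, ?_⟩
  intro B' hB'
  have h1 := (Cfsg.Agent.Lib.Helper26.BP.isBrauerPairOf_iff hB'.2.1 hPe).1 hB'
  have h2 := Cfsg.Agent.Lib.Helper26.BP.NS.unique h1 hβ rfl
  exact Cfsg.Agent.Lib.Helper26.BP.bl_injective hB'.2.1 hB (congrArg Prod.snd h2)

end Cfsg.Agent.S4657
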