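import Cfsg.Statements.S4658
import Cfsg.Agent.Lib.Helper26.BPTrans

set_option autoImplicit false
open Cfsg

namespace Cfsg.Agent.S4658

/-- Fix a prime p and a maximal ideal M of the algebraic integers containing p. Let (Q, f) ≤ (P, e) be Brauer pairs of the finite group G and B a p-block of G. Then (P, e) is a Brauer pair of B if and only if (Q, f) is. -/
theorem result {G : Type*} [Group G] [Fintype G] (p : ℕ) [Fact p.Prime] (M : Ideal Cfsg.AlgInt) (hM : Cfsg.IsPModular p M) (P Q : Subgroup G) (e : Set (Cfsg.IrrCharacter (Subgroup.centralizer (P : Set G)))) (f : Set (Cfsg.IrrCharacter (Subgroup.centralizer (Q : Set G)))) (hPe : Cfsg.IsBrauerPair p M P e) (hQf : Cfsg.IsBrauerPair p M Q f) (hle : Cfsg.SubpairLE p M Q f P e) (B : Set (Cfsg.IrrCharacter G)) (hB : Cfsg.IsPBlock M B) : Cfsg.IsBrauerPairOf p M B P e ↔ Cfsg.IsBrauerPairOf p M B Q f := by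
  classical
  haveI := hM.2.1.isPrime
  haveI := Cfsg.Agent.Lib.Helper7.resField_charP hM
  have hN : ∀ R : Subgroup G, R ≤ Subgroup.normalizer ((⊥ : Subgroup G) : Set G) := by
    intro R x _
    rw [← Cfsg.Agent.Lib.Helper26.BP.cjS_eq_self_iff]
    exact Subgroup.map_bot _
  have hle' := Cfsg.Agent.Lib.Helper26.BP.le_of_subpairLE hle
  rw [Cfsg.Agent.Lib.Helper26.BP.isBrauerPairOf_iff hB hPe,
    Cfsg.Agent.Lib.Helper26.BP.isBrauerPairOf_iff hB hQf]
  constructor
  · intro h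
    open Cfsg.Agent.Lib.Helper26.BP in
    obtain ⟨β, hβ⟩ := exists_ns (isPair_of_isBrauerPair hQf) (Q := ⊥) bot_le (hN Q)
    have h2 := Cfsg.Agent.Lib.Helper26.BP.LE.unique (hβ.le.trans hle') h.le rfl
    rw [← h2]; exact hβ
  · intro h
    open Cfsg.Agent.Lib.Helper26.BP in
    obtain ⟨β, hβ⟩ := exists_ns (isPair_of_isBrauerPair hPe) (Q := ⊥) bot_le (hN P)
    have h2 := Cfsg.Agent.Lib.Helper26.BP.LE.unique hβ.le (h.le.trans hle') rfl
    rw [← h2]; exact hβ

end Cfsg.Agent.S4658
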