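import Cfsg.Statements.S4664
import Cfsg.Agent.Lib.Helper24.BlockSupp

set_option autoImplicit false
open Cfsg

namespace Cfsg.Agent.S4664

open Cfsg.Agent.Lib.Helper7 in
theorem char_mem_adjoin {G : Type*} [Group G] [Finite G] {χ : G → ℂ} (h : Cfsg.IsCharacter G χ)
    (g : G) (m : ℕ) (hm : m ≠ 0) (hg : orderOf g ∣ m) (k : ℤ) :
    χ (g ^ k) ∈ IntermediateField.adjoin ℚ
      ({Complex.exp (2 * Real.pi * Complex.I / (m : ℂ))} : Set ℂ) := by
  obtain ⟨l, hl1, hl2⟩ := exists_eigenvalues h g
  rw [hl2 k]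
  apply list_sum_mem
  intro z hz
  rw [List.mem_map] at hz
  obtain ⟨w, hw, rfl⟩ := hz
  have hw1 : w ^ m = 1 := by
    obtain ⟨c, rfl⟩ := hg
    rw [pow_mul, hl1 w hw, one_pow]
  haveI : NeZero m := ⟨hm⟩
  obtain ⟨i, _, hi⟩ := (Complex.isPrimitiveRoot_exp m hm).eq_pow_of_pow_eq_one hw1
  rw [← hi]
  apply zpow_mem
  apply pow_mem
  exact IntermediateField.mem_adjoin_simple_self ℚ _


/-- Fix a prime p and a maximal ideal M of the algebraic integers containing p, and let B be a p-block of the finite group G. Let m be the p'-part of the order of G and η = exp(2πi/m). Then every coefficient of the idempotent of B lies in the cyclotomic field ℚ(η). -/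
theorem result {G : Type*} [Group G] [Fintype G] (p : ℕ) [Fact p.Prime] (M : Ideal Cfsg.AlgInt) (hM : Cfsg.IsPModular p M) (B : Set (Cfsg.IrrCharacter G)) (hB : Cfsg.IsPBlock M B) (g : G) : Cfsg.blockCoeff B g ∈ IntermediateField.adjoin ℚ ({Complex.exp (2 * Real.pi * Complex.I / ((Nat.card G / p ^ (Nat.card G).factorization p : ℕ) : ℂ))} : Set ℂ) := by
  open Cfsg.Agent.Lib.Helper7 Cfsg.Agent.Lib.Helper24 in
  classical
  haveI := Fintype.ofFinite (Cfsg.IrrCharacter G)
  by_cases hg : p ∣ orderOf g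
  · rw [blockCoeff_eq_zero_of_singular hM hB hg]
    exact zero_mem _
  have hp := hM.1
  have hcard : Nat.card G ≠ 0 := Nat.card_pos.ne'
  have hm : Nat.card G / p ^ (Nat.card G).factorization p ≠ 0 :=
    (Nat.ordCompl_pos p hcard).ne'
  have hdvd : orderOf g ∣ Nat.card G / p ^ (Nat.card G).factorization p := by
    have h1 : orderOf g ∣ p ^ (Nat.card G).factorization p *
        (Nat.card G / p ^ (Nat.card G).factorization p) := by
      rw [Nat.ordProj_mul_ordCompl_eq_self]
      exact orderOf_dvd_natCard g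
    exact Nat.Coprime.dvd_of_dvd_mul_left
      (Nat.Coprime.pow_right _ ((Nat.Prime.coprime_iff_not_dvd hp).2 hg).symm) h1
  rw [blockCoeff_eq_sum]
  apply mul_mem
  · apply inv_mem
    exact natCast_mem _ _
  · apply sum_mem
    intro χ _
    by_cases hχ : χ ∈ B
    · rw [Set.indicator_of_mem hχ]
      apply mul_mem
      · obtain ⟨n, _, hn⟩ := irr_apply_one χ.2
        rw [hn]
        exact natCast_mem _ _
      · rw [← char_inv_eq_conj (isCharacter_of_irr χ.2)]
        have := char_mem_adjoin (isCharacter_of_irr χ.2) g _ hm hdvd (-1)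
        rwa [zpow_neg_one] at this
    · rw [Set.indicator_of_notMem hχ]
      exact zero_mem _

end Cfsg.Agent.S4664
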