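import Cfsg.Statements.S4665
import Cfsg.Agent.Lib.Helper7.BlockOrtho

set_option autoImplicit false
open Cfsg

namespace Cfsg.Agent.S4665

open Cfsg.Agent.Lib.Helper7


/-- Fix a prime p, a maximal ideal M of the algebraic integers containing p, and a p-block B of the finite group G, and let p^a be the p-part of the order of G. Let χ be an integer combination of the irreducible characters in B. If the function that agrees with χ on p-regular elements and vanishes on p-singular elements is again an integer combination of the irreducible characters in B, then p^a divides χ(1). -/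
theorem result {G : Type*} [Group G] [Fintype G] (p : ℕ) [Fact p.Prime] (M : Ideal Cfsg.AlgInt) (hM : Cfsg.IsPModular p M) (B : Set (Cfsg.IrrCharacter G)) (hB : Cfsg.IsPBlock M B) (χ : G → ℂ) (hχ : (∃ n : Cfsg.IrrCharacter G → ℤ, ∀ g : G, χ g = ∑ᶠ ψ ∈ B, (n ψ : ℂ) * (ψ : G → ℂ) g)) (h0 : (∃ n : Cfsg.IrrCharacter G → ℤ, ∀ g : G, Cfsg.pRegularPart p χ g = ∑ᶠ ψ ∈ B, (n ψ : ℂ) * (ψ : G → ℂ) g)) : ∃ k : ℤ, χ 1 = (p ^ (Nat.card G).factorization p : ℂ) * k := by
  classical
  obtain ⟨n, hn⟩ := h0
  obtain ⟨P⟩ : Nonempty (Sylow p G) := inferInstance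
  haveI : Fintype (P : Subgroup G) := Fintype.ofFinite _
  haveI : Fintype (Cfsg.IrrCharacter G) := Fintype.ofFinite _
  have hP0 : (Nat.card (P : Subgroup G) : ℂ) ≠ 0 := by
    exact_mod_cast Nat.card_pos.ne'
  have h1 : ∀ ψ : Cfsg.IrrCharacter G, ∃ k : ℕ,
      ∑ x : (P : Subgroup G), (ψ : G → ℂ) x = (Nat.card (P : Subgroup G) : ℂ) * k := by
    intro ψ
    obtain ⟨k, hk⟩ := classInner_char_nat
      (isCharacter_restrict (isCharacter_of_irr ψ.2) (P : Subgroup G)) isCharacter_one
    refine ⟨k, ?_⟩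
    rw [← hk, Cfsg.classInner]
    simp only [map_one, mul_one]
    rw [mul_inv_cancel_left₀ hP0]
  choose k hk using h1
  have h2 : ∑ x : (P : Subgroup G), Cfsg.pRegularPart p χ x = χ 1 := by
    rw [Finset.sum_eq_single (1 : (P : Subgroup G))]
    · have : Cfsg.IsPRegular p (1 : G) := by
        simp [Cfsg.IsPRegular, (Fact.out : p.Prime).one_lt.ne']
      simp [Cfsg.pRegularPart, this]
    · intro x _ hx
      have : ¬ Cfsg.IsPRegular p (x : G) := by
        obtain ⟨j, hj⟩ := P.isPGroup' x
        rw [Cfsg.IsPRegular, not_not, Subgroup.orderOf_coe]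
        obtain ⟨i, -, hi⟩ := (Nat.dvd_prime_pow Fact.out).1 (orderOf_dvd_of_pow_eq_one hj)
        rw [hi]
        rcases i with _ | i
        · exact absurd (orderOf_eq_one_iff.1 (by simpa using hi)) hx
        · exact dvd_pow_self p (Nat.succ_ne_zero i)
      simp [Cfsg.pRegularPart, this]
    · intro h; exact absurd (Finset.mem_univ _) h
  have hc : Nat.card (P : Subgroup G) = p ^ (Nat.card G).factorization p := P.card_eq_multiplicity
  refine ⟨∑ ψ : Cfsg.IrrCharacter G, B.indicator (fun ψ => n ψ * (k ψ : ℤ)) ψ, ?_⟩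
  rw [← h2]
  simp only [hn, finsum_mem_eq_sum_indicator]
  rw [Finset.sum_comm]
  push_cast
  rw [Finset.mul_sum]
  apply Finset.sum_congr rfl
  intro ψ _
  by_cases hψ : ψ ∈ B
  · simp only [Set.indicator_of_mem hψ]
    rw [← Finset.mul_sum, hk, hc]
    push_cast
    ring
  · simp [Set.indicator_of_notMem hψ]

end Cfsg.Agent.S4665
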