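import Cfsg.Statements.S4668
import Cfsg.Agent.Lib.Helper24.BlockSupp
import Cfsg.Agent.Lib.Helper1.Coprime

set_option autoImplicit false
open Cfsg

namespace Cfsg.Agent.S4668

/-- Fix a prime p and a maximal ideal M of the algebraic integers containing p. Let Q₀ < Q₁ < ⋯ < Q_m be a strictly increasing chain of p-subgroups of the finite group G and N the intersection of their normalizers. Then every block idempotent of N is supported on C_G(Q_m): for every p-block E of N, the idempotent coefficient of E vanishes at every element of N outside C_G(Q_m). -/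
theorem result {G : Type*} [Group G] [Fintype G] (p : ℕ) [Fact p.Prime] (M : Ideal Cfsg.AlgInt) (hM : Cfsg.IsPModular p M) (m : ℕ) (Q : Fin (m + 1) → Subgroup G) (hQ : StrictMono Q) (hQp : ∀ i, IsPGroup p (Q i)) (N : Subgroup G) (hN : ∀ g : G, g ∈ N ↔ ∀ i, g ∈ Subgroup.normalizer (Q i : Set G)) (E : Set (Cfsg.IrrCharacter N)) (hE : Cfsg.IsPBlock M E) (n : N) (hn : (n : G) ∉ Subgroup.centralizer (Q (Fin.last m) : Set G)) : Cfsg.blockCoeff E n = 0 := by
  open Cfsg.Agent.Lib.Helper7 Cfsg.Agent.Lib.Helper24 in
  classical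
  by_contra hne
  have hreg : ¬ p ∣ orderOf n := fun h => hne (blockCoeff_eq_zero_of_singular hM hE h)
  have hreg' : ¬ p ∣ orderOf (n : G) := by rwa [Subgroup.orderOf_coe]
  have hNle : ∀ i, N ≤ Subgroup.normalizer (Q i : Set G) := fun i g hg => (hN g).1 hg i
  -- n centralizes Q i ⊓ N
  have h1 : ∀ i, ∀ c ∈ Q i, c ∈ N → c * (n : G) = (n : G) * c := by
    intro i c hc hcN
    haveI : ((Q i).subgroupOf N).Normal := Subgroup.normal_subgroupOf_of_le_normalizer (hNle i)
    have hp' : IsPGroup p ((Q i).subgroupOf N) := (hQp i).comap_subtype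
    have h2 : n ∈ Subgroup.centralizer (((Q i).subgroupOf N : Subgroup N) : Set N) := by
      by_contra h3
      exact hne (blockCoeff_eq_zero_of_not_mem_centralizer hM hE _ hp' h3)
    rw [Subgroup.mem_centralizer_iff] at h2
    have h3 := h2 ⟨c, hcN⟩ (by
      show (⟨c, hcN⟩ : N) ∈ (Q i).subgroupOf N
      rw [Subgroup.mem_subgroupOf]; exact hc)
    exact congrArg Subtype.val h3
  have hmono : ∀ i j : Fin (m + 1), i ≤ j → Q i ≤ Q j := fun i j h => hQ.monotone h
  have hcop : (Nat.card (Subgroup.zpowers (n : G))).Coprime p := by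
    rw [Nat.card_zpowers]
    exact ((Nat.Prime.coprime_iff_not_dvd hM.1).2 hreg').symm
  have key : ∀ i : ℕ, ∀ hi : i < m + 1,
      Subgroup.zpowers (n : G) ≤ Subgroup.centralizer (Q ⟨i, hi⟩ : Set G) := by
    intro i
    induction i with
    | zero =>
      intro hi
      rw [Subgroup.zpowers_le, Subgroup.mem_centralizer_iff]
      intro c hc
      apply h1 ⟨0, hi⟩ c hc
      rw [hN]
      intro j
      exact Subgroup.le_normalizer (hmono ⟨0, hi⟩ j (Fin.mk_le_of_le_val (Nat.zero_le _)) hc)
    | succ i ih =>
      intro hi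
      have hi' : i < m + 1 := by omega
      have ihi := ih hi'
      apply Cfsg.Agent.Lib.Helper1.pq_lemma p (Q ⟨i, hi'⟩) (Subgroup.zpowers (n : G)) (hQp _) hcop
        (Subgroup.le_centralizer_iff.1 ihi) _ (Q ⟨i + 1, hi⟩) rfl (hQp _)
      · exact (hmono _ _ (by simp [Fin.le_def])).trans Subgroup.le_normalizer
      · rw [Subgroup.zpowers_le]
        exact hNle _ n.2
      · rintro c ⟨hc1, hc2⟩
        have hcN : c ∈ N := by
          rw [hN]
          intro j
          by_cases hj : (j : ℕ) ≤ i
          · have hle : Q j ≤ Q ⟨i, hi'⟩ := hmono _ _ (by simpa [Fin.le_def] using hj)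
            have : c ∈ Subgroup.centralizer (Q j : Set G) :=
              Subgroup.centralizer_le (by exact_mod_cast hle) hc2
            exact Subgroup.centralizer_le_normalizer _ this
          · have hle : Q ⟨i + 1, hi⟩ ≤ Q j := hmono _ _ (by simp [Fin.le_def]; omega)
            exact Subgroup.le_normalizer (hle hc1)
        have h2 := h1 _ c hc1 hcN
        have h3 : Subgroup.zpowers (n : G) ≤ Subgroup.centralizer ({c} : Set G) := by
          rw [Subgroup.zpowers_le, Subgroup.mem_centralizer_singleton_iff]
          exact h2.symm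
        rw [Subgroup.mem_centralizer_iff]
        intro z hz
        have := h3 hz
        rw [Subgroup.mem_centralizer_singleton_iff] at this
        exact this
  apply hn
  have := key m (Nat.lt_succ_self m) (Subgroup.mem_zpowers _)
  exact this

end Cfsg.Agent.S4668
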