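import Cfsg.Statements.S4670
import Cfsg.Agent.Lib.Helper24.BrauerCorr
import Cfsg.Agent.Lib.Helper24.BrauerConj
import Cfsg.Agent.Lib.Helper7.BlockTransport

set_option autoImplicit false
open Cfsg

namespace Cfsg.Agent.S4670

open Cfsg.Agent.Lib.Helper7 Cfsg.Agent.Lib.Helper24

theorem bridge {G : Type*} [Group G] [Fintype G] {p : ℕ} {M : Ideal Cfsg.AlgInt}
    (hM : Cfsg.IsPModular p M) {P H N : Subgroup G} (hPH : P ≤ H) (hNH : N ≤ H)
    (hCN : Subgroup.centralizer (P : Set G) ≤ N)
    {B : Set (Cfsg.IrrCharacter G)} {β : Set (Cfsg.IrrCharacter N)} (hβ : Cfsg.IsPBlock M β)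
    (hG : ∀ k : N, Cfsg.MemLocalIdeal M (brH P N (Cfsg.blockCoeff B) k - Cfsg.blockCoeff β k))
    {c : Set (Cfsg.IrrCharacter H)} {β' : Set (Cfsg.IrrCharacter (N.subgroupOf H))}
    (hβ' : Cfsg.IsPBlock M β')
    (hH : ∀ k : N.subgroupOf H, Cfsg.MemLocalIdeal M
      (brH (P.subgroupOf H) (N.subgroupOf H) (Cfsg.blockCoeff c) k - Cfsg.blockCoeff β' k)) :
    (∀ x : G, x ∈ Subgroup.centralizer (P : Set G) →
      Cfsg.MemLocalIdeal M (Cfsg.blockCoeff B x - Cfsg.subgroupBlockCoeff H c x))
      ↔ β' = towerBlock hNH β := by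
  classical
  haveI := hM.2.1.isPrime
  have hval : ∀ k : N.subgroupOf H, Cfsg.blockCoeff (towerBlock hNH β) k
      = Cfsg.blockCoeff β ⟨((k : H) : G), Subgroup.mem_subgroupOf.1 k.2⟩ := by
    intro k
    rw [blockCoeff_blockComap]
    rfl
  constructor
  · intro h
    apply eq_of_blockCoeff_congr hβ' (isPBlock_blockComap _ hβ)
    intro k
    rw [hval k]
    have h1 := hH k
    have h2 := hG ⟨((k : H) : G), Subgroup.mem_subgroupOf.1 k.2⟩
    by_cases hk : ((k : H) : G) ∈ Subgroup.centralizer (P : Set G)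
    · have hk' : (k : H) ∈ Subgroup.centralizer ((P.subgroupOf H : Subgroup H) : Set H) :=
        (mem_centralizer_subgroupOf_iff (k : H) hPH).2 hk
      have h3 := h _ hk
      rw [subgroupBlockCoeff_coe] at h3
      simp only [brH, hk, hk', if_true] at h1 h2
      have h4 := memLocalIdeal_add (memLocalIdeal_add h1 h3) (memLocalIdeal_neg h2)
      have h5 := memLocalIdeal_neg h4
      convert h5 using 1
      ring
    · have hk' : (k : H) ∉ Subgroup.centralizer ((P.subgroupOf H : Subgroup H) : Set H) :=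
        fun h' => hk ((mem_centralizer_subgroupOf_iff (k : H) hPH).1 h')
      simp only [brH, hk, hk', if_false] at h1 h2
      have h4 := memLocalIdeal_sub h2 h1
      convert h4 using 1
      ring
  · intro h x hx
    subst h
    have hxN : x ∈ N := hCN hx
    have h1 := hH ⟨⟨x, hNH hxN⟩, Subgroup.mem_subgroupOf.2 hxN⟩
    have h2 := hG ⟨x, hxN⟩
    rw [hval] at h1
    have hk' : (⟨x, hNH hxN⟩ : H) ∈ Subgroup.centralizer ((P.subgroupOf H : Subgroup H) : Set H) :=
      (mem_centralizer_subgroupOf_iff _ hPH).2 hx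
    simp only [brH, hx, hk', if_true] at h1 h2
    rw [subgroupBlockCoeff_of_mem H c (hNH hxN)]
    have h4 := memLocalIdeal_sub h2 h1
    convert h4 using 1
    ring


/-- Fix a prime p and a maximal ideal M of the algebraic integers containing p. Let P be a p-subgroup of the finite group G and H a subgroup containing N_G(P). For every p-block B of G with defect group P there is exactly one p-block c of H with defect group P whose idempotent agrees with that of B, modulo the local ideal at M, at every element of C_G(P) (their Brauer-map images at P coincide); and every p-block c of H with defect group P arises in this way from exactly one such B. This is the Brauer correspondence over H. -/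
theorem result {G : Type*} [Group G] [Fintype G] (p : ℕ) [Fact p.Prime] (M : Ideal Cfsg.AlgInt) (hM : Cfsg.IsPModular p M) (P H : Subgroup G) (hP : IsPGroup p P) (hH : Subgroup.normalizer (P : Set G) ≤ H) : (∀ B : Set (Cfsg.IrrCharacter G), Cfsg.IsPBlock M B → Cfsg.IsDefectGroup p M B P → ∃! c : Set (Cfsg.IrrCharacter H), Cfsg.IsPBlock M c ∧ Cfsg.IsDefectGroup p M c (P.subgroupOf H) ∧ ∀ x : G, x ∈ Subgroup.centralizer (P : Set G) → Cfsg.MemLocalIdeal M (Cfsg.blockCoeff B x - Cfsg.subgroupBlockCoeff H c x)) ∧ (∀ c : Set (Cfsg.IrrCharacter H), Cfsg.IsPBlock M c → Cfsg.IsDefectGroup p M c (P.subgroupOf H) → ∃! B : Set (Cfsg.IrrCharacter G), Cfsg.IsPBlock M B ∧ Cfsg.IsDefectGroup p M B P ∧ ∀ x : G, x ∈ Subgroup.centralizer (P : Set G) → Cfsg.MemLocalIdeal M (Cfsg.blockCoeff B x - Cfsg.subgroupBlockCoeff H c x)) := by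
  classical
  haveI := hM.2.1.isPrime
  obtain ⟨N, hN⟩ : ∃ N : Subgroup G, N = Subgroup.normalizer (P : Set G) := ⟨_, rfl⟩
  haveI : Fintype N := Fintype.ofFinite _
  haveI : Fintype H := Fintype.ofFinite _
  haveI : Fintype (N.subgroupOf H) := Fintype.ofFinite _
  have hNH : N ≤ H := hN ▸ hH
  have hPN : P ≤ N := hN ▸ le_normalizer' P
  have hPH : P ≤ H := hPN.trans hNH
  have hCN : Subgroup.centralizer (P : Set G) ≤ N := hN ▸ centralizer_le_normalizer' P
  have hP' : IsPGroup p (P.subgroupOf H) := hP.comap_subtype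
  have hN' : N.subgroupOf H = Subgroup.normalizer ((P.subgroupOf H : Subgroup H) : Set H) := by
    rw [hN]
    exact Subgroup.subgroupOf_normalizer_eq hPH
  have hPN' : P.subgroupOf H ≤ N.subgroupOf H := hN' ▸ le_normalizer' _
  -- transfer of defect groups
  have hdef : ∀ β : Set (IrrCharacter N), IsPBlock M β →
      (IsDefectGroup p M β (P.subgroupOf N) ↔ IsDefectGroup p M (towerBlock hNH β)
        ((P.subgroupOf H).subgroupOf (N.subgroupOf H))) := by
    intro β hβ
    rw [defectGroup_subgroupOf_iff_card hM hP hPN hN.le hβ,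
      defectGroup_subgroupOf_iff_card hM hP' hPN' hN'.le (isPBlock_blockComap _ hβ),
      blockDefect_blockComap, card_subgroupOf_of_le hPH]
  constructor
  · intro B hB hBP
    obtain ⟨β, hind, hβP, hcong⟩ := brauerCorr_down hM hN hB hBP
    obtain ⟨c, hindc, hcP, hcongc⟩ := brauerCorr_up hM hP' hN' (isPBlock_blockComap _ hind.1)
      ((hdef β hind.1).1 hβP)
    refine ⟨c, ⟨hindc.2.1, hcP, ?_⟩, ?_⟩
    · exact (bridge hM hPH hNH hCN hind.1 hcong (isPBlock_blockComap _ hind.1) hcongc).2 rfl
    · rintro c' ⟨hc', hc'P, hc'cong⟩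
      obtain ⟨β', hind', hβ'P, hcong'⟩ := brauerCorr_down hM hN' hc' hc'P
      have h1 := (bridge hM hPH hNH hCN hind.1 hcong hind'.1 hcong').1 hc'cong
      rw [h1] at hind'
      exact induced_unique hind' hindc
  · intro c hc hcP
    obtain ⟨β', hind', hβ'P, hcong'⟩ := brauerCorr_down hM hN' hc hcP
    obtain ⟨β, hβdef⟩ : ∃ β : Set (IrrCharacter N),
        β = blockComap (Subgroup.subgroupOfEquivOfLe hNH).symm β' := ⟨_, rfl⟩
    have hβ : IsPBlock M β := by rw [hβdef]; exact isPBlock_blockComap _ hind'.1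
    have htower : β' = towerBlock hNH β := by
      ext ψ
      rw [mem_blockComap, hβdef, irrComap_mem_blockComap]
    have hβP : IsDefectGroup p M β (P.subgroupOf N) := by
      rw [hdef β hβ, ← htower]
      exact hβ'P
    obtain ⟨B, hind, hBP, hcong⟩ := brauerCorr_up hM hP hN hβ hβP
    refine ⟨B, ⟨hind.2.1, hBP, ?_⟩, ?_⟩
    · exact (bridge hM hPH hNH hCN hβ hcong hind'.1 hcong').2 htower
    · rintro B' ⟨hB', hB'P, hB'cong⟩
      obtain ⟨β₂, hind₂, hβ₂P, hcong₂⟩ := brauerCorr_down hM hN hB' hB'P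
      have h1 := (bridge hM hPH hNH hCN hind₂.1 hcong₂ hind'.1 hcong').1 hB'cong
      have h2 : β₂ = β := by
        have h3 : towerBlock hNH β₂ = towerBlock hNH β := by rw [← h1, ← htower]
        exact (Set.image_injective.2 (irrComap_injective _)) h3
      rw [h2] at hind₂
      exact induced_unique hind₂ hind

end Cfsg.Agent.S4670
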