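import Cfsg.Statements.S4674
import Cfsg.Agent.Lib.Helper7.BlockHK

set_option autoImplicit false
open Cfsg

namespace Cfsg.Agent.S4674

/-- Fix a prime p and a maximal ideal M of the algebraic integers containing p. Let N be a normal subgroup of the finite group G, Q a p-subgroup of N, H = N_G(Q) and L = H ∩ N = N_N(Q). Let d be a p-block of N with defect group Q and e the p-block of L with defect group Q that induces d inside N (its Brauer correspondent). Then block induction from H to G is a bijection from the p-blocks of H covering e onto the p-blocks of G covering d: every block of H covering e induces exactly one block of G, and that block covers d; and every block of G covering d is induced by exactly one block of H covering e. -/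
theorem result {G : Type*} [Group G] [Fintype G] (p : ℕ) [Fact p.Prime] (M : Ideal Cfsg.AlgInt) (hM : Cfsg.IsPModular p M) (N : Subgroup G) [N.Normal] [Fintype N] (Q : Subgroup G) (hQ : IsPGroup p Q) (hQN : Q ≤ N) [Fintype ↥(Subgroup.normalizer (Q : Set G) ⊓ N)] (d : Set (Cfsg.IrrCharacter N)) (hd : Cfsg.IsPBlock M d) (hdQ : Cfsg.IsDefectGroup p M d (Q.subgroupOf N)) (e : Set (Cfsg.IrrCharacter ↥(Subgroup.normalizer (Q : Set G) ⊓ N))) (he : Cfsg.IsPBlock M e) (heQ : Cfsg.IsDefectGroup p M e (Q.subgroupOf (Subgroup.normalizer (Q : Set G) ⊓ N))) (hed : Cfsg.IsInducedBlockIn M N (Subgroup.normalizer (Q : Set G) ⊓ N) e d) : (∀ c : Set (Cfsg.IrrCharacter ↥(Subgroup.normalizer (Q : Set G))), Cfsg.IsPBlock M c → (∃ ψ ∈ c, ∃ ξ ∈ e, Cfsg.classInner (fun l : ↥(Subgroup.normalizer (Q : Set G) ⊓ N) => (ψ : ↥(Subgroup.normalizer (Q : Set G)) → ℂ) (Subgroup.inclusion inf_le_left l)) (ξ : ↥(Subgroup.normalizer (Q : Set G) ⊓ N) → ℂ) ≠ 0) →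 ∃! B : Set (Cfsg.IrrCharacter G), Cfsg.IsInducedBlock M (Subgroup.normalizer (Q : Set G)) c B ∧ (∃ χ ∈ B, ∃ θ ∈ d, Cfsg.classInner (fun n : N => (χ : G → ℂ) n) (θ : N → ℂ) ≠ 0)) ∧ (∀ B : Set (Cfsg.IrrCharacter G), Cfsg.IsPBlock M B → (∃ χ ∈ B, ∃ θ ∈ d, Cfsg.classInner (fun n : N => (χ : G → ℂ) n) (θ : N → ℂ) ≠ 0) → ∃! c : Set (Cfsg.IrrCharacter ↥(Subgroup.normalizer (Q : Set G))), (Cfsg.IsPBlock M c ∧ ∃ ψ ∈ c, ∃ ξ ∈ e, Cfsg.classInner (fun l : ↥(Subgroup.normalizer (Q : Set G) ⊓ N) => (ψ : ↥(Subgroup.normalizer (Q : Set G)) → ℂ) (Subgroup.inclusion inf_le_left l)) (ξ : ↥(Subgroup.normalizer (Q : Set G) ⊓ N) → ℂ) ≠ 0) ∧ Cfsg.IsInducedBlock M (Subgroup.normalizer (Q : Set G)) c B) := by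
  classical
  haveI := Cfsg.Agent.Lib.Helper7.IsPModular.isPrime hM
  haveI : Fintype ↥(Subgroup.normalizer (Q : Set G)) := Fintype.ofFinite _
  haveI : Fintype ((Subgroup.normalizer (Q : Set G) ⊓ N).subgroupOf
    (Subgroup.normalizer (Q : Set G))) := Fintype.ofFinite _
  haveI : Fintype ((Subgroup.normalizer (Q : Set G) ⊓ N).subgroupOf N) := Fintype.ofFinite _
  have hed' := Cfsg.Agent.Lib.Helper7.isInducedBlock_of_isInducedBlockIn
    (inf_le_right : Subgroup.normalizer (Q : Set G) ⊓ N ≤ N) hed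
  constructor
  · intro c hc hcov
    obtain ⟨B, hB⟩ := Cfsg.Agent.Lib.Helper7.inducedBlockDefined_of_le hM hQ
      (Cfsg.Agent.Lib.Helper7.le_normalizer' Q) (Cfsg.Agent.Lib.Helper7.centralizer_le_normalizer' Q)
      le_rfl hc
    have hcov' := (Cfsg.Agent.Lib.Helper7.covers_tower_iff
      (inf_le_left : Subgroup.normalizer (Q : Set G) ⊓ N ≤ _) e c).2 hcov
    exact ⟨B, ⟨hB, Cfsg.Agent.Lib.Helper7.covers_of_induced_of_covers N _ hB hcov' hed'⟩,
      fun B' hB' => Cfsg.Agent.Lib.Helper24.induced_unique hB'.1 hB⟩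
  · intro B hB hcov
    obtain ⟨P, hP, hPN⟩ := Cfsg.Agent.Lib.Helper7.knorr N hM hd hB hcov hQN hdQ
    obtain ⟨c, hc⟩ := Cfsg.Agent.Lib.Helper7.exists_induced_of_le_defectGroup hM hQ
      (Cfsg.Agent.Lib.Helper7.le_normalizer' Q) (Cfsg.Agent.Lib.Helper7.centralizer_le_normalizer' Q)
      le_rfl hB hP (x := 1) (by
        rintro _ ⟨q, hq, rfl⟩
        have : q ∈ P ⊓ N := by rw [hPN]; exact hq
        simpa using this.1)
    have hcc := Cfsg.Agent.Lib.Helper7.covers_of_induced_covers N _ hM hQ hQN rfl hdQ hed' hc hcov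
    refine ⟨c, ⟨⟨hc.1, (Cfsg.Agent.Lib.Helper7.covers_tower_iff
      (inf_le_left : Subgroup.normalizer (Q : Set G) ⊓ N ≤ _) e c).1 hcc⟩, hc⟩, ?_⟩
    rintro c' ⟨⟨hc'1, hc'2⟩, hc'3⟩
    exact Cfsg.Agent.Lib.Helper7.eq_of_covers_of_induced N _ hM hQN rfl he heQ hc'3 hc
      ((Cfsg.Agent.Lib.Helper7.covers_tower_iff
        (inf_le_left : Subgroup.normalizer (Q : Set G) ⊓ N ≤ _) e c').2 hc'2) hcc

end Cfsg.Agent.S4674
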