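import Cfsg.Statements.S4675
import Cfsg.Agent.Lib.Helper24.ContribVal
import Cfsg.Agent.Lib.Helper24.BlockRank
import Cfsg.Agent.S4666

set_option autoImplicit false
open Cfsg

namespace Cfsg.Agent.S4675

open Cfsg.Agent.Lib.Helper7 Cfsg.Agent.Lib.Helper24
open scoped ComplexConjugate

theorem pReg_eq {G : Type*} [Group G] (p : ℕ) (χ : G → ℂ) :
    Cfsg.pRegularPart p χ = regPart p χ := by
  classical
  ext g
  by_cases hg : p ∣ orderOf g <;> simp [Cfsg.pRegularPart, regPart, Cfsg.IsPRegular, hg]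

theorem inner_reg_reg {G : Type*} [Group G] [Fintype G] (p : ℕ) (a b : G → ℂ) :
    Cfsg.classInner (regPart p a) b = Cfsg.classInner (regPart p a) (regPart p b) := by
  unfold Cfsg.classInner
  congr 1
  apply Finset.sum_congr rfl
  intro g _
  by_cases hg : p ∣ orderOf g <;> simp [regPart, hg]


/-- Fix a prime p and a maximal ideal M of the algebraic integers containing p. Let B be a p-block of the finite group G with defect group P and p-regular rank one (a single irreducible Brauer character). Then there are a function φ on G that is, on the p-regular elements, an integer combination of the members of B, and natural numbers d_χ (χ ∈ B), such that every χ ∈ B agrees with d_χ·φ on the p-regular elements and Σ_{χ ∈ B} d_χ² equals the order of P (the single Cartan invariant of B is the order of P). -/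
theorem result {G : Type*} [Group G] [Fintype G] (p : ℕ) [Fact p.Prime] (M : Ideal Cfsg.AlgInt) (hM : Cfsg.IsPModular p M) (B : Set (Cfsg.IrrCharacter G)) (hB : Cfsg.IsPBlock M B) (P : Subgroup G) (hP : Cfsg.IsDefectGroup p M B P) (hl : Cfsg.blockRank p B = 1) : ∃ φ : G → ℂ, ∃ d : Cfsg.IrrCharacter G → ℕ, (∃ n : Cfsg.IrrCharacter G → ℤ, ∀ x : G, Cfsg.IsPRegular p x → φ x = ∑ᶠ ψ ∈ B, (n ψ : ℂ) * (ψ : G → ℂ) x) ∧ (∀ χ ∈ B, ∀ x : G, Cfsg.IsPRegular p x → (χ : G → ℂ) x = (d χ : ℂ) * φ x) ∧ ∑ᶠ χ ∈ B, d χ ^ 2 = Nat.card P := by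
  classical
  haveI := hM.2.1.isPrime
  haveI : Fintype (Cfsg.IrrCharacter G) := Fintype.ofFinite _
  obtain ⟨χ₀, hχ₀⟩ := isPBlock_nonempty hB
  set s : Finset (Cfsg.IrrCharacter G) := Finset.univ.filter (· ∈ B) with hs
  have hBs : B = (s : Set (Cfsg.IrrCharacter G)) := by ext; simp [hs]
  have hmem : ∀ χ, χ ∈ s ↔ χ ∈ B := by intro χ; simp [hs]
  set f : Cfsg.IrrCharacter G → ℤ := fun χ => (Cfsg.charDegree (χ : G → ℂ) : ℤ) with hf
  have hfpos : ∀ χ, 0 < f χ := fun χ => by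
    simp only [hf]; exact_mod_cast charDegree_pos χ
  have hfc : ∀ χ : Cfsg.IrrCharacter G, ((f χ : ℤ) : ℂ) = (χ : G → ℂ) 1 := fun χ => by
    simp only [hf, Int.cast_natCast]; exact charDegree_cast (isCharacter_of_irr χ.2)
  set g : ℤ := s.gcd f with hg
  obtain ⟨n, hn⟩ := Finset.gcd_eq_sum_mul s f
  have hg0 : g ≠ 0 := by
    intro h
    have := (Finset.gcd_eq_zero_iff.1 h) χ₀ ((hmem χ₀).2 hχ₀)
    exact (hfpos χ₀).ne' this
  have hgnn : 0 ≤ g := Int.nonneg_of_normalize_eq_self Finset.normalize_gcd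
  have hgpos : 0 < g := lt_of_le_of_ne hgnn (Ne.symm hg0)
  have hd : ∀ χ ∈ B, ∃ k : ℕ, f χ = k * g ∧ k ≠ 0 := by
    intro χ hχ
    obtain ⟨k, hk⟩ := Finset.gcd_dvd (f := f) ((hmem χ).2 hχ)
    have hkpos : 0 < k := by
      have := hfpos χ
      rw [hk] at this
      exact (mul_pos_iff_of_pos_left hgpos).1 this
    refine ⟨k.toNat, ?_, ?_⟩
    · rw [Int.toNat_of_nonneg hkpos.le, hk, mul_comm]
    · intro h
      have := Int.toNat_eq_zero.1 h
      omega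
  choose! d hd hd0 using hd
  have hχ₀1 : (χ₀ : G → ℂ) 1 ≠ 0 := irr_apply_one_ne_zero χ₀.2
  have hgc : (g : ℂ) ≠ 0 := by exact_mod_cast hg0
  have hreg1 : ¬ p ∣ orderOf (1 : G) := by
    simp [(Fact.out : p.Prime).one_lt.ne']
  -- proportionality
  have hprop : ∀ χ ∈ B, regPart p (χ : G → ℂ)
      = ((χ : G → ℂ) 1 / (χ₀ : G → ℂ) 1) • regPart p (χ₀ : G → ℂ) := by
    intro χ hχ
    set V := Submodule.span ℂ
      ((fun χ : Cfsg.IrrCharacter G => Cfsg.pRegularPart p (χ : G → ℂ)) '' B) with hV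
    have hv₀ : Cfsg.pRegularPart p (χ₀ : G → ℂ) ∈ V := Submodule.subset_span ⟨χ₀, hχ₀, rfl⟩
    have hv : Cfsg.pRegularPart p (χ : G → ℂ) ∈ V := Submodule.subset_span ⟨χ, hχ, rfl⟩
    have hnz : (⟨_, hv₀⟩ : V) ≠ 0 := by
      intro h
      have h1 : Cfsg.pRegularPart p (χ₀ : G → ℂ) = 0 := congrArg Subtype.val h
      have h2 := congrFun h1 1
      rw [pReg_eq] at h2
      simp only [regPart, if_neg hreg1, Pi.zero_apply] at h2
      exact hχ₀1 h2
    obtain ⟨c, hc⟩ := (finrank_eq_one_iff_of_nonzero' (⟨_, hv₀⟩ : V) hnz).1 hl ⟨_, hv⟩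
    have hc' : c • Cfsg.pRegularPart p (χ₀ : G → ℂ) = Cfsg.pRegularPart p (χ : G → ℂ) :=
      congrArg Subtype.val hc
    rw [pReg_eq, pReg_eq] at hc'
    have h1 := congrFun hc' 1
    simp only [regPart, if_neg hreg1, Pi.smul_apply, smul_eq_mul] at h1
    rw [← hc', ← h1, mul_div_cancel_right₀ _ hχ₀1]
  set φ : G → ℂ := ((g : ℂ) / (χ₀ : G → ℂ) 1) • regPart p (χ₀ : G → ℂ) with hφ
  have hdφ : ∀ χ ∈ B, regPart p (χ : G → ℂ) = (d χ : ℂ) • φ := by
    intro χ hχ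
    rw [hprop χ hχ, hφ, smul_smul, ← hfc χ, hd χ hχ]
    congr 1
    push_cast
    ring
  have hnd : ∑ ψ ∈ s, (n ψ : ℂ) * (d ψ : ℂ) = 1 := by
    have h1 : g * ∑ ψ ∈ s, n ψ * (d ψ : ℤ) = g * 1 := by
      rw [mul_one, Finset.mul_sum]
      conv_rhs => rw [hg, hn]
      apply Finset.sum_congr rfl
      intro ψ hψ
      rw [hd ψ ((hmem ψ).1 hψ)]
      ring
    have h2 := mul_left_cancel₀ hg0 h1
    exact_mod_cast h2
  have hφ0 : φ ≠ 0 := by
    intro h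
    have h1 := congrFun h 1
    simp only [hφ, Pi.smul_apply, regPart, if_neg hreg1, smul_eq_mul, Pi.zero_apply] at h1
    exact (mul_ne_zero (div_ne_zero hgc hχ₀1) hχ₀1) h1
  set w := Cfsg.classInner φ φ with hw
  have hw0 : w ≠ 0 := fun h => hφ0 (classInner_self_eq_zero h)
  have hwc : conj w = w := classInner_conj_symm φ φ
  have hm : ∀ χ ∈ B, ∀ ψ ∈ B, Cfsg.classInner (regPart p (χ : G → ℂ)) (ψ : G → ℂ)
      = (d χ : ℂ) * (d ψ : ℂ) * w := by
    intro χ hχ ψ hψ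
    rw [inner_reg_reg, hdφ χ hχ, hdφ ψ hψ, classInner_smul_left, classInner_smul_right]
    simp only [Complex.conj_natCast]
    ring
  have hcw : (∑ ψ ∈ s, (d ψ : ℂ) ^ 2) * w = 1 := by
    have h1 := contrib_parseval (p := p) χ₀
    rw [hm χ₀ hχ₀ χ₀ hχ₀] at h1
    have h2 : ∑ ψ : Cfsg.IrrCharacter G, Cfsg.classInner (regPart p (χ₀ : G → ℂ)) (ψ : G → ℂ)
        * conj (Cfsg.classInner (regPart p (χ₀ : G → ℂ)) (ψ : G → ℂ))
        = ∑ ψ ∈ s, ((d χ₀ : ℂ) * d ψ * w) * ((d χ₀ : ℂ) * d ψ * w) := by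
      rw [hs, Finset.sum_filter]
      apply Finset.sum_congr rfl
      intro ψ _
      by_cases hψ : ψ ∈ B
      · rw [if_pos hψ, hm χ₀ hχ₀ ψ hψ]; simp [hwc]
      · rw [if_neg hψ, contrib_eq_zero hM hB hχ₀ hψ]; simp
    rw [h2] at h1
    have hd₀ : (d χ₀ : ℂ) ≠ 0 := by exact_mod_cast hd0 χ₀ hχ₀
    have h3 : ((d χ₀ : ℂ) * d χ₀ * w) * ((∑ ψ ∈ s, (d ψ : ℂ) ^ 2) * w)
        = ((d χ₀ : ℂ) * d χ₀ * w) * 1 := by
      rw [mul_one]
      conv_rhs => rw [← h1]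
      rw [Finset.sum_mul, Finset.mul_sum]
      apply Finset.sum_congr rfl
      intro ψ _
      ring
    exact mul_left_cancel₀ (mul_ne_zero (mul_ne_zero hd₀ hd₀) hw0) h3
  set D := Cfsg.blockDefect p B with hD
  set c : ℕ := ∑ ψ ∈ s, d ψ ^ 2 with hc
  have hcc : (c : ℂ) * w = 1 := by rw [hc]; push_cast; exact hcw
  have hk : ∀ χ ∈ B, ∀ ψ ∈ B, ∃ k : ℤ, (p : ℂ) ^ D * ((d χ : ℂ) * d ψ * w) = k := by
    intro χ hχ ψ hψ
    obtain ⟨k, hk⟩ := Cfsg.Agent.S4666.exists_int_defect hM hB χ ψ hψ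
    exact ⟨k, by rw [← hm χ hχ ψ hψ]; exact hk⟩
  choose! k hk using hk
  have hK : (p : ℂ) ^ D * w = ((∑ χ ∈ s, ∑ ψ ∈ s, n χ * n ψ * k χ ψ : ℤ) : ℂ) := by
    push_cast
    have h1 : ∑ χ ∈ s, ∑ ψ ∈ s, (n χ : ℂ) * n ψ * k χ ψ
        = ∑ χ ∈ s, ∑ ψ ∈ s, ((n χ : ℂ) * d χ) * ((n ψ : ℂ) * d ψ) * ((p : ℂ) ^ D * w) := by
      apply Finset.sum_congr rfl; intro χ hχ
      apply Finset.sum_congr rfl; intro ψ hψ
      rw [← hk χ ((hmem χ).1 hχ) ψ ((hmem ψ).1 hψ)]; ring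
    rw [h1]
    simp_rw [← Finset.sum_mul]
    rw [← Finset.sum_mul_sum, hnd]
    ring
  set K : ℤ := ∑ χ ∈ s, ∑ ψ ∈ s, n χ * n ψ * k χ ψ with hKdef
  have hpK : ((p ^ D : ℕ) : ℤ) = K * c := by
    have : ((p ^ D : ℕ) : ℂ) = (K : ℂ) * c := by
      rw [← hK]
      push_cast
      calc (p : ℂ) ^ D = (p : ℂ) ^ D * ((c : ℂ) * w) := by rw [hcc, mul_one]
        _ = _ := by ring
    exact_mod_cast this
  have hdvd : c ∣ p ^ D := Int.natCast_dvd_natCast.1 ⟨K, by rw [hpK, mul_comm]⟩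
  obtain ⟨j, hjD, hcj⟩ := (Nat.dvd_prime_pow Fact.out).1 hdvd
  obtain ⟨χ₁, hχ₁, hχ₁0⟩ := exists_height_zero hB p
  have hht : Cfsg.blockHeight p B (χ₁ : G → ℂ) = 0 := by rw [Cfsg.blockHeight, hχ₁0]; simp
  obtain ⟨N, hN⟩ := exists_int_contrib (p := p) χ₁ χ₁
  obtain ⟨hN0, hNv⟩ := (contrib_val_iff hM χ₁ χ₁ hN).2
    (not_memLocalIdeal_Om_regCoeff hM hB hχ₁ hht)
  rw [hm χ₁ hχ₁ χ₁ hχ₁] at hN
  set a := (Nat.card G).factorization p with ha
  have hNc : ((p ^ a * d χ₁ ^ 2 : ℕ) : ℤ) = N * c := by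
    have : ((p ^ a * d χ₁ ^ 2 : ℕ) : ℂ) = (N : ℂ) * c := by
      rw [← hN]; push_cast
      calc (p : ℂ) ^ a * (d χ₁ : ℂ) ^ 2 = (p : ℂ) ^ a * (d χ₁ : ℂ) ^ 2 * ((c : ℂ) * w) := by
            rw [hcc, mul_one]
        _ = _ := by ring
    exact_mod_cast this
  have hNn : p ^ a * d χ₁ ^ 2 = N.natAbs * p ^ j := by
    have := congrArg Int.natAbs hNc
    rw [Int.natAbs_mul, Int.natAbs_natCast, Int.natAbs_natCast, hcj] at this
    exact this
  have hp : p.Prime := Fact.out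
  have hNa : N.natAbs ≠ 0 := Int.natAbs_ne_zero.2 hN0
  have hval := congrArg (fun m => m.factorization p) hNn
  rw [Nat.factorization_mul (pow_ne_zero _ hp.ne_zero) (pow_ne_zero _ (hd0 χ₁ hχ₁)),
    Nat.factorization_mul hNa (pow_ne_zero _ hp.ne_zero), Nat.factorization_pow,
    Nat.factorization_pow, Nat.factorization_pow] at hval
  simp only [Finsupp.coe_add, Finsupp.coe_smul, Pi.add_apply, Pi.smul_apply, smul_eq_mul,
    hp.factorization_self, mul_one] at hval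
  have h4 : padicValInt p N = N.natAbs.factorization p := by
    rw [padicValInt, Nat.factorization_def _ hp]
  have h5 := sInf_le_factorization_card hB p
  have hjD' : j = D := by
    rw [hD, Cfsg.blockDefect] at hjD ⊢
    omega
  have hfin : ∀ {R : Type} [AddCommMonoid R] (F : Cfsg.IrrCharacter G → R),
      ∑ᶠ ψ ∈ B, F ψ = ∑ ψ ∈ s, F ψ := by
    intro R _ F
    rw [← finsum_mem_coe_finset]
    apply finsum_congr
    intro ψ
    rw [hBs]
  have hregx : ∀ χ ∈ B, ∀ x : G, Cfsg.IsPRegular p x → (χ : G → ℂ) x = (d χ : ℂ) * φ x := by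
    intro χ hχ x hx
    have h1 := congrFun (hdφ χ hχ) x
    simp only [regPart, if_neg hx, Pi.smul_apply, smul_eq_mul] at h1
    exact h1
  refine ⟨φ, d, ⟨n, ?_⟩, hregx, ?_⟩
  · intro x hx
    rw [hfin]
    have h1 : ∑ ψ ∈ s, (n ψ : ℂ) * (ψ : G → ℂ) x = ∑ ψ ∈ s, ((n ψ : ℂ) * d ψ) * φ x := by
      apply Finset.sum_congr rfl
      intro ψ hψ
      rw [hregx ψ ((hmem ψ).1 hψ) x hx]; ring
    rw [h1, ← Finset.sum_mul, hnd, one_mul]
  · rw [hfin, ← hc, hcj, hjD', card_defectGroup hM hB hP]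

end Cfsg.Agent.S4675
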