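import Cfsg.Statements.S4681
import Cfsg.Agent.Lib.Helper24.BrauerPrincipal

set_option autoImplicit false
open Cfsg

namespace Cfsg.Agent.S4681

open Cfsg.Agent.Lib.Helper7 Cfsg.Agent.Lib.Helper24


/-- Fix a prime p and a maximal ideal M of the algebraic integers containing p. Let B₀ be the principal p-block of the finite group G, P a Sylow p-subgroup and e₀ the principal p-block of C_G(P). Then (P, e₀) is a maximal Brauer pair of B₀, and the fusion system of B₀ on (P, e₀) is the fusion system of G on P: its maps from each subgroup of P are exactly the conjugation maps into P by elements of G. -/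
theorem result {G : Type*} [Group G] [Fintype G] (p : ℕ) [Fact p.Prime] (M : Ideal Cfsg.AlgInt) (hM : Cfsg.IsPModular p M) (S : Sylow p G) : Cfsg.IsMaximalBrauerPair p M (Cfsg.principalBlock M G) (S : Subgroup G) (Cfsg.principalBlock M (Subgroup.centralizer ((S : Subgroup G) : Set G))) ∧ ∀ F : Cfsg.FusionSystem (S : Subgroup G), Cfsg.IsBlockFusionSystemOn p M (Cfsg.principalBlock M G) (S : Subgroup G) (Cfsg.principalBlock M (Subgroup.centralizer ((S : Subgroup G) : Set G))) F → ∀ Q : Subgroup G, F.Hom Q = (Cfsg.groupFusionSystem (S : Subgroup G)).Hom Q := by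
  classical
  have hS : IsPGroup p (S : Subgroup G) := S.isPGroup'
  refine ⟨⟨(isBrauerPairOf_principal_iff hM hS isPBlock_principalBlock).2 rfl, ?_⟩, ?_⟩
  · intro R g hR hle
    exact (S.is_maximal' hR.1.1 (le_of_subpairLE hle))
  · intro F hF Q
    ext φ
    rw [hF.2 Q φ]
    constructor
    · rintro ⟨hQS, g, hg, hQg, -⟩
      refine ⟨hQS, fun x => ?_, g, hg⟩
      rw [hg]
      exact hQg ⟨x, x.2, rfl⟩
    · rintro ⟨hQS, hφ, g, hg⟩
      have hQg : Q.map (MulAut.conj g).toMonoidHom ≤ (S : Subgroup G) := by
        rintro _ ⟨x, hx, rfl⟩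
        have := hφ ⟨x, hx⟩
        rw [hg] at this
        exact this
      refine ⟨hQS, g, hg, hQg, principalBlock M _, subpairLE_principal hM hS _ Q hQS rfl, ?_⟩
      rw [conjBlock_principal]
      exact subpairLE_principal hM hS _ _ hQg rfl

end Cfsg.Agent.S4681
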