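import Cfsg.Statements.S4683
import Cfsg.Agent.Lib.Helper24.BlockSubsec
import Cfsg.Agent.S0919

set_option autoImplicit false
open Cfsg

namespace Cfsg.Agent.S4683

open Cfsg.Agent.Lib.Helper7 Cfsg.Agent.Lib.Helper24
open scoped ComplexConjugate

theorem aux {G : Type*} [Group G] [Fintype G] (p : ℕ) [Fact p.Prime] (M : Ideal Cfsg.AlgInt)
    (hM : Cfsg.IsPModular p M) (B : Set (Cfsg.IrrCharacter G)) (u : G)
    (hu : ∃ k : ℕ, orderOf u = p ^ k) (H : Subgroup G)
    (hH : H = Subgroup.centralizer ({u} : Set G)) (e : Set (Cfsg.IrrCharacter H))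
    (he : IsPBlock M e) (hB : IsPBlock M B)
    (hom : ∀ ξ ∈ e, MemLocalIdeal M
      ((∑ᶠ x : H, blockCoeff B x * (ξ : H → ℂ) x / (ξ : H → ℂ) 1) - 1)) :
    ∑ᶠ χ ∈ B, ∑ᶠ s : H, Cfsg.pRegularPart p
        (Cfsg.blockPart e (fun c : H => (χ : G → ℂ) (u * c))) s
        * Cfsg.blockPart e (fun c : H => (χ : G → ℂ) (u⁻¹ * c)) s⁻¹
      = (Nat.card H : ℂ) * (Cfsg.blockRank p e : ℂ) := by
  classical
  subst hH
  haveI := hM.2.1.isPrime
  haveI := Fintype.ofFinite (IrrCharacter G)
  haveI := Fintype.ofFinite (Subgroup.centralizer ({u} : Set G))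
  have hxC : u ∈ Subgroup.centralizer ({u} : Set G) := mem_centralizer_singleton.2 rfl
  have hcz : Subgroup.centralizer ((Subgroup.zpowers u : Subgroup G) : Set G)
      = Subgroup.centralizer ({u} : Set G) := by
    rw [Subgroup.zpowers_eq_closure, Subgroup.centralizer_closure]
  have hdef : InducedBlockDefined M (Subgroup.centralizer ({u} : Set G)) e :=
    Cfsg.Agent.S0919.result p M hM (Subgroup.zpowers u) (Subgroup.centralizer ({u} : Set G))
      (isPGroup_zpowers hu) (Subgroup.zpowers_le.2 hxC) hcz.le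
      (hcz ▸ Subgroup.centralizer_le_normalizer _) _ he
  obtain ⟨B', hB'⟩ := hdef
  obtain ⟨ξ, hξ⟩ := isPBlock_nonempty he
  obtain ⟨χ', hχ'⟩ := isPBlock_nonempty hB'.2.1
  have hχ'B : χ' ∈ B := by
    by_contra hn
    have h1 := induced_congr hB' hξ hχ' (isClassFunction_blockCoeff B) (osima hB)
    rw [Om_blockCoeff, Set.indicator_of_notMem hn, sub_zero] at h1
    have h2 := hom ξ hξ
    rw [finsum_eq_sum_of_fintype, ← Finset.sum_div] at h2
    have h3 : MemLocalIdeal M (1 : ℂ) := by
      have := memLocalIdeal_sub h1 h2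
      simpa [Om, resH] using this
    exact not_memLocalIdeal_one h3
  have hBB' : B' = B := by
    rw [isPBlock_eq_blockOf hB'.2.1 hχ', ← isPBlock_eq_blockOf hB hχ'B]
  rw [hBB'] at hB'
  rw [← subsection_sum hM hu hB', finsum_mem_eq_sum_indicator]
  apply Finset.sum_congr rfl
  intro χ _
  congr 1
  ext χ
  rw [finsum_eq_sum_of_fintype]
  apply Finset.sum_congr rfl
  intro s _
  congr 1
  rw [← blockPart_conj_inv]
  congr 2
  ext c
  rw [← char_inv_eq_conj (isCharacter_of_irr χ.2)]
  congr 1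
  have h1 := commute_of_mem_centralizer c
  have h2 : u⁻¹ * (c : G) = (c : G) * u⁻¹ := by
    have : u⁻¹ * (u * (c : G)) * u⁻¹ = u⁻¹ * ((c : G) * u) * u⁻¹ := by rw [h1]
    simpa [mul_assoc] using this.symm
  rw [h2]
  simp


/-- Fix a prime p and a maximal ideal M of the algebraic integers containing p, a p-block B of the finite group G, a p-element u and a p-block e of C = C_G(u) such that (⟨u⟩, e) is a Brauer pair of B (a Brauer element of B). For χ ∈ B let χ_u be the e-part of the class function c ↦ χ(u c) on C and χ_u' the e-part of c ↦ χ(u⁻¹ c). Then the sum over χ ∈ B and over the p-regular elements s of C of χ_u(s)·χ_u'(s⁻¹) equals the order of C times the p-regular rank of e (the number of irreducible Brauer characters of e). -/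
theorem result {G : Type*} [Group G] [Fintype G] (p : ℕ) [Fact p.Prime] (M : Ideal Cfsg.AlgInt) (hM : Cfsg.IsPModular p M) (B : Set (Cfsg.IrrCharacter G)) (u : G) (hu : ∃ k : ℕ, orderOf u = p ^ k) (e : Set (Cfsg.IrrCharacter (Subgroup.centralizer (Subgroup.zpowers u : Set G)))) (hBe : Cfsg.IsBrauerPairOf p M B (Subgroup.zpowers u) e) : ∑ᶠ χ ∈ B, ∑ᶠ s : Subgroup.centralizer (Subgroup.zpowers u : Set G), Cfsg.pRegularPart p (Cfsg.blockPart e (fun c : Subgroup.centralizer (Subgroup.zpowers u : Set G) => (χ : G → ℂ) (u * c))) s * Cfsg.blockPart e (fun c : Subgroup.centralizer (Subgroup.zpowers u : Set G) => (χ : G → ℂ) (u⁻¹ * c)) s⁻¹ = (Nat.card (Subgroup.centralizer (Subgroup.zpowers u : Set G)) : ℂ) * (Cfsg.blockRank p e : ℂ) := by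
  have hcz : Subgroup.centralizer ((Subgroup.zpowers u : Subgroup G) : Set G)
      = Subgroup.centralizer ({u} : Set G) := by
    rw [Subgroup.zpowers_eq_closure, Subgroup.centralizer_closure]
  exact aux p M hM B u hu _ hcz e hBe.1.2 hBe.2.1 hBe.2.2

end Cfsg.Agent.S4683
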