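import Cfsg.Statements.S4691
import Cfsg.Agent.Lib.Helper24.BrauerPrincipal
import Cfsg.Agent.S0071

set_option autoImplicit false
open Cfsg

namespace Cfsg.Agent.S4691

open Cfsg.Agent.Lib.Helper7 Cfsg.Agent.Lib.Helper24


/-- Fix a prime p and a maximal ideal M of the algebraic integers containing p. A finite group G has a normal p-complement if and only if its principal p-block is nilpotent. -/
theorem result {G : Type*} [Group G] [Fintype G] (p : ℕ) [Fact p.Prime] (M : Ideal Cfsg.AlgInt) (hM : Cfsg.IsPModular p M) : Cfsg.HasNormalPComplement p G ↔ Cfsg.IsNilpotentBlock p M (Cfsg.principalBlock M G) := by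
  classical
  haveI := hM.2.1.isPrime
  have hp : p.Prime := hM.1
  constructor
  · rintro ⟨P, N, hN, hc⟩
    haveI := hN
    refine ⟨isPBlock_principalBlock, fun Q e hQe x hxN _ hxreg => ?_⟩
    exact Cfsg.Agent.Lib.Helper13.centralizes_of_npc N
      (Cfsg.Agent.Lib.Helper13.card_coprime_of_isComplement' hc)
      (Cfsg.Agent.Lib.Helper13.isPGroup_quotient_of_isComplement' hc) Q hQe.1.1 x hxN
      ((Nat.Prime.coprime_iff_not_dvd hp).mpr hxreg).symm
  · intro hnil
    obtain ⟨P⟩ : Nonempty (Sylow p G) := inferInstance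
    obtain ⟨N, hN, hc⟩ := (Cfsg.Agent.S0071.result P).2 (fun Q hQ g hg hgo =>
      hnil.2 Q (principalBlock M _)
        ((isBrauerPairOf_principal_iff hM (P.2.to_le hQ) isPBlock_principalBlock).2 rfl) g hg
        (stabilizesBlock_principal _ g (normalizer_le_normalizer_centralizer Q hg))
        (fun hd => hp.one_lt.ne' (Nat.dvd_one.1 (hgo ▸ Nat.dvd_gcd hd (dvd_refl p)))))
    exact ⟨P, N, hN, hc⟩

end Cfsg.Agent.S4691
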