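import Cfsg.Statements.S4708
import Cfsg.Agent.Lib.Helper1.RegTools
import Cfsg.Agent.Lib.Helper25.CliffordCorr

set_option autoImplicit false
open Cfsg

namespace Cfsg.Agent.S4708

open Cfsg.Agent.Lib.Helper1 Cfsg.Agent.Lib.Helper7 Cfsg.Agent.Lib.Helper24
open scoped ComplexConjugate

theorem sum_sq_le {ι : Type*} (s : Finset ι) (a : ι → ℕ) :
    ∑ i ∈ s, a i ^ 2 ≤ (∑ i ∈ s, a i) ^ 2 := by
  rw [sq, Finset.sum_mul]
  apply Finset.sum_le_sum
  intro i hi
  rw [sq]
  exact Nat.mul_le_mul_left _ (Finset.single_le_sum (f := a) (fun _ _ => Nat.zero_le _) hi)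

theorem finsum_mem_eq {α : Type*} [Fintype α] (S : Set α) [DecidablePred (· ∈ S)] (f : α → ℕ) :
    ∑ᶠ x ∈ S, f x = ∑ x ∈ Finset.univ.filter (· ∈ S), f x := by
  rw [← finsum_mem_coe_finset]
  congr 1
  funext x
  simp

/-- Let p be a prime, M a maximal ideal of the algebraic integers containing p, G a finite group and H a normal subgroup. Write λ(X) for the sum of the squares of the degrees of the irreducible characters in the principal p-block of a group X. Then λ(H) ≤ λ(G) ≤ [G : H]·λ(H). -/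
theorem result {G : Type*} [Group G] [Finite G] (p : ℕ) [Fact p.Prime] (M : Ideal Cfsg.AlgInt) (hM : Cfsg.IsPModular p M) (H : Subgroup G) [H.Normal] : (∑ᶠ θ ∈ Cfsg.principalBlock M H, Cfsg.charDegree (θ : H → ℂ) ^ 2) ≤ (∑ᶠ χ ∈ Cfsg.principalBlock M G, Cfsg.charDegree (χ : G → ℂ) ^ 2) ∧ (∑ᶠ χ ∈ Cfsg.principalBlock M G, Cfsg.charDegree (χ : G → ℂ) ^ 2) ≤ H.index * ∑ᶠ θ ∈ Cfsg.principalBlock M H, Cfsg.charDegree (θ : H → ℂ) ^ 2 := by
  classical
  haveI := Fintype.ofFinite G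
  haveI : Fintype H := Fintype.ofFinite _
  haveI : Fintype (Cfsg.IrrCharacter G) := Fintype.ofFinite _
  haveI : Fintype (Cfsg.IrrCharacter H) := Fintype.ofFinite _
  have hres : ∀ χ : Cfsg.IrrCharacter G, ∃ m : Cfsg.IrrCharacter H → ℕ,
      (∀ θ : Cfsg.IrrCharacter H, Cfsg.classInner (fun h : H => (χ : G → ℂ) h) (θ : H → ℂ) = m θ) ∧
      (fun h : H => (χ : G → ℂ) h) = ∑ θ : Cfsg.IrrCharacter H, m θ • (θ : H → ℂ) := fun χ =>
    character_eq_sum_nat (isCharacter_restrict (Cfsg.Agent.Lib.Helper7.isCharacter_of_irr χ.2) H)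
  choose m hm hmsum using hres
  let dG : Cfsg.IrrCharacter G → ℕ := fun χ => Cfsg.charDegree (χ : G → ℂ)
  let dH : Cfsg.IrrCharacter H → ℕ := fun θ => Cfsg.charDegree (θ : H → ℂ)
  have hdG : ∀ χ, (dG χ : ℂ) = (χ : G → ℂ) 1 := fun χ =>
    charDegree_cast (Cfsg.Agent.Lib.Helper7.isCharacter_of_irr χ.2)
  have hdH : ∀ θ, (dH θ : ℂ) = (θ : H → ℂ) 1 := fun θ =>
    charDegree_cast (Cfsg.Agent.Lib.Helper7.isCharacter_of_irr θ.2)
  have hdeg : ∀ χ, dG χ = ∑ θ, m χ θ * dH θ := by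
    intro χ
    have h1 := congrFun (hmsum χ) 1
    rw [Finset.sum_apply] at h1
    simp only [Pi.smul_apply, nsmul_eq_mul, OneMemClass.coe_one] at h1
    have h2 : (dG χ : ℂ) = ((∑ θ, m χ θ * dH θ : ℕ) : ℂ) := by
      rw [hdG, h1]
      push_cast
      exact Finset.sum_congr rfl (fun θ _ => by rw [hdH])
    exact_mod_cast h2
  have hind : ∀ θ, ∑ χ, m χ θ * dG χ = H.index * dH θ := by
    intro θ
    obtain ⟨k, hk, hksum⟩ := character_eq_sum_nat
      (Cfsg.Agent.Lib.Helper25.isCharacter_indFun H (θ : H → ℂ)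
        (Cfsg.Agent.Lib.Helper7.isCharacter_of_irr θ.2))
    have hkm : ∀ χ, k χ = m χ θ := by
      intro χ
      have h1 := hk χ
      rw [Cfsg.Agent.Lib.Helper25.frobenius_reciprocity H _ _ (isClassFunction_irr χ),
        ← Cfsg.Agent.Lib.Helper7.classInner_conj_symm, hm, Complex.conj_natCast] at h1
      exact_mod_cast h1.symm
    have h1 := congrFun hksum 1
    rw [Finset.sum_apply, Cfsg.Agent.Lib.Helper25.indFun_one] at h1
    simp only [Pi.smul_apply, nsmul_eq_mul] at h1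
    have h2 : ((∑ χ, m χ θ * dG χ : ℕ) : ℂ) = ((H.index * dH θ : ℕ) : ℂ) := by
      push_cast
      rw [hdH, h1]
      exact Finset.sum_congr rfl (fun χ _ => by rw [hdG, hkm])
    exact_mod_cast h2
  rw [finsum_mem_eq, finsum_mem_eq]
  set BG := Finset.univ.filter (· ∈ Cfsg.principalBlock M G) with hBG
  set BH := Finset.univ.filter (· ∈ Cfsg.principalBlock M H) with hBH
  constructor
  · -- lower bound
    have hex : ∀ θ : Cfsg.IrrCharacter H, ∃ χ : Cfsg.IrrCharacter G,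
        θ ∈ BH → χ ∈ BG ∧ m χ θ ≠ 0 := by
      intro θ
      by_cases hθ : θ ∈ BH
      · obtain ⟨χ, hχ, hcon⟩ := ad_F2 (G := G) hM H (Finset.mem_filter.1 hθ).2
        refine ⟨χ, fun _ => ⟨Finset.mem_filter.2 ⟨Finset.mem_univ _, hχ⟩, ?_⟩⟩
        intro h0
        apply hcon
        rw [hm, h0, Nat.cast_zero]
      · exact ⟨oneIrr G, fun h => absurd h hθ⟩
    choose f hf using hex
    rw [← Finset.sum_fiberwise_of_maps_to (s := BH) (t := BG) (g := f) (fun θ hθ => (hf θ hθ).1)]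
    apply Finset.sum_le_sum
    intro χ _
    calc ∑ θ ∈ BH.filter (fun θ => f θ = χ), Cfsg.charDegree (θ : H → ℂ) ^ 2
        ≤ ∑ θ ∈ BH.filter (fun θ => f θ = χ), (m χ θ * dH θ) ^ 2 := by
          apply Finset.sum_le_sum
          intro θ hθ
          obtain ⟨h1, h2⟩ := Finset.mem_filter.1 hθ
          have h3 := (hf θ h1).2
          rw [h2] at h3
          exact Nat.pow_le_pow_left (Nat.le_mul_of_pos_left _ (Nat.pos_of_ne_zero h3)) 2
      _ ≤ ∑ θ, (m χ θ * dH θ) ^ 2 :=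
          Finset.sum_le_sum_of_subset (Finset.subset_univ _)
      _ ≤ (∑ θ, m χ θ * dH θ) ^ 2 := sum_sq_le _ _
      _ = Cfsg.charDegree (χ : G → ℂ) ^ 2 := by rw [← hdeg]
  · -- upper bound
    have h1 : ∀ χ ∈ BG, Cfsg.charDegree (χ : G → ℂ) ^ 2 = ∑ θ ∈ BH, dH θ * (m χ θ * dG χ) := by
      intro χ hχ
      have h2 : dG χ = ∑ θ ∈ BH, m χ θ * dH θ := by
        rw [hdeg χ]
        symm
        apply Finset.sum_subset (Finset.subset_univ _)
        intro θ _ hθ
        have h3 : m χ θ = 0 := by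
          by_contra h0
          apply hθ
          refine Finset.mem_filter.2 ⟨Finset.mem_univ _, ?_⟩
          apply ad_F1 hM H (Finset.mem_filter.1 hχ).2
          rw [hm]
          exact_mod_cast h0
        rw [h3, zero_mul]
      show dG χ ^ 2 = _
      rw [sq]
      calc dG χ * dG χ = (∑ θ ∈ BH, m χ θ * dH θ) * dG χ := by rw [← h2]
        _ = ∑ θ ∈ BH, dH θ * (m χ θ * dG χ) := by
          rw [Finset.sum_mul]
          apply Finset.sum_congr rfl
          intro θ _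
          ring
    rw [Finset.sum_congr rfl h1, Finset.sum_comm, Finset.mul_sum]
    apply Finset.sum_le_sum
    intro θ _
    rw [← Finset.mul_sum]
    calc dH θ * ∑ χ ∈ BG, m χ θ * dG χ ≤ dH θ * ∑ χ, m χ θ * dG χ :=
          Nat.mul_le_mul_left _ (Finset.sum_le_sum_of_subset (Finset.subset_univ _))
      _ = H.index * Cfsg.charDegree (θ : H → ℂ) ^ 2 := by
          rw [hind]
          show dH θ * (H.index * dH θ) = H.index * dH θ ^ 2
          ring

end Cfsg.Agent.S4708
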