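import Cfsg.Statements.S4709
import Cfsg.Agent.Lib.Helper2.BFree6

set_option autoImplicit false
open Cfsg

namespace Cfsg.Agent.S4709

open Cfsg.Agent.Lib.Helper2

/-- Let p be a prime, M a maximal ideal of the algebraic integers containing p, and G a finite group with a nontrivial abelian Sylow p-subgroup P; put N = N_G(P), C = C_G(P). Suppose N/C is cyclic of order m with 1 < m < #P − 1 (C has index m in N and N is generated by C and one element), and C_G(y) ∩ N = C for every non-identity y ∈ P. Put r = (#P − 1)/m. Then there is s ≤ m such that the principal p-block is the disjoint union of a set X of s characters containing the principal character and a set Y of r characters, with integers a_χ ≠ 0 (χ ∈ X), d and a sign δ = ±1, such that: every χ ∈ X takes the value a_χ at every element whose p-part is a non-identity element of P; there is a map ζ from the non-principal linear characters ψ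 of P onto Y, constant on N-conjugacy classes, with ζ_ψ(z) = d + δ·Σ ψ'(y) for every z whose p-part y is a non-identity element of P, the sum running over the N-conjugates ψ' of ψ; (d − δ)^2 + (r − 1) d^2 + Σ_{χ ∈ X} a_χ^2 = m + 1; all members of Y agree on p-regular elements; and (r d − δ) η(g) + Σ_{χ ∈ X} a_χ χ(g) = 0 for every η ∈ Y and every p-regular g. -/
theorem result {G : Type*} [Group G] [Finite G] (p : ℕ) [Fact p.Prime] (M : Ideal Cfsg.AlgInt) (hM : Cfsg.IsPModular p M) (P : Sylow p G) (hab : IsMulCommutative P) (hP1 : Nat.card P ≠ 1) (m : ℕ) (hm1 : 1 < m) (hm2 : m + 1 < Nat.card P) (hCN : (Subgroup.centralizer ((P : Subgroup G) : Set G)).relIndex (Subgroup.normalizer ((P : Subgroup G) : Set G)) = m) (hcyc : ∃ g : G, g ∈ Subgroup.normalizer ((P : Subgroup G) : Set G) ∧ Subgroup.centralizer ((P : Subgroup G) : Set G) ⊔ Subgroup.zpowers g = Subgroup.normalizer ((P : Subgroup G) : Set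 G)) (hfrob : ∀ y : G, y ∈ (P : Subgroup G) → y ≠ 1 → Subgroup.centralizer ({y} : Set G) ⊓ Subgroup.normalizer ((P : Subgroup G) : Set G) = Subgroup.centralizer ((P : Subgroup G) : Set G)) : ∃ (s : ℕ) (X Y : Set (Cfsg.IrrCharacter G)), s ≤ m ∧ Cfsg.principalBlock M G = X ∪ Y ∧ Disjoint X Y ∧ Nat.card X = s ∧ Nat.card Y = (Nat.card P - 1) / m ∧ (∃ χ₁ ∈ X, (χ₁ : G → ℂ) = fun _ => 1) ∧ ∃ (a : Cfsg.IrrCharacter G → ℤ) (d δ : ℤ) (ζ : (↥(P : Subgroup G) →* ℂˣ) → Cfsg.IrrCharacter G), (δ = 1 ∨ δ = -1) ∧ (∀ χ ∈ X, a χ ≠ 0 ∧ ∀ z y : G, Cfsg.IsPPart p z y → y ∈ (P : Subgroup G) → y ≠ 1 → (χ : G → ℂ) z = (a χ : ℂ)) ∧ (∀ ψ : ↥(P : Subgroup G) →* ℂˣ, ψ ≠ 1 → ζ ψ ∈ Y) ∧ (∀ η ∈ Y, ∃ ψ : ↥(P : Subgroup G) →* ℂˣ, ψ ≠ 1 ∧ ζ ψ = η) ∧ (∀ ψ ψ' : ↥(P : Subgroup G) →* ℂˣ, ψ ≠ 1 → (∃ n : G, n ∈ Subgroup.normalizer ((P : Subgroup G) : Set G) ∧ ∀ w w' : ↥(P : Subgroup G), (w' : G) = n * w * n⁻¹ → ψ' w' = ψ w) → ζ ψ' =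 ζ ψ) ∧ (∀ ψ : ↥(P : Subgroup G) →* ℂˣ, ψ ≠ 1 → ∀ (z : G) (y : ↥(P : Subgroup G)), Cfsg.IsPPart p z (y : G) → (y : G) ≠ 1 → (ζ ψ : G → ℂ) z = (d : ℂ) + (δ : ℂ) * ∑ᶠ ψ' ∈ {ψ' : ↥(P : Subgroup G) →* ℂˣ | ∃ n : G, n ∈ Subgroup.normalizer ((P : Subgroup G) : Set G) ∧ ∀ w w' : ↥(P : Subgroup G), (w' : G) = n * w * n⁻¹ → ψ' w' = ψ w}, ((ψ' y : ℂˣ) : ℂ)) ∧ ((d - δ) ^ 2 + ((Nat.card P - 1) / m - 1 : ℤ) * d ^ 2 + ∑ᶠ χ ∈ X, a χ ^ 2 = (m : ℤ) + 1) ∧ (∀ η ∈ Y, ∀ η' ∈ Y, ∀ g : G, ¬ p ∣ orderOf g → (η : G → ℂ) g = (η' : G → ℂ) g) ∧ (∀ η ∈ Y, ∀ g : G, ¬ p ∣ orderOf g → ((((Nat.card P - 1) / m : ℕ) : ℂ) * d - δ) * (η : G → ℂ) g + ∑ᶠ χ ∈ X, (a χ : ℂ) * (χ : G → ℂ) g = 0) := by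
  classical
  have h : FreeHyp P m := by
    refine ⟨fun a ha b hb => ?_, hP1, hCN, hfrob⟩
    have := mul_comm' (⟨a, ha⟩ : ↥(P : Subgroup G)) ⟨b, hb⟩
    exact congrArg Subtype.val this
  obtain ⟨ε, d, ζ, D, X, Y, hε, hB, hdisj, hmemY, hcard, hζ, hone, hX, hYv, hnorm, hYreg, hrel⟩ :=
    h.core hM hm2
  have hm0 : 0 < m := by omega
  have hr : (Nat.card P - 1) / m = Y.card := by
    rw [← hcard, Nat.add_sub_cancel, Nat.mul_div_cancel _ hm0]
  have hrZ : (((Nat.card P : ℤ) - 1) / (m : ℤ)) = (Y.card : ℤ) := by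
    rw [← hcard]
    push_cast
    rw [add_sub_cancel_right, Int.mul_ediv_cancel _ (by exact_mod_cast hm0.ne')]
  have hY2 : 2 ≤ Y.card := by
    by_contra hlt
    have h1 : Y.card ≤ 1 := by omega
    have h2 : Y.card * m ≤ 1 * m := Nat.mul_le_mul_right m h1
    omega
  have hε2 : ε * ε = 1 := by rcases hε with h0 | h0 <;> rw [h0] <;> norm_num
  refine ⟨X.card, ↑X, ↑Y, ?_, ?_, ?_, ?_, ?_, ?_, D, d, ε, ζ, hε, ?_, ?_, ?_, ?_, ?_, ?_, ?_, ?_⟩
  · -- `s ≤ m`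
    have h1 : (X.card : ℤ) ≤ ∑ χ ∈ X, D χ ^ 2 := by
      rw [Finset.card_eq_sum_ones]
      push_cast
      apply Finset.sum_le_sum
      intro χ hχ
      have := (hX χ hχ).1
      have h2 : 0 < D χ ^ 2 := by positivity
      omega
    have h2 : (1 : ℤ) ≤ (d - ε) ^ 2 + ((Y.card : ℤ) - 1) * d ^ 2 := by
      by_cases hd : d = 0
      · rw [hd]
        have : (0 - ε) ^ 2 = 1 := by linear_combination hε2
        rw [this]; norm_num
      · have h3 : 0 < d ^ 2 := by positivity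
        have h4 : (1 : ℤ) ≤ (Y.card : ℤ) - 1 := by
          have : (2 : ℤ) ≤ (Y.card : ℤ) := by exact_mod_cast hY2
          linarith
        nlinarith [sq_nonneg (d - ε)]
    have h3 : (d - ε) ^ 2 + ((Y.card : ℤ) - 1) * d ^ 2 + ∑ χ ∈ X, D χ ^ 2 = m + 1 := by
      linear_combination hnorm + hε2
    have : (X.card : ℤ) ≤ m := by linarith
    exact_mod_cast this
  · ext χ
    rw [hB χ]
    simp
  · exact_mod_cast hdisj
  · simp
  · rw [hr]; simp
  · exact ⟨Cfsg.Agent.Lib.Helper24.oneIrr G, by exact_mod_cast (hone _ rfl).1, rfl⟩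
  · intro χ hχ
    exact hX χ (by exact_mod_cast hχ)
  · intro ψ hψ
    exact_mod_cast (hmemY _).2 ⟨ψ, hψ, rfl⟩
  · intro η hη
    exact (hmemY η).1 (by exact_mod_cast hη)
  · intro ψ ψ' hψ hc
    have hc' : NConj (P : Subgroup G) ψ ψ' := hc
    exact ((hζ ψ ψ' hψ (hc'.ne_one hψ)).2 hc').symm
  · intro ψ hψ z y hz hy
    exact hYv ψ hψ z y hz hy
  · rw [finsum_mem_coe_finset, hrZ]
    linear_combination hnorm + hε2
  · intro η hη η' hη' g hg
    exact hYreg η (by exact_mod_cast hη) η' (by exact_mod_cast hη') g hg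
  · intro η hη g hg
    rw [finsum_mem_coe_finset, hr]
    have := hrel η (by exact_mod_cast hη) g hg
    linear_combination this

end Cfsg.Agent.S4709
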