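import Cfsg.Statements.S4714
import Cfsg.Agent.Lib.Helper24.CanonE

set_option autoImplicit false
open Cfsg

namespace Cfsg.Agent.S4714

open Cfsg.Agent.Lib.Helper7 Cfsg.Agent.Lib.Helper24


/-- Let p be a prime, M a maximal ideal of the algebraic integers containing p, D a p-subgroup of the finite group G with G = D·C_G(D), and B a p-block with defect group D. Let χ be a member of B having D in its kernel (there is exactly one, the canonical character of B). Then the irreducible characters in B are exactly the functions θ on G for which there is an irreducible character ζ of D such that θ(yx) = ζ(y)χ(x) whenever y ∈ D, x has order prime to p and x commutes with y, and θ(z) = 0 whenever the p-part of z does not lie in D. -/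
theorem result {G : Type*} [Group G] [Finite G] (p : ℕ) [Fact p.Prime] (M : Ideal Cfsg.AlgInt) (hM : Cfsg.IsPModular p M) (D : Subgroup G) (hD : IsPGroup p D) (hG : D ⊔ Subgroup.centralizer (D : Set G) = ⊤) (B : Set (Cfsg.IrrCharacter G)) (hB : Cfsg.IsPBlock M B) (hBD : Cfsg.IsDefectGroup p M B D) (χ : Cfsg.IrrCharacter G) (hχ : χ ∈ B) (hχD : ∀ y ∈ D, (χ : G → ℂ) y = (χ : G → ℂ) 1) : (∀ θ : Cfsg.IrrCharacter G, θ ∈ B ↔ ∃ ζ : Cfsg.IrrCharacter D, (∀ (y : D) (x : G), ¬ p ∣ orderOf x → Commute (y : G) x → (θ : G → ℂ) ((y : G) * x) = (ζ : D → ℂ) y * (χ : G → ℂ) x) ∧ (∀ z : G, (∀ y : G, Cfsg.IsPPart p z y → y ∉ D) → (θ : G → ℂ) z = 0)) ∧ ∀ ζ : Cfsg.IrrCharacter D, ∃ θ ∈ B, (∀ (y : D) (x : G), ¬ p ∣ orderOf x → Commute (y : G) x → (θ : G → ℂ) ((y : G) * x) = (ζ : D → ℂ) y * (χ : G → ℂ) x) ∧ (∀ z : G, (∀ y : G, Cfsg.IsPPart p z y → y ∉ D) → (θ : G → ℂ) z = 0) := by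
  classical
  haveI := Fintype.ofFinite G
  haveI : Fintype D := Fintype.ofFinite _
  haveI := hM.2.1.isPrime
  haveI := normal_of_sup_centralizer hG
  have hp : p.Prime := hM.1
  have hvan : ∀ θ ∈ B, ∀ z : G, (∀ y : G, Cfsg.IsPPart p z y → y ∉ D) → (θ : G → ℂ) z = 0 := by
    intro θ hθ z hz
    obtain ⟨y, hy⟩ := exists_pPart hp z
    exact vanish_of_normal_defect hM hB hBD hθ z y hy (hz y hy)
  refine ⟨fun θ => ⟨fun hθ => ?_, ?_⟩, fun ζ => ?_⟩
  · obtain ⟨ζ, hζ⟩ := exists_constituent_res D θ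
    exact ⟨ζ, fun y x hx _ => canonical_forward hM hG hB hBD hχ hχD hθ hζ y x hx, hvan θ hθ⟩
  · rintro ⟨ζ, hζ, -⟩
    rw [isPBlock_eq_blockOf hB hχ, mem_blockOf]
    apply sameBlock_of_regular hM
    intro g hg
    have h1 := hζ 1 g hg (by simp)
    have hp1 : ¬ p ∣ orderOf (1 : G) := by
      rw [orderOf_one, Nat.dvd_one]
      exact hp.one_lt.ne'
    have h2 := hζ 1 1 hp1 (by simp)
    simp only [OneMemClass.coe_one, one_mul] at h1 h2
    have h0 := irr_apply_one_ne_zero ζ.2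
    have h3 := irr_apply_one_ne_zero χ.2
    have : Cfsg.centralChar (χ : G → ℂ) g - Cfsg.centralChar (θ : G → ℂ) g = 0 := by
      rw [Cfsg.centralChar, Cfsg.centralChar, h1, h2]
      field_simp
      ring
    rw [this]
    exact memLocalIdeal_zero
  · obtain ⟨η, hη, hζ⟩ := exists_over_of_block hM hD hB ζ
    exact ⟨η, hη, fun y x hx _ => canonical_forward hM hG hB hBD hχ hχD hη hζ y x hx, hvan η hη⟩

end Cfsg.Agent.S4714
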