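import Cfsg.Statements.S4717
import Cfsg.Agent.Lib.Helper24.BlockBrDecomp
import Cfsg.Agent.Lib.Helper24.BlockThird
import Cfsg.Agent.Lib.Helper7.BlockFirst3

set_option autoImplicit false
open Cfsg

namespace Cfsg.Agent.S4717


open Cfsg.Agent.Lib.Helper7 Cfsg.Agent.Lib.Helper24

theorem defect_le_of_induced {G : Type*} [Group G] [Finite G] {p : ℕ} {M : Ideal Cfsg.AlgInt}
    (hM : Cfsg.IsPModular p M) {H : Subgroup G} {b : Set (Cfsg.IrrCharacter H)}
    {B : Set (Cfsg.IrrCharacter G)} (hind : Cfsg.IsInducedBlock M H b B) :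
    Cfsg.blockDefect p b ≤ Cfsg.blockDefect p B := by
  obtain ⟨Db, hDb⟩ := exists_defectGroup hM hind.1
  obtain ⟨E, hE, hDE⟩ := defectGroup_induced_le hM hind hDb
  have h1 := card_defectGroup hM hind.1 hDb
  have h2 := card_defectGroup hM hind.2.1 hE
  have h3 : Nat.card Db ≤ Nat.card E := by
    rw [← Subgroup.card_map_of_injective H.subtype_injective]
    exact Subgroup.card_le_of_le hDE
  rw [h1, h2] at h3
  exact (Nat.pow_le_pow_iff_right hM.1.one_lt).1 h3



/-- Let p be a prime, M a maximal ideal of the algebraic integers containing p, and r a natural number; say that a finite group X has deficiency class r when X has no non-principal p-block of defect ≥ r. If G has deficiency class r then so does the centralizer of every p-element of G; conversely, if r > 0 and the centralizer of every element of order p has deficiency class r, then G has deficiency class r. -/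
theorem result {G : Type*} [Group G] [Finite G] (p : ℕ) [Fact p.Prime] (M : Ideal Cfsg.AlgInt) (hM : Cfsg.IsPModular p M) (r : ℕ) : ((∀ B' : Set (Cfsg.IrrCharacter G), Cfsg.IsPBlock M B' → B' ≠ Cfsg.principalBlock M G → Cfsg.blockDefect p B' < r) → ∀ y : G, (∃ k : ℕ, orderOf y = p ^ k) → (∀ B' : Set (Cfsg.IrrCharacter ↥(Subgroup.centralizer ({y} : Set G))), Cfsg.IsPBlock M B' → B' ≠ Cfsg.principalBlock M ↥(Subgroup.centralizer ({y} : Set G)) → Cfsg.blockDefect p B' < r)) ∧ (0 < r → (∀ y : G, orderOf y = p → (∀ B' : Set (Cfsg.IrrCharacter ↥(Subgroup.centralizer ({y} : Set G))), Cfsg.IsPBlock M B' → B' ≠ Cfsg.principalBlock M ↥(Subgroup.centralizer ({y} : Set G)) → Cfsg.blockDefect p B' < r)) → (∀ B' : Set (Cfsg.IrrCharacter G), Cfsg.IsPBlock M B' → B' ≠ Cfsg.principalBlock M G → Cfsg.blockDefect p B' < r)) := by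
  classical
  haveI := hM.2.1.isPrime
  haveI := Fintype.ofFinite G
  constructor
  · intro hG y hy b hb hbne
    obtain ⟨B, hind⟩ := inducedBlockDefined_centralizer hM hy hb
    have hBne : B ≠ Cfsg.principalBlock M G := by
      intro h
      exact hbne ((Cfsg.Agent.Lib.Helper24.third_main hM _ hind).1 h)
    exact lt_of_le_of_lt (defect_le_of_induced hM hind) (hG B hind.2.1 hBne)
  · intro hr hC B hB hBne
    by_contra hcon
    have hrB : r ≤ Cfsg.blockDefect p B := Nat.le_of_not_lt hcon
    obtain ⟨D, hD⟩ := exists_defectGroup hM hB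
    have hDp := isPGroup_of_defectGroup hM hB hD
    have hDcard := card_defectGroup hM hB hD
    have hD1 : D ≠ ⊥ := by
      rintro rfl
      have := defect_zero_of_bot hM hB hD
      omega
    obtain ⟨z, hzD, hzp, hzc⟩ := exists_central_order_p hDp hD1
    obtain ⟨g0, hg0, Q, hQ⟩ := id hD
    have hDg0 : D ≤ Subgroup.centralizer ({g0} : Set G) := by
      rw [hQ]; exact map_subtype_le _ _
    have hzk : ∃ k : ℕ, orderOf z = p ^ k := ⟨1, by rw [hzp, pow_one]⟩
    have hP : IsPGroup p (Subgroup.zpowers z) := isPGroup_zpowers hzk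
    have hPH : Subgroup.zpowers z ≤ Subgroup.centralizer ({z} : Set G) := by
      rw [Subgroup.zpowers_le, Subgroup.mem_centralizer_singleton_iff]
    have hCH : Subgroup.centralizer ((Subgroup.zpowers z : Subgroup G) : Set G)
        ≤ Subgroup.centralizer ({z} : Set G) := by
      rw [centralizer_zpowers_eq]
    have hHN : Subgroup.centralizer ({z} : Set G)
        ≤ Subgroup.normalizer ((Subgroup.zpowers z : Subgroup G) : Set G) := by
      rw [← centralizer_zpowers_eq]
      exact centralizer_le_normalizer' _
    have hg0C : g0 ∈ Subgroup.centralizer ({z} : Set G) := by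
      have := hDg0 hzD
      rw [Subgroup.mem_centralizer_singleton_iff] at this ⊢
      exact this.symm
    obtain ⟨b, hind, hbk⟩ := exists_induced_blockCoeff hM hP hPH hCH hHN hB
      (k := ⟨g0, hg0C⟩) (by rw [centralizer_zpowers_eq]; exact hg0C) hg0.2.1
    have hDC : D ≤ Subgroup.centralizer ({z} : Set G) := by
      intro w hw
      rw [Subgroup.mem_centralizer_singleton_iff]
      exact (hzc w hw).symm
    have hD' : IsPGroup p (D.subgroupOf (Subgroup.centralizer ({z} : Set G))) :=
      hDp.of_equiv (Subgroup.subgroupOfEquivOfLe hDC).symm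
    obtain ⟨Db, hDb, hle⟩ := exists_defectGroup_ge_of_blockCoeff hM hind.1 hbk
      (D.subgroupOf (Subgroup.centralizer ({z} : Set G))) hD' (by
        intro w hw
        rw [Subgroup.mem_subgroupOf] at hw
        have := hDg0 hw
        rw [Subgroup.mem_centralizer_singleton_iff] at this ⊢
        exact Subtype.ext this)
    have h1 := card_defectGroup hM hind.1 hDb
    have h2 : Nat.card D ≤ Nat.card Db := by
      rw [← Nat.card_congr (Subgroup.subgroupOfEquivOfLe hDC).toEquiv]
      exact Subgroup.card_le_of_le hle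
    rw [h1, hDcard] at h2
    have h3 := (Nat.pow_le_pow_iff_right hM.1.one_lt).1 h2
    have hbne : b ≠ Cfsg.principalBlock M ↥(Subgroup.centralizer ({z} : Set G)) := by
      intro h
      exact hBne ((Cfsg.Agent.Lib.Helper24.third_main hM _ hind).2 h)
    have h4 := hC z hzp b hind.1 hbne
    omega

end Cfsg.Agent.S4717
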