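import Cfsg.Statements.S4718
import Cfsg.Agent.Lib.Helper24.Landau
import Cfsg.Agent.Lib.Helper24.PrincipalBound

set_option autoImplicit false
universe u
open Cfsg

namespace Cfsg.Agent.S4718

/-- Let p be a prime and a a natural number. There is a bound N such that every finite group whose Sylow p-subgroups have order p^a and whose only p-block (relative to a maximal ideal of the algebraic integers containing p) is the principal block has order at most N. -/
theorem result (p : ℕ) [Fact p.Prime] (a : ℕ) : ∃ N : ℕ, ∀ (G : Type u) [Group G] [Finite G] (M : Ideal Cfsg.AlgInt), Cfsg.IsPModular p M → (Nat.card G).factorization p = a → (∀ B : Set (Cfsg.IrrCharacter G), Cfsg.IsPBlock M B → B = Cfsg.principalBlock M G) → Nat.card G ≤ N := by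
  obtain ⟨N, hN⟩ := Cfsg.Agent.Lib.Helper24.landau.{u} (p ^ (2 * a))
  refine ⟨N, ?_⟩
  intro G _ _ M hM ha hB
  haveI := hM.2.1.isPrime
  apply hN G
  rw [← Cfsg.Agent.Lib.Helper2.card_irrCharacter, ← ha]
  refine le_trans ?_ (Cfsg.Agent.Lib.Helper24.card_principalBlock_le (G := G) hM)
  have huniv : Cfsg.principalBlock M G = Set.univ := by
    ext χ
    simp only [Set.mem_univ, iff_true]
    rw [← hB (Cfsg.blockOf M (χ : G → ℂ)) ⟨χ, rfl⟩]
    exact Cfsg.Agent.Lib.Helper7.self_mem_blockOf χ
  rw [huniv, Nat.card_univ]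

end Cfsg.Agent.S4718
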