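import Cfsg.Statements.S4721
import Cfsg.Agent.Lib.Helper2.BFree10

set_option autoImplicit false
open Cfsg

namespace Cfsg.Agent.S4721

open Cfsg.Agent.Lib.Helper2

/-- Let p be a prime, M a maximal ideal of the algebraic integers containing p, and G a finite group with a nontrivial abelian Sylow p-subgroup P, N = N_G(P), C = C_G(P), such that N/C is cyclic of order 3, #P > 4, and C_G(y) ∩ N = C for every non-identity y ∈ P. Then the principal p-block is the disjoint union of a set X of exactly 3 characters containing the principal character and a set Y of (#P − 1)/3 characters, with signs a_χ = ±1 (χ ∈ X, a = 1 at the principal character) and δ = ±1 such that every χ ∈ X takes the value a_χ at every element whose p-part is a non-identity element of P, and there is a map ζ from the non-principal linear characters of P onto Y, constant on N-conjugacy classes, with ζ_ψ(z) = δ·Σ ψ'(y) over the N-orbit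 of ψ, for z with p-part y ≠ 1 in P. If moreover G has an involution lying in no proper normal subgroup of G, then exactly two of the three numbers −δ and a_χ (χ ∈ X non-principal) equal −1, and the product of the degrees of the two non-principal members of X and of any member of Y is a perfect square. -/
theorem result {G : Type*} [Group G] [Finite G] (p : ℕ) [Fact p.Prime] (M : Ideal Cfsg.AlgInt) (hM : Cfsg.IsPModular p M) (P : Sylow p G) (hab : IsMulCommutative P) (hP1 : Nat.card P ≠ 1) (hCN : (Subgroup.centralizer ((P : Subgroup G) : Set G)).relIndex (Subgroup.normalizer ((P : Subgroup G) : Set G)) = 3) (hcyc : ∃ g : G, g ∈ Subgroup.normalizer ((P : Subgroup G) : Set G) ∧ Subgroup.centralizer ((P : Subgroup G) : Set G) ⊔ Subgroup.zpowers g = Subgroup.normalizer ((P : Subgroup G) : Set G)) (hm2 : 3 + 1 < Nat.card P) (hfrob : ∀ y : G, y ∈ (P : Subgroup G) → y ≠ 1 → Subgroup.centralizer ({y} : Set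 G) ⊓ Subgroup.normalizer ((P : Subgroup G) : Set G) = Subgroup.centralizer ((P : Subgroup G) : Set G)) : ∃ (X Y : Set (Cfsg.IrrCharacter G)), Cfsg.principalBlock M G = X ∪ Y ∧ Disjoint X Y ∧ Nat.card X = 3 ∧ Nat.card Y = (Nat.card P - 1) / 3 ∧ (∃ χ₁ ∈ X, (χ₁ : G → ℂ) = fun _ => 1) ∧ ∃ (a : Cfsg.IrrCharacter G → ℤ) (δ : ℤ) (ζ : (↥(P : Subgroup G) →* ℂˣ) → Cfsg.IrrCharacter G), (δ = 1 ∨ δ = -1) ∧ (∀ χ ∈ X, (a χ = 1 ∨ a χ = -1) ∧ ∀ z y : G, Cfsg.IsPPart p z y → y ∈ (P : Subgroup G) → y ≠ 1 → (χ : G → ℂ) z = (a χ : ℂ)) ∧ (∀ ψ : ↥(P : Subgroup G) →* ℂˣ, ψ ≠ 1 → ζ ψ ∈ Y) ∧ (∀ η ∈ Y, ∃ ψ : ↥(P : Subgroup G) →* ℂˣ, ψ ≠ 1 ∧ ζ ψ = η) ∧ (∀ ψ ψ' : ↥(P : Subgroup G) →* ℂˣ, ψ ≠ 1 → (∃ n : G, n ∈ Subgroup.normalizer ((P : Subgroup G) : Set G) ∧ ∀ w w' : ↥(P : Subgroup G), (w' : G) = n * w * n⁻¹ → ψ' w' = ψ w) → ζ ψ' = ζ ψ) ∧ (∀ ψ : ↥(P : Subgroup G) →* ℂˣ, ψ ≠ 1 → ∀ (z : G) (y : ↥(P : Subgroup G)), Cfsg.IsPPart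 p z (y : G) → (y : G) ≠ 1 → (ζ ψ : G → ℂ) z = (δ : ℂ) * ∑ᶠ ψ' ∈ {ψ' : ↥(P : Subgroup G) →* ℂˣ | ∃ n : G, n ∈ Subgroup.normalizer ((P : Subgroup G) : Set G) ∧ ∀ w w' : ↥(P : Subgroup G), (w' : G) = n * w * n⁻¹ → ψ' w' = ψ w}, ((ψ' y : ℂˣ) : ℂ)) ∧ ((∃ t : G, orderOf t = 2 ∧ ∀ K : Subgroup G, K.Normal → t ∈ K → K = ⊤) → Nat.card {χ : Cfsg.IrrCharacter G // χ ∈ X ∧ (χ : G → ℂ) ≠ (fun _ => 1) ∧ a χ = -1} + (if δ = 1 then 1 else 0) = 2 ∧ ∀ η ∈ Y, IsSquare (Cfsg.charDegree (η : G → ℂ) * ∏ᶠ χ ∈ {χ : Cfsg.IrrCharacter G | χ ∈ X ∧ (χ : G → ℂ) ≠ fun _ => 1}, Cfsg.charDegree (χ : G → ℂ))) := by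
  classical
  have h : FreeHyp P 3 := by
    refine ⟨fun a ha b hb => ?_, hP1, hCN, hfrob⟩
    have := mul_comm' (⟨a, ha⟩ : ↥(P : Subgroup G)) ⟨b, hb⟩
    exact congrArg Subtype.val this
  obtain ⟨ε, a₂, a₃, ζ, χ₂, χ₃, Y, hε, ha₂, ha₃, hB, h2o, h3o, h23, hoY, h2Y, h3Y, hmemY, hcard,
    hζ, hv₂, hv₃, hvζ, hYreg, hsum⟩ := h.core3 hM hm2
  obtain ⟨o, ho⟩ : ∃ o : IrrCharacter G, o = Cfsg.Agent.Lib.Helper24.oneIrr G := ⟨_, rfl⟩
  rw [← ho] at hB h2o h3o hoY hsum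
  have ho1 : (o : G → ℂ) = fun _ => 1 := by rw [ho]; rfl
  obtain ⟨X, hX⟩ : ∃ X : Finset (IrrCharacter G), X = {o, χ₂, χ₃} := ⟨_, rfl⟩
  have hXmem : ∀ χ, χ ∈ X ↔ χ = o ∨ χ = χ₂ ∨ χ = χ₃ := by
    intro χ; rw [hX]; simp
  obtain ⟨a, ha⟩ : ∃ a : IrrCharacter G → ℤ, a = fun χ => if χ = o then 1 else
    if χ = χ₂ then a₂ else a₃ := ⟨_, rfl⟩
  have hao : a o = 1 := by rw [ha]; simp
  have ha2 : a χ₂ = a₂ := by rw [ha]; simp [h2o]
  have ha3 : a χ₃ = a₃ := by rw [ha]; simp [h3o, h23.symm]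
  have hne1 : ∀ χ : IrrCharacter G, (χ : G → ℂ) ≠ (fun _ => 1) ↔ χ ≠ o := by
    intro χ
    rw [← ho1]
    exact not_congr ⟨fun h0 => Subtype.ext h0, fun h0 => congrArg Subtype.val h0⟩
  refine ⟨↑X, ↑Y, ?_, ?_, ?_, ?_, ⟨o, by simp [hXmem], ho1⟩, a, ε, ζ, hε, ?_, ?_, ?_, ?_, ?_, ?_⟩
  · ext χ
    rw [hB χ]
    simp only [Set.mem_union, Finset.mem_coe, hXmem]
    tauto
  · rw [Finset.disjoint_coe, Finset.disjoint_left]
    intro χ hχ hχY
    rcases (hXmem χ).1 hχ with rfl | rfl | rfl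
    · exact hoY hχY
    · exact h2Y hχY
    · exact h3Y hχY
  · have : X.card = 3 := Finset.card_eq_three.2 ⟨o, χ₂, χ₃, h2o.symm, h3o.symm, h23, hX⟩
    rw [← this]; simp
  · have : (Nat.card P - 1) / 3 = Y.card := by
      rw [← hcard, Nat.add_sub_cancel, Nat.mul_div_cancel _ (by norm_num)]
    rw [this]; simp
  · intro χ hχ
    rcases (hXmem χ).1 (by exact_mod_cast hχ) with rfl | rfl | rfl
    · refine ⟨Or.inl hao, fun z y _ _ _ => ?_⟩
      rw [hao, ho1]; simp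
    · rw [ha2]; exact ⟨ha₂, hv₂⟩
    · rw [ha3]; exact ⟨ha₃, hv₃⟩
  · intro ψ hψ
    exact_mod_cast (hmemY _).2 ⟨ψ, hψ, rfl⟩
  · intro η hη
    exact (hmemY η).1 (by exact_mod_cast hη)
  · intro ψ ψ' hψ hc
    exact hζ ψ ψ' hψ hc
  · intro ψ hψ z y hz hy
    exact hvζ ψ hψ z y hz hy
  · rintro ⟨t, ht, hK⟩
    by_cases hp2 : p = 2
    · exfalso
      subst hp2
      obtain ⟨K, hKn, hKtop, hPK⟩ := h.exists_normal_of_two hM hm2
      obtain ⟨g, hg⟩ := Cfsg.Agent.Lib.Helper14.exists_conj_mem_sylow P (Subgroup.zpowers t)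
        (Cfsg.Agent.Lib.Helper14.isPGroup_zpowers (k := 1) (by
          rw [pow_one, ← ht, pow_orderOf_eq_one]))
      have h1 : g * t * g⁻¹ ∈ K := hPK (hg t (Subgroup.mem_zpowers t))
      have h2 : t ∈ K := by
        have := hKn.conj_mem _ h1 g⁻¹
        simpa [mul_assoc] using this
      exact hKtop (hK K hKn h2)
    · have hmain : ∀ ψ : ↥(P : Subgroup G) →* ℂˣ, ψ ≠ 1 → a₂ + a₃ - ε = -1 ∧
          IsSquare (Cfsg.charDegree (ζ ψ : G → ℂ)
            * (Cfsg.charDegree (χ₂ : G → ℂ) * Cfsg.charDegree (χ₃ : G → ℂ))) := by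
        intro ψ hψ
        obtain ⟨e1, e3, e2⟩ := h.odd_relations (by decide) hM hp2 ht ψ
        rw [hsum ψ hψ (fun χ => (χ : G → ℂ) t ^ 2 / (χ : G → ℂ) 1)] at e1
        rw [hsum ψ hψ (fun χ => (χ : G → ℂ) t)] at e3
        rw [hsum ψ hψ (fun χ => (χ : G → ℂ) 1)] at e2
        obtain ⟨n₂, hn₂, -⟩ := Cfsg.Agent.S0944.result χ₂ t ht
        obtain ⟨n₃, hn₃, -⟩ := Cfsg.Agent.S0944.result χ₃ t ht
        obtain ⟨n, hn, -⟩ := Cfsg.Agent.S0944.result (ζ ψ) t ht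
        have hd : ∀ χ : IrrCharacter G, (χ : G → ℂ) 1 = (Cfsg.charDegree (χ : G → ℂ) : ℂ) :=
          fun χ => (Cfsg.Agent.Lib.Helper7.charDegree_cast
            (Cfsg.Agent.Lib.Helper7.isCharacter_of_irr χ.2)).symm
        have hζo : ζ ψ ≠ o := by
          intro h0
          exact hoY (h0 ▸ (hmemY _).2 ⟨ψ, hψ, rfl⟩)
        have hker : ∀ (χ : IrrCharacter G) (k : ℤ), χ ≠ o → (χ : G → ℂ) t = k →
            k ≠ (Cfsg.charDegree (χ : G → ℂ) : ℤ) := by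
          intro χ k hχ hk h0
          apply char_ne_of_no_normal hK χ (by rw [← ho]; exact hχ)
          rw [hk, hd, h0]
          simp
        beta_reduce at e1 e2 e3
        rw [ho1] at e1 e2 e3
        beta_reduce at e1 e2 e3
        rw [hn₂, hn₃, hn, hd χ₂, hd χ₃, hd (ζ ψ)] at e1
        rw [hn₂, hn₃, hn] at e3
        rw [hd χ₂, hd χ₃, hd (ζ ψ)] at e2
        exact final_arith a₂ a₃ ε ha₂ ha₃ hε _ _ _ n₂ n₃ n
          (Cfsg.Agent.Lib.Helper7.charDegree_pos χ₂) (Cfsg.Agent.Lib.Helper7.charDegree_pos χ₃)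
          (Cfsg.Agent.Lib.Helper7.charDegree_pos (ζ ψ)) e2 e3 e1
          (hker χ₂ n₂ h2o hn₂) (hker χ₃ n₃ h3o hn₃) (hker (ζ ψ) n hζo hn)
      constructor
      · obtain ⟨η, hη⟩ : ∃ η, η ∈ Y := Finset.card_pos.1 (by omega)
        obtain ⟨ψ, hψ, -⟩ := (hmemY η).1 hη
        have hs := (hmain ψ hψ).1
        have hset : {χ : Cfsg.IrrCharacter G | χ ∈ (↑X : Set (IrrCharacter G)) ∧
            (χ : G → ℂ) ≠ (fun _ => 1) ∧ a χ = -1}
            = {χ | (χ = χ₂ ∧ a₂ = -1) ∨ (χ = χ₃ ∧ a₃ = -1)} := by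
          ext χ
          simp only [Set.mem_ofPred_eq, Finset.mem_coe, hXmem, hne1]
          constructor
          · rintro ⟨h1 | rfl | rfl, h2, h3⟩
            · exact absurd h1 h2
            · left; exact ⟨rfl, by rw [← ha2]; exact h3⟩
            · right; exact ⟨rfl, by rw [← ha3]; exact h3⟩
          · rintro (⟨rfl, h1⟩ | ⟨rfl, h1⟩)
            · exact ⟨Or.inr (Or.inl rfl), h2o, by rw [ha2]; exact h1⟩
            · exact ⟨Or.inr (Or.inr rfl), h3o, by rw [ha3]; exact h1⟩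
        show Nat.card ↥{χ : Cfsg.IrrCharacter G | χ ∈ (↑X : Set (IrrCharacter G)) ∧
            (χ : G → ℂ) ≠ (fun _ => 1) ∧ a χ = -1} + _ = 2
        rw [hset, Nat.card_coe_set_eq]
        rcases ha₂ with rfl | rfl <;> rcases ha₃ with rfl | rfl <;> rcases hε with rfl | rfl <;>
          first
          | (exfalso; omega)
          | (have : {χ : IrrCharacter G | (χ = χ₂ ∧ (1 : ℤ) = -1) ∨ (χ = χ₃ ∧ (-1 : ℤ) = -1)}
                = {χ₃} := by ext χ; simp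
             rw [this, Set.ncard_singleton]; simp)
          | (have : {χ : IrrCharacter G | (χ = χ₂ ∧ (-1 : ℤ) = -1) ∨ (χ = χ₃ ∧ (1 : ℤ) = -1)}
                = {χ₂} := by ext χ; simp
             rw [this, Set.ncard_singleton]; simp)
          | (have : {χ : IrrCharacter G | (χ = χ₂ ∧ (-1 : ℤ) = -1) ∨ (χ = χ₃ ∧ (-1 : ℤ) = -1)}
                = {χ₂, χ₃} := by ext χ; simp
             rw [this, Set.ncard_pair h23]; simp)
      · intro η hη
        obtain ⟨ψ, hψ, rfl⟩ := (hmemY η).1 (by exact_mod_cast hη)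
        have hset : {χ : Cfsg.IrrCharacter G | χ ∈ (↑X : Set (IrrCharacter G)) ∧
            (χ : G → ℂ) ≠ fun _ => 1} = {χ₂, χ₃} := by
          ext χ
          simp only [Set.mem_ofPred_eq, Finset.mem_coe, hXmem, hne1, Set.mem_insert_iff,
            Set.mem_singleton_iff]
          constructor
          · rintro ⟨h1 | h1 | h1, h2⟩
            · exact absurd h1 h2
            · exact Or.inl h1
            · exact Or.inr h1
          · rintro (rfl | rfl)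
            · exact ⟨Or.inr (Or.inl rfl), h2o⟩
            · exact ⟨Or.inr (Or.inr rfl), h3o⟩
        rw [hset, finprod_mem_pair h23]
        exact (hmain ψ hψ).2

end Cfsg.Agent.S4721
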