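import Cfsg.Statements.S4722
import Cfsg.Agent.Lib.Helper2.BApp2
import Cfsg.Agent.Lib.Helper2.CharReg
import Cfsg.Agent.S0944

set_option autoImplicit false
open Cfsg

namespace Cfsg.Agent.S4722

open Cfsg.Agent.Lib.Helper2

/-- Let M be a maximal ideal of the algebraic integers containing 2, P a 2-subgroup of the finite group G, U a subset of P, and t an involution of G such that no element of U is inverted by any conjugate of t. Let θ be a generalized character of P vanishing outside U, and for χ in the principal 2-block B₀ put a_χ = #P⁻¹ Σ_{y ∈ P} χ(y) θ(y⁻¹). Then Σ_{χ ∈ B₀} a_χ χ(t)^2/χ(1) = 0, Σ_{χ ∈ B₀} a_χ χ(1) = 0 and Σ_{χ ∈ B₀} a_χ χ(t) = 0. If moreover #P⁻¹ Σ_{y ∈ P} θ(y) ≠ 0, then either at least two of the a_χ have positive real part and at least two have negative real part, or G has a proper normal subgroup containing O_2'(G) and t. -/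
theorem result {G : Type*} [Group G] [Finite G] (M : Ideal Cfsg.AlgInt) (hM : Cfsg.IsPModular 2 M) (P : Subgroup G) (hP : IsPGroup 2 P) (U : Set G) (hUP : U ⊆ (P : Set G)) (t : G) (ht : orderOf t = 2) (hinv : ∀ u ∈ U, ∀ g : G, (g * t * g⁻¹) * u * (g * t * g⁻¹)⁻¹ ≠ u⁻¹) (θ : ↥P → ℂ) (hθ : Cfsg.IsGeneralizedCharacter ↥P θ) (hθU : ∀ y : ↥P, (y : G) ∉ U → θ y = 0) : (∑ᶠ χ ∈ Cfsg.principalBlock M G, ((Nat.card ↥P : ℂ)⁻¹ * ∑ᶠ y : ↥P, (χ : G → ℂ) (y : G) * θ y⁻¹) * (χ : G → ℂ) t ^ 2 / (χ : G → ℂ) 1 = 0) ∧ (∑ᶠ χ ∈ Cfsg.principalBlock M G, ((Nat.card ↥P : ℂ)⁻¹ * ∑ᶠ y : ↥P, (χ : G → ℂ) (y : G) * θ y⁻¹) * (χ : G → ℂ) 1 = 0) ∧ (∑ᶠ χ ∈ Cfsg.principalBlock M G, ((Nat.card ↥P : ℂ)⁻¹ * ∑ᶠ y : ↥P, (χ : G → ℂ) (y : G) * θ y⁻¹) * (χ : G → ℂ) t = 0) ∧ ((Nat.card ↥P : ℂ)⁻¹ * ∑ᶠ y : ↥P, θ y ≠ 0 → (2 ≤ Nat.card {χ : Cfsg.IrrCharacter G // χ ∈ Cfsg.principalBlock M G ∧ 0 < (((Nat.card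 ↥P : ℂ)⁻¹ * ∑ᶠ y : ↥P, (χ : G → ℂ) (y : G) * θ y⁻¹)).re} ∧ 2 ≤ Nat.card {χ : Cfsg.IrrCharacter G // χ ∈ Cfsg.principalBlock M G ∧ (((Nat.card ↥P : ℂ)⁻¹ * ∑ᶠ y : ↥P, (χ : G → ℂ) (y : G) * θ y⁻¹)).re < 0}) ∨ ∃ K : Subgroup G, K.Normal ∧ K ≠ ⊤ ∧ Cfsg.pPrimeCore 2 G ≤ K ∧ t ∈ K) := by
  classical
  haveI : Fact (Nat.Prime 2) := ⟨Nat.prime_two⟩
  haveI := hM.2.1.isPrime
  haveI := Fintype.ofFinite G
  haveI : Fintype P := Fintype.ofFinite _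
  have ht2 : t * t = 1 := by rw [← pow_two, ← ht, pow_orderOf_eq_one]
  have htinv : t⁻¹ = t := inv_eq_of_mul_eq_one_left ht2
  have hno : ∀ x₂ : G, t * x₂ * t⁻¹ = x₂⁻¹ → ∀ y : P, θ y ≠ 0 → ¬ IsConj (y : G) x₂ := by
    intro x₂ hx y hy hc
    have hyU : (y : G) ∈ U := by
      by_contra h
      exact hy (hθU y h)
    obtain ⟨c, hc⟩ := isConj_iff.1 hc
    apply hinv y hyU c⁻¹
    calc (c⁻¹ * t * c⁻¹⁻¹) * (y : G) * (c⁻¹ * t * c⁻¹⁻¹)⁻¹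
        = c⁻¹ * (t * (c * y * c⁻¹) * t⁻¹) * c := by group
      _ = c⁻¹ * x₂⁻¹ * c := by rw [hc, hx]
      _ = (y : G)⁻¹ := by rw [← hc]; group
  have hΘ : ∀ g x₂ : G, IsPPart 2 g x₂ → t * x₂ * t⁻¹ = x₂⁻¹ →
      ∑ χ ∈ pbF M G, bA P θ (χ : G → ℂ) * (χ : G → ℂ) g = 0 :=
    fun g x₂ h1 h2 => sum_bA_mul_eq_zero hM hP θ h1 (hno x₂ h2)
  have e2 : ∑ χ ∈ pbF M G, bA P θ (χ : G → ℂ) * (χ : G → ℂ) 1 = 0 :=
    hΘ 1 1 (Cfsg.Agent.Lib.Helper7.isPPart_one_iff.2 (by simp)) (by simp)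
  have e3 : ∑ χ ∈ pbF M G, bA P θ (χ : G → ℂ) * (χ : G → ℂ) t = 0 :=
    hΘ t t (Cfsg.Agent.Lib.Helper24.isPPart_self Nat.prime_two (k := 1) (by simpa using ht))
      (by rw [mul_inv_cancel_right, htinv])
  have hGc : (Nat.card G : ℂ) ≠ 0 := by exact_mod_cast Nat.card_pos.ne'
  have e1 : ∑ χ ∈ pbF M G, bA P θ (χ : G → ℂ) * (χ : G → ℂ) t ^ 2 / (χ : G → ℂ) 1 = 0 := by
    have h1 : ∀ χ ∈ pbF M G, bA P θ (χ : G → ℂ) * (χ : G → ℂ) t ^ 2 / (χ : G → ℂ) 1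
        = (Nat.card G : ℂ)⁻¹ * ∑ x : G, bA P θ (χ : G → ℂ) * (χ : G → ℂ) (x * t * x⁻¹ * t) := by
      intro χ _
      rw [← Finset.mul_sum, sum_char_conj_mul χ.2 t t]
      field_simp
    rw [Finset.sum_congr rfl h1, ← Finset.mul_sum, Finset.sum_comm, Finset.sum_eq_zero, mul_zero]
    intro x _
    obtain ⟨x₂, hx₂⟩ := Cfsg.Agent.Lib.Helper7.exists_pPart Nat.prime_two (x * t * x⁻¹ * t)
    apply hΘ _ x₂ hx₂
    have hginv : t * (x * t * x⁻¹ * t) * t⁻¹ = (x * t * x⁻¹ * t)⁻¹ := by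
      rw [mul_inv_rev, mul_inv_rev, mul_inv_rev, inv_inv, htinv]
      simp only [mul_assoc, ht2, mul_one]
    have h2 := Cfsg.Agent.Lib.Helper24.isPPart_conj t hx₂
    rw [hginv] at h2
    exact Cfsg.Agent.Lib.Helper7.isPPart_unique Nat.prime_two h2 (isPPart_inv hx₂)
  refine ⟨by rw [finsum_pb]; exact e1, by rw [finsum_pb]; exact e2, by rw [finsum_pb]; exact e3, ?_⟩
  intro hne
  by_cases hK : ∃ K : Subgroup G, K.Normal ∧ K ≠ ⊤ ∧ Cfsg.pPrimeCore 2 G ≤ K ∧ t ∈ K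
  · exact Or.inr hK
  left
  choose z hz using fun χ : IrrCharacter G =>
    bA_int P hθ (Cfsg.Agent.Lib.Helper7.isCharacter_of_irr χ.2)
  choose n hn using fun χ : IrrCharacter G => Cfsg.Agent.S0944.result χ t ht
  have hd : ∀ χ : IrrCharacter G, (χ : G → ℂ) 1 = (Cfsg.charDegree (χ : G → ℂ) : ℂ) := fun χ =>
    (Cfsg.Agent.Lib.Helper7.charDegree_cast (Cfsg.Agent.Lib.Helper7.isCharacter_of_irr χ.2)).symm
  have r1 : ∑ χ ∈ pbF M G, (z χ : ℝ) * (n χ : ℝ) ^ 2 / (Cfsg.charDegree (χ : G → ℂ) : ℝ) = 0 := by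
    have : ∑ χ ∈ pbF M G, ((z χ : ℂ)) * (n χ : ℂ) ^ 2 / (Cfsg.charDegree (χ : G → ℂ) : ℂ) = 0 := by
      rw [← e1]
      refine Finset.sum_congr rfl fun χ _ => ?_
      rw [hz, (hn χ).1, hd]
    exact_mod_cast this
  have r2 : ∑ χ ∈ pbF M G, (z χ : ℝ) * (Cfsg.charDegree (χ : G → ℂ) : ℝ) = 0 := by
    have : ∑ χ ∈ pbF M G, ((z χ : ℂ)) * (Cfsg.charDegree (χ : G → ℂ) : ℂ) = 0 := by
      rw [← e2]
      refine Finset.sum_congr rfl fun χ _ => ?_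
      rw [hz, hd]
    exact_mod_cast this
  have r3 : ∑ χ ∈ pbF M G, (z χ : ℝ) * (n χ : ℝ) = 0 := by
    have : ∑ χ ∈ pbF M G, ((z χ : ℂ)) * (n χ : ℂ) = 0 := by
      rw [← e3]
      refine Finset.sum_congr rfl fun χ _ => ?_
      rw [hz, (hn χ).1]
    exact_mod_cast this
  obtain ⟨o, ho⟩ : ∃ o : IrrCharacter G, o = Cfsg.Agent.Lib.Helper24.oneIrr G := ⟨_, rfl⟩
  have ho1 : ∀ g : G, (o : G → ℂ) g = 1 := by intro g; rw [ho]; rfl
  have hoB : o ∈ pbF M G := by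
    rw [mem_pbF, ho]
    exact Cfsg.Agent.Lib.Helper24.oneIrr_mem_principalBlock
  have hzo : (z o : ℝ) ≠ 0 := by
    intro h0
    apply hne
    have h1 : (z o : ℂ) = 0 := by exact_mod_cast h0
    rw [← hz, bA_eq_sum'] at h1
    rw [finsum_eq_sum_of_fintype, ← h1]
    congr 1
    refine Finset.sum_congr rfl fun y _ => ?_
    rw [ho1, one_mul]
  have hdo : (Cfsg.charDegree (o : G → ℂ) : ℝ) = 1 := by
    have : (Cfsg.charDegree (o : G → ℂ) : ℂ) = 1 := by rw [← hd, ho1]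
    exact_mod_cast this
  have hno' : (n o : ℝ) = 1 := by
    have : (n o : ℂ) = 1 := by rw [← (hn o).1, ho1]
    exact_mod_cast this
  have main : ∀ s : ℝ, (∀ χ ∈ pbF M G, ∀ χ' ∈ pbF M G, s * (z χ : ℝ) < 0 → s * (z χ' : ℝ) < 0 →
      χ = χ') → s ≠ 0 → False := by
    intro s hs hs0
    obtain ⟨χ, hχB, hχo, hχ⟩ := brauer_sign_lemma (pbF M G) (fun χ => s * (z χ : ℝ))
      (fun χ => (Cfsg.charDegree (χ : G → ℂ) : ℝ)) (fun χ => (n χ : ℝ))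
      (fun χ _ => by exact_mod_cast Cfsg.Agent.Lib.Helper7.charDegree_pos χ)
      (by simp only [mul_assoc]; rw [← Finset.mul_sum, r2, mul_zero])
      (by simp only [mul_assoc]; rw [← Finset.mul_sum, r3, mul_zero])
      (by simp only [mul_assoc, mul_div_assoc]; rw [← Finset.mul_sum]
          simp only [← mul_div_assoc]; rw [r1, mul_zero])
      o hoB (mul_ne_zero hs0 hzo) hdo hno' hs

    have hχt : (χ : G → ℂ) t = (χ : G → ℂ) 1 := by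
      rw [(hn χ).1, hd]
      exact_mod_cast hχ
    obtain ⟨K, hKn, hKmem⟩ := Cfsg.Agent.Lib.Helper7.exists_ker_subgroup
      (Cfsg.Agent.Lib.Helper7.isCharacter_of_irr χ.2)
    apply hK
    refine ⟨K, hKn, ?_, ?_, (hKmem t).2 hχt⟩
    · intro htop
      apply hχo
      have hall : ∀ g : G, (χ : G → ℂ) g = (χ : G → ℂ) 1 := fun g =>
        (hKmem g).1 (by rw [htop]; exact Subgroup.mem_top g)
      have h1 := Cfsg.Agent.Lib.Helper7.classInner_irr_self χ.2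
      rw [classInner] at h1
      simp only [hall, hd, Complex.conj_natCast, Finset.sum_const, Finset.card_univ,
        nsmul_eq_mul] at h1
      rw [← Nat.card_eq_fintype_card, ← mul_assoc, inv_mul_cancel₀ hGc, one_mul] at h1
      have h2 : Cfsg.charDegree (χ : G → ℂ) * Cfsg.charDegree (χ : G → ℂ) = 1 := by
        exact_mod_cast h1
      have h3 : Cfsg.charDegree (χ : G → ℂ) = 1 := Nat.eq_one_of_mul_eq_one_right h2
      apply Subtype.ext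
      funext g
      rw [hall, hd, h3, ho1]
      simp
    · haveI := (Cfsg.Agent.Lib.Helper24.SC.pPrimeCore_mem (G := G) 2).1
      intro g hg
      exact (hKmem g).2 (Cfsg.Agent.Lib.Helper7.ker_principalBlock hM (mem_pbF.1 hχB)
        (Cfsg.pPrimeCore 2 G) (Cfsg.Agent.Lib.Helper7.not_dvd_card_pPrimeCore Nat.prime_two) g hg)
  have hre : ∀ χ : IrrCharacter G, (((Nat.card ↥P : ℂ)⁻¹ * ∑ᶠ y : ↥P,
      (χ : G → ℂ) (y : G) * θ y⁻¹)).re = (z χ : ℝ) := by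
    intro χ
    have : ((Nat.card ↥P : ℂ)⁻¹ * ∑ᶠ y : ↥P, (χ : G → ℂ) (y : G) * θ y⁻¹) = (z χ : ℂ) := hz χ
    rw [this]
    simp
  constructor
  · by_contra hlt
    have hle : Nat.card {χ : Cfsg.IrrCharacter G // χ ∈ Cfsg.principalBlock M G ∧
        0 < (((Nat.card ↥P : ℂ)⁻¹ * ∑ᶠ y : ↥P, (χ : G → ℂ) (y : G) * θ y⁻¹)).re} ≤ 1 := by omega
    rw [Finite.card_le_one_iff_subsingleton] at hle
    apply main (-1) _ (by norm_num)
    intro χ hχ χ' hχ' h1 h2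
    have := hle.elim ⟨χ, mem_pbF.1 hχ, by rw [hre]; linarith⟩ ⟨χ', mem_pbF.1 hχ', by rw [hre]; linarith⟩
    exact congrArg Subtype.val this
  · by_contra hlt
    have hle : Nat.card {χ : Cfsg.IrrCharacter G // χ ∈ Cfsg.principalBlock M G ∧
        (((Nat.card ↥P : ℂ)⁻¹ * ∑ᶠ y : ↥P, (χ : G → ℂ) (y : G) * θ y⁻¹)).re < 0} ≤ 1 := by omega
    rw [Finite.card_le_one_iff_subsingleton] at hle
    apply main 1 _ (by norm_num)
    intro χ hχ χ' hχ' h1 h2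
    have := hle.elim ⟨χ, mem_pbF.1 hχ, by rw [hre]; linarith⟩ ⟨χ', mem_pbF.1 hχ', by rw [hre]; linarith⟩
    exact congrArg Subtype.val this

end Cfsg.Agent.S4722
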