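import Cfsg.Statements.S4723
import Cfsg.Agent.Lib.Helper7.BlockInertia

set_option autoImplicit false
open Cfsg

namespace Cfsg.Agent.S4723

/-- Let p be a prime, M a maximal ideal of the algebraic integers containing p, H a normal subgroup of the finite group G and b a p-block of H. Let T be the stabilizer of b in G. Then b contains a character θ of height zero whose own stabilizer in G (the elements g with θ(g h g⁻¹) = θ(h) for all h ∈ H) has index prime to p in T, i.e. contains a Sylow p-subgroup of T. -/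
theorem result {G : Type*} [Group G] [Finite G] (p : ℕ) [Fact p.Prime] (M : Ideal Cfsg.AlgInt) (hM : Cfsg.IsPModular p M) (H : Subgroup G) [H.Normal] (b : Set (Cfsg.IrrCharacter ↥H)) (hb : Cfsg.IsPBlock M b) (T : Subgroup G) (hT : (∀ g : G, g ∈ T ↔ ∀ θ ∈ b, ∀ θ' : Cfsg.IrrCharacter ↥H, (∀ h h' : ↥H, (h' : G) = g * h * g⁻¹ → (θ' : ↥H → ℂ) h' = (θ : ↥H → ℂ) h) → θ' ∈ b)) : ∃ θ ∈ b, Cfsg.blockHeight p b (θ : ↥H → ℂ) = 0 ∧ ∃ S : Subgroup G, S ≤ T ∧ (∀ g : G, g ∈ S ↔ (g ∈ T ∧ ∀ h h' : ↥H, (h' : G) = g * h * g⁻¹ → (θ : ↥H → ℂ) h' = (θ : ↥H → ℂ) h)) ∧ ¬ p ∣ S.relIndex T := by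
  classical
  haveI := Cfsg.Agent.Lib.Helper7.IsPModular.isPrime hM
  haveI : Fintype G := Fintype.ofFinite G
  haveI : Fintype H := Fintype.ofFinite H
  have hTeq : T = Cfsg.Agent.Lib.Helper7.blockStab H b := by
    ext g
    rw [hT]
    constructor
    · intro hg
      have h1 : g⁻¹ ∈ Cfsg.Agent.Lib.Helper7.blockStab H b := by
        rw [Cfsg.Agent.Lib.Helper7.mem_blockStab_iff H hb]
        intro θ hθ
        apply hg θ hθ
        intro h h' hh
        rw [Cfsg.Agent.Lib.Helper7.conjIrr_apply]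
        have e : (⟨g⁻¹ * (h' : G) * g⁻¹⁻¹, (inferInstance : H.Normal).conj_mem h' h'.2 g⁻¹⟩ : H)
            = h := by
          apply Subtype.ext
          show g⁻¹ * (h' : G) * g⁻¹⁻¹ = h
          rw [hh]
          group
        rw [e]
      have := inv_mem h1
      rwa [inv_inv] at this
    · intro hg θ hθ θ' hθ'
      have h1 := inv_mem hg
      rw [Cfsg.Agent.Lib.Helper7.mem_blockStab_iff H hb] at h1
      have e : θ' = Cfsg.Agent.Lib.Helper7.conjIrr H θ g⁻¹ := by
        apply Subtype.ext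
        funext k
        rw [Cfsg.Agent.Lib.Helper7.conjIrr_apply]
        apply hθ'
        show (k : G) = g * (g⁻¹ * (k : G) * g⁻¹⁻¹) * g⁻¹
        group
      rw [e]
      exact h1 θ hθ
  obtain ⟨θ, hθ, h0, hle, hnd⟩ := Cfsg.Agent.Lib.Helper7.exists_height_zero_inertia H hM hb
  rw [← hTeq] at hle hnd
  refine ⟨θ, hθ, h0, Cfsg.Agent.Lib.Helper25.inertia H (θ : H → ℂ), hle, ?_, hnd⟩
  intro g
  rw [Cfsg.Agent.Lib.Helper25.mem_inertia]
  constructor
  · intro hg
    refine ⟨hle ((Cfsg.Agent.Lib.Helper25.mem_inertia H _ g).2 hg), ?_⟩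
    intro h h' hh
    rw [← hg h]
    have e : h' = (⟨g * (h : G) * g⁻¹, (inferInstance : H.Normal).conj_mem h h.2 g⟩ : H) :=
      Subtype.ext hh
    rw [e]
  · rintro ⟨-, hg⟩ h
    exact hg h _ rfl

end Cfsg.Agent.S4723
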