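import Cfsg.Statements.S4725
import Cfsg.Agent.Lib.Helper7.BlockThird
import Cfsg.Agent.Lib.Helper25.Ind

set_option autoImplicit false
open Cfsg

namespace Cfsg.Agent.S4725

open Cfsg.Agent.Lib.Helper7
open scoped ComplexConjugate


/-- Let p be a prime, M a maximal ideal of the algebraic integers containing p, H a subgroup of the finite group G, and b a p-block of H inducing the p-block B of G, with b and B of the same defect. Then for every height-zero ζ ∈ b there is a height-zero χ ∈ B whose multiplicity in the character induced from ζ is not divisible by p. -/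
theorem result {G : Type*} [Group G] [Fintype G] (p : ℕ) [Fact p.Prime] (M : Ideal Cfsg.AlgInt) (hM : Cfsg.IsPModular p M) (H : Subgroup G) (b : Set (Cfsg.IrrCharacter ↥H)) (B : Set (Cfsg.IrrCharacter G)) (hind : Cfsg.IsInducedBlock M H b B) (hdef : Cfsg.blockDefect p b = Cfsg.blockDefect p B) (ζ : Cfsg.IrrCharacter ↥H) (hζ : ζ ∈ b) (hζ0 : Cfsg.blockHeight p b (ζ : ↥H → ℂ) = 0) : ∃ χ ∈ B, Cfsg.blockHeight p B (χ : G → ℂ) = 0 ∧ ∃ a : ℕ, Cfsg.classInner (Cfsg.indFun H (ζ : ↥H → ℂ)) (χ : G → ℂ) = (a : ℂ) ∧ ¬ p ∣ a := by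
  classical
  haveI := hM.2.1.isPrime
  haveI : Fintype H := Fintype.ofFinite H
  haveI := Fintype.ofFinite (Cfsg.IrrCharacter G)
  obtain ⟨hb, hB, -⟩ := id hind
  obtain ⟨χ0, hχ0⟩ := isPBlock_nonempty hB
  have h1 := induced_congr hind hζ hχ0 (isClassFunction_blockCoeff B) (fun g => osima hB g)
  rw [Om_blockCoeff, Set.indicator_of_mem hχ0] at h1
  set u := Om (resH H (Cfsg.blockCoeff B)) ζ with hu
  have hu1 : ¬ MemLocalIdeal M u := not_memLocalIdeal_of_sub h1 not_memLocalIdeal_one
  have hmult : ∀ χ : Cfsg.IrrCharacter G, ∃ a : ℕ,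
      Cfsg.classInner (ζ : H → ℂ) (fun h : H => (χ : G → ℂ) h) = a :=
    fun χ => classInner_char_nat (isCharacter_of_irr ζ.2)
      (isCharacter_restrict (isCharacter_of_irr χ.2) H)
  choose a ha using hmult
  have hfrob : ∀ χ : Cfsg.IrrCharacter G,
      Cfsg.classInner (Cfsg.indFun H (ζ : H → ℂ)) (χ : G → ℂ) = a χ := fun χ => by
    rw [Cfsg.Agent.Lib.Helper25.frobenius_reciprocity H _ _ (isClassFunction_irr χ), ha]
  have hG0 : (Nat.card G : ℂ) ≠ 0 := by exact_mod_cast Nat.card_pos.ne'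
  have hH0 : (Nat.card H : ℂ) ≠ 0 := by exact_mod_cast Nat.card_pos.ne'
  have hζ1 := irr_apply_one_ne_zero ζ.2
  have hsum : ∀ χ : Cfsg.IrrCharacter G, ∑ h : H, (ζ : H → ℂ) h * conj ((χ : G → ℂ) h)
      = (Nat.card H : ℂ) * a χ := by
    intro χ
    rw [← ha χ, Cfsg.classInner, mul_inv_cancel_left₀ hH0]
  have hkey : (Nat.card G : ℂ) * ((ζ : H → ℂ) 1 * u)
      = (Nat.card H : ℂ) * ∑ χ : Cfsg.IrrCharacter G,
        B.indicator (fun χ => (a χ : ℂ) * (χ : G → ℂ) 1) χ := by
    rw [hu, Om, mul_div_cancel₀ _ hζ1]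
    simp only [resH, blockCoeff_eq_sum]
    simp only [Finset.mul_sum, Finset.sum_mul]
    rw [Finset.sum_comm]
    apply Finset.sum_congr rfl
    intro χ _
    by_cases hχ : χ ∈ B
    · simp only [Set.indicator_of_mem hχ]
      have e : ∑ h : H, (Nat.card G : ℂ) * ((Nat.card G : ℂ)⁻¹
            * ((χ : G → ℂ) 1 * conj ((χ : G → ℂ) h)) * (ζ : H → ℂ) h)
          = (χ : G → ℂ) 1 * ∑ h : H, (ζ : H → ℂ) h * conj ((χ : G → ℂ) h) := by
        rw [Finset.mul_sum]
        apply Finset.sum_congr rfl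
        intro h _
        field_simp
      rw [e, hsum]
      ring
    · simp [Set.indicator_of_notMem hχ]
  by_contra hcon
  push Not at hcon
  set m := sInf ((fun χ : Cfsg.IrrCharacter G => (Cfsg.charDegree (χ : G → ℂ)).factorization p) '' B)
    with hm
  set S : ℕ := ∑ χ : Cfsg.IrrCharacter G,
    B.indicator (fun χ => a χ * Cfsg.charDegree (χ : G → ℂ)) χ with hS
  have hSc : (S : ℂ) = ∑ χ : Cfsg.IrrCharacter G,
      B.indicator (fun χ => (a χ : ℂ) * (χ : G → ℂ) 1) χ := by
    rw [hS]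
    push_cast
    apply Finset.sum_congr rfl
    intro χ _
    by_cases hχ : χ ∈ B
    · rw [Set.indicator_of_mem hχ, Set.indicator_of_mem hχ]
      push_cast
      rw [charDegree_cast (isCharacter_of_irr χ.2)]
    · rw [Set.indicator_of_notMem hχ, Set.indicator_of_notMem hχ]; simp
  have hSdvd : p ^ (m + 1) ∣ S := by
    apply Finset.dvd_sum
    intro χ _
    by_cases hχ : χ ∈ B
    · rw [Set.indicator_of_mem hχ]
      by_cases hht : Cfsg.blockHeight p B (χ : G → ℂ) = 0
      · have hp := hcon χ hχ hht (a χ) (hfrob χ)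
        have h2 : p ^ m ∣ Cfsg.charDegree (χ : G → ℂ) :=
          (Nat.Prime.pow_dvd_iff_le_factorization hM.1 (charDegree_pos χ).ne').2
            (sInf_le_of_mem p hχ)
        rw [pow_succ, mul_comm]
        exact mul_dvd_mul hp h2
      · have h2 : p ^ (m + 1) ∣ Cfsg.charDegree (χ : G → ℂ) :=
          (Nat.Prime.pow_dvd_iff_le_factorization hM.1 (charDegree_pos χ).ne').2 (by
            rw [Cfsg.blockHeight] at hht
            omega)
        exact Dvd.dvd.mul_left h2 _
    · rw [Set.indicator_of_notMem hχ]; exact dvd_zero _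
  set T : ℕ := H.index * Cfsg.charDegree (ζ : H → ℂ) with hT
  have hidx0 : H.index ≠ 0 := Subgroup.index_ne_zero_of_finite
  have hT0 : T ≠ 0 := mul_ne_zero hidx0 (charDegree_pos ζ).ne'
  have hcard := Subgroup.card_mul_index H
  have huST : u = (S : ℂ) / (T : ℂ) := by
    have hTc : (T : ℂ) ≠ 0 := by exact_mod_cast hT0
    rw [eq_div_iff hTc, hSc]
    apply mul_left_cancel₀ hH0
    rw [← hkey, ← hcard, hT]
    push_cast
    rw [charDegree_cast (isCharacter_of_irr ζ.2)]
    ring
  have hS0 : S ≠ 0 := by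
    intro h
    apply hu1
    rw [huST, h]
    simp only [Nat.cast_zero, zero_div]
    exact memLocalIdeal_zero
  apply hu1
  rw [huST, memLocalIdeal_div_iff hM hS0 hT0]
  have h3 : m + 1 ≤ S.factorization p :=
    (Nat.Prime.pow_dvd_iff_le_factorization hM.1 hS0).1 hSdvd
  have h4 : T.factorization p = H.index.factorization p
      + (Cfsg.charDegree (ζ : H → ℂ)).factorization p := by
    rw [hT, Nat.factorization_mul hidx0 (charDegree_pos ζ).ne']; rfl
  have h5 : (Nat.card G).factorization p = (Nat.card H).factorization p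
      + H.index.factorization p := by
    rw [← hcard, Nat.factorization_mul Nat.card_pos.ne' hidx0]; rfl
  have h6 := sInf_le_of_mem p hζ
  have h7 := sInf_le_factorization_card hb p
  have h8 := sInf_le_factorization_card hB p
  rw [Cfsg.blockHeight] at hζ0
  rw [Cfsg.blockDefect, Cfsg.blockDefect] at hdef
  omega

end Cfsg.Agent.S4725
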