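import Cfsg.Statements.S4729
import Cfsg.Agent.Lib.Helper1.RegTools

set_option autoImplicit false
open Cfsg

namespace Cfsg.Agent.S4729

open Cfsg.Agent.Lib.Helper1 Cfsg.Agent.Lib.Helper7 Cfsg.Agent.Lib.Helper24
open scoped ComplexConjugate

theorem geom_zero {z : ℂ} {o : ℕ} (hz : z ^ o = 1) (hne : z ≠ 1) :
    ∑ j ∈ Finset.range o, z ^ j = 0 := by
  have h1 := mul_geom_sum z o
  rw [hz, sub_self] at h1
  exact (mul_eq_zero.1 h1).resolve_left (sub_ne_zero.2 hne)

theorem mult_dvd {p : ℕ} {M : Ideal Cfsg.AlgInt} (hM : Cfsg.IsPModular p M) {ι : Type}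
    [Fintype ι] [DecidableEq ℂ] (μ : ι → ℂ) {o : ℕ} (ho : ¬ p ∣ o) (hμ : ∀ i, μ i ^ o = 1)
    (hcong : ∀ j : ℕ, Cfsg.MemLocalIdeal M (∑ i, μ i ^ j - (Fintype.card ι : ℂ)))
    {l : ℂ} (hl : l ^ o = 1) (hl1 : l ≠ 1) :
    p ∣ (Finset.univ.filter (fun i => μ i = l)).card := by
  haveI := hM.2.1.isPrime
  have hp := hM.1
  have ho0 : o ≠ 0 := fun h => ho (h ▸ dvd_zero p)
  set l' : ℂ := l ^ (o - 1) with hl'
  have hll' : l * l' = 1 := by
    rw [hl', ← pow_succ', Nat.sub_add_cancel (Nat.pos_of_ne_zero ho0), hl]
  have hl'o : l' ^ o = 1 := by rw [hl', ← pow_mul, mul_comm, pow_mul, hl, one_pow]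
  have hl'1 : l' ≠ 1 := by
    intro h
    rw [h, mul_one] at hll'
    exact hl1 hll'
  have hint : IsIntegral ℤ l' := by
    refine IsIntegral.of_pow (Nat.pos_of_ne_zero ho0) ?_
    rw [hl'o]
    exact isIntegral_one
  have hring : Cfsg.MemLocalRing M l' := memLocalRing_of_isIntegral hint
  have h1 : Cfsg.MemLocalIdeal M (∑ j ∈ Finset.range o,
      l' ^ j * (∑ i, μ i ^ j - (Fintype.card ι : ℂ))) :=
    memLocalIdeal_sum _ _ (fun j _ => memLocalIdeal_mul_left (memLocalRing_pow hring j) (hcong j))
  have h2 : ∑ j ∈ Finset.range o, l' ^ j * (∑ i, μ i ^ j - (Fintype.card ι : ℂ))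
      = ((o * (Finset.univ.filter (fun i => μ i = l)).card : ℕ) : ℂ) := by
    simp only [mul_sub, Finset.sum_sub_distrib]
    rw [← Finset.sum_mul, geom_zero hl'o hl'1, zero_mul, sub_zero]
    simp only [Finset.mul_sum]
    rw [Finset.sum_comm]
    have h3 : ∀ i, ∑ j ∈ Finset.range o, l' ^ j * μ i ^ j = if μ i = l then (o : ℂ) else 0 := by
      intro i
      simp only [← mul_pow]
      split_ifs with h
      · rw [h, mul_comm, hll']
        simp
      · apply geom_zero
        · rw [mul_pow, hl'o, hμ, one_mul]
        · intro h4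
          apply h
          calc μ i = (l * l') * μ i := by rw [hll', one_mul]
            _ = l * (l' * μ i) := by ring
            _ = l := by rw [h4, mul_one]
    simp only [h3]
    rw [← Finset.sum_filter, Finset.sum_const, nsmul_eq_mul]
    push_cast
    ring
  rw [h2, memLocalIdeal_natCast_iff hM] at h1
  exact (hp.dvd_mul.1 h1).resolve_left ho

theorem eigen_det {G : Type*} [Group G] [Finite G] (hperf : commutator G = ⊤) {χ : G → ℂ}
    (hχ : Cfsg.IsCharacter G χ) (g : G) :
    ∃ (ι : Type) (_ : Fintype ι) (μ : ι → ℂ), (∀ i, μ i ^ orderOf g = 1) ∧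
      (∀ k : ℕ, χ (g ^ k) = ∑ i, μ i ^ k) ∧ ∏ i, μ i = 1 := by
  classical
  obtain ⟨n, ρ, rfl⟩ := hχ
  obtain ⟨ι, hι, b, μ, h1, h2, h3, -⟩ := Cfsg.Agent.Lib.Helper2.exists_rep_eigenbasis ρ g
  refine ⟨ι, hι, μ, h2, fun k => ?_, ?_⟩
  · rw [Representation.character, Cfsg.Agent.Lib.Helper2.trace_of_diag b _ _ (h3 k)]
  · have hdet : LinearMap.det (ρ g) = ∏ i, μ i := by
      rw [← LinearMap.det_toMatrix b]
      have : LinearMap.toMatrix b b (ρ g) = Matrix.diagonal μ := by
        ext i j
        simp [LinearMap.toMatrix_apply, h1, Matrix.diagonal_apply, Finsupp.single_apply, eq_comm]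
        split_ifs with h
        · rw [h]
        · rfl
      rw [this, Matrix.det_diagonal]
    rw [← hdet]
    let δ : G →* ℂ := LinearMap.det.comp ρ
    have hker : commutator G ≤ δ.toHomUnits.ker := Abelianization.commutator_subset_ker _
    rw [hperf] at hker
    have h5 : δ.toHomUnits g = 1 := hker (Subgroup.mem_top g)
    have h6 := congrArg (fun u : ℂˣ => (u : ℂ)) h5
    exact h6

/-- Let p be a prime, M a maximal ideal of the algebraic integers containing p, G a finite perfect group and P a Sylow p-subgroup. If the principal p-block of G contains a faithful irreducible character of degree less than 2p, then the centralizer of P is a p-group. -/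
theorem result {G : Type*} [Group G] [Finite G] (p : ℕ) [Fact p.Prime] (M : Ideal Cfsg.AlgInt) (hM : Cfsg.IsPModular p M) (hperf : commutator G = ⊤) (P : Sylow p G) (χ : Cfsg.IrrCharacter G) (hχ : χ ∈ Cfsg.principalBlock M G) (hfaith : ∀ g : G, (χ : G → ℂ) g = (χ : G → ℂ) 1 → g = 1) (hdeg : Cfsg.charDegree (χ : G → ℂ) < 2 * p) : IsPGroup p ↥(Subgroup.centralizer ((P : Subgroup G) : Set G)) := by
  classical
  haveI := hM.2.1.isPrime
  have hp : p.Prime := Fact.out
  obtain ⟨a, m, hm, hcard⟩ := Nat.exists_eq_pow_mul_and_not_dvd (Nat.card_pos (α := G)).ne' p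
    hp.ne_one
  have hχc := Cfsg.Agent.Lib.Helper7.isCharacter_of_irr χ.2
  -- key: p'-elements of the centralizer are trivial
  have key : ∀ y : G, y ∈ Subgroup.centralizer ((P : Subgroup G) : Set G) → y ^ m = 1 → y = 1 := by
    intro y hy hym
    have ho : ¬ p ∣ orderOf y := fun h => hm (h.trans (orderOf_dvd_of_pow_eq_one hym))
    obtain ⟨ι, hι, μ, hμ, hsum, hprod⟩ := eigen_det hperf hχc y
    have hcardι : (χ : G → ℂ) 1 = (Fintype.card ι : ℂ) := by
      have := hsum 0
      simpa using this
    have hdegι : Fintype.card ι = Cfsg.charDegree (χ : G → ℂ) := by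
      have h1 := charDegree_cast hχc
      rw [hcardι] at h1
      exact_mod_cast h1.symm
    have hcong : ∀ j : ℕ, Cfsg.MemLocalIdeal M (∑ i, μ i ^ j - (Fintype.card ι : ℂ)) := by
      intro j
      have h1 := ad_ratio hM hχ (y ^ j) (P : Subgroup G) P.not_dvd_index (by
        intro q hq
        rw [Subgroup.mem_centralizer_singleton_iff]
        have h2 := (Subgroup.mem_centralizer_iff.1 hy) q hq
        exact (Commute.pow_right (show Commute q y from h2) j))
      have h2 := memLocalIdeal_mul_left (memLocalRing_natCast (M := M) (Fintype.card ι)) h1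
      rw [← hsum j, ← hcardι]
      rw [← hcardι] at h2
      convert h2 using 1
      have h0 := irr_apply_one_ne_zero χ.2
      field_simp
    have hdvd : ∀ l : ℂ, l ^ orderOf y = 1 → l ≠ 1 →
        p ∣ (Finset.univ.filter (fun i => μ i = l)).card :=
      fun l hl hl1 => mult_dvd hM μ ho hμ hcong hl hl1
    have hall : ∀ i, μ i = 1 := by
      by_contra hcon
      push Not at hcon
      obtain ⟨i0, hi0⟩ := hcon
      set l := μ i0 with hl
      set S := Finset.univ.filter (fun i => μ i = l) with hS
      have hSd : p ∣ S.card := hdvd l (hμ i0) hi0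
      have hSpos : 0 < S.card :=
        Finset.card_pos.2 ⟨i0, Finset.mem_filter.2 ⟨Finset.mem_univ _, rfl⟩⟩
      have hSle : S.card ≤ Fintype.card ι := Finset.card_le_univ _
      have hother : ∀ i, μ i = l ∨ μ i = 1 := by
        intro i
        by_contra hne
        push Not at hne
        set S2 := Finset.univ.filter (fun k => μ k = μ i) with hS2
        have hS2d : p ∣ S2.card := hdvd (μ i) (hμ i) hne.2
        have hS2pos : 0 < S2.card :=
          Finset.card_pos.2 ⟨i, Finset.mem_filter.2 ⟨Finset.mem_univ _, rfl⟩⟩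
        have hdisj : Disjoint S S2 := by
          rw [Finset.disjoint_left]
          intro k hk hk2
          rw [hS, Finset.mem_filter] at hk
          rw [hS2, Finset.mem_filter] at hk2
          exact hne.1 (hk2.2.symm.trans hk.2)
        have h1 : S.card + S2.card ≤ Fintype.card ι := by
          rw [← Finset.card_union_of_disjoint hdisj]
          exact Finset.card_le_univ _
        have h2 := Nat.le_of_dvd hSpos hSd
        have h3 := Nat.le_of_dvd hS2pos hS2d
        omega
      have hScard : S.card = p := by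
        obtain ⟨t, ht⟩ := hSd
        have ht1 : t = 1 := by
          have h1 : p * t < 2 * p := by rw [← ht]; omega
          have h2 : t < 2 := by
            by_contra h
            push Not at h
            have : 2 * p ≤ p * t := by rw [mul_comm]; exact Nat.mul_le_mul_left p h
            omega
          have h3 : t ≠ 0 := by
            rintro rfl
            rw [mul_zero] at ht
            omega
          omega
        rw [ht, ht1, mul_one]
      have hprod2 : ∏ i, μ i = l ^ S.card := by
        have h1 : ∀ i, μ i = if μ i = l then l else 1 := by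
          intro i
          split_ifs with h
          · exact h
          · exact (hother i).resolve_left h
        rw [Finset.prod_congr rfl (fun i _ => h1 i), Finset.prod_ite, Finset.prod_const,
          Finset.prod_const_one, mul_one]
      rw [hprod, hScard] at hprod2
      have hcop : Nat.Coprime p (orderOf y) := (Nat.Prime.coprime_iff_not_dvd hp).2 ho
      have h7 := pow_gcd_eq_one.2 ⟨hprod2.symm, hμ i0⟩
      rw [Nat.Coprime.gcd_eq_one hcop, pow_one] at h7
      exact hi0 h7
    apply hfaith
    have h1 := hsum 1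
    rw [pow_one] at h1
    rw [h1, hcardι]
    simp [hall]
  intro c
  refine ⟨a, ?_⟩
  apply Subtype.ext
  rw [Subgroup.coe_pow, Subgroup.coe_one]
  apply key
  · exact Subgroup.pow_mem _ c.2 _
  · rw [← pow_mul, ← hcard, pow_card_eq_one']

end Cfsg.Agent.S4729
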