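import Cfsg.Statements.S4730
import Cfsg.Agent.Lib.Helper24.BlockDim
import Cfsg.Agent.Lib.Helper2.CharBurn
import Cfsg.Agent.Lib.Helper2.CharKer

set_option autoImplicit false
open Cfsg

namespace Cfsg.Agent.S4730

open Cfsg.Agent.Lib.Helper7 Cfsg.Agent.Lib.Helper24

/-- a faithful irreducible character of prime power degree of a group with trivial centre vanishes
at the nonidentity elements whose class has size prime to `p` -/
theorem vanish_of_coprime {G : Type*} [Group G] [Finite G] (p : ℕ) [Fact p.Prime]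
    (hZ : Subgroup.center G = ⊥) (χ : Cfsg.IrrCharacter G)
    (hfaith : ∀ g : G, (χ : G → ℂ) g = (χ : G → ℂ) 1 → g = 1) (n : ℕ)
    (hdeg : Cfsg.charDegree (χ : G → ℂ) = p ^ n) (g : G) (hg1 : g ≠ 1)
    (hidx : ¬ p ∣ (Subgroup.centralizer ({g} : Set G)).index) : (χ : G → ℂ) g = 0 := by
  classical
  have hdeg' : (χ : G → ℂ) 1 = ((p ^ n : ℕ) : ℂ) := by
    rw [← hdeg, charDegree_cast (isCharacter_of_irr χ.2)]
  obtain ⟨χf, m, ρ, hρ, rfl⟩ := χ
  simp only at hfaith hdeg' ⊢
  have hn : m = p ^ n := by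
    have h1 : ρ.character 1 = (m : ℂ) := by
      rw [Representation.char_one, Module.finrank_fin_fun]
    rw [h1] at hdeg'
    exact_mod_cast hdeg'
  have hcop : Nat.Coprime (Module.finrank ℂ (Fin m → ℂ))
      (Subgroup.centralizer ({g} : Set G)).index := by
    rw [Module.finrank_fin_fun, hn]
    exact Nat.Coprime.pow_left n ((Nat.Prime.coprime_iff_not_dvd Fact.out).2 hidx)
  rcases Cfsg.Agent.Lib.Helper2.burnside_coprime ρ g hcop with h | h
  · exact h
  · exfalso
    obtain ⟨ω, hω⟩ := (Cfsg.Agent.Lib.Helper2.norm_char_eq_iff ρ g).1 h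
    have hker : ∀ x : G, ρ x = 1 → x = 1 := by
      intro x hx
      apply hfaith
      simp only [Representation.character, hx, map_one]
    have hcen : g ∈ Subgroup.center G := by
      rw [Subgroup.mem_center_iff]
      intro x
      have h1 : ρ (x * g * x⁻¹ * g⁻¹) = 1 := by
        rw [map_mul, map_mul, map_mul, hω]
        have h2 : ρ x * (ω • LinearMap.id) * ρ x⁻¹ = ω • LinearMap.id := by
          rw [mul_smul_comm, smul_mul_assoc]
          congr 1
          have : ρ x * LinearMap.id = ρ x := mul_one _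
          rw [this, ← map_mul, mul_inv_cancel, map_one]
          rfl
        rw [h2, ← hω, ← map_mul, mul_inv_cancel, map_one]
      have h3 : x * g * x⁻¹ = g := mul_inv_eq_one.1 (hker _ h1)
      exact mul_inv_eq_iff_eq_mul.1 h3
    rw [hZ, Subgroup.mem_bot] at hcen
    exact hg1 hcen


/-- Let p be a prime, M a maximal ideal of the algebraic integers containing p, and G a finite group with trivial centre, Sylow p-subgroup P of order p^a and centre Z(P) of order p^b. If χ is a faithful irreducible character of G whose degree is a power of p, then the p-block of χ has defect at most a − b; in particular, if P is abelian then χ lies in a block of defect zero. -/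
theorem result {G : Type*} [Group G] [Finite G] (p : ℕ) [Fact p.Prime] (M : Ideal Cfsg.AlgInt) (hM : Cfsg.IsPModular p M) (hZ : Subgroup.center G = ⊥) (P : Sylow p G) (a b : ℕ) (ha : Nat.card P = p ^ a) (hb : Nat.card (Subgroup.center ↥(P : Subgroup G)) = p ^ b) (χ : Cfsg.IrrCharacter G) (hfaith : ∀ g : G, (χ : G → ℂ) g = (χ : G → ℂ) 1 → g = 1) (n : ℕ) (hdeg : Cfsg.charDegree (χ : G → ℂ) = p ^ n) : Cfsg.blockDefect p (Cfsg.blockOf M (χ : G → ℂ)) ≤ a - b ∧ (IsMulCommutative ↥(P : Subgroup G) → Cfsg.blockDefect p (Cfsg.blockOf M (χ : G → ℂ)) = 0) := by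
  classical
  haveI := hM.2.1.isPrime
  have hp : p.Prime := Fact.out
  set B := Cfsg.blockOf M (χ : G → ℂ) with hBdef
  have hB : Cfsg.IsPBlock M B := ⟨χ, rfl⟩
  set Z : Subgroup G := (Subgroup.center ↥(P : Subgroup G)).map (P : Subgroup G).subtype with hZdef
  haveI : Fintype Z := Fintype.ofFinite _
  have hZcard : Nat.card Z = p ^ b := by
    rw [hZdef, Subgroup.card_map_of_injective (Subgroup.subtype_injective _)]
    exact hb
  have hidx : ∀ z ∈ Z, ¬ p ∣ (Subgroup.centralizer ({z} : Set G)).index := by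
    rintro z ⟨w, hw, rfl⟩ h
    have hle : (P : Subgroup G) ≤ Subgroup.centralizer ({((P : Subgroup G).subtype w)} : Set G) := by
      intro x hx
      rw [Subgroup.mem_centralizer_singleton_iff]
      have := Subgroup.mem_center_iff.1 hw ⟨x, hx⟩
      exact congrArg Subtype.val this
    exact P.not_dvd_index (h.trans (Subgroup.index_dvd_of_le hle))
  have hvan : ∀ z ∈ Z, z ≠ 1 → (χ : G → ℂ) z = 0 := fun z hz hz1 =>
    vanish_of_coprime p hZ χ hfaith n hdeg z hz1 (hidx z hz)
  have hkey : ∀ ψ ∈ B, b ≤ (Cfsg.charDegree (ψ : G → ℂ)).factorization p := by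
    intro ψ hψ
    have hψ1 := irr_apply_one_ne_zero ψ.2
    have hq : ∀ z : Z, z ≠ 1 → MemLocalIdeal M ((ψ : G → ℂ) z / (ψ : G → ℂ) 1) := by
      intro z hz
      have hz1 : (z : G) ≠ 1 := fun h => hz (Subtype.ext h)
      have h1 := (mem_blockOf.1 hψ) (z : G)
      simp only [Cfsg.centralChar, hvan z z.2 hz1, mul_zero, zero_div, zero_sub] at h1
      have h2 := memLocalIdeal_neg h1
      rw [neg_neg] at h2
      have h3 := memLocalIdeal_mul_left (memLocalRing_inv_natCast hM (hidx z z.2)) h2
      have hi0 : ((Subgroup.centralizer ({(z : G)} : Set G)).index : ℂ) ≠ 0 := by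
        exact_mod_cast Subgroup.index_ne_zero_of_finite
      have e : ((Subgroup.centralizer ({(z : G)} : Set G)).index : ℂ)⁻¹
          * (((Subgroup.centralizer ({(z : G)} : Set G)).index : ℂ) * (ψ : G → ℂ) z / (ψ : G → ℂ) 1)
          = (ψ : G → ℂ) z / (ψ : G → ℂ) 1 := by
        field_simp
      rwa [e] at h3
    obtain ⟨k, hk⟩ := exists_trivial_mult Z ψ
    set π := ∑ z ∈ Finset.univ.erase (1 : Z), (ψ : G → ℂ) z / (ψ : G → ℂ) 1 with hπ
    have hπI : MemLocalIdeal M π :=
      memLocalIdeal_sum _ _ (fun z hz => hq z (Finset.mem_erase.1 hz).1)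
    have h1 : ∑ z : Z, (ψ : G → ℂ) z = (ψ : G → ℂ) 1 * (1 + π) := by
      rw [← Finset.add_sum_erase _ _ (Finset.mem_univ (1 : Z)), hπ, mul_add, mul_one,
        Finset.mul_sum]
      congr 1
      apply Finset.sum_congr rfl
      intro z _
      field_simp
    have hu : ¬ MemLocalIdeal M (1 + π) := by
      apply not_memLocalIdeal_of_sub (y := 1) _ not_memLocalIdeal_one
      rw [add_sub_cancel_left]; exact hπI
    have huS : MemLocalRing M (1 + π) :=
      memLocalRing_add memLocalRing_one (memLocalRing_of_memLocalIdeal hπI)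
    have hu0 := ne_zero_of_not_memLocalIdeal hu
    have hpb0 : ((p ^ b : ℕ) : ℂ) ≠ 0 := by exact_mod_cast pow_ne_zero b hp.ne_zero
    have h2 : ((Cfsg.charDegree (ψ : G → ℂ) : ℕ) : ℂ) / ((p ^ b : ℕ) : ℂ) = (k : ℂ) * (1 + π)⁻¹ := by
      rw [charDegree_cast (isCharacter_of_irr ψ.2), div_eq_iff hpb0]
      rw [hk, hZcard] at h1
      field_simp
      rw [← h1]; ring
    have h3 : MemLocalRing M (((Cfsg.charDegree (ψ : G → ℂ) : ℕ) : ℂ) / ((p ^ b : ℕ) : ℂ)) := by
      rw [h2]
      exact memLocalRing_mul (memLocalRing_natCast k) (memLocalRing_inv huS hu)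
    rw [memLocalRing_div_iff hM (charDegree_pos ψ).ne' (pow_ne_zero b hp.ne_zero),
      hp.factorization_pow, Finsupp.single_eq_same] at h3
    exact h3
  have ha' : (Nat.card G).factorization p = a := by
    have h1 : Nat.card (P : Subgroup G) = p ^ (Nat.card G).factorization p :=
      P.card_eq_multiplicity
    have h2 : Nat.card (P : Subgroup G) = p ^ a := ha
    rw [h2] at h1
    exact (Nat.pow_right_injective hp.two_le h1).symm
  obtain ⟨ψ₀, hψ₀, hmin⟩ := exists_height_zero hB p
  have hle : Cfsg.blockDefect p B ≤ a - b := by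
    rw [Cfsg.blockDefect, ← hmin, ha']
    have := hkey ψ₀ hψ₀
    omega
  refine ⟨hle, ?_⟩
  intro hcomm
  have hab : a = b := by
    have h1 : Subgroup.center ↥(P : Subgroup G) = ⊤ := by
      rw [eq_top_iff]
      intro x _
      rw [Subgroup.mem_center_iff]
      intro y
      exact hcomm.is_comm.comm y x
    rw [h1, Subgroup.card_top] at hb
    have h2 : Nat.card (P : Subgroup G) = p ^ a := ha
    rw [h2] at hb
    exact Nat.pow_right_injective hp.two_le hb
  omega

end Cfsg.Agent.S4730
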