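import Cfsg.Statements.S4731
import Cfsg.Agent.Lib.Helper24.BlockDim
import Cfsg.Agent.Lib.Helper24.BlockSubsec

set_option autoImplicit false
open Cfsg

namespace Cfsg.Agent.S4731

open Cfsg.Agent.Lib.Helper7 Cfsg.Agent.Lib.Helper24


/-- Let p ≠ q be primes, M_p and M_q maximal ideals of the algebraic integers containing p and q respectively, and G a finite group with no element of order pq; let q^b be the q-part of the order of G. For a p-block B_p (relative to M_p), a q-block B_q (relative to M_q) and a p-singular element y, the sum of χ(1)χ(y) over the irreducible characters χ lying in both B_p and B_q is q^b times an algebraic integer. -/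
theorem result {G : Type*} [Group G] [Finite G] (p q : ℕ) [Fact p.Prime] [Fact q.Prime] (hpq : p ≠ q) (Mp Mq : Ideal Cfsg.AlgInt) (hMp : Cfsg.IsPModular p Mp) (hMq : Cfsg.IsPModular q Mq) (hno : ∀ g : G, orderOf g ≠ p * q) (b : ℕ) (hb : (Nat.card G).factorization q = b) (Bp : Set (Cfsg.IrrCharacter G)) (hBp : Cfsg.IsPBlock Mp Bp) (Bq : Set (Cfsg.IrrCharacter G)) (hBq : Cfsg.IsPBlock Mq Bq) (y : G) (hy : p ∣ orderOf y) : ∃ ω : Cfsg.AlgInt, ∑ᶠ χ ∈ Bp ∩ Bq, (Cfsg.charDegree (χ : G → ℂ) : ℂ) * (χ : G → ℂ) y = (q : ℂ) ^ b * (ω : ℂ) := by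
  classical
  haveI := Fintype.ofFinite G
  haveI := Fintype.ofFinite (IrrCharacter G)
  haveI := hMq.2.1.isPrime
  haveI := hMp.2.1.isPrime
  set a : IrrCharacter G → ℂ := Bp.indicator (fun χ => (χ : G → ℂ) y) with ha
  set f : G → ℂ := ∑ χ : IrrCharacter G, a χ • (χ : G → ℂ) with hf
  have hfx : ∀ x : G, f x = ∑ χ : IrrCharacter G, a χ * (χ : G → ℂ) x := by
    intro x
    simp [hf, Finset.sum_apply]
  -- `f` vanishes on the `p`-regular elements
  have hf0 : ∀ x : G, ¬ p ∣ orderOf x → f x = 0 := by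
    intro x hx
    have h := block_kernel_eq_zero hMp hBp (isSectionClosed_regular hMp.1) (u := x) (g := y⁻¹) hx
      (by simpa using hy)
    rw [inv_inv, finsum_mem_eq_sum_indicator] at h
    rw [hfx, ← h]
    apply Finset.sum_congr rfl
    intro χ _
    by_cases hχ : χ ∈ Bp
    · rw [ha, Set.indicator_of_mem hχ, Set.indicator_of_mem hχ, mul_comm]
    · rw [ha, Set.indicator_of_notMem hχ, Set.indicator_of_notMem hχ, zero_mul]
  -- `q`-singular elements are `p`-regular
  have hpq' : ∀ x : G, q ∣ orderOf x → ¬ p ∣ orderOf x := by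
    intro x hq hp
    have hcop : Nat.Coprime p q := (Nat.coprime_primes Fact.out Fact.out).2 hpq
    obtain ⟨m, hm⟩ := hcop.mul_dvd_of_dvd_of_dvd hp hq
    apply hno (x ^ m)
    have h0 : m ≠ 0 := by
      rintro rfl
      exact (orderOf_pos x).ne' (by simpa using hm)
    rw [orderOf_pow_of_dvd h0 ⟨p * q, by rw [hm]; ring⟩, hm]
    exact Nat.mul_div_cancel _ (Nat.pos_of_ne_zero h0)
  have hind : ({x : G | ¬ q ∣ orderOf x} : Set G).indicator f = f := by
    ext x
    by_cases hx : q ∣ orderOf x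
    · rw [Set.indicator_of_notMem (s := {x : G | ¬ q ∣ orderOf x}) (fun h => h hx),
        hf0 x (hpq' x hx)]
    · rw [Set.indicator_of_mem (s := {x : G | ¬ q ∣ orderOf x}) hx]
  have hg0 : ∀ x : G, q ∣ orderOf x → blockPart Bq f x = 0 := by
    intro x hx
    rw [← hind, blockPart_indicator_union hMq (isBlockUnion_of_isPBlock hBq)
      (isSectionClosed_regular hMq.1),
      Set.indicator_of_notMem (s := {x : G | ¬ q ∣ orderOf x}) (fun h => h hx)]
  have hgx : ∀ x : G, blockPart Bq f x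
      = ∑ χ : IrrCharacter G, (Bp ∩ Bq).indicator (fun χ => (χ : G → ℂ) y * (χ : G → ℂ) x) χ := by
    intro x
    rw [hf, blockPart_sum_smul]
    apply Finset.sum_congr rfl
    intro χ _
    rw [blockPart_irr]
    by_cases h1 : χ ∈ Bp
    · by_cases h2 : χ ∈ Bq
      · rw [ha, Set.indicator_of_mem h1, Set.indicator_of_mem h2,
          Set.indicator_of_mem (s := Bp ∩ Bq) ⟨h1, h2⟩]
      · rw [Set.indicator_of_notMem h2, Set.indicator_of_notMem (s := Bp ∩ Bq) (fun h => h2 h.2),
          mul_zero]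
    · rw [ha, Set.indicator_of_notMem h1, Set.indicator_of_notMem (s := Bp ∩ Bq) (fun h => h1 h.1),
        zero_mul]
  obtain ⟨Q⟩ : Nonempty (Sylow q G) := inferInstance
  haveI := Fintype.ofFinite (Q : Subgroup G)
  have hQ : Nat.card (Q : Subgroup G) = q ^ b := by
    rw [← hb]; exact Sylow.card_eq_multiplicity Q
  choose n hn using fun ψ : IrrCharacter G => exists_trivial_mult (Q : Subgroup G) ψ
  have h1 : ∑ x : (Q : Subgroup G), blockPart Bq f (x : G) = blockPart Bq f 1 := by
    rw [Finset.sum_eq_single (1 : (Q : Subgroup G))]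
    · simp
    · intro x _ hx
      exact hg0 _ (singular_of_mem_pGroup Q.2 x.2 (fun h => hx (Subtype.ext h)))
    · intro h; exact absurd (Finset.mem_univ _) h
  simp only [hgx] at h1
  rw [Finset.sum_comm] at h1
  refine ⟨∑ χ : IrrCharacter G, (Bp ∩ Bq).indicator
    (fun χ => n χ • (⟨(χ : G → ℂ) y, char_isIntegral (isCharacter_of_irr χ.2) y⟩ : AlgInt)) χ, ?_⟩
  rw [finsum_mem_eq_sum_indicator]
  have e1 : ∑ χ : IrrCharacter G, (Bp ∩ Bq).indicator
      (fun χ => (charDegree (χ : G → ℂ) : ℂ) * (χ : G → ℂ) y) χ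
      = ∑ χ : IrrCharacter G, (Bp ∩ Bq).indicator (fun χ => (χ : G → ℂ) y * (χ : G → ℂ) 1) χ := by
    apply Finset.sum_congr rfl
    intro χ _
    by_cases hχ : χ ∈ Bp ∩ Bq
    · rw [Set.indicator_of_mem hχ, Set.indicator_of_mem hχ,
        charDegree_cast (isCharacter_of_irr χ.2), mul_comm]
    · rw [Set.indicator_of_notMem hχ, Set.indicator_of_notMem hχ]
  rw [e1, ← h1]
  push_cast
  rw [Finset.mul_sum]
  apply Finset.sum_congr rfl
  intro χ _
  by_cases hχ : χ ∈ Bp ∩ Bq
  · simp only [Set.indicator_of_mem hχ]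
    rw [← Finset.mul_sum, hn, hQ]
    push_cast
    simp
    ring
  · simp [Set.indicator_of_notMem hχ]

end Cfsg.Agent.S4731
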