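import Cfsg.Statements.S4733
import Cfsg.Agent.Lib.Helper24.BlockRank
import Cfsg.Agent.Lib.Helper7.BlockFirst3
import Cfsg.Agent.Lib.Helper7.BlockHeight

set_option autoImplicit false
open Cfsg

namespace Cfsg.Agent.S4733

open Cfsg.Agent.Lib.Helper7 Cfsg.Agent.Lib.Helper24


/-- Let p be a prime, M a maximal ideal of the algebraic integers containing p, and B a p-block of the finite group G with k irreducible characters and p-regular rank l (the number of irreducible Brauer characters). Then l ≤ k, and the following are equivalent: B has defect 0; k = l = 1; k = l. -/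
theorem result {G : Type*} [Group G] [Finite G] (p : ℕ) [Fact p.Prime] (M : Ideal Cfsg.AlgInt) (hM : Cfsg.IsPModular p M) (B : Set (Cfsg.IrrCharacter G)) (hB : Cfsg.IsPBlock M B) : Cfsg.blockRank p B ≤ Nat.card B ∧ (Cfsg.blockDefect p B = 0 ↔ (Nat.card B = 1 ∧ Cfsg.blockRank p B = 1)) ∧ (Cfsg.blockDefect p B = 0 ↔ Nat.card B = Cfsg.blockRank p B) := by
  classical
  haveI := hM.2.1.isPrime
  haveI := Fintype.ofFinite G
  haveI := Fintype.ofFinite (IrrCharacter G)
  have hp : p.Prime := hM.1
  obtain ⟨b, hb⟩ : ∃ b : B → (G → ℂ),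
      b = fun χ : B => pRegularPart p ((χ : IrrCharacter G) : G → ℂ) :=
    ⟨_, rfl⟩
  have hrange : Set.range b = (fun χ : IrrCharacter G => pRegularPart p (χ : G → ℂ)) '' B := by
    rw [hb]
    ext v
    constructor
    · rintro ⟨χ, rfl⟩
      exact ⟨χ, χ.2, rfl⟩
    · rintro ⟨χ, hχ, rfl⟩
      exact ⟨⟨χ, hχ⟩, rfl⟩
  have hrank : blockRank p B = (Set.range b).finrank ℂ := by
    rw [blockRank, hrange]; rfl
  have hcard : Nat.card B = Fintype.card B := Nat.card_eq_fintype_card
  have hle : blockRank p B ≤ Nat.card B := by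
    rw [hrank, hcard]
    exact finrank_range_le_card b
  have hreg1 : IsPRegular p (1 : G) := by
    show ¬ p ∣ orderOf (1 : G)
    rw [orderOf_one]
    exact hp.one_lt.ne' ∘ Nat.dvd_one.1
  have hsInf := sInf_le_factorization_card hB p
  -- defect zero implies a singleton
  have h1 : blockDefect p B = 0 → (Nat.card B = 1 ∧ blockRank p B = 1) := by
    intro hd
    obtain ⟨χ, hχ, hdeg⟩ := exists_height_zero hB p
    rw [blockDefect] at hd
    have hdeg' : (charDegree (χ : G → ℂ)).factorization p = (Nat.card G).factorization p := by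
      omega
    have hnd : ¬ p ∣ Nat.card G / charDegree (χ : G → ℂ) := by
      intro hdv
      have hpos : Nat.card G / charDegree (χ : G → ℂ) ≠ 0 := by
        apply Nat.div_ne_zero_iff.2
        exact ⟨(charDegree_pos χ).ne', Nat.le_of_dvd Nat.card_pos (charDegree_dvd_card χ)⟩
      have h2 := (Nat.Prime.dvd_iff_one_le_factorization hp hpos).1 hdv
      rw [Nat.factorization_div (charDegree_dvd_card χ)] at h2
      simp only [Finsupp.coe_tsub, Pi.sub_apply] at h2
      omega
    have hBs : B = {χ} := by
      rw [isPBlock_eq_blockOf hB hχ, blockOf_eq_singleton_of_not_dvd hM χ hnd]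
    refine ⟨by rw [hBs]; simp, ?_⟩
    rw [blockRank, hBs, Set.image_singleton]
    apply finrank_span_singleton
    intro h0
    have := congrFun h0 1
    simp only [pRegularPart, if_pos hreg1, Pi.zero_apply] at this
    exact irr_apply_one_ne_zero χ.2 this
  have h3 : Nat.card B = blockRank p B → blockDefect p B = 0 := by
    intro hkl
    have hli : LinearIndependent ℂ b := by
      rw [linearIndependent_iff_card_eq_finrank_span, ← hrank, ← hcard, hkl]
    have hvan : ∀ χ ∈ B, ∀ h : G, orderOf h = p → (χ : G → ℂ) h = 0 := by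
      intro χ hχ h hh
      have hh' : orderOf h⁻¹ = p := by rw [orderOf_inv, hh]
      have hrel : ∑ ψ : B, ((ψ : IrrCharacter G) : G → ℂ) h • b ψ = 0 := by
        funext g
        rw [Finset.sum_apply]
        simp only [Pi.smul_apply, smul_eq_mul, Pi.zero_apply, hb]
        by_cases hg : IsPRegular p g
        · have hx : IsPPart p g 1 := isPPart_one_iff.2 hg
          have hy : IsPPart p h⁻¹ h⁻¹ := ⟨1, mul_one _, Commute.one_right _,
            ⟨1, by rw [hh', pow_one]⟩, hreg1⟩
          have hnc : ¬ IsConj (1 : G) h⁻¹ := by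
            intro hc
            have : h⁻¹ = 1 := isConj_one_right.1 hc
            rw [this, orderOf_one] at hh'
            exact hp.one_lt.ne hh'
          have := block_orthogonality hM hB hx hy hnc
          rw [inv_inv, finsum_mem_eq_sum_indicator] at this
          rw [← this, ← Finset.sum_subtype (Finset.univ.filter (· ∈ B)) (by simp)
            (fun ψ : IrrCharacter G => (ψ : G → ℂ) h * pRegularPart p (ψ : G → ℂ) g),
            Finset.sum_filter]
          apply Finset.sum_congr rfl
          intro ψ _
          by_cases hψ : ψ ∈ B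
          · rw [if_pos hψ, Set.indicator_of_mem hψ]
            simp only [pRegularPart, if_pos hg]
            ring
          · rw [if_neg hψ, Set.indicator_of_notMem hψ]
        · apply Finset.sum_eq_zero
          intro ψ _
          simp only [pRegularPart, if_neg hg, mul_zero]
      exact (Fintype.linearIndependent_iff.1 hli _ hrel) ⟨χ, hχ⟩
    obtain ⟨χ, hχ, hdeg⟩ := exists_height_zero hB p
    have := defect_zero_of_vanish hp χ (hvan χ hχ)
    rw [blockDefect, ← hdeg, this, Nat.sub_self]
  refine ⟨hle, ⟨h1, fun h => h3 (by rw [h.1, h.2])⟩, ⟨fun h => ?_, h3⟩⟩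
  obtain ⟨e1, e2⟩ := h1 h
  rw [e1, e2]

end Cfsg.Agent.S4733
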