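import Cfsg.Statements.S4735
import Cfsg.Agent.Lib.Helper10.B0Quot

set_option autoImplicit false
open Cfsg

namespace Cfsg.Agent.S4735

/-- Let p be a prime, M a maximal ideal of the algebraic integers containing p, G a finite group, H = O_p'(G) and Ḡ = G/H. For x ∈ G write λ(G, x) for the sum of |χ(x)|^2 over the irreducible characters χ in the principal p-block of G. Then λ(G, x) is a positive integer, λ(G, x) = λ(Ḡ, x̄) where x̄ is the image of x, and λ(G, x) ≤ #C_Ḡ(x̄). Moreover λ(G, 1) = [G : H] if and only if the principal block is the only p-block of Ḡ. -/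
theorem result {G : Type*} [Group G] [Finite G] (p : ℕ) [Fact p.Prime] (M : Ideal Cfsg.AlgInt) (hM : Cfsg.IsPModular p M) (x : G) : (∃ n : ℕ, 0 < n ∧ ∑ᶠ χ ∈ Cfsg.principalBlock M G, Complex.normSq ((χ : G → ℂ) x) = n) ∧ ∑ᶠ χ ∈ Cfsg.principalBlock M G, Complex.normSq ((χ : G → ℂ) x) = ∑ᶠ ψ ∈ Cfsg.principalBlock M (G ⧸ Cfsg.pPrimeCore p G), Complex.normSq ((ψ : G ⧸ Cfsg.pPrimeCore p G → ℂ) (QuotientGroup.mk x)) ∧ ∑ᶠ χ ∈ Cfsg.principalBlock M G, Complex.normSq ((χ : G → ℂ) x) ≤ (Nat.card ↥(Subgroup.centralizer ({(QuotientGroup.mk x : G ⧸ Cfsg.pPrimeCore p G)} : Set (G ⧸ Cfsg.pPrimeCore p G))) : ℝ) ∧ ((∑ᶠ χ ∈ Cfsg.principalBlock M G, Cfsg.charDegree (χ : G → ℂ) ^ 2) = (Cfsg.pPrimeCore p G).index ↔ ∀ B : Set (Cfsg.IrrCharacter (G ⧸ Cfsg.pPrimeCore p G)), Cfsg.IsPBlock M B → B = Cfsg.principalBlock M (G ⧸ Cfsg.pPrimeCore p G)) := by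
  classical
  haveI := hM.2.1.isPrime
  have hp : p.Prime := hM.1
  have hK : ¬ p ∣ Nat.card (Cfsg.pPrimeCore p G) :=
    Cfsg.Agent.Lib.Helper7.not_dvd_card_pPrimeCore hp
  have h2 : ∑ᶠ χ ∈ Cfsg.principalBlock M G, Complex.normSq ((χ : G → ℂ) x)
      = ∑ᶠ ψ ∈ Cfsg.principalBlock M (G ⧸ Cfsg.pPrimeCore p G),
        Complex.normSq ((ψ : G ⧸ Cfsg.pPrimeCore p G → ℂ) (QuotientGroup.mk x)) :=
    Cfsg.Agent.Lib.Helper10.B0Quot.finsum_principalBlock_quot hM (Cfsg.pPrimeCore p G) hK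
      (fun χ => Complex.normSq ((χ : G → ℂ) x))
  refine ⟨Cfsg.Agent.Lib.Helper10.B0Quot.exists_nat_finsum_principalBlock hM x, h2, ?_, ?_⟩
  · rw [h2]
    exact Cfsg.Agent.Lib.Helper10.B0Quot.finsum_normSq_le _ _
  · have h3 : ∑ᶠ χ ∈ Cfsg.principalBlock M G, Cfsg.charDegree (χ : G → ℂ) ^ 2
        = ∑ᶠ ψ ∈ Cfsg.principalBlock M (G ⧸ Cfsg.pPrimeCore p G),
          Cfsg.charDegree (ψ : G ⧸ Cfsg.pPrimeCore p G → ℂ) ^ 2 :=
      Cfsg.Agent.Lib.Helper10.B0Quot.finsum_principalBlock_quot hM (Cfsg.pPrimeCore p G) hK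
        (fun χ => Cfsg.charDegree (χ : G → ℂ) ^ 2)
    rw [h3, Subgroup.index_eq_card, Cfsg.Agent.Lib.Helper10.B0Quot.finsum_sq_eq_card_iff]
    constructor
    · intro h B hB
      obtain ⟨ψ, hψ⟩ := Cfsg.Agent.Lib.Helper7.isPBlock_nonempty hB
      rw [Cfsg.Agent.Lib.Helper7.isPBlock_eq_blockOf hB hψ,
        Cfsg.Agent.Lib.Helper7.isPBlock_eq_blockOf
          Cfsg.Agent.Lib.Helper24.isPBlock_principalBlock (h ▸ Set.mem_univ ψ)]
    · intro h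
      rw [Set.eq_univ_iff_forall]
      intro ψ
      rw [← h _ ⟨ψ, rfl⟩]
      exact Cfsg.Agent.Lib.Helper7.self_mem_blockOf ψ

end Cfsg.Agent.S4735
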