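import Cfsg.Statements.S4736
import Cfsg.Agent.S4492
import Cfsg.Agent.S4713
import Cfsg.Agent.Lib.Helper7.BlockNormal

set_option autoImplicit false
open Cfsg

namespace Cfsg.Agent.S4736

open Cfsg.Agent.Lib.Helper7
open scoped ComplexConjugate

theorem sylow_comm_iff {G : Type*} [Group G] [Finite G] (p : ℕ) [Fact p.Prime]
    (hsolv : Cfsg.IsPSolvable p G) (P : Sylow p G) :
    IsMulCommutative P ↔
      (((P.mapSurjective (QuotientGroup.mk'_surjective (Cfsg.pPrimeCore p G)) :
        Sylow p (G ⧸ Cfsg.pPrimeCore p G)) : Subgroup (G ⧸ Cfsg.pPrimeCore p G)).Normal ∧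
      IsMulCommutative (P.mapSurjective (QuotientGroup.mk'_surjective (Cfsg.pPrimeCore p G)) :
        Sylow p (G ⧸ Cfsg.pPrimeCore p G))) := by
  set N := Cfsg.pPrimeCore p G with hN
  set Pb : Sylow p (G ⧸ N) := P.mapSurjective (QuotientGroup.mk'_surjective N) with hPb
  have hPbc : (Pb : Subgroup (G ⧸ N)) = (P : Subgroup G).map (QuotientGroup.mk' N) := rfl
  have hQ : Cfsg.IsPSolvable p (G ⧸ N) :=
    Cfsg.Agent.Lib.Helper5.isPSolvable_of_surjective (QuotientGroup.mk' N)
      (QuotientGroup.mk'_surjective N) hsolv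
  constructor
  · intro hc
    have hcomm : ∀ a ∈ (Pb : Subgroup (G ⧸ N)), ∀ b ∈ (Pb : Subgroup (G ⧸ N)), a * b = b * a := by
      intro a ha b hb
      rw [hPbc] at ha hb
      obtain ⟨x, hx, rfl⟩ := ha
      obtain ⟨y, hy, rfl⟩ := hb
      have := hc.is_comm.comm (⟨x, hx⟩ : P) ⟨y, hy⟩
      have h2 : x * y = y * x := congrArg Subtype.val this
      rw [← map_mul, ← map_mul, h2]
    refine ⟨?_, ⟨⟨fun a b => Subtype.ext (hcomm a a.2 b b.2)⟩⟩⟩
    have h1 : Cfsg.pCore p (G ⧸ N) ≤ (Pb : Subgroup (G ⧸ N)) :=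
      Cfsg.Agent.Lib.Helper5.pCore_le_sylow Pb
    have h2 : (Pb : Subgroup (G ⧸ N)) ≤ Cfsg.pCore p (G ⧸ N) := by
      refine le_trans ?_ (Cfsg.Agent.Lib.Helper5.centralizer_pCore_le hQ
        Cfsg.Agent.Lib.Helper5.pPrimeCore_quot_pPrimeCore)
      intro a ha
      rw [Subgroup.mem_centralizer_iff]
      intro b hb
      exact hcomm b (h1 hb) a ha
    rw [le_antisymm h2 h1]
    infer_instance
  · rintro ⟨-, hc⟩
    refine ⟨⟨fun x y => Subtype.ext ?_⟩⟩
    have hx : QuotientGroup.mk' N (x : G) ∈ (Pb : Subgroup (G ⧸ N)) := ⟨x, x.2, rfl⟩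
    have hy : QuotientGroup.mk' N (y : G) ∈ (Pb : Subgroup (G ⧸ N)) := ⟨y, y.2, rfl⟩
    have h1 := hc.is_comm.comm (⟨_, hx⟩ : Pb) ⟨_, hy⟩
    have h2 : QuotientGroup.mk' N (x : G) * QuotientGroup.mk' N (y : G)
        = QuotientGroup.mk' N (y : G) * QuotientGroup.mk' N (x : G) := congrArg Subtype.val h1
    rw [← map_mul, ← map_mul] at h2
    have h3 : ((x : G) * y)⁻¹ * ((y : G) * x) ∈ N := QuotientGroup.eq.1 h2
    have h4 : ((x : G) * y)⁻¹ * ((y : G) * x) ∈ (P : Subgroup G) :=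
      mul_mem (inv_mem (mul_mem x.2 y.2)) (mul_mem y.2 x.2)
    set z := ((x : G) * y)⁻¹ * ((y : G) * x) with hz
    have h5 : z = 1 := by
      obtain ⟨k, hk⟩ := P.isPGroup' ⟨z, h4⟩
      have hk' : z ^ p ^ k = 1 := by
        have := congrArg Subtype.val hk
        simpa using this
      have h6 : orderOf z ∣ p ^ k := orderOf_dvd_of_pow_eq_one hk'
      have h7 : orderOf z ∣ Nat.card N := by
        have := orderOf_dvd_natCard (⟨z, h3⟩ : N)
        rwa [← Subgroup.orderOf_coe] at this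
      have h8 : (Nat.card N).Coprime p := Cfsg.Agent.Lib.Helper5.pPrimeCore_coprime
      have h9 : orderOf z = 1 :=
        Nat.eq_one_of_dvd_coprimes (h8.pow_right k) h7 h6
      exact orderOf_eq_one_iff.1 h9
    have : (x : G) * y = (y : G) * x := by
      rw [hz] at h5
      exact (inv_mul_eq_one.1 h5)
    exact this


/-- Let p be a prime, M a maximal ideal of the algebraic integers containing p, and G a finite p-solvable group with Sylow p-subgroup P. Then P is abelian if and only if every irreducible character in the principal p-block of G has height zero. -/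
theorem result {G : Type*} [Group G] [Finite G] (p : ℕ) [Fact p.Prime] (M : Ideal Cfsg.AlgInt) (hM : Cfsg.IsPModular p M) (hsolv : Cfsg.IsPSolvable p G) (P : Sylow p G) : IsMulCommutative P ↔ ∀ χ ∈ Cfsg.principalBlock M G, Cfsg.blockHeight p (Cfsg.principalBlock M G) (χ : G → ℂ) = 0 := by
  classical
  haveI := hM.2.1.isPrime
  haveI := Fintype.ofFinite G
  have hp : p.Prime := Fact.out
  set N := Cfsg.pPrimeCore p G with hNdef
  haveI : Fintype N := Fintype.ofFinite N
  let θ : Cfsg.IrrCharacter N := ⟨fun _ => 1, isIrrCharacter_one⟩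
  obtain ⟨B, hB, hBmem, -, -⟩ := Cfsg.Agent.S4492.result p M hM hsolv N hNdef θ (fun g n => rfl)
  obtain ⟨one, hone1⟩ : ∃ one : Cfsg.IrrCharacter G, (one : G → ℂ) = fun _ => 1 :=
    ⟨⟨_, isIrrCharacter_one⟩, rfl⟩
  have hN0 : (Nat.card N : ℂ) ≠ 0 := by exact_mod_cast Nat.card_pos.ne'
  have hinner : ∀ χ : Cfsg.IrrCharacter G,
      Cfsg.classInner (fun n : N => (χ : G → ℂ) n) (θ : N → ℂ)
        = (Nat.card N : ℂ)⁻¹ * ∑ g : G, (if g ∈ N then (1 : ℂ) else 0) * (χ : G → ℂ) g := by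
    intro χ
    rw [Cfsg.classInner]
    congr 1
    simp only [ite_mul, one_mul, zero_mul]
    rw [← Finset.sum_filter, Finset.sum_subtype (p := (· ∈ N)) _ (by simp)]
    apply Finset.sum_congr rfl
    intro n _
    simp [θ]
  have hmemB : ∀ χ : Cfsg.IrrCharacter G, χ ∈ B ↔ ∀ u ∈ N, (χ : G → ℂ) u = (χ : G → ℂ) 1 := by
    intro χ
    rw [hBmem, hinner]
    constructor
    · intro h u hu
      exact irr_eq_one_of_sum_ne_zero χ.2 N (right_ne_zero_of_mul h) hu
    · intro h
      have : ∑ g : G, (if g ∈ N then (1 : ℂ) else 0) * (χ : G → ℂ) g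
          = (Nat.card N : ℂ) * (χ : G → ℂ) 1 := by
        have hcardN : ∑ g : G, (if g ∈ N then (1 : ℂ) else 0) = (Nat.card N : ℂ) := by
          rw [Finset.sum_boole]
          congr 1
          rw [Nat.card_eq_fintype_card, Fintype.card_subtype]
        rw [← hcardN, Finset.sum_mul]
        apply Finset.sum_congr rfl
        intro g _
        by_cases hg : g ∈ N
        · rw [if_pos hg, h g hg]
        · rw [if_neg hg, zero_mul, zero_mul]
      rw [this, inv_mul_cancel_left₀ hN0]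
      exact irr_apply_one_ne_zero χ.2
  have hone : one ∈ B := (hmemB one).2 (fun u _ => by rw [hone1])
  have hBp : B = Cfsg.principalBlock M G := by
    rw [isPBlock_eq_blockOf hB hone, hone1, Cfsg.principalBlock]
  rw [← hBp]
  have hinf : sInf ((fun χ : Cfsg.IrrCharacter G =>
      (Cfsg.charDegree (χ : G → ℂ)).factorization p) '' B) = 0 := by
    have h1 := sInf_le_of_mem p hone
    have h2 : Cfsg.charDegree (one : G → ℂ) = 1 := by simp [Cfsg.charDegree, hone1]
    rw [h2] at h1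
    simpa using h1
  have hheight : ∀ χ : Cfsg.IrrCharacter G, Cfsg.blockHeight p B (χ : G → ℂ) = 0
      ↔ ¬ p ∣ Cfsg.charDegree (χ : G → ℂ) := by
    intro χ
    rw [Cfsg.blockHeight, hinf, Nat.sub_zero, Nat.factorization_eq_zero_iff]
    have := (charDegree_pos χ).ne'
    tauto
  have hQ : Cfsg.IsPSolvable p (G ⧸ N) :=
    Cfsg.Agent.Lib.Helper5.isPSolvable_of_surjective (QuotientGroup.mk' N)
      (QuotientGroup.mk'_surjective N) hsolv
  rw [sylow_comm_iff p hsolv P, Cfsg.Agent.S4713.result p hQ]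
  constructor
  · intro h χ hχ
    obtain ⟨ψ, hψ⟩ := exists_quotient_char χ N ((hmemB χ).1 hχ)
    rw [hheight]
    have : Cfsg.charDegree (χ : G → ℂ) = Cfsg.charDegree (ψ : G ⧸ N → ℂ) := by
      rw [Cfsg.charDegree, Cfsg.charDegree, hψ 1]; rfl
    rw [this]
    exact h ψ
  · intro h ψ
    have hirr : Cfsg.IsIrrCharacter G (fun g => (ψ : G ⧸ N → ℂ) (QuotientGroup.mk' N g)) :=
      Cfsg.Agent.Lib.Helper25.isIrrCharacter_comp_surjective (QuotientGroup.mk' N)
        (QuotientGroup.mk'_surjective N) ψ.2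
    have h1 : (⟨_, hirr⟩ : Cfsg.IrrCharacter G) ∈ B := by
      rw [hmemB]
      intro u hu
      have : QuotientGroup.mk' N u = 1 := (QuotientGroup.eq_one_iff _).2 hu
      simp only [this, map_one]
    have h2 := (hheight _).1 (h _ h1)
    have : Cfsg.charDegree ((⟨_, hirr⟩ : Cfsg.IrrCharacter G) : G → ℂ)
        = Cfsg.charDegree (ψ : G ⧸ N → ℂ) := by
      rw [Cfsg.charDegree, Cfsg.charDegree]
      simp only [map_one]
    rw [← this]
    exact h2

end Cfsg.Agent.S4736
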