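import Cfsg.Statements.S4955
import Cfsg.Agent.Lib.Helper25.Cop3
import Cfsg.Agent.Lib.Helper25.Ito
import Cfsg.Agent.Lib.Helper25.GalSum
import Cfsg.Agent.Lib.Helper7.BlockHeight

set_option autoImplicit false
open Cfsg

namespace Cfsg.Agent.S4955

open Cfsg.Agent.Lib.Helper7
open scoped ComplexConjugate


/-- Let X be a finite group with an abelian normal Sylow p-subgroup V (a normal p-subgroup of index prime to p in which any two elements commute), and let G be a complement to V in X. Then for every v in V, writing C for the centralizer of v in G, the number k(X) of conjugacy classes of X satisfies k(X) ≤ (order of C)·(order of V) − ((order of G) − k(G)); the statement is written with the subtracted term moved to the left. In particular, if some v in V is centralized by no nonidentity element of G, then k(X) is at most the order of V. -/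
theorem result {X : Type*} [Group X] [Finite X] (p : ℕ) [Fact p.Prime] (V : Subgroup X) [V.Normal] (hVp : IsPGroup p V) (hidx : ¬ p ∣ V.index) (hab : ∀ a ∈ V, ∀ b ∈ V, a * b = b * a) (G : Subgroup X) (hGV : Subgroup.IsComplement' V G) (v : X) (hv : v ∈ V) : Nat.card (ConjClasses X) + Nat.card G ≤ Nat.card ↥(G ⊓ Subgroup.centralizer ({v} : Set X)) * Nat.card V + Nat.card (ConjClasses G) := by
  classical
  haveI := Fintype.ofFinite X
  haveI := Fintype.ofFinite (IrrCharacter X)
  haveI := Fintype.ofFinite (IrrCharacter G)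
  obtain ⟨M, hM⟩ := exists_isPModular (Fact.out : p.Prime)
  -- orders
  have hcardG : Nat.card G = V.index := by
    have h1 := hGV.card_mul_card
    have h2 := V.card_mul_index
    have hV0 : 0 < Nat.card V := Nat.card_pos
    exact Nat.eq_of_mul_eq_mul_left hV0 (h1.trans h2.symm)
  have hcop : (Nat.card V).Coprime (Nat.card G) := by
    obtain ⟨n, hn⟩ := IsPGroup.iff_card.1 hVp
    rw [hn, hcardG]
    exact Nat.Coprime.pow_left _ ((Nat.Prime.coprime_iff_not_dvd Fact.out).2 hidx)
  obtain ⟨π, hπK, hπH⟩ := Cfsg.Agent.Lib.Helper25.exists_retract V G hGV.sup_eq_top hcop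
  have hπs : Function.Surjective π := fun h => ⟨h, hπH h⟩
  -- no irreducible character vanishes on `V`
  have hne : ∀ χ : IrrCharacter X, ∀ w ∈ V, (χ : X → ℂ) w ≠ 0 := by
    intro χ w hw h0
    obtain ⟨d, hd1, hd2⟩ := Cfsg.Agent.Lib.Helper25.ito_aux _ X rfl V hab χ χ.2
    have hwp : ∃ k : ℕ, orderOf w = p ^ k := by
      obtain ⟨k, hk⟩ := hVp ⟨w, hw⟩
      have hk' : w ^ p ^ k = 1 := by simpa using congrArg Subtype.val hk
      obtain ⟨i, -, hi⟩ := (Nat.dvd_prime_pow Fact.out).1 (orderOf_dvd_of_pow_eq_one hk')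
      exact ⟨i, hi⟩
    have h1 := char_congr_mul hM (isCharacter_of_irr χ.2) (Commute.one_right w) hwp
      (by simpa using (Fact.out : p.Prime).one_lt.ne')
    rw [mul_one, h0, hd1, zero_sub] at h1
    have h2 : MemLocalIdeal M ((d : ℕ) : ℂ) := by
      have := memLocalIdeal_neg h1
      simpa using this
    exact hidx (((memLocalIdeal_natCast_iff hM d).1 h2).trans hd2)
  -- the Galois-stable set of generators of `⟨v⟩`
  set S : Finset X := Finset.univ.filter (fun g => ∃ m : ℕ, m.Coprime (Nat.card X) ∧ g = v ^ m)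
    with hS
  have hSmem : ∀ g, g ∈ S ↔ ∃ m : ℕ, m.Coprime (Nat.card X) ∧ g = v ^ m := by
    intro g; simp [hS]
  have hSV : ∀ g ∈ S, g ∈ V := by
    intro g hg
    obtain ⟨m, -, rfl⟩ := (hSmem g).1 hg
    exact V.pow_mem hv m
  have hSpow : ∀ g ∈ S, ∀ m : ℕ, m.Coprime (Nat.card X) → g ^ m ∈ S := by
    intro g hg m hm
    obtain ⟨m', hm', rfl⟩ := (hSmem g).1 hg
    exact (hSmem _).2 ⟨m' * m, Nat.Coprime.mul_left hm' hm, (pow_mul v m' m).symm⟩
  have hSne : 0 < S.card := Finset.card_pos.2 ⟨v, (hSmem v).2 ⟨1, by simp, by simp⟩⟩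
  have hScen : ∀ g ∈ S, Subgroup.centralizer ({g} : Set X) = Subgroup.centralizer ({v} : Set X) := by
    intro g hg
    obtain ⟨m, hm, rfl⟩ := (hSmem g).1 hg
    obtain ⟨k, -, hk⟩ := Cfsg.Agent.Lib.Helper25.exists_pow_pow_eq v hm
    ext x
    simp only [Subgroup.mem_centralizer_iff, Set.mem_singleton_iff, forall_eq]
    constructor
    · intro h
      have h1 : Commute (v ^ m) x := h
      have h2 := h1.pow_left k
      rw [hk] at h2
      exact h2
    · intro h
      have h1 : Commute v x := h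
      exact h1.pow_left m
  -- order of the centralizer
  have hcen : Nat.card (Subgroup.centralizer ({v} : Set X))
      = Nat.card ↥(G ⊓ Subgroup.centralizer ({v} : Set X)) * Nat.card V := by
    have hVc : ∀ w ∈ V, w ∈ Subgroup.centralizer ({v} : Set X) := by
      intro w hw
      simp only [Subgroup.mem_centralizer_iff, Set.mem_singleton_iff, forall_eq]
      exact hab v hv w hw
    rw [← Nat.card_prod]
    symm
    apply Nat.card_eq_of_bijective
      (fun x : ↥(G ⊓ Subgroup.centralizer ({v} : Set X)) × V =>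
        (⟨(x.2 : X) * (x.1 : X), mul_mem (hVc _ x.2.2) x.1.2.2⟩ :
          Subgroup.centralizer ({v} : Set X)))
    constructor
    · rintro ⟨⟨a, ha⟩, ⟨b, hb⟩⟩ ⟨⟨a', ha'⟩, ⟨b', hb'⟩⟩ h
      have h1 : b * a = b' * a' := congrArg Subtype.val h
      have h2 : b'⁻¹ * b = a' * a⁻¹ := by
        rw [inv_mul_eq_iff_eq_mul, ← mul_assoc, ← h1]; group
      have h3 : b'⁻¹ * b = 1 := Subgroup.disjoint_def.1 hGV.disjoint
        (mul_mem (inv_mem hb') hb) (h2 ▸ mul_mem ha'.1 (inv_mem ha.1))
      have h4 : b = b' := (inv_mul_eq_one.1 h3).symm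
      subst h4
      have h5 : a = a' := mul_left_cancel h1
      subst h5
      rfl
    · rintro ⟨x, hx⟩
      obtain ⟨⟨⟨b, hb⟩, ⟨a, ha⟩⟩, hba⟩ := hGV.2 x
      have hba' : b * a = x := hba
      have hac : a ∈ Subgroup.centralizer ({v} : Set X) := by
        have : a = b⁻¹ * x := by rw [← hba']; group
        rw [this]
        exact mul_mem (inv_mem (hVc b hb)) hx
      exact ⟨⟨⟨a, ha, hac⟩, ⟨b, hb⟩⟩, Subtype.ext hba'⟩
  -- inflation
  let infl : IrrCharacter G → IrrCharacter X := fun ψ =>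
    ⟨fun x => (ψ : G → ℂ) (π x), Cfsg.Agent.Lib.Helper25.isIrrCharacter_comp_surjective π hπs ψ.2⟩
  have hinfl : Function.Injective infl := by
    intro ψ ψ' h
    apply Subtype.ext
    funext y
    obtain ⟨x, rfl⟩ := hπs y
    exact congrFun (congrArg Subtype.val h) x
  set T : Finset (IrrCharacter X) := Finset.univ.image infl with hT
  have hTcard : T.card = Nat.card (ConjClasses G) := by
    rw [hT, Finset.card_image_of_injective _ hinfl, Finset.card_univ, ← Nat.card_eq_fintype_card,
      card_irr_eq_card_conjClasses]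
  have hXcard : (Finset.univ : Finset (IrrCharacter X)).card = Nat.card (ConjClasses X) := by
    rw [Finset.card_univ, ← Nat.card_eq_fintype_card, card_irr_eq_card_conjClasses]
  have hcol : ∀ g ∈ S, ∑ χ : IrrCharacter X, ‖(χ : X → ℂ) g‖ ^ 2
      = (Nat.card (Subgroup.centralizer ({v} : Set X)) : ℝ) := by
    intro g hg
    have h := column_orthogonality_self (G := X) g
    rw [hScen g hg] at h
    simp only [Complex.mul_conj, Complex.normSq_eq_norm_sq] at h
    exact_mod_cast h
  have hcolT : ∀ g ∈ S, ∑ χ ∈ T, ‖(χ : X → ℂ) g‖ ^ 2 = (Nat.card G : ℝ) := by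
    intro g hg
    rw [hT, Finset.sum_image (fun a _ b _ hab => hinfl hab)]
    have hg1 : π g = 1 := by
      rw [← MonoidHom.mem_ker, hπK]; exact hSV g hg
    have h := column_orthogonality_self (G := G) 1
    have hcen1 : Subgroup.centralizer ({1} : Set G) = ⊤ := by
      rw [eq_top_iff]; intro x _; simp [Subgroup.mem_centralizer_iff]
    rw [hcen1, Subgroup.card_top] at h
    simp only [Complex.mul_conj, Complex.normSq_eq_norm_sq] at h
    have h' : ∑ ψ : IrrCharacter G, ‖(ψ : G → ℂ) 1‖ ^ 2 = (Nat.card G : ℝ) := by exact_mod_cast h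
    rw [← h']
    apply Finset.sum_congr rfl
    intro ψ _
    show ‖(ψ : G → ℂ) (π g)‖ ^ 2 = _
    rw [hg1]
  have hlow : ∀ χ : IrrCharacter X, (S.card : ℝ) ≤ ∑ g ∈ S, ‖(χ : X → ℂ) g‖ ^ 2 := fun χ =>
    Cfsg.Agent.Lib.Helper25.card_le_sum_norm_sq (isCharacter_of_irr χ.2) S hSpow
      (fun g hg => hne χ g (hSV g hg))
  have h1 : ((Finset.univ \ T).card : ℝ) * S.card ≤ ∑ χ ∈ Finset.univ \ T, ∑ g ∈ S, ‖(χ : X → ℂ) g‖ ^ 2 := by
    rw [← nsmul_eq_mul, ← Finset.sum_const]
    exact Finset.sum_le_sum (fun χ _ => hlow χ)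
  have h2 : ∑ χ ∈ Finset.univ \ T, ∑ g ∈ S, ‖(χ : X → ℂ) g‖ ^ 2
      = (S.card : ℝ) * ((Nat.card (Subgroup.centralizer ({v} : Set X)) : ℝ) - Nat.card G) := by
    rw [Finset.sum_comm]
    have : ∀ g ∈ S, ∑ χ ∈ Finset.univ \ T, ‖(χ : X → ℂ) g‖ ^ 2
        = (Nat.card (Subgroup.centralizer ({v} : Set X)) : ℝ) - Nat.card G := by
      intro g hg
      rw [← hcol g hg, ← hcolT g hg, eq_sub_iff_add_eq]
      exact Finset.sum_sdiff (Finset.subset_univ T)
    rw [Finset.sum_congr rfl this, Finset.sum_const, nsmul_eq_mul]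
  have h3 : ((Finset.univ \ T).card : ℝ) = (Nat.card (ConjClasses X) : ℝ) - Nat.card (ConjClasses G) := by
    rw [Finset.card_sdiff_of_subset (Finset.subset_univ T), hXcard, hTcard, Nat.cast_sub]
    rw [← hXcard, ← hTcard]
    exact Finset.card_le_card (Finset.subset_univ T)
  rw [h2, h3, mul_comm] at h1
  have hSR : (0 : ℝ) < S.card := by exact_mod_cast hSne
  have h4 := le_of_mul_le_mul_left h1 hSR
  rw [hcen] at h4
  have h5 : (Nat.card (ConjClasses X) : ℝ) + Nat.card G
      ≤ (Nat.card ↥(G ⊓ Subgroup.centralizer ({v} : Set X)) * Nat.card V : ℕ)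
        + Nat.card (ConjClasses G) := by linarith
  exact_mod_cast h5

end Cfsg.Agent.S4955
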