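import Cfsg.Statements.S4956
-- import your own Cfsg.Agent.* helpers here
import Mathlib
import Cfsg.Agent.Lib.Helper1.CoprimeAbelian

set_option autoImplicit false
open Cfsg

namespace Cfsg.Agent.S4956

open scoped commutatorElement
open scoped IsMulCommutative

theorem card_comm_congr {H H' : Type*} [Group H] [Group H'] (e : H ≃* H') :
    Nat.card {q : H × H // Commute q.1 q.2} = Nat.card {q : H' × H' // Commute q.1 q.2} := by
  apply Nat.card_congr
  refine Equiv.subtypeEquiv (e.toEquiv.prodCongr e.toEquiv) ?_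
  rintro ⟨a, b⟩
  constructor
  · intro h; exact h.map e
  · intro h
    have := h.map e.symm
    simpa using this

theorem orbit_card {X : Type*} [Group X] [Finite X] (G : Subgroup X) (s : X) :
    Nat.card {v : X // ∃ g ∈ G, g * v * g⁻¹ = s} *
      Nat.card (G ⊓ Subgroup.centralizer {s} : Subgroup X) = Nat.card G := by
  classical
  letI act : MulAction G X := MulAction.compHom X ((MulAut.conj).comp G.subtype)
  have hsm : ∀ (g : G) (x : X), g • x = (g : X) * x * (g : X)⁻¹ := fun g x => rfl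
  have h1 := Subgroup.card_mul_index (MulAction.stabilizer G s)
  rw [MulAction.index_stabilizer] at h1
  have h2 : (MulAction.orbit G s).ncard = Nat.card {v : X // ∃ g ∈ G, g * v * g⁻¹ = s} := by
    rw [← Nat.card_coe_set_eq]
    apply Nat.card_congr
    apply Equiv.subtypeEquivRight
    intro v
    rw [MulAction.mem_orbit_iff]
    constructor
    · rintro ⟨g, rfl⟩
      refine ⟨((g⁻¹ : G) : X), (g⁻¹).2, ?_⟩
      rw [hsm, Subgroup.coe_inv]; group
    · rintro ⟨g, hg, rfl⟩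
      refine ⟨⟨g⁻¹, G.inv_mem hg⟩, ?_⟩
      rw [hsm]; group
  have h3 : Nat.card (MulAction.stabilizer G s) =
      Nat.card (G ⊓ Subgroup.centralizer {s} : Subgroup X) := by
    have h4 : MulAction.stabilizer G s = (G ⊓ Subgroup.centralizer {s}).subgroupOf G := by
      ext g
      rw [MulAction.mem_stabilizer_iff, hsm, Subgroup.mem_subgroupOf, Subgroup.mem_inf,
        Subgroup.mem_centralizer_singleton_iff]
      constructor
      · intro h; exact ⟨g.2, mul_inv_eq_iff_eq_mul.mp h⟩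
      · intro h; exact mul_inv_eq_iff_eq_mul.mpr h.2
    rw [h4]
    exact Nat.card_congr (Subgroup.subgroupOfEquivOfLe inf_le_left).toEquiv
  rw [h2, h3] at h1
  rw [mul_comm]; exact h1

theorem card_comm_conj {X : Type*} [Group X] (G : Subgroup X) (v g : X) (hg : g ∈ G) :
    Nat.card {q : ↥(G ⊓ Subgroup.centralizer {v}) × ↥(G ⊓ Subgroup.centralizer {v}) //
      Commute q.1 q.2} =
    Nat.card {q : ↥(G ⊓ Subgroup.centralizer {g * v * g⁻¹}) ×
      ↥(G ⊓ Subgroup.centralizer {g * v * g⁻¹}) // Commute q.1 q.2} := by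
  apply card_comm_congr
  have hmap : (G ⊓ Subgroup.centralizer {v}).map (MulAut.conj g).toMonoidHom =
      G ⊓ Subgroup.centralizer {g * v * g⁻¹} := by
    ext y
    rw [Subgroup.mem_map]
    constructor
    · rintro ⟨c, hc, rfl⟩
      obtain ⟨hc1, hc2⟩ := Subgroup.mem_inf.mp hc
      rw [Subgroup.mem_centralizer_singleton_iff] at hc2
      refine Subgroup.mem_inf.mpr ⟨?_, ?_⟩
      · exact G.mul_mem (G.mul_mem hg hc1) (G.inv_mem hg)
      · rw [Subgroup.mem_centralizer_singleton_iff]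
        change g * c * g⁻¹ * (g * v * g⁻¹) = g * v * g⁻¹ * (g * c * g⁻¹)
        calc g * c * g⁻¹ * (g * v * g⁻¹) = g * (c * v) * g⁻¹ := by group
          _ = g * (v * c) * g⁻¹ := by rw [hc2]
          _ = g * v * g⁻¹ * (g * c * g⁻¹) := by group
    · intro hy
      obtain ⟨hy1, hy2⟩ := Subgroup.mem_inf.mp hy
      rw [Subgroup.mem_centralizer_singleton_iff] at hy2
      refine ⟨g⁻¹ * y * g, Subgroup.mem_inf.mpr ⟨?_, ?_⟩, ?_⟩
      · exact G.mul_mem (G.mul_mem (G.inv_mem hg) hy1) hg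
      · rw [Subgroup.mem_centralizer_singleton_iff]
        calc g⁻¹ * y * g * v = g⁻¹ * (y * (g * v * g⁻¹)) * g := by group
          _ = g⁻¹ * ((g * v * g⁻¹) * y) * g := by rw [hy2]
          _ = v * (g⁻¹ * y * g) := by group
      · change g * (g⁻¹ * y * g) * g⁻¹ = y
        group
  exact ((G ⊓ Subgroup.centralizer {v}).equivMapOfInjective _ (MulAut.conj g).injective).trans
    (MulEquiv.subgroupCongr hmap)

theorem card_comm_split {X : Type*} [Group X] [Finite X] (V G : Subgroup X) [hVn : V.Normal]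
    (hGV : Subgroup.IsComplement' V G) :
    Nat.card {p : X × X // Commute p.1 p.2} =
    Nat.card (Σ p : {p : X × X // p.1 ∈ G ∧ p.2 ∈ G ∧ p.1 * p.2 = p.2 * p.1},
      {q : X × X // q.1 ∈ V ∧ q.2 ∈ V ∧
        q.1 * (p.1.1 * q.2 * p.1.1⁻¹) = q.2 * (p.1.2 * q.1 * p.1.2⁻¹)}) := by
  have hU : ∀ u ∈ V, ∀ g ∈ G, ∀ u' ∈ V, ∀ g' ∈ G, u * g = u' * g' → u = u' ∧ g = g' := by
    intro u hu g hg u' hu' g' hg' h
    have h1 := hGV.1 (a₁ := (⟨u, hu⟩, ⟨g, hg⟩)) (a₂ := (⟨u', hu'⟩, ⟨g', hg'⟩)) h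
    have h2 := congrArg (fun z => (z.1 : X)) h1
    have h3 := congrArg (fun z => (z.2 : X)) h1
    exact ⟨h2, h3⟩
  have hE : ∀ x, ∃ u ∈ V, ∃ g ∈ G, u * g = x := by
    intro x
    obtain ⟨⟨⟨u, hu⟩, ⟨g, hg⟩⟩, h⟩ := hGV.2 x
    exact ⟨u, hu, g, hg, h⟩
  have hkey : ∀ u ∈ V, ∀ w ∈ V, ∀ g ∈ G, ∀ h ∈ G, ((u * g) * (w * h) = (w * h) * (u * g) ↔
      (g * h = h * g ∧ u * (g * w * g⁻¹) = w * (h * u * h⁻¹))) := by
    intro u hu w hw g hg h hh
    have e1 : (u * g) * (w * h) = (u * (g * w * g⁻¹)) * (g * h) := by group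
    have e2 : (w * h) * (u * g) = (w * (h * u * h⁻¹)) * (h * g) := by group
    rw [e1, e2]
    constructor
    · intro hh'
      obtain ⟨a, b⟩ := hU _ (V.mul_mem hu (hVn.conj_mem w hw g)) _ (G.mul_mem hg hh) _
        (V.mul_mem hw (hVn.conj_mem u hu h)) _ (G.mul_mem hh hg) hh'
      exact ⟨b, a⟩
    · rintro ⟨a, b⟩
      rw [a, b]
  symm
  let Φ : (Σ p : {p : X × X // p.1 ∈ G ∧ p.2 ∈ G ∧ p.1 * p.2 = p.2 * p.1},
      {q : X × X // q.1 ∈ V ∧ q.2 ∈ V ∧
        q.1 * (p.1.1 * q.2 * p.1.1⁻¹) = q.2 * (p.1.2 * q.1 * p.1.2⁻¹)}) →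
      {p : X × X // Commute p.1 p.2} := fun x =>
    ⟨(x.2.1.1 * x.1.1.1, x.2.1.2 * x.1.1.2),
      (hkey _ x.2.2.1 _ x.2.2.2.1 _ x.1.2.1 _ x.1.2.2.1).mpr ⟨x.1.2.2.2, x.2.2.2.2⟩⟩
  apply Nat.card_congr (Equiv.ofBijective Φ ⟨?_, ?_⟩)
  · rintro ⟨⟨⟨g, h⟩, hg, hh, hgh⟩, ⟨⟨u, w⟩, hu, hw, hc⟩⟩
      ⟨⟨⟨g', h'⟩, hg', hh', hgh'⟩, ⟨⟨u', w'⟩, hu', hw', hc'⟩⟩ heq
    have h0 := congrArg Subtype.val heq
    have h1 : u * g = u' * g' := congrArg Prod.fst h0
    have h2 : w * h = w' * h' := congrArg Prod.snd h0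
    obtain ⟨rfl, rfl⟩ := hU _ hu _ hg _ hu' _ hg' h1
    obtain ⟨rfl, rfl⟩ := hU _ hw _ hh _ hw' _ hh' h2
    rfl
  · rintro ⟨⟨x, y⟩, hxy⟩
    obtain ⟨u, hu, g, hg, rfl⟩ := hE x
    obtain ⟨w, hw, h, hh, rfl⟩ := hE y
    have h3 := (hkey u hu w hw g hg h hh).mp hxy.eq
    exact ⟨⟨⟨(g, h), hg, hh, h3.1⟩, ⟨(u, w), hu, hw, h3.2⟩⟩, rfl⟩

theorem sup_equiv_prod' {X : Type*} [Group X] (A B : Subgroup X)
    (hcomm : ∀ a ∈ A, ∀ b ∈ B, a * b = b * a)
    (h : Disjoint A B) : Nonempty (↥(A ⊔ B) ≃* (A × B)) := by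
  have comm : ∀ (a : A) (b : B), Commute (A.subtype a) (B.subtype b) := fun a b =>
    hcomm a.1 a.2 b.1 b.2
  have hinj : Function.Injective (MonoidHom.noncommCoprod A.subtype B.subtype comm) := by
    rw [MonoidHom.noncommCoprod_injective]
    refine ⟨A.subtype_injective, B.subtype_injective, ?_⟩
    simpa using h
  have hr : (MonoidHom.noncommCoprod A.subtype B.subtype comm).range = A ⊔ B := by
    rw [MonoidHom.noncommCoprod_range]; simp
  exact ⟨((MonoidHom.ofInjective hinj).trans (MulEquiv.subgroupCongr hr)).symm⟩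

theorem card_K {X : Type*} [Group X] [Finite X] (V G : Subgroup X) [hVn : V.Normal]
    (hab : ∀ a ∈ V, ∀ b ∈ V, a * b = b * a)
    (hcop : (Nat.card V).Coprime (Nat.card G)) (g h : X) (hg : g ∈ G) (hh : h ∈ G) :
    Nat.card {q : X × X // q.1 ∈ V ∧ q.2 ∈ V ∧ q.1 * (g * q.2 * g⁻¹) = q.2 * (h * q.1 * h⁻¹)} =
    Nat.card V * Nat.card {v : X // v ∈ V ∧ g * v = v * g ∧ h * v = v * h} := by
  haveI : IsMulCommutative V := ⟨⟨fun a b => Subtype.ext (hab a a.2 b b.2)⟩⟩
  let cg : V →* V := (MulAut.conjNormal g).toMonoidHom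
  let ch : V →* V := (MulAut.conjNormal h).toMonoidHom
  let θ : V × V →* V := ((MonoidHom.fst V V) / (ch.comp (MonoidHom.fst V V))) *
    ((cg.comp (MonoidHom.snd V V)) / (MonoidHom.snd V V))
  have hθ : ∀ u w : V, θ (u, w) = (u / ch u) * (cg w / w) := fun u w => rfl
  have hcg : ∀ w : V, ((cg w : V) : X) = g * w * g⁻¹ := fun w => rfl
  have hch : ∀ w : V, ((ch w : V) : X) = h * w * h⁻¹ := fun w => rfl
  have hθc : ∀ u w : V, ((θ (u, w) : V) : X) =
      (u : X) * (h * u * h⁻¹)⁻¹ * (g * w * g⁻¹ * (w : X)⁻¹) := by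
    intro u w
    rw [hθ, Subgroup.coe_mul, Subgroup.coe_div, Subgroup.coe_div, hcg, hch, div_eq_mul_inv,
      div_eq_mul_inv]
  have hiff : ∀ u w : V, θ (u, w) = 1 ↔ (u : X) * (g * w * g⁻¹) = w * (h * u * h⁻¹) := by
    intro u w
    rw [hθ, div_mul_div_comm, div_eq_one, Subtype.ext_iff, Subgroup.coe_mul, Subgroup.coe_mul,
      hcg, hch, hab _ (hVn.conj_mem u u.2 h) _ w.2]
  have hK : Nat.card {q : X × X // q.1 ∈ V ∧ q.2 ∈ V ∧
      q.1 * (g * q.2 * g⁻¹) = q.2 * (h * q.1 * h⁻¹)} = Nat.card θ.ker := by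
    apply Nat.card_congr
    refine ⟨fun q => ⟨(⟨q.1.1, q.2.1⟩, ⟨q.1.2, q.2.2.1⟩),
        MonoidHom.mem_ker.mpr ((hiff _ _).mpr q.2.2.2)⟩,
      fun k => ⟨(k.1.1.1, k.1.2.1), k.1.1.2, k.1.2.2, (hiff _ _).mp (MonoidHom.mem_ker.mp k.2)⟩,
      fun q => rfl, fun k => rfl⟩
  have h1 : Nat.card θ.ker * Nat.card θ.range = Nat.card V * Nat.card V := by
    have h := Subgroup.card_mul_index θ.ker
    rw [Subgroup.index_ker, Nat.card_prod] at h
    exact h
  let A := Subgroup.closure ({g, h} : Set X)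
  have hgA : g ∈ A := Subgroup.subset_closure (by simp)
  have hhA : h ∈ A := Subgroup.subset_closure (by simp)
  have hAG : A ≤ G := by
    rw [Subgroup.closure_le]
    intro x hx
    rcases hx with rfl | rfl
    · exact hg
    · exact hh
  have hAV : A ≤ Subgroup.normalizer (V : Set X) := by
    rw [Subgroup.normalizer_eq_top V]; exact le_top
  have hcopA : (Nat.card A).Coprime (Nat.card V) :=
    (hcop.symm).coprime_dvd_left (Subgroup.card_dvd_of_le hAG)
  have hinf := Cfsg.Agent.Lib.Helper1.coprime_abelian_inf A V hAV hcopA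
  have hsup := Cfsg.Agent.Lib.Helper1.coprime_abelian_sup A V hAV hcopA
  have hWV : ⁅V, A⁆ ≤ V := le_sup_right.trans_eq hsup
  have hW : θ.range.map V.subtype = ⁅V, A⁆ := by
    apply le_antisymm
    · rintro x ⟨y, ⟨⟨u, w⟩, rfl⟩, rfl⟩
      change ((θ (u, w) : V) : X) ∈ _
      rw [hθc]
      have e1 : (u : X) * (h * u * h⁻¹)⁻¹ = ⁅(u : X), h⁆ := by
        rw [commutatorElement_def]; group
      have e2 : g * w * g⁻¹ * (w : X)⁻¹ = ⁅(w : X), g⁆⁻¹ := by
        rw [commutatorElement_def]; group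
      rw [e1, e2]
      exact Subgroup.mul_mem _ (Subgroup.commutator_mem_commutator u.2 hhA)
        (Subgroup.inv_mem _ (Subgroup.commutator_mem_commutator w.2 hgA))
    · have hm1 : ∀ u ∈ V, ⁅u, h⁆ ∈ θ.range.map V.subtype := by
        intro u hu
        refine ⟨θ (⟨u, hu⟩, 1), ⟨_, rfl⟩, ?_⟩
        change ((θ (⟨u, hu⟩, 1) : V) : X) = _
        rw [hθc, commutatorElement_def]
        simp only [Subgroup.coe_one]
        group
      have hm2 : ∀ w ∈ V, ⁅w, g⁆ ∈ θ.range.map V.subtype := by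
        intro w hw
        refine ⟨(θ (1, ⟨w, hw⟩))⁻¹, Subgroup.inv_mem _ ⟨_, rfl⟩, ?_⟩
        change (((θ (1, ⟨w, hw⟩))⁻¹ : V) : X) = _
        rw [Subgroup.coe_inv, hθc, commutatorElement_def]
        simp only [Subgroup.coe_one]
        group
      rw [Subgroup.commutator_le]
      intro v hv a ha
      induction ha using Subgroup.closure_induction generalizing v with
      | mem x hx =>
        rcases hx with rfl | rfl
        · exact hm2 v hv
        · exact hm1 v hv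
      | one =>
        rw [commutatorElement_one_right]; exact Subgroup.one_mem _
      | mul x y _ _ hx hy =>
        have hc : ⁅v, y⁆ ∈ V := by
          rw [commutatorElement_def]
          have := V.mul_mem hv (hVn.conj_mem v⁻¹ (V.inv_mem hv) y)
          have e : v * y * v⁻¹ * y⁻¹ = v * (y * v⁻¹ * y⁻¹) := by group
          rw [e]; exact this
        have e : ⁅v, x * y⁆ = ⁅v, x⁆ * ⁅v, y⁆ * ⁅⁅v, y⁆⁻¹, x⁆ := by
          simp only [commutatorElement_def]; group
        rw [e]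
        exact Subgroup.mul_mem _ (Subgroup.mul_mem _ (hx v hv) (hy v hv))
          (hx _ (V.inv_mem hc))
      | inv x _ hx =>
        have hv' : x⁻¹ * v * x ∈ V := by
          have := hVn.conj_mem v hv x⁻¹
          rwa [inv_inv] at this
        have e : ⁅v, x⁻¹⁆ = ⁅x⁻¹ * v * x, x⁆⁻¹ := by
          simp only [commutatorElement_def]; group
        rw [e]
        exact Subgroup.inv_mem _ (hx _ hv')
  have hcardW : Nat.card θ.range = Nat.card (⁅V, A⁆ : Subgroup X) := by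
    rw [← hW, Subgroup.card_map_of_injective V.subtype_injective]
  have hcardC : Nat.card {v : X // v ∈ V ∧ g * v = v * g ∧ h * v = v * h} =
      Nat.card (V ⊓ Subgroup.centralizer (A : Set X) : Subgroup X) := by
    apply Nat.card_congr
    apply Equiv.subtypeEquivRight
    intro v
    rw [Subgroup.mem_inf]
    constructor
    · rintro ⟨hv, h1, h2⟩
      refine ⟨hv, ?_⟩
      have hle : A ≤ Subgroup.centralizer {v} := by
        rw [Subgroup.closure_le]
        intro x hx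
        rcases hx with rfl | rfl
        · exact Subgroup.mem_centralizer_singleton_iff.mpr h1
        · exact Subgroup.mem_centralizer_singleton_iff.mpr h2
      rw [Subgroup.mem_centralizer_iff]
      intro a ha
      exact Subgroup.mem_centralizer_singleton_iff.mp (hle ha)
    · rintro ⟨hv, hc⟩
      rw [Subgroup.mem_centralizer_iff] at hc
      exact ⟨hv, hc g hgA, hc h hhA⟩
  obtain ⟨e⟩ := sup_equiv_prod' (V ⊓ Subgroup.centralizer (A : Set X)) ⁅V, A⁆
    (fun a ha b hb => hab a ha.1 b (hWV hb)) (disjoint_iff.mpr hinf)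
  have h2 := Nat.card_congr e.toEquiv
  rw [Nat.card_prod, hsup, ← hcardW, ← hcardC] at h2
  rw [hK]
  have hpos : 0 < Nat.card θ.range := Nat.card_pos
  apply Nat.eq_of_mul_eq_mul_right hpos
  rw [h1, mul_assoc, ← h2]

theorem card_swap {X : Type*} [Group X] (V G : Subgroup X) :
    Nat.card (Σ p : {p : X × X // p.1 ∈ G ∧ p.2 ∈ G ∧ p.1 * p.2 = p.2 * p.1},
      {v : X // v ∈ V ∧ p.1.1 * v = v * p.1.1 ∧ p.1.2 * v = v * p.1.2}) =
    Nat.card (Σ v : V, {q : ↥(G ⊓ Subgroup.centralizer {(v : X)}) ×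
      ↥(G ⊓ Subgroup.centralizer {(v : X)}) // Commute q.1 q.2}) := by
  apply Nat.card_congr
  refine ⟨fun x => ⟨⟨x.2.1, x.2.2.1⟩,
      ⟨(⟨x.1.1.1, Subgroup.mem_inf.mpr ⟨x.1.2.1,
          Subgroup.mem_centralizer_singleton_iff.mpr x.2.2.2.1⟩⟩,
        ⟨x.1.1.2, Subgroup.mem_inf.mpr ⟨x.1.2.2.1,
          Subgroup.mem_centralizer_singleton_iff.mpr x.2.2.2.2⟩⟩), Subtype.ext x.1.2.2.2⟩⟩,
    fun y => ⟨⟨(y.2.1.1.1, y.2.1.2.1), (Subgroup.mem_inf.mp y.2.1.1.2).1,
        (Subgroup.mem_inf.mp y.2.1.2.2).1, congrArg Subtype.val y.2.2.eq⟩,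
      ⟨y.1.1, y.1.2, Subgroup.mem_centralizer_singleton_iff.mp (Subgroup.mem_inf.mp y.2.1.1.2).2,
        Subgroup.mem_centralizer_singleton_iff.mp (Subgroup.mem_inf.mp y.2.1.2.2).2⟩⟩,
    fun x => rfl, fun y => rfl⟩

theorem orbit_sum {X : Type*} [Group X] [Finite X] (V G : Subgroup X) [hVn : V.Normal]
    [Fintype V] (S : Finset X) (hSV : ∀ s ∈ S, s ∈ V)
    (hrep : ∀ v ∈ V, ∃! s, s ∈ S ∧ ∃ g ∈ G, g * v * g⁻¹ = s) :
    ∑ v : V, Nat.card {q : ↥(G ⊓ Subgroup.centralizer {(v : X)}) ×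
      ↥(G ⊓ Subgroup.centralizer {(v : X)}) // Commute q.1 q.2} =
    Nat.card G * ∑ s ∈ S, Nat.card (ConjClasses ↥(G ⊓ Subgroup.centralizer ({s} : Set X))) := by
  classical
  let F : X → ℕ := fun v => Nat.card {q : ↥(G ⊓ Subgroup.centralizer {v}) ×
      ↥(G ⊓ Subgroup.centralizer {v}) // Commute q.1 q.2}
  let ρ : V → X := fun v => Classical.choose (hrep v v.2).exists
  have hρ : ∀ v : V, ρ v ∈ S ∧ ∃ g ∈ G, g * v * g⁻¹ = ρ v :=
    fun v => Classical.choose_spec (hrep v v.2).exists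
  have hρu : ∀ (v : V) (s : X), s ∈ S → (∃ g ∈ G, g * v * g⁻¹ = s) → ρ v = s :=
    fun v s hs h => (hrep v v.2).unique (hρ v) ⟨hs, h⟩
  change ∑ v : V, F v = _
  rw [← Finset.sum_fiberwise_of_maps_to (s := Finset.univ) (t := S) (g := ρ)
    (fun v _ => (hρ v).1), Finset.mul_sum]
  apply Finset.sum_congr rfl
  intro s hs
  have h1 : ∀ v ∈ Finset.univ.filter (fun v : V => ρ v = s), F v = F s := by
    intro v hv
    obtain ⟨g, hg, hgv⟩ := (hρ v).2
    rw [(Finset.mem_filter.mp hv).2] at hgv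
    rw [← hgv]
    exact card_comm_conj G v g hg
  rw [Finset.sum_congr rfl h1, Finset.sum_const, smul_eq_mul]
  have h2 : (Finset.univ.filter (fun v : V => ρ v = s)).card =
      Nat.card {v : X // ∃ g ∈ G, g * v * g⁻¹ = s} := by
    rw [← Fintype.card_subtype, ← Nat.card_eq_fintype_card]
    apply Nat.card_congr
    refine ⟨fun v => ⟨v.1.1, by
        obtain ⟨g, hg, hgv⟩ := (hρ v.1).2
        exact ⟨g, hg, hgv.trans v.2⟩⟩,
      fun w => ⟨⟨w.1, by
        obtain ⟨g, hg, hgv⟩ := w.2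
        have h3 := hVn.conj_mem s (hSV s hs) g⁻¹
        rw [← hgv] at h3
        have e : g⁻¹ * (g * w.1 * g⁻¹) * g⁻¹⁻¹ = w.1 := by group
        rwa [e] at h3⟩, hρu _ s hs w.2⟩, fun v => rfl, fun w => rfl⟩
  have h3 : F s = Nat.card (ConjClasses ↥(G ⊓ Subgroup.centralizer ({s} : Set X))) *
      Nat.card (G ⊓ Subgroup.centralizer ({s} : Set X) : Subgroup X) :=
    card_comm_eq_card_conjClasses_mul_card _
  rw [h2, h3, ← orbit_card G s]
  ring

/-- Let X be a finite group, V an abelian normal subgroup of X (any two elements of V commute) and G a complement to V in X whose order is coprime to that of V. Let S be a set of representatives of the orbits of G on V under conjugation: S lies in V and every element of V is conjugate under G to exactly one member of S. Then the number of conjugacy classes of X equals the sum, over s in S, of the number of conjugacy classes of the centralizer of s in G. -/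
theorem result {X : Type*} [Group X] [Finite X] (V : Subgroup X) [V.Normal] (hab : ∀ a ∈ V, ∀ b ∈ V, a * b = b * a) (G : Subgroup X) (hGV : Subgroup.IsComplement' V G) (hcop : (Nat.card V).Coprime (Nat.card G)) (S : Finset X) (hSV : ∀ s ∈ S, s ∈ V) (hrep : ∀ v ∈ V, ∃! s, s ∈ S ∧ ∃ g ∈ G, g * v * g⁻¹ = s) : Nat.card (ConjClasses X) = ∑ s ∈ S, Nat.card (ConjClasses ↥(G ⊓ Subgroup.centralizer ({s} : Set X))) := by
  classical
  haveI : Fintype V := Fintype.ofFinite V
  haveI : Fintype {p : X × X // p.1 ∈ G ∧ p.2 ∈ G ∧ p.1 * p.2 = p.2 * p.1} := Fintype.ofFinite _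
  have h1 := card_comm_eq_card_conjClasses_mul_card X
  rw [card_comm_split V G hGV, Nat.card_sigma] at h1
  have h2 : ∀ p : {p : X × X // p.1 ∈ G ∧ p.2 ∈ G ∧ p.1 * p.2 = p.2 * p.1},
      Nat.card {q : X × X // q.1 ∈ V ∧ q.2 ∈ V ∧
        q.1 * (p.1.1 * q.2 * p.1.1⁻¹) = q.2 * (p.1.2 * q.1 * p.1.2⁻¹)} =
      Nat.card V * Nat.card {v : X // v ∈ V ∧ p.1.1 * v = v * p.1.1 ∧ p.1.2 * v = v * p.1.2} :=
    fun p => card_K V G hab hcop p.1.1 p.1.2 p.2.1 p.2.2.1
  rw [Finset.sum_congr rfl (fun p _ => h2 p), ← Finset.mul_sum, ← Nat.card_sigma,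
    card_swap V G, Nat.card_sigma, orbit_sum V G S hSV hrep, ← mul_assoc, hGV.card_mul_card] at h1
  have hpos : 0 < Nat.card X := Nat.card_pos
  apply Nat.eq_of_mul_eq_mul_left hpos
  rw [h1, mul_comm]

end Cfsg.Agent.S4956
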