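import Cfsg.Statements.S4964
import Cfsg.Agent.Lib.Helper7.BlockQuot
import Cfsg.Agent.Lib.Helper1.Coprime
import Cfsg.Agent.Lib.Helper1.Frattini

set_option autoImplicit false
open Cfsg

namespace Cfsg.Agent.S4964

/-- Let D be a normal p-subgroup of the finite group G, let D′ be its commutator subgroup (normal in G), and fix a maximal ideal M of the algebraic integers containing p. Then (i) two irreducible characters of G ⧸ D′ lie in the same p-block if and only if their inflations to G do, and (ii) every p-block of G contains the inflation of some irreducible character of G ⧸ D′; so inflation induces a bijection between the p-blocks of G ⧸ D′ and the p-blocks of G. -/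
theorem result {G : Type*} [Group G] [Finite G] (p : ℕ) [Fact p.Prime] (M : Ideal Cfsg.AlgInt) (hM : Cfsg.IsPModular p M) (D : Subgroup G) [D.Normal] (hD : IsPGroup p D) : (∀ χ ψ : Cfsg.IrrCharacter (G ⧸ ⁅D, D⁆), Cfsg.SameBlock M (χ : G ⧸ ⁅D, D⁆ → ℂ) (ψ : G ⧸ ⁅D, D⁆ → ℂ) ↔ Cfsg.SameBlock M ((χ : G ⧸ ⁅D, D⁆ → ℂ) ∘ QuotientGroup.mk) ((ψ : G ⧸ ⁅D, D⁆ → ℂ) ∘ QuotientGroup.mk)) ∧ ∀ B : Set (Cfsg.IrrCharacter G), Cfsg.IsPBlock M B → ∃ χ : Cfsg.IrrCharacter (G ⧸ ⁅D, D⁆), ∃ θ ∈ B, (θ : G → ℂ) = (χ : G ⧸ ⁅D, D⁆ → ℂ) ∘ QuotientGroup.mk := by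
  haveI := Cfsg.Agent.Lib.Helper7.IsPModular.isPrime hM
  have hND : ⁅D, D⁆ ≤ D := Subgroup.commutator_le_left D D
  have hN : IsPGroup p ↥⁅D, D⁆ := hD.to_le hND
  refine ⟨fun χ ψ => ⟨fun h => Cfsg.Agent.Lib.Helper7.sameBlock_infl _ h, fun h => ?_⟩,
    fun B hB => Cfsg.Agent.Lib.Helper7.exists_infl_mem_block _ hM hN hB⟩
  refine Cfsg.Agent.Lib.Helper7.sameBlock_of_infl _ hM hN (fun x hx => ?_) h
  haveI hDn : (D.map (QuotientGroup.mk' ⁅D, D⁆)).Normal :=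
    Subgroup.Normal.map inferInstance _ (QuotientGroup.mk'_surjective _)
  by_cases hxc : (x : G ⧸ ⁅D, D⁆) ∈ Subgroup.centralizer
      ((D.map (QuotientGroup.mk' ⁅D, D⁆) : Subgroup (G ⧸ ⁅D, D⁆)) : Set (G ⧸ ⁅D, D⁆))
  · left
    have h1 : Subgroup.zpowers x ≤ Subgroup.centralizer (D : Set G) := by
      apply Cfsg.Agent.Lib.Helper1.coprime_frattini_trivial (Subgroup.zpowers x) D
      · rw [Subgroup.normalizer_eq_top]
        exact le_top
      · rw [Nat.card_zpowers]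
        obtain ⟨j, hj⟩ := IsPGroup.iff_card.1
          (hD.to_subgroup (frattini ↥D))
        rw [hj]
        exact Nat.Coprime.pow_right j ((Nat.Prime.coprime_iff_not_dvd hM.1).2 hx).symm
      · intro a ha k hk
        have ha' : (a : G ⧸ ⁅D, D⁆) ∈ Subgroup.centralizer
            ((D.map (QuotientGroup.mk' ⁅D, D⁆) : Subgroup (G ⧸ ⁅D, D⁆)) : Set (G ⧸ ⁅D, D⁆)) := by
          obtain ⟨m, rfl⟩ := Subgroup.mem_zpowers_iff.1 ha
          have : ((x ^ m : G) : G ⧸ ⁅D, D⁆) = (x : G ⧸ ⁅D, D⁆) ^ m := rfl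
          rw [this]
          exact Subgroup.zpow_mem _ hxc m
        have h2 := (Subgroup.mem_centralizer_iff.1 ha') (k : G ⧸ ⁅D, D⁆) ⟨k, hk, rfl⟩
        have h3 : a * k * a⁻¹ * k⁻¹ ∈ ⁅D, D⁆ := by
          rw [← QuotientGroup.eq_one_iff]
          have e : ((a * k * a⁻¹ * k⁻¹ : G) : G ⧸ ⁅D, D⁆)
              = (a : G ⧸ ⁅D, D⁆) * (k : G ⧸ ⁅D, D⁆) * (a : G ⧸ ⁅D, D⁆)⁻¹
                * (k : G ⧸ ⁅D, D⁆)⁻¹ := rfl
          rw [e, ← h2]
          group
        rw [← Subgroup.map_subtype_commutator] at h3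
        exact Subgroup.map_mono (Cfsg.Agent.Lib.Helper1.pgroup_commutator_le_frattini hD) h3
    exact Subgroup.centralizer_le (by exact_mod_cast hND) (h1 (Subgroup.mem_zpowers x))
  · right
    intro χ'
    exact Cfsg.Agent.Lib.Helper7.memLocalIdeal_centralChar_of_not_mem_centralizer hM
      (B := Cfsg.blockOf M (χ' : G ⧸ ⁅D, D⁆ → ℂ)) ⟨χ', rfl⟩ _ (hD.map _) hxc
      (Cfsg.Agent.Lib.Helper7.self_mem_blockOf χ')

end Cfsg.Agent.S4964
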