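import Cfsg.Statements.S4965
-- import your own Cfsg.Agent.* helpers here
import Mathlib

set_option autoImplicit false
open Cfsg

namespace Cfsg.Agent.S4965

/-- Let X be a finite group with an abelian normal subgroup V (any two elements of V commute), and let φ be the action of X ⧸ V on V induced by conjugation (well defined because V is abelian; the hypothesis hφ says that the class of x acts as conjugation by x). Then X has at most as many conjugacy classes as the semidirect product of V by X ⧸ V formed with this action: the split extension has the largest class number among extensions with the given action. -/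
theorem result {X : Type*} [Group X] [Finite X] (V : Subgroup X) [V.Normal] (hab : ∀ a ∈ V, ∀ b ∈ V, a * b = b * a) (φ : X ⧸ V →* MulAut ↥V) (hφ : ∀ (x : X) (v : ↥V), ((φ (QuotientGroup.mk x) v : ↥V) : X) = x * v * x⁻¹) : Nat.card (ConjClasses X) ≤ Nat.card (ConjClasses (SemidirectProduct ↥V (X ⧸ V) φ)) := by
  classical
  haveI : Finite (SemidirectProduct ↥V (X ⧸ V) φ) :=
    Finite.of_equiv _ SemidirectProduct.equivProd.symm
  -- a chosen commuting lift
  let P : (X ⧸ V) × (X ⧸ V) → X × X → Prop := fun gh q =>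
    (QuotientGroup.mk q.1 : X ⧸ V) = gh.1 ∧ (QuotientGroup.mk q.2 : X ⧸ V) = gh.2 ∧ q.1 * q.2 = q.2 * q.1
  let lift : (X ⧸ V) × (X ⧸ V) → X × X := fun gh =>
    if h : ∃ q, P gh q then Classical.choose h else (1, 1)
  have hlift : ∀ gh, (∃ q, P gh q) → P gh (lift gh) := by
    intro gh h
    simp only [lift, dif_pos h]
    exact Classical.choose_spec h
  have hmem : ∀ x x0 : X, (QuotientGroup.mk x0 : X ⧸ V) = QuotientGroup.mk x → x * x0⁻¹ ∈ V := by
    intro x x0 h
    have h1 : x0⁻¹ * x ∈ V := QuotientGroup.eq.mp h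
    have h2 := ‹V.Normal›.conj_mem _ h1 x0
    have h3 : x0 * (x0⁻¹ * x) * x0⁻¹ = x * x0⁻¹ := by group
    rwa [h3] at h2
  have hex : ∀ p : { p : X × X // Commute p.1 p.2 },
      ∃ q, P ((QuotientGroup.mk p.1.1 : X ⧸ V), (QuotientGroup.mk p.1.2 : X ⧸ V)) q :=
    fun p => ⟨p.1, rfl, rfl, p.2.eq⟩
  have hcomm : ∀ (x y x0 y0 : X) (h1 : (QuotientGroup.mk x0 : X ⧸ V) = QuotientGroup.mk x)
      (h2 : (QuotientGroup.mk y0 : X ⧸ V) = QuotientGroup.mk y) (h3 : x0 * y0 = y0 * x0)
      (hxy' : x * y = y * x) (m1 : x * x0⁻¹ ∈ V) (m2 : y * y0⁻¹ ∈ V),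
      Commute (⟨⟨x * x0⁻¹, m1⟩, QuotientGroup.mk x⟩ : SemidirectProduct ↥V (X ⧸ V) φ)
        ⟨⟨y * y0⁻¹, m2⟩, QuotientGroup.mk y⟩ := by
    intro x y x0 y0 h1 h2 h3 hxy' m1 m2
    apply SemidirectProduct.ext
    · rw [SemidirectProduct.mul_left, SemidirectProduct.mul_left]
      apply Subtype.ext
      simp only [Subgroup.coe_mul]
      rw [← h1, ← h2, hφ, hφ]
      simp only []
      have e1 : x * x0⁻¹ * (x0 * (y * y0⁻¹) * x0⁻¹) = (x * y) * (x0 * y0)⁻¹ := by group
      have e2 : y * y0⁻¹ * (y0 * (x * x0⁻¹) * y0⁻¹) = (y * x) * (y0 * x0)⁻¹ := by group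
      rw [e1, e2, hxy', h3]
    · rw [SemidirectProduct.mul_right, SemidirectProduct.mul_right]
      change (QuotientGroup.mk x : X ⧸ V) * QuotientGroup.mk y = QuotientGroup.mk y * QuotientGroup.mk x
      rw [← QuotientGroup.mk_mul, ← QuotientGroup.mk_mul, hxy']
  let F : { p : X × X // Commute p.1 p.2 } →
      { p : (SemidirectProduct ↥V (X ⧸ V) φ) × (SemidirectProduct ↥V (X ⧸ V) φ) //
        Commute p.1 p.2 } := fun p =>
    ⟨(⟨⟨p.1.1 * (lift (QuotientGroup.mk p.1.1, QuotientGroup.mk p.1.2)).1⁻¹,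
          hmem _ _ (hlift _ (hex p)).1⟩, QuotientGroup.mk p.1.1⟩,
      ⟨⟨p.1.2 * (lift (QuotientGroup.mk p.1.1, QuotientGroup.mk p.1.2)).2⁻¹,
          hmem _ _ (hlift _ (hex p)).2.1⟩, QuotientGroup.mk p.1.2⟩),
      hcomm _ _ _ _ (hlift _ (hex p)).1 (hlift _ (hex p)).2.1 (hlift _ (hex p)).2.2 p.2.eq _ _⟩
  have hF : Function.Injective F := by
    rintro ⟨⟨x, y⟩, hxy⟩ ⟨⟨x', y'⟩, hxy'⟩ h
    have h0 := congrArg Subtype.val h
    have h1 := congrArg Prod.fst h0
    have h2 := congrArg Prod.snd h0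
    have g1 : (QuotientGroup.mk x : X ⧸ V) = QuotientGroup.mk x' := congrArg SemidirectProduct.right h1
    have g2 : (QuotientGroup.mk y : X ⧸ V) = QuotientGroup.mk y' := congrArg SemidirectProduct.right h2
    have l1 := congrArg Subtype.val (congrArg SemidirectProduct.left h1)
    have l2 := congrArg Subtype.val (congrArg SemidirectProduct.left h2)
    simp only [F] at l1 l2
    rw [g1, g2] at l1 l2
    have hx : x = x' := mul_right_cancel l1
    have hy : y = y' := mul_right_cancel l2
    subst hx; subst hy; rfl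
  have hle := Nat.card_le_card_of_injective F hF
  rw [card_comm_eq_card_conjClasses_mul_card, card_comm_eq_card_conjClasses_mul_card,
    SemidirectProduct.card, mul_comm (Nat.card V),
    ← Subgroup.card_eq_card_quotient_mul_card_subgroup] at hle
  exact Nat.le_of_mul_le_mul_right hle Nat.card_pos

end Cfsg.Agent.S4965
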