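import Cfsg.Statements.S5014
import Cfsg.Agent.Lib.Helper28.RankOne
open Cfsg.Agent.Lib.Helper28 Cfsg.Agent.Lib.Helper28.RankOne

set_option autoImplicit false
open Cfsg

namespace Cfsg.Agent.S5014

/-- Let X = ⟨A, B⟩ be a rank one group with unipotent subgroups A and B and let Ω be the set of conjugates of A under X. Then Ω has at least three members, X acts doubly transitively on Ω by conjugation (any two ordered pairs of distinct members are carried to one another by a single element of X), and A acts regularly on Ω with A removed: for C, D in Ω different from A there is exactly one element of A conjugating C to D. -/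
theorem result {G : Type*} [Group G] {A B : Subgroup G} (h : Cfsg.IsRankOnePair A B) :
    (∃ C₁ ∈ Cfsg.unipotentSubgroups A B, ∃ C₂ ∈ Cfsg.unipotentSubgroups A B, ∃ C₃ ∈ Cfsg.unipotentSubgroups A B,
      C₁ ≠ C₂ ∧ C₁ ≠ C₃ ∧ C₂ ≠ C₃) ∧
    (∀ C₁ ∈ Cfsg.unipotentSubgroups A B, ∀ C₂ ∈ Cfsg.unipotentSubgroups A B, ∀ D₁ ∈ Cfsg.unipotentSubgroups A B,
      ∀ D₂ ∈ Cfsg.unipotentSubgroups A B, C₁ ≠ C₂ → D₁ ≠ D₂ →
        ∃ x ∈ A ⊔ B, Cfsg.conjBy C₁ x = D₁ ∧ Cfsg.conjBy C₂ x = D₂) ∧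
    (∀ C ∈ Cfsg.unipotentSubgroups A B, ∀ D ∈ Cfsg.unipotentSubgroups A B, C ≠ A → D ≠ A →
      ∃! a : G, a ∈ A ∧ Cfsg.conjBy C a = D) := by
  have hOm := unipotent_eq_Om h
  have key : ∀ C₁ ∈ Cfsg.unipotentSubgroups A B, ∀ C₂ ∈ Cfsg.unipotentSubgroups A B, C₁ ≠ C₂ →
      ∃ x ∈ A ⊔ B, Cfsg.conjBy C₁ x = A ∧ Cfsg.conjBy C₂ x = B := by
    intro C₁ h1 C₂ h2 hne
    obtain ⟨y, hy, rfl⟩ := h1
    have h3 : Cfsg.conjBy C₂ y⁻¹ ∈ Cfsg.unipotentSubgroups A B := unipotent_conj h2 (inv_mem hy)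
    rw [hOm] at h3
    rcases h3 with h3 | ⟨a, ha, h3⟩
    · exfalso
      apply hne
      rw [conjBy_eq_iff, inv_inv] at h3
      exact h3.symm
    · refine ⟨a⁻¹ * y⁻¹, mul_mem (inv_mem (Subgroup.mem_sup_left ha)) (inv_mem hy), ?_, ?_⟩
      · rw [conjBy_conjBy, mul_assoc, inv_mul_cancel, mul_one, conjBy_of_mem (A.inv_mem ha)]
      · rw [← conjBy_conjBy, h3, conjBy_conjBy, inv_mul_cancel, conjBy_one]
  refine ⟨?_, ?_, ?_⟩
  · obtain ⟨a, ha, ha1⟩ := exists_ne_one_left h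
    refine ⟨A, A_mem_unipotent, B, B_mem_unipotent h, Cfsg.conjBy B a,
      unipotent_conj (B_mem_unipotent h) (Subgroup.mem_sup_left ha), h.ne, (conjBy_B_ne_A h ha).symm, ?_⟩
    intro hc
    apply ha1
    have := conjBy_B_inj h A.one_mem ha (by rw [conjBy_one]; exact hc)
    exact this.symm
  · intro C₁ hC₁ C₂ hC₂ D₁ hD₁ D₂ hD₂ hC hD
    obtain ⟨x, hx, hx1, hx2⟩ := key C₁ hC₁ C₂ hC₂ hC
    obtain ⟨y, hy, hy1, hy2⟩ := key D₁ hD₁ D₂ hD₂ hD
    refine ⟨y⁻¹ * x, mul_mem (inv_mem hy) hx, ?_, ?_⟩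
    · rw [← conjBy_conjBy, hx1, ← hy1, conjBy_conjBy, inv_mul_cancel, conjBy_one]
    · rw [← conjBy_conjBy, hx2, ← hy2, conjBy_conjBy, inv_mul_cancel, conjBy_one]
  · intro C hC D hD hCA hDA
    rw [hOm] at hC hD
    rcases hC with hC | ⟨a1, ha1, rfl⟩
    · exact absurd hC hCA
    rcases hD with hD | ⟨a2, ha2, rfl⟩
    · exact absurd hD hDA
    refine ⟨a2 * a1⁻¹, ⟨A.mul_mem ha2 (A.inv_mem ha1), ?_⟩, ?_⟩
    · rw [conjBy_conjBy, inv_mul_cancel_right]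
    · rintro a ⟨ha, hc⟩
      rw [conjBy_conjBy] at hc
      have := conjBy_B_inj h (A.mul_mem ha ha1) ha2 hc
      rw [← this, mul_inv_cancel_right]

end Cfsg.Agent.S5014
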