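import Cfsg.Statements.S5015
import Cfsg.Agent.Lib.Helper28.RankOne
open Cfsg.Agent.Lib.Helper28 Cfsg.Agent.Lib.Helper28.RankOne

set_option autoImplicit false
open Cfsg

namespace Cfsg.Agent.S5015

section
variable {Y Ω : Type*} [Group Y] [MulAction Y Ω]

structure Dat (α : Ω) (A : Subgroup Y) : Prop where
  hA : A ≤ MulAction.stabilizer Y α
  hAn : ∀ y ∈ MulAction.stabilizer Y α, Cfsg.conjBy A y = A
  hreg : ∀ β γ : Ω, β ≠ α → γ ≠ α → ∃! a : Y, a ∈ A ∧ a • β = γ

lemma Dat.conj_eq {α : Ω} {A : Subgroup Y} (d : Dat α A) {g g' : Y} (h : g • α = g' • α) :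
    Cfsg.conjBy A g = Cfsg.conjBy A g' := by
  have h1 : g'⁻¹ * g ∈ MulAction.stabilizer Y α := by
    rw [MulAction.mem_stabilizer_iff, mul_smul, h, inv_smul_smul]
  have h2 := d.hAn _ h1
  have h3 : Cfsg.conjBy (Cfsg.conjBy A (g'⁻¹ * g)) g' = Cfsg.conjBy A g' := by rw [h2]
  rw [conjBy_conjBy, mul_inv_cancel_left] at h3
  exact h3

lemma Dat.transfer {α : Ω} {A : Subgroup Y} (d : Dat α A) (y : Y) : Dat (y • α) (Cfsg.conjBy A y) := by
  refine ⟨?_, ?_, ?_⟩
  · intro x hx
    rw [mem_conjBy] at hx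
    have := d.hA hx
    rw [MulAction.mem_stabilizer_iff] at this ⊢
    rw [mul_smul, mul_smul, inv_smul_eq_iff] at this
    exact this
  · intro z hz
    rw [conjBy_conjBy]
    apply d.conj_eq
    rw [mul_smul]
    exact hz
  · intro β γ hβ hγ
    have hβ' : y⁻¹ • β ≠ α := fun h => hβ (by rw [← h, smul_inv_smul])
    have hγ' : y⁻¹ • γ ≠ α := fun h => hγ (by rw [← h, smul_inv_smul])
    obtain ⟨a, ⟨ha, hab⟩, huniq⟩ := d.hreg _ _ hβ' hγ'
    refine ⟨y * a * y⁻¹, ⟨conj_mem_conjBy ha, ?_⟩, ?_⟩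
    · rw [mul_smul, mul_smul, hab, smul_inv_smul]
    · rintro b ⟨hb, hbb⟩
      rw [mem_conjBy] at hb
      have := huniq (y⁻¹ * b * y) ⟨hb, by rw [mul_smul, mul_smul, smul_inv_smul, hbb]⟩
      rw [← this]
      group

lemma Dat.cond {α : Ω} {A : Subgroup Y} (d : Dat α A) {y : Y} (hy : y ∉ MulAction.stabilizer Y α) :
    Cfsg.RankOneCondition A (Cfsg.conjBy A y) := by
  intro a ha ha1
  have hβ : y • α ≠ α := hy
  have d' := d.transfer y
  have h1 : a⁻¹ • y • α ≠ y • α := by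
    intro hc
    obtain ⟨c, -, huniq⟩ := d.hreg _ _ hβ hβ
    have e1 := huniq a⁻¹ ⟨A.inv_mem ha, hc⟩
    have e2 := huniq 1 ⟨A.one_mem, one_smul _ _⟩
    apply ha1
    rw [← inv_inj, e1, ← e2, inv_one]
  obtain ⟨c, ⟨hc, hcα⟩, -⟩ := d'.hreg α (a⁻¹ • y • α) hβ.symm h1
  refine ⟨c⁻¹, inv_mem hc, ?_, ?_⟩
  · intro hc1
    rw [inv_eq_one] at hc1
    rw [hc1, one_smul] at hcα
    apply hβ
    have haα : a • α = α := d.hA ha
    rw [eq_inv_smul_iff, haα] at hcα
    exact hcα.symm
  · rw [inv_inv, conjBy_conjBy]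
    apply d.conj_eq
    rw [hcα, mul_smul]

end


/-- Let a group Y act doubly transitively on a set Ω with at least three points, and suppose that the stabilizer of a point α contains a nilpotent subgroup A, normalized by that stabilizer, which acts regularly on the points other than α. Then for any y in Y moving α, the subgroups A and y A y⁻¹ are the unipotent subgroups of a rank one group, and the normal closure of A in Y (the subgroup generated by all conjugates of A) is generated by A and y A y⁻¹ alone. -/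
theorem result {Y Ω : Type*} [Group Y] [MulAction Y Ω]
    (h2 : MulAction.IsMultiplyPretransitive Y Ω 2) (hΩ : 3 ≤ ENat.card Ω) (α : Ω) (A : Subgroup Y)
    (hA : A ≤ MulAction.stabilizer Y α) (hAn : ∀ y ∈ MulAction.stabilizer Y α, Cfsg.conjBy A y = A)
    (hnil : Group.IsNilpotent A) (hreg : ∀ β γ : Ω, β ≠ α → γ ≠ α → ∃! a : Y, a ∈ A ∧ a • β = γ)
    (y : Y) (hy : y ∉ MulAction.stabilizer Y α) :
    Cfsg.IsRankOnePair A (Cfsg.conjBy A y) ∧ Subgroup.normalClosure (A : Set Y) = A ⊔ Cfsg.conjBy A y := by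
  have d : Dat α A := ⟨hA, hAn, hreg⟩
  have d' := d.transfer y
  have hβ : y • α ≠ α := hy
  obtain ⟨γ, hγα, hγβ⟩ : ∃ γ : Ω, γ ≠ α ∧ γ ≠ y • α := by
    by_contra hcon
    push Not at hcon
    have hsub : (Set.univ : Set Ω) ⊆ {α, y • α} := by
      intro γ _
      by_cases h : γ = α
      · exact Or.inl h
      · exact Or.inr (hcon γ h)
    have h1 := Set.encard_le_encard hsub
    rw [Set.encard_univ] at h1
    rw [Set.encard_pair hβ.symm] at h1
    exact absurd (hΩ.trans h1) (by norm_num)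
  have hback : Cfsg.conjBy (Cfsg.conjBy A y) y⁻¹ = A := by
    rw [conjBy_conjBy, inv_mul_cancel, conjBy_one]
  refine ⟨⟨?_, hnil, ?_, d.cond hy, ?_⟩, ?_⟩
  · intro hAB
    obtain ⟨a, ⟨ha, haβ⟩, -⟩ := hreg (y • α) γ hβ hγα
    rw [hAB] at ha
    have := d'.hA ha
    rw [MulAction.mem_stabilizer_iff, haβ] at this
    exact hγβ this
  · haveI := hnil
    exact Group.nilpotent_of_surjective _ ((MulAut.conj y).toMonoidHom.subgroupMap_surjective A)
  · have hy' : y⁻¹ ∉ MulAction.stabilizer Y (y • α) := by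
      intro hc
      rw [MulAction.mem_stabilizer_iff, inv_smul_smul] at hc
      exact hβ hc.symm
    have := d'.cond hy'
    rwa [hback] at this
  · apply le_antisymm
    · have htrans : ∀ δ : Ω, ∃ x ∈ A ⊔ Cfsg.conjBy A y, x • α = δ := by
        intro δ
        by_cases hδ : δ = α
        · exact ⟨1, one_mem _, by rw [one_smul, hδ]⟩
        · obtain ⟨b, ⟨hb, hbα⟩, -⟩ := d'.hreg α γ hβ.symm hγβ
          obtain ⟨a, ⟨ha, haγ⟩, -⟩ := hreg γ δ hγα hδ
          exact ⟨a * b, mul_mem (Subgroup.mem_sup_left ha) (Subgroup.mem_sup_right hb), by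
            rw [mul_smul, hbα, haγ]⟩
      unfold Subgroup.normalClosure
      rw [Subgroup.closure_le]
      intro x hx
      rw [Group.mem_conjugatesOfSet_iff] at hx
      obtain ⟨a, ha, hax⟩ := hx
      rw [isConj_iff] at hax
      obtain ⟨g, rfl⟩ := hax
      obtain ⟨z, hz, hzα⟩ := htrans (g • α)
      have h1 : g * a * g⁻¹ ∈ Cfsg.conjBy A g := conj_mem_conjBy ha
      rw [d.conj_eq hzα.symm] at h1
      exact conjBy_le_of_le le_sup_left hz h1
    · refine sup_le Subgroup.le_normalClosure ?_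
      intro x hx
      rw [mem_conjBy] at hx
      have h1 : y⁻¹ * x * y ∈ Subgroup.normalClosure (A : Set Y) := Subgroup.le_normalClosure hx
      have h2 := (Subgroup.normalClosure_normal (s := (A : Set Y))).conj_mem _ h1 y
      simpa [mul_assoc] using h2

end Cfsg.Agent.S5015
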