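import Cfsg.Statements.S5016
import Cfsg.Agent.Lib.Helper28.RankOne
open Cfsg.Agent.Lib.Helper28 Cfsg.Agent.Lib.Helper28.RankOne

set_option autoImplicit false
open Cfsg

namespace Cfsg.Agent.S5016

section
variable {k : Type*} [Field k]

local notation "SL2" => Matrix.SpecialLinearGroup (Fin 2) k

def L (s : k) : SL2 := ⟨!![1, 0; s, 1], by simp [Matrix.det_fin_two]⟩
def U (t : k) : SL2 := ⟨!![1, t; 0, 1], by simp [Matrix.det_fin_two]⟩

lemma ext4 {g h : SL2} (h00 : g 0 0 = h 0 0) (h01 : g 0 1 = h 0 1) (h10 : g 1 0 = h 1 0)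
    (h11 : g 1 1 = h 1 1) : g = h := by
  ext i j
  fin_cases i <;> fin_cases j <;> assumption

@[simp] lemma L00 (s : k) : L s 0 0 = 1 := rfl
@[simp] lemma L01 (s : k) : L s 0 1 = 0 := rfl
@[simp] lemma L10 (s : k) : L s 1 0 = s := rfl
@[simp] lemma L11 (s : k) : L s 1 1 = 1 := rfl
@[simp] lemma U00 (s : k) : U s 0 0 = 1 := rfl
@[simp] lemma U01 (s : k) : U s 0 1 = s := rfl
@[simp] lemma U10 (s : k) : U s 1 0 = 0 := rfl
@[simp] lemma U11 (s : k) : U s 1 1 = 1 := rfl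

lemma mul_apply' (g h : SL2) (i j : Fin 2) : (g * h) i j = g i 0 * h 0 j + g i 1 * h 1 j := by
  rw [Matrix.SpecialLinearGroup.coe_mul, Matrix.mul_apply, Fin.sum_univ_two]

lemma L_mul (s t : k) : L s * L t = L (s + t) := by
  apply ext4 <;> simp [mul_apply']

lemma U_mul (s t : k) : U s * U t = U (s + t) := by
  apply ext4 <;> simp [mul_apply', add_comm]

lemma L_zero : L (0 : k) = 1 := by
  apply ext4 <;> simp

lemma U_zero : U (0 : k) = 1 := by
  apply ext4 <;> simp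

lemma L_inv (s : k) : (L s)⁻¹ = L (-s) := by
  rw [inv_eq_iff_mul_eq_one, L_mul, add_neg_cancel, L_zero]

lemma U_inv (s : k) : (U s)⁻¹ = U (-s) := by
  rw [inv_eq_iff_mul_eq_one, U_mul, add_neg_cancel, U_zero]

lemma mem_lower {g : SL2} : g ∈ Cfsg.lowerUnipotentSL2 k ↔ ∃ s, g = L s := by
  constructor
  · intro hg
    unfold Cfsg.lowerUnipotentSL2 at hg
    induction hg using Subgroup.closure_induction with
    | mem x hx =>
      obtain ⟨h1, h2, h3⟩ := hx
      exact ⟨x 1 0, ext4 (by simpa using h2) (by simpa using h1) (by simp) (by simpa using h3)⟩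
    | one => exact ⟨0, L_zero.symm⟩
    | mul x y _ _ hx hy =>
      obtain ⟨s, rfl⟩ := hx
      obtain ⟨t, rfl⟩ := hy
      exact ⟨_, L_mul s t⟩
    | inv x _ hx =>
      obtain ⟨s, rfl⟩ := hx
      exact ⟨_, L_inv s⟩
  · rintro ⟨s, rfl⟩
    exact Subgroup.subset_closure ⟨rfl, rfl, rfl⟩

lemma mem_upper {g : SL2} : g ∈ Cfsg.upperUnipotentSL2 k ↔ ∃ s, g = U s := by
  constructor
  · intro hg
    unfold Cfsg.upperUnipotentSL2 at hg
    induction hg using Subgroup.closure_induction with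
    | mem x hx =>
      obtain ⟨h1, h2, h3⟩ := hx
      exact ⟨x 0 1, ext4 (by simpa using h2) (by simp) (by simpa using h1) (by simpa using h3)⟩
    | one => exact ⟨0, U_zero.symm⟩
    | mul x y _ _ hx hy =>
      obtain ⟨s, rfl⟩ := hx
      obtain ⟨t, rfl⟩ := hy
      exact ⟨_, U_mul s t⟩
    | inv x _ hx =>
      obtain ⟨s, rfl⟩ := hx
      exact ⟨_, U_inv s⟩
  · rintro ⟨s, rfl⟩
    exact Subgroup.subset_closure ⟨rfl, rfl, rfl⟩

lemma L_inj {s t : k} (h : L s = L t) : s = t := by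
  have := congrArg (fun g : SL2 => g 1 0) h
  simpa using this

lemma U_inj {s t : k} (h : U s = U t) : s = t := by
  have := congrArg (fun g : SL2 => g 0 1) h
  simpa using this

lemma id1 {s t : k} (hst : s * t = 1) (r : k) :
    L s * U (-t) * L r * U t * L (-s) = U (-(t ^ 2) * r) := by
  have hs : s = t⁻¹ := eq_inv_of_mul_eq_one_left hst
  have ht : t ≠ 0 := by
    rintro rfl
    simp at hst
  subst hs
  apply ext4 <;> simp [mul_apply'] <;> field_simp <;> ring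

lemma id2 {s t : k} (hst : s * t = 1) (r : k) :
    U t * L (-s) * U r * L s * U (-t) = L (-(s ^ 2) * r) := by
  have hs : s = t⁻¹ := eq_inv_of_mul_eq_one_left hst
  have ht : t ≠ 0 := by
    rintro rfl
    simp at hst
  subst hs
  apply ext4 <;> simp [mul_apply'] <;> field_simp <;> ring

lemma conj_eq {s t : k} (hst : s * t = 1) :
    Cfsg.conjBy (Cfsg.lowerUnipotentSL2 k) (U t)⁻¹ = Cfsg.conjBy (Cfsg.upperUnipotentSL2 k) (L s)⁻¹ := by
  ext x
  rw [mem_conjBy, mem_conjBy, inv_inv, inv_inv, mem_lower, mem_upper]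
  constructor
  · rintro ⟨r, hr⟩
    refine ⟨-(t ^ 2) * r, ?_⟩
    rw [← id1 hst r, ← hr, ← U_inv, ← L_inv]
    group
  · rintro ⟨r, hr⟩
    refine ⟨-(s ^ 2) * r, ?_⟩
    rw [← id2 hst r, ← hr, ← U_inv, ← L_inv]
    group

lemma st_of_conj_eq {s t : k} (ht : t ≠ 0)
    (h : Cfsg.conjBy (Cfsg.lowerUnipotentSL2 k) (U t)⁻¹ = Cfsg.conjBy (Cfsg.upperUnipotentSL2 k) (L s)⁻¹) :
    s * t = 1 := by
  have h1 : (U t)⁻¹ * L 1 * (U t)⁻¹⁻¹ ∈ Cfsg.conjBy (Cfsg.lowerUnipotentSL2 k) (U t)⁻¹ :=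
    conj_mem_conjBy (mem_lower.2 ⟨1, rfl⟩)
  rw [h, mem_conjBy, mem_upper, inv_inv, inv_inv, U_inv, L_inv] at h1
  obtain ⟨r, hr⟩ := h1
  have := congrArg (fun g : SL2 => g 0 0) hr
  simp [mul_apply'] at this
  have h2 : t * (s * t - 1) = 0 := by linear_combination this
  rcases mul_eq_zero.1 h2 with h3 | h3
  · exact absurd h3 ht
  · linear_combination h3

lemma special_id {s t : k} (hst : s * t = 1) :
    (U t)⁻¹ * L s * U t = (L s)⁻¹ * (U t)⁻¹ * L s := by
  rw [U_inv, L_inv]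
  have hs : s = t⁻¹ := eq_inv_of_mul_eq_one_left hst
  have ht : t ≠ 0 := by
    rintro rfl
    simp at hst
  subst hs
  apply ext4 <;> simp [mul_apply', ht] <;> ring

lemma gen_of_ne (g : SL2) (hb : g 0 1 ≠ 0) :
    g = L ((g 1 1 - 1) / g 0 1) * U (g 0 1) * L ((g 0 0 - 1) / g 0 1) := by
  have hdet : g 0 0 * g 1 1 - g 0 1 * g 1 0 = 1 := by
    have := g.det_coe
    rwa [Matrix.det_fin_two] at this
  apply ext4 <;> simp [mul_apply'] <;> field_simp <;> first | ring1 | linear_combination hdet | linear_combination -hdet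

lemma gen_top : Cfsg.lowerUnipotentSL2 k ⊔ Cfsg.upperUnipotentSL2 k = ⊤ := by
  have hL : ∀ s : k, L s ∈ Cfsg.lowerUnipotentSL2 k ⊔ Cfsg.upperUnipotentSL2 k :=
    fun s => Subgroup.mem_sup_left (mem_lower.2 ⟨s, rfl⟩)
  have hU : ∀ s : k, U s ∈ Cfsg.lowerUnipotentSL2 k ⊔ Cfsg.upperUnipotentSL2 k :=
    fun s => Subgroup.mem_sup_right (mem_upper.2 ⟨s, rfl⟩)
  have h1 : ∀ g : SL2, g 0 1 ≠ 0 → g ∈ Cfsg.lowerUnipotentSL2 k ⊔ Cfsg.upperUnipotentSL2 k := by
    intro g hg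
    rw [gen_of_ne g hg]
    exact mul_mem (mul_mem (hL _) (hU _)) (hL _)
  rw [eq_top_iff]
  intro g _
  by_cases hg : g 0 1 = 0
  · have hdet : g 0 0 * g 1 1 - g 0 1 * g 1 0 = 1 := by
      have := g.det_coe
      rwa [Matrix.det_fin_two] at this
    have h00 : g 0 0 ≠ 0 := by
      intro h0
      rw [h0, hg] at hdet
      simp at hdet
    have h2 : (g * U 1) ∈ Cfsg.lowerUnipotentSL2 k ⊔ Cfsg.upperUnipotentSL2 k := by
      apply h1
      simp [mul_apply', hg, h00]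
    have h3 := mul_mem h2 (hU (-1))
    rwa [mul_assoc, U_mul, add_neg_cancel, U_zero, mul_one] at h3
  · exact h1 g hg

end


/-- For any field k, the special linear group SL₂(k) is a special rank one group with abelian unipotent subgroups, the unipotent subgroups being the group of lower unitriangular matrices and the group of upper unitriangular matrices. -/
theorem result (k : Type*) [Field k] :
    Cfsg.IsRankOneGroup (Matrix.SpecialLinearGroup (Fin 2) k) (Cfsg.lowerUnipotentSL2 k) (Cfsg.upperUnipotentSL2 k) ∧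
    Cfsg.IsSpecialRankOnePair (Cfsg.lowerUnipotentSL2 k) (Cfsg.upperUnipotentSL2 k) ∧
    Cfsg.HasAbelianUnipotents (Cfsg.lowerUnipotentSL2 k) (Cfsg.upperUnipotentSL2 k) := by
  have hcL : IsMulCommutative ↥(Cfsg.lowerUnipotentSL2 k) := by
    refine ⟨⟨fun a b => Subtype.ext ?_⟩⟩
    obtain ⟨s, hs⟩ := mem_lower.1 a.2
    obtain ⟨t, ht⟩ := mem_lower.1 b.2
    show (a : Matrix.SpecialLinearGroup (Fin 2) k) * b = b * a
    rw [hs, ht, L_mul, L_mul, add_comm]
  have hcU : IsMulCommutative ↥(Cfsg.upperUnipotentSL2 k) := by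
    refine ⟨⟨fun a b => Subtype.ext ?_⟩⟩
    obtain ⟨s, hs⟩ := mem_upper.1 a.2
    obtain ⟨t, ht⟩ := mem_upper.1 b.2
    show (a : Matrix.SpecialLinearGroup (Fin 2) k) * b = b * a
    rw [hs, ht, U_mul, U_mul, add_comm]
  have pair : Cfsg.IsRankOnePair (Cfsg.lowerUnipotentSL2 k) (Cfsg.upperUnipotentSL2 k) := by
    refine ⟨?_, ⟨1, Subgroup.upperCentralSeries_one_eq_top_iff.2 hcL⟩,
      ⟨1, Subgroup.upperCentralSeries_one_eq_top_iff.2 hcU⟩, ?_, ?_⟩
    · intro h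
      have h1 : L (1 : k) ∈ Cfsg.upperUnipotentSL2 k := by
        rw [← h]; exact mem_lower.2 ⟨1, rfl⟩
      obtain ⟨s, hs⟩ := mem_upper.1 h1
      have := congrArg (fun g : Matrix.SpecialLinearGroup (Fin 2) k => g 1 0) hs
      simp at this
    · intro a ha ha1
      obtain ⟨s, rfl⟩ := mem_lower.1 ha
      have hs : s ≠ 0 := by
        rintro rfl
        exact ha1 L_zero
      refine ⟨U s⁻¹, mem_upper.2 ⟨_, rfl⟩, ?_, conj_eq (mul_inv_cancel₀ hs)⟩
      intro h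
      rw [← U_zero] at h
      exact inv_ne_zero hs (U_inj h)
    · intro b hb hb1
      obtain ⟨t, rfl⟩ := mem_upper.1 hb
      have ht : t ≠ 0 := by
        rintro rfl
        exact hb1 U_zero
      refine ⟨L t⁻¹, mem_lower.2 ⟨_, rfl⟩, ?_, (conj_eq (inv_mul_cancel₀ ht)).symm⟩
      intro h
      rw [← L_zero] at h
      exact inv_ne_zero ht (L_inj h)
  refine ⟨⟨gen_top, pair⟩, ⟨pair, ?_⟩, hcL, hcU⟩
  intro a ha _ b hb hb1 hc
  obtain ⟨s, rfl⟩ := mem_lower.1 ha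
  obtain ⟨t, rfl⟩ := mem_upper.1 hb
  have ht : t ≠ 0 := by
    rintro rfl
    exact hb1 U_zero
  exact special_id (st_of_conj_eq ht hc)

end Cfsg.Agent.S5016
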