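import Cfsg.Statements.S5017
import Cfsg.Agent.Lib.Helper28.RankOne
open Cfsg.Agent.Lib.Helper28 Cfsg.Agent.Lib.Helper28.RankOne

set_option autoImplicit false
open Cfsg

namespace Cfsg.Agent.S5017

/-- Let X be a rank one group with unipotent subgroups A and B and N a normal subgroup of X. Then either X = N A or N lies in the centre of X. Consequently a perfect rank one group is quasisimple. -/
theorem result {X : Type*} [Group X] {A B : Subgroup X} (h : Cfsg.IsRankOneGroup X A B) :
    (∀ N : Subgroup X, N.Normal → N ⊔ A = ⊤ ∨ N ≤ Subgroup.center X) ∧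
    (Group.IsPerfect X → Cfsg.IsQuasisimple X) := by
  refine ⟨fun N hN => normal_dichotomy h N hN, fun hperf => ⟨hperf, ?_⟩⟩
  have hnt : Nontrivial (X ⧸ Subgroup.center X) := by
    by_contra hcon
    rw [not_nontrivial_iff_subsingleton] at hcon
    apply not_normal_left h.2
    intro b _
    have hb : b ∈ Subgroup.center X := by
      rw [← QuotientGroup.eq_one_iff]
      exact Subsingleton.elim _ _
    rw [Subgroup.mem_normalizer_iff]
    intro x
    have : b * x * b⁻¹ = x := by
      rw [Subgroup.mem_center_iff] at hb
      rw [← hb x, mul_inv_cancel_right]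
    rw [this]
  refine { exists_pair_ne := hnt.exists_pair_ne, eq_bot_or_eq_top_of_normal := ?_ }
  intro M hM
  have hNn : (M.comap (QuotientGroup.mk' (Subgroup.center X))).Normal := hM.comap _
  rcases normal_dichotomy h _ hNn with h1 | h1
  · right
    set N := M.comap (QuotientGroup.mk' (Subgroup.center X)) with hNdef
    have hsurj : Function.Surjective ((QuotientGroup.mk' N).comp A.subtype) := by
      intro q
      obtain ⟨x, rfl⟩ := QuotientGroup.mk'_surjective N q
      have hx : x ∈ ((N ⊔ A : Subgroup X) : Set X) := by rw [h1]; trivial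
      rw [Subgroup.normal_mul] at hx
      obtain ⟨n, hn, a, ha, rfl⟩ := hx
      refine ⟨⟨a, ha⟩, ?_⟩
      have hn1 : (QuotientGroup.mk' N) n = 1 := (QuotientGroup.eq_one_iff n).2 hn
      simp only [MonoidHom.comp_apply, Subgroup.subtype_apply, map_mul, hn1, one_mul]
    haveI := h.2.nilpotent_left
    have hnil : Group.IsNilpotent (X ⧸ N) := Group.nilpotent_of_surjective _ hsurj
    have hsub : Subsingleton (X ⧸ N) := by
      by_contra hcon
      rw [not_subsingleton_iff_nontrivial] at hcon
      exact Group.IsPerfect.not_isNilpotent (X ⧸ N) hnil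
    rw [eq_top_iff]
    intro m _
    obtain ⟨x, rfl⟩ := QuotientGroup.mk'_surjective _ m
    have hx : x ∈ N := by
      rw [← QuotientGroup.eq_one_iff]
      exact Subsingleton.elim _ _
    exact hx
  · left
    rw [eq_bot_iff]
    intro m hm
    obtain ⟨x, rfl⟩ := QuotientGroup.mk'_surjective _ m
    have hx : x ∈ Subgroup.center X := h1 hm
    rw [Subgroup.mem_bot]
    exact (QuotientGroup.eq_one_iff x).2 hx

end Cfsg.Agent.S5017
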