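import Cfsg.Statements.S5018
import Cfsg.Agent.Lib.Helper28.RankOne
open Cfsg.Agent.Lib.Helper28 Cfsg.Agent.Lib.Helper28.RankOne

set_option autoImplicit false
open Cfsg

namespace Cfsg.Agent.S5018

/-- A rank one group is not nilpotent, and its second centre equals its centre. -/
theorem result {X : Type*} [Group X] {A B : Subgroup X} (h : Cfsg.IsRankOneGroup X A B) :
    Subgroup.upperCentralSeries X 2 = Subgroup.center X ∧ ¬ Group.IsNilpotent X := by
  have hcn : Subgroup.center X ≤ Subgroup.normalizer (A : Set X) := by
    intro b hb
    rw [Subgroup.mem_normalizer_iff]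
    intro x
    have : b * x * b⁻¹ = x := by
      rw [Subgroup.mem_center_iff] at hb
      rw [← hb x, mul_inv_cancel_right]
    rw [this]
  have h2 : Subgroup.upperCentralSeries X 2 = Subgroup.center X := by
    apply le_antisymm
    · rcases normal_dichotomy h (Subgroup.upperCentralSeries X 2) inferInstance with h1 | h1
      · exfalso
        apply not_normal_left h.2
        obtain ⟨y, -, hy⟩ := B_mem_unipotent h.2
        have hy' : y ∈ ((Subgroup.upperCentralSeries X 2 ⊔ A : Subgroup X) : Set X) := by rw [h1]; trivial
        rw [Subgroup.normal_mul] at hy'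
        obtain ⟨z, hz, a, ha, rfl⟩ := hy'
        rw [← conjBy_conjBy, conjBy_of_mem ha] at hy
        intro b hb
        rw [hy, mem_conjBy] at hb
        have hz' : z ∈ Subgroup.upperCentralSeries X (1 + 1) := hz
        rw [Subgroup.mem_upperCentralSeries_succ_iff] at hz'
        have h3 := hz' (z⁻¹ * b * z)
        rw [Subgroup.upperCentralSeries_one, commutatorElement_def] at h3
        have h4 : b = (z * (z⁻¹ * b * z) * z⁻¹ * (z⁻¹ * b * z)⁻¹) * (z⁻¹ * b * z) := by group
        rw [h4]
        exact mul_mem (hcn h3) (Subgroup.le_normalizer hb)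
      · exact h1
    · rw [← Subgroup.upperCentralSeries_one]
      exact Subgroup.upperCentralSeries_mono X (by norm_num)
  refine ⟨h2, ?_⟩
  rintro ⟨n, hn⟩
  have hall : ∀ n, Subgroup.upperCentralSeries X n ≤ Subgroup.center X := by
    intro n
    induction n with
    | zero => simp
    | succ n ih =>
      intro x hx
      rw [← h2]
      have : x ∈ Subgroup.upperCentralSeries X (1 + 1) := by
        rw [Subgroup.mem_upperCentralSeries_succ_iff]
        intro y
        rw [Subgroup.upperCentralSeries_one]
        rw [Subgroup.mem_upperCentralSeries_succ_iff] at hx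
        exact ih (hx y)
      exact this
  apply not_normal_left h.2
  intro b _
  apply hcn
  apply hall n
  rw [hn]; trivial

end Cfsg.Agent.S5018
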