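import Cfsg.Statements.S5019
import Cfsg.Agent.Lib.Helper28.QuadAct
open Cfsg.Agent.Lib.Helper28 Cfsg.Agent.Lib.Helper28.RankOne Cfsg.Agent.Lib.Helper28.QuadAct

set_option autoImplicit false
open Cfsg

namespace Cfsg.Agent.S5019

/-- Let X be a rank one group with abelian unipotent subgroups A and B, and suppose X acts on an abelian group N (written additively) in such a way that A acts quadratically, meaning a' • (a • n − n) = a • n − n for all a, a' in A and n in N, while X as a whole does not: y • (x • n − n) ≠ x • n − n for some x, y in X and n in N. Then X is a special rank one group. -/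
theorem result {X : Type*} [Group X] {A B : Subgroup X} (h : Cfsg.IsRankOneGroup X A B)
    (hab : Cfsg.HasAbelianUnipotents A B) {N : Type*} [AddCommGroup N] [DistribMulAction X N]
    (hq : ∀ a ∈ A, ∀ a' ∈ A, ∀ n : N, a' • (a • n - n) = a • n - n)
    (hX : ∃ x y : X, ∃ n : N, y • (x • n - n) ≠ x • n - n) : Cfsg.IsSpecialRankOnePair A B := by
  obtain ⟨htop, hp⟩ := h
  have hqA : Quad N A := hq
  have hqB := quad_right hp hqA
  refine ⟨hp, ?_⟩
  intro a ha ha1 b hb hb1 hc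
  have hmem : b⁻¹ * a * b ∈ Cfsg.conjBy B a⁻¹ := by
    rw [← hc]
    have := conj_mem_conjBy (g := b⁻¹) ha
    simpa using this
  rw [mem_conjBy] at hmem
  obtain ⟨y, hy, hyeq⟩ : ∃ y ∈ B, b⁻¹ * a * b = a⁻¹ * y * a := ⟨_, hmem, by group⟩
  by_cases ht : y * b = 1
  · have : y = b⁻¹ := eq_inv_of_mul_eq_one_left ht
    rw [hyeq, this]
  exfalso
  have htB : y * b ∈ B := B.mul_mem hy hb
  have hτ : ∀ u ∈ cm N A, (y * b) • u - u ∈ cm N A ⊓ cm N B := by
    intro u hu
    have hau : a • u = u := fixed hqA hu ha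
    obtain ⟨w₁, hw₁⟩ : ∃ w, w = b • u - u := ⟨_, rfl⟩
    have hw₁B : w₁ ∈ cm N B := by rw [hw₁]; exact gen_mem hb u
    have hbu : b • u = u + w₁ := by rw [hw₁]; abel
    obtain ⟨z, hz⟩ : ∃ z, z = u - (a • w₁ - w₁) := ⟨_, rfl⟩
    have hzZ : z ∈ cm N A ⊓ cm N B := by
      have hk := key hqA ha hb hc hu
      rw [inv_smul_sub hqB hb u, ← hw₁, smul_neg] at hk
      have h2 : u - (-(a⁻¹ • w₁) - -w₁) = z := by
        have h3 := inv_smul_sub hqA ha w₁
        have h4 : a⁻¹ • w₁ = w₁ - (a • w₁ - w₁) := by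
          rw [sub_eq_iff_eq_add] at h3; rw [h3]; abel
        rw [hz, h4]; abel
      rwa [h2] at hk
    have haw : a • w₁ = w₁ + u - z := by rw [hz]; abel
    have hbz : b⁻¹ • z = z := fixed hqB hzZ.2 (B.inv_mem hb)
    have hbinv : b⁻¹ • u = u - w₁ := by
      have h3 := inv_smul_sub hqB hb u
      rw [← hw₁, sub_eq_iff_eq_add] at h3
      rw [h3]; abel
    have hbw : b⁻¹ • w₁ = w₁ := fixed hqB hw₁B (B.inv_mem hb)
    have hL : (b⁻¹ * a * b) • u = u + u - w₁ - z := by
      rw [mul_smul, mul_smul, hbu, smul_add, hau, haw, smul_add, smul_sub, smul_add, hbinv, hbw, hbz]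
      abel
    obtain ⟨w₂, hw₂⟩ : ∃ w, w = y • u - u := ⟨_, rfl⟩
    have hw₂B : w₂ ∈ cm N B := by rw [hw₂]; exact gen_mem hy u
    have hyu : y • u = u + w₂ := by rw [hw₂]; abel
    have hainv : a⁻¹ • u = u := fixed hqA hu (A.inv_mem ha)
    have hR : (a⁻¹ * y * a) • u = u + a⁻¹ • w₂ := by
      rw [mul_smul, mul_smul, hau, hyu, smul_add, hainv]
    have hx₂ : a⁻¹ • w₂ - w₂ ∈ cm N A := gen_mem (A.inv_mem ha) w₂
    have heq : u + u - w₁ - z = u + a⁻¹ • w₂ := by rw [← hL, ← hR, hyeq]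
    have hyw : y • w₁ = w₁ := fixed hqB hw₁B hy
    have hfin : (y * b) • u - u = w₁ + w₂ := by
      rw [mul_smul, hbu, smul_add, hyu, hyw]; abel
    rw [hfin]
    refine AddSubgroup.mem_inf.2 ⟨?_, add_mem hw₁B hw₂B⟩
    have h5 : a⁻¹ • w₂ = u - w₁ - z := by
      have h6 : u + a⁻¹ • w₂ = u + (u - w₁ - z) := by rw [← heq]; abel
      exact add_left_cancel h6
    have h7 : w₁ + w₂ = u - z - (a⁻¹ • w₂ - w₂) := by rw [h5]; abel
    rw [h7]
    exact sub_mem (sub_mem hu hzZ.1) hx₂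
  obtain ⟨c, hcA, hc1, hct⟩ := hp.cond_right (y * b) htB ht
  have hleB : cm N B ≤ cm N A := by
    intro u hu
    have hk := key hqB htB hcA hct hu
    obtain ⟨w, hw⟩ : ∃ w, w = c⁻¹ • u - u := ⟨_, rfl⟩
    have hwA : w ∈ cm N A := by rw [hw]; exact gen_mem (A.inv_mem hcA) u
    rw [← hw, inv_smul_sub hqB htB] at hk
    have h2 := hτ w hwA
    have h2' : -((y * b) • w - w) ∈ cm N B ⊓ cm N A :=
      ⟨(cm N B).neg_mem h2.2, (cm N A).neg_mem h2.1⟩
    have h3 := add_mem hk h2'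
    rw [sub_add_cancel] at h3
    exact h3.2
  have hle : cm N A ≤ cm N B := cm_le_of_le (Cfsg.RankOnePair_symm hp) hqB hleB
  let T : Subgroup X :=
    { carrier := {x | (∀ u ∈ cm N A, x • u = u) ∧ ∀ n : N, x • n - n ∈ cm N A}
      one_mem' := ⟨by simp, by intro n; simp⟩
      mul_mem' := by
        rintro x y ⟨hx1, hx2⟩ ⟨hy1, hy2⟩
        refine ⟨fun u hu => by rw [mul_smul, hy1 u hu, hx1 u hu], fun n => ?_⟩
        have h1 : (x * y) • n - n = (y • n - n) + (x • n - n) := by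
          have h2 := hx1 _ (hy2 n)
          rw [smul_sub, smul_smul, sub_eq_iff_eq_add] at h2
          rw [h2]; abel
        rw [h1]; exact add_mem (hy2 n) (hx2 n)
      inv_mem' := by
        rintro x ⟨hx1, hx2⟩
        refine ⟨fun u hu => by rw [inv_smul_eq_iff, hx1 u hu], fun n => ?_⟩
        have h1 := hx2 (x⁻¹ • n)
        rw [smul_smul, mul_inv_cancel, one_smul] at h1
        have h2 := neg_mem h1
        rwa [neg_sub] at h2 }
  have hAT : A ≤ T := fun a ha => ⟨fun u hu => fixed hqA hu ha, fun n => gen_mem ha n⟩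
  have hBT : B ≤ T := fun b hb => ⟨fun u hu => fixed hqB (hle hu) hb, fun n => hleB (gen_mem hb n)⟩
  have hT : ∀ x : X, x ∈ T := by
    intro x
    have : x ∈ A ⊔ B := by rw [htop]; exact Subgroup.mem_top x
    exact (sup_le hAT hBT) this
  obtain ⟨x, y', n, hne⟩ := hX
  exact hne ((hT y').1 _ ((hT x).2 n))

end Cfsg.Agent.S5019
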