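import Cfsg.Statements.S5021
import Cfsg.Agent.Lib.Helper28.Special
open Cfsg.Agent.Lib.Helper28 Cfsg.Agent.Lib.Helper28.RankOne Cfsg.Agent.Lib.Helper28.Special

set_option autoImplicit false
open Cfsg

namespace Cfsg.Agent.S5021

/-- In a special rank one group with abelian unipotent subgroups A and B, either A is an elementary abelian p-group for some prime p, or A is torsion-free and divisible (every element of A has an n-th root in A for every positive n). -/
theorem result {X : Type*} [Group X] {A B : Subgroup X} (h : Cfsg.IsRankOneGroup X A B)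
    (hs : Cfsg.IsSpecialRankOnePair A B) (hab : Cfsg.HasAbelianUnipotents A B) :
    (∃ p : ℕ, p.Prime ∧ Cfsg.IsElementaryAbelian p A) ∨
    ((∀ a ∈ A, a ≠ 1 → ¬ IsOfFinOrder a) ∧ ∀ a ∈ A, ∀ n : ℕ, 0 < n → ∃ c ∈ A, c ^ n = a) := by
  obtain ⟨-, hp⟩ := h
  obtain ⟨hA, hB⟩ := hab
  have hs' := special_symm hs
  by_cases htf : ∀ a ∈ A, a ≠ 1 → ¬ IsOfFinOrder a
  · right
    refine ⟨htf, ?_⟩
    intro a ha n hn
    by_cases ha1 : a = 1
    · exact ⟨1, one_mem _, by simp [ha1]⟩
    obtain ⟨b, hab⟩ := exists_b hp ha ha1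
    have hntA : ∀ x ∈ A, x ≠ 1 → ∀ k, 0 < k → x ^ k ≠ 1 := by
      intro x hx hx1 k hk h0
      exact htf x hx hx1 (isOfFinOrder_iff_pow_eq_one.2 ⟨k, hk, h0⟩)
    have hntB : ∀ x ∈ B, x ≠ 1 → ∀ k, 0 < k → x ^ k ≠ 1 := by
      intro x hx hx1 k hk h0
      obtain ⟨a', ha'⟩ := exists_a hp hx hx1
      exact hntA a' ha'.1 ha'.2.1 k hk ((pow_eq_one_iff hs ha' k).2 h0)
    have hnt : NT B A n := by
      intro x hx hx1 k hk _
      rcases hx with hx | hx
      · exact hntB x hx hx1 k hk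
      · exact hntA x hx hx1 k hk
    obtain ⟨c, hc⟩ := exists_a hp (B.pow_mem hab.2.2.1 n) (hntB b hab.2.2.1 hab.2.2.2.1 n hn)
    exact ⟨c, hc.1, main n hs' hB hA hnt b a c hab.symm hc.symm⟩
  · left
    push Not at htf
    obtain ⟨a, ha, ha1, hfin⟩ := htf
    classical
    have hex : ∃ k : ℕ, 0 < k ∧ ∃ x ∈ A, x ≠ 1 ∧ x ^ k = 1 := by
      obtain ⟨k, hk, h0⟩ := isOfFinOrder_iff_pow_eq_one.1 hfin
      exact ⟨k, hk, a, ha, ha1, h0⟩
    obtain ⟨p, hpdef⟩ : ∃ p, p = Nat.find hex := ⟨_, rfl⟩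
    have hspec := Nat.find_spec hex
    rw [← hpdef] at hspec
    obtain ⟨hp0, x₀, hx₀, hx₀1, hx₀p⟩ := hspec
    have hmin : ∀ x ∈ A, x ≠ 1 → ∀ k, 0 < k → k < p → x ^ k ≠ 1 := by
      intro x hx hx1 k hk hkp h0
      rw [hpdef] at hkp
      exact Nat.find_min hex hkp ⟨hk, x, hx, hx1, h0⟩
    have hp1 : p ≠ 1 := by
      rintro rfl
      exact hx₀1 (by simpa using hx₀p)
    have hprime : p.Prime := by
      have hq := Nat.minFac_prime hp1
      obtain ⟨l, hl⟩ := Nat.minFac_dvd p
      have hl0 : 0 < l := by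
        rcases Nat.eq_zero_or_pos l with rfl | h
        · omega
        · exact h
      by_cases hl1 : l = 1
      · rw [hl1, mul_one] at hl
        rw [hl]; exact hq
      · exfalso
        have hq2 := hq.two_le
        have hqp : p.minFac < p := by
          have : 2 ≤ l := by omega
          calc p.minFac < p.minFac * l := by nlinarith
            _ = p := hl.symm
        have hlp : l < p := by
          calc l < p.minFac * l := by nlinarith
            _ = p := hl.symm
        have h1 := hmin x₀ hx₀ hx₀1 p.minFac hq.pos hqp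
        refine hmin (x₀ ^ p.minFac) (A.pow_mem hx₀ _) h1 l hl0 hlp ?_
        rw [← pow_mul, ← hl, hx₀p]
    have hnt : NT A B p := by
      intro x hx hx1 k hk hkp
      rcases hx with hx | hx
      · exact hmin x hx hx1 k hk hkp
      · intro h0
        obtain ⟨a', ha'⟩ := exists_a hp hx hx1
        exact hmin a' ha'.1 ha'.2.1 k hk hkp ((pow_eq_one_iff hs ha' k).2 h0)
    refine ⟨p, hprime, hA, ?_⟩
    intro y hy
    by_contra hyp
    have hy1 : y ≠ 1 := by rintro rfl; exact hyp (one_pow p)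
    have hc : Commute x₀ y := comm_of_isMulCommutative hA hx₀ hy
    have hpw : (x₀ * y) ^ p = y ^ p := by rw [hc.mul_pow, hx₀p, one_mul]
    have hxy1 : x₀ * y ≠ 1 := by
      intro h0; apply hyp; rw [← hpw, h0, one_pow]
    obtain ⟨e, he⟩ := exists_b hp hy hy1
    obtain ⟨η, hη⟩ := exists_b hp (A.pow_mem hy p) hyp
    obtain ⟨e', he'⟩ := exists_b hp (A.mul_mem hx₀ hy) hxy1
    have h1 := main p hs hA hB hnt y e η he hη
    have h2 := main p hs hA hB hnt (x₀ * y) e' η he' (by rw [hpw]; exact hη)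
    rw [h1] at h2
    rw [← h2] at he'
    have h3 := uniq_a hp he he'
    apply hx₀1
    calc x₀ = (x₀ * y) * y⁻¹ := by group
      _ = y * y⁻¹ := by rw [← h3]
      _ = 1 := by group

end Cfsg.Agent.S5021
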