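import Cfsg.Statements.S5023
import Cfsg.Agent.Lib.Helper28.QuadAct
open Cfsg.Agent.Lib.Helper28 Cfsg.Agent.Lib.Helper28.RankOne Cfsg.Agent.Lib.Helper28.QuadAct

set_option autoImplicit false
open Cfsg

namespace Cfsg.Agent.S5023

/-- Let X be a rank one group with unipotent subgroups A and B that acts faithfully on an abelian group V (written additively) with A acting quadratically: a' • (a • v − v) = a • v − v for all a, a' in A and v in V. Then A is either torsion-free or an elementary abelian p-group for some prime p. -/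
theorem result {X : Type*} [Group X] {A B : Subgroup X} (h : Cfsg.IsRankOneGroup X A B)
    {V : Type*} [AddCommGroup V] [DistribMulAction X V] (hf : ∀ x : X, (∀ v : V, x • v = v) → x = 1)
    (hq : ∀ a ∈ A, ∀ a' ∈ A, ∀ v : V, a' • (a • v - v) = a • v - v) :
    (∀ a ∈ A, a ≠ 1 → ¬ IsOfFinOrder a) ∨ ∃ p : ℕ, p.Prime ∧ Cfsg.IsElementaryAbelian p A := by
  obtain ⟨-, hp⟩ := h
  have hqA : Quad V A := hq
  have hqB := quad_right hp hqA
  have hfaith : ∀ x y : X, (∀ v : V, x • v = y • v) → x = y := by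
    intro x y hxy
    have : y⁻¹ * x = 1 := by
      apply hf
      intro v
      rw [mul_smul, hxy v, smul_smul, inv_mul_cancel, one_smul]
    calc x = y * (y⁻¹ * x) := by group
      _ = y := by rw [this, mul_one]
  have hcomm : IsMulCommutative A := by
    refine ⟨⟨?_⟩⟩
    rintro ⟨a, ha⟩ ⟨a', ha'⟩
    apply Subtype.ext
    apply hfaith
    intro v
    have h1 := mul_smul_sub hqA ha ha' v
    have h2 := mul_smul_sub hqA ha' ha v
    have : (a * a') • v - v = (a' * a) • v - v := by rw [h1, h2]; abel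
    exact sub_left_injective this
  by_cases htf : ∀ a ∈ A, a ≠ 1 → ¬ IsOfFinOrder a
  · left; exact htf
  right
  push Not at htf
  obtain ⟨a, ha, ha1, hfin⟩ := htf
  obtain ⟨p, hpp, a0, ha0, ha01, ha0p⟩ : ∃ p : ℕ, p.Prime ∧ ∃ a0 ∈ A, a0 ≠ 1 ∧ a0 ^ p = 1 := by
    have hn1 : orderOf a ≠ 1 := by rwa [Ne, orderOf_eq_one_iff]
    have hn0 : orderOf a ≠ 0 := (orderOf_pos_iff.2 hfin).ne'
    have hpr := Nat.minFac_prime hn1
    have hdvd := Nat.minFac_dvd (orderOf a)
    refine ⟨(orderOf a).minFac, hpr, a ^ (orderOf a / (orderOf a).minFac), A.pow_mem ha _, ?_, ?_⟩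
    · intro h1
      have h2 := orderOf_dvd_of_pow_eq_one h1
      have h3 : orderOf a / (orderOf a).minFac < orderOf a :=
        Nat.div_lt_self (Nat.pos_of_ne_zero hn0) hpr.one_lt
      have h4 : 0 < orderOf a / (orderOf a).minFac :=
        Nat.div_pos (Nat.le_of_dvd (Nat.pos_of_ne_zero hn0) hdvd) hpr.pos
      exact absurd (Nat.le_of_dvd h4 h2) (by omega)
    · rw [← pow_mul, Nat.div_mul_cancel hdvd, pow_orderOf_eq_one]
  refine ⟨p, hpp, hcomm, ?_⟩
  intro a' ha'
  by_contra h1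
  obtain ⟨b0, hb0, hb01, hc0⟩ := hp.cond_left a0 ha0 ha01
  obtain ⟨b1, hb1, hb11, hc1⟩ := hp.cond_left (a' ^ p) (A.pow_mem ha' p) h1
  -- p [V,A] ≤ Z
  have hpZ : ∀ u ∈ cm V A, p • u ∈ cm V A ⊓ cm V B := by
    intro u hu
    have hk := key hqA ha0 hb0 hc0 hu
    obtain ⟨w, hw⟩ : ∃ w, w = b0⁻¹ • u - u := ⟨_, rfl⟩
    rw [← hw] at hk
    have h0 : p • (a0⁻¹ • w - w) = 0 := by
      rw [← pow_smul_sub hqA (A.inv_mem ha0), inv_pow, ha0p, inv_one, one_smul, sub_self]
    have h2 := AddSubgroup.nsmul_mem _ hk p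
    rwa [smul_sub, h0, sub_zero] at h2
  have hle : cm V A ≤ cm V B := by
    intro u hu
    have hk := key hqA (A.pow_mem ha' p) hb1 hc1 hu
    obtain ⟨w, hw⟩ : ∃ w, w = b1⁻¹ • u - u := ⟨_, rfl⟩
    rw [← hw] at hk
    have h2 : (a' ^ p)⁻¹ • w - w ∈ cm V A ⊓ cm V B := by
      rw [inv_smul_sub hqA (A.pow_mem ha' p), pow_smul_sub hqA ha']
      exact neg_mem (hpZ _ (gen_mem ha' w))
    have h3 := add_mem hk h2
    rw [sub_add_cancel] at h3
    exact h3.2
  exact not_comm hp hcomm ha0 ha01 hb0 hb01 (hfaith _ _ (comm_of_le hp hqA hle ha0 hb0))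

end Cfsg.Agent.S5023
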