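import Cfsg.Statements.S5024
import Cfsg.Agent.Lib.Helper28.RootSet
open Cfsg.Agent.Lib.Helper28 Cfsg.Agent.Lib.Helper28.RankOne Cfsg.Agent.Lib.Helper28.RootSet
open scoped commutatorElement

set_option autoImplicit false
open Cfsg

namespace Cfsg.Agent.S5024

lemma mem_unip {G : Type*} [Group G] {S : Set (Subgroup G)} (hS : Cfsg.IsRootSubgroupSet S)
    {A B C D : Subgroup G} (hA : A ∈ S) (hAB : Cfsg.IsRankOnePair A B) (hC : C ∈ S)
    (hCD : Cfsg.IsRankOnePair C D) (hle : A ⊔ B ≤ C ⊔ D) : A ∈ Cfsg.unipotentSubgroups C D := by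
  have hAle : A ≤ C ⊔ D := le_sup_left.trans hle
  have hmemS : ∀ E ∈ Cfsg.unipotentSubgroups C D, E ∈ S := by
    rintro E ⟨y, -, rfl⟩
    exact hS.conj_mem C hC y
  by_cases hall : ∀ E ∈ Cfsg.unipotentSubgroups C D, ∀ a ∈ A, Cfsg.conjBy E a = E
  · exfalso
    have hcen : ∀ {C D : Subgroup G}, Cfsg.IsRankOnePair C D →
        (∀ E ∈ Cfsg.unipotentSubgroups C D, ∀ a ∈ A, Cfsg.conjBy E a = E) →
        ∀ a ∈ A, ∀ c ∈ C, a * c = c * a := by
      intro C D hCD hall a ha c hc
      have h1 : a * c * a⁻¹ * c⁻¹ ∈ C := by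
        refine C.mul_mem ?_ (C.inv_mem hc)
        have := conj_mem_conjBy (g := a) hc
        rwa [hall C A_mem_unipotent a ha] at this
      have h2 : a * c * a⁻¹ * c⁻¹ ∈ Subgroup.normalizer (D : Set G) := by
        have h3 : a ∈ Subgroup.normalizer (D : Set G) :=
          conjBy_eq_self_iff.1 (hall D (B_mem_unipotent hCD) a ha)
        have h4 : c * a⁻¹ * c⁻¹ ∈ Subgroup.normalizer (D : Set G) := by
          rw [← conjBy_eq_self_iff]
          have h5 := hall (Cfsg.conjBy D c⁻¹)
            (unipotent_conj (B_mem_unipotent hCD) (inv_mem (Subgroup.mem_sup_left hc))) a⁻¹ (A.inv_mem ha)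
          rw [conjBy_conjBy] at h5
          have h6 : Cfsg.conjBy (Cfsg.conjBy D (a⁻¹ * c⁻¹)) c = Cfsg.conjBy (Cfsg.conjBy D c⁻¹) c := by
            rw [h5]
          rw [conjBy_conjBy, conjBy_conjBy, mul_inv_cancel, conjBy_one, ← mul_assoc] at h6
          exact h6
        have := mul_mem h3 h4
        simpa [mul_assoc] using this
      have h7 := eq_one_of_normalizes hCD h1 h2
      have := congrArg (fun w => w * c * a) h7
      simpa [mul_assoc] using this
    have hallD : ∀ E ∈ Cfsg.unipotentSubgroups D C, ∀ a ∈ A, Cfsg.conjBy E a = E := by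
      rintro E ⟨y, hy, rfl⟩ a ha
      apply hall _ _ a ha
      rw [sup_comm] at hy
      exact unipotent_conj (B_mem_unipotent hCD) hy
    apply not_normal_left hAB
    intro b hb
    have hbY : b ∈ C ⊔ D := hle (Subgroup.mem_sup_right hb)
    have hle2 : C ⊔ D ≤ Subgroup.centralizer (A : Set G) := by
      refine sup_le ?_ ?_
      · intro c hc
        rw [Subgroup.mem_centralizer_iff]
        intro a ha
        exact hcen hCD hall a ha c hc
      · intro d hd
        rw [Subgroup.mem_centralizer_iff]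
        intro a ha
        exact hcen (Cfsg.RankOnePair_symm hCD) hallD a ha d hd
    exact Subgroup.centralizer_le_normalizer _ (hle2 hbY)
  · push Not at hall
    obtain ⟨E, hE, a0, ha0, hmv⟩ := hall
    have ha01 : a0 ≠ 1 := by
      rintro rfl
      exact hmv (conjBy_one E)
    have hnn : a0 ∉ Subgroup.normalizer (E : Set G) := fun h => hmv (conjBy_eq_self_iff.2 h)
    rcases hS.pair A hA E (hmemS E hE) with h | h | h
    · exact absurd (normalizes_of_comm (fun e he => comm_of_commutator_eq_bot h ha0 he)) hnn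
    · obtain ⟨e, he, -, e1⟩ := h.cond_left a0 ha0 ha01
      obtain ⟨y, hy, rfl⟩ := hE
      have heY : e ∈ C ⊔ D := conjBy_le_of_le le_sup_left hy he
      refine ⟨e * a0⁻¹ * y, mul_mem (mul_mem heY (inv_mem (hAle ha0))) hy, ?_⟩
      rw [conjBy_eq_iff, inv_inv, conjBy_conjBy, conjBy_conjBy] at e1
      exact e1
    · exfalso
      have hp : Cfsg.IsRankOnePair (Cfsg.conjBy E a0) E :=
        pair_of_unipotent hCD (unipotent_conj hE (hAle ha0)) hE hmv
      obtain ⟨e, he, he1⟩ := exists_ne_one_right hp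
      have h1 : a0 * e * a0⁻¹ ∈ Subgroup.normalizer (E : Set G) := by
        have := mul_mem (comm_elem_normalizes h ha0 he) (Subgroup.le_normalizer he)
        simpa [mul_assoc] using this
      have h2 := eq_one_of_normalizes hp (conj_mem_conjBy he) h1
      apply he1
      have := congrArg (fun z => a0⁻¹ * z * a0) h2
      simpa [mul_assoc] using this


/-- Let S be a set of abstract root subgroups of G, A and C members of S, B a rank one partner of A in S and D a rank one partner of C in S. If the rank one group ⟨A, B⟩ is contained in ⟨C, D⟩ then the two coincide, and C and D are conjugates of A inside ⟨A, B⟩. -/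
theorem result {G : Type*} [Group G] {S : Set (Subgroup G)} (hS : Cfsg.IsRootSubgroupSet S)
    {A B C D : Subgroup G} (hA : A ∈ S) (hC : C ∈ S) (hB : B ∈ Cfsg.rankOnePartners S A) (hD : D ∈ Cfsg.rankOnePartners S C)
    (hle : A ⊔ B ≤ C ⊔ D) : A ⊔ B = C ⊔ D ∧ C ∈ Cfsg.unipotentSubgroups A B ∧ D ∈ Cfsg.unipotentSubgroups A B := by
  have h1 := mem_unip hS hA hB.2 hC hD.2 hle
  have h2 := mem_unip hS hB.1 (Cfsg.RankOnePair_symm hB.2) hC hD.2 (by rw [sup_comm]; exact hle)
  have h3 := sup_of_unipotent hD.2 h1 h2 hB.2.ne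
  refine ⟨h3, ?_, ?_⟩
  · obtain ⟨y, hy, e⟩ := h1
    refine ⟨y⁻¹, by rw [h3]; exact inv_mem hy, ?_⟩
    rw [e, conjBy_conjBy, inv_mul_cancel, conjBy_one]
  · obtain ⟨y, hy, e⟩ := h1
    obtain ⟨y', hy', e'⟩ := B_mem_unipotent hD.2
    refine ⟨y' * y⁻¹, by rw [h3]; exact mul_mem hy' (inv_mem hy), ?_⟩
    rw [e, conjBy_conjBy, inv_mul_cancel_right]
    exact e'

end Cfsg.Agent.S5024
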