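import Cfsg.Statements.S5026
import Cfsg.Agent.Lib.Helper28.RootSet
open Cfsg.Agent.Lib.Helper28 Cfsg.Agent.Lib.Helper28.RankOne Cfsg.Agent.Lib.Helper28.RootSet
open scoped commutatorElement

set_option autoImplicit false
open Cfsg

namespace Cfsg.Agent.S5026

lemma le_centralizer_zpowers {G : Type*} [Group G] {E : Subgroup G} {x : G} :
    E ≤ Subgroup.centralizer (Subgroup.zpowers x : Set G) ↔ ∀ e ∈ E, e * x = x * e := by
  constructor
  · intro h e he
    have := h he
    rw [Subgroup.mem_centralizer_iff] at this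
    exact (this x (Subgroup.mem_zpowers x)).symm
  · intro h e he
    rw [Subgroup.mem_centralizer_iff]
    rintro y ⟨n, rfl⟩
    have hc : Commute e x := h e he
    exact (hc.zpow_right n).symm

lemma key {G : Type*} [Group G] {S : Set (Subgroup G)} (hS : Cfsg.IsRootSubgroupSet S)
    (hdeg : Cfsg.IsDegenerateRootSet S)
    {a b : G} (ha : a ∈ Cfsg.rootElements S) (hb : b ∈ Cfsg.rootElements S) (hab : a * b = b * a)
    (hab1 : a * b ≠ 1) {E : Subgroup G} (hE : E ∈ S) (hc : ∀ e ∈ E, e * (a * b) = (a * b) * e) :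
    ∀ e ∈ E, e * a = a * e := by
  by_contra hcon
  obtain ⟨ha1, A, hA, haA⟩ := ha
  obtain ⟨hb1, B, hB, hbB⟩ := hb
  have hAE : Cfsg.IsRankOnePair A E := by
    rcases hS.pair A hA E hE with h | h | h
    · exact absurd (fun e he => (comm_of_commutator_eq_bot h haA he).symm) hcon
    · exact h
    · exact absurd h (hdeg A hA E hE)
  have hBE : Cfsg.IsRankOnePair B E := by
    rcases hS.pair B hB E hE with h | h | h
    · exfalso
      apply hcon
      intro e he
      have h1 := comm_of_commutator_eq_bot h hbB he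
      have h2 := hc e he
      have h3 : e * a * b = a * e * b := by
        rw [mul_assoc, h2, mul_assoc, mul_assoc, h1]
      exact mul_right_cancel h3
    · exact h
    · exact absurd h (hdeg B hB E hE)
  obtain ⟨e, he, -, e1⟩ := hAE.cond_left a haA ha1
  obtain ⟨e', he', -, e2⟩ := hBE.cond_left b⁻¹ (B.inv_mem hbB) (by simpa using hb1)
  rw [inv_inv] at e2
  have hn : a * b ∈ Subgroup.normalizer (E : Set G) :=
    normalizes_of_comm (fun e he => (hc e he).symm)
  have e3 : Cfsg.conjBy E b = Cfsg.conjBy E a⁻¹ := by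
    have := conjBy_eq_self_iff.2 hn
    rw [← conjBy_conjBy, conjBy_eq_iff] at this
    exact this
  have e4 : B = Cfsg.conjBy A (e' * e⁻¹) := by
    rw [← conjBy_conjBy, e1, ← e3, ← e2, conjBy_conjBy, mul_inv_cancel, conjBy_one]
  have hBu : B ∈ Cfsg.unipotentSubgroups A E :=
    ⟨e' * e⁻¹, mul_mem (Subgroup.mem_sup_right he') (inv_mem (Subgroup.mem_sup_right he)), e4⟩
  by_cases hne : A = B
  · apply hab1
    exact eq_one_of_normalizes hAE (A.mul_mem haA (hne ▸ hbB)) hn
  · have hp := pair_of_unipotent hAE A_mem_unipotent hBu hne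
    exact not_comm hp (hS.commutative A hA) haA ha1 hbB hb1 hab


/-- Let S be a degenerate set of abstract root subgroups of G (a set of abstract transvection groups) and let a, b be commuting non-identity elements of members of S with a b ≠ 1. Then the members of S centralizing a b are exactly those centralizing both a and b. -/
theorem result {G : Type*} [Group G] {S : Set (Subgroup G)} (hS : Cfsg.IsRootSubgroupSet S) (hdeg : Cfsg.IsDegenerateRootSet S)
    {a b : G} (ha : a ∈ Cfsg.rootElements S) (hb : b ∈ Cfsg.rootElements S) (hab : a * b = b * a) (hab1 : a * b ≠ 1) :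
    Cfsg.centralizingMembers S (Subgroup.zpowers (a * b)) =
      Cfsg.centralizingMembers S (Subgroup.zpowers a) ∩ Cfsg.centralizingMembers S (Subgroup.zpowers b) := by
  ext E
  simp only [Cfsg.centralizingMembers, Set.mem_inter_iff, Set.mem_ofPred_eq, le_centralizer_zpowers]
  constructor
  · rintro ⟨hE, hc⟩
    refine ⟨⟨hE, key hS hdeg ha hb hab hab1 hE hc⟩, hE, ?_⟩
    refine key hS hdeg hb ha hab.symm (hab ▸ hab1) hE ?_
    rw [← hab]
    exact hc
  · rintro ⟨⟨hE, h1⟩, -, h2⟩
    refine ⟨hE, fun e he => ?_⟩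
    rw [← mul_assoc, h1 e he, mul_assoc, h2 e he, mul_assoc]

end Cfsg.Agent.S5026
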