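import Cfsg.Statements.S5027
import Cfsg.Agent.Lib.Helper28.RootSet
open Cfsg.Agent.Lib.Helper28 Cfsg.Agent.Lib.Helper28.RankOne Cfsg.Agent.Lib.Helper28.RootSet
open scoped commutatorElement

set_option autoImplicit false
open Cfsg

namespace Cfsg.Agent.S5027

/-- Let S be a set of abstract root subgroups of G such that every member of S has a rank one partner in S (the graph of rank one pairs on S has no isolated vertex). Then the second centre of G equals its centre. -/
theorem result {G : Type*} [Group G] {S : Set (Subgroup G)} (hS : Cfsg.IsRootSubgroupSet S)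
    (hF : ∀ A ∈ S, ¬ Cfsg.IsIsolatedIn (Cfsg.FAdj S) S A) : Subgroup.upperCentralSeries G 2 = Subgroup.center G := by
  apply le_antisymm
  · intro z hz
    have hz' : z ∈ Subgroup.upperCentralSeries G (1 + 1) := hz
    rw [Subgroup.mem_upperCentralSeries_succ_iff] at hz'
    have hle : (⨆ A ∈ S, A) ≤ Subgroup.centralizer {z} := by
      refine iSup₂_le ?_
      intro A hA a ha
      rw [Subgroup.mem_centralizer_singleton_iff]
      by_contra hne
      obtain ⟨B, hB, hAB⟩ := exists_partner (hF A hA) hA
      have hw := hz' a
      rw [Subgroup.upperCentralSeries_one, commutatorElement_def, Subgroup.mem_center_iff] at hw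
      have ha1 : a ≠ 1 := by
        rintro rfl
        simp at hne
      have hw1 : z * a * z⁻¹ * a⁻¹ ≠ 1 := by
        intro h
        apply hne
        have := congrArg (fun w => w * a * z) h
        simpa [mul_assoc] using this.symm
      apply central_mul_not_mem hS hA hB hAB (fun x _ => (hw x).symm) hw1 ha ha1 (hS.conj_mem A hA z)
      rw [inv_mul_cancel_right]
      exact conj_mem_conjBy ha
    rw [hS.generates] at hle
    rw [Subgroup.mem_center_iff]
    intro g
    have := hle (Subgroup.mem_top g)
    rwa [Subgroup.mem_centralizer_singleton_iff] at this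
  · rw [← Subgroup.upperCentralSeries_one]
    exact Subgroup.upperCentralSeries_mono G (by norm_num)

end Cfsg.Agent.S5027
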