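import Cfsg.Statements.S5029
import Cfsg.Agent.Lib.Helper28.RootSet2
open Cfsg.Agent.Lib.Helper28 Cfsg.Agent.Lib.Helper28.RankOne Cfsg.Agent.Lib.Helper28.RootSet
open scoped commutatorElement

set_option autoImplicit false
open Cfsg

namespace Cfsg.Agent.S5029

/-- Let S be a set of abstract root subgroups of G, A ∈ S having a rank one partner in S, and B ∈ S with C = ⁅A, B⁆ ∈ S. Then the members of S contained in AC are the conjugates of A by elements of B together with C, they partition AC, the members of S inside AC partition AC so that A is a line partner of C, and for every non-identity a ∈ A the map b ↦ a⁻¹ b⁻¹ a b is an isomorphism from B onto C. -/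
theorem result {G : Type*} [Group G] {S : Set (Subgroup G)} (hS : Cfsg.IsRootSubgroupSet S)
    {A B : Subgroup G} (hA : ¬ Cfsg.IsIsolatedIn (Cfsg.FAdj S) S A) (hAS : A ∈ S) (hB : B ∈ S) (hC : ⁅A, B⁆ ∈ S) :
    Cfsg.membersIn S (A ⊔ ⁅A, B⁆) = (fun b : G => Cfsg.conjBy A b) '' (B : Set G) ∪ {⁅A, B⁆} ∧
    Cfsg.IsSubgroupPartition (A ⊔ ⁅A, B⁆) (Cfsg.membersIn S (A ⊔ ⁅A, B⁆)) ∧
    A ∈ Cfsg.linePartners S ⁅A, B⁆ ∧
    ∀ a ∈ A, a ≠ 1 → ∃ φ : ↥B ≃* ↥⁅A, B⁆, ∀ b : ↥B, (φ b : G) = a⁻¹ * (b : G)⁻¹ * a * b := by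
  obtain ⟨D, hD, hAD⟩ := exists_partner hA hAS
  have h := cc_of_mem hS hAS hB hC
  refine ⟨members_sup_cc hS hAS hD hAD h, partition_sup_cc hS hAS hD hAD h, ⟨⟨hAS, cc_ne hS h, ?_⟩, ?_⟩, ?_⟩
  · apply commutator_eq_bot_of_comm
    intro c hc a ha
    exact h.2.1 c hc a (Subgroup.mem_sup_left ha)
  · rw [sup_comm]
    exact partition_sup_cc hS hAS hD hAD h
  · intro a ha ha1
    have hai : a⁻¹ ∈ A := A.inv_mem ha
    have hai1 : a⁻¹ ≠ 1 := by simpa using ha1
    have hform : ∀ b : G, a⁻¹ * b⁻¹ * a * b = ⁅a⁻¹, b⁻¹⁆ := by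
      intro b
      simp only [commutatorElement_def, inv_inv]
    let f : ↥B →* ↥⁅A, B⁆ := MonoidHom.mk' (fun b => ⟨a⁻¹ * (b : G)⁻¹ * a * b, by
        rw [hform]
        exact Subgroup.commutator_mem_commutator hai (B.inv_mem b.2)⟩) (by
      intro b b'
      apply Subtype.ext
      show a⁻¹ * ((b : G) * b')⁻¹ * a * (b * b') = (a⁻¹ * (b : G)⁻¹ * a * b) * (a⁻¹ * (b' : G)⁻¹ * a * b')
      rw [hform, hform, hform, mul_inv_rev, cc_mul_right h hai (B.inv_mem b'.2) (B.inv_mem b.2)]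
      exact cc_central h hai (B.inv_mem b'.2)
        (Subgroup.commutator_le_sup A B (Subgroup.commutator_mem_commutator hai (B.inv_mem b.2))))
    have hbij : Function.Bijective f := by
      constructor
      · rw [injective_iff_map_eq_one]
        intro b hb
        have h1 : a⁻¹ * (b : G)⁻¹ * a * b = 1 := congrArg Subtype.val hb
        rw [hform] at h1
        have h2 := cc_inj hS hAS hD hAD h hai hai1 (B.inv_mem b.2) h1
        apply Subtype.ext
        simpa using h2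
      · rintro ⟨c, hc⟩
        obtain ⟨b, hb, e⟩ := cc_surj_right h hai hai1 hc
        refine ⟨⟨b⁻¹, B.inv_mem hb⟩, Subtype.ext ?_⟩
        show a⁻¹ * (b⁻¹)⁻¹ * a * b⁻¹ = c
        rw [hform, inv_inv, e]
    exact ⟨MulEquiv.ofBijective f hbij, fun b => rfl⟩

end Cfsg.Agent.S5029
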