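import Cfsg.Statements.S5032
import Cfsg.Agent.Lib.Helper28.RootSet3
open Cfsg.Agent.Lib.Helper28 Cfsg.Agent.Lib.Helper28.RankOne Cfsg.Agent.Lib.Helper28.RootSet
open scoped commutatorElement

set_option autoImplicit false
open Cfsg

namespace Cfsg.Agent.S5032

/-- Let S be a set of abstract root subgroups of G with more than one member. Then the graph of rank one pairs on S is connected if and only if S is a single conjugacy class of G and some member of S has a rank one partner in S. -/
theorem result {G : Type*} [Group G] {S : Set (Subgroup G)} (hS : Cfsg.IsRootSubgroupSet S) (h2 : ∃ A ∈ S, ∃ B ∈ S, A ≠ B) :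
    Cfsg.IsConnectedFamily (Cfsg.FAdj S) S ↔
      (Cfsg.IsConjClassOfSubgroups S ∧ ∃ A ∈ S, ¬ Cfsg.IsIsolatedIn (Cfsg.FAdj S) S A) := by
  constructor
  · intro hc
    obtain ⟨A, hA, B, hB, hAB⟩ := h2
    refine ⟨⟨⟨A, hA⟩, ?_⟩, A, hA, ?_⟩
    · intro X hX Y hY
      have hr := hc X hX Y hY
      induction hr with
      | refl => exact ⟨1, (conjBy_one X).symm⟩
      | tail _ b ih =>
        obtain ⟨g, rfl⟩ := ih b.1
        obtain ⟨y, -, hy⟩ := B_mem_unipotent b.2.2
        exact ⟨y * g, by rw [hy, conjBy_conjBy]⟩
    · rcases Relation.ReflTransGen.cases_head (hc A hA B hB) with h | ⟨C, hC, -⟩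
      · exact absurd h hAB
      · exact not_isolated hA hC.2.1 hC.2.2
  · rintro ⟨⟨-, hconj⟩, A0, hA0, hiso⟩
    obtain ⟨C0, hC0, hAC0⟩ := exists_partner hiso hA0
    have hpartner : ∀ X ∈ S, ∃ C ∈ S, Cfsg.IsRankOnePair X C := by
      intro X hX
      obtain ⟨g, rfl⟩ := hconj A0 hA0 X hX
      exact ⟨_, hS.conj_mem C0 hC0 g, pair_conj hAC0 g⟩
    have hcomm : ∀ X ∈ S, ∀ E ∈ S, ¬ Relation.ReflTransGen (Cfsg.FAdj S) X E → ⁅X, E⁆ = ⊥ := by
      intro X hX E hE hn
      rcases hS.pair X hX E hE with h | h | h
      · exact h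
      · exact absurd (Relation.ReflTransGen.single ⟨hX, hE, h⟩) hn
      · exfalso
        apply hn
        obtain ⟨C1, hC1, hXC1⟩ := hpartner X hX
        obtain ⟨C2, hC2, hEC2⟩ := hpartner E hE
        obtain ⟨C3, hC3, hFC3⟩ := hpartner _ h.1
        have hl1 : X ∈ Cfsg.linePartners S ⁅X, E⁆ := by
          refine ⟨⟨hX, cc_ne hS h, ?_⟩, ?_⟩
          · apply commutator_eq_bot_of_comm
            intro c hc a ha
            exact h.2.1 c hc a (Subgroup.mem_sup_left ha)
          · rw [sup_comm]
            exact partition_sup_cc hS hX hC1 hXC1 h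
        have h' := cc_symm h
        have hl2 : E ∈ Cfsg.linePartners S ⁅E, X⁆ := by
          refine ⟨⟨hE, cc_ne hS h', ?_⟩, ?_⟩
          · apply commutator_eq_bot_of_comm
            intro c hc a ha
            exact h'.2.1 c hc a (Subgroup.mem_sup_left ha)
          · rw [sup_comm]
            exact partition_sup_cc hS hE hC2 hEC2 h'
        rw [Subgroup.commutator_comm] at hl2
        have r1 := line_connected hS h.1 hC3 hFC3 hl1 hC1 hXC1
        have r2 := line_connected hS h.1 hC3 hFC3 hl2 hC2 hEC2
        exact (reach_symm r1).trans r2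
    let H : Subgroup G :=
      { carrier := {g | ∀ X ∈ S, Relation.ReflTransGen (Cfsg.FAdj S) X (Cfsg.conjBy X g)}
        one_mem' := by
          intro X _
          rw [conjBy_one]
        mul_mem' := by
          intro g g' hg hg' X hX
          rw [← conjBy_conjBy]
          exact (hg' X hX).trans (hg _ (hS.conj_mem X hX g'))
        inv_mem' := by
          intro g hg X hX
          have := hg _ (hS.conj_mem X hX g⁻¹)
          rw [conjBy_conjBy, mul_inv_cancel, conjBy_one] at this
          exact reach_symm this }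
    have hle : (⨆ E ∈ S, E) ≤ H := by
      refine iSup₂_le ?_
      intro E hE e he X hX
      by_cases hr : Relation.ReflTransGen (Cfsg.FAdj S) X E
      · have h1 := reach_conj hS hr e
        rw [conjBy_of_mem he] at h1
        exact hr.trans (reach_symm h1)
      · have h1 := hcomm X hX E hE hr
        have h2 : Cfsg.conjBy X e = X :=
          conjBy_eq_self_iff.2 (normalizes_of_comm
            (fun x hx => (comm_of_commutator_eq_bot h1 hx he).symm))
        rw [h2]
    rw [hS.generates] at hle
    intro A hA B hB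
    obtain ⟨g, rfl⟩ := hconj A hA B hB
    exact hle (Subgroup.mem_top g) A hA

end Cfsg.Agent.S5032
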