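import Cfsg.Statements.S5034
import Cfsg.Agent.Lib.Helper28.RootSet4
open Cfsg.Agent.Lib.Helper28 Cfsg.Agent.Lib.Helper28.RankOne Cfsg.Agent.Lib.Helper28.RootSet
open scoped commutatorElement

set_option autoImplicit false
open Cfsg

namespace Cfsg.Agent.S5034

/-- Let S be a non-degenerate class of abstract root subgroups of G, A ∈ S and B a rank one partner of A. Then some line partner C of A has ⁅B, C⁆ ∈ S, and the rank one pair A, B is special. -/
theorem result {G : Type*} [Group G] {S : Set (Subgroup G)} (hS : Cfsg.IsRootSubgroupClass S) (hnd : Cfsg.IsNondegenerateRootSet S)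
    {A B : Subgroup G} (hA : A ∈ S) (hB : B ∈ Cfsg.rankOnePartners S A) :
    (∃ C ∈ Cfsg.linePartners S A, C ∈ Cfsg.commutatorPartners S B) ∧ Cfsg.IsSpecialRankOnePair A B := by
  have hpartner := class_partner hS hA hB.1 hB.2
  obtain ⟨C, hC⟩ := exists_line_partner hS hnd hA
  obtain ⟨E, hE, -, q⟩ := exists_quad hS.1 hpartner hA hB.1 hB.2 hC
  refine ⟨⟨E, hE, q.hA, ?_⟩, q.special⟩
  rw [Subgroup.commutator_comm]
  exact q.hC

end Cfsg.Agent.S5034
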