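import Cfsg.Statements.S5035
import Cfsg.Agent.Lib.Helper28.RootSet3
open Cfsg.Agent.Lib.Helper28 Cfsg.Agent.Lib.Helper28.RankOne Cfsg.Agent.Lib.Helper28.RootSet
open scoped commutatorElement

set_option autoImplicit false
open Cfsg

namespace Cfsg.Agent.S5035

section
variable {G H : Type*} [Group G] [Group H]

lemma map_conjBy (f : G →* H) (A : Subgroup G) (g : G) :
    (Cfsg.conjBy A g).map f = Cfsg.conjBy (A.map f) (f g) := by
  ext x
  constructor
  · rintro ⟨y, hy, rfl⟩
    have hy' : y ∈ Cfsg.conjBy A g := hy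
    rw [mem_conjBy] at hy' ⊢
    exact ⟨_, hy', by simp⟩
  · intro hx
    rw [mem_conjBy] at hx
    obtain ⟨a, ha, e⟩ := hx
    refine ⟨g * a * g⁻¹, conj_mem_conjBy ha, ?_⟩
    rw [map_mul, map_mul, e, map_inv]
    group

lemma cond_map (f : G →* H) {A B : Subgroup G} (h : Cfsg.RankOneCondition A B)
    (hne : A.map f ≠ B.map f) : Cfsg.RankOneCondition (A.map f) (B.map f) := by
  rintro _ ⟨a, ha, rfl⟩ ha1
  have ha1' : a ≠ 1 := by
    rintro rfl
    exact ha1 (map_one f)
  obtain ⟨b, hb, -, e⟩ := h a ha ha1'
  have e' : Cfsg.conjBy (A.map f) (f b)⁻¹ = Cfsg.conjBy (B.map f) (f a)⁻¹ := by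
    rw [← map_inv, ← map_inv, ← map_conjBy, ← map_conjBy, e]
  refine ⟨f b, ⟨b, hb, rfl⟩, ?_, e'⟩
  intro hb1
  apply hne
  rw [hb1, inv_one, conjBy_one] at e'
  have h2 : Cfsg.conjBy (A.map f) (f a) = A.map f := conjBy_of_mem ⟨a, ha, rfl⟩
  rw [← h2, e', conjBy_conjBy, mul_inv_cancel, conjBy_one]

lemma pair_map (f : G →* H) {A B : Subgroup G} (h : Cfsg.IsRankOnePair A B)
    (hne : A.map f ≠ B.map f) : Cfsg.IsRankOnePair (A.map f) (B.map f) := by
  refine ⟨hne, ?_, ?_, cond_map f h.cond_left hne, cond_map f h.cond_right hne.symm⟩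
  · have := h.nilpotent_left
    exact Group.nilpotent_of_surjective _ (f.subgroupMap_surjective A)
  · have := h.nilpotent_right
    exact Group.nilpotent_of_surjective _ (f.subgroupMap_surjective B)

lemma comm_map (f : G →* H) {A : Subgroup G} (h : IsMulCommutative A) : IsMulCommutative (A.map f) := by
  refine ⟨⟨fun x y => Subtype.ext ?_⟩⟩
  obtain ⟨a, ha, ea⟩ := x.2
  obtain ⟨b, hb, eb⟩ := y.2
  show (x : H) * y = y * x
  rw [← ea, ← eb, ← map_mul, ← map_mul, comm_of_isMulCommutative h ha hb]

end


/-- Let S be a set of abstract root subgroups of G whose graph of rank one pairs is connected, and f a homomorphism from G onto a group H. Then either the images of the members of S form a set of abstract root subgroups of H whose graph of rank one pairs is again connected, or H equals the image of a member of S. -/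
theorem result {G H : Type*} [Group G] [Group H] {S : Set (Subgroup G)} (hS : Cfsg.IsRootSubgroupSet S)
    (hc : Cfsg.IsConnectedFamily (Cfsg.FAdj S) S) (f : G →* H) (hf : Function.Surjective f) :
    (Cfsg.IsRootSubgroupSet ((fun A : Subgroup G => A.map f) '' S) ∧
      Cfsg.IsConnectedFamily (Cfsg.FAdj ((fun A : Subgroup G => A.map f) '' S)) ((fun A : Subgroup G => A.map f) '' S)) ∨
    ∃ A ∈ S, A.map f = ⊤ := by
  by_cases hbot : ∃ A ∈ S, A.map f = ⊥
  · right
    obtain ⟨A0, hA0, h0⟩ := hbot
    refine ⟨A0, hA0, ?_⟩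
    have hall : ∀ B ∈ S, B ≤ f.ker := by
      intro B hB
      have hr := hc A0 hA0 B hB
      have : B.map f = ⊥ := by
        induction hr with
        | refl => exact h0
        | tail _ b ih =>
          obtain ⟨y, -, hy⟩ := B_mem_unipotent b.2.2
          rw [hy, map_conjBy, ih b.1]
          exact Subgroup.map_bot _
      rwa [Subgroup.map_eq_bot_iff] at this
    have hker : (⊤ : Subgroup G) ≤ f.ker := by
      rw [← hS.generates]
      exact iSup₂_le hall
    rw [h0, eq_comm, eq_bot_iff]
    intro h _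
    obtain ⟨g, rfl⟩ := hf h
    exact hker (Subgroup.mem_top g)
  · left
    push Not at hbot
    have hset : Cfsg.IsRootSubgroupSet ((fun A : Subgroup G => A.map f) '' S) := by
      refine ⟨?_, ?_, ?_, ?_, ?_⟩
      · rintro _ ⟨A, hA, rfl⟩
        exact comm_map f (hS.commutative A hA)
      · rintro _ ⟨A, hA, rfl⟩
        exact hbot A hA
      · rw [eq_top_iff]
        intro h _
        obtain ⟨g, rfl⟩ := hf h
        have hle : (⨆ A ∈ S, A) ≤ (⨆ A' ∈ ((fun A : Subgroup G => A.map f) '' S), A').comap f := by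
          refine iSup₂_le ?_
          intro A hA
          rw [← Subgroup.map_le_iff_le_comap]
          exact le_iSup₂ (f := fun (A' : Subgroup H) (_ : A' ∈ ((fun A : Subgroup G => A.map f) '' S)) => A')
            (A.map f) ⟨A, hA, rfl⟩
        rw [hS.generates] at hle
        exact hle (Subgroup.mem_top g)
      · rintro _ ⟨A, hA, rfl⟩ h
        obtain ⟨g, rfl⟩ := hf h
        exact ⟨_, hS.conj_mem A hA g, map_conjBy f A g⟩
      · rintro _ ⟨A, hA, rfl⟩ _ ⟨B, hB, rfl⟩
        rcases hS.pair A hA B hB with h | h | h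
        · left
          show ⁅A.map f, B.map f⁆ = ⊥
          rw [← Subgroup.map_commutator, h]
          exact Subgroup.map_bot _
        · by_cases hne : A.map f = B.map f
          · left
            show ⁅A.map f, B.map f⁆ = ⊥
            rw [← hne]
            apply commutator_eq_bot_of_comm
            intro x hx y hy
            exact comm_of_isMulCommutative (comm_map f (hS.commutative A hA)) hx hy
          · exact Or.inr (Or.inl (pair_map f h hne))
        · right; right
          have hcm : ⁅A.map f, B.map f⁆ = (⁅A, B⁆).map f := (Subgroup.map_commutator A B f).symm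
          refine ⟨?_, ?_, ?_, ?_⟩
          · exact ⟨_, h.1, hcm.symm⟩
          · show ∀ c ∈ ⁅A.map f, B.map f⁆, ∀ x ∈ A.map f ⊔ B.map f, c * x = x * c
            rw [hcm, ← Subgroup.map_sup]
            rintro _ ⟨c, hc', rfl⟩ _ ⟨x, hx, rfl⟩
            rw [← map_mul, ← map_mul, h.2.1 c hc' x hx]
          · rintro _ ⟨a, ha, rfl⟩ ha1
            have ha1' : a ≠ 1 := by
              rintro rfl
              exact ha1 (map_one f)
            show _ = ⁅A.map f, B.map f⁆
            rw [hcm, ← h.2.2.1 a ha ha1', MonoidHom.map_closure]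
            congr 1
            ext z
            constructor
            · rintro ⟨_, ⟨b, hb, rfl⟩, rfl⟩
              exact ⟨_, ⟨b, hb, rfl⟩, by simp⟩
            · rintro ⟨_, ⟨b, hb, rfl⟩, rfl⟩
              exact ⟨_, ⟨b, hb, rfl⟩, by simp⟩
          · rintro _ ⟨b, hb, rfl⟩ hb1
            have hb1' : b ≠ 1 := by
              rintro rfl
              exact hb1 (map_one f)
            show _ = ⁅A.map f, B.map f⁆
            rw [hcm, ← h.2.2.2 b hb hb1', MonoidHom.map_closure]
            congr 1
            ext z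
            constructor
            · rintro ⟨_, ⟨a, ha, rfl⟩, rfl⟩
              exact ⟨_, ⟨a, ha, rfl⟩, by simp⟩
            · rintro ⟨_, ⟨a, ha, rfl⟩, rfl⟩
              exact ⟨_, ⟨a, ha, rfl⟩, by simp⟩
    refine ⟨hset, ?_⟩
    rintro _ ⟨A, hA, rfl⟩ _ ⟨B, hB, rfl⟩
    have hr := hc A hA B hB
    induction hr with
    | refl => exact Relation.ReflTransGen.refl
    | tail _ b ih =>
      rename_i X Y _
      by_cases hne : X.map f = Y.map f
      · have := ih b.1
        show Relation.ReflTransGen _ (A.map f) (Y.map f)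
        rw [← hne]
        exact this
      · exact (ih b.1).tail ⟨⟨X, b.1, rfl⟩, ⟨Y, b.2.1, rfl⟩, pair_map f b.2.2 hne⟩

end Cfsg.Agent.S5035
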