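import Cfsg.Statements.S5036
import Cfsg.Agent.Lib.Helper28.RootQuad
open Cfsg.Agent.Lib.Helper28 Cfsg.Agent.Lib.Helper28.RankOne Cfsg.Agent.Lib.Helper28.RootSet
open scoped commutatorElement

set_option autoImplicit false
open Cfsg

namespace Cfsg.Agent.S5036

/-- Let S be a set of abstract root subgroups of G, A, B ∈ S with C = ⁅A, B⁆ ∈ S, and D ∈ S with ⁅D, C⁆ = A. Put X = ⟨B, D⟩ and N = AC. Then B, D form a rank one pair; the conjugates of A under X are the conjugates of C under X, namely the conjugates of A by elements of B together with C, equally the conjugates of C by elements of D together with A, and they partition N; and the centralizer of N in X is central in X. -/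
theorem result {G : Type*} [Group G] {S : Set (Subgroup G)} (hS : Cfsg.IsRootSubgroupSet S)
    {A B D : Subgroup G} (hA : A ∈ S) (hB : B ∈ S) (hC : ⁅A, B⁆ ∈ S) (hD : D ∈ S) (hDC : ⁅D, ⁅A, B⁆⁆ = A) :
    Cfsg.IsRankOnePair B D ∧
    {E | ∃ x ∈ B ⊔ D, E = Cfsg.conjBy A x} = {E | ∃ x ∈ B ⊔ D, E = Cfsg.conjBy ⁅A, B⁆ x} ∧
    {E | ∃ x ∈ B ⊔ D, E = Cfsg.conjBy A x} = (fun b : G => Cfsg.conjBy A b) '' (B : Set G) ∪ {⁅A, B⁆} ∧
    {E | ∃ x ∈ B ⊔ D, E = Cfsg.conjBy A x} = (fun d : G => Cfsg.conjBy ⁅A, B⁆ d) '' (D : Set G) ∪ {A} ∧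
    Cfsg.IsSubgroupPartition (A ⊔ ⁅A, B⁆) {E | ∃ x ∈ B ⊔ D, E = Cfsg.conjBy A x} ∧
    ∀ x ∈ (B ⊔ D) ⊓ Subgroup.centralizer ((A ⊔ ⁅A, B⁆ : Subgroup G) : Set G), ∀ y ∈ B ⊔ D, x * y = y * x := by
  have e2 : ⁅⁅A, B⁆, D⁆ = A := by rw [Subgroup.commutator_comm]; exact hDC
  have q : Quad S A B ⁅A, B⁆ D :=
    ⟨hS, hA, hB, hC, hD, cc_of_mem hS hA hB hC, rfl, cc_of_mem hS hC hD (e2.symm ▸ hA), e2⟩
  have o1 := q.orbit_eq
  have o2 := q.symm.orbit_eq
  rw [sup_comm] at o2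
  refine ⟨q.pair, ?_, o1, o1.trans q.T1_eq, ?_, ?_⟩
  · rw [o1, o2, q.T1_eq]
  · rw [o1]; exact q.partition
  · rintro x ⟨hx, hxc⟩ y hy
    have hxc' : x ∈ Subgroup.centralizer ((A ⊔ ⁅A, B⁆ : Subgroup G) : Set G) := hxc
    rw [Subgroup.mem_centralizer_iff] at hxc'
    have hxN : ∀ n ∈ A ⊔ ⁅A, B⁆, x * n = n * x := fun n hn => (hxc' n hn).symm
    have h1 := q.central_B hx hxN
    have h2 := q.symm.central_B (by rw [sup_comm]; exact hx) (by rw [sup_comm]; exact hxN)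
    have hle : B ⊔ D ≤ Subgroup.centralizer {x} := by
      refine sup_le ?_ ?_
      · intro z hz
        rw [Subgroup.mem_centralizer_singleton_iff]
        exact (h1 z hz).symm
      · intro z hz
        rw [Subgroup.mem_centralizer_singleton_iff]
        exact (h2 z hz).symm
    have := hle hy
    rw [Subgroup.mem_centralizer_singleton_iff] at this
    exact this.symm

end Cfsg.Agent.S5036
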