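import Cfsg.Statements.S5038
import Cfsg.Agent.Lib.Helper28.RootSet4
open Cfsg.Agent.Lib.Helper28 Cfsg.Agent.Lib.Helper28.RankOne Cfsg.Agent.Lib.Helper28.RootSet
open scoped commutatorElement

set_option autoImplicit false
open Cfsg

namespace Cfsg.Agent.S5038

section
variable {G : Type*} [Group G] {S : Set (Subgroup G)}

def Good (S : Set (Subgroup G)) (N E0 : Subgroup G) : Prop :=
  E0 ∈ Cfsg.membersIn S N ∧ ∃ F ∈ Cfsg.normalizingMembers S N, (∀ f ∈ F, Cfsg.conjBy E0 f = E0) ∧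
    ∀ X ∈ Cfsg.membersIn S N, X ≠ E0 → ∀ Y ∈ Cfsg.membersIn S N, Y ≠ E0 → ∃ f ∈ F, Cfsg.conjBy X f = Y

lemma good_of_quad (hS : Cfsg.IsRootSubgroupSet S) {A C E : Subgroup G} (hAC : Cfsg.IsRankOnePair A C)
    (q : Quad S E C ⁅E, C⁆ A) : Good S (A ⊔ E) E := by
  have hcc : Cfsg.RootCommutatorCase S A ⁅E, C⁆ := cc_symm q.h2
  have hK : ⁅A, ⁅E, C⁆⁆ = E := by rw [Subgroup.commutator_comm]; exact q.e2
  have hmem := members_sup_cc hS q.hD q.hB hAC hcc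
  rw [hK] at hmem
  have hfix : ∀ f ∈ ⁅E, C⁆, Cfsg.conjBy E f = E := by
    intro f hf
    exact conjBy_eq_self_iff.2 (normalizes_of_comm (fun x hx => q.commCA hf hx))
  refine ⟨⟨q.hA, le_sup_right⟩, ⁅E, C⁆, ⟨q.hC, ?_⟩, hfix, ?_⟩
  · have hle : ∀ f ∈ ⁅E, C⁆, Cfsg.conjBy (A ⊔ E) f ≤ A ⊔ E := by
      intro f hf
      rw [conjBy_sup, hfix f hf]
      refine sup_le ?_ le_sup_right
      have := conj_le_sup_cc (A := A) hf
      rwa [hK] at this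
    intro f hf
    rw [← conjBy_eq_self_iff]
    apply le_antisymm (hle f hf)
    have := conjBy_mono (hle f⁻¹ (inv_mem hf)) f
    rwa [conjBy_conjBy, mul_inv_cancel, conjBy_one] at this
  · intro X hX hXE Y hY hYE
    rw [hmem] at hX hY
    rcases hX with ⟨f1, hf1, rfl⟩ | hX
    · rcases hY with ⟨f2, hf2, rfl⟩ | hY
      · exact ⟨f2 * f1⁻¹, mul_mem hf2 (inv_mem hf1), by
          show Cfsg.conjBy (Cfsg.conjBy A f1) (f2 * f1⁻¹) = Cfsg.conjBy A f2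
          rw [conjBy_conjBy, inv_mul_cancel_right]⟩
      · exact absurd hY hYE
    · exact absurd hX hXE

end


/-- Let S be a set of abstract root subgroups of G in which every member has a rank one partner, A ∈ S and B a line partner of A. Then the subgroup generated by the members of S normalizing AB permutes the members of S inside AB doubly transitively by conjugation. -/
theorem result {G : Type*} [Group G] {S : Set (Subgroup G)} (hS : Cfsg.IsRootSubgroupSet S)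
    (hF : ∀ A ∈ S, ¬ Cfsg.IsIsolatedIn (Cfsg.FAdj S) S A) {A B : Subgroup G} (hA : A ∈ S) (hB : B ∈ Cfsg.linePartners S A) :
    ∀ C₁ ∈ Cfsg.membersIn S (A ⊔ B), ∀ C₂ ∈ Cfsg.membersIn S (A ⊔ B), ∀ D₁ ∈ Cfsg.membersIn S (A ⊔ B),
      ∀ D₂ ∈ Cfsg.membersIn S (A ⊔ B), C₁ ≠ C₂ → D₁ ≠ D₂ →
        ∃ x ∈ ⨆ E ∈ Cfsg.normalizingMembers S (A ⊔ B), E, Cfsg.conjBy C₁ x = D₁ ∧ Cfsg.conjBy C₂ x = D₂ := by
  have hpartner : ∀ X ∈ S, ∃ Y ∈ S, Cfsg.IsRankOnePair X Y := fun X hX => exists_partner (hF X hX) hX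
  set N := A ⊔ B with hN
  obtain ⟨C, hC, hAC⟩ := hpartner A hA
  obtain ⟨E0, hE0, hs0, q0⟩ := exists_quad hS hpartner hA hC hAC hB
  have g0 : Good S N E0 := by
    have := good_of_quad hS hAC q0
    rwa [hs0] at this
  obtain ⟨C', hC', hEC'⟩ := hpartner E0 q0.hA
  have hAl : A ∈ Cfsg.linePartners S E0 := linePartners_symm hE0 hA
  obtain ⟨E1, hE1, hs1, q1⟩ := exists_quad hS hpartner q0.hA hC' hEC' hAl
  have g1 : Good S N E1 := by
    have := good_of_quad hS hEC' q1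
    rwa [hs1, sup_comm, hs0] at this
  have hne : E1 ≠ E0 := hE1.1.2.1
  have hpart : Cfsg.IsSubgroupPartition N (Cfsg.membersIn S N) := hB.2
  obtain ⟨hE0m, F0, hF0, hfix0, htr0⟩ := g0
  obtain ⟨hE1m, F1, hF1, hfix1, htr1⟩ := g1
  set K := ⨆ E ∈ Cfsg.normalizingMembers S N, E with hK
  have hF0K : F0 ≤ K := le_iSup₂ (f := fun (E : Subgroup G) (_ : E ∈ Cfsg.normalizingMembers S N) => E) F0 hF0
  have hF1K : F1 ≤ K := le_iSup₂ (f := fun (E : Subgroup G) (_ : E ∈ Cfsg.normalizingMembers S N) => E) F1 hF1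
  have hKN : K ≤ Subgroup.normalizer (N : Set G) := iSup₂_le (fun E hE => hE.2)
  have hinv : ∀ x ∈ K, ∀ X ∈ Cfsg.membersIn S N, Cfsg.conjBy X x ∈ Cfsg.membersIn S N := by
    intro x hx X hX
    refine ⟨hS.conj_mem X hX.1 x, ?_⟩
    have := conjBy_mono hX.2 x
    rwa [conjBy_eq_self_iff.2 (hKN hx)] at this
  -- a third point
  have hinf : E0 ⊓ E1 = ⊥ := hpart.2.2 E0 hE0m E1 hE1m hne.symm
  obtain ⟨a, ha, ha1⟩ := exists_ne_one_of_ne_bot (hS.ne_bot E0 hE0m.1)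
  obtain ⟨b, hb, hb1⟩ := exists_ne_one_of_ne_bot (hS.ne_bot E1 hE1m.1)
  have hab1 : a * b ≠ 1 := by
    intro h
    apply ha1
    have h2 : a ∈ E0 ⊓ E1 := ⟨ha, by
      rw [mul_eq_one_iff_eq_inv] at h
      rw [h]; exact E1.inv_mem hb⟩
    rw [hinf] at h2
    simpa using h2
  obtain ⟨Y, hY, hm⟩ := hpart.2.1 (a * b) (mul_mem (hE0m.2 ha) (hE1m.2 hb)) hab1
  have hY0 : Y ≠ E0 := by
    rintro rfl
    apply hb1
    have h2 : b ∈ Y ⊓ E1 := ⟨by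
      have := Y.mul_mem (Y.inv_mem ha) hm
      rwa [inv_mul_cancel_left] at this, hb⟩
    rw [hinf] at h2
    simpa using h2
  have hY1 : Y ≠ E1 := by
    rintro rfl
    apply ha1
    have h2 : a ∈ E0 ⊓ Y := ⟨ha, by
      have := Y.mul_mem hm (Y.inv_mem hb)
      rwa [mul_inv_cancel_right] at this⟩
    rw [hinf] at h2
    simpa using h2
  have hto : ∀ X ∈ Cfsg.membersIn S N, ∃ x ∈ K, Cfsg.conjBy X x = E0 := by
    intro X hX
    by_cases hX0 : X = E0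
    · exact ⟨1, one_mem _, by rw [conjBy_one, hX0]⟩
    by_cases hX1 : X = E1
    · obtain ⟨f, hf, e1⟩ := htr0 X hX hX0 Y hY hY0
      obtain ⟨f', hf', e2⟩ := htr1 Y hY hY1 E0 hE0m hne.symm
      exact ⟨f' * f, mul_mem (hF1K hf') (hF0K hf), by rw [← conjBy_conjBy, e1, e2]⟩
    · obtain ⟨f', hf', e2⟩ := htr1 X hX hX1 E0 hE0m hne.symm
      exact ⟨f', hF1K hf', e2⟩
  intro C₁ hC₁ C₂ hC₂ D₁ hD₁ D₂ hD₂ hCne hDne
  obtain ⟨x1, hx1, ex⟩ := hto C₁ hC₁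
  obtain ⟨y1, hy1, ey⟩ := hto D₁ hD₁
  have hC2' : Cfsg.conjBy C₂ x1 ≠ E0 := by
    intro h
    apply hCne
    apply conjBy_injective x1
    rw [ex, h]
  have hD2' : Cfsg.conjBy D₂ y1 ≠ E0 := by
    intro h
    apply hDne
    apply conjBy_injective y1
    rw [ey, h]
  obtain ⟨f, hf, ef⟩ := htr0 _ (hinv x1 hx1 C₂ hC₂) hC2' _ (hinv y1 hy1 D₂ hD₂) hD2'
  refine ⟨y1⁻¹ * (f * x1), mul_mem (inv_mem hy1) (mul_mem (hF0K hf) hx1), ?_, ?_⟩
  · rw [← conjBy_conjBy, ← conjBy_conjBy, ex, hfix0 f hf, ← ey, conjBy_conjBy, inv_mul_cancel, conjBy_one]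
  · rw [← conjBy_conjBy, ← conjBy_conjBy, ef, conjBy_conjBy, inv_mul_cancel, conjBy_one]

end Cfsg.Agent.S5038
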