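import Cfsg.Statements.S5041
import Cfsg.Agent.Lib.Helper28.RootSet4
open Cfsg.Agent.Lib.Helper28 Cfsg.Agent.Lib.Helper28.RankOne Cfsg.Agent.Lib.Helper28.RootSet
open scoped commutatorElement

set_option autoImplicit false
open Cfsg

namespace Cfsg.Agent.S5041

section
variable {G : Type*} [Group G] {S : Set (Subgroup G)}

lemma eadj_symm {X Y : Subgroup G} (h : Cfsg.EAdj S S X Y) : Cfsg.EAdj S S Y X :=
  ⟨h.2.1, h.1, linePartners_symm h.2.2 h.1⟩

lemma ereach_symm {X Y : Subgroup G} (h : Relation.ReflTransGen (Cfsg.EAdj S S) X Y) :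
    Relation.ReflTransGen (Cfsg.EAdj S S) Y X := by
  induction h with
  | refl => exact Relation.ReflTransGen.refl
  | tail _ b c => exact c.head (eadj_symm b)

lemma conj_line (hS : Cfsg.IsRootSubgroupSet S) {X E D : Subgroup G} (hX : X ∈ S) (hD : D ∈ S)
    (hXD : Cfsg.IsRankOnePair X D) (h : Cfsg.RootCommutatorCase S X E) {e : G} (he : e ∈ E)
    (hne : Cfsg.conjBy X e ≠ X) : Cfsg.conjBy X e ∈ Cfsg.linePartners S X := by
  have he1 : e ≠ 1 := by
    rintro rfl
    exact hne (conjBy_one X)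
  have hsup : X ⊔ Cfsg.conjBy X e = X ⊔ ⁅X, E⁆ := by
    apply le_antisymm (sup_le le_sup_left (conj_le_sup_cc he))
    refine sup_le le_sup_left ?_
    rw [← h.2.2.2 e he he1, Subgroup.closure_le]
    rintro _ ⟨x, hx, rfl⟩
    have h1 : x * e * x⁻¹ * e⁻¹ = x * (e * x⁻¹ * e⁻¹) := by group
    show x * e * x⁻¹ * e⁻¹ ∈ X ⊔ Cfsg.conjBy X e
    rw [h1]
    exact mul_mem (Subgroup.mem_sup_left hx) (Subgroup.mem_sup_right (conj_mem_conjBy (X.inv_mem hx)))
  have hab := sup_abelian (hS.commutative X hX) (hS.commutative _ h.1)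
    (fun a ha c hc => (h.2.1 c hc a (Subgroup.mem_sup_left ha)).symm)
  refine ⟨⟨hS.conj_mem X hX e, hne, ?_⟩, ?_⟩
  · apply commutator_eq_bot_of_comm
    intro a ha y hy
    exact hab a (Subgroup.mem_sup_left ha) y (conj_le_sup_cc he hy)
  · rw [hsup]
    exact partition_sup_cc hS hX hD hXD h

end


/-- Let S be a non-degenerate class of abstract root subgroups of G. Then the graph on S joining A to its line partners, and the commuting graph on S, are both connected. -/
theorem result {G : Type*} [Group G] {S : Set (Subgroup G)} (hS : Cfsg.IsRootSubgroupClass S) (hnd : Cfsg.IsNondegenerateRootSet S) :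
    Cfsg.IsConnectedFamily (Cfsg.EAdj S S) S ∧ Cfsg.IsConnectedFamily (Cfsg.DAdj S) S := by
  obtain ⟨-, ⟨A2, hA2, B2, hB2, hp⟩, -⟩ := id hnd
  have hpartner := class_partner hS hA2 hB2 hp
  have hS1 := hS.1
  -- opposite points are joined
  have hopp : ∀ X ∈ S, ∀ E ∈ S, Cfsg.IsRankOnePair X E → Relation.ReflTransGen (Cfsg.EAdj S S) X E := by
    intro X hX E hE hXE
    obtain ⟨C, hC⟩ := exists_line_partner hS hnd hX
    obtain ⟨P, hP, -, q⟩ := exists_quad hS1 hpartner hX hE hXE hC
    obtain ⟨D1, hD1, hPD1⟩ := hpartner P q.hA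
    have l1 : ⁅P, E⁆ ∈ Cfsg.linePartners S P := cc_line hS1 q.hA hD1 hPD1 q.h1
    have l2 : ⁅E, P⁆ ∈ Cfsg.linePartners S E :=
      cc_line hS1 hE hX (Cfsg.RankOnePair_symm hXE) (cc_symm q.h1)
    rw [Subgroup.commutator_comm] at l2
    exact ((Relation.ReflTransGen.single ⟨hX, q.hA, hP⟩).tail ⟨q.hA, q.hC, l1⟩).tail
      (eadj_symm ⟨hE, q.hC, l2⟩)
  let H : Subgroup G :=
    { carrier := {g | ∀ X ∈ S, Relation.ReflTransGen (Cfsg.EAdj S S) X (Cfsg.conjBy X g)}
      one_mem' := by
        intro X _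
        rw [conjBy_one]
      mul_mem' := by
        intro g g' hg hg' X hX
        rw [← conjBy_conjBy]
        exact (hg' X hX).trans (hg _ (hS1.conj_mem X hX g'))
      inv_mem' := by
        intro g hg X hX
        have := hg _ (hS1.conj_mem X hX g⁻¹)
        rw [conjBy_conjBy, mul_inv_cancel, conjBy_one] at this
        exact ereach_symm this }
  have hle : (⨆ E ∈ S, E) ≤ H := by
    refine iSup₂_le ?_
    intro E hE e he X hX
    rcases hS1.pair X hX E hE with h | h | h
    · have h2 : Cfsg.conjBy X e = X :=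
        conjBy_eq_self_iff.2 (normalizes_of_comm
          (fun x hx => (comm_of_commutator_eq_bot h hx he).symm))
      rw [h2]
    · have h1 := hopp X hX E hE h
      have h2 := pair_conj h e
      rw [conjBy_of_mem he] at h2
      have h3 := hopp _ (hS1.conj_mem X hX e) E hE h2
      exact h1.trans (ereach_symm h3)
    · by_cases hne : Cfsg.conjBy X e = X
      · rw [hne]
      · obtain ⟨D, hD, hXD⟩ := hpartner X hX
        exact Relation.ReflTransGen.single ⟨hX, hS1.conj_mem X hX e, conj_line hS1 hX hD hXD h he hne⟩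
  rw [hS1.generates] at hle
  have hE : Cfsg.IsConnectedFamily (Cfsg.EAdj S S) S := by
    intro A hA B hB
    obtain ⟨g, rfl⟩ := hS.2.2 A hA B hB
    exact hle (Subgroup.mem_top g) A hA
  refine ⟨hE, ?_⟩
  intro A hA B hB
  have hr := hE A hA B hB
  induction hr with
  | refl => exact Relation.ReflTransGen.refl
  | tail _ b ih =>
    exact (ih b.1).tail ⟨b.1, b.2.1, b.2.2.1.2.1.symm, b.2.2.1.2.2⟩

end Cfsg.Agent.S5041
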