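import Cfsg.Statements.S5042
import Cfsg.Agent.Lib.Helper28.RootSet5
import Cfsg.Agent.S5041
open Cfsg.Agent.Lib.Helper28 Cfsg.Agent.Lib.Helper28.RankOne Cfsg.Agent.Lib.Helper28.RootSet
open scoped commutatorElement

set_option autoImplicit false
open Cfsg

namespace Cfsg.Agent.S5042

/-- Let S be a non-degenerate class of abstract root subgroups of G, A ∈ S and B a rank one partner of A. Then G is generated by the line partners of A together with B. -/
theorem result {G : Type*} [Group G] {S : Set (Subgroup G)} (hS : Cfsg.IsRootSubgroupClass S) (hnd : Cfsg.IsNondegenerateRootSet S)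
    {A B : Subgroup G} (hA : A ∈ S) (hB : B ∈ Cfsg.rankOnePartners S A) :
    (⨆ C ∈ Cfsg.linePartners S A, C) ⊔ B = ⊤ := by
  have hS1 := hS.1
  have hpartner := class_partner hS hA hB.1 hB.2
  set M := ⨆ C ∈ Cfsg.linePartners S A, C with hM
  set H := M ⊔ B with hH
  have hLM : ∀ C ∈ Cfsg.linePartners S A, C ≤ H := fun C hC =>
    (le_iSup₂ (f := fun (C : Subgroup G) (_ : C ∈ Cfsg.linePartners S A) => C) C hC).trans le_sup_left
  have hBH : B ≤ H := le_sup_right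
  -- the core claim, also giving A ≤ H
  have core : ∀ Z ∈ Cfsg.linePartners S A, (∃ h ∈ H, Z = Cfsg.conjBy A h) ∧ A ≤ H := by
    intro Z hZ
    obtain ⟨E, hE, hs, q⟩ := exists_quad hS1 hpartner hA hB.1 hB.2 hZ
    have hFH : ⁅E, B⁆ ≤ H := (Subgroup.commutator_le_sup E B).trans (sup_le (hLM E hE) hBH)
    obtain ⟨C', hC', q'⟩ := exists_quad_at hS1 hpartner hA hE
    obtain ⟨D, hD, hAD⟩ := hpartner A hA
    have hFA : ⁅A, C'⁆ ≤ H := hLM _ (cc_line hS1 hA hD hAD q'.h1)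
    have hAm : A ∈ Cfsg.membersIn S (A ⊔ E) := ⟨hA, le_sup_left⟩
    have hEm : E ∈ Cfsg.membersIn S (A ⊔ E) := ⟨q.hA, le_sup_right⟩
    obtain ⟨Y, hY, hYA, hYE⟩ := exists_third hS1 hE.2 hAm hEm hE.1.2.1.symm
    obtain ⟨f, hf, eY⟩ := q.trans.2 Y hY hYE
    have hYl : Y ∈ Cfsg.linePartners S A := by
      rw [eY]
      exact conj_line' hS1 hA hD hAD (cc_symm q.h2) hf (eY ▸ hYA)
    have hAH : A ≤ H := by
      have : A = Cfsg.conjBy Y f⁻¹ := by rw [eY, conjBy_conjBy, inv_mul_cancel, conjBy_one]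
      rw [this]
      exact conjBy_le_of_le (hLM Y hYl) (inv_mem (hFH hf))
    refine ⟨?_, hAH⟩
    by_cases hZE : Z = E
    · have hY' : Y ∈ Cfsg.membersIn S (E ⊔ A) := by rw [sup_comm]; exact hY
      obtain ⟨f', hf', eY'⟩ := q'.trans.2 Y hY' hYA
      refine ⟨f'⁻¹ * f, mul_mem (inv_mem (hFA hf')) (hFH hf), ?_⟩
      rw [hZE, ← conjBy_conjBy, ← eY, eY', conjBy_conjBy, inv_mul_cancel, conjBy_one]
    · have hZm : Z ∈ Cfsg.membersIn S (A ⊔ E) := ⟨hZ.1.1, by rw [hs]; exact le_sup_right⟩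
      obtain ⟨f', hf', e⟩ := q.trans.2 Z hZm hZE
      exact ⟨f', hFH hf', e⟩
  obtain ⟨Z0, hZ0⟩ := exists_line_partner hS hnd hA
  have hAH : A ≤ H := (core Z0 hZ0).2
  have hall : ∀ E ∈ S, ∃ h ∈ H, E = Cfsg.conjBy A h := by
    intro E hE
    have hr := (Cfsg.Agent.S5041.result hS hnd).1 A hA E hE
    induction hr with
    | refl => exact ⟨1, one_mem _, (conjBy_one A).symm⟩
    | tail _ b ih =>
      rename_i X Y _
      obtain ⟨h, hh, rfl⟩ := ih b.1
      have h1 := linePartners_conj hS1 b.2.2 h⁻¹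
      rw [conjBy_conjBy, inv_mul_cancel, conjBy_one] at h1
      obtain ⟨h', hh', e⟩ := (core _ h1).1
      refine ⟨h * h', mul_mem hh hh', ?_⟩
      rw [← conjBy_conjBy, ← e, conjBy_conjBy, mul_inv_cancel, conjBy_one]
  rw [eq_top_iff, ← hS1.generates]
  refine iSup₂_le ?_
  intro E hE
  obtain ⟨h, hh, rfl⟩ := hall E hE
  exact conjBy_le_of_le hAH hh

end Cfsg.Agent.S5042
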