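import Cfsg.Statements.S5040
import Cfsg.Agent.Lib.Helper28.RootSet5
import Cfsg.Agent.S5042
open Cfsg.Agent.Lib.Helper28 Cfsg.Agent.Lib.Helper28.RankOne Cfsg.Agent.Lib.Helper28.RootSet
open scoped commutatorElement

set_option autoImplicit false
open Cfsg

namespace Cfsg.Agent.S5040

/-- Let S be a non-degenerate class of abstract root subgroups of G and Δ a weak TI-subset of S. Then the members of Δ commute with one another elementwise. -/
theorem result {G : Type*} [Group G] {S : Set (Subgroup G)} (hS : Cfsg.IsRootSubgroupClass S) (hnd : Cfsg.IsNondegenerateRootSet S)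
    {Δ : Set (Subgroup G)} (hΔ : Cfsg.IsWeakTISubset S Δ) : Cfsg.IsAbelianFamily Δ := by
  have hS1 := hS.1
  obtain ⟨hsub, -, hneS, hTI⟩ := hΔ
  obtain ⟨-, ⟨A2, hA2, B2, hB2, hp⟩, -⟩ := id hnd
  have hpartner := class_partner hS hA2 hB2 hp
  let T : Subgroup G :=
    { carrier := {g | (fun A => Cfsg.conjBy A g) '' Δ = Δ}
      one_mem' := by
        show (fun A => Cfsg.conjBy A 1) '' Δ = Δ
        simp [conjBy_one]
      mul_mem' := by
        intro g g' hg hg'
        show (fun A => Cfsg.conjBy A (g * g')) '' Δ = Δ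
        have hg1 : (fun A => Cfsg.conjBy A g) '' Δ = Δ := hg
        have hg2 : (fun A => Cfsg.conjBy A g') '' Δ = Δ := hg'
        conv_rhs => rw [← hg1, ← hg2]
        rw [Set.image_image]
        simp only [conjBy_conjBy]
      inv_mem' := by
        intro g hg
        show (fun A => Cfsg.conjBy A g⁻¹) '' Δ = Δ
        have hg1 : (fun A => Cfsg.conjBy A g) '' Δ = Δ := hg
        conv_lhs => rw [← hg1]
        rw [Set.image_image]
        simp [conjBy_conjBy, conjBy_one] }
  have hTmem : ∀ g ∈ T, ∀ X ∈ Δ, Cfsg.conjBy X g ∈ Δ := by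
    intro g hg X hX
    have hg1 : (fun A => Cfsg.conjBy A g) '' Δ = Δ := hg
    rw [← hg1]
    exact ⟨X, hX, rfl⟩
  have hT1 : ∀ E ∈ S, (∃ A ∈ Δ, ∀ e ∈ E, Cfsg.conjBy A e = A) → E ≤ T := by
    rintro E hE ⟨A, hA, hfix⟩ e he
    by_cases he1 : e = 1
    · rw [he1]; exact T.one_mem
    · rcases hTI e ⟨he1, E, hE, he⟩ with h | h
      · exact h
      · exfalso
        rw [Set.disjoint_left] at h
        exact h ⟨A, hA, hfix e he⟩ hA
  have hnopair : ∀ A ∈ Δ, ∀ B ∈ Δ, ¬ Cfsg.IsRankOnePair A B := by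
    intro A hA B hB hAB
    apply hneS
    have htop := Cfsg.Agent.S5042.result hS hnd (hsub hA) ⟨hsub hB, hAB⟩
    have hle : (⨆ C ∈ Cfsg.linePartners S A, C) ⊔ B ≤ T := by
      refine sup_le (iSup₂_le ?_) ?_
      · intro C hC
        refine hT1 C hC.1.1 ⟨A, hA, fun e he => ?_⟩
        exact conjBy_eq_self_iff.2 (normalizes_of_comm
          (fun x hx => (comm_of_commutator_eq_bot hC.1.2.2 hx he).symm))
      · exact hT1 B (hsub hB) ⟨B, hB, fun e he => conjBy_of_mem he⟩
    rw [htop] at hle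
    apply Set.Subset.antisymm hsub
    intro E hE
    obtain ⟨g, rfl⟩ := hS.2.2 A (hsub hA) E hE
    exact hTmem g (hle (Subgroup.mem_top g)) A hA
  intro A hA B hB a ha b hb
  rcases hS1.pair A (hsub hA) B (hsub hB) with h | h | h
  · exact comm_of_commutator_eq_bot h ha hb
  · exact absurd h (hnopair A hA B hB)
  · exfalso
    obtain ⟨D0, hD0, hAD0⟩ := hpartner A (hsub hA)
    obtain ⟨C', hC', q⟩ := exists_quad_at hS1 hpartner (hsub hA) (cc_line hS1 (hsub hA) hD0 hAD0 h)
    have q2 : Quad S A B ⁅A, B⁆ ⁅A, C'⁆ :=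
      ⟨hS1, hsub hA, hsub hB, h.1, q.hC, h, rfl, cc_symm q.h2, by rw [Subgroup.commutator_comm]; exact q.e2⟩
    have hBD := q2.pair
    have hDT : ⁅A, C'⁆ ≤ T := by
      refine hT1 _ q.hC ⟨A, hA, fun e he => ?_⟩
      exact conjBy_eq_self_iff.2 (normalizes_of_comm (fun x hx => q.commCA he hx))
    obtain ⟨d, hd, hd1⟩ := exists_ne_one_right hBD
    have hne : B ≠ Cfsg.conjBy B d := by
      intro hc
      exact hd1 (eq_one_of_normalizes (Cfsg.RankOnePair_symm hBD) hd (conjBy_eq_self_iff.1 hc.symm))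
    exact hnopair B hB _ (hTmem d (hDT hd) B hB)
      (pair_of_unipotent hBD A_mem_unipotent
        (unipotent_conj A_mem_unipotent (Subgroup.mem_sup_right hd)) hne)

end Cfsg.Agent.S5040
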