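import Cfsg.Statements.S5049
import Cfsg.Agent.Lib.Helper28.RootInv
open Cfsg.Agent.Lib.Helper28 Cfsg.Agent.Lib.Helper28.RootInv
open scoped commutatorElement

set_option autoImplicit false
open Cfsg

namespace Cfsg.Agent.S5049

theorem comm_of_two_elt {G : Type*} [Group G] {D : Set G} (hD : Cfsg.IsOddTranspositionSet D)
    {x y : G} (hx : x ∈ D) (hy : y ∈ D) {k : ℕ} (h : (x * y) ^ 2 ^ k = 1) : x * y = y * x := by
  rcases hD.1.pair x hx y hy with h1 | h1 | ⟨h1, -⟩
  · exact h1
  · have h2 := orderOf_dvd_of_pow_eq_one h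
    have h3 : Nat.Coprime (orderOf (x * y)) (2 ^ k) :=
      Nat.Coprime.pow_right k ((Nat.coprime_two_right).2 h1)
    have h4 : orderOf (x * y) = 1 := Nat.Coprime.eq_one_of_dvd h3 h2
    rw [orderOf_eq_one_iff] at h4
    have h5 : x = y := by
      calc x = x * y * y := by rw [mul_assoc, sq hD.1 hy, mul_one]
        _ = y := by rw [h4, one_mul]
    rw [h5]
  · exact absurd h1 (hD.2 x hx y hy)


/-- Let G be a finite group generated by a set D of odd transpositions (root involutions with no product of order 4), Q = O₂(G), and for a ∈ D let Q_a be the commutator subgroup of Q with a. Then every member of D commuting with a centralizes Q_a; and for b ∈ D with ab of odd order greater than 1, the centralizer of ab in Q is the intersection of the centralizers of a and b in Q. -/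
theorem result {G : Type*} [Group G] [Finite G] {D : Set G} (hD : Cfsg.IsOddTranspositionSet D) {a : G} (ha : a ∈ D) :
    (∀ e ∈ Cfsg.commutingMembers D a, ∀ q ∈ ⁅Cfsg.pCore 2 G, Subgroup.zpowers a⁆, e * q = q * e) ∧
    (∀ b ∈ Cfsg.oddPartners D a,
      Cfsg.pCore 2 G ⊓ Subgroup.centralizer {a * b} = Cfsg.pCore 2 G ⊓ Subgroup.centralizer {a} ⊓ Subgroup.centralizer {b}) := by
  have hQn : (Cfsg.pCore 2 G).Normal := Subgroup.sSup_normal _ (fun _ h => h.1)
  have hQp : IsPGroup 2 (Cfsg.pCore 2 G) := Sylow.sSup_of_normal _ (fun _ h => h.2) (fun _ h => h.1)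
  have hR := hD.1
  have haa := sq hR ha
  have hpow : ∀ g ∈ Cfsg.pCore 2 G, ∃ k : ℕ, g ^ 2 ^ k = 1 := by
    intro g hg
    obtain ⟨k, hk⟩ := hQp ⟨g, hg⟩
    exact ⟨k, by simpa using congrArg Subtype.val hk⟩
  -- e commuting with a commutes with every Q-conjugate of a
  have key1 : ∀ e ∈ D, e * a = a * e → ∀ q ∈ Cfsg.pCore 2 G, e * (q * a * q⁻¹) = (q * a * q⁻¹) * e := by
    intro e he hea q hq
    have hee := sq hR he
    have hm : (e * (q * a * q⁻¹)) ^ 2 ∈ Cfsg.pCore 2 G := by
      have hww : e * a * (e * a) = 1 := by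
        calc e * a * (e * a) = e * a * (a * e) := by rw [hea]
          _ = e * (a * a) * e := by group
          _ = 1 := by rw [haa, mul_one, hee]
      have hc : a⁻¹ * q * a * q⁻¹ ∈ Cfsg.pCore 2 G := by
        refine mul_mem ?_ (inv_mem hq)
        have := hQn.conj_mem q hq a⁻¹
        rwa [inv_inv] at this
      have h1 : (e * (q * a * q⁻¹)) ^ 2
          = ((e * a) * (a⁻¹ * q * a * q⁻¹) * (e * a)⁻¹) * ((e * a) * (e * a)) * (a⁻¹ * q * a * q⁻¹) := by
        rw [pow_two]; group
      rw [h1, hww, mul_one]
      exact mul_mem (hQn.conj_mem _ hc _) hc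
    obtain ⟨k, hk⟩ := hpow _ hm
    rw [← pow_mul, ← pow_succ'] at hk
    exact comm_of_two_elt hD he (hR.conj_mem a ha q) hk
  constructor
  · intro e he q hq
    have hcen : ⁅Cfsg.pCore 2 G, Subgroup.zpowers a⁆ ≤ Subgroup.centralizer {e} := by
      rw [Subgroup.commutator_le]
      intro q hq y hy
      obtain ⟨k, rfl⟩ := Subgroup.mem_zpowers_iff.1 hy
      rw [Subgroup.mem_centralizer_singleton_iff]
      have h1 : Commute e (q * a * q⁻¹) := key1 e he.1 he.2 q hq
      have h2 : Commute e a := he.2
      have h3 : ⁅q, a ^ k⁆ = (q * a * q⁻¹) ^ k * (a ^ k)⁻¹ := by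
        rw [commutatorElement_def, conj_zpow]
      rw [h3]
      exact (((h1.zpow_right k).mul_right (h2.zpow_right k).inv_right)).eq.symm
    have := hcen hq
    rw [Subgroup.mem_centralizer_singleton_iff] at this
    exact this.symm
  · rintro b ⟨hb, hne, hodd⟩
    have hbb := sq hR hb
    apply le_antisymm
    · rintro q ⟨hq, hqt⟩
      have hq : q ∈ Cfsg.pCore 2 G := hq
      have hqt : q ∈ Subgroup.centralizer {a * b} := hqt
      rw [Subgroup.mem_centralizer_singleton_iff] at hqt
      -- s = a * a^q
      have hc1 : a * (q * a * q⁻¹) = (q * a * q⁻¹) * a := key1 a ha rfl q hq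
      set a' := q * a * q⁻¹ with ha'
      set b' := q * b * q⁻¹ with hb'
      have ha'D : a' ∈ D := hR.conj_mem a ha q
      have hb'D : b' ∈ D := hR.conj_mem b hb q
      have ha'a' := sq hR ha'D
      have hab' : a' * b' = a * b := by
        rw [ha', hb']
        calc q * a * q⁻¹ * (q * b * q⁻¹) = q * (a * b) * q⁻¹ := by group
          _ = a * b := by rw [hqt]; group
      have hb'eq : b' = a' * (a * b) := by rw [← hab', ← mul_assoc, ha'a', one_mul]
      set s := a * a' with hs
      have hss : s * s = 1 := by
        calc s * s = a * a' * (a' * a) := by rw [← hc1]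
          _ = a * (a' * a') * a := by group
          _ = 1 := by rw [ha'a', mul_one, haa]
      have hst : Commute s (a * b) := by
        have i1 : SemiconjBy a (a * b) (a * b)⁻¹ := by
          rw [mul_inv_of_invol haa hbb]
          show a * (a * b) = b * a * a
          rw [mul_assoc b, haa, mul_one, ← mul_assoc, haa, one_mul]
        have i2 : SemiconjBy a' (a * b) (a * b)⁻¹ := by
          rw [← hab', mul_inv_of_invol ha'a' (sq hR hb'D)]
          show a' * (a' * b') = b' * a' * a'
          rw [mul_assoc b', ha'a', mul_one, ← mul_assoc, ha'a', one_mul]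
        have i1' : SemiconjBy a (a * b)⁻¹ (a * b) := by
          have := i1.inv_right
          rwa [inv_inv] at this
        exact i1'.mul_left i2
      have hs1 : s = 1 := by
        by_contra hs1
        have hos : orderOf s = 2 := orderOf_eq_prime (by rw [pow_two]; exact hss) hs1
        have hcop : Nat.Coprime (orderOf s) (orderOf (a * b)) := by
          rw [hos]; exact (Nat.coprime_two_left).2 hodd
        have h1 := hst.orderOf_mul_eq_mul_orderOf_of_coprime hcop
        rw [hos] at h1
        have h2 : s * (a * b) = a * b' := by rw [hb'eq, hs, mul_assoc]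
        rw [h2] at h1
        have h3 := order_two_mul_odd hR ha hb'D hodd h1
        rw [orderOf_eq_one_iff] at h3
        apply hne
        calc b = a * (a * b) := by rw [← mul_assoc, haa, one_mul]
          _ = a := by rw [h3, mul_one]
      have haq : a' = a := by
        calc a' = a * (a * a') := by rw [← mul_assoc, haa, one_mul]
          _ = a := by rw [← hs, hs1, mul_one]
      have hqa : q * a = a * q := by
        calc q * a = q * a * q⁻¹ * q := by group
          _ = a * q := by rw [← ha', haq]
      refine ⟨⟨hq, ?_⟩, ?_⟩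
      · show q ∈ Subgroup.centralizer {a}
        rw [Subgroup.mem_centralizer_singleton_iff]
        exact hqa
      · show q ∈ Subgroup.centralizer {b}
        rw [Subgroup.mem_centralizer_singleton_iff]
        have : b = a * (a * b) := by rw [← mul_assoc, haa, one_mul]
        rw [this, ← mul_assoc, hqa, mul_assoc, hqt]
        simp only [mul_assoc]
    · rintro q ⟨⟨hq, hqa⟩, hqb⟩
      have hqa : q ∈ Subgroup.centralizer {a} := hqa
      have hqb : q ∈ Subgroup.centralizer {b} := hqb
      rw [Subgroup.mem_centralizer_singleton_iff] at hqa hqb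
      refine ⟨hq, ?_⟩
      show q ∈ Subgroup.centralizer {a * b}
      rw [Subgroup.mem_centralizer_singleton_iff, ← mul_assoc, hqa, mul_assoc, hqb, mul_assoc]

end Cfsg.Agent.S5049
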