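import Cfsg.Statements.S5057
import Cfsg.Agent.Lib.Helper19.AltSix
import Cfsg.Agent.Lib.Helper28.Dihedral
open Cfsg.Agent.Lib.Helper28

set_option autoImplicit false
open Cfsg

namespace Cfsg.Agent.S5057

theorem cycleType_of_invol (g : ↥(alternatingGroup (Fin 6))) (hg : orderOf g = 2) :
    (g : Equiv.Perm (Fin 6)).cycleType = {2, 2} := by
  have ho : orderOf (g : Equiv.Perm (Fin 6)) = 2 := by rw [Subgroup.orderOf_coe]; exact hg
  obtain ⟨n, hn⟩ := Equiv.Perm.cycleType_prime_order (σ := (g : Equiv.Perm (Fin 6)))
    (by rw [ho]; exact Nat.prime_two)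
  rw [ho] at hn
  have hsum := Equiv.Perm.sum_cycleType (g : Equiv.Perm (Fin 6))
  have hle : (g : Equiv.Perm (Fin 6)).support.card ≤ 6 := by
    have := Finset.card_le_univ (g : Equiv.Perm (Fin 6)).support
    simpa using this
  rw [hn, Multiset.sum_replicate, smul_eq_mul] at hsum
  have hs : Equiv.Perm.sign (g : Equiv.Perm (Fin 6)) = 1 := Equiv.Perm.mem_alternatingGroup.mp g.2
  rw [Equiv.Perm.sign_of_cycleType, hn] at hs
  have hn3 : n = 0 ∨ n = 1 ∨ n = 2 := by omega
  rcases hn3 with rfl | rfl | rfl
  · exfalso; revert hs; decide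
  · rw [hn]; rfl
  · exfalso; revert hs; decide


/-- The involutions of the alternating group of degree 6 form a class of root involutions (a single conjugacy class of involutions generating the group, any two of which commute, have product of odd order, or have product of order 4 whose square is again an involution of the class), and the product of any two of them has order at most 5. -/
theorem result :
    Cfsg.IsRootInvolutionClass {g : ↥(alternatingGroup (Fin 6)) | orderOf g = 2} ∧
    ∀ d ∈ {g : ↥(alternatingGroup (Fin 6)) | orderOf g = 2}, ∀ e ∈ {g : ↥(alternatingGroup (Fin 6)) | orderOf g = 2},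
      orderOf (d * e) ≤ 5 := by
  have hord := Cfsg.Agent.Lib.Helper19.a6_orderOf_mem
  have hconj : ∀ (g d : ↥(alternatingGroup (Fin 6))), orderOf (g * d * g⁻¹) = orderOf d := by
    intro g d
    have h := orderOf_injective (MulAut.conj g).toMonoidHom (MulAut.conj g).injective d
    simpa using h
  refine ⟨⟨⟨fun d hd => hd, ?_, ?_, ?_⟩, ?_, ?_⟩, ?_⟩
  · haveI : IsSimpleGroup ↥(alternatingGroup (Fin 6)) := alternatingGroup.isSimpleGroup (by simp)
    have hn : (Subgroup.closure {g : ↥(alternatingGroup (Fin 6)) | orderOf g = 2}).Normal := by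
      constructor
      intro n hn g
      induction hn using Subgroup.closure_induction with
      | mem x hx =>
        apply Subgroup.subset_closure
        show orderOf (g * x * g⁻¹) = 2
        rw [hconj]; exact hx
      | one => simp
      | mul x y _ _ hx hy =>
        have : g * (x * y) * g⁻¹ = (g * x * g⁻¹) * (g * y * g⁻¹) := by group
        rw [this]; exact mul_mem hx hy
      | inv x _ hx =>
        have : g * x⁻¹ * g⁻¹ = (g * x * g⁻¹)⁻¹ := by group
        rw [this]; exact inv_mem hx
    rcases hn.eq_bot_or_eq_top with h | h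
    · exfalso
      obtain ⟨g, hg⟩ := Cfsg.Agent.Lib.Helper19.a6_exists_two
      have h1 : g ∈ Subgroup.closure {g : ↥(alternatingGroup (Fin 6)) | orderOf g = 2} :=
        Subgroup.subset_closure hg
      rw [h, Subgroup.mem_bot] at h1
      rw [h1, orderOf_one] at hg
      omega
    · exact h
  · intro d hd g
    show orderOf (g * d * g⁻¹) = 2
    rw [hconj]; exact hd
  · intro a ha b hb
    have haa : a * a = 1 := sq_eq_one_of_orderOf_two ha
    have hbb : b * b = 1 := sq_eq_one_of_orderOf_two hb
    have hcomm : (a * b) ^ 2 = 1 → a * b = b * a := by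
      intro h
      rw [pow_two] at h
      calc a * b = a * (a * b * (a * b)) * b := by rw [h, mul_one]
        _ = (a * a) * b * a * (b * b) := by group
        _ = b * a := by rw [haa, hbb, one_mul, mul_one]
    rcases hord (a * b) with h | h | h | h | h
    · left; apply hcomm; rw [orderOf_eq_one_iff] at h; rw [h, one_pow]
    · left; apply hcomm; rw [← h]; exact pow_orderOf_eq_one _
    · right; left; rw [h]; decide
    · right; right
      refine ⟨h, ?_⟩
      show orderOf ((a * b) ^ 2) = 2
      rw [orderOf_pow, h]
      rfl
    · right; left; rw [h]; decide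
  · exact Cfsg.Agent.Lib.Helper19.a6_exists_two
  · intro a ha b hb
    have h1 : IsConj (a : Equiv.Perm (Fin 6)) (b : Equiv.Perm (Fin 6)) := by
      rw [Equiv.Perm.isConj_iff_cycleType_eq, cycleType_of_invol a ha, cycleType_of_invol b hb]
    have h2 : IsConj a b := by
      apply alternatingGroup.isConj_of h1
      rw [← Equiv.Perm.sum_cycleType, cycleType_of_invol a ha]
      simp
    obtain ⟨g, hg⟩ := isConj_iff.1 h2
    exact ⟨g, hg.symm⟩
  · intro d _ e _
    rcases hord (d * e) with h | h | h | h | h <;> omega

end Cfsg.Agent.S5057
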