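import Cfsg.Statements.S5058
import Cfsg.Agent.Lib.Helper12.Transv
import Cfsg.Agent.Lib.Helper12.SLn

set_option autoImplicit false
open Matrix
open Cfsg

namespace Cfsg.Agent.S5058

open Cfsg.Agent.Lib.Helper12

variable {F : Type*} [Field F] {N : ℕ}

/-- transvections in vector form. -/
def IsTv (t : Matrix (Fin N) (Fin N) F) : Prop :=
  ∃ u φ : Fin N → F, u ≠ 0 ∧ φ ≠ 0 ∧ φ ⬝ᵥ u = 0 ∧ t = 1 + vecMulVec u φ

theorem vmv_mul (u φ v ψ : Fin N → F) :
    vecMulVec u φ * vecMulVec v ψ = (φ ⬝ᵥ v) • vecMulVec u ψ := by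
  rw [vecMulVec_mul_vecMulVec]
  ext i j
  simp [vecMulVec_apply]
  ring

theorem vmv_mulVec (u φ w : Fin N → F) : vecMulVec u φ *ᵥ w = (φ ⬝ᵥ w) • u := by
  rw [vecMulVec_mulVec]
  ext i
  simp [mul_comm]

theorem vmv_rank (u φ : Fin N → F) (hu : u ≠ 0) (hφ : φ ≠ 0) : (vecMulVec u φ).rank = 1 := by
  have h1 := rank_vecMulVec_le u φ
  have h2 : (vecMulVec u φ).rank ≠ 0 := by
    intro h
    rw [Matrix.rank, Submodule.finrank_eq_zero, LinearMap.range_eq_bot] at h
    obtain ⟨j, hj⟩ := Function.ne_iff.mp hφ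
    have h3 := congrArg (fun f => f (Pi.single j 1)) h
    simp only [Matrix.mulVecLin_apply, vmv_mulVec, LinearMap.zero_apply] at h3
    rcases smul_eq_zero.mp h3 with h4 | h4
    · apply hj
      simpa using h4
    · exact hu h4
  omega

theorem val2 (n : ℕ) : ((2 : Fin (n + 3)) : ℕ) = 2 := by
  show 2 % (n + 3) = 2
  exact Nat.mod_eq_of_lt (by omega)

theorem fin02 (n : ℕ) : (0 : Fin (n + 3)) ≠ 2 := by
  intro h
  have := congrArg Fin.val h
  rw [val2] at this
  simp at this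

theorem fin12 (n : ℕ) : (1 : Fin (n + 3)) ≠ 2 := by
  intro h
  have := congrArg Fin.val h
  rw [val2] at this
  simp at this

theorem mem_of_isTv {n : ℕ} (t : Matrix.SpecialLinearGroup (Fin (n + 3)) F)
    (h : IsTv (t : Matrix (Fin (n + 3)) (Fin (n + 3)) F)) :
    ∃ g : Matrix.SpecialLinearGroup (Fin (n + 3)) F,
      ((g⁻¹ * t * g : Matrix.SpecialLinearGroup (Fin (n + 3)) F) :
          Matrix (Fin (n + 3)) (Fin (n + 3)) F) = Matrix.transvection 0 1 1 := by
  obtain ⟨u, φ, hu, hφ, h0, ht⟩ := h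
  have h1 : ((t : Matrix (Fin (n + 3)) (Fin (n + 3)) F) - 1).rank = 1 := by
    rw [ht, add_sub_cancel_left]; exact vmv_rank u φ hu hφ
  have h2 : ((t : Matrix (Fin (n + 3)) (Fin (n + 3)) F) - 1)
      * ((t : Matrix (Fin (n + 3)) (Fin (n + 3)) F) - 1) = 0 := by
    rw [ht, add_sub_cancel_left, vmv_mul, h0, zero_smul]
  obtain ⟨G, hG⟩ := exists_SL_conj_transvection_one _ h1 h2 0 1 2 (by simp) (fin02 n) (fin12 n)
  refine ⟨G, ?_⟩
  rw [Matrix.SpecialLinearGroup.coe_mul, Matrix.SpecialLinearGroup.coe_mul, mul_assoc, hG,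
    ← mul_assoc, ← Matrix.SpecialLinearGroup.coe_mul, inv_mul_cancel,
    Matrix.SpecialLinearGroup.coe_one, one_mul]

theorem transvection_eq (i j : Fin N) (c : F) :
    Matrix.transvection i j c = 1 + vecMulVec (c • Pi.single i 1) (Pi.single j 1) := by
  rw [Matrix.transvection]
  congr 1
  ext a b
  simp only [Matrix.single_apply, vecMulVec_apply, Pi.smul_apply, Pi.single_apply, smul_eq_mul]
  by_cases h1 : i = a <;> by_cases h2 : j = b <;> simp [h1, h2, eq_comm]

theorem isTv_of_conj (t g : Matrix.SpecialLinearGroup (Fin N) F) (i j : Fin N) (hij : i ≠ j) (c : F)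
    (hc : c ≠ 0)
    (h : ((g⁻¹ * t * g : Matrix.SpecialLinearGroup (Fin N) F) : Matrix (Fin N) (Fin N) F)
      = Matrix.transvection i j c) : IsTv (t : Matrix (Fin N) (Fin N) F) := by
  have ht : t = g * (g⁻¹ * t * g) * g⁻¹ := by group
  have hgi : (g : Matrix (Fin N) (Fin N) F) * ((g⁻¹ : Matrix.SpecialLinearGroup (Fin N) F) :
      Matrix (Fin N) (Fin N) F) = 1 := by
    rw [← Matrix.SpecialLinearGroup.coe_mul, mul_inv_cancel, Matrix.SpecialLinearGroup.coe_one]
  have hig : ((g⁻¹ : Matrix.SpecialLinearGroup (Fin N) F) : Matrix (Fin N) (Fin N) F)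
      * (g : Matrix (Fin N) (Fin N) F) = 1 := by
    rw [← Matrix.SpecialLinearGroup.coe_mul, inv_mul_cancel, Matrix.SpecialLinearGroup.coe_one]
  refine ⟨(g : Matrix (Fin N) (Fin N) F) *ᵥ (c • Pi.single i 1),
    (Pi.single j 1) ᵥ* ((g⁻¹ : Matrix.SpecialLinearGroup (Fin N) F) : Matrix (Fin N) (Fin N) F),
    ?_, ?_, ?_, ?_⟩
  · intro h0
    have := congrArg (fun w => ((g⁻¹ : Matrix.SpecialLinearGroup (Fin N) F) :
      Matrix (Fin N) (Fin N) F) *ᵥ w) h0
    simp only [Matrix.mulVec_mulVec, hig, Matrix.one_mulVec, Matrix.mulVec_zero] at this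
    have h1 := congrFun this i
    simp at h1
    exact hc h1
  · intro h0
    have := congrArg (fun w => w ᵥ* (g : Matrix (Fin N) (Fin N) F)) h0
    simp only [Matrix.vecMul_vecMul, hig, Matrix.vecMul_one, Matrix.zero_vecMul] at this
    have h1 := congrFun this j
    simp at h1
  · rw [← Matrix.dotProduct_mulVec, Matrix.mulVec_mulVec, hig, Matrix.one_mulVec]
    simp [hij.symm]
  · rw [ht, Matrix.SpecialLinearGroup.coe_mul, Matrix.SpecialLinearGroup.coe_mul, h,
      transvection_eq, mul_add, add_mul, mul_one, hgi, mul_vecMulVec, vecMulVec_mul]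

section chartwo
variable [CharP F 2]

theorem add_self_mat (S : Matrix (Fin N) (Fin N) F) : S + S = 0 := by
  ext i j; simp [CharTwo.add_self_eq_zero]

theorem X_sq (A B : Matrix (Fin N) (Fin N) F) (τ : F) (hAA : A * A = 0) (hBB : B * B = 0)
    (hABA : A * B * A = τ • A) (hBAB : B * A * B = τ • B) :
    (A + B + A * B) * (A + B + A * B) = A * B + B * A + τ • B + τ • A + τ • (A * B) := by
  have hABB : A * B * B = 0 := by rw [mul_assoc, hBB, mul_zero]
  have hAAB : A * (A * B) = 0 := by rw [← mul_assoc, hAA, zero_mul]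
  have h1 : B * (A * B) = τ • B := by rw [← mul_assoc, hBAB]
  have h2 : A * B * (A * B) = τ • (A * B) := by rw [← mul_assoc, hABA, smul_mul_assoc]
  simp only [add_mul, mul_add, hAA, hBB, hABA, hABB, hAAB, h1, h2]
  abel

theorem one_add_sq (X : Matrix (Fin N) (Fin N) F) : (1 + X) * (1 + X) = 1 + X * X := by
  have : (1 + X) * (1 + X) = 1 + X * X + (X + X) := by
    simp only [add_mul, mul_add, one_mul, mul_one]; abel
  rw [this, add_self_mat, add_zero]

theorem tv_sq (t : Matrix.SpecialLinearGroup (Fin N) F)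
    (h : IsTv (t : Matrix (Fin N) (Fin N) F)) : t * t = 1 := by
  obtain ⟨u, φ, hu, hφ, h0, ht⟩ := h
  apply Subtype.ext
  rw [Matrix.SpecialLinearGroup.coe_mul, ht, one_add_sq, vmv_mul, h0, zero_smul, add_zero]
  rfl

theorem tv_ne_one (t : Matrix.SpecialLinearGroup (Fin N) F)
    (h : IsTv (t : Matrix (Fin N) (Fin N) F)) : t ≠ 1 := by
  obtain ⟨u, φ, hu, hφ, h0, ht⟩ := h
  intro h1
  rw [h1, Matrix.SpecialLinearGroup.coe_one] at ht
  apply vecMulVec_ne_zero hu hφ
  have : (1 : Matrix (Fin N) (Fin N) F) + vecMulVec u φ = 1 + 0 := by rw [← ht, add_zero]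
  exact add_left_cancel this

theorem orderOf_tv (t : Matrix.SpecialLinearGroup (Fin N) F)
    (h : IsTv (t : Matrix (Fin N) (Fin N) F)) : orderOf t = 2 :=
  orderOf_eq_prime (by rw [pow_two]; exact tv_sq t h) (tv_ne_one t h)

theorem orderOf_four (x : Matrix.SpecialLinearGroup (Fin N) F)
    (h : IsTv ((x ^ 2 : Matrix.SpecialLinearGroup (Fin N) F) : Matrix (Fin N) (Fin N) F)) :
    orderOf x = 4 := by
  have := orderOf_eq_prime_pow (x := x) (p := 2) (n := 1) (by
    rw [pow_one]; exact tv_ne_one _ h) (by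
    have := tv_sq _ h
    rw [← pow_add] at this
    exact this)
  simpa using this

theorem fix_of_comm (Z : Matrix (Fin N) (Fin N) F) (hZZ : Z * Z = 1) (u φ v : Fin N → F)
    (hu : u ≠ 0) (hα : φ ⬝ᵥ v ≠ 0) (hc : vecMulVec u φ * Z = Z * vecMulVec u φ) :
    Z *ᵥ u = u := by
  have e1 : (Z * vecMulVec u φ) *ᵥ v = (φ ⬝ᵥ v) • (Z *ᵥ u) := by
    rw [← Matrix.mulVec_mulVec, vmv_mulVec, Matrix.mulVec_smul]
  have e2 : (vecMulVec u φ * Z) *ᵥ v = (φ ⬝ᵥ (Z *ᵥ v)) • u := by
    rw [← Matrix.mulVec_mulVec, vmv_mulVec]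
  rw [hc, e1] at e2
  obtain ⟨c, hc'⟩ : ∃ c : F, Z *ᵥ u = c • u := by
    refine ⟨(φ ⬝ᵥ v)⁻¹ * (φ ⬝ᵥ (Z *ᵥ v)), ?_⟩
    rw [mul_smul, ← e2, smul_smul, inv_mul_cancel₀ hα, one_smul]
  have h1 : Z *ᵥ (Z *ᵥ u) = u := by rw [Matrix.mulVec_mulVec, hZZ, Matrix.one_mulVec]
  rw [hc', Matrix.mulVec_smul, hc', smul_smul] at h1
  have hcc : c * c = 1 := by
    have h2 : (c * c - 1) • u = 0 := by rw [sub_smul, h1, one_smul, sub_self]
    rcases smul_eq_zero.mp h2 with h3 | h3
    · linear_combination h3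
    · exact absurd h3 hu
  have h2F : (2 : F) = 0 := CharTwo.two_eq_zero
  have hc1 : (c - 1) ^ 2 = 0 := by linear_combination hcc + (1 - c) * h2F
  have : c = 1 := by
    have := pow_eq_zero_iff (two_ne_zero) |>.mp hc1
    linear_combination this
  rw [hc', this, one_smul]


theorem pow_fix (Y : Matrix (Fin N) (Fin N) F) (w : Fin N → F) (h : Y *ᵥ w = w) (m : ℕ) :
    (Y ^ m) *ᵥ w = w := by
  induction m with
  | zero => simp
  | succ k ih => rw [pow_succ, ← Matrix.mulVec_mulVec, h, ih]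

theorem comm_mat (a z : Matrix.SpecialLinearGroup (Fin N) F) (A : Matrix (Fin N) (Fin N) F)
    (ha : (a : Matrix (Fin N) (Fin N) F) = 1 + A) (h : a * z = z * a) :
    A * (z : Matrix (Fin N) (Fin N) F) = (z : Matrix (Fin N) (Fin N) F) * A := by
  have h1 := congrArg (fun x : Matrix.SpecialLinearGroup (Fin N) F =>
    (x : Matrix (Fin N) (Fin N) F)) h
  simp only [Matrix.SpecialLinearGroup.coe_mul, ha, add_mul, one_mul, mul_add, mul_one] at h1
  exact add_left_cancel h1

theorem odd_order [Fintype F] (a b : Matrix.SpecialLinearGroup (Fin N) F) (u φ v ψ : Fin N → F)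
    (hu : u ≠ 0) (hv : v ≠ 0) (h0 : φ ⬝ᵥ u = 0) (h0' : ψ ⬝ᵥ v = 0)
    (ha : (a : Matrix (Fin N) (Fin N) F) = 1 + vecMulVec u φ)
    (hb : (b : Matrix (Fin N) (Fin N) F) = 1 + vecMulVec v ψ)
    (haa : a * a = 1) (hbb : b * b = 1)
    (hα : φ ⬝ᵥ v ≠ 0) (hβ : ψ ⬝ᵥ u ≠ 0) : Odd (orderOf (a * b)) := by
  rw [← Nat.not_even_iff_odd]
  rintro ⟨m, hm⟩
  have hpos : 0 < orderOf (a * b) := orderOf_pos _
  have hz1 : (a * b) ^ m ≠ 1 := pow_ne_one_of_lt_orderOf (by omega) (by omega)
  have hzz : (a * b) ^ m * (a * b) ^ m = 1 := by rw [← pow_add, ← hm, pow_orderOf_eq_one]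
  have hainv : a⁻¹ = a := inv_eq_of_mul_eq_one_left haa
  have hbinv : b⁻¹ = b := inv_eq_of_mul_eq_one_left hbb
  have hyinv : (a * b)⁻¹ = b * a := by rw [_root_.mul_inv_rev, hainv, hbinv]
  have hzinv : ((a * b) ^ m)⁻¹ = (a * b) ^ m := inv_eq_of_mul_eq_one_left hzz
  have hay : a * (a * b) * a⁻¹ = (a * b)⁻¹ := by
    rw [hyinv, hainv, ← mul_assoc, haa, one_mul]
  have hby : b * (a * b) * b⁻¹ = (a * b)⁻¹ := by
    rw [hyinv, hbinv, mul_assoc, mul_assoc, hbb, mul_one]
  have haz : a * (a * b) ^ m = (a * b) ^ m * a := by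
    have : a * (a * b) ^ m * a⁻¹ = ((a * b) ^ m)⁻¹ := by rw [← conj_pow, hay, inv_pow]
    rw [hzinv] at this
    exact mul_inv_eq_iff_eq_mul.mp this
  have hbz : b * (a * b) ^ m = (a * b) ^ m * b := by
    have : b * (a * b) ^ m * b⁻¹ = ((a * b) ^ m)⁻¹ := by rw [← conj_pow, hby, inv_pow]
    rw [hzinv] at this
    exact mul_inv_eq_iff_eq_mul.mp this
  set z := (a * b) ^ m with hz
  have hZZ : (z : Matrix (Fin N) (Fin N) F) * (z : Matrix (Fin N) (Fin N) F) = 1 := by
    rw [← Matrix.SpecialLinearGroup.coe_mul, hzz, Matrix.SpecialLinearGroup.coe_one]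
  have hfu := fix_of_comm _ hZZ u φ v hu hα (comm_mat a z _ ha haz)
  have hfv := fix_of_comm _ hZZ v ψ u hv hβ (comm_mat b z _ hb hbz)
  have hK : ∀ w : Fin N → F, φ ⬝ᵥ w = 0 → ψ ⬝ᵥ w = 0 →
      (z : Matrix (Fin N) (Fin N) F) *ᵥ w = w := by
    intro w h1 h2
    rw [hz, Matrix.SpecialLinearGroup.coe_pow]
    apply pow_fix
    have e1 : (1 + vecMulVec v ψ) *ᵥ w = w := by
      rw [Matrix.add_mulVec, Matrix.one_mulVec, vmv_mulVec, h2, zero_smul, add_zero]
    have e2 : (1 + vecMulVec u φ) *ᵥ w = w := by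
      rw [Matrix.add_mulVec, Matrix.one_mulVec, vmv_mulVec, h1, zero_smul, add_zero]
    rw [Matrix.SpecialLinearGroup.coe_mul, ha, hb, ← Matrix.mulVec_mulVec, e1, e2]
  have hall : ∀ w : Fin N → F, (z : Matrix (Fin N) (Fin N) F) *ᵥ w = w := by
    intro w
    set c1 := (ψ ⬝ᵥ w) / (ψ ⬝ᵥ u) with hc1
    set c2 := (φ ⬝ᵥ w) / (φ ⬝ᵥ v) with hc2
    have hw : w = c1 • u + c2 • v + (w - c1 • u - c2 • v) := by abel
    have k1 : φ ⬝ᵥ (w - c1 • u - c2 • v) = 0 := by
      rw [dotProduct_sub, dotProduct_sub, dotProduct_smul, dotProduct_smul, h0, hc2]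
      simp only [smul_eq_mul]
      field_simp
      ring
    have k2 : ψ ⬝ᵥ (w - c1 • u - c2 • v) = 0 := by
      rw [dotProduct_sub, dotProduct_sub, dotProduct_smul, dotProduct_smul, h0', hc1]
      simp only [smul_eq_mul]
      field_simp
      ring
    have k3 := hK _ k1 k2
    calc (z : Matrix (Fin N) (Fin N) F) *ᵥ w
        = (z : Matrix (Fin N) (Fin N) F) *ᵥ (c1 • u + c2 • v + (w - c1 • u - c2 • v)) := by
          rw [← hw]
      _ = c1 • u + c2 • v + (w - c1 • u - c2 • v) := by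
          rw [Matrix.mulVec_add, Matrix.mulVec_add, Matrix.mulVec_smul, Matrix.mulVec_smul,
            hfu, hfv, k3]
      _ = w := hw.symm
  apply hz1
  apply Subtype.ext
  rw [Matrix.SpecialLinearGroup.coe_one]
  ext i j
  have := congrFun (hall (Pi.single j 1)) i
  simpa [Matrix.one_apply, Pi.single_apply, eq_comm] using this

theorem cube_one (a b : Matrix.SpecialLinearGroup (Fin N) F) (A B : Matrix (Fin N) (Fin N) F)
    (ha : (a : Matrix (Fin N) (Fin N) F) = 1 + A)
    (hb : (b : Matrix (Fin N) (Fin N) F) = 1 + B)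
    (haa : a * a = 1) (hbb : b * b = 1) (hAA : A * A = 0) (hBB : B * B = 0)
    (hABA : A * B * A = A) (hBAB : B * A * B = B) : (a * b) ^ 3 = 1 := by
  have key : a * b * a = b * a * b := by
    apply Subtype.ext
    simp only [Matrix.SpecialLinearGroup.coe_mul, ha, hb]
    have e1 : (1 + A) * (1 + B) * (1 + A) = 1 + B + A * B + B * A + A * B * A + A * A + (A + A) := by
      simp only [add_mul, mul_add, one_mul, mul_one]; abel
    have e2 : (1 + B) * (1 + A) * (1 + B) = 1 + A + A * B + B * A + B * A * B + B * B + (B + B) := by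
      simp only [add_mul, mul_add, one_mul, mul_one]; abel
    rw [e1, e2, hABA, hBAB, hAA, hBB, add_self_mat, add_self_mat]
    abel
  calc (a * b) ^ 3 = (a * b * a) * (b * a * b) := by simp only [pow_succ, pow_zero, one_mul, mul_assoc]
    _ = (a * b * a) * (a * b * a) := by rw [key]
    _ = a * (b * (a * a) * b) * a := by simp only [mul_assoc]
    _ = 1 := by rw [haa, mul_one, hbb, mul_one, haa]

theorem pair_lemma [Fintype F] (a b : Matrix.SpecialLinearGroup (Fin N) F)
    (ha : IsTv (a : Matrix (Fin N) (Fin N) F)) (hb : IsTv (b : Matrix (Fin N) (Fin N) F)) :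
    a * b = b * a ∨ (Odd (orderOf (a * b)) ∧ (Fintype.card F = 2 → (a * b) ^ 3 = 1)) ∨
      (orderOf (a * b) = 4 ∧
        IsTv (((a * b) ^ 2 : Matrix.SpecialLinearGroup (Fin N) F) : Matrix (Fin N) (Fin N) F)) := by
  have haa := tv_sq a ha
  have hbb := tv_sq b hb
  obtain ⟨u, φ, hu, hφ, h0, hA⟩ := ha
  obtain ⟨v, ψ, hv, hψ, h0', hB⟩ := hb
  have hAA : vecMulVec u φ * vecMulVec u φ = 0 := by rw [vmv_mul, h0, zero_smul]
  have hBB : vecMulVec v ψ * vecMulVec v ψ = 0 := by rw [vmv_mul, h0', zero_smul]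
  have hABA : vecMulVec u φ * vecMulVec v ψ * vecMulVec u φ
      = ((φ ⬝ᵥ v) * (ψ ⬝ᵥ u)) • vecMulVec u φ := by
    rw [vmv_mul, smul_mul_assoc, vmv_mul, smul_smul]
  have hBAB : vecMulVec v ψ * vecMulVec u φ * vecMulVec v ψ
      = ((φ ⬝ᵥ v) * (ψ ⬝ᵥ u)) • vecMulVec v ψ := by
    rw [vmv_mul, smul_mul_assoc, vmv_mul, smul_smul, mul_comm]
  have hab : ((a * b : Matrix.SpecialLinearGroup (Fin N) F) : Matrix (Fin N) (Fin N) F)
      = 1 + (vecMulVec u φ + vecMulVec v ψ + vecMulVec u φ * vecMulVec v ψ) := by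
    rw [Matrix.SpecialLinearGroup.coe_mul, hA, hB]
    simp only [add_mul, mul_add, one_mul, mul_one]; abel
  have hba : ((b * a : Matrix.SpecialLinearGroup (Fin N) F) : Matrix (Fin N) (Fin N) F)
      = 1 + (vecMulVec u φ + vecMulVec v ψ + vecMulVec v ψ * vecMulVec u φ) := by
    rw [Matrix.SpecialLinearGroup.coe_mul, hA, hB]
    simp only [add_mul, mul_add, one_mul, mul_one]; abel
  have hsq : (((a * b) ^ 2 : Matrix.SpecialLinearGroup (Fin N) F) : Matrix (Fin N) (Fin N) F)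
      = 1 + (vecMulVec u φ * vecMulVec v ψ + vecMulVec v ψ * vecMulVec u φ
        + ((φ ⬝ᵥ v) * (ψ ⬝ᵥ u)) • vecMulVec v ψ + ((φ ⬝ᵥ v) * (ψ ⬝ᵥ u)) • vecMulVec u φ
        + ((φ ⬝ᵥ v) * (ψ ⬝ᵥ u)) • (vecMulVec u φ * vecMulVec v ψ)) := by
    rw [pow_two, Matrix.SpecialLinearGroup.coe_mul, hab, one_add_sq,
      X_sq _ _ _ hAA hBB hABA hBAB]
  by_cases hα : φ ⬝ᵥ v = 0
  · by_cases hβ : ψ ⬝ᵥ u = 0
    · left
      apply Subtype.ext
      rw [hab, hba, vmv_mul, vmv_mul, hα, hβ, zero_smul, zero_smul]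
    · right; right
      have : IsTv (((a * b) ^ 2 : Matrix.SpecialLinearGroup (Fin N) F) :
          Matrix (Fin N) (Fin N) F) := by
        refine ⟨(ψ ⬝ᵥ u) • v, φ, smul_ne_zero hβ hv, hφ, ?_, ?_⟩
        · rw [dotProduct_smul, hα, smul_zero]
        · rw [hsq, hα, zero_mul, zero_smul, zero_smul, zero_smul, vmv_mul, vmv_mul, hα, zero_smul,
            smul_vecMulVec]
          simp
      exact ⟨orderOf_four _ this, this⟩
  · by_cases hβ : ψ ⬝ᵥ u = 0
    · right; right
      have : IsTv (((a * b) ^ 2 : Matrix.SpecialLinearGroup (Fin N) F) :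
          Matrix (Fin N) (Fin N) F) := by
        refine ⟨(φ ⬝ᵥ v) • u, ψ, smul_ne_zero hα hu, hψ, ?_, ?_⟩
        · rw [dotProduct_smul, hβ, smul_zero]
        · rw [hsq, hβ, mul_zero, zero_smul, zero_smul, zero_smul, vmv_mul, vmv_mul, hβ, zero_smul,
            smul_vecMulVec]
          simp
      exact ⟨orderOf_four _ this, this⟩
    · right; left
      refine ⟨odd_order a b u φ v ψ hu hv h0 h0' hA hB haa hbb hα hβ, ?_⟩
      intro hcard
      have e1 : φ ⬝ᵥ v = 1 := by
        have := FiniteField.pow_card_sub_one_eq_one _ hα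
        rwa [hcard, pow_one] at this
      have e2 : ψ ⬝ᵥ u = 1 := by
        have := FiniteField.pow_card_sub_one_eq_one _ hβ
        rwa [hcard, pow_one] at this
      rw [e1, e2, one_mul, one_smul] at hABA hBAB
      exact cube_one a b _ _ hA hB haa hbb hAA hBB hABA hBAB

end chartwo

/-- Let F be a finite field of characteristic 2 and n a natural number. Then the transvections of SL_{n+3}(F) (so in every dimension at least 3) (the conjugates of the elementary matrices 1 + c E₁₂, c ≠ 0) form a class of root involutions of SL_{n+3}(F); when F has two elements they form a class of {3,4}⁺-transpositions (every product of odd order has order 1 or 3). -/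
theorem result (F : Type*) [Field F] [Fintype F] [CharP F 2] (n : ℕ) :
    Cfsg.IsRootInvolutionClass {t : Matrix.SpecialLinearGroup (Fin (n + 3)) F | ∃ c : F, c ≠ 0 ∧
        ∃ g : Matrix.SpecialLinearGroup (Fin (n + 3)) F, ((g⁻¹ * t * g : Matrix.SpecialLinearGroup (Fin (n + 3)) F) :
          Matrix (Fin (n + 3)) (Fin (n + 3)) F) = Matrix.transvection 0 1 c} ∧
    (Fintype.card F = 2 → Cfsg.IsThreeFourPlusTranspositionSet {t : Matrix.SpecialLinearGroup (Fin (n + 3)) F | ∃ c : F, c ≠ 0 ∧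
        ∃ g : Matrix.SpecialLinearGroup (Fin (n + 3)) F, ((g⁻¹ * t * g : Matrix.SpecialLinearGroup (Fin (n + 3)) F) :
          Matrix (Fin (n + 3)) (Fin (n + 3)) F) = Matrix.transvection 0 1 c}) := by
  set D : Set (Matrix.SpecialLinearGroup (Fin (n + 3)) F) :=
    {t : Matrix.SpecialLinearGroup (Fin (n + 3)) F | ∃ c : F, c ≠ 0 ∧
        ∃ g : Matrix.SpecialLinearGroup (Fin (n + 3)) F,
          ((g⁻¹ * t * g : Matrix.SpecialLinearGroup (Fin (n + 3)) F) :
          Matrix (Fin (n + 3)) (Fin (n + 3)) F) = Matrix.transvection 0 1 c} with hD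
  have hmem : ∀ t : Matrix.SpecialLinearGroup (Fin (n + 3)) F,
      t ∈ D ↔ IsTv (t : Matrix (Fin (n + 3)) (Fin (n + 3)) F) := by
    intro t
    constructor
    · rintro ⟨c, hc, g, hg⟩
      exact isTv_of_conj t g 0 1 (by simp) c hc hg
    · intro h
      obtain ⟨g, hg⟩ := mem_of_isTv t h
      exact ⟨1, one_ne_zero, g, hg⟩
  have hconj : ∀ d ∈ D, ∀ g : Matrix.SpecialLinearGroup (Fin (n + 3)) F, g * d * g⁻¹ ∈ D := by
    rintro d ⟨c, hc, k, hk⟩ g
    refine ⟨c, hc, g * k, ?_⟩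
    have e : (g * k)⁻¹ * (g * d * g⁻¹) * (g * k) = k⁻¹ * d * k := by group
    rw [e]
    exact hk
  have hroot : Cfsg.IsRootInvolutionSet D := by
    refine ⟨?_, ?_, hconj, ?_⟩
    · intro d hd
      exact orderOf_tv d ((hmem d).mp hd)
    · rw [eq_top_iff]
      intro x _
      refine transvection_induction (fun A => A ∈ Subgroup.closure D) ?_ ?_ x
      · intro i j hij c
        by_cases hc : c = 0
        · have : Matrix.SpecialLinearGroup.transvection hij c = 1 := by
            apply Subtype.ext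
            rw [hc]
            simp [Matrix.SpecialLinearGroup.transvection]
          rw [this]
          exact one_mem _
        · apply Subgroup.subset_closure
          rw [hmem]
          refine isTv_of_conj _ 1 i j hij c hc ?_
          rw [inv_one, one_mul, mul_one]
          rfl
      · intro A B hA hB
        exact mul_mem hA hB
    · intro a ha b hb
      rcases pair_lemma a b ((hmem a).mp ha) ((hmem b).mp hb) with h | h | h
      · exact Or.inl h
      · exact Or.inr (Or.inl h.1)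
      · exact Or.inr (Or.inr ⟨h.1, (hmem _).mpr h.2⟩)
  refine ⟨⟨hroot, ?_, ?_⟩, ?_⟩
  · refine ⟨Matrix.SpecialLinearGroup.transvection (show (0 : Fin (n + 3)) ≠ 1 by simp) 1, 1,
      one_ne_zero, 1, ?_⟩
    rw [inv_one, one_mul, mul_one]
    rfl
  · intro a ha b hb
    obtain ⟨g, hg⟩ := mem_of_isTv a ((hmem a).mp ha)
    obtain ⟨k, hk⟩ := mem_of_isTv b ((hmem b).mp hb)
    have e : g⁻¹ * a * g = k⁻¹ * b * k := Subtype.ext (hg.trans hk.symm)
    refine ⟨k * g⁻¹, ?_⟩
    have : b = k * (k⁻¹ * b * k) * k⁻¹ := by group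
    rw [this, ← e]
    group
  · intro hcard
    refine ⟨hroot, ?_⟩
    intro a ha b hb hodd
    rcases pair_lemma a b ((hmem a).mp ha) ((hmem b).mp hb) with h | h | h
    · left
      have haa := tv_sq a ((hmem a).mp ha)
      have hbb := tv_sq b ((hmem b).mp hb)
      have h2 : (a * b) ^ 2 = 1 := by
        rw [pow_two]
        calc a * b * (a * b) = a * (b * a) * b := by simp only [mul_assoc]
          _ = a * (a * b) * b := by rw [h]
          _ = (a * a) * (b * b) := by simp only [mul_assoc]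
          _ = 1 := by rw [haa, hbb, one_mul]
      have h3 := orderOf_dvd_of_pow_eq_one h2
      rcases (Nat.dvd_prime Nat.prime_two).mp h3 with h4 | h4
      · exact h4
      · rw [h4] at hodd
        exact absurd hodd (by decide)
    · have h3 := orderOf_dvd_of_pow_eq_one (h.2 hcard)
      exact (Nat.dvd_prime Nat.prime_three).mp h3
    · rw [h.1] at hodd
      exact absurd hodd (by decide)


end Cfsg.Agent.S5058
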