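import Cfsg.Statements.S5059

set_option autoImplicit false
universe u
open Cfsg

namespace Cfsg.Agent.S5059

/-- Let k be a field of characteristic not 2 with k not of order 3, M a finite-dimensional k-vector space and G ≤ GL(M) such that (G, M) is a quadratic pair (M irreducible for G, and G generated by its quadratically acting elements σ whose scalar family 1 + c(σ − 1), c ∈ k, lies in G). Write 𝒬_d for the quadratic elements of G of minimal commutator rank, E(σ) for the subgroup generated by the members of 𝒬_d with the same fixed space and commutator space as σ, and Σ for the set of these subgroups. Then for σ ∈ 𝒬_d the subgroup E(σ) consists exactly of those members together with the identity, it is abelian, and if k has prime characteristic p every element of E(σ) has order dividing p. -/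
theorem result {k : Type u} [Field k] (hk2 : ringChar k ≠ 2) (hk3 : Nat.card k ≠ 3)
    {M : Type u} [AddCommGroup M] [Module k M] [FiniteDimensional k M]
    {G : Subgroup (LinearMap.GeneralLinearGroup k M)} (hG : Cfsg.IsQuadraticPair G)
    {σ : LinearMap.GeneralLinearGroup k M} (hσ : σ ∈ Cfsg.minimalQuadraticElements G) :
    (Cfsg.sameActionSubgroup G σ : Set (LinearMap.GeneralLinearGroup k M)) = Cfsg.sameActionClass G σ ∪ {1} ∧
    IsMulCommutative ↥(Cfsg.sameActionSubgroup G σ) ∧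
    (∀ p : ℕ, p.Prime → ringChar k = p → ∀ x ∈ Cfsg.sameActionSubgroup G σ, x ^ p = 1) := by
  classical
  obtain ⟨⟨hσG, ⟨hσq, hσne⟩, hσsf⟩, hσmin⟩ := hσ
  obtain ⟨Rg, hRg⟩ : ∃ Rg, Rg = LinearMap.range ((σ : M →ₗ[k] M) - 1) := ⟨_, rfl⟩
  obtain ⟨K, hK⟩ : ∃ K, K = LinearMap.ker ((σ : M →ₗ[k] M) - 1) := ⟨_, rfl⟩
  have hRK : Rg ≤ K := by
    rw [hRg, hK]
    rintro _ ⟨y, rfl⟩
    rw [LinearMap.mem_ker]
    have := congrArg (fun f : M →ₗ[k] M => f y) hσq
    exact this
  -- the defining property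
  let Pr : LinearMap.GeneralLinearGroup k M → Prop := fun τ =>
    τ ∈ G ∧ Cfsg.scalarFamily τ ⊆ (G : Set (LinearMap.GeneralLinearGroup k M)) ∧
      LinearMap.range ((τ : M →ₗ[k] M) - 1) ≤ Rg ∧ K ≤ LinearMap.ker ((τ : M →ₗ[k] M) - 1)
  have hzero : ∀ τ₁ τ₂ : LinearMap.GeneralLinearGroup k M, Pr τ₁ → Pr τ₂ →
      ((τ₁ : M →ₗ[k] M) - 1) * ((τ₂ : M →ₗ[k] M) - 1) = 0 := by
    intro τ₁ τ₂ h₁ h₂
    ext x
    have h3 : ((τ₂ : M →ₗ[k] M) - 1) x ∈ LinearMap.ker ((τ₁ : M →ₗ[k] M) - 1) :=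
      h₁.2.2.2 (hRK (h₂.2.2.1 ⟨x, rfl⟩))
    exact LinearMap.mem_ker.mp h3
  have hmulval : ∀ τ₁ τ₂ : LinearMap.GeneralLinearGroup k M, Pr τ₁ → Pr τ₂ →
      (((τ₁ * τ₂ : LinearMap.GeneralLinearGroup k M)) : M →ₗ[k] M) - 1 =
        ((τ₁ : M →ₗ[k] M) - 1) + ((τ₂ : M →ₗ[k] M) - 1) := by
    intro τ₁ τ₂ h₁ h₂
    have h0 := hzero τ₁ τ₂ h₁ h₂
    have e : (((τ₁ * τ₂ : LinearMap.GeneralLinearGroup k M)) : M →ₗ[k] M) - 1 =
        ((τ₁ : M →ₗ[k] M) - 1) + ((τ₂ : M →ₗ[k] M) - 1) +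
          ((τ₁ : M →ₗ[k] M) - 1) * ((τ₂ : M →ₗ[k] M) - 1) := by
      rw [Units.val_mul]
      noncomm_ring
    rw [e, h0, add_zero]
  have g1 : ∀ A : M →ₗ[k] M, (1 + A) * (1 - A) = 1 - A * A := by intro A; noncomm_ring
  have g2 : ∀ A : M →ₗ[k] M, (1 - A) * (1 + A) = 1 - A * A := by intro A; noncomm_ring
  have g3 : ∀ A B : M →ₗ[k] M, (1 + A) * (1 + B) = 1 + A + B + A * B := by
    intro A B; noncomm_ring
  -- units 1 + c N
  have hunit : ∀ (τ : LinearMap.GeneralLinearGroup k M), Pr τ → ∀ c : k,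
      ∃ ρ : LinearMap.GeneralLinearGroup k M, ρ ∈ G ∧
        (ρ : M →ₗ[k] M) = 1 + c • ((τ : M →ₗ[k] M) - 1) := by
    intro τ h c
    have h0 := hzero τ τ h h
    let ρ : LinearMap.GeneralLinearGroup k M :=
      ⟨1 + c • ((τ : M →ₗ[k] M) - 1), 1 - c • ((τ : M →ₗ[k] M) - 1),
        by
          rw [g1, smul_mul_smul_comm, h0, smul_zero, sub_zero],
        by
          rw [g2, smul_mul_smul_comm, h0, smul_zero, sub_zero]⟩
    exact ⟨ρ, h.2.1 ⟨c, rfl⟩, rfl⟩
  have hone : Pr 1 := by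
    refine ⟨G.one_mem, ?_, ?_, ?_⟩
    · rintro τ ⟨c, hc⟩
      have : τ = 1 := by
        apply Units.ext
        rw [hc]
        simp
      rw [this]; exact G.one_mem
    · simp
    · simp
  have hmul : ∀ τ₁ τ₂, Pr τ₁ → Pr τ₂ → Pr (τ₁ * τ₂) := by
    intro τ₁ τ₂ h₁ h₂
    have hv := hmulval τ₁ τ₂ h₁ h₂
    refine ⟨G.mul_mem h₁.1 h₂.1, ?_, ?_, ?_⟩
    · rintro ρ ⟨c, hc⟩
      obtain ⟨ρ₁, hρ₁G, hρ₁⟩ := hunit τ₁ h₁ c
      obtain ⟨ρ₂, hρ₂G, hρ₂⟩ := hunit τ₂ h₂ c
      have : ρ = ρ₁ * ρ₂ := by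
        apply Units.ext
        rw [hc, hv, Units.val_mul, hρ₁, hρ₂]
        rw [g3, smul_mul_smul_comm, hzero τ₁ τ₂ h₁ h₂, smul_zero, add_zero, smul_add, add_assoc]
      rw [this]; exact G.mul_mem hρ₁G hρ₂G
    · rw [hv]
      rintro _ ⟨x, rfl⟩
      exact Rg.add_mem (h₁.2.2.1 ⟨x, rfl⟩) (h₂.2.2.1 ⟨x, rfl⟩)
    · rw [hv]
      intro x hx
      rw [LinearMap.mem_ker, LinearMap.add_apply, LinearMap.mem_ker.mp (h₁.2.2.2 hx),
        LinearMap.mem_ker.mp (h₂.2.2.2 hx), add_zero]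
  have hinvval : ∀ τ : LinearMap.GeneralLinearGroup k M, Pr τ →
      ((τ⁻¹ : LinearMap.GeneralLinearGroup k M) : M →ₗ[k] M) - 1 = - ((τ : M →ₗ[k] M) - 1) := by
    intro τ h
    obtain ⟨ρ, -, hρ⟩ := hunit τ h (-1)
    have h0 := hzero τ τ h h
    have : τ⁻¹ = ρ := by
      rw [inv_eq_iff_mul_eq_one]
      apply Units.ext
      rw [Units.val_mul, hρ, Units.val_one]
      have e : (τ : M →ₗ[k] M) * (1 + (-1 : k) • ((τ : M →ₗ[k] M) - 1)) =
          1 - ((τ : M →ₗ[k] M) - 1) * ((τ : M →ₗ[k] M) - 1) := by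
        rw [neg_one_smul]
        noncomm_ring
      rw [e, h0, sub_zero]
    rw [this, hρ, neg_one_smul]
    abel
  have hinv : ∀ τ, Pr τ → Pr τ⁻¹ := by
    intro τ h
    have hv := hinvval τ h
    refine ⟨G.inv_mem h.1, ?_, ?_, ?_⟩
    · rintro ρ ⟨c, hc⟩
      apply h.2.1
      refine ⟨-c, ?_⟩
      rw [hc, hv, smul_neg, neg_smul]
    · rw [hv]
      rintro _ ⟨x, rfl⟩
      exact Rg.neg_mem (h.2.2.1 ⟨x, rfl⟩)
    · rw [hv]
      intro x hx
      rw [LinearMap.mem_ker, LinearMap.neg_apply, LinearMap.mem_ker.mp (h.2.2.2 hx), neg_zero]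
  let Sg : Subgroup (LinearMap.GeneralLinearGroup k M) :=
    { carrier := {τ | Pr τ}
      one_mem' := hone
      mul_mem' := fun {a b} ha hb => hmul a b ha hb
      inv_mem' := fun {a} ha => hinv a ha }
  have hclassPr : ∀ τ ∈ Cfsg.sameActionClass G σ, Pr τ := by
    rintro τ ⟨⟨⟨hτG, -, hτsf⟩, -⟩, hker, hrange⟩
    exact ⟨hτG, hτsf, by rw [hrange, hRg], by rw [hker, hK]⟩
  have hPrclass : ∀ τ, Pr τ → τ ∈ Cfsg.sameActionClass G σ ∪ {1} := by
    intro τ h
    by_cases h1 : (τ : M →ₗ[k] M) - 1 = 0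
    · right
      show τ = 1
      apply Units.ext
      rw [Units.val_one]
      exact sub_eq_zero.mp h1
    · left
      have hq : τ ∈ Cfsg.quadraticElements G := ⟨h.1, ⟨hzero τ τ h h, h1⟩, h.2.1⟩
      have hrk := hσmin τ hq
      have hrange : LinearMap.range ((τ : M →ₗ[k] M) - 1) = Rg := by
        apply Submodule.eq_of_le_of_finrank_le h.2.2.1
        rw [hRg]
        exact hrk
      have hker : LinearMap.ker ((τ : M →ₗ[k] M) - 1) = K := by
        symm
        apply Submodule.eq_of_le_of_finrank_le h.2.2.2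
        have e1 := LinearMap.finrank_range_add_finrank_ker ((τ : M →ₗ[k] M) - 1)
        have e2 := LinearMap.finrank_range_add_finrank_ker ((σ : M →ₗ[k] M) - 1)
        rw [hrange, hRg] at e1
        rw [hK]
        omega
      refine ⟨⟨hq, ?_⟩, by rw [hker, hK], by rw [hrange, hRg]⟩
      intro τ' hτ'
      have : Cfsg.commutatorRank τ = Cfsg.commutatorRank σ := by
        unfold Cfsg.commutatorRank
        rw [hrange, hRg]
      rw [this]
      exact hσmin τ' hτ'
  have hle : Cfsg.sameActionSubgroup G σ ≤ Sg := by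
    unfold Cfsg.sameActionSubgroup
    rw [Subgroup.closure_le]
    exact hclassPr
  refine ⟨?_, ?_, ?_⟩
  · apply Set.Subset.antisymm
    · intro τ hτ
      exact hPrclass τ (hle hτ)
    · rintro τ (hτ | hτ)
      · exact Subgroup.subset_closure hτ
      · rw [Set.mem_singleton_iff.mp hτ]
        exact Subgroup.one_mem _
  · refine ⟨⟨fun a b => ?_⟩⟩
    apply Subtype.ext
    apply Units.ext
    have ha : Pr a := hle a.2
    have hb : Pr b := hle b.2
    have h1 := hmulval a b ha hb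
    have h2 := hmulval b a hb ha
    have h3 : (((a : LinearMap.GeneralLinearGroup k M) * b : LinearMap.GeneralLinearGroup k M) : M →ₗ[k] M) - 1 =
        (((b : LinearMap.GeneralLinearGroup k M) * a : LinearMap.GeneralLinearGroup k M) : M →ₗ[k] M) - 1 := by
      rw [h1, h2, add_comm]
    exact sub_left_injective h3
  · intro p hp hchar x hx
    have hxP : Pr x := hle hx
    have hpow : ∀ n : ℕ, Pr (x ^ n) ∧ ((x ^ n : LinearMap.GeneralLinearGroup k M) : M →ₗ[k] M) - 1 =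
        (n : k) • ((x : M →ₗ[k] M) - 1) := by
      intro n
      induction n with
      | zero => exact ⟨by rw [pow_zero]; exact hone, by simp⟩
      | succ n ih =>
        refine ⟨by rw [pow_succ]; exact hmul _ _ ih.1 hxP, ?_⟩
        rw [pow_succ, hmulval _ _ ih.1 hxP, ih.2]
        push_cast
        rw [add_smul, one_smul]
    have h1 := (hpow p).2
    have h2 : (p : k) = 0 := by
      rw [← hchar]
      exact ringChar.Nat.cast_ringChar
    rw [h2, zero_smul] at h1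
    apply Units.ext
    rw [Units.val_one]
    exact sub_eq_zero.mp h1

end Cfsg.Agent.S5059
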