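import Cfsg.Statements.S5067
open scoped commutatorElement

set_option autoImplicit false
open Cfsg

namespace Cfsg.Agent.S5067

theorem comm_mod {P : Type*} [Group P] (K : Subgroup P) [K.Normal] (E Z : Subgroup P)
    (hE : ∀ a ∈ E, ∀ b ∈ E, a * b = b * a) (hZ : ∀ z ∈ Z, ∀ g : P, ⁅z, g⁆ ∈ K) :
    ⁅E ⊔ Z, E ⊔ Z⁆ ≤ K := by
  set π := QuotientGroup.mk' K with hπ
  have hker : ∀ x y : P, π x * π y = π y * π x → ⁅x, y⁆ ∈ K := by
    intro x y h
    rw [← QuotientGroup.ker_mk' K, MonoidHom.mem_ker, map_commutatorElement, commutatorElement_eq_one_iff_mul_comm]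
    exact h
  have hZc : ∀ z ∈ Z, ∀ g : P, π z * π g = π g * π z := by
    intro z hz g
    have := hZ z hz g
    rw [← QuotientGroup.ker_mk' K, MonoidHom.mem_ker, map_commutatorElement, commutatorElement_eq_one_iff_mul_comm] at this
    exact this
  -- the centralizer trick
  have h1 : E ⊔ Z ≤ (Subgroup.centralizer ((E.map π : Subgroup (P ⧸ K)) : Set (P ⧸ K))).comap π := by
    rw [sup_le_iff]
    constructor
    · intro a ha
      rw [Subgroup.mem_comap, Subgroup.mem_centralizer_iff]
      rintro _ ⟨b, hb, rfl⟩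
      rw [← map_mul, ← map_mul, hE b hb a ha]
    · intro z hz
      rw [Subgroup.mem_comap, Subgroup.mem_centralizer_iff]
      rintro _ ⟨b, hb, rfl⟩
      exact (hZc z hz b).symm
  have h2 : E ⊔ Z ≤ (Subgroup.centralizer (((E ⊔ Z).map π : Subgroup (P ⧸ K)) : Set (P ⧸ K))).comap π := by
    rw [sup_le_iff]
    constructor
    · intro a ha
      rw [Subgroup.mem_comap, Subgroup.mem_centralizer_iff]
      rintro _ ⟨b, hb, rfl⟩
      have := h1 hb
      rw [Subgroup.mem_comap, Subgroup.mem_centralizer_iff] at this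
      exact (this _ ⟨a, ha, rfl⟩).symm
    · intro z hz
      rw [Subgroup.mem_comap, Subgroup.mem_centralizer_iff]
      rintro _ ⟨b, hb, rfl⟩
      exact (hZc z hz b).symm
  rw [Subgroup.commutator_le]
  intro x hx y hy
  apply hker
  have := h2 hx
  rw [Subgroup.mem_comap, Subgroup.mem_centralizer_iff] at this
  exact (this _ ⟨y, hy, rfl⟩).symm

theorem lcs_le {P : Type*} [Group P] (E : Subgroup P) (hE : IsMulCommutative ↥E) (N : Subgroup P)
    (hN : N ≤ E ⊔ commutator P) (k : ℕ) :
    N.lowerCentralSeries (k + 1) ≤ (⊤ : Subgroup P).lowerCentralSeries (k + 2) := by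
  induction k with
  | zero =>
    show ⁅N, N⁆ ≤ _
    refine (Subgroup.commutator_mono hN hN).trans ?_
    apply comm_mod
    · intro a ha b hb
      have := hE.is_comm.comm ⟨a, ha⟩ ⟨b, hb⟩
      exact congrArg Subtype.val this
    · intro z hz g
      show ⁅z, g⁆ ∈ ⁅(⊤ : Subgroup P).lowerCentralSeries 1, ⊤⁆
      refine Subgroup.commutator_mem_commutator ?_ (Subgroup.mem_top g)
      exact hz
  | succ k ih =>
    show ⁅N.lowerCentralSeries (k + 1), N⁆ ≤ ⁅(⊤ : Subgroup P).lowerCentralSeries (k + 2), ⊤⁆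
    exact Subgroup.commutator_mono ih le_top

theorem class_lt {P : Type*} [Group P] [Group.IsNilpotent P] (hna : ¬ IsMulCommutative P)
    (E : Subgroup P) (hE : IsMulCommutative ↥E) :
    Group.nilpotencyClass ↥(Subgroup.normalClosure (E : Set P)) < Group.nilpotencyClass P := by
  have hnorm : (E ⊔ commutator P).Normal := by
    constructor
    intro n hn g
    have : g * n * g⁻¹ = ⁅g, n⁆ * n := by rw [commutatorElement_def]; group
    rw [this]
    refine mul_mem (Subgroup.mem_sup_right ?_) hn
    exact Subgroup.commutator_mem_commutator (Subgroup.mem_top g) (Subgroup.mem_top n)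
  have hN : Subgroup.normalClosure (E : Set P) ≤ E ⊔ commutator P :=
    Subgroup.normalClosure_le_normal (fun x hx => Subgroup.mem_sup_left hx)
  set c := Group.nilpotencyClass P with hc
  have hc2 : 2 ≤ c := by
    by_contra hlt
    apply hna
    have h1 : c ≤ 1 := by omega
    have h2 : (⊤ : Subgroup P).lowerCentralSeries 1 = ⊥ :=
      Subgroup.lowerCentralSeries_eq_bot_iff_nilpotencyClass_le.2 h1
    have h3 : (⁅⊤, ⊤⁆ : Subgroup P) = ⊥ := h2
    refine ⟨⟨fun a b => ?_⟩⟩
    have h4 : ⁅a, b⁆ ∈ (⁅⊤, ⊤⁆ : Subgroup P) :=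
      Subgroup.commutator_mem_commutator (Subgroup.mem_top a) (Subgroup.mem_top b)
    rw [h3, Subgroup.mem_bot, commutatorElement_eq_one_iff_mul_comm] at h4
    exact h4
  obtain ⟨k, hk⟩ : ∃ k, c = k + 2 := ⟨c - 2, by omega⟩
  have h5 := lcs_le E hE _ hN k
  have h6 : (⊤ : Subgroup P).lowerCentralSeries (k + 2) = ⊥ :=
    Subgroup.lowerCentralSeries_eq_bot_iff_nilpotencyClass_le.2 (by omega)
  rw [h6, le_bot_iff, ← Subgroup.top_subtype_lowerCentralSeries,
    Subgroup.map_eq_bot_iff_of_injective _ (Subgroup.subtype_injective _)] at h5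
  have h7 := Subgroup.lowerCentralSeries_eq_bot_iff_nilpotencyClass_le.1 h5
  omega


/-- Let P be a non-abelian nilpotent p-group (every element of p-power order; P possibly infinite) generated by two abelian subgroups E and F. Then the normal closure of E in P, and likewise that of F, has nilpotency class strictly smaller than that of P. -/
theorem result {P : Type*} [Group P] {p : ℕ} [Fact p.Prime] (hP : IsPGroup p P) [Group.IsNilpotent P]
    (hna : ¬ IsMulCommutative P) {E F : Subgroup P} (hE : IsMulCommutative ↥E) (hF : IsMulCommutative ↥F) (hgen : E ⊔ F = ⊤) :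
    Group.nilpotencyClass ↥(Subgroup.normalClosure (E : Set P)) < Group.nilpotencyClass P ∧
    Group.nilpotencyClass ↥(Subgroup.normalClosure (F : Set P)) < Group.nilpotencyClass P := by
  exact ⟨class_lt hna E hE, class_lt hna F hF⟩

end Cfsg.Agent.S5067
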