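import Cfsg.Statements.S5081
import Cfsg.Agent.Lib.Helper27.FusionMore
import Cfsg.Agent.Lib.Helper17.SE
import Cfsg.Agent.Lib.Helper26.SylIn

set_option autoImplicit false
open Cfsg

namespace Cfsg.Agent.S5081

open Cfsg.Agent.Lib.Helper27 Cfsg Cfsg.FusionSystem in
theorem stronglyPEmbedded_of_not_le {Ω : Type*} [Group Ω] {S : Subgroup Ω} [Finite S] {p : ℕ}
    [Fact p.Prime] (hS : IsPGroup p S) {F : FusionSystem S}
    (hF : F.IsSaturated p) {R : Subgroup Ω} (hRn : F.IsFullyNormalized R) (hRc : F.IsCentric R)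
    (hRS : R ≠ S) (H : Subgroup (MulAut R))
    (hH : ∀ α ∈ F.autGroup R,
      (∃ g, g ∉ R ∧ g ∈ extender S R (R.subtype.comp α.toMonoidHom)) → α ∈ H)
    (hcon : ¬ F.autGroup R ≤ H) [hn : ((Inn R).subgroupOf (F.autGroup R)).Normal] :
    IsStronglyPEmbedded p ((H.subgroupOf (F.autGroup R)).map
      (QuotientGroup.mk' ((Inn R).subgroupOf (F.autGroup R)))) := by
  obtain ⟨-, ⟨hRle, R₀, hR₀⟩, -⟩ := IsSaturated.fullyNormalized_props hS hF hRn
  have finR : Finite R := finite_of_le hRle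
  obtain ⟨g₀, hg₀, hg₀R⟩ := exists_mem_normalizerIn_not_mem hS hRle hRS
  have hCR : centralizerIn S R ≤ R := hRc.2 R (isConj_refl F hRle)
  -- an element of S inducing an inner automorphism lies in R
  have hinner : ∀ (g : Ω) (s : MulAut R), g ∈ S → (∀ x : R, ((s x : R) : Ω) = g * x * g⁻¹) →
      s ∈ Inn R → g ∈ R := by
    rintro g s hg hs ⟨x, rfl⟩
    have hc : (x : Ω)⁻¹ * g ∈ centralizerIn S R := by
      refine mem_centralizerIn.mpr ⟨S.mul_mem (S.inv_mem (hRle x.2)) hg, ?_⟩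
      rw [Subgroup.mem_centralizer_iff]
      intro y hy
      have h1 : (x : Ω) * y * (x : Ω)⁻¹ = g * y * g⁻¹ := hs ⟨y, hy⟩
      calc y * ((x : Ω)⁻¹ * g) = (x : Ω)⁻¹ * ((x : Ω) * y * (x : Ω)⁻¹) * g := by group
        _ = (x : Ω)⁻¹ * (g * y * g⁻¹) * g := by rw [h1]
        _ = (x : Ω)⁻¹ * g * y := by group
    have := R.mul_mem x.2 (hCR hc)
    rwa [mul_inv_cancel_left] at this
  -- inner automorphisms lie in H
  have hIH : (Inn R).subgroupOf (F.autGroup R) ≤ H.subgroupOf (F.autGroup R) := by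
    rintro ⟨α, hαF⟩ hα
    obtain ⟨x, hx⟩ := Subgroup.mem_subgroupOf.mp hα
    refine Subgroup.mem_subgroupOf.mpr (hH α hαF ⟨g₀, hg₀R, ?_⟩)
    rw [mem_extender_iff]
    refine ⟨hg₀.1, hg₀.2, x * g₀ * (x : Ω)⁻¹,
      S.mul_mem (S.mul_mem (hRle x.2) hg₀.1) (S.inv_mem (hRle x.2)), fun y hy => ?_⟩
    have hx' : α = MulAut.conj x := hx.symm
    subst hx'
    show (x : Ω) * (g₀ * (y : Ω) * g₀⁻¹) * (x : Ω)⁻¹ =
      x * g₀ * (x : Ω)⁻¹ * ((x : Ω) * y * (x : Ω)⁻¹) * (x * g₀ * (x : Ω)⁻¹)⁻¹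
    group
  refine ⟨?_, ?_, R₀.mapSurjective (QuotientGroup.mk'_surjective _), ?_⟩
  · -- p divides the order of Out_F(R)
    let cg : MulAut R := MulEquiv.ofBijective
      ((conjHom R g₀).codRestrict R (fun x => (Subgroup.mem_normalizer_iff.mp hg₀.2 x).mp x.2))
      ⟨fun x y hxy => by
          have h : g₀ * (x : Ω) * g₀⁻¹ = g₀ * (y : Ω) * g₀⁻¹ := congrArg Subtype.val hxy
          exact Subtype.ext (mul_left_cancel (mul_right_cancel h)),
        fun y => ⟨⟨g₀⁻¹ * y * g₀, by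
          have := (Subgroup.mem_normalizer_iff.mp (Subgroup.inv_mem _ hg₀.2) y).mp y.2
          simpa using this⟩, Subtype.ext (by
            show g₀ * (g₀⁻¹ * (y : Ω) * g₀) * g₀⁻¹ = y
            group)⟩⟩
    have hcg : cg ∈ autInducedBy S R := (mem_autInducedBy_iff S R cg).mpr ⟨g₀, hg₀.1, fun x => rfl⟩
    have hcgF : cg ∈ F.autGroup R := autInducedBy_le_autGroup F hRle hcg
    let t : F.autGroup R ⧸ (Inn R).subgroupOf (F.autGroup R) := QuotientGroup.mk ⟨cg, hcgF⟩
    have ht1 : t ≠ 1 := by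
      intro h
      rw [QuotientGroup.eq_one_iff] at h
      exact hg₀R (hinner g₀ cg hg₀.1 (fun _ => rfl) (Subgroup.mem_subgroupOf.mp h))
    obtain ⟨k, hk⟩ := autInducedBy_isPGroup hS R ⟨cg, hcg⟩
    have hk' : cg ^ p ^ k = 1 := congrArg Subtype.val hk
    have htk : t ^ p ^ k = 1 := by
      show (QuotientGroup.mk ((⟨cg, hcgF⟩ : F.autGroup R) ^ p ^ k) : F.autGroup R ⧸ _) = 1
      have : (⟨cg, hcgF⟩ : F.autGroup R) ^ p ^ k = 1 := Subtype.ext hk'
      rw [this]; rfl
    obtain ⟨j, -, hj⟩ := (Nat.dvd_prime_pow Fact.out).mp (orderOf_dvd_of_pow_eq_one htk)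
    have hj0 : j ≠ 0 := by
      rintro rfl
      rw [pow_zero, orderOf_eq_one_iff] at hj
      exact ht1 hj
    have h1 : p ∣ orderOf t := by rw [hj]; exact dvd_pow_self p hj0
    exact h1.trans (orderOf_dvd_natCard t)
  · -- the image of H is proper
    intro htop
    apply hcon
    intro a ha
    have h1 : (QuotientGroup.mk' ((Inn R).subgroupOf (F.autGroup R))) ⟨a, ha⟩ ∈
        (H.subgroupOf (F.autGroup R)).map (QuotientGroup.mk' _) := by rw [htop]; trivial
    obtain ⟨b, hb, hba⟩ := h1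
    have h2 : b⁻¹ * ⟨a, ha⟩ ∈ (Inn R).subgroupOf (F.autGroup R) := QuotientGroup.eq.mp hba
    have h3 := (H.subgroupOf (F.autGroup R)).mul_mem hb (hIH h2)
    rw [mul_inv_cancel_left] at h3
    exact Subgroup.mem_subgroupOf.mp h3
  · -- the 1-generated core lies in the image of H
    unfold kGeneratedCore
    refine iSup_le ?_
    rintro ⟨Q, hQT, hQr⟩ x hx
    obtain ⟨t, htQ, ht1⟩ := exists_ne_one_of_not_pRankLE hQr
    obtain ⟨⟨a, ha⟩, rfl⟩ := QuotientGroup.mk'_surjective _ x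
    have hT : ∀ u ∈ Q, ∃ s : F.autGroup R, (s : MulAut R) ∈ autInducedBy S R ∧
        QuotientGroup.mk' ((Inn R).subgroupOf (F.autGroup R)) s = u := by
      intro u hu
      have h1 := hQT hu
      rw [Sylow.coe_mapSurjective, hR₀] at h1
      obtain ⟨s, hs, rfl⟩ := h1
      exact ⟨s, Subgroup.mem_subgroupOf.mp hs, rfl⟩
    obtain ⟨s, hs, rfl⟩ := hT t htQ
    have hxt := (Subgroup.mem_normalizer_iff.mp hx _).mp htQ
    obtain ⟨s', hs', hss'⟩ := hT _ hxt
    rw [← map_inv, ← map_mul, ← map_mul] at hss'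
    have h2 : s'⁻¹ * (⟨a, ha⟩ * s * ⟨a, ha⟩⁻¹) ∈ (Inn R).subgroupOf (F.autGroup R) :=
      QuotientGroup.eq.mp hss'
    have h3 : (s' : MulAut R)⁻¹ * (a * (s : MulAut R) * a⁻¹) ∈ autInducedBy S R :=
      inn_le_autInducedBy hRle (Subgroup.mem_subgroupOf.mp h2)
    have h4 : a * (s : MulAut R) * a⁻¹ ∈ autInducedBy S R := by
      have := (autInducedBy S R).mul_mem hs' h3
      rwa [mul_inv_cancel_left] at this
    obtain ⟨g, hg, hgs⟩ := (mem_autInducedBy_iff S R _).mp hs
    obtain ⟨h, hh, hha⟩ := (mem_autInducedBy_iff S R _).mp h4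
    have hgR : g ∉ R := by
      intro hgR
      apply ht1
      show (QuotientGroup.mk s : F.autGroup R ⧸ _) = 1
      rw [QuotientGroup.eq_one_iff]
      refine Subgroup.mem_subgroupOf.mpr ⟨⟨g, hgR⟩, ?_⟩
      ext y
      exact (hgs y).symm
    refine ⟨⟨a, ha⟩, Subgroup.mem_subgroupOf.mpr (hH a ha ⟨g, hgR, ?_⟩), rfl⟩
    rw [mem_extender_iff]
    refine ⟨hg, mem_normalizer_of_aut _ hgs, h, hh, fun y hy => ?_⟩
    have h5 := hha (a y)
    have h6 : (a * (s : MulAut R) * a⁻¹ : MulAut R) (a y) = a ((s : MulAut R) y) := by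
      simp [MulAut.mul_apply]
    rw [h6] at h5
    have h7 : (⟨g * (y : Ω) * g⁻¹, hy⟩ : R) = (s : MulAut R) y := Subtype.ext (hgs y).symm
    rw [h7]
    exact h5

lemma dvd_card_of_mem_pow {X : Type*} [Group X] [Finite X] {p : ℕ} [Fact p.Prime] {K : Subgroup X}
    {w : X} (hw : w ∈ K) (h1 : w ≠ 1) {k : ℕ} (hk : w ^ p ^ k = 1) : p ∣ Nat.card K := by
  obtain ⟨j, -, hj⟩ := (Nat.dvd_prime_pow Fact.out).mp (orderOf_dvd_of_pow_eq_one hk)
  have hj0 : j ≠ 0 := by
    rintro rfl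
    rw [pow_zero, orderOf_eq_one_iff] at hj
    exact h1 hj
  have h2 : p ∣ orderOf w := by rw [hj]; exact dvd_pow_self p hj0
  have h3 := orderOf_dvd_natCard (⟨w, hw⟩ : K)
  rw [← Subgroup.orderOf_coe] at h3
  exact h2.trans h3


/-- Let F be a saturated fusion system over a finite p-group S, P a proper subgroup of S that is fully normalized, and H the subgroup of Aut_F(P) generated by the automorphisms that extend to maps of the system defined on strictly larger subgroups of S. Then either P is not essential and H is all of Aut_F(P), or P is essential and the image of H in Out_F(P) = Aut_F(P)/Inn(P) is strongly p-embedded there. -/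
theorem result {Ω : Type*} [Group Ω] {S : Subgroup Ω} [Finite S] (p : ℕ) [Fact p.Prime] (hS : IsPGroup p S) (F : Cfsg.FusionSystem S) (hF : F.IsSaturated p) (P : Subgroup Ω) (hPS : P < S) (hPn : F.IsFullyNormalized P) (H : Subgroup (MulAut P)) (hH : H = Subgroup.closure {α : MulAut P | ∃ (Q : Subgroup Ω) (hPQ : P < Q) (φ : Q →* Ω), φ ∈ F.Hom Q ∧ ∀ x : P, φ (Subgroup.inclusion hPQ.le x) = α x}) : (¬ F.IsEssential p P ∧ H = F.autGroup P) ∨ (F.IsEssential p P ∧ ∃ _ : ((Cfsg.Inn P).subgroupOf (F.autGroup P)).Normal, Cfsg.IsStronglyPEmbedded p ((H.subgroupOf (F.autGroup P)).map (QuotientGroup.mk' ((Cfsg.Inn P).subgroupOf (F.autGroup P))))) := by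
  open Cfsg.Agent.Lib.Helper27 Cfsg.FusionSystem in
  have hPle := hPn.1
  have hPne : P ≠ S := hPS.ne
  obtain ⟨hfc, haut, hrec⟩ := IsSaturated.fullyNormalized_props hS hF hPn
  have finP : Finite P := finite_of_le hPle
  have hn : ((Cfsg.Inn P).subgroupOf (F.autGroup P)).Normal :=
    Subgroup.Normal.subgroupOf inferInstance _
  have hgen : ∀ α : MulAut P, (∃ (Q : Subgroup Ω) (hPQ : P < Q) (φ : Q →* Ω), φ ∈ F.Hom Q ∧
      ∀ x : P, φ (Subgroup.inclusion hPQ.le x) = α x) → α ∈ F.autGroup P := by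
    rintro α ⟨Q, hPQ, φ, hφ, hα⟩
    rw [mem_autGroup_iff F hPle]
    exact restrict_mem' F hPQ.le hφ (fun x => (hα x).symm)
  have hHA : H ≤ F.autGroup P := by
    rw [hH, Subgroup.closure_le]
    exact fun α hα => hgen α hα
  have hext : ∀ α ∈ F.autGroup P,
      (∃ g, g ∉ P ∧ g ∈ extender S P (P.subtype.comp α.toMonoidHom)) → α ∈ H := by
    rintro α hα ⟨g, hgP, hg⟩
    have hα' := (mem_autGroup_iff F hPle α).mp hα
    have hle := le_extender F hα'
    obtain ⟨ψ, hψ, hext⟩ := exists_extension F hrec hα' (range_subtype_comp α) le_rfl hle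
    rw [hH]
    apply Subgroup.subset_closure
    exact ⟨extender S P _, lt_of_le_of_ne hle (fun e => hgP (e ▸ hg)), ψ, hψ, fun x => hext x⟩
  by_cases hc : F.IsCentric P
  · by_cases hAH : F.autGroup P ≤ H
    · left
      refine ⟨?_, le_antisymm hHA hAH⟩
      rintro ⟨-, -, hn', M, hM⟩
      obtain ⟨hpM, hMtop, hSE⟩ := Cfsg.Agent.Lib.Helper17.isStronglyPEmbedded_iff.mp hM
      obtain ⟨R₀, hR₀⟩ := haut.2
      set ρ := QuotientGroup.mk' ((Cfsg.Inn P).subgroupOf (F.autGroup P)) with hρ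
      have hρs : Function.Surjective ρ := QuotientGroup.mk'_surjective _
      set T := R₀.mapSurjective hρs with hT
      have hTmem : ∀ s : F.autGroup P, (s : MulAut P) ∈ Cfsg.autInducedBy S P →
          ρ s ∈ (T : Subgroup _) := by
        intro s hs
        rw [hT, Sylow.coe_mapSurjective, hR₀]
        exact ⟨s, Subgroup.mem_subgroupOf.mpr hs, rfl⟩
      -- a Sylow subgroup inside M
      obtain ⟨x₀, hx₀M, hx₀⟩ := Cfsg.Agent.Lib.Helper17.exists_orderOf_eq_of_dvd_card hpM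
      obtain ⟨R, hR⟩ := (Cfsg.Agent.Lib.Helper17.zpowers_isPGroup_of_orderOf hx₀).exists_le_sylow
      have hRM : (R : Subgroup _) ≤ M := by
        apply hSE.pgroup_le R.2
        intro h0
        have h1 : x₀ ∈ (R : Subgroup _) ⊓ M := ⟨hR (Subgroup.mem_zpowers x₀), hx₀M⟩
        rw [h0, Subgroup.mem_bot] at h1
        rw [h1, orderOf_one] at hx₀
        exact (Fact.out : p.Prime).one_lt.ne hx₀
      obtain ⟨x, -, hxT⟩ := (Cfsg.Agent.Lib.Helper26.sylIn_top_of_sylow R).exists_conj_le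
        (A := (T : Subgroup _)) le_top T.2
      have hxM : ∀ t ∈ (T : Subgroup _), x * t * x⁻¹ ∈ M :=
        fun t ht => hRM (hxT (Cfsg.Agent.Lib.Helper26.conj_mem_cj ht))
      -- the subgroup of automorphisms whose class lies in the conjugate of M
      let L : Subgroup (MulAut P) :=
        ((M.comap (MulAut.conj x).toMonoidHom).comap ρ).map (F.autGroup P).subtype
      have hHL : H ≤ L := by
        rw [hH, Subgroup.closure_le]
        rintro α ⟨Q, hPQ, φ, hφ, hα⟩
        have hαA : α ∈ F.autGroup P := hgen α ⟨Q, hPQ, φ, hφ, hα⟩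
        refine ⟨⟨α, hαA⟩, ?_, rfl⟩
        show x * ρ ⟨α, hαA⟩ * x⁻¹ ∈ M
        have hQS := source_le F hφ
        have finQ : Finite Q := finite_of_le hQS
        obtain ⟨g, hg, hgP⟩ := exists_mem_normalizerIn_not_mem (hS.to_le hQS) hPQ.le hPQ.ne
        have hgS : g ∈ S := hQS hg.1
        have hcg : conjAut P g hg.2 ∈ Cfsg.autInducedBy S P := conjAut_mem_autInducedBy hgS hg.2
        have hcgA := autInducedBy_le_autGroup F hPle hcg
        have hconj : α * conjAut P g hg.2 * α⁻¹ ∈ Cfsg.autInducedBy S P := by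
          rw [mem_autInducedBy_iff]
          refine ⟨φ ⟨g, hg.1⟩, image_mem F hφ _, fun y => ?_⟩
          show ((α (conjAut P g hg.2 (α⁻¹ y)) : P) : Ω) = _
          rw [← hα]
          have e1 : (y : Ω) = φ (Subgroup.inclusion hPQ.le (α⁻¹ y)) := by
            rw [hα, MulAut.apply_inv_self]
          rw [e1, ← map_inv, ← map_mul, ← map_mul]
          rfl
        have hconjA := autInducedBy_le_autGroup F hPle hconj
        set u := ρ ⟨conjAut P g hg.2, hcgA⟩ with hu
        have hu1 : u ≠ 1 := by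
          intro h
          rw [hu, hρ, QuotientGroup.mk'_apply, QuotientGroup.eq_one_iff] at h
          exact hgP (mem_of_inner hPle (hc.2 P (isConj_refl F hPle)) hgS (fun _ => rfl)
            (Subgroup.mem_subgroupOf.mp h))
        obtain ⟨k, hk⟩ := autInducedBy_isPGroup hS P ⟨_, hcg⟩
        have huk : u ^ p ^ k = 1 := by
          rw [hu, ← map_pow]
          have hk' : (conjAut P g hg.2) ^ p ^ k = 1 := congrArg Subtype.val hk
          have : (⟨conjAut P g hg.2, hcgA⟩ : F.autGroup P) ^ p ^ k = 1 := Subtype.ext hk'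
          rw [this, map_one]
        have huT : u ∈ (T : Subgroup _) := hTmem _ hcg
        have hauT : ρ ⟨α, hαA⟩ * u * (ρ ⟨α, hαA⟩)⁻¹ ∈ (T : Subgroup _) := by
          have := hTmem ⟨_, hconjA⟩ hconj
          rw [hu, ← map_inv, ← map_mul, ← map_mul]
          exact this
        apply hSE.mem_of_dvd
        set a := ρ ⟨α, hαA⟩ with ha
        have hw : x * (a * u * a⁻¹) * x⁻¹ ∈
            M ⊓ M.map (MulAut.conj (x * a * x⁻¹)).toMonoidHom := by
          refine ⟨hxM _ hauT, x * u * x⁻¹, hxM _ huT, ?_⟩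
          show (x * a * x⁻¹) * (x * u * x⁻¹) * (x * a * x⁻¹)⁻¹ = _
          group
        refine dvd_card_of_mem_pow (k := k) hw ?_ ?_
        · intro h
          apply hu1
          have e : u = a⁻¹ * (x⁻¹ * (x * (a * u * a⁻¹) * x⁻¹) * x) * a := by group
          rw [e, h]
          group
        · have e : x * (a * u * a⁻¹) * x⁻¹ = (x * a) * u * (x * a)⁻¹ := by group
          rw [e, conj_pow, huk]
          group
      apply hMtop
      rw [eq_top_iff]
      intro y _
      obtain ⟨b, hb⟩ := hρs (x⁻¹ * y * x)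
      obtain ⟨b', hb', hbb'⟩ := hHL (hAH b.2)
      have hb'' : b' = b := Subtype.ext hbb'
      rw [hb''] at hb'
      have h3 : x * ρ b * x⁻¹ ∈ M := hb'
      rw [hb] at h3
      have e : x * (x⁻¹ * y * x) * x⁻¹ = y := by group
      rwa [e] at h3
    · right
      have hse := stronglyPEmbedded_of_not_le hS hF hPn hc hPne H hext hAH
      exact ⟨⟨hc, hPn, hn, _, hse⟩, hn, hse⟩
  · left
    refine ⟨fun h => hc h.1, le_antisymm hHA ?_⟩
    have hnC : ¬ centralizerIn S P ≤ P := fun h => hc (centric_of_receptive F hrec h)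
    obtain ⟨c, hc', hcP⟩ := SetLike.not_le_iff_exists.mp hnC
    exact fun α hα => hext α hα ⟨c, hcP, centralizerIn_le_extender S P _ hc'⟩

end Cfsg.Agent.S5081
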