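import Cfsg.Statements.S5101
import Cfsg.Agent.Lib.Helper26.GroupFusion

set_option autoImplicit false
open Cfsg

namespace Cfsg.Agent.S5101

/-- In the fusion system of a finite group G on a Sylow p-subgroup S, a subgroup P ≤ S is fully centralized if and only if C_S(P) is a Sylow p-subgroup of C_G(P). -/
theorem result {G : Type*} [Group G] [Finite G] (p : ℕ) [Fact p.Prime] (S : Sylow p G) (P : Subgroup G) (hP : P ≤ S) : (Cfsg.groupFusionSystem (S : Subgroup G)).IsFullyCentralized P ↔ ∃ R : Sylow p ↥(Subgroup.centralizer (P : Set G)), (R : Subgroup ↥(Subgroup.centralizer (P : Set G))) = (Cfsg.FusionSystem.centralizerIn (S : Subgroup G) P).subgroupOf (Subgroup.centralizer (P : Set G)) := by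
  open Cfsg.Agent.Lib.Helper26 in
  have hle : ∀ Q : Subgroup G, Cfsg.FusionSystem.centralizerIn (S : Subgroup G) Q ≤
      Subgroup.centralizer (Q : Set G) := fun Q => inf_le_right
  have hpg : ∀ Q : Subgroup G, IsPGroup p (Cfsg.FusionSystem.centralizerIn (S : Subgroup G) Q) :=
    fun Q => S.isPGroup'.to_le inf_le_left
  constructor
  · rintro ⟨-, h⟩
    obtain ⟨g, hgS, hg⟩ := exists_cj_sylIn_normalizer S hP
    have hg := sylIn_centralizer_of_normalizer hg
    have h1 := h (cj g P) (groupFS_isConj_iff.mpr ⟨hP, hgS, g, rfl⟩)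
    apply sylIn_of_le_card (hle P) (hpg P)
    rw [(sylIn_iff_card (hle _)).mp hg, centralizer_cj, card_cj] at h1
    exact h1
  · intro h
    refine ⟨hP, fun Q hQ => ?_⟩
    obtain ⟨-, hQS, g, rfl⟩ := groupFS_isConj_iff.mp hQ
    have h1 : SylIn p (Cfsg.FusionSystem.centralizerIn (S : Subgroup G) P)
      (Subgroup.centralizer (P : Set G)) := h
    rw [(sylIn_iff_card (hle _)).mp h1]
    have h2 := card_le_of_isPGroup (p := p) (hle (cj g P)) (hpg _)
    rwa [centralizer_cj, card_cj] at h2

end Cfsg.Agent.S5101
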