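import Cfsg.Statements.S5103
import Cfsg.Agent.Lib.Helper26.Model
import Cfsg.Agent.S5102

set_option autoImplicit false
open Cfsg

namespace Cfsg.Agent.S5103

/-- A fusion system over a finite p-group that has a model (a finite group realizing it on a Sylow p-subgroup with self-centralizing largest normal p-subgroup) is constrained. -/
theorem result {Ω : Type*} [Group Ω] {S : Subgroup Ω} [Finite S] (p : ℕ) [Fact p.Prime] (hS : IsPGroup p S) (F : Cfsg.FusionSystem S) {G : Type*} [Group G] (ι : S →* G) (hG : F.IsModel p G ι) : F.IsConstrained p := by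
  open Cfsg.Agent.Lib.Helper26 Cfsg.FusionSystem in
  obtain ⟨hfin, hreal, ⟨T, hT⟩, hC⟩ := hG
  obtain ⟨θ, h1, h2, d, hiff⟩ := realized_facData hreal hT
  have hsatG := groupFS_saturated T
  have hsat : F.IsSaturated p := factor_saturated T.isPGroup' hsatG d hiff
  have hON : (Cfsg.pCore p G).Normal := Cfsg.Agent.Lib.Helper27.pCore_normal'
  have hnormG : (Cfsg.groupFusionSystem (T : Subgroup G)).IsNormal (Cfsg.pCore p G) :=
    Cfsg.Agent.S5102.result p T (Cfsg.pCore p G) Cfsg.Agent.Lib.Helper27.pCore_isPGroup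
  have hQ := factor_isNormal d hiff hnormG
  refine ⟨hsat, imageAlong θ (Cfsg.pCore p G), hQ, hQ.1, fun Q' hconj => ?_⟩
  obtain ⟨f, hf, rfl⟩ := isConj_iff.mp hconj
  rw [img_eq_of_stronglyClosed (Cfsg.Agent.Lib.Helper27.IsNormal.stronglyClosed hQ) hf le_rfl]
  intro c hc
  refine mem_imageAlong.mpr ⟨toFun₂ ι c, ?_, (h1 c hc.1).1, (h1 c hc.1).2⟩
  apply hC
  rw [Subgroup.mem_centralizer_iff]
  intro y hy
  have hyT : y ∈ (T : Subgroup G) := Cfsg.Agent.Lib.Helper27.pCore_le_sylow T hy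
  have hyQ : toFun₂ θ y ∈ imageAlong θ (Cfsg.pCore p G) := mem_imageAlong.mpr ⟨y, hy, hyT, rfl⟩
  have h3 := Subgroup.mem_centralizer_iff.mp hc.2 _ hyQ
  have h4 := congrArg (toFun₂ ι) h3
  rw [toFun₂_mul ι (h2 y hyT).1 hc.1, toFun₂_mul ι hc.1 (h2 y hyT).1, (h2 y hyT).2] at h4
  exact h4

end Cfsg.Agent.S5103
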