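import Cfsg.Statements.S5104
import Cfsg.Agent.Lib.Helper26.FusionDefs

set_option autoImplicit false
open Cfsg

namespace Cfsg.Agent.S5104

/-- In a saturated fusion system over a finite p-group S, a fully centralized subgroup U with C_S(U) ≤ U is centric. -/
theorem result {Ω : Type*} [Group Ω] {S : Subgroup Ω} [Finite S] (p : ℕ) [Fact p.Prime] (hS : IsPGroup p S) (F : Cfsg.FusionSystem S) (hF : F.IsSaturated p) (U : Subgroup Ω) (hU : F.IsFullyCentralized U) (hC : Cfsg.FusionSystem.centralizerIn S U ≤ U) : F.IsCentric U := by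
  open Cfsg.Agent.Lib.Helper26 in
  obtain ⟨hUS, hmax⟩ := hU
  refine ⟨hUS, fun Q hQ => ?_⟩
  have hcard := hmax Q hQ
  obtain ⟨f, hf, rfl⟩ := isConj_iff.mp hQ
  have hZ : IsMap F (Cfsg.FusionSystem.centralizerIn S U) f := hf.mono hC
  have hle : img (Cfsg.FusionSystem.centralizerIn S U) f ≤
      Cfsg.FusionSystem.centralizerIn S (img U f) := by
    intro y hy
    obtain ⟨z, hz, rfl⟩ := hZ.mem_img.mp hy
    refine ⟨hZ.mem_S hz, ?_⟩
    show f z ∈ Subgroup.centralizer ((img U f : Subgroup Ω) : Set Ω)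
    rw [Subgroup.mem_centralizer_iff]
    intro q hq
    obtain ⟨x, hx, rfl⟩ := hf.mem_img.mp hq
    rw [← hf.map_mul hx (hC hz), ← hf.map_mul (hC hz) hx]
    congr 1
    exact (Subgroup.mem_centralizer_iff.mp hz.2) x hx
  have hfin : Finite (Cfsg.FusionSystem.centralizerIn S (img U f)) := finite_of_le inf_le_left
  have heq := Subgroup.eq_of_le_of_card_ge hle (by rw [hZ.card_img]; exact hcard)
  rw [← heq]
  exact img_mono hC

end Cfsg.Agent.S5104
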