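import Cfsg.Statements.S5105
import Cfsg.Agent.Lib.Helper27.GroupLemmas

set_option autoImplicit false
open Cfsg

namespace Cfsg.Agent.S5105

/-- Averaging argument: an automorphism of a finite group `G` fixing a Sylow `p`-subgroup `T`
pointwise, such that `ψ g * g⁻¹` always lies in an abelian normal `p`-subgroup `C ≤ T`, is
conjugation by an element of `C`. -/
theorem aut_eq_conj_of_fix_sylow {G : Type*} [Group G] [Finite G] {p : ℕ} [Fact p.Prime]
    (T : Sylow p G) (C : Subgroup G) [hCn : C.Normal] (hCT : C ≤ (T : Subgroup G))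
    (hCc : ∀ x ∈ C, ∀ y ∈ C, x * y = y * x) (ψ : G ≃* G)
    (hψ : ∀ t ∈ (T : Subgroup G), ψ t = t) (hd : ∀ g : G, ψ g * g⁻¹ ∈ C) :
    ∃ v ∈ C, ∀ g : G, ψ g = v * g * v⁻¹ := by
  classical
  let _ : CommGroup C := { (inferInstance : Group C) with
    mul_comm := fun x y => Subtype.ext (hCc x x.2 y y.2) }
  have : Fintype (G ⧸ (T : Subgroup G)) := Fintype.ofFinite _
  let d : G → C := fun g => ⟨ψ g * g⁻¹, hd g⟩
  let κ : G → (C →* C) := fun h => MonoidHom.mk' (fun x => ⟨h * x * h⁻¹, hCn.conj_mem x x.2 h⟩)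
    (fun x y => Subtype.ext (by simp [mul_assoc]))
  have hdT : ∀ (g : G) (t : (T : Subgroup G)), d (g * t) = d g := by
    intro g t
    apply Subtype.ext
    show ψ (g * t) * (g * t)⁻¹ = ψ g * g⁻¹
    rw [map_mul, hψ t t.2]
    group
  have hdmul : ∀ h g : G, d (h * g) = d h * κ h (d g) := by
    intro h g
    apply Subtype.ext
    show ψ (h * g) * (h * g)⁻¹ = (ψ h * h⁻¹) * (h * (ψ g * g⁻¹) * h⁻¹)
    rw [map_mul]
    group
  let w : C := ∏ q : G ⧸ (T : Subgroup G), d q.out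
  set n := Nat.card (G ⧸ (T : Subgroup G)) with hn
  have hkey : ∀ h : G, w = d h ^ n * κ h w := by
    intro h
    have h1 : ∏ q : G ⧸ (T : Subgroup G), d ((h • q).out) = w :=
      Equiv.prod_comp (MulAction.toPerm h) (fun q : G ⧸ (T : Subgroup G) => d q.out)
    have h2 : ∀ q : G ⧸ (T : Subgroup G), d ((h • q).out) = d h * κ h (d q.out) := by
      intro q
      have e : h • q = QuotientGroup.mk (h * q.out) := by
        conv_lhs => rw [← QuotientGroup.out_eq' q]
        rfl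
      obtain ⟨t, ht⟩ := QuotientGroup.mk_out_eq_mul (T : Subgroup G) (h * q.out)
      rw [e, ht, hdT, hdmul]
    calc w = ∏ q : G ⧸ (T : Subgroup G), d ((h • q).out) := h1.symm
      _ = ∏ q : G ⧸ (T : Subgroup G), (d h * κ h (d q.out)) := Finset.prod_congr rfl (fun q _ => h2 q)
      _ = d h ^ n * κ h w := by
        rw [Finset.prod_mul_distrib, Finset.prod_const, ← map_prod, Finset.card_univ, hn,
          Nat.card_eq_fintype_card]
  -- invert n modulo the order of C
  have hCp : IsPGroup p C := T.2.to_le hCT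
  obtain ⟨c, hc⟩ := IsPGroup.iff_card.mp hCp
  have hnp : Nat.Coprime n (p ^ c) := by
    apply Nat.Coprime.pow_right
    rw [Nat.coprime_comm, Nat.Prime.coprime_iff_not_dvd Fact.out]
    exact T.not_dvd_index
  obtain ⟨m, -, hm⟩ := Nat.exists_mul_mod_eq_of_coprime 1 hnp (pow_pos (Fact.out : p.Prime).pos c).ne'
  have hpow : ∀ x : C, x ^ (n * m) = x := by
    intro x
    have hx : x ^ p ^ c = 1 := by rw [← hc]; exact pow_card_eq_one'
    rw [pow_eq_pow_mod _ hx, hm, ← pow_eq_pow_mod _ hx, pow_one]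
  refine ⟨(w ^ m : C), (w ^ m : C).2, fun h => ?_⟩
  have h3 : d h = w ^ m * (κ h (w ^ m))⁻¹ := by
    have h4 : w ^ m = d h * κ h (w ^ m) := by
      conv_lhs => rw [hkey h]
      rw [mul_pow, ← pow_mul, hpow, map_pow]
    exact eq_mul_inv_of_mul_eq h4.symm
  have h5 := congrArg Subtype.val h3
  have h6 : ψ h * h⁻¹ = (w ^ m : C) * (h * (w ^ m : C) * h⁻¹)⁻¹ := h5
  calc ψ h = (ψ h * h⁻¹) * h := by group
    _ = ((w ^ m : C) * (h * (w ^ m : C) * h⁻¹)⁻¹) * h := by rw [h6]
    _ = _ := by group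


/-- Model Theorem, rigidity: if G is a model of a constrained fusion system over a finite p-group S (through ι : S → G), then every automorphism of G fixing ι(S) elementwise is conjugation by ι(z) for some z in the centre of S. -/
theorem result {Ω : Type*} [Group Ω] {S : Subgroup Ω} [Finite S] (p : ℕ) [Fact p.Prime] (hS : IsPGroup p S) (F : Cfsg.FusionSystem S) (hF : F.IsConstrained p) {G : Type*} [Group G] (ι : S →* G) (hG : F.IsModel p G ι) (ψ : G ≃* G) (hψ : ∀ x : S, ψ (ι x) = ι x) : ∃ z : S, z ∈ Subgroup.center S ∧ ∀ g : G, ψ g = ι z * g * (ι z)⁻¹ := by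
  obtain ⟨hfin, ⟨hinj, -⟩, ⟨T, hT⟩, hC⟩ := hG
  have hUn : (Cfsg.pCore p G).Normal := Cfsg.Agent.Lib.Helper27.pCore_normal'
  have hUT : Cfsg.pCore p G ≤ (T : Subgroup G) := Cfsg.Agent.Lib.Helper27.pCore_le_sylow T
  have hψT : ∀ t ∈ (T : Subgroup G), ψ t = t := by
    intro t ht
    rw [hT] at ht
    obtain ⟨x, rfl⟩ := ht
    exact hψ x
  have hCn : (Subgroup.centralizer ((Cfsg.pCore p G : Subgroup G) : Set G)).Normal := inferInstance
  obtain ⟨v, hv, hvψ⟩ := aut_eq_conj_of_fix_sylow T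
    (Subgroup.centralizer ((Cfsg.pCore p G : Subgroup G) : Set G)) (hC.trans hUT)
    (fun x hx y hy => (Subgroup.mem_centralizer_iff.mp hy x (hC hx)))
    ψ hψT (by
      intro g
      have key : g⁻¹ * ψ g ∈ Subgroup.centralizer ((Cfsg.pCore p G : Subgroup G) : Set G) := by
        rw [Subgroup.mem_centralizer_iff]
        intro u hu
        have h1 : ψ (g * u * g⁻¹) = g * u * g⁻¹ := hψT _ (hUT (hUn.conj_mem u hu g))
        rw [map_mul, map_mul, map_inv, hψT u (hUT hu)] at h1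
        calc u * (g⁻¹ * ψ g) = g⁻¹ * (g * u * g⁻¹) * ψ g := by group
          _ = g⁻¹ * (ψ g * u * (ψ g)⁻¹) * ψ g := by rw [h1]
          _ = g⁻¹ * ψ g * u := by group
      have := hCn.conj_mem _ key g
      have e : g * (g⁻¹ * ψ g) * g⁻¹ = ψ g * g⁻¹ := by group
      rwa [e] at this)
  have hvT : v ∈ ι.range := by rw [← hT]; exact hUT (hC hv)
  obtain ⟨z, rfl⟩ := hvT
  refine ⟨z, ?_, hvψ⟩
  rw [Subgroup.mem_center_iff]
  intro s
  apply hinj
  have h1 := hvψ (ι s)
  rw [hψ s] at h1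
  rw [map_mul, map_mul]
  calc ι s * ι z = (ι z * ι s * (ι z)⁻¹) * ι z := by rw [← h1]
    _ = ι z * ι s := by group

end Cfsg.Agent.S5105
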