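import Cfsg.Statements.S5106
import Cfsg.Agent.Lib.Helper26.Chain

set_option autoImplicit false
open Cfsg

namespace Cfsg.Agent.S5106

/-- In a saturated fusion system over a finite p-group S, a subgroup R ≤ S is normal in the system if and only if every map of the system whose source is a subgroup of R is the restriction of an element of Aut_F(R). -/
theorem result {Ω : Type*} [Group Ω] {S : Subgroup Ω} [Finite S] (p : ℕ) [Fact p.Prime] (hS : IsPGroup p S) (F : Cfsg.FusionSystem S) (hF : F.IsSaturated p) (R : Subgroup Ω) (hRS : R ≤ S) : F.IsNormal R ↔ ∀ (P : Subgroup Ω) (hPR : P ≤ R) (φ : P →* Ω), φ ∈ F.Hom P → ∃ α ∈ F.autGroup R, ∀ x : P, ((α (Subgroup.inclusion hPR x) : R) : Ω) = φ x := by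
  open Cfsg.Agent.Lib.Helper26 in
  constructor
  · intro h P hPR φ hφ
    obtain ⟨g, hg, hgf, hgR⟩ := (isNormal_iff.mp h).2 P _ (isMap_toFun hφ)
    rw [sup_eq_right.mpr hPR] at hg
    obtain ⟨α, hα, hαg⟩ := hg.exists_aut hgR
    refine ⟨α, hα, fun x => ?_⟩
    rw [hαg]
    show g (x : Ω) = _
    rw [hgf x x.2, toFun_apply]
  · intro h
    have : Finite R := finite_of_le hRS
    obtain ⟨n, hn⟩ := exists_ucs_eq (hS.to_le hRS)
    have key := isNormal_of_chain_bot hS hF n (ucs R) (ucs_zero R)
      (by
        intro j _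
        refine ⟨(ucs_le R _).trans hRS, fun T hT φ hφ x => ?_⟩
        obtain ⟨α, -, hα⟩ := h T (hT.trans (ucs_le R _)) φ hφ
        rw [← hα x]
        have hchar := (Subgroup.characteristic_iff_map_eq.mp (ucs_char R (j + 1))) α
        have h1 : α (Subgroup.inclusion (hT.trans (ucs_le R _)) x) ∈
            ((ucs R (j + 1)).subgroupOf R).map α.toMonoidHom :=
          ⟨_, Subgroup.mem_subgroupOf.mpr (hT x.2), rfl⟩
        rw [hchar] at h1
        exact Subgroup.mem_subgroupOf.mp h1)
      (by
        intro j _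
        rw [hn]
        exact ucs_comm R j)
    rwa [hn] at key

end Cfsg.Agent.S5106
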