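import Cfsg.Statements.S5107
import Cfsg.Agent.Lib.Helper26.Chain

set_option autoImplicit false
open Cfsg

namespace Cfsg.Agent.S5107

/-- If a Sylow p-subgroup S of a finite group G has nilpotency class at most two and its centre is strongly closed in S with respect to G, then every map of the fusion system of G on S is conjugation by an element of N_G(S), and S is the largest subgroup normal in that fusion system. -/
theorem result {G : Type*} [Group G] [Finite G] (p : ℕ) [Fact p.Prime] (S : Sylow p G) (hcl : ⁅(S : Subgroup G), (S : Subgroup G)⁆ ≤ (S : Subgroup G) ⊓ Subgroup.centralizer ((S : Subgroup G) : Set G)) (hZ : Cfsg.IsStronglyClosed ((S : Subgroup G) ⊓ Subgroup.centralizer ((S : Subgroup G) : Set G)) (S : Subgroup G)) : (∀ (P : Subgroup G) (φ : P →* G), φ ∈ (Cfsg.groupFusionSystem (S : Subgroup G)).Hom P → ∃ g ∈ Subgroup.normalizer ((S : Subgroup G) : Set G), ∀ x : P, φ x = g * (x : G) * g⁻¹) ∧ (Cfsg.groupFusionSystem (S : Subgroup G)).core = S := by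
  open Cfsg.Agent.Lib.Helper26 in
  set F := Cfsg.groupFusionSystem (S : Subgroup G) with hFdef
  have hF : F.IsSaturated p := groupFS_saturated S
  have hS : IsPGroup p (S : Subgroup G) := S.isPGroup'
  set Z := (S : Subgroup G) ⊓ Subgroup.centralizer ((S : Subgroup G) : Set G) with hZdef
  have hN : F.IsNormal (S : Subgroup G) := by
    have key := isNormal_of_chain_bot hS hF 2
      (fun j => if j = 0 then ⊥ else if j = 1 then Z else (S : Subgroup G)) (by simp)
      (by
        intro j hj
        have : j = 0 ∨ j = 1 := by omega
        rcases this with rfl | rfl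
        · simp only [zero_add, one_ne_zero, if_false, if_true]
          refine ⟨hZ.1, ?_⟩
          rintro R hR φ ⟨-, hφS, g, hg⟩ x
          have h1 := hφS x
          rw [hg] at h1 ⊢
          exact hZ.2 x (hR x.2) g h1
        · simp only [Nat.reduceAdd, OfNat.ofNat_ne_zero, OfNat.ofNat_ne_one, if_false]
          exact ⟨le_rfl, fun R _ φ hφ x => (F.le_of_mem hφ).2 x⟩)
      (by
        intro j hj
        have : j = 0 ∨ j = 1 := by omega
        rcases this with rfl | rfl
        · simp only [zero_add, one_ne_zero, if_false, if_true, OfNat.ofNat_ne_zero,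
            OfNat.ofNat_ne_one]
          rw [Subgroup.commutator_le]
          intro a ha b hb
          rw [Subgroup.mem_bot, commutatorElement_eq_one_iff_mul_comm]
          exact (Subgroup.mem_centralizer_iff.mp hb.2) a ha
        · simp only [Nat.reduceAdd, OfNat.ofNat_ne_zero, OfNat.ofNat_ne_one, if_false, one_ne_zero,
            if_true]
          exact hcl)
    simpa using key
  refine ⟨fun P φ hφ => ?_, ?_⟩
  · obtain ⟨ψ, ⟨-, -, g, hg⟩, h1, h2⟩ := hN.2 P φ hφ
    refine ⟨g, ?_, fun x => ?_⟩
    · rw [Cfsg.Agent.Lib.Helper27.map_subgroupOf_eq_iff le_sup_right] at h2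
      rw [Subgroup.mem_normalizer_iff]
      intro y
      constructor
      · intro hy
        have := h2.1 ⟨y, hy⟩
        rw [hg] at this
        exact this
      · intro hy
        obtain ⟨x, hx⟩ := h2.2 _ hy
        rw [hg] at hx
        have h3 : ((Subgroup.inclusion (le_sup_right : (S : Subgroup G) ≤ P ⊔ S) x :
          ↥(P ⊔ (S : Subgroup G))) : G) = y := mul_left_cancel (mul_right_cancel hx)
        rw [← h3]
        exact x.2
    · rw [← h1, hg]
      rfl
  · apply le_antisymm
    · exact sSup_le (fun Q hQ => hQ.1)
    · exact le_sSup hN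

end Cfsg.Agent.S5107
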