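import Cfsg.Statements.S5111
import Cfsg.Agent.Lib.Helper26.FactorTools
import Cfsg.Agent.Lib.Helper26.Invariant
import Cfsg.Agent.Lib.Helper26.AlperinTools
import Cfsg.Agent.Lib.Helper17.Syl

set_option autoImplicit false
open Cfsg

namespace Cfsg.Agent.S5111

open Cfsg.Agent.Lib.Helper26 in
/-- a `p`-subgroup that is not Sylow is properly normalized by a `p`-element -/
lemma exists_normalizing_pElement {G : Type*} [Group G] [Finite G] {p : ℕ} [Fact p.Prime]
    {H A : Subgroup G} (hHA : H ≤ A) (hH : IsPGroup p H) (hns : ¬ SylIn p H A) :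
    ∃ α ∈ A, α ∉ H ∧ α ∈ Subgroup.normalizer (H : Set G) ∧ ∃ b : ℕ, α ^ p ^ b = 1 := by
  have hH' : IsPGroup p (H.subgroupOf A) := hH.of_equiv (Subgroup.subgroupOfEquivOfLe hHA).symm
  obtain ⟨R, hR⟩ := hH'.exists_le_sylow
  have hRp : IsPGroup p ((R : Subgroup A).map A.subtype) := R.2.map _
  have hle : H ≤ (R : Subgroup A).map A.subtype := by
    intro x hx
    exact ⟨⟨x, hHA hx⟩, hR (Subgroup.mem_subgroupOf.mpr hx), rfl⟩
  have hne : H ≠ (R : Subgroup A).map A.subtype := by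
    intro e
    apply hns
    refine ⟨R, ?_⟩
    ext x
    rw [Subgroup.mem_subgroupOf, e]
    constructor
    · intro hx; exact ⟨x, hx, rfl⟩
    · rintro ⟨y, hy, hyx⟩
      have : y = x := Subtype.ext hyx
      rwa [← this]
  obtain ⟨x, hxR, hxN, hxH⟩ := Cfsg.Agent.Lib.Helper17.pgroup_normalizer_grow hRp
    (lt_of_le_of_ne hle hne)
  obtain ⟨b, hb⟩ := hRp ⟨x, hxR⟩
  have hb' : x ^ p ^ b = 1 := congrArg Subtype.val hb
  have hxA : x ∈ A := by
    obtain ⟨y, -, rfl⟩ := hxR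
    exact y.2
  exact ⟨x, hxA, hxH, hxN, b, hb'⟩

/-- the `p`-part trick -/
lemma exists_pow_pElement {G : Type*} [Group G] [Finite G] {p : ℕ} [hp : Fact p.Prime] (β : G)
    (b : ℕ) : ∃ k a : ℕ, (β ^ k) ^ p ^ a = 1 ∧ k % p ^ b = 1 % p ^ b := by
  obtain ⟨a, m, hm, hn⟩ := Nat.exists_eq_pow_mul_and_not_dvd (orderOf_pos β).ne' p
    hp.out.ne_one
  have hcop : Nat.Coprime m (p ^ b) :=
    Nat.Coprime.pow_right b ((Nat.Prime.coprime_iff_not_dvd hp.out).mpr hm).symm
  obtain ⟨m', -, hm'⟩ := Nat.exists_mul_mod_eq_of_coprime 1 hcop (pow_pos hp.out.pos b).ne'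
  refine ⟨m * m', a, ?_, hm'⟩
  rw [← pow_mul, show m * m' * p ^ a = (p ^ a * m) * m' by ring, pow_mul, ← hn, pow_orderOf_eq_one,
    one_pow]

open Cfsg.Agent.Lib.Helper26 Cfsg.FusionSystem in
theorem automized_of_receptive {Ω : Type*} [Group Ω] {S : Subgroup Ω} [Finite S] {p : ℕ}
    [Fact p.Prime] (hS : IsPGroup p S) (F : Cfsg.FusionSystem S) (hA : F.IsFullyAutomized p S)
    (hR : ∀ P : Subgroup Ω, F.IsFullyNormalized P → F.IsReceptive P) :
    ∀ n : ℕ, ∀ Q : Subgroup Ω, Nat.card S - Nat.card Q = n → F.IsFullyNormalized Q →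
      F.IsFullyAutomized p Q := by
  intro n
  induction n using Nat.strong_induction_on with
  | _ n ih =>
    intro Q hn hQn
    have hQS := hQn.1
    by_cases hQeq : Q = S
    · rw [hQeq]; exact hA
    refine ⟨hQS, ?_⟩
    by_contra hns
    have hfinQ : Finite Q := finite_of_le hQS
    have hHA : Cfsg.autInducedBy S Q ≤ F.autGroup Q :=
      Cfsg.Agent.Lib.Helper27.autInducedBy_le_autGroup F hQS
    obtain ⟨α, hαA, hαH, hαN, b, hαb⟩ := exists_normalizing_pElement hHA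
      (Cfsg.Agent.Lib.Helper27.autInducedBy_isPGroup hS Q) hns
    set N := normalizerIn S Q with hN
    have hNS : N ≤ S := inf_le_left
    have hfinN : Finite N := finite_of_le hNS
    have hQN : Q ≤ N := fun x hx => ⟨hQS hx, Subgroup.le_normalizer hx⟩
    have hαm : IsMap F Q (autFun α) := (mem_autGroup_iff hQS).mp hαA
    obtain ⟨β₀, hβ₀, hβ₀α⟩ := exists_ext_of_receptive (hR Q hQn) hαm (img_autFun α) hQN (by
      intro g hg
      refine ⟨hg.1, hg.2, ?_⟩
      have h1 : Cfsg.Agent.Lib.Helper27.conjAut Q g hg.2 ∈ Cfsg.autInducedBy S Q :=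
        Cfsg.Agent.Lib.Helper27.conjAut_mem_autInducedBy hg.1 hg.2
      have h2 := (Subgroup.mem_normalizer_iff.mp hαN _).mp h1
      obtain ⟨h, hh, hh2⟩ := mem_autInducedBy_iff.mp h2
      refine ⟨h, hh, fun x hx => ?_⟩
      have h3 := hh2 (α ⟨x, hx⟩)
      rw [autFun_of_mem α hx, ← h3]
      have hgx : g * x * g⁻¹ ∈ Q := (Subgroup.mem_normalizer_iff.mp hg.2 x).mp hx
      rw [autFun_of_mem α hgx]
      show _ = ((α (Cfsg.Agent.Lib.Helper27.conjAut Q g hg.2 (α⁻¹ (α ⟨x, hx⟩))) : Q) : Ω)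
      rw [MulAut.inv_apply_self]
      rfl)
    have hβ₀img : img N β₀ = N := by
      apply img_eq_of_le_of_finite hβ₀
      intro y hy
      obtain ⟨g, hg, rfl⟩ := hβ₀.mem_img.mp hy
      refine ⟨hβ₀.mem_S hg, mem_normalizer_of_conj_mem (fun y hy => ?_)⟩
      have hx : autFun α⁻¹ y ∈ Q := autFun_mem _ hy
      have e : y = β₀ (autFun α⁻¹ y) := by rw [hβ₀α _ hx, autFun_autFun_inv α hy]
      have hgx : g * autFun α⁻¹ y * g⁻¹ ∈ Q := (Subgroup.mem_normalizer_iff.mp hg.2 _).mp hx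
      rw [e, ← hβ₀.map_inv hg, ← hβ₀.map_mul hg (hQN hx),
        ← hβ₀.map_mul (N.mul_mem hg (hQN hx)) (N.inv_mem hg), hβ₀α _ hgx]
      exact autFun_mem α hgx
    obtain ⟨β, hβ, hββ₀⟩ := hβ₀.exists_aut hβ₀img
    have hβQ : ∀ (k : ℕ) (x : Q), (((β ^ k) ⟨x, hQN x.2⟩ : N) : Ω) = ((α ^ k) x : Q) := by
      intro k
      induction k with
      | zero => intro x; rfl
      | succ k ihk =>
        intro x
        rw [pow_succ, pow_succ, MulAut.mul_apply, MulAut.mul_apply]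
        have e : β ⟨x, hQN x.2⟩ = ⟨(α x : Q), hQN (α x).2⟩ := by
          apply Subtype.ext
          rw [hββ₀]
          show β₀ (x : Ω) = _
          rw [hβ₀α x x.2, autFun_apply]
        rw [e]
        exact ihk (α x)
    obtain ⟨k, a, hka, hkb⟩ := exists_pow_pElement (p := p) β b
    have hαk : α ^ k = α := by
      rw [pow_eq_pow_mod k hαb, hkb, ← pow_eq_pow_mod 1 hαb, pow_one]
    set β₁ := β ^ k with hβ₁
    have hβ₁A : β₁ ∈ F.autGroup N := Subgroup.pow_mem _ hβ k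
    have hβ₁Q : ∀ x : Q, ((β₁ ⟨x, hQN x.2⟩ : N) : Ω) = (α x : Q) := by
      intro x
      rw [hβ₁, hβQ, hαk]
    -- the fully normalized conjugate of N
    obtain ⟨N', hNN', hN'n⟩ := Cfsg.Agent.Lib.Helper27.exists_fullyNormalized_conj F hNS
    have hN'S := hN'n.1
    have hfinN' : Finite N' := finite_of_le hN'S
    obtain ⟨g₀, hg₀, hg₀Q⟩ := Cfsg.Agent.Lib.Helper27.exists_mem_normalizerIn_not_mem hS hQS hQeq
    have hcard : Nat.card Q < Nat.card N :=
      Cfsg.Agent.Lib.Helper27.card_lt_card_of_le_of_not_mem hQN hg₀ hg₀Q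
    have hcardN' : Nat.card N = Nat.card N' := isConj_card_eq hNN'
    have hN'c : Nat.card N' ≤ Nat.card S := Subgroup.card_le_of_le hN'S
    have hN'aut : F.IsFullyAutomized p N' :=
      ih (Nat.card S - Nat.card N') (by omega) N' rfl hN'n
    obtain ⟨e, he⟩ := Cfsg.Agent.Lib.Helper27.exists_iso_of_isConj hNN'
    obtain ⟨γ, hγ, hγB⟩ := Cfsg.Agent.Lib.Helper27.exists_conj_le_of_sylow (p := p)
      (A := F.autGroup N') (H := Cfsg.autInducedBy S N')
      (B := Subgroup.zpowers ((MulAut.congr e) β₁))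
      (by
        rw [Subgroup.zpowers_le]
        exact he.congr_mem_autGroup hβ₁A)
      hN'aut.2 (by
        apply IsPGroup.of_card (n := (Nat.card (Subgroup.zpowers ((MulAut.congr e) β₁))).factorization p)
        rw [Nat.card_zpowers]
        have h1 : orderOf ((MulAut.congr e) β₁) ∣ p ^ a := by
          apply orderOf_dvd_of_pow_eq_one
          rw [← map_pow, hka, map_one]
        obtain ⟨j, -, hj⟩ := (Nat.dvd_prime_pow Fact.out).mp h1
        rw [hj, Nat.Prime.factorization_pow Fact.out]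
        simp)
    obtain ⟨s, hsS, hs⟩ := mem_autInducedBy_iff.mp (hγB _ (Subgroup.mem_zpowers _))
    have he' : Cfsg.Agent.Lib.Helper27.IsIso F (e.trans γ) :=
      he.trans ((Cfsg.Agent.Lib.Helper27.mem_autGroup_iff_isIso F hN'S γ).mp hγ)
    have hrel : ∀ x : N, ((γ (e (β₁ x)) : N') : Ω) = s * (γ (e x) : N') * s⁻¹ := by
      intro x
      have := hs (γ (e x))
      rw [← this]
      show _ = ((γ (e (β₁ (e.symm (γ⁻¹ (γ (e x)))))) : N') : Ω)
      rw [MulAut.inv_apply_self, MulEquiv.symm_apply_apply]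
    have hm : IsMap F N (toFun (N'.subtype.comp (e.trans γ).toMonoidHom)) := isMap_toFun he'
    set r := toFun (N'.subtype.comp (e.trans γ).toMonoidHom) with hr
    have hrx : ∀ x : N, r x = ((γ (e x) : N') : Ω) := fun x => toFun_apply _ x
    have hrimg : img N r = N' := by
      ext y
      rw [hm.mem_img]
      constructor
      · rintro ⟨x, hx, rfl⟩
        rw [hrx ⟨x, hx⟩]; exact (γ (e ⟨x, hx⟩)).2
      · intro hy
        refine ⟨(e.symm (γ⁻¹ ⟨y, hy⟩) : N), (e.symm (γ⁻¹ ⟨y, hy⟩) : N).2, ?_⟩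
        rw [hrx, MulEquiv.apply_symm_apply, MulAut.apply_inv_self]
    have hmQ := hm.mono hQN
    have hQ'S : img Q r ≤ S := hmQ.img_le
    have hfinQ' : Finite (img Q r) := finite_of_le hQ'S
    have hconj : F.IsConj Q (img Q r) := isConj_iff.mpr ⟨r, hmQ, rfl⟩
    have hN'le : N' ≤ normalizerIn S (img Q r) := by
      intro y hy
      refine ⟨hN'S hy, mem_normalizer_of_conj_mem (fun z hz => ?_)⟩
      rw [← hrimg] at hy
      obtain ⟨g, hg, rfl⟩ := hm.mem_img.mp hy
      obtain ⟨x, hx, rfl⟩ := hmQ.mem_img.mp hz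
      rw [← hm.map_inv hg, ← hm.map_mul hg (hQN hx), ← hm.map_mul (N.mul_mem hg (hQN hx))
        (N.inv_mem hg)]
      exact mem_img_of_mem ((Subgroup.mem_normalizer_iff.mp hg.2 x).mp hx)
    have hsN : s ∈ normalizerIn S (img Q r) := by
      refine ⟨hsS, mem_normalizer_of_conj_mem (fun z hz => ?_)⟩
      obtain ⟨x, hx, rfl⟩ := hmQ.mem_img.mp hz
      rw [hrx ⟨x, hQN hx⟩, ← hrel, ← hrx, hβ₁Q ⟨x, hx⟩]
      exact mem_img_of_mem (α ⟨x, hx⟩).2
    have hfinNQ' : Finite (normalizerIn S (img Q r)) := finite_of_le inf_le_left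
    have hEq : N' = normalizerIn S (img Q r) :=
      Subgroup.eq_of_le_of_card_ge hN'le (by rw [← hcardN']; exact hQn.2 _ hconj)
    rw [← hEq, ← hrimg] at hsN
    obtain ⟨m, hmN, hms⟩ := hm.mem_img.mp hsN
    apply hαH
    refine mem_autInducedBy_iff.mpr ⟨m, hNS hmN, fun x => ?_⟩
    apply hm.inj (hQN (α x).2) (N.mul_mem (N.mul_mem hmN (hQN x.2)) (N.inv_mem hmN))
    rw [hm.map_mul (N.mul_mem hmN (hQN x.2)) (N.inv_mem hmN), hm.map_mul hmN (hQN x.2),
      hm.map_inv hmN, hms, ← hβ₁Q x, hrx, hrel, hrx ⟨x, hQN x.2⟩]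


/-- A fusion system over a finite p-group S is saturated if and only if the inner automorphisms of S form a Sylow p-subgroup of Aut_F(S) and every fully normalized subgroup of S is receptive. -/
theorem result {Ω : Type*} [Group Ω] {S : Subgroup Ω} [Finite S] (p : ℕ) [Fact p.Prime] (hS : IsPGroup p S) (F : Cfsg.FusionSystem S) : F.IsSaturated p ↔ (F.IsFullyAutomized p S ∧ ∀ P : Subgroup Ω, F.IsFullyNormalized P → F.IsReceptive P) := by
  constructor
  · intro hF
    exact ⟨(Cfsg.Agent.Lib.Helper27.IsSaturated.fullyNormalized_props hS hF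
      (Cfsg.Agent.Lib.Helper26.fullyNormalized_self F)).2.1,
      fun P hP => (Cfsg.Agent.Lib.Helper27.IsSaturated.fullyNormalized_props hS hF hP).2.2⟩
  · rintro ⟨hA, hR⟩ P hP
    obtain ⟨Q, hPQ, hQ⟩ := Cfsg.Agent.Lib.Helper27.exists_fullyNormalized_conj F hP
    exact ⟨Q, hPQ, automized_of_receptive hS F hA hR _ Q rfl hQ, hR Q hQ⟩

end Cfsg.Agent.S5111
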