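import Cfsg.Statements.S5114
import Cfsg.Agent.Lib.Helper26.PrimeIndex

set_option autoImplicit false
open Cfsg

namespace Cfsg.Agent.S5114

/-- Let F be a saturated fusion system over a finite p-group S and E a fusion system over S contained in F. If Aut_E(P) contains the subgroup of Aut_F(P) generated by its elements of p-power order for every subgroup P that is centric in F, then the same holds for every subgroup of S (E has index prime to p in F), every map of F with source a subgroup P of S is an element of Aut_F(S) composed with a map of E, and a subgroup is centric in E exactly when it is centric in F. -/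
theorem result {Ω : Type*} [Group Ω] {S : Subgroup Ω} [Finite S] (p : ℕ) [Fact p.Prime] (hS : IsPGroup p S) (F : Cfsg.FusionSystem S) (hF : F.IsSaturated p) (E : Cfsg.FusionSystem S) (hEF : E.IsSubsystemOf F) (h : ∀ P : Subgroup Ω, F.IsCentric P → (Subgroup.closure {α : ↥(F.autGroup P) | ∃ k : ℕ, orderOf α = p ^ k}).map (F.autGroup P).subtype ≤ E.autGroup P) : E.HasPrimeToPIndexIn F p ∧ (∀ (P : Subgroup Ω) (φ : P →* Ω), φ ∈ F.Hom P → ∃ α ∈ F.autGroup S, ∃ φ₀ ∈ E.Hom P, ∀ (x : P) (hx : φ₀ x ∈ S), φ x = ((α ⟨φ₀ x, hx⟩ : S) : Ω)) ∧ ∀ P : Subgroup Ω, E.IsCentric P ↔ F.IsCentric P := by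
  open Cfsg.Agent.Lib.Helper26 Cfsg.FusionSystem in
  have hfr : FratCond E F := fratCond_of_OP hS hF h
  open Cfsg.Agent.Lib.Helper26 Cfsg.FusionSystem in
  refine ⟨⟨hEF, fun P hP => OP_le_of_fratCond hS hF hfr hP⟩, ?_,
    centric_iff_of_fratCond (isSubsystemOf_iff.mp hEF) hfr⟩
  intro P φ hφ
  open Cfsg.Agent.Lib.Helper26 Cfsg.FusionSystem in
  obtain ⟨α, hα, f₀, ⟨φ₀, hφ₀, hf₀⟩, h5⟩ := hfr P (F.le_of_mem hφ).1 _ (isMap_toFun hφ)
  refine ⟨α, hα, φ₀, hφ₀, fun x hx => ?_⟩
  have := h5 x x.2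
  open Cfsg.Agent.Lib.Helper26 Cfsg.FusionSystem in
  rw [toFun_apply, ← hf₀ x, autFun_of_mem α hx] at this
  exact this

end Cfsg.Agent.S5114
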