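import Cfsg.Statements.S5118
import Cfsg.Agent.Lib.Helper26.SubgroupFS

set_option autoImplicit false
open Cfsg

namespace Cfsg.Agent.S5118

/-- For a finite group G with Sylow p-subgroup S and a normal subgroup H, the fusion system of H on S ∩ H is a normal subsystem of the fusion system of G on S. -/
theorem result {G : Type*} [Group G] [Finite G] (p : ℕ) [Fact p.Prime] (S : Sylow p G) (H : Subgroup G) [H.Normal] : (Cfsg.fusionSystemOfSubgroup H ((S : Subgroup G) ⊓ H) inf_le_right).IsNormalIn (Cfsg.groupFusionSystem (S : Subgroup G)) p := by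
  open Cfsg.Agent.Lib.Helper26 Cfsg.FusionSystem in
  have hHn : H.Normal := inferInstance
  set T := (S : Subgroup G) ⊓ H with hT
  set E := Cfsg.fusionSystemOfSubgroup H T inf_le_right with hE
  set F := Cfsg.groupFusionSystem (S : Subgroup G) with hF
  have hSp : IsPGroup p (S : Subgroup G) := S.isPGroup'
  have hsyl : SylIn p T H :=
    SylIn.inf_of_normal le_top (sylIn_top_of_sylow S) le_top
      (by rw [Subgroup.normalizer_eq_top]; )
  have hEs : E.IsSaturated p := subFS_saturated inf_le_right hsyl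
  have hFs : F.IsSaturated p := groupFS_saturated S
  have hsub : E.IsSubsystemOf F := by
    rintro P φ ⟨hP, hφ, g, -, hg⟩
    exact ⟨hP.trans inf_le_left, fun x => (hφ x).1, g, hg⟩
  have hsc : F.StronglyClosed T := by
    refine ⟨inf_le_left, ?_⟩
    rintro R hR φ ⟨-, hφ, g, hg⟩ x
    refine ⟨hφ x, ?_⟩
    rw [hg]
    exact hHn.conj_mem _ (hR x.2).2 g
  have hSI : StrongInvCond E F := by
    intro P Q hPQ hQT f hf hfQ g hg
    obtain ⟨-, hfT, a, ha, hfa⟩ := isMap_subFS.mp hf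
    obtain ⟨-, hgS, b, hgb⟩ := isMap_groupFS.mp hg
    have hrel : ∀ x ∈ P, (b * a * b⁻¹) * g x * (b * a * b⁻¹)⁻¹ = g (f x) := by
      intro x hx
      rw [hgb x (hPQ hx), hgb _ (hfQ x hx), hfa x hx]
      group
    have hgT : ∀ x ∈ Q, g x ∈ T := fun x hx => stronglyClosed_map_mem hsc hg hx (hQT hx)
    refine ⟨fun y => (b * a * b⁻¹) * y * (b * a * b⁻¹)⁻¹, isMap_subFS.mpr ⟨?_, ?_,
      b * a * b⁻¹, hHn.conj_mem a ha b, fun _ _ => rfl⟩, hrel⟩
    · intro y hy
      obtain ⟨x, hx, rfl⟩ := (hg.mono hPQ).mem_img.mp hy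
      exact hgT x (hPQ hx)
    · intro y hy
      obtain ⟨x, hx, rfl⟩ := (hg.mono hPQ).mem_img.mp hy
      rw [hrel x hx]
      exact hgT _ (hfQ x hx)
  refine ⟨⟨hEs, hFs, isInvariantIn_iff.mpr ⟨hsub, hsc, invCond_of_strongInv hsc.1 hSI,
    fratCond_of_strongInv hSp hFs hsub hsc hSI⟩⟩, ?_⟩
  intro α hα
  obtain ⟨-, hαT, h, hh, hαh⟩ := isMap_subFS.mp ((mem_autGroup_iff le_rfl).mp hα)
  set C := centralizerIn (S : Subgroup G) T with hC
  have hhT : ∀ x ∈ T, h * x * h⁻¹ ∈ T := fun x hx => by rw [← hαh x hx]; exact hαT x hx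
  have hhN : h ∈ Subgroup.normalizer (T : Set G) := mem_normalizer_of_conj_mem hhT
  have hSN : (S : Subgroup G) ≤ Subgroup.normalizer (T : Set G) := StronglyClosed_le_normalizer hsc
  have hsylN : SylIn p (normalizerIn (S : Subgroup G) T) (Subgroup.normalizer (T : Set G)) := by
    have e : normalizerIn (S : Subgroup G) T = (S : Subgroup G) := inf_eq_left.mpr hSN
    rw [e]
    exact SylIn.of_le le_top (sylIn_top_of_sylow S) hSN le_top
  have hsylC := sylIn_centralizer_of_normalizer hsylN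
  set CH := H ⊓ Subgroup.centralizer (T : Set G) with hCH
  have hcenN : ∀ n ∈ Subgroup.normalizer (T : Set G), ∀ c ∈ Subgroup.centralizer (T : Set G),
      n * c * n⁻¹ ∈ Subgroup.centralizer (T : Set G) := by
    intro n hn c hc
    exact (Subgroup.mem_normalizer_iff.mp (normalizer_le_normalizer_centralizer T hn) c).mp hc
  have hCCH : C ≤ Subgroup.normalizer (CH : Set G) := by
    intro c hc
    apply mem_normalizer_of_conj_mem
    intro y hy
    exact ⟨hHn.conj_mem y hy.1 c, hcenN c (hSN hc.1) y hy.2⟩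
  have hMle : C ⊔ CH ≤ Subgroup.centralizer (T : Set G) := sup_le inf_le_right inf_le_right
  have hsylM : SylIn p C (C ⊔ CH) := SylIn.of_le inf_le_right hsylC le_sup_left hMle
  have hcjM : cj h C ≤ C ⊔ CH := by
    rintro _ ⟨c, hc, rfl⟩
    have h1 : h * c * h⁻¹ * c⁻¹ ∈ CH := by
      refine ⟨?_, Subgroup.mul_mem _ (hcenN h hhN c hc.2) (Subgroup.inv_mem _ hc.2)⟩
      have := H.mul_mem hh (hHn.conj_mem _ (H.inv_mem hh) c)
      have e : h * (c * h⁻¹ * c⁻¹) = h * c * h⁻¹ * c⁻¹ := by group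
      rwa [e] at this
    have := Subgroup.mul_mem _ (le_sup_right (a := C) h1) (le_sup_left (b := CH) hc)
    rw [inv_mul_cancel_right] at this
    exact this
  obtain ⟨m, hm, hmC⟩ := hsylM.exists_conj_le hcjM ((hSp.to_le inf_le_left).map _)
  have hm' : m ∈ ((C ⊔ CH : Subgroup G) : Set G) := hm
  rw [Subgroup.coe_mul_of_left_le_normalizer_right _ _ hCCH] at hm'
  obtain ⟨c₀, hc₀, y, hy, rfl⟩ := hm'
  rw [cj_cj] at hmC
  set g := y * h with hg
  have hgH : g ∈ H := H.mul_mem hy.1 hh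
  have hgC : ∀ c ∈ C, g * c * g⁻¹ ∈ C := by
    intro c hc
    have h5 : (c₀ * y * h) * c * (c₀ * y * h)⁻¹ ∈ C := hmC (conj_mem_cj hc)
    have h6 := C.mul_mem (C.mul_mem (C.inv_mem hc₀) h5) hc₀
    have e : c₀⁻¹ * ((c₀ * y * h) * c * (c₀ * y * h)⁻¹) * c₀ = g * c * g⁻¹ := by rw [hg]; group
    rwa [e] at h6
  have hgT : ∀ x ∈ T, g * x * g⁻¹ = h * x * h⁻¹ := by
    intro x hx
    have h7 := Subgroup.mem_centralizer_iff.mp hy.2 _ (hhT x hx)
    calc g * x * g⁻¹ = (y * (h * x * h⁻¹)) * y⁻¹ := by rw [hg]; group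
      _ = ((h * x * h⁻¹) * y) * y⁻¹ := by rw [h7]
      _ = h * x * h⁻¹ := by group
  have hTC : T ⊔ C ≤ (S : Subgroup G) := sup_le inf_le_left inf_le_left
  have hgTC : ∀ x ∈ T ⊔ C, g * x * g⁻¹ ∈ T ⊔ C := by
    intro x hx
    have h1 : (T ⊔ C).map (MulAut.conj g).toMonoidHom ≤ T ⊔ C := by
      rw [Subgroup.map_sup]
      refine sup_le ?_ ?_
      · rintro _ ⟨z, hz, rfl⟩
        apply le_sup_left (a := T)
        show g * z * g⁻¹ ∈ T
        rw [hgT z hz]; exact hhT z hz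
      · rintro _ ⟨z, hz, rfl⟩
        exact le_sup_right (b := C) (hgC z hz)
    exact h1 ⟨x, hx, rfl⟩
  have hβm : IsMap F (T ⊔ C) (fun x => g * x * g⁻¹) :=
    isMap_groupFS.mpr ⟨hTC, fun x hx => hTC (hgTC x hx), g, fun _ _ => rfl⟩
  have hβimg : img (T ⊔ C) (fun x => g * x * g⁻¹) = T ⊔ C := by
    apply img_eq_of_le_of_finite hβm
    intro z hz
    obtain ⟨x, hx, rfl⟩ := hβm.mem_img.mp hz
    exact hgTC x hx
  obtain ⟨β, hβ, hβg⟩ := hβm.exists_aut hβimg
  refine ⟨β, hβ, fun x => ?_, fun c hc => ?_⟩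
  · rw [hβg]
    show g * (x : G) * g⁻¹ = _
    rw [hgT x x.2, ← hαh x x.2, autFun_apply]
  · rw [hβg]
    have h8 := C.mul_mem (C.inv_mem hc) (hgC c hc)
    refine ⟨⟨h8.1, ?_⟩, h8.2⟩
    have h9 := H.mul_mem (hHn.conj_mem g hgH (c : G)⁻¹) (H.inv_mem hgH)
    have e : (c : G)⁻¹ * g * (c : G)⁻¹⁻¹ * g⁻¹ = (c : G)⁻¹ * (g * c * g⁻¹) := by group
    rwa [e] at h9

end Cfsg.Agent.S5118
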