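import Cfsg.Statements.S5128
import Cfsg.Agent.Lib.Helper26.ModT

set_option autoImplicit false
open Cfsg

namespace Cfsg.Agent.S5128

/-- In a saturated fusion system over a finite p-group S, the product of two strongly closed subgroups is strongly closed. -/
theorem result {Ω : Type*} [Group Ω] {S : Subgroup Ω} [Finite S] (p : ℕ) [Fact p.Prime] (hS : IsPGroup p S) (F : Cfsg.FusionSystem S) (hF : F.IsSaturated p) (T₁ T₂ : Subgroup Ω) (h₁ : F.StronglyClosed T₁) (h₂ : F.StronglyClosed T₂) : F.StronglyClosed (T₁ ⊔ T₂) := by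
  open Cfsg.Agent.Lib.Helper26 in
  rw [stronglyClosed_iff]
  refine ⟨sup_le h₁.1 h₂.1, fun R hR f hf x hx => ?_⟩
  obtain ⟨g, hg, hgf⟩ := exists_ext_mod hS hF h₁ R f hf
  have hx' : x ∈ T₂ ⊔ T₁ := by rw [sup_comm]; exact hR hx
  obtain ⟨t₂, ht₂, t₁, ht₁, rfl⟩ := mem_sup_of_stronglyClosed h₁ h₂.1 hx'
  have ht₁' : t₁ ∈ R ⊔ T₁ := le_sup_right (b := T₁) ht₁
  have ht₂' : t₂ ∈ R ⊔ T₁ := by
    have := Subgroup.mul_mem _ (le_sup_left (a := R) (b := T₁) hx) (Subgroup.inv_mem _ ht₁')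
    rwa [mul_inv_cancel_right] at this
  have h3 : g (t₂ * t₁) ∈ T₁ ⊔ T₂ := by
    rw [hg.map_mul ht₂' ht₁']
    exact Subgroup.mul_mem _ (le_sup_right (b := T₂) (stronglyClosed_map_mem h₂ hg ht₂' ht₂))
      (le_sup_left (a := T₁) (stronglyClosed_map_mem h₁ hg ht₁' ht₁))
  have h4 := Subgroup.mul_mem _ h3 (le_sup_left (a := T₁) (b := T₂) (T₁.inv_mem (hgf _ hx)))
  have e : g (t₂ * t₁) * ((f (t₂ * t₁))⁻¹ * g (t₂ * t₁))⁻¹ = f (t₂ * t₁) := by group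
  rwa [e] at h4

end Cfsg.Agent.S5128
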