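import Cfsg.Statements.S5130
import Cfsg.Agent.Lib.Helper26.DirectFactor

set_option autoImplicit false
open Cfsg

namespace Cfsg.Agent.S5130

/-- Let F be a saturated fusion system over a finite p-group S that is the direct product of two subgroups S₁ and S₂, each strongly closed in F. Let R be the full subsystem of F over S₁ (all maps of F between subgroups of S₁) and R′ the subsystem over S₁ of those maps that extend to the subgroup generated with S₂ fixing S₂ elementwise. Then R and R′ are saturated, R′ is normal in F and in R, and R is weakly normal in F. -/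
theorem result {Ω : Type*} [Group Ω] {S : Subgroup Ω} [Finite S] (p : ℕ) [Fact p.Prime] (hS : IsPGroup p S) (F : Cfsg.FusionSystem S) (hF : F.IsSaturated p) (S₁ S₂ : Subgroup Ω) (hprod : Cfsg.IsInternalDirectProduct S₁ S₂ S) (h₁ : F.StronglyClosed S₁) (h₂ : F.StronglyClosed S₂) (R R' : Cfsg.FusionSystem S₁) (hR : ∀ P : Subgroup Ω, P ≤ S₁ → R.Hom P = F.Hom P) (hR' : ∀ P : Subgroup Ω, P ≤ S₁ → R'.Hom P = F.centralizerHom S₂ P) : R.IsSaturated p ∧ R'.IsSaturated p ∧ R'.IsNormalIn F p ∧ R'.IsNormalIn R p ∧ R.IsWeaklyNormalIn F p := by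
  open Cfsg.Agent.Lib.Helper26 Cfsg.FusionSystem in
  obtain ⟨hS1, hS2, hcomm, hinf, hsup⟩ := hprod
  have hRm : ∀ P f, P ≤ S₁ → (IsMap R P f ↔ IsMap F P f) := by
    intro P f hP
    unfold IsMap; rw [hR P hP]
  have hD : F.IsCentralizerSystem S₂ (Lib.Helper27.centralizerSystem F S₂ hS2) :=
    Lib.Helper27.isCentralizerSystem_centralizerSystem F S₂ hS2
  generalize Lib.Helper27.centralizerSystem F S₂ hS2 = D at hD
  have hR'D : ∀ P f, P ≤ S₁ → (IsMap R' P f ↔ IsMap D P f) := by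
    intro P f hP; unfold IsMap; rw [hR' P hP, hD P]
  have hS1C : S₁ ≤ centralizerIn S S₂ := fun a ha =>
    ⟨hS1 ha, Subgroup.mem_centralizer_iff.mpr (fun b hb => (hcomm a ha b hb).symm)⟩
  have hR'm : ∀ P f, P ≤ S₁ → (IsMap R' P f ↔ IsMap F P f ∧
      ∃ g, IsMap F (P ⊔ S₂) g ∧ (∀ x ∈ P, g x = f x) ∧ ∀ y ∈ S₂, g y = y) := by
    intro P f hP
    rw [hR'D P f hP, isMap_centralizerSystem hD]
    constructor
    · rintro ⟨h1, -, -, h4⟩; exact ⟨h1, h4⟩
    · rintro ⟨h1, h4⟩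
      exact ⟨h1, hP.trans hS1C, fun x hx => hS1C (stronglyClosed_map_mem h₁ h1 hx (hP hx)), h4⟩
  have hdec := exists_decomp hcomm hsup
  have hS2c : ∀ b ∈ S₂, b ∈ Subgroup.centralizer (S₁ : Set Ω) := fun b hb =>
    Subgroup.mem_centralizer_iff.mpr (fun a ha => hcomm a ha b hb)
  have hRsat : R.IsSaturated p := fullSub_saturated hF h₁ (fun g hg => by
    obtain ⟨a, ha, b, hb, rfl⟩ := hdec g hg
    exact ⟨a, ha, b, hS2c b hb, rfl⟩) hRm
  have hfc : F.IsFullyCentralized S₂ := by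
    refine ⟨hS2, fun Q hQ => ?_⟩
    obtain ⟨f, hf, rfl⟩ := isConj_iff.mp hQ
    rw [img_eq_of_le_of_finite hf (fun y hy => by
      obtain ⟨x, hx, rfl⟩ := hf.mem_img.mp hy
      exact stronglyClosed_map_mem h₂ hf hx hx)]
  have hDsat : D.IsSaturated p := centralizerSystem_saturated hS hF hfc hD
  have hDF : ∀ P f, IsMap D P f → IsMap F P f := fun P f h => ((isMap_centralizerSystem hD).mp h).1
  have hDcl : D.StronglyClosed S₁ := stronglyClosed_iff.mpr ⟨hS1C, fun Q hQ f hf x hx =>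
    stronglyClosed_map_mem h₁ (hDF _ _ hf) hx (hQ hx)⟩
  have hR'sat : R'.IsSaturated p := fullSub_saturated hDsat hDcl (fun g hg => by
    obtain ⟨a, ha, b, hb, rfl⟩ := hdec g hg.1
    exact ⟨a, ha, b, hS2c b hb, rfl⟩) hR'D
  have hinv := directFactor_invCond hF h₁ h₂ hcomm hsup hR'm
  have hfrat := directFactor_fratCond hF h₁ h₂ hcomm hsup hR'm
  have hautR : R.autGroup S₁ = F.autGroup S₁ :=
    autGroup_eq_of_isMap_iff le_rfl hS1 (fun f => hRm S₁ f le_rfl)
  have hR'F : R'.IsSubsystemOf F := isSubsystemOf_iff.mpr (fun P f hf => ((hR'm P f hf.le).mp hf).1)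
  have hR'R : R'.IsSubsystemOf R := isSubsystemOf_iff.mpr (fun P f hf =>
    (hRm P f hf.le).mpr ((hR'm P f hf.le).mp hf).1)
  have hRF : R.IsSubsystemOf F := isSubsystemOf_iff.mpr (fun P f hf => (hRm P f hf.le).mp hf)
  refine ⟨hRsat, hR'sat, ⟨⟨hR'sat, hF, isInvariantIn_iff.mpr ⟨hR'F, h₁, hinv, hfrat⟩⟩, ?_⟩,
    ⟨⟨hR'sat, hRsat, isInvariantIn_iff.mpr ⟨hR'R, stronglyClosed_self R, ?_, ?_⟩⟩, ?_⟩,
    ⟨hRsat, hF, isInvariantIn_iff.mpr ⟨hRF, h₁, ?_, ?_⟩⟩⟩
  · -- extension condition in F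
    intro α hα
    obtain ⟨-, g, hg, hgα, hgid⟩ := (hR'm S₁ _ le_rfl).mp ((mem_autGroup_iff le_rfl).mp hα)
    have e : S₁ ⊔ centralizerIn S S₁ = S₁ ⊔ S₂ := by
      refine le_antisymm ?_ (sup_le_sup_left (fun b hb => ⟨hS2 hb, hS2c b hb⟩) S₁)
      rw [hsup]
      exact sup_le hS1 inf_le_left
    rw [← e] at hg
    have himg : img (S₁ ⊔ centralizerIn S S₁) g = S₁ ⊔ centralizerIn S S₁ :=
      img_eq_of_le_of_finite hg (hg.img_le.trans (by rw [e, hsup]))
    obtain ⟨β, hβ, hβg⟩ := hg.exists_aut himg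
    refine ⟨β, hβ, fun x => ?_, fun c hc => ?_⟩
    · rw [hβg]
      show g x = _
      rw [hgα x x.2, autFun_apply]
    · rw [hβg]
      obtain ⟨a, ha, b, hb, hcab⟩ := hdec c hc.1
      have haZ : a ∈ S₁ ⊓ Subgroup.centralizer (S₁ : Set Ω) := by
        refine ⟨ha, ?_⟩
        have : a = c * b⁻¹ := by rw [hcab]; group
        rw [this]
        exact Subgroup.mul_mem _ hc.2 (Subgroup.inv_mem _ (hS2c b hb))
      have h1 := center_aut_mem α haZ
      have h2 : g c = autFun α a * b := by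
        rw [hcab, hg.map_mul ((le_sup_left : S₁ ≤ _) ha)
          (by rw [e]; exact (le_sup_right : S₂ ≤ _) hb), hgα a ha, hgid b hb]
      have h3 : (c : Ω)⁻¹ * g c = a⁻¹ * autFun α a := by
        rw [h2, hcab]
        have h4 : autFun α a * b = b * autFun α a := hcomm _ (autFun_mem α ha) b hb
        calc (a * b)⁻¹ * (autFun α a * b) = b⁻¹ * a⁻¹ * (b * autFun α a) := by rw [h4]; group
          _ = b⁻¹ * (a⁻¹ * b) * autFun α a := by group
          _ = b⁻¹ * (b * a⁻¹) * autFun α a := by rw [hcomm _ (S₁.inv_mem ha) b hb]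
          _ = a⁻¹ * autFun α a := by group
      rw [h3]; exact h1
  · -- InvCond R' R
    intro P hP f hf α hα
    exact hinv P hP f hf α (hautR ▸ hα)
  · -- FratCond R' R
    intro P hP f hf
    obtain ⟨α, hα, f₀, hf₀, h⟩ := hfrat P hP f ((hRm P f hP).mp hf)
    exact ⟨α, hautR ▸ hα, f₀, hf₀, h⟩
  · -- extension condition in R
    intro α hα
    have hαR : IsMap R S₁ (autFun α) :=
      (isSubsystemOf_iff.mp hR'R) _ _ ((mem_autGroup_iff le_rfl).mp hα)
    have e : S₁ ⊔ centralizerIn S₁ S₁ = S₁ := sup_eq_left.mpr inf_le_left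
    have hαR' : IsMap R (S₁ ⊔ centralizerIn S₁ S₁) (autFun α) := by rw [e]; exact hαR
    have himg : img (S₁ ⊔ centralizerIn S₁ S₁) (autFun α) = S₁ ⊔ centralizerIn S₁ S₁ := by
      rw [e]; exact img_autFun α
    obtain ⟨β, hβ, hβg⟩ := hαR'.exists_aut himg
    refine ⟨β, hβ, fun x => ?_, fun c hc => ?_⟩
    · rw [hβg]
      exact autFun_apply α x
    · rw [hβg]
      exact center_aut_mem α hc
  · -- InvCond R F
    intro P hP f hf α hα
    have hαm := (mem_autGroup_iff hS1).mp hα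
    have hαi := (mem_autGroup_iff hS1).mp (Subgroup.inv_mem _ hα)
    have hle : img P (autFun α) ≤ S₁ := by
      intro y hy
      obtain ⟨x, hx, rfl⟩ := (hαm.mono hP).mem_img.mp hy
      exact autFun_mem α (hP hx)
    have hfF := (hRm P f hP).mp hf
    refine ⟨autFun α ∘ (f ∘ autFun α⁻¹), (hRm _ _ hle).mpr ?_, fun x hx => ?_⟩
    · refine ((hαi.mono hle).comp hfF ?_).comp hαm ?_
      · intro y hy
        obtain ⟨x, hx, rfl⟩ := (hαm.mono hP).mem_img.mp hy
        rw [autFun_inv_autFun α (hP hx)]; exact hx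
      · intro y hy
        obtain ⟨x, hx, rfl⟩ := (hαm.mono hP).mem_img.mp hy
        show f (autFun α⁻¹ (autFun α x)) ∈ S₁
        rw [autFun_inv_autFun α (hP hx)]
        exact stronglyClosed_map_mem h₁ hfF hx (hP hx)
    · show autFun α (f (autFun α⁻¹ (autFun α x))) = _
      rw [autFun_inv_autFun α (hP hx)]
  · -- FratCond R F
    intro P hP f hf
    refine ⟨1, Subgroup.one_mem _, f, (hRm P f hP).mpr hf, fun x hx => ?_⟩
    rw [autFun_one (stronglyClosed_map_mem h₁ hf hx (hP hx))]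

end Cfsg.Agent.S5130
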