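import Cfsg.Statements.S5133
import Cfsg.Agent.Lib.Helper26.FactorSat

set_option autoImplicit false
open Cfsg

namespace Cfsg.Agent.S5133

/-- Let F be a saturated fusion system over a finite p-group S, F' a fusion system over S', and α : S → S' a surjective morphism of fusion systems from F to F' (α maps S onto S' and every map of F' with source P' ≤ S' is induced along α by a map of F on the full preimage of P'). Then F' is saturated. -/
theorem result {Ω : Type*} [Group Ω] {S : Subgroup Ω} [Finite S] (p : ℕ) [Fact p.Prime] (hS : IsPGroup p S) (F : Cfsg.FusionSystem S) (hF : F.IsSaturated p) {Ω' : Type*} [Group Ω'] {S' : Subgroup Ω'} (F' : Cfsg.FusionSystem S') (α : S →* Ω') (hα : F.IsSurjectiveMorphism F' α) : F'.IsSaturated p := by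
  open Cfsg.Agent.Lib.Helper26 Cfsg.FusionSystem in
  obtain ⟨⟨hval, hmor⟩, hrange, hsurj⟩ := hα
  have hmem₀ : ∀ x : Ω, x ∈ (α.ker).map S.subtype ↔ x ∈ S ∧ toFun₂ α x = 1 := by
    intro x
    constructor
    · rintro ⟨y, hy, rfl⟩
      refine ⟨y.2, ?_⟩
      show toFun₂ α (y : Ω) = 1
      rw [toFun₂_apply]; exact hy
    · rintro ⟨hx, hx'⟩
      rw [toFun₂_of_mem α hx] at hx'
      exact ⟨⟨x, hx⟩, hx', rfl⟩
  have d : FacData F ((α.ker).map S.subtype) α S' := by
    refine ⟨⟨fun x hx => ((hmem₀ x).mp hx).1, ?_⟩, fun s => ?_, hrange⟩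
    · intro R hR φ hφ x
      obtain ⟨φ', hφ', hind⟩ := hmor R φ hφ
      obtain ⟨-, h2, -, h4⟩ := inducedAlong_iff.mp hind
      have h5 := h4 x x.2
      rw [((hmem₀ x).mp (hR x.2)).2, (isMap_toFun hφ').map_one, toFun_apply] at h5
      exact (hmem₀ _).mpr ⟨(F.le_of_mem hφ).2 x, h5.symm⟩
    · rw [hmem₀, toFun₂_apply]
      exact ⟨fun h => ⟨s.2, h⟩, fun h => h.2⟩
  refine factor_saturated hS hF d (fun P' f' => ?_)
  constructor
  · rintro ⟨φ', hφ', hf'⟩
    have hP' := (F'.le_of_mem hφ').1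
    exact (facPred d).congr (facMap_toFun_iff.mpr ⟨hP', hsurj P' hP' φ' hφ'⟩)
      (fun x hx => by rw [toFun_of_mem _ hx, hf'])
  · rintro ⟨hP', f, ⟨φ, hφ, hf⟩, h⟩
    obtain ⟨φ'', hφ'', hind⟩ := hmor _ φ hφ
    obtain ⟨-, -, -, h4⟩ := inducedAlong_iff.mp hind
    have hm : IsMap F' _ (toFun φ'') := isMap_toFun hφ''
    generalize toFun φ'' = k at hm h4
    rw [d.image_pre hP'] at hm
    refine hm.congr (fun y hy => ?_)
    obtain ⟨x, hx, rfl⟩ := d.exists_pre' hP' hy
    rw [h4 x hx, h x hx, toFun_of_mem φ hx, hf]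

end Cfsg.Agent.S5133
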