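import Cfsg.Statements.S5164
-- import your own Cfsg.Agent.* helpers here
import Mathlib

set_option autoImplicit false
open Cfsg

namespace Cfsg.Agent.S5164


open scoped commutatorElement Pointwise

theorem comm_of_small {p : ℕ} [Fact p.Prime] {P α : Type*} [Group P] [Finite P] [MulAction P α]
    [Finite α] [FaithfulSMul P α] (hP : IsPGroup p P) (hα : Nat.card α < p ^ 2) (x y : P) :
    x * y = y * x := by
  have hpp : p.Prime := Fact.out
  have key : ∀ a : α, _root_.commutator P ≤ MulAction.stabilizer P a := by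
    intro a
    obtain ⟨k, hk⟩ := hP.card_orbit a
    have hidx : (MulAction.stabilizer P a).index = p ^ k := by
      rw [MulAction.index_stabilizer, ← hk]; rfl
    have hk1 : k ≤ 1 := by
      by_contra h
      have h1 : p ^ 2 ≤ p ^ k := Nat.pow_le_pow_right hpp.pos (by omega)
      have h2 : Nat.card (MulAction.orbit P a) ≤ Nat.card α :=
        Nat.card_le_card_of_injective _ Subtype.val_injective
      omega
    interval_cases k
    · have : MulAction.stabilizer P a = ⊤ := Subgroup.index_eq_one.mp (by simpa using hidx)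
      rw [this]; exact le_top
    · have hidx' : (MulAction.stabilizer P a).index = p := by simpa using hidx
      have hn : (MulAction.stabilizer P a).Normal := by
        apply Subgroup.normal_of_index_eq_minFac_card
        obtain ⟨m, hm⟩ := IsPGroup.iff_card.mp hP
        have hm0 : m ≠ 0 := by
          rintro rfl
          have h1 : (MulAction.stabilizer P a).index ∣ Nat.card P := Subgroup.index_dvd_card _
          rw [hm, hidx'] at h1
          rw [pow_zero] at h1
          have := Nat.le_of_dvd (by norm_num) h1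
          have := hpp.two_le
          omega
        rw [hm, hidx', hpp.pow_minFac hm0]
      haveI := hn
      rw [← Subgroup.Normal.quotient_commutative_iff_commutator_le]
      have hc : Nat.card (P ⧸ MulAction.stabilizer P a) = p := hidx'
      haveI := isCyclic_of_prime_card hc
      exact ⟨⟨fun u v => (IsCyclic.commGroup (α := P ⧸ MulAction.stabilizer P a)).mul_comm u v⟩⟩
  have h1 : ⁅x, y⁆ = 1 := by
    apply FaithfulSMul.eq_of_smul_eq_smul (α := α)
    intro a
    rw [one_smul]
    exact key a (Subgroup.commutator_mem_commutator (Subgroup.mem_top x) (Subgroup.mem_top y))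
  rw [commutatorElement_def] at h1
  have h2 : x * y = (x * y * x⁻¹ * y⁻¹) * (y * x) := by group
  rw [h2, h1, one_mul]

theorem exists_in_sylow {n p : ℕ} [Fact p.Prime] (S : Sylow p (alternatingGroup (Fin n)))
    (σ : Equiv.Perm (Fin n)) (hσ : σ ∈ alternatingGroup (Fin n)) (k : ℕ) (ho : orderOf σ = p ^ k) :
    ∃ τ : alternatingGroup (Fin n), τ ∈ S ∧
      (τ : Equiv.Perm (Fin n)).cycleType = σ.cycleType := by
  set s : alternatingGroup (Fin n) := ⟨σ, hσ⟩ with hsdef
  have hs : orderOf s = p ^ k := by rw [← ho]; exact Subgroup.orderOf_mk σ hσ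
  have hpg : IsPGroup p (Subgroup.zpowers s) :=
    IsPGroup.of_card (n := k) (by rw [Nat.card_zpowers, hs])
  obtain ⟨Q, hQ⟩ := hpg.exists_le_sylow
  obtain ⟨g, hg⟩ := MulAction.exists_smul_eq (alternatingGroup (Fin n)) Q S
  refine ⟨g * s * g⁻¹, ?_, ?_⟩
  · rw [← hg]
    have h1 : s ∈ Q := hQ (Subgroup.mem_zpowers s)
    have h2 : MulAut.conj g • s ∈ MulAut.conj g • (Q : Subgroup (alternatingGroup (Fin n))) :=
      Subgroup.smul_mem_pointwise_smul _ _ _ h1
    exact h2
  · simp [hsdef, Equiv.Perm.cycleType_conj]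

theorem card_dvd {n p : ℕ} [Fact p.Prime] (S : Sylow p (alternatingGroup (Fin n)))
    (hc : IsMulCommutative S) (τ : alternatingGroup (Fin n)) (hτ : τ ∈ S) :
    Nat.card S ∣ Nat.card ((Subgroup.centralizer {(τ : Equiv.Perm (Fin n))} ⊓
      alternatingGroup (Fin n) : Subgroup (Equiv.Perm (Fin n)))) := by
  have h1 : (S : Subgroup (alternatingGroup (Fin n))).map (alternatingGroup (Fin n)).subtype ≤
      Subgroup.centralizer {(τ : Equiv.Perm (Fin n))} ⊓ alternatingGroup (Fin n) := by
    rintro _ ⟨x, hx, rfl⟩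
    refine ⟨?_, x.2⟩
    show (x : Equiv.Perm (Fin n)) ∈ Subgroup.centralizer {(τ : Equiv.Perm (Fin n))}
    rw [Subgroup.mem_centralizer_singleton_iff]
    have h := hc.is_comm.comm ⟨x, hx⟩ ⟨τ, hτ⟩
    have h' : x * τ = τ * x := congrArg Subtype.val h
    exact congrArg Subtype.val h'
  have h2 := Subgroup.card_dvd_of_le h1
  rwa [Subgroup.card_map_of_injective (Subgroup.subtype_injective _)] at h2

open Nat in
theorem card_alt {n : ℕ} (hn : 6 ≤ n) : 2 * Nat.card (alternatingGroup (Fin n)) = n ! := by
  haveI : Nontrivial (Fin n) := Fin.nontrivial_iff_two_le.mpr (by omega)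
  rw [two_mul_nat_card_alternatingGroup, Nat.card_eq_fintype_card, Fintype.card_perm,
    Fintype.card_fin]

open Nat in
theorem odd_case {n p : ℕ} [Fact p.Prime] (hp2 : p ≠ 2) (hn : 6 ≤ n)
    (S : Sylow p (alternatingGroup (Fin n))) (hc : IsMulCommutative S) (hpn : p ^ 2 ≤ n) :
    False := by
  have hpp : p.Prime := Fact.out
  have hodd : Odd p := hpp.odd_of_ne_two hp2
  obtain ⟨σ, hσ⟩ := (Equiv.Perm.exists_with_cycleType_iff (α := Fin n) (m := {p ^ 2})).mpr
    ⟨by simpa using hpn, by
      intro a ha
      simp only [Multiset.mem_singleton] at ha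
      subst ha
      nlinarith [hpp.two_le]⟩
  have hsign : σ ∈ alternatingGroup (Fin n) := by
    rw [Equiv.Perm.mem_alternatingGroup, Equiv.Perm.sign_of_cycleType', hσ]
    simp only [Multiset.map_singleton, Multiset.prod_singleton, (hodd.pow).neg_one_pow, neg_neg]
  have hord : orderOf σ = p ^ 2 := by rw [← Equiv.Perm.lcm_cycleType, hσ]; simp
  obtain ⟨τ, hτS, hτ⟩ := exists_in_sylow S σ hsign 2 hord
  have h1 := card_dvd S hc τ hτS
  have h2 : Nat.card ((Subgroup.centralizer {(τ : Equiv.Perm (Fin n))} ⊓
      alternatingGroup (Fin n) : Subgroup (Equiv.Perm (Fin n)))) ∣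
      Nat.card (Subgroup.centralizer {(τ : Equiv.Perm (Fin n))}) :=
    Subgroup.card_dvd_of_le inf_le_left
  rw [Equiv.Perm.nat_card_centralizer, hτ, hσ] at h2
  simp only [Fintype.card_fin, Multiset.sum_singleton, Multiset.prod_singleton,
    Multiset.toFinset_singleton, Finset.prod_singleton, Multiset.count_singleton_self,
    Nat.factorial_one, mul_one] at h2
  have h3 := h1.trans h2
  rw [Sylow.card_eq_multiplicity, Nat.factorization_def _ hpp] at h3
  have hA := card_alt hn
  have hA0 : Nat.card (alternatingGroup (Fin n)) ≠ 0 := Nat.card_pos.ne'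
  have hv : padicValNat p (n !) = padicValNat p (Nat.card (alternatingGroup (Fin n))) := by
    rw [← hA, padicValNat.mul (by norm_num) hA0]
    haveI : Fact (Nat.Prime 2) := ⟨Nat.prime_two⟩
    rw [padicValNat_primes hp2, zero_add]
  rw [← hv] at h3
  have h4 : padicValNat p (n !) ≤ padicValNat p ((n - p ^ 2)! * p ^ 2) :=
    (padicValNat_dvd_iff_le (mul_ne_zero (Nat.factorial_ne_zero _) (pow_ne_zero _ hpp.ne_zero))).mp h3
  rw [padicValNat.mul (Nat.factorial_ne_zero _) (pow_ne_zero _ hpp.ne_zero),
    padicValNat.prime_pow] at h4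
  have h5 : n ! = Nat.choose n (p ^ 2) * (p ^ 2)! * (n - p ^ 2)! :=
    (Nat.choose_mul_factorial_mul_factorial hpn).symm
  have hch : Nat.choose n (p ^ 2) ≠ 0 := (Nat.choose_pos hpn).ne'
  rw [h5, padicValNat.mul (mul_ne_zero hch (Nat.factorial_ne_zero _)) (Nat.factorial_ne_zero _),
    padicValNat.mul hch (Nat.factorial_ne_zero _), sq, padicValNat_factorial_mul] at h4
  have := hpp.two_le
  omega

open Nat in
theorem two_case {n : ℕ} (hn : 6 ≤ n)
    (S : Sylow 2 (alternatingGroup (Fin n))) (hc : IsMulCommutative S) :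
    False := by
  obtain ⟨σ, hσ⟩ := (Equiv.Perm.exists_with_cycleType_iff (α := Fin n) (m := {4, 2})).mpr
    ⟨by simpa using hn, by
      intro a ha
      simp only [Multiset.insert_eq_cons, Multiset.mem_cons, Multiset.mem_singleton] at ha
      omega⟩
  have hsign : σ ∈ alternatingGroup (Fin n) := by
    rw [Equiv.Perm.mem_alternatingGroup, Equiv.Perm.sign_of_cycleType', hσ]
    decide
  have hord : orderOf σ = 2 ^ 2 := by rw [← Equiv.Perm.lcm_cycleType, hσ]; simp; rfl
  obtain ⟨τ, hτS, hτ⟩ := exists_in_sylow S σ hsign 2 hord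
  have h1 := card_dvd S hc τ hτS
  set H := Subgroup.centralizer {(τ : Equiv.Perm (Fin n))} with hH
  have hnle : ¬ H ≤ alternatingGroup (Fin n) := by
    intro hle
    have := Equiv.Perm.OnCycleFactors.odd_of_centralizer_le_alternatingGroup hle 4
      (by rw [hτ, hσ]; simp)
    exact absurd this (by decide)
  haveI : Nontrivial (Fin n) := Fin.nontrivial_iff_two_le.mpr (by omega)
  have hrel : (alternatingGroup (Fin n)).relIndex H = 2 := by
    have hd : (alternatingGroup (Fin n)).relIndex H ∣ 2 := by
      rw [← alternatingGroup.index_eq_two (α := Fin n)]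
      exact Subgroup.relIndex_dvd_index_of_normal _ _
    rcases (Nat.dvd_prime Nat.prime_two).mp hd with h | h
    · exact absurd (Subgroup.relIndex_eq_one.mp h) hnle
    · exact h
  have h2 : 2 * Nat.card ((H ⊓ alternatingGroup (Fin n) : Subgroup (Equiv.Perm (Fin n)))) =
      Nat.card H := by
    rw [← hrel, ← Subgroup.inf_relIndex_right, inf_comm, ← Subgroup.relIndex_bot_left,
      ← Subgroup.relIndex_bot_left, mul_comm]
    exact Subgroup.relIndex_mul_relIndex _ _ _ bot_le inf_le_left
  rw [hH, Equiv.Perm.nat_card_centralizer, hτ, hσ] at h2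
  have e1 : (({4, 2} : Multiset ℕ)).sum = 6 := by decide
  have e2 : (({4, 2} : Multiset ℕ)).prod = 8 := by decide
  have e3 : (∏ k ∈ (({4, 2} : Multiset ℕ)).toFinset, ((({4, 2} : Multiset ℕ)).count k)!) = 1 := by
    decide
  rw [e1, e2, e3, Fintype.card_fin, mul_one] at h2
  set c := Nat.card ((Subgroup.centralizer {(τ : Equiv.Perm (Fin n))} ⊓
      alternatingGroup (Fin n) : Subgroup (Equiv.Perm (Fin n)))) with hcdef
  have hc4 : c = (n - 6)! * 4 := by omega
  rw [hc4, Sylow.card_eq_multiplicity, Nat.factorization_def _ Nat.prime_two] at h1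
  have hA := card_alt hn
  have hA0 : Nat.card (alternatingGroup (Fin n)) ≠ 0 := Nat.card_pos.ne'
  have hv : padicValNat 2 (n !) = 1 + padicValNat 2 (Nat.card (alternatingGroup (Fin n))) := by
    rw [← hA, padicValNat.mul (by norm_num) hA0, padicValNat_self]
  have h4 : padicValNat 2 (Nat.card (alternatingGroup (Fin n))) ≤ padicValNat 2 ((n - 6)! * 4) :=
    (padicValNat_dvd_iff_le (mul_ne_zero (Nat.factorial_ne_zero _) (by norm_num))).mp h1
  have e4 : padicValNat 2 4 = 2 := by
    have : (4 : ℕ) = 2 ^ 2 := by norm_num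
    rw [this, padicValNat.prime_pow]
  rw [padicValNat.mul (Nat.factorial_ne_zero _) (by norm_num), e4] at h4
  have h5 : n ! = Nat.choose n 6 * (6)! * (n - 6)! :=
    (Nat.choose_mul_factorial_mul_factorial hn).symm
  have hch : Nat.choose n 6 ≠ 0 := (Nat.choose_pos hn).ne'
  have e6 : 4 ≤ padicValNat 2 (6 !) :=
    (padicValNat_dvd_iff_le (Nat.factorial_ne_zero _)).mp (by decide)
  rw [h5, padicValNat.mul (mul_ne_zero hch (Nat.factorial_ne_zero _)) (Nat.factorial_ne_zero _),
    padicValNat.mul hch (Nat.factorial_ne_zero _)] at hv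
  omega

/-- For n ≥ 6 and a prime p, a nontrivial Sylow p-subgroup of the alternating group of degree n is abelian if and only if n < p². -/
theorem result (n p : ℕ) (hn : 6 ≤ n) [Fact p.Prime] (S : Sylow p (alternatingGroup (Fin n))) (hS : (S : Subgroup (alternatingGroup (Fin n))) ≠ ⊥) : IsMulCommutative S ↔ n < p ^ 2 := by
  have hpp : p.Prime := Fact.out
  constructor
  · intro hc
    by_contra hlt
    push_neg at hlt
    by_cases hp2 : p = 2
    · subst hp2
      exact two_case hn S hc
    · exact odd_case hp2 hn S hc hlt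
  · intro hlt
    haveI : FaithfulSMul (S : Subgroup (alternatingGroup (Fin n))) (Fin n) := by
      constructor
      intro x y h
      apply Subtype.ext
      apply Subtype.ext
      ext a
      exact congrArg Fin.val (h a)
    refine ⟨⟨fun x y => ?_⟩⟩
    exact comm_of_small (α := Fin n) S.isPGroup' (by simpa using hlt) x y

end Cfsg.Agent.S5164
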