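import Cfsg.Statements.S5345


set_option autoImplicit false
open Cfsg

namespace Cfsg.Agent.S5345

/-- Let D be a conjugation-invariant generating set of 3-transpositions of a finite group G and T a Sylow 2-subgroup of G. Then the members of D lying in T generate an abelian subgroup, and their number is the width of D (the largest number of pairwise commuting members of D). -/
theorem result {G : Type*} [Group G] [Finite G] {D : Set G} (hD : Cfsg.IsThreeTranspositionGroup D) (T : Sylow 2 G) : IsMulCommutative (Subgroup.closure {d : G | d ∈ D ∧ d ∈ T}) ∧ {d : G | d ∈ D ∧ d ∈ T}.ncard = Cfsg.commutingWidth D := by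
  obtain ⟨⟨hord, hprod⟩, hconj, -⟩ := hD
  have hsq : ∀ d ∈ D, d * d = 1 := by
    intro d hd
    have := pow_orderOf_eq_one d
    rw [hord d hd, pow_two] at this
    exact this
  have hcomm0 : ∀ a ∈ D, ∀ b ∈ D, (a * b) ^ 2 = 1 → a * b = b * a := by
    intro a ha b hb h
    have h1 : a * b * (a * b) = 1 := by rw [← pow_two]; exact h
    calc a * b = a * b * ((a * b) * (b * a)) := by
          have : (a * b) * (b * a) = 1 := by
            calc (a * b) * (b * a) = a * (b * b) * a := by group
              _ = 1 := by rw [hsq b hb, mul_one, hsq a ha]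
          rw [this, mul_one]
      _ = (a * b * (a * b)) * (b * a) := by group
      _ = b * a := by rw [h1, one_mul]
  have hcommT : ∀ x ∈ {d : G | d ∈ D ∧ d ∈ T}, ∀ y ∈ {d : G | d ∈ D ∧ d ∈ T}, x * y = y * x := by
    rintro a ⟨ha, haT⟩ b ⟨hb, hbT⟩
    apply hcomm0 a ha b hb
    rcases hprod a ha b hb with h | h
    · exact h
    · obtain ⟨k, hk⟩ := T.2 ⟨a * b, T.mul_mem haT hbT⟩
      have hk' : (a * b) ^ 2 ^ k = 1 := congrArg Subtype.val hk
      have h2 : orderOf (a * b) ∣ Nat.gcd 3 (2 ^ k) :=
        Nat.dvd_gcd (orderOf_dvd_of_pow_eq_one h) (orderOf_dvd_of_pow_eq_one hk')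
      have hc : Nat.Coprime 3 (2 ^ k) := Nat.Coprime.pow_right _ (by norm_num)
      rw [hc] at h2
      rw [orderOf_eq_one_iff.1 (Nat.dvd_one.1 h2), one_pow]
  refine ⟨Subgroup.isMulCommutative_closure hcommT, ?_⟩
  symm
  apply IsGreatest.csSup_eq
  constructor
  · exact ⟨_, fun d hd => hd.1, Set.toFinite _, fun a ha b hb => hcommT a ha b hb, rfl⟩
  · rintro n ⟨E, hED, hEfin, hEc, rfl⟩
    have hc : IsMulCommutative (Subgroup.closure E) :=
      Subgroup.isMulCommutative_closure (fun a ha b hb => hEc a ha b hb)
    have hsqE : ∀ x ∈ Subgroup.closure E, x * x = 1 := by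
      intro x hx
      induction hx using Subgroup.closure_induction with
      | mem x hx => exact hsq x (hED hx)
      | one => simp
      | mul x y hx hy ihx ihy =>
        have hxy : x * y = y * x :=
          congrArg Subtype.val (mul_comm' (⟨x, hx⟩ : Subgroup.closure E) ⟨y, hy⟩)
        calc x * y * (x * y) = x * (y * x) * y := by group
          _ = x * (x * y) * y := by rw [hxy]
          _ = (x * x) * (y * y) := by group
          _ = 1 := by rw [ihx, ihy, one_mul]
      | inv x hx ih =>
        have : (x * x)⁻¹ = 1 := by rw [ih, inv_one]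
        simpa using this
    have hp : IsPGroup 2 (Subgroup.closure E) := by
      rintro ⟨x, hx⟩
      refine ⟨1, Subtype.ext ?_⟩
      show x ^ 2 ^ 1 = 1
      rw [pow_one, pow_two]
      exact hsqE x hx
    obtain ⟨Q, hQ⟩ := hp.exists_le_sylow
    obtain ⟨g, hg⟩ := MulAction.exists_smul_eq G Q T
    apply Set.ncard_le_ncard_of_injOn (fun e => g * e * g⁻¹) ?_ ?_ (Set.toFinite _)
    · intro e he
      refine ⟨hconj g e (hED he), ?_⟩
      rw [← hg]
      have : e ∈ (Q : Subgroup G) := hQ (Subgroup.subset_closure he)
      have h2 := Subgroup.smul_mem_pointwise_smul e (MulAut.conj g) _ this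
      exact h2
    · intro a _ b _ hab
      exact mul_left_cancel (mul_right_cancel hab)

end Cfsg.Agent.S5345
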