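import Cfsg.Statements.S5347


set_option autoImplicit false
open Cfsg

namespace Cfsg.Agent.S5347

/-- Let D be a conjugation-invariant generating set of 3-transpositions of a finite group G, p a prime bigger than 3, and P a p-subgroup of G. If a member d of D normalizes P then d centralizes P. -/
theorem result {G : Type*} [Group G] [Finite G] {D : Set G} (hD : Cfsg.IsThreeTranspositionGroup D) {p : ℕ} (hp : p.Prime) (hp3 : 3 < p) (P : Subgroup G) (hP : IsPGroup p P) {d : G} (hd : d ∈ D) (hnorm : d ∈ Subgroup.normalizer (P : Set G)) : ∀ x ∈ P, Commute d x := by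
  intro x hx
  obtain ⟨⟨hord, hprod⟩, hconj, -⟩ := hD
  have hd2 : d * d = 1 := by
    have := pow_orderOf_eq_one d
    rw [hord d hd, pow_two] at this
    exact this
  have hdinv : d⁻¹ = d := inv_eq_of_mul_eq_one_left hd2
  set y := d * (x * d * x⁻¹) with hy
  have hyP : y ∈ P := by
    have h1 : d * x * d⁻¹ ∈ P := (Subgroup.mem_normalizer_iff.1 hnorm x).1 hx
    have h2 := P.mul_mem h1 (P.inv_mem hx)
    rw [hdinv] at h2
    have : y = d * x * d * x⁻¹ := by rw [hy]; group
    rw [this]; exact h2
  obtain ⟨k, hk⟩ := hP ⟨y, hyP⟩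
  have hk' : y ^ p ^ k = 1 := congrArg Subtype.val hk
  have hy1 : y = 1 := by
    have hdvd : orderOf y ∣ p ^ k := orderOf_dvd_of_pow_eq_one hk'
    rcases hprod d hd _ (hconj x d hd) with h | h
    · have h2 : orderOf y ∣ 2 := orderOf_dvd_of_pow_eq_one h
      have hc : Nat.Coprime 2 (p ^ k) := by
        apply Nat.Coprime.pow_right
        rw [Nat.coprime_primes Nat.prime_two hp]
        omega
      have := Nat.dvd_gcd h2 hdvd
      rw [hc] at this
      exact orderOf_eq_one_iff.1 (Nat.dvd_one.1 this)
    · have h2 : orderOf y ∣ 3 := orderOf_dvd_of_pow_eq_one h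
      have hc : Nat.Coprime 3 (p ^ k) := by
        apply Nat.Coprime.pow_right
        rw [Nat.coprime_primes Nat.prime_three hp]
        omega
      have := Nat.dvd_gcd h2 hdvd
      rw [hc] at this
      exact orderOf_eq_one_iff.1 (Nat.dvd_one.1 this)
  show d * x = x * d
  have h3 : d * (x * d * x⁻¹) = 1 := hy1
  have h4 : x * d * x⁻¹ = d := by
    have := congrArg (fun t => d * t) h3
    simp only [← mul_assoc, hd2, one_mul, mul_one] at this
    exact this
  calc d * x = (x * d * x⁻¹) * x := by rw [h4]
    _ = x * d := by group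

end Cfsg.Agent.S5347
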