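import Cfsg.Statements.S5349
import Cfsg.Agent.Lib.Helper27.ThreeTrans
open Cfsg.Agent.Lib.Helper27

set_option autoImplicit false
open Cfsg

namespace Cfsg.Agent.S5349

/-- Let D be a conjugacy class of 3-transpositions generating the finite group G, with at least two members, and d a member of D. Then the set of members of D commuting with exactly the same members of D as d coincides with the set of members of D lying in the coset of d modulo the largest normal 2-subgroup of G, and also with the orbit of d under conjugation by that normal 2-subgroup. -/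
theorem result {G : Type*} [Group G] [Finite G] {D : Set G} (hD : Cfsg.IsThreeTranspositionClass D) (hD2 : ∃ a ∈ D, ∃ b ∈ D, a ≠ b) {d : G} (hd : d ∈ D) : {v : G | v ∈ D ∧ ∀ e ∈ D, Commute v e ↔ Commute d e} = {v : G | v ∈ D ∧ d⁻¹ * v ∈ Cfsg.pCore 2 G} ∧ {v : G | v ∈ D ∧ ∀ e ∈ D, Commute v e ↔ Commute d e} = {v : G | ∃ g ∈ Cfsg.pCore 2 G, v = g * d * g⁻¹} := by
  have hset := hD.1
  have hconj : ∀ g : G, ∀ x ∈ D, g * x * g⁻¹ ∈ D := fun g x hx => tt_class_conj_mem hD g hx
  have : Fact (Nat.Prime 2) := ⟨Nat.prime_two⟩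
  have hNn : (Cfsg.pCore 2 G).Normal := pCore_normal'
  have hNp : IsPGroup 2 (Cfsg.pCore 2 G) := pCore_isPGroup
  have hdd := tt_sq hset hd
  have hdi := tt_inv hset hd
  -- V ⊆ second set
  have h1 : ∀ v ∈ D, VEq D v d → d⁻¹ * v ∈ Cfsg.pCore 2 G := by
    intro v hv hvd
    rw [hdi]
    have hcdv : Commute d v := (VEq.commute hd hd hvd (fun _ _ => Iff.rfl)).symm
    have hz : (d * v) * (d * v) = 1 := by
      calc (d * v) * (d * v) = d * (v * d) * v := by group
        _ = d * (d * v) * v := by rw [hcdv.eq]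
        _ = (d * d) * (v * v) := by group
        _ = 1 := by rw [hdd, tt_sq hset hv, one_mul]
    apply mem_pCore_two_of_invol hz
    intro g
    have e0 : g * (d * v) * g⁻¹ = (g * d * g⁻¹) * (g * v * g⁻¹) := by group
    rw [e0]
    set d' := g * d * g⁻¹ with hd'
    set v' := g * v * g⁻¹ with hv'
    have hd'D : d' ∈ D := hconj g d hd
    have hv'D : v' ∈ D := hconj g v hv
    have hv'd' : VEq D v' d' := hvd.conj hconj g
    have a1 := VEq.conj_prod hset hconj hd hd'D hv'D hd hv'd' (fun _ _ => Iff.rfl)
    have a2 := VEq.conj_prod hset hconj hd hd'D hv'D hv hv'd' hvd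
    have m1 : (d' * v') * d * (d' * v')⁻¹ ∈ D := hconj _ d hd
    have m2 : (d' * v') * v * (d' * v')⁻¹ ∈ D := hconj _ v hv
    have e1 : (d' * v') * (d * v) * (d' * v')⁻¹ =
        ((d' * v') * d * (d' * v')⁻¹) * ((d' * v') * v * (d' * v')⁻¹) := by group
    rw [e1]
    have c1 : Commute d ((d' * v') * d * (d' * v')⁻¹) := VEq.commute m1 hd (fun _ _ => Iff.rfl) a1
    have c2 : Commute d ((d' * v') * v * (d' * v')⁻¹) := VEq.commute m2 hd (fun _ _ => Iff.rfl) a2
    have c3 : Commute v ((d' * v') * d * (d' * v')⁻¹) := VEq.commute m1 hd hvd a1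
    have c4 : Commute v ((d' * v') * v * (d' * v')⁻¹) := VEq.commute m2 hd hvd a2
    exact (c1.mul_right c2).mul_left (c3.mul_right c4)
  -- second set ⊆ V
  have h2aux : ∀ a ∈ D, ∀ b ∈ D, a⁻¹ * b ∈ Cfsg.pCore 2 G → ∀ e ∈ D, Commute a e → Commute b e := by
    intro a ha b hb hab e he hae
    rcases hset.2 b hb e he with h | h
    · rcases tt_commute_or_braid hset hb he with h' | h'
      · exact h'
      · -- (be)^2 = 1 gives commuting directly
        have hs : b * e * (b * e) = 1 := by rw [← pow_two]; exact h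
        show b * e = e * b
        calc b * e = b * e * ((b * e) * (e * b)) := by
              have : (b * e) * (e * b) = 1 := by
                calc (b * e) * (e * b) = b * (e * e) * b := by group
                  _ = 1 := by rw [tt_sq hset he, mul_one, tt_sq hset hb]
              rw [this, mul_one]
          _ = (b * e * (b * e)) * (e * b) := by group
          _ = e * b := by rw [hs, one_mul]
    · -- (be)^3 = 1 and (be)^2 ∈ N
      have hai := tt_inv hset ha
      have hn : b * a ∈ Cfsg.pCore 2 G := by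
        have := (Cfsg.pCore 2 G).inv_mem hab
        rw [mul_inv_rev, inv_inv, tt_inv hset hb] at this
        exact this
      have hae2 : (a * e) * (a * e) = 1 := by
        calc (a * e) * (a * e) = a * (e * a) * e := by group
          _ = a * (a * e) * e := by rw [hae.eq]
          _ = (a * a) * (e * e) := by group
          _ = 1 := by rw [tt_sq hset ha, tt_sq hset he, one_mul]
      have hsq : (b * e) * (b * e) ∈ Cfsg.pCore 2 G := by
        have e1 : (b * e) * (b * e) = (b * a) * ((a * e) * (b * a) * (a * e)⁻¹) * ((a * e) * (a * e)) := by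
          have : b * e = (b * a) * (a * e) := by
            calc b * e = b * (a * a) * e := by rw [tt_sq hset ha, mul_one]
              _ = (b * a) * (a * e) := by group
          rw [this]; group
        rw [e1, hae2, mul_one]
        exact mul_mem hn (hNn.conj_mem _ hn _)
      have hbe : b * e ∈ Cfsg.pCore 2 G := by
        have e2 : b * e = ((b * e) * (b * e))⁻¹ := by
          rw [eq_inv_iff_mul_eq_one]
          rw [← h]; simp only [pow_succ, pow_zero, one_mul, mul_assoc]
        rw [e2]
        exact inv_mem hsq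
      obtain ⟨k, hk⟩ := hNp ⟨b * e, hbe⟩
      have hk' : (b * e) ^ 2 ^ k = 1 := congrArg Subtype.val hk
      have hdv : orderOf (b * e) ∣ Nat.gcd 3 (2 ^ k) :=
        Nat.dvd_gcd (orderOf_dvd_of_pow_eq_one h) (orderOf_dvd_of_pow_eq_one hk')
      have hcop : Nat.Coprime 3 (2 ^ k) := Nat.Coprime.pow_right _ (by norm_num)
      rw [hcop] at hdv
      have hone : b * e = 1 := orderOf_eq_one_iff.1 (Nat.dvd_one.1 hdv)
      have : b = e := by
        have := eq_inv_of_mul_eq_one_left hone
        rwa [tt_inv hset he] at this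
      rw [this]
  have h2 : ∀ v ∈ D, d⁻¹ * v ∈ Cfsg.pCore 2 G → VEq D v d := by
    intro v hv hdv e he
    refine ⟨h2aux v hv d hd ?_ e he, h2aux d hd v hv hdv e he⟩
    have := (Cfsg.pCore 2 G).inv_mem hdv
    rwa [mul_inv_rev, inv_inv] at this
  have hfirst : {v : G | v ∈ D ∧ ∀ e ∈ D, Commute v e ↔ Commute d e} =
      {v : G | v ∈ D ∧ d⁻¹ * v ∈ Cfsg.pCore 2 G} := by
    ext v
    exact ⟨fun h => ⟨h.1, h1 v h.1 h.2⟩, fun h => ⟨h.1, h2 v h.1 h.2⟩⟩
  refine ⟨hfirst, ?_⟩
  rw [hfirst]
  ext v
  constructor
  · rintro ⟨hv, hdv⟩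
    have hvd := h2 v hv hdv
    obtain ⟨e, he, hde⟩ := tt_class_exists_not_commute hD hD2 hd
    have hve : ¬ Commute v e := fun h => hde ((hvd e he).1 h)
    have b1 : d * e * d = e * d * e := (tt_commute_or_braid hset hd he).resolve_left hde
    have b2 : v * e * v = e * v * e := (tt_commute_or_braid hset hv he).resolve_left hve
    have hcdv : Commute d v := (VEq.commute hd hd hvd (fun _ _ => Iff.rfl)).symm
    have hei := tt_inv hset he
    have hee := tt_sq hset he
    have hvv := tt_sq hset hv
    rw [hdi] at hdv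
    refine ⟨e * (d * v) * e⁻¹, hNn.conj_mem _ hdv e, ?_⟩
    have hdvd : d * v * d = v := by
      calc d * v * d = (v * d) * d := by rw [hcdv.eq]
        _ = v * (d * d) := by group
        _ = v := by rw [hdd, mul_one]
    have hzi : (d * v)⁻¹ = v * d := by rw [mul_inv_rev, tt_inv hset hv, hdi]
    symm
    calc e * (d * v) * e⁻¹ * d * (e * (d * v) * e⁻¹)⁻¹
        = e * ((d * v) * (e * d * e) * (d * v)⁻¹) * e := by
          rw [hei]
          have : (e * (d * v) * e)⁻¹ = e * (d * v)⁻¹ * e := by
            rw [mul_inv_rev, mul_inv_rev, hei]; group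
          rw [this]; group
      _ = e * ((d * v) * (d * e * d) * (v * d)) * e := by rw [← b1, hzi]
      _ = e * ((d * v * d) * e * (d * v * d)) * e := by group
      _ = e * (v * e * v) * e := by rw [hdvd]
      _ = e * (e * v * e) * e := by rw [b2]
      _ = (e * e) * v * (e * e) := by group
      _ = v := by rw [hee]; group
  · rintro ⟨g, hg, rfl⟩
    refine ⟨hconj g d hd, ?_⟩
    have : d⁻¹ * (g * d * g⁻¹) = (d⁻¹ * g * d⁻¹⁻¹) * g⁻¹ := by group
    rw [this]
    exact mul_mem (hNn.conj_mem g hg d⁻¹) (inv_mem hg)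

end Cfsg.Agent.S5349
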