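import Cfsg.Statements.S5357
import Cfsg.Agent.Lib.Helper16.Orth19

set_option autoImplicit false

open Cfsg

namespace Cfsg.Agent.S5357

open Cfsg.Agent.Lib.Helper16 Cfsg.Agent.Lib.Helper6 Module

theorem conj_of_braid {G : Type*} [Group G] (x y : G) (hx : x * x = 1) (hy : y * y = 1)
    (h : (x * y) ^ 3 = 1) : x * y * x * (x * y)⁻¹ = y := by
  have hxi : x⁻¹ = x := inv_eq_of_mul_eq_one_left hx
  have hyi : y⁻¹ = y := inv_eq_of_mul_eq_one_left hy
  have h1 : (x * y) * (x * y) = (x * y)⁻¹ := by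
    apply eq_inv_of_mul_eq_one_left
    rw [← h, pow_succ, pow_two]
  rw [mul_inv_rev, hxi, hyi] at h1 ⊢
  calc x * y * x * (y * x) = (x * y) * (x * y) * x := by simp only [mul_assoc]
    _ = y * x * x := by rw [h1]
    _ = y := by rw [mul_assoc, hx, mul_one]

variable {V : Type*} [AddCommGroup V] [Module (ZMod 3) V] (Q : QuadraticForm (ZMod 3) V)

local notation "P" => QuadraticMap.polarBilin Q

theorem braid_F3 (c : ZMod 3) (hc : c ≠ 0) (u v : V) (hu : Q u = c) (hv : Q v = c) (h : P v u ≠ 0) :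
    (rO Q u * rO Q v) ^ 3 = 1 := by
  have ha : c⁻¹ * P v u ≠ 0 := mul_ne_zero (inv_ne_zero hc) h
  apply rO_braid Q u v (-(c⁻¹ * P v u)) (neg_ne_zero.2 ha)
  rw [reflE_apply, reflE_apply, hu, hv, wq_symm Q u v]
  have h1 := sq_eq_one_zmod3 _ ha
  set a := c⁻¹ * P v u with hadef
  calc v - a • u = (a ^ 2) • v - a • u := by rw [h1, one_smul]
    _ = -a • (u - a • v) := by module

theorem three_transp_F3 [FiniteDimensional (ZMod 3) V] {R : Type*} [Group R] (ι : R →* ↥(OG Q))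
    (hι : Function.Injective ι) (c : ZMod 3) (hc : c ≠ 0) (hρ : ∀ v, Q v = c → ∃ g, ι g = rO Q v)
    (hcl : Subgroup.closure {g : R | ∃ v, Q v = c ∧ ι g = rO Q v} = ⊤)
    (hQ : (P).Nondegenerate) (hn : 5 ≤ finrank (ZMod 3) V) :
    IsThreeTranspositionClass {g : R | ∃ v, Q v = c ∧ ι g = rO Q v} := by
  have h2 : (2 : ZMod 3) ≠ 0 := by decide
  have step : ∀ (u v : V) (d e : R), Q u = c → Q v = c → ι d = rO Q u → ι e = rO Q v → P v u ≠ 0 →
      IsConj d e := by
    intro u v d e hu hv hd he h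
    rw [isConj_iff]
    refine ⟨d * e, ?_⟩
    apply hι
    rw [map_mul, map_mul, map_inv, map_mul, hd, he]
    exact conj_of_braid _ _ (rO_mul_self Q u) (rO_mul_self Q v) (braid_F3 Q c hc u v hu hv h)
  have conj : ∀ (u v : V) (d e : R), Q u = c → Q v = c → ι d = rO Q u → ι e = rO Q v →
      IsConj d e := by
    intro u v d e hu hv hd he
    by_cases h : P v u = 0
    · obtain ⟨t, htu, htv, ht⟩ := rep_orth_two h2 Q hQ hn u v (by rw [hu]; exact hc) (-c)
        (neg_ne_zero.2 hc)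
      have huv : P u v = 0 := by rw [wq_symm]; exact h
      have hz : Q (u + v + t) = c := by
        rw [wq_add, wq_add, hu, hv, ht, huv, map_add, LinearMap.add_apply, htu, htv]; ring
      obtain ⟨f, hf⟩ := hρ _ hz
      have h2c : 2 * c ≠ 0 := mul_ne_zero h2 hc
      refine (step u (u + v + t) d f hu hz hd hf ?_).trans (step (u + v + t) v f e hz hv hf he ?_)
      · rw [map_add, map_add, LinearMap.add_apply, LinearMap.add_apply, wq_self, hu, h,
          wq_symm Q t u, htu]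
        simpa using h2c
      · rw [map_add, map_add, wq_self, hv, h, htv]
        simpa using h2c
    · exact step u v d e hu hv hd he h
  refine ⟨⟨?_, ?_⟩, ?_, hcl⟩
  · rintro g ⟨v, hv, hg⟩
    rw [← orderOf_injective ι hι g, hg]
    exact orderOf_rO Q hQ v (by rw [hv]; exact hc)
  · rintro d ⟨u, hu, hd⟩ e ⟨v, hv, he⟩
    by_cases h : P v u = 0
    · left
      apply hι
      rw [map_pow, map_mul, hd, he, map_one]
      exact rO_comm_of_orth Q u v h
    · right
      apply hι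
      rw [map_pow, map_mul, hd, he, map_one]
      exact braid_F3 Q c hc u v hu hv h
  · obtain ⟨v₀, hv₀⟩ := represents_all Q hQ (by omega) c hc
    obtain ⟨d₀, hd₀⟩ := hρ v₀ hv₀
    refine ⟨d₀, ⟨v₀, hv₀, hd₀⟩, ?_⟩
    ext g
    rw [mem_conjugatesOf_iff']
    constructor
    · rintro ⟨v, hv, hg⟩
      exact conj v₀ v d₀ g hv₀ hv hd₀ hg
    · intro hg
      obtain ⟨x, rfl⟩ := isConj_iff.1 hg
      refine ⟨(ι x).1 v₀, by rw [(ι x).2 v₀, hv₀], ?_⟩
      rw [map_mul, map_mul, map_inv, hd₀, rO_conj]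

theorem result (n : ℕ) (hn : 5 ≤ n) (Q : QuadraticForm (ZMod 3) (Fin n → ZMod 3)) (hQ : (QuadraticMap.polarBilin Q).Nondegenerate) (c : ZMod 3) (hc : c ≠ 0) : Cfsg.IsThreeTranspositionClass {g : ↥(Cfsg.reflectionSubgroup (⇑Q) c) | (g : ↥(Cfsg.isometryGroup (ZMod 3) (⇑Q))) ∈ Cfsg.reflectionsOfNorm (⇑Q) c} := by
  set ι : ↥(Cfsg.reflectionSubgroup (⇑Q) c) →* ↥(OG Q) :=
    (bridge Q).toMonoidHom.comp (Cfsg.reflectionSubgroup (⇑Q) c).subtype with hιdef
  have hι : Function.Injective ι := (bridge Q).injective.comp Subtype.val_injective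
  have hset : {g : ↥(Cfsg.reflectionSubgroup (⇑Q) c) |
      (g : ↥(Cfsg.isometryGroup (ZMod 3) (⇑Q))) ∈ Cfsg.reflectionsOfNorm (⇑Q) c} =
      {g | ∃ v, Q v = c ∧ ι g = rO Q v} := by
    ext g
    constructor
    · rintro ⟨v, hv, hg⟩
      refine ⟨v, hv, ?_⟩
      apply bridge_eq_of_mulVec
      intro x
      rw [Subgroup.subtype_apply, hg, reflectionMatrix_mulVec]; rfl
    · rintro ⟨v, hv, hg⟩
      refine ⟨v, hv, ?_⟩
      have hg' : bridge Q g.1 = rO Q v := hg
      rw [← bridge_symm_rO, ← hg', MulEquiv.symm_apply_apply]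
  have hcl : Subgroup.closure {g : ↥(Cfsg.reflectionSubgroup (⇑Q) c) |
      (g : ↥(Cfsg.isometryGroup (ZMod 3) (⇑Q))) ∈ Cfsg.reflectionsOfNorm (⇑Q) c} = ⊤ :=
    Subgroup.closure_closure_coe_preimage
  rw [hset] at hcl ⊢
  apply three_transp_F3 Q ι hι c hc _ hcl hQ (by rw [Module.finrank_fin_fun]; exact hn)
  intro v hv
  refine ⟨⟨(bridge Q).symm (rO Q v), Subgroup.subset_closure ⟨v, hv, bridge_symm_rO Q v⟩⟩, ?_⟩
  exact (bridge Q).apply_symm_apply _

end Cfsg.Agent.S5357
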