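import Cfsg.Statements.S5358
import Cfsg.Agent.Lib.Helper16.Orth19

set_option autoImplicit false

open Cfsg

namespace Cfsg.Agent.S5358

open Cfsg.Agent.Lib.Helper16 Cfsg.Agent.Lib.Helper6

theorem result (n : ℕ) (Q : QuadraticForm (ZMod 3) (Fin n → ZMod 3)) (hQ : (QuadraticMap.polarBilin Q).Nondegenerate) (u v : Fin n → ZMod 3) (hu : Q u ≠ 0) (huv : Q u = Q v) (h1 : v ≠ u) (h2 : v ≠ -u) : Commute (Cfsg.reflectionMatrix (⇑Q) u) (Cfsg.reflectionMatrix (⇑Q) v) ↔ QuadraticMap.polar (⇑Q) u v = 0 := by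
  have hv : Q v ≠ 0 := huv ▸ hu
  have h2' : (2 : ZMod 3) ≠ 0 := by decide
  constructor
  · intro hc
    by_contra hne
    have hc' : ∀ x, reflE Q u (reflE Q v x) = reflE Q v (reflE Q u x) := by
      intro x
      rw [← reflectionMatrix_mulVec, ← reflectionMatrix_mulVec, ← reflectionMatrix_mulVec,
        ← reflectionMatrix_mulVec, Matrix.mulVec_mulVec, Matrix.mulVec_mulVec, hc.eq]
    have h3 := hc' v
    rw [reflE_self Q v hv, map_neg, reflE_apply Q u v, map_sub, map_smul, reflE_self Q v hv,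
      reflE_apply Q v u] at h3
    have hP : QuadraticMap.polarBilin Q v u ≠ 0 := by
      rw [QuadraticMap.polarBilin_apply_apply, QuadraticMap.polar_comm]; exact hne
    set μ := (Q u)⁻¹ * QuadraticMap.polarBilin Q v u with hμ
    set ν := (Q v)⁻¹ * QuadraticMap.polarBilin Q u v with hν
    have hμ0 : μ ≠ 0 := mul_ne_zero (inv_ne_zero hu) hP
    have h4 : (2 * μ) • u = (μ * ν) • v := by
      have : (2 * μ) • u - (μ * ν) • v = -(v - μ • u) - (-v - μ • (u - ν • v)) := by module
      rw [← sub_eq_zero, this, h3, sub_self]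
    have h5 : u = (ν / 2) • v := by
      have : (2 * μ)⁻¹ • ((2 * μ) • u) = (2 * μ)⁻¹ • ((μ * ν) • v) := by rw [h4]
      rw [smul_smul, smul_smul, inv_mul_cancel₀ (mul_ne_zero h2' hμ0), one_smul] at this
      rw [this]
      congr 1
      field_simp
    have h6 : ∀ t : ZMod 3, t = 0 ∨ t = 1 ∨ t = -1 := by decide
    rcases h6 (ν / 2) with h | h | h
    · rw [h, zero_smul] at h5
      rw [h5] at hu
      simp at hu
    · rw [h, one_smul] at h5
      exact h1 h5.symm
    · rw [h, neg_one_smul] at h5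
      apply h2
      rw [h5, neg_neg]
  · intro h0
    have h3 : QuadraticMap.polarBilin Q v u = 0 := by
      rw [QuadraticMap.polarBilin_apply_apply, QuadraticMap.polar_comm]; exact h0
    have h4 : rO Q u * rO Q v * rO Q u = rO Q v := by
      have := rO_conj Q (rO Q u) v
      rw [rO_inv, rO_coe, reflE_of_orth Q u v h3] at this
      exact this
    have h5 : rO Q u * rO Q v = rO Q v * rO Q u := by
      calc rO Q u * rO Q v = rO Q u * rO Q v * (rO Q u * rO Q u) := by rw [rO_mul_self, mul_one]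
        _ = (rO Q u * rO Q v * rO Q u) * rO Q u := by simp only [mul_assoc]
        _ = rO Q v * rO Q u := by rw [h4]
    have h6 := congrArg (fun g => (((bridge Q).symm g : Matrix.GeneralLinearGroup (Fin n) (ZMod 3)) : Matrix (Fin n) (Fin n) (ZMod 3))) h5
    simp only [map_mul, Subgroup.coe_mul, Units.val_mul, bridge_symm_rO] at h6
    exact h6

end Cfsg.Agent.S5358
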