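import Cfsg.Statements.S5359
import Cfsg.Agent.Lib.Helper16.Orth19

set_option autoImplicit false

open Cfsg

namespace Cfsg.Agent.S5359

open Cfsg.Agent.Lib.Helper16 Cfsg.Agent.Lib.Helper6

theorem result (n : ℕ) (hn : 5 ≤ n) (hodd : Odd n) (Q : QuadraticForm (ZMod 3) (Fin n → ZMod 3)) (hQ : (QuadraticMap.polarBilin Q).Nondegenerate) (c : ZMod 3) (hc : c ≠ 0) : (Cfsg.reflectionSubgroup (⇑Q) c).index = 2 := by
  exact index_reflectionSubgroup Q hQ (by simpa using hn) c hc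

end Cfsg.Agent.S5359
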