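import Cfsg.Statements.S5363
-- import your own Cfsg.Agent.* helpers here
import Mathlib

set_option autoImplicit false
open Cfsg

namespace Cfsg.Agent.S5363

theorem pow_odd_of_sq {G : Type*} [Group G] {z : G} (hz : z * z = 1) (l : ℕ) : z ^ (2 * l + 1) = z := by
  rw [pow_succ, pow_mul, sq, hz, one_pow, one_mul]

/-- if `a t a⁻¹ = t⁻¹` then `a t^{-i} = t^i a` -/
theorem dih_rel {G : Type*} [Group G] {a t : G} (h : a * t * a⁻¹ = t⁻¹) (i : ℕ) :
    a * (t ^ i)⁻¹ = t ^ i * a := by
  have h1 : a * t⁻¹ * a⁻¹ = t := by
    have : a * t⁻¹ * a⁻¹ = (a * t * a⁻¹)⁻¹ := by group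
    rw [this, h, inv_inv]
  have h2 : a * (t ^ i)⁻¹ * a⁻¹ = t ^ i := by
    rw [← inv_pow, ← conj_pow, h1]
  calc a * (t ^ i)⁻¹ = (a * (t ^ i)⁻¹ * a⁻¹) * a := by group
    _ = t ^ i * a := by rw [h2]

/-- Let D be a conjugation-invariant set of involutions of a finite group G. Then every product of two members of D has odd order or order 2 if and only if, for every a in D and every b in D different from a and commuting with a, the members of D commuting with a b are exactly those commuting with both a and b. -/
theorem result {G : Type*} [Group G] [Finite G] {D : Set G} (hinv : ∀ d ∈ D, orderOf d = 2) (hconj : ∀ g : G, ∀ d ∈ D, g * d * g⁻¹ ∈ D) : (∀ a ∈ D, ∀ b ∈ D, Odd (orderOf (a * b)) ∨ orderOf (a * b) = 2) ↔ ∀ a ∈ D, ∀ b ∈ D, b ≠ a → Commute a b → {y : G | y ∈ D ∧ Commute (a * b) y} = {y : G | y ∈ D ∧ Commute a y} ∩ {y : G | y ∈ D ∧ Commute b y} := by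
  have hsq : ∀ d ∈ D, d * d = 1 := fun d hd => by rw [← sq, ← hinv d hd, pow_orderOf_eq_one]
  have hdinv : ∀ d ∈ D, d⁻¹ = d := fun d hd => inv_eq_of_mul_eq_one_left (hsq d hd)
  constructor
  · intro H a ha b hb hba hab
    ext y
    simp only [Set.mem_ofPred_eq, Set.mem_inter_iff]
    constructor
    · rintro ⟨hy, hzy⟩
      have key : Commute a y := by
        set z := a * b with hz
        have hzz : z * z = 1 := by
          calc a * b * (a * b) = a * (b * a) * b := by group
            _ = a * (a * b) * b := by rw [hab.eq]
            _ = (a * a) * (b * b) := by group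
            _ = 1 := by rw [hsq a ha, hsq b hb, one_mul]
        have hz1 : z ≠ 1 := by
          intro h
          apply hba
          have := eq_inv_of_mul_eq_one_right h
          rw [this, hdinv a ha]
        have haz : Commute a z := (Commute.refl a).mul_right hab
        rcases H y hy a ha with hodd | h2
        · obtain ⟨j, hj⟩ := hodd
          set t := y * a with ht
          have htpow : t ^ (2 * j + 1) = 1 := by rw [← hj, pow_orderOf_eq_one]
          have htinv : t⁻¹ = a * y := by rw [ht, mul_inv_rev, hdinv a ha, hdinv y hy]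
          have hat : a * t * a⁻¹ = t⁻¹ := by
            rw [htinv, ht, hdinv a ha]
            calc a * (y * a) * a = a * y * (a * a) := by group
              _ = a * y := by rw [hsq a ha, mul_one]
          have hw : t ^ (j + 1) * a * (t ^ (j + 1))⁻¹ = y := by
            rw [mul_assoc, dih_rel hat, ← mul_assoc, ← pow_add]
            have : j + 1 + (j + 1) = (2 * j + 1) + 1 := by ring
            rw [this, pow_succ, htpow, one_mul, ht, mul_assoc, hsq a ha, mul_one]
          have htz : Commute t z := hzy.symm.mul_left haz
          have hwz : Commute (t ^ (j + 1)) z := htz.pow_left _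
          have hyz : y * z ∈ D := by
            have h1 := hconj (t ^ (j + 1)) b hb
            have h2 : b = a * z := by rw [hz, ← mul_assoc, hsq a ha, one_mul]
            have h3 : t ^ (j + 1) * b * (t ^ (j + 1))⁻¹ = y * z := by
              rw [h2]
              calc t ^ (j + 1) * (a * z) * (t ^ (j + 1))⁻¹
                  = (t ^ (j + 1) * a * (t ^ (j + 1))⁻¹) * (t ^ (j + 1) * z * (t ^ (j + 1))⁻¹) := by group
                _ = y * z := by rw [hw, hwz.eq]; group
            rwa [h3] at h1
          set u := a * y with hu
          have huz : Commute u z := haz.mul_left hzy.symm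
          have hum : u ^ (2 * j + 1) = 1 := by rw [← htinv, inv_pow, htpow, inv_one]
          have hprod : a * (y * z) = u * z := by rw [hu, mul_assoc]
          rcases H a ha (y * z) hyz with hodd2 | h22
          · exfalso
            obtain ⟨i, hi⟩ := hodd2
            rw [hprod] at hi
            have h1 : (u * z) ^ (2 * i + 1) = 1 := by rw [← hi, pow_orderOf_eq_one]
            have h2 : (u * z) ^ ((2 * j + 1) * (2 * i + 1)) = 1 := by
              rw [mul_comm, pow_mul, h1, one_pow]
            rw [huz.mul_pow, pow_mul, hum, one_pow, one_mul] at h2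
            have h3 : (2 * j + 1) * (2 * i + 1) = 2 * (2 * i * j + i + j) + 1 := by ring
            rw [h3, pow_odd_of_sq hzz] at h2
            exact hz1 h2
          · rw [hprod] at h22
            have h1 : (u * z) ^ 2 = 1 := by rw [← h22, pow_orderOf_eq_one]
            rw [huz.mul_pow, sq z, hzz, mul_one, sq] at h1
            have h2 := pow_odd_of_sq h1 j
            rw [hum] at h2
            have h3 : y = a := by
              have := eq_inv_of_mul_eq_one_right h2.symm
              rw [this, hdinv a ha]
            rw [h3]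
        · have h1 : (y * a) ^ 2 = 1 := by rw [← h2, pow_orderOf_eq_one]
          rw [sq] at h1
          have h3 : y * a = (y * a)⁻¹ := eq_inv_of_mul_eq_one_left h1
          rw [mul_inv_rev, hdinv a ha, hdinv y hy] at h3
          exact h3.symm
      refine ⟨⟨hy, key⟩, hy, ?_⟩
      have : b = a * (a * b) := by rw [← mul_assoc, hsq a ha, one_mul]
      rw [this]; exact key.mul_left hzy
    · rintro ⟨⟨hy, h1⟩, _, h2⟩
      exact ⟨hy, h1.mul_left h2⟩
  · intro Cn a ha b hb
    by_contra hcon
    push Not at hcon
    obtain ⟨hnodd, hn2⟩ := hcon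
    rw [Nat.not_odd_iff_even] at hnodd
    obtain ⟨k, hk⟩ := hnodd
    set t := a * b with ht
    have hpos : 0 < orderOf t := orderOf_pos t
    have hk2 : 2 ≤ k := by omega
    set z := t ^ k with hz
    have hzz : z * z = 1 := by rw [hz, ← pow_add, ← hk, pow_orderOf_eq_one]
    have hz1 : z ≠ 1 := by
      intro h
      have := orderOf_le_of_pow_eq_one (by omega) h
      omega
    have htinv : t⁻¹ = b * a := by rw [ht, mul_inv_rev, hdinv a ha, hdinv b hb]
    have hat : a * t * a⁻¹ = t⁻¹ := by
      rw [htinv, ht, hdinv a ha]
      calc a * (a * b) * a = (a * a) * b * a := by group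
        _ = b * a := by rw [hsq a ha, one_mul]
    have hzinv : z⁻¹ = z := inv_eq_of_mul_eq_one_left hzz
    have haz : Commute a z := by
      have := dih_rel hat k
      rw [← hz, hzinv] at this
      exact this
    have htz : Commute t z := (Commute.refl t).pow_right k
    have hbz : Commute b z := by
      have : b = a * t := by rw [ht, ← mul_assoc, hsq a ha, one_mul]
      rw [this]; exact haz.mul_left htz
    have hrel : ∀ j : ℕ, (t ^ j)⁻¹ * a = a * t ^ j := by
      intro j
      have h3 := dih_rel hat j
      calc (t ^ j)⁻¹ * a = (t ^ j)⁻¹ * (a * (t ^ j)⁻¹) * t ^ j := by group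
        _ = (t ^ j)⁻¹ * (t ^ j * a) * t ^ j := by rw [h3]
        _ = a * t ^ j := by group
    have ha' : a * z ∈ D := by
      rcases Nat.even_or_odd' k with ⟨j, hj | hj⟩
      · have h1 := hconj ((t ^ j)⁻¹) a ha
        rw [inv_inv] at h1
        have h2 : (t ^ j)⁻¹ * a * t ^ j = a * z := by
          rw [hrel j, mul_assoc, ← pow_add, hz, hj]
          congr 2
          ring
        rwa [h2] at h1
      · have h1 := hconj ((t ^ j)⁻¹) b hb
        rw [inv_inv] at h1
        have hb' : b = a * t := by rw [ht, ← mul_assoc, hsq a ha, one_mul]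
        have h2 : (t ^ j)⁻¹ * b * t ^ j = a * z := by
          rw [hb', ← mul_assoc, hrel j, mul_assoc, mul_assoc, ← pow_succ', ← pow_add, hz, hj]
          congr 2
          ring
        rwa [h2] at h1
    have hne : a * z ≠ a := by
      intro h
      exact hz1 (mul_left_cancel (h.trans (mul_one a).symm))
    have hcomm : Commute a (a * z) := (Commute.refl a).mul_right haz
    have hset := Cn a ha (a * z) ha' hne hcomm
    have hmem : b ∈ {y : G | y ∈ D ∧ Commute (a * (a * z)) y} := by
      refine ⟨hb, ?_⟩
      rw [← mul_assoc, hsq a ha, one_mul]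
      exact hbz.symm
    rw [hset] at hmem
    have hab : Commute a b := hmem.1.2
    have h1 : t ^ 2 = 1 := by
      rw [ht, hab.mul_pow, sq, sq, hsq a ha, hsq b hb, one_mul]
    have := orderOf_le_of_pow_eq_one (by norm_num) h1
    omega

end Cfsg.Agent.S5363
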