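import Cfsg.Statements.S5364


set_option autoImplicit false
open Cfsg

namespace Cfsg.Agent.S5364

/-- Let D be a conjugation-invariant set of involutions of a finite group G and t an involution in the centre of G such that d t does not lie in D for any d in D. If the images of the members of D in G modulo the subgroup generated by t satisfy the 3-transposition order conditions (each has order 2 and any two have product of order at most 3), then so do the members of D. -/
theorem result {G : Type*} [Group G] [Finite G] {D : Set G} (hinv : ∀ d ∈ D, orderOf d = 2) (hconj : ∀ g : G, ∀ d ∈ D, g * d * g⁻¹ ∈ D) (t : G) (ht : orderOf t = 2) (htZ : t ∈ Subgroup.center G) (hDt : ∀ d ∈ D, d * t ∉ D) [(Subgroup.zpowers t).Normal] (himg : Cfsg.IsThreeTranspositionSet ((QuotientGroup.mk : G → G ⧸ Subgroup.zpowers t) '' D)) : Cfsg.IsThreeTranspositionSet D := by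
  refine ⟨hinv, fun a ha b hb => ?_⟩
  have hsq : ∀ d ∈ D, d * d = 1 := by
    intro d hd
    have := pow_orderOf_eq_one d
    rw [hinv d hd, pow_two] at this
    exact this
  have ht2 : t * t = 1 := by
    have := pow_orderOf_eq_one t
    rw [ht, pow_two] at this
    exact this
  have hz : ∀ x ∈ Subgroup.zpowers t, x = 1 ∨ x = t := by
    intro x hx
    obtain ⟨k, rfl⟩ := Subgroup.mem_zpowers_iff.1 hx
    rcases Int.even_or_odd' k with ⟨m, rfl | rfl⟩
    · left
      rw [zpow_mul, zpow_two, ht2, one_zpow]
    · right
      rw [zpow_add, zpow_mul, zpow_two, ht2, one_zpow, one_mul, zpow_one]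
  have hainv : a⁻¹ = a := inv_eq_of_mul_eq_one_left (hsq a ha)
  have hbinv : b⁻¹ = b := inv_eq_of_mul_eq_one_left (hsq b hb)
  rcases himg.2 _ ⟨a, ha, rfl⟩ _ ⟨b, hb, rfl⟩ with h | h
  · left
    have h1 : (a * b) ^ 2 ∈ Subgroup.zpowers t := by
      rw [← QuotientGroup.eq_one_iff]
      exact h
    rcases hz _ h1 with h2 | h2
    · exact h2
    · exfalso
      apply hDt a ha
      have h3 := hconj b a ha
      have : b * a * b⁻¹ = a * t := by
        rw [← h2, hbinv, pow_two]
        calc b * a * b = (a * a) * b * a * b := by rw [hsq a ha, one_mul]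
          _ = a * (a * b * (a * b)) := by group
      rw [← this]; exact h3
  · right
    have h1 : (a * b) ^ 3 ∈ Subgroup.zpowers t := by
      rw [← QuotientGroup.eq_one_iff]
      exact h
    rcases hz _ h1 with h2 | h2
    · exact h2
    · exfalso
      apply hDt a ha
      have h3 := hconj (b * a) b hb
      have : b * a * b * (b * a)⁻¹ = a * t := by
        rw [← h2, mul_inv_rev, hbinv, hainv, pow_succ, pow_two]
        calc b * a * b * (a * b) = (a * a) * (b * a * b * (a * b)) := by rw [hsq a ha, one_mul]
          _ = a * (a * b * (a * b) * (a * b)) := by group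
      rw [← this]; exact h3

end Cfsg.Agent.S5364
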