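import Cfsg.Statements.S5366
import Cfsg.Agent.Lib.Helper21.FischerModel

set_option autoImplicit false
open Cfsg

namespace Cfsg.Agent.S5366

open Cfsg.LineSystem Cfsg.Agent.Lib.Helper21.FischerModel

section aux

variable {X : Type*} (L : Set (Set X))

lemma tri_rot (a b c : X) : ({a, b, c} : Set X) = {c, a, b} := by
  ext t; simp only [Set.mem_insert_iff, Set.mem_singleton_iff]; tauto

lemma tri_swap (a b c : X) : ({a, b, c} : Set X) = {a, c, b} := by
  ext t; simp only [Set.mem_insert_iff, Set.mem_singleton_iff]; tauto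

lemma tri_swap' (a b c : X) : ({a, b, c} : Set X) = {b, a, c} := by
  ext t; simp only [Set.mem_insert_iff, Set.mem_singleton_iff]; tauto

lemma line_form (h3 : ∀ l ∈ L, l.ncard = 3) (l : Set X) (hl : l ∈ L) (x : X) (hx : x ∈ l) :
    ∃ y z, x ≠ y ∧ x ≠ z ∧ y ≠ z ∧ l = {x, y, z} := by
  obtain ⟨a, b, c, hab, hac, hbc, rfl⟩ := Set.ncard_eq_three.mp (h3 l hl)
  simp only [Set.mem_insert_iff, Set.mem_singleton_iff] at hx
  rcases hx with rfl | rfl | rfl
  · exact ⟨b, c, hab, hac, hbc, rfl⟩
  · exact ⟨a, c, hab.symm, hbc, hac, tri_swap' _ _ _⟩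
  · exact ⟨a, b, hac.symm, hbc.symm, hab, tri_rot _ _ _⟩

lemma lineMap_eq (hPL : IsPartialLinear L) (x y z : X) (h : ({x, y, z} : Set X) ∈ L)
    (hxy : x ≠ y) (hzx : z ≠ x) (hzy : z ≠ y) : lineMap L x y = z := by
  have hex : ∃ z : X, z ≠ x ∧ z ≠ y ∧ x ≠ y ∧ ({x, y, z} : Set X) ∈ L := ⟨z, hzx, hzy, hxy, h⟩
  have e1 : lineMap L x y = hex.choose := by
    unfold lineMap
    rw [dif_pos hex]
  rw [e1]
  obtain ⟨h1, h2, _, h4⟩ := hex.choose_spec
  have := hPL _ h _ h4 x y hxy (by simp) (by simp) (by simp) (by simp)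
  have hm : hex.choose ∈ ({x, y, z} : Set X) := by rw [this]; simp
  simp only [Set.mem_insert_iff, Set.mem_singleton_iff] at hm
  rcases hm with e | e | e
  · exact absurd e h1
  · exact absurd e h2
  · exact e

lemma lineMap_fix (x y : X)
    (h : ¬ ∃ z : X, z ≠ x ∧ z ≠ y ∧ x ≠ y ∧ ({x, y, z} : Set X) ∈ L) : lineMap L x y = y := by
  unfold lineMap
  rw [dif_neg h]

lemma lineMap_cases (hPL : IsPartialLinear L) (x y : X) :
    (∃ z, z ≠ x ∧ z ≠ y ∧ x ≠ y ∧ ({x, y, z} : Set X) ∈ L ∧ lineMap L x y = z) ∨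
    ((¬ ∃ z : X, z ≠ x ∧ z ≠ y ∧ x ≠ y ∧ ({x, y, z} : Set X) ∈ L) ∧ lineMap L x y = y) := by
  by_cases h : ∃ z : X, z ≠ x ∧ z ≠ y ∧ x ≠ y ∧ ({x, y, z} : Set X) ∈ L
  · obtain ⟨z, h1, h2, h3, h4⟩ := h
    exact Or.inl ⟨z, h1, h2, h3, h4, lineMap_eq L hPL x y z h4 h3 h1 h2⟩
  · exact Or.inr ⟨h, lineMap_fix L x y h⟩

lemma lineMap_invol (hPL : IsPartialLinear L) (x : X) : Function.Involutive (lineMap L x) := by
  intro y
  rcases lineMap_cases L hPL x y with ⟨z, h1, h2, h3, h4, h5⟩ | ⟨h, h5⟩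
  · rw [h5]
    exact lineMap_eq L hPL x z y (by rw [tri_swap]; exact h4) h1.symm h3.symm h2.symm
  · rw [h5, h5]

lemma lineMap_of_Tr (hPL : IsPartialLinear L) (x p p' : X) (hxp : x ≠ p) (h : Tr L x p p') :
    lineMap L x p = p' := by
  rcases h with ⟨h1, h2, h3⟩ | ⟨rfl, h2⟩
  · exact lineMap_eq L hPL x p p' h1 hxp h2 h3
  · apply lineMap_fix
    rintro ⟨z, hz1, hz2, _, hz4⟩
    exact h2 z hz1 hz2 hz4

lemma span_subspace (S : Set X) : IsSubspace L (span L S) := by
  intro l hl x hx y hy hxy hxl hyl t ht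
  rw [span, Set.mem_sInter] at *
  intro T hT
  exact hT.2 l hl x (hx T hT) y (hy T hT) hxy hxl hyl ht

lemma subset_span (S : Set X) : S ⊆ span L S := by
  intro x hx
  rw [span, Set.mem_sInter]
  intro T hT
  exact hT.1 hx

lemma transport {Y : Type*} (M : Set (Set Y)) (S : Set X) (e : S ≃ Y)
    (he : IsIso (restrict L S) M e) (p q r : S) :
    (({(p : X), (q : X), (r : X)} : Set X) ∈ L) ↔ (({e p, e q, e r} : Set Y) ∈ M) := by
  have h1 : e '' ({p, q, r} : Set S) = {e p, e q, e r} := by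
    rw [Set.image_insert_eq, Set.image_insert_eq, Set.image_singleton]
  rw [← h1, ← he]
  constructor
  · intro h
    refine ⟨_, h, ?_, ?_⟩
    · intro t ht
      simp only [Set.mem_insert_iff, Set.mem_singleton_iff] at ht
      rcases ht with rfl | rfl | rfl
      exacts [p.2, q.2, r.2]
    · ext s
      simp only [Set.mem_insert_iff, Set.mem_singleton_iff, Set.mem_setOf_eq, Subtype.ext_iff]
  · rintro ⟨l, hl, hlS, hk⟩
    have : l = {(p : X), (q : X), (r : X)} := by
      ext t
      constructor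
      · intro ht
        have h2 : (⟨t, hlS ht⟩ : S) ∈ ({p, q, r} : Set S) := by rw [hk]; exact ht
        simpa only [Set.mem_insert_iff, Set.mem_singleton_iff, Subtype.ext_iff] using h2
      · intro ht
        simp only [Set.mem_insert_iff, Set.mem_singleton_iff] at ht
        have hp : p ∈ ({p, q, r} : Set S) := by simp
        have hq : q ∈ ({p, q, r} : Set S) := by simp
        have hr : r ∈ ({p, q, r} : Set S) := by simp
        rw [hk] at hp hq hr
        rcases ht with rfl | rfl | rfl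
        exacts [hp, hq, hr]
    rw [← this]; exact hl

lemma plane_good (hL : IsFischerSpace L) (l m : Set X) (hl : l ∈ L) (hm : m ∈ L) (hne : l ≠ m)
    (hint : (l ∩ m).Nonempty) :
    ∃ (Y : Type) (M : Set (Set Y)) (e : span L (l ∪ m) ≃ Y),
      IsIso (restrict L (span L (l ∪ m))) M e ∧ Good M := by
  rcases hL.2.2 l hl m hm hne hint with ⟨e, he⟩ | ⟨e, he⟩
  · exact ⟨_, _, e, he, good_dual⟩
  · exact ⟨_, _, e, he, good_aff⟩

lemma image_line (hL : IsFischerSpace L) (x : X) (l : Set X) (hl : l ∈ L) :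
    lineMap L x '' l ∈ L := by
  have hPL := hL.1
  have h3 := hL.2.1
  by_cases hx : x ∈ l
  · obtain ⟨y, z, hxy, hxz, hyz, rfl⟩ := line_form L h3 l hl x hx
    have e1 : lineMap L x x = x := lineMap_fix L x x (by rintro ⟨z, _, _, h, _⟩; exact h rfl)
    have e2 : lineMap L x y = z := lineMap_eq L hPL x y z hl hxy hxz.symm hyz.symm
    have e3 : lineMap L x z = y :=
      lineMap_eq L hPL x z y (by rw [tri_swap]; exact hl) hxz hxy.symm hyz
    rw [Set.image_insert_eq, Set.image_insert_eq, Set.image_singleton, e1, e2, e3, tri_swap]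
    exact hl
  · by_cases hfix : ∀ p ∈ l, lineMap L x p = p
    · have : lineMap L x '' l = l := by
        ext t
        constructor
        · rintro ⟨p, hp, rfl⟩; rw [hfix p hp]; exact hp
        · intro ht; exact ⟨t, ht, hfix t ht⟩
      rw [this]; exact hl
    · push Not at hfix
      obtain ⟨y, hy, hyne⟩ := hfix
      rcases lineMap_cases L hPL x y with ⟨z, hzx, hzy, hxy, hm, hz⟩ | ⟨_, h5⟩
      swap
      · exact absurd h5 hyne
      obtain ⟨a, b, hya, hyb, hab, rfl⟩ := line_form L h3 l hl y hy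
      have hxa : x ≠ a := by rintro rfl; exact hx (by simp)
      have hxb : x ≠ b := by rintro rfl; exact hx (by simp)
      have hne : ({y, a, b} : Set X) ≠ {x, y, z} := by
        intro e; apply hx; rw [e]; simp
      have hint : (({y, a, b} : Set X) ∩ {x, y, z}).Nonempty := ⟨y, by simp, by simp⟩
      have hpg := plane_good L hL _ _ hl hm hne hint
      obtain ⟨S, hS⟩ : ∃ S, S = span L (({y, a, b} : Set X) ∪ {x, y, z}) := ⟨_, rfl⟩
      rw [← hS] at hpg
      obtain ⟨Y, M, e, he, hgood⟩ := hpg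
      have hsub : (({y, a, b} : Set X) ∪ {x, y, z}) ⊆ S := by rw [hS]; exact subset_span L _
      have hsp : IsSubspace L S := by rw [hS]; exact span_subspace L _
      have hxS : x ∈ S := hsub (by simp)
      have hyS : y ∈ S := hsub (by simp)
      have hzS : z ∈ S := hsub (by simp)
      have haS : a ∈ S := hsub (by simp)
      have hbS : b ∈ S := hsub (by simp)
      have tr := transport L M S e he
      have g1 : ({e ⟨x, hxS⟩, e ⟨y, hyS⟩, e ⟨z, hzS⟩} : Set Y) ∈ M :=
        (tr ⟨x, hxS⟩ ⟨y, hyS⟩ ⟨z, hzS⟩).mp hm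
      have g2 : ({e ⟨y, hyS⟩, e ⟨a, haS⟩, e ⟨b, hbS⟩} : Set Y) ∈ M :=
        (tr ⟨y, hyS⟩ ⟨a, haS⟩ ⟨b, hbS⟩).mp hl
      have inj : ∀ (u v : X) (hu : u ∈ S) (hv : v ∈ S), u ≠ v → e ⟨u, hu⟩ ≠ e ⟨v, hv⟩ := by
        intro u v hu hv huv h
        exact huv (congrArg Subtype.val (e.injective h))
      obtain ⟨a', b', g3, g4, g5⟩ := hgood _ _ _ _ _ g1 g2 (inj _ _ _ _ hxy)
        (inj _ _ _ _ hzx.symm) (inj _ _ _ _ hzy.symm) (inj _ _ _ _ hya) (inj _ _ _ _ hyb)
        (inj _ _ _ _ hab) (inj _ _ _ _ hxa) (inj _ _ _ _ hxb)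
      have pull : ∀ (p : X) (hp : p ∈ S) (p' : Y), x ≠ p →
          Tr M (e ⟨x, hxS⟩) (e ⟨p, hp⟩) p' → lineMap L x p = (e.symm p' : X) := by
        intro p hp p' hxp hT
        apply lineMap_of_Tr L hPL x p _ hxp
        rcases hT with ⟨t1, t2, t3⟩ | ⟨t1, t2⟩
        · left
          refine ⟨?_, ?_, ?_⟩
          · exact (tr ⟨x, hxS⟩ ⟨p, hp⟩ (e.symm p')).mpr (by rw [e.apply_symm_apply]; exact t1)
          · intro h
            apply t2
            have h' : e.symm p' = ⟨x, hxS⟩ := Subtype.ext h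
            rw [← h', e.apply_symm_apply]
          · intro h
            apply t3
            have h' : e.symm p' = ⟨p, hp⟩ := Subtype.ext h
            rw [← h', e.apply_symm_apply]
        · right
          refine ⟨?_, ?_⟩
          · rw [t1, e.symm_apply_apply]
          · intro q hqx hqp hq
            have hqS : q ∈ S := hsp _ hq x hxS p hp hxp (by simp) (by simp) (by simp)
            exact t2 (e ⟨q, hqS⟩) (inj _ _ _ _ hqx) (inj _ _ _ _ hqp)
              ((tr ⟨x, hxS⟩ ⟨p, hp⟩ ⟨q, hqS⟩).mp hq)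
      have ea := pull a haS a' hxa g4
      have eb := pull b hbS b' hxb g5
      rw [Set.image_insert_eq, Set.image_insert_eq, Set.image_singleton, hz, ea, eb]
      exact (tr ⟨z, hzS⟩ (e.symm a') (e.symm b')).mpr
        (by rw [e.apply_symm_apply, e.apply_symm_apply]; exact g3)

noncomputable def sig (hPL : IsPartialLinear L) (x : X) : Equiv.Perm X :=
  (lineMap_invol L hPL x).toPerm

lemma sig_apply (hPL : IsPartialLinear L) (x p : X) : sig L hPL x p = lineMap L x p := rfl

lemma sig_iso (hL : IsFischerSpace L) (x : X) : IsIso L L (sig L hL.1 x) := by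
  intro l
  constructor
  · intro hl; exact image_line L hL x l hl
  · intro h
    have h2 := image_line L hL x _ h
    have h3 : lineMap L x '' (lineMap L x '' l) = l := by
      ext t
      constructor
      · rintro ⟨_, ⟨p, hp, rfl⟩, rfl⟩
        rw [lineMap_invol L hL.1 x p]; exact hp
      · intro ht
        exact ⟨lineMap L x t, ⟨t, ht, rfl⟩, lineMap_invol L hL.1 x t⟩
    have h4 : (sig L hL.1 x) '' l = lineMap L x '' l := rfl
    rw [h4, h3] at h2
    exact h2

lemma equivariant (hPL : IsPartialLinear L) (g : Equiv.Perm X) (hg : IsIso L L g) (y p : X) :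
    g (lineMap L y p) = lineMap L (g y) (g p) := by
  rcases lineMap_cases L hPL y p with ⟨q, h1, h2, h3, h4, h5⟩ | ⟨h, h5⟩
  · rw [h5]
    symm
    apply lineMap_eq L hPL
    · have := (hg _).mp h4
      rwa [Set.image_insert_eq, Set.image_insert_eq, Set.image_singleton] at this
    · exact fun e => h3 (g.injective e)
    · exact fun e => h1 (g.injective e)
    · exact fun e => h2 (g.injective e)
  · rw [h5]
    symm
    apply lineMap_fix
    rintro ⟨r, r1, r2, r3, r4⟩
    apply h
    refine ⟨g.symm r, ?_, ?_, fun e => r3 (by rw [e]), ?_⟩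
    · intro e; apply r1; rw [← e, g.apply_symm_apply]
    · intro e; apply r2; rw [← e, g.apply_symm_apply]
    · rw [hg, Set.image_insert_eq, Set.image_insert_eq, Set.image_singleton, g.apply_symm_apply]
      exact r4

lemma sig_sq (hPL : IsPartialLinear L) (x : X) : sig L hPL x * sig L hPL x = 1 := by
  ext p
  exact lineMap_invol L hPL x p

lemma sig_conj (hL : IsFischerSpace L) (x y : X) :
    sig L hL.1 x * sig L hL.1 y * sig L hL.1 x = sig L hL.1 (lineMap L x y) := by
  ext p
  show sig L hL.1 x (lineMap L y (lineMap L x p)) = lineMap L (lineMap L x y) p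
  rw [equivariant L hL.1 _ (sig_iso L hL x), sig_apply, sig_apply, lineMap_invol L hL.1 x p]

lemma sig_order (hL : IsFischerSpace L) (hnd : IsNondegenerate L) (x : X) :
    orderOf (sig L hL.1 x) = 2 := by
  apply orderOf_eq_prime
  · rw [pow_two]; exact sig_sq L hL.1 x
  · intro h
    obtain ⟨l, hl, hx⟩ := hnd x
    obtain ⟨y, z, hxy, hxz, hyz, rfl⟩ := line_form L hL.2.1 l hl x hx
    have e2 : lineMap L x y = z := lineMap_eq L hL.1 x y z hl hxy hxz.symm hyz.symm
    have e3 : sig L hL.1 x y = y := by rw [h]; rfl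
    rw [sig_apply, e2] at e3
    exact hyz e3.symm

lemma sig_three (hL : IsFischerSpace L) (x y : X) :
    (sig L hL.1 x * sig L hL.1 y) ^ 2 = 1 ∨ (sig L hL.1 x * sig L hL.1 y) ^ 3 = 1 := by
  rcases lineMap_cases L hL.1 x y with ⟨z, h1, h2, h3, h4, h5⟩ | ⟨h, h5⟩
  · right
    have c1 := sig_conj L hL x y
    rw [h5] at c1
    have h6 : lineMap L y x = z :=
      lineMap_eq L hL.1 y x z (by rw [tri_swap']; exact h4) h3.symm h2 h1
    have c2 := sig_conj L hL y x
    rw [h6] at c2
    calc (sig L hL.1 x * sig L hL.1 y) ^ 3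
        = (sig L hL.1 x * sig L hL.1 y * sig L hL.1 x) *
            (sig L hL.1 y * sig L hL.1 x * sig L hL.1 y) := by
          simp only [pow_succ, pow_zero, one_mul, mul_assoc]
      _ = 1 := by rw [c1, c2, sig_sq]
  · left
    have c1 := sig_conj L hL x y
    rw [h5] at c1
    calc (sig L hL.1 x * sig L hL.1 y) ^ 2
        = (sig L hL.1 x * sig L hL.1 y * sig L hL.1 x) * sig L hL.1 y := by
          simp only [pow_succ, pow_zero, one_mul, mul_assoc]
      _ = 1 := by rw [c1, sig_sq]

end aux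

/-- Let L be a nondegenerate Fischer space on the point type X (every point on a line). Then for every point x the map t(x) — sending a point collinear with x to the third point of their common line and fixing every other point — is a permutation of X of order 2 and an automorphism of the line system; and the set of all t(x) satisfies the 3-transposition order conditions in the permutation group of X (any two have product of order at most 3). -/
theorem result {X : Type*} (L : Set (Set X)) (hL : Cfsg.IsFischerSpace L) (hnd : Cfsg.LineSystem.IsNondegenerate L) : (∀ x : X, ∃ σ : Equiv.Perm X, ⇑σ = Cfsg.LineSystem.lineMap L x ∧ orderOf σ = 2 ∧ Cfsg.LineSystem.IsIso L L σ) ∧ Cfsg.IsThreeTranspositionSet {σ : Equiv.Perm X | ∃ x : X, ⇑σ = Cfsg.LineSystem.lineMap L x} := by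
  have heq : ∀ (σ : Equiv.Perm X) (x : X), ⇑σ = Cfsg.LineSystem.lineMap L x → σ = sig L hL.1 x := by
    intro σ x h
    apply DFunLike.coe_injective
    rw [h]
    rfl
  refine ⟨fun x => ⟨sig L hL.1 x, rfl, sig_order L hL hnd x, sig_iso L hL x⟩, ?_, ?_⟩
  · rintro d ⟨x, hx⟩
    rw [heq d x hx]
    exact sig_order L hL hnd x
  · rintro d ⟨x, hx⟩ e ⟨y, hy⟩
    rw [heq d x hx, heq e y hy]
    exact sig_three L hL x y

end Cfsg.Agent.S5366
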