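import Cfsg.Statements.S5392
import Mathlib
import Cfsg.Agent.Lib.Helper11.LeechMod2
import Cfsg.Agent.Lib.Helper11.CountTrans
-- import your own Cfsg.Agent.* helpers here

set_option autoImplicit false
open Cfsg

namespace Cfsg.Agent.S5392

open Cfsg.Agent.Lib.Helper11 Cfsg.Agent.Lib.Helper3

/-- the vectors fixed by an automorphism. -/
def fixSub (g : ↥Co0) : AddSubgroup (GolayPt → ℤ) where
  carrier := {x | ∃ hx : x ∈ leechLattice, g • (⟨x, hx⟩ : ↥leechLattice) = ⟨x, hx⟩}
  zero_mem' := ⟨leechLattice.zero_mem, Co0_zero g⟩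
  add_mem' := by
    rintro x y ⟨hx, ex⟩ ⟨hy, ey⟩
    refine ⟨leechLattice.add_mem hx hy, ?_⟩
    have := Co0_add g ⟨x, hx⟩ ⟨y, hy⟩
    rw [ex, ey] at this
    exact this
  neg_mem' := by
    rintro x ⟨hx, ex⟩
    refine ⟨leechLattice.neg_mem hx, ?_⟩
    have := Co0_neg g ⟨x, hx⟩
    rw [ex] at this
    exact this

theorem dot_gens : (∀ b ∈ basisList, dotInt (vOdd none) (vSet (unmask b)) ≠ 0) ∧
    (∀ i, i ≠ none → dotInt (vOdd none) (vTwo i none 4 (-4)) ≠ 0) ∧
    dotInt (vOdd none) (vTwo (pt 0) none 4 4) ≠ 0 := by decide +kernel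

theorem eq_one_of_fix (g : ↥Co0)
    (H : ∀ v : ↥leechLattice, ∃ w : ↥leechLattice, (g • v).1 - v.1 = 2 • w.1)
    (h0 : g • (⟨vOdd none, vOdd_mem none⟩ : ↥leechLattice) = ⟨vOdd none, vOdd_mem none⟩) : g = 1 := by
  have key : ∀ m (hm : m ∈ leechLattice), sqNorm m = 32 → dotInt (vOdd none) m ≠ 0 →
      m ∈ fixSub g := by
    intro m hm hn hd
    refine ⟨hm, ?_⟩
    by_contra hne
    obtain ⟨w, hw⟩ := H ⟨m, hm⟩
    have hne' : (g • (⟨m, hm⟩ : ↥leechLattice)).1 ≠ m := fun e => hne (Subtype.ext e)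
    rcases short_congr (g • (⟨m, hm⟩ : ↥leechLattice)).2 hm hne' (by rw [Co0_sqNorm]; show sqNorm m ≤ 64; omega)
      (by omega) ⟨w.1, w.2, hw⟩ with h | h
    · have e := Co0_dot g ⟨vOdd none, vOdd_mem none⟩ ⟨m, hm⟩
      rw [h0, h] at e
      have e' : dotInt (vOdd none) (-m) = dotInt (vOdd none) m := e
      rw [dotInt_comm, show dotInt (-m) (vOdd none) = -dotInt m (vOdd none) from by
        unfold dotInt
        rw [← Finset.sum_neg_distrib]
        exact Finset.sum_congr rfl (fun i _ => by simp), dotInt_comm] at e'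
      omega
    · have := h.2.1
      omega
  have hp : pt 0 ≠ (none : GolayPt) := by decide
  have hall : leechLattice ≤ fixSub g := by
    apply leech_le_of_gens (fixSub g) none
    · exact ⟨vOdd_mem none, h0⟩
    · intro b hb
      exact key _ (vSet_mem (basis_octads b hb).1)
        (by rw [sqNorm_vSet, (basis_octads b hb).2]; norm_num) (dot_gens.1 b hb)
    · intro i
      by_cases hi : i = none
      · subst hi
        rw [vTwo_self]; exact (fixSub g).zero_mem
      · exact key _ (vTwo_mem _ _ rfl rfl rfl) (by rw [sqNorm_vTwo hi]; norm_num) (dot_gens.2.1 i hi)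
    · rw [vE_eq_sub]
      exact (fixSub g).sub_mem
        (key _ (vTwo_mem _ _ rfl rfl rfl) (by rw [sqNorm_vTwo hp]; norm_num) dot_gens.2.2)
        (key _ (vTwo_mem _ _ rfl rfl rfl) (by rw [sqNorm_vTwo hp]; norm_num) (dot_gens.2.1 _ hp))
  apply Co0_ext
  intro v
  obtain ⟨_, e⟩ := hall v.2
  rw [one_smul]
  exact congrArg Subtype.val e

theorem neg_center : negCo0 ∈ Subgroup.center ↥Co0 := by
  rw [Subgroup.mem_center_iff]
  intro g
  exact (negCo0_comm g).symm

theorem part1 (g : ↥Co0)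
    (H : ∀ v : ↥leechLattice, ∃ w : ↥leechLattice, (g • v).1 - v.1 = 2 • w.1) :
    g ∈ Subgroup.center ↥Co0 := by
  by_cases h0 : g • (⟨vOdd none, vOdd_mem none⟩ : ↥leechLattice) = ⟨vOdd none, vOdd_mem none⟩
  · rw [eq_one_of_fix g H h0]; exact Subgroup.one_mem _
  · obtain ⟨w, hw⟩ := H ⟨vOdd none, vOdd_mem none⟩
    have hne' : (g • (⟨vOdd none, vOdd_mem none⟩ : ↥leechLattice)).1 ≠ vOdd none :=
      fun e => h0 (Subtype.ext e)
    have hn := sqNorm_vOdd none
    rcases short_congr (g • (⟨vOdd none, vOdd_mem none⟩ : ↥leechLattice)).2 (vOdd_mem none) hne'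
      (by rw [Co0_sqNorm]; show sqNorm (vOdd none) ≤ 64; omega) (by omega) ⟨w.1, w.2, hw⟩ with h | h
    · have h1 : negCo0 * g = 1 := by
        apply eq_one_of_fix
        · intro v
          obtain ⟨w, hw⟩ := H v
          refine ⟨-w - v, ?_⟩
          rw [mul_smul, negCo0_smul]
          show -(g • v).1 - v.1 = 2 • (-w.1 - v.1)
          have : (g • v).1 = v.1 + 2 • w.1 := by rw [← hw]; abel
          rw [this]
          simp only [two_nsmul]
          abel
        · rw [mul_smul, negCo0_smul]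
          apply Subtype.ext
          show -(g • (⟨vOdd none, vOdd_mem none⟩ : ↥leechLattice)).1 = vOdd none
          rw [h, neg_neg]
      have h2 : g = negCo0 := by
        have := congrArg (fun t => negCo0 * t) h1
        simp only [← mul_assoc, negCo0_sq, one_mul, mul_one] at this
        exact this
      rw [h2]; exact neg_center
    · have := h.2.1
      omega

/-- explicit vectors. -/
def a1 : GolayPt → ℤ := vTwo (pt 0) (pt 1) 4 4 + vTwo (pt 2) (pt 3) 4 4
def a2 : GolayPt → ℤ := vTwo (pt 0) (pt 1) 4 4 + vTwo (pt 2) (pt 4) 4 4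

theorem a1_mem : a1 ∈ leechLattice :=
  leechLattice.add_mem (vTwo_mem _ _ rfl rfl rfl) (vTwo_mem _ _ rfl rfl rfl)
theorem a2_mem : a2 ∈ leechLattice :=
  leechLattice.add_mem (vTwo_mem _ _ rfl rfl rfl) (vTwo_mem _ _ rfl rfl rfl)
theorem a1_norm : sqNorm a1 = 64 := by decide +kernel
theorem a2_norm : sqNorm a2 = 64 := by decide +kernel
theorem a12_norm : sqNorm (a1 - a2) = 32 := by decide +kernel
theorem v5_mem (p : GolayPt) : Lee.v5 p ∈ leechLattice := by
  have : Lee.v5 p = vOdd p + vE p := by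
    funext i
    rw [Pi.add_apply, vE_apply]
    unfold Lee.v5 vOdd
    split <;> norm_num
  rw [this]
  exact leechLattice.add_mem (vOdd_mem p) (vE_mem p)
theorem v5_norm : sqNorm (Lee.v5 (pt 0)) = 48 ∧ sqNorm (Lee.v5 (pt 1)) = 48 ∧
    sqNorm (Lee.v5 (pt 0) - Lee.v5 (pt 1)) = 32 := by decide +kernel

/-- The Leech lattice modulo twice itself is a faithful irreducible module for the first Conway group: an automorphism of the rank-24 lattice built from the length-24 code that moves every lattice vector only by twice a lattice vector lies in the centre of the automorphism group (the centre consists of ±1, which act trivially there, so the kernel is exactly the centre), and an additive subgroup lying between twice the lattice and the lattice that is invariant under all lattice automorphisms is one of the two. -/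
theorem result : (∀ g : ↥Cfsg.Co0, (∀ v : ↥Cfsg.leechLattice, ∃ w : ↥Cfsg.leechLattice, ((g • v : ↥Cfsg.leechLattice) : Cfsg.GolayPt → ℤ) - (v : Cfsg.GolayPt → ℤ) = 2 • (w : Cfsg.GolayPt → ℤ)) → g ∈ Subgroup.center ↥Cfsg.Co0) ∧ ∀ M : AddSubgroup (Cfsg.GolayPt → ℤ), (∀ v ∈ Cfsg.leechLattice, (2 : ℤ) • v ∈ M) → M ≤ Cfsg.leechLattice → (∀ g : ↥Cfsg.Co0, ∀ v : ↥Cfsg.leechLattice, (v : Cfsg.GolayPt → ℤ) ∈ M → ((g • v : ↥Cfsg.leechLattice) : Cfsg.GolayPt → ℤ) ∈ M) → (∀ x ∈ M, ∃ w ∈ Cfsg.leechLattice, x = (2 : ℤ) • w) ∨ M = Cfsg.leechLattice := by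
  refine ⟨part1, ?_⟩
  intro M h2 hML hinv
  by_cases hcase : ∀ x ∈ M, ∃ w ∈ leechLattice, x = (2 : ℤ) • w
  · exact Or.inl hcase
  right
  push_neg at hcase
  obtain ⟨x, hxM, hx⟩ := hcase
  have hrel : ∀ {u u' : GolayPt → ℤ}, Rel u u' → u ∈ M → u' ∈ M := by
    rintro u u' ⟨hu, hu', g, e⟩ huM
    have := hinv g ⟨u, hu⟩ huM
    rw [e] at this
    exact this
  obtain ⟨y, hy, hn, z, hz, e⟩ := Cfsg.Agent.S1570.result x (hML hxM)
  have e2 : (2 : ℕ) • z = (2 : ℤ) • z := by rw [two_nsmul, two_smul]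
  have hyM : y ∈ M := by
    have : y = x - (2 : ℤ) • z := by rw [← e2, ← e]; abel
    rw [this]
    exact M.sub_mem hxM (h2 z hz)
  have hmin : ∃ m ∈ M, m ∈ leechLattice ∧ sqNorm m = 32 := by
    rcases norm_cases hy hn with h | h | h | h
    · exfalso
      apply hx z hz
      rw [← e2, ← e, h, sub_zero]
    · exact ⟨y, hyM, hy, h⟩
    · refine ⟨Lee.v5 (pt 0) - Lee.v5 (pt 1), M.sub_mem ?_ ?_,
        leechLattice.sub_mem (v5_mem _) (v5_mem _), v5_norm.2.2⟩
      · exact hrel (rel_of_norm hy (v5_mem _) (h.trans v5_norm.1.symm) (Or.inr (Or.inl h))) hyM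
      · exact hrel (rel_of_norm hy (v5_mem _) (h.trans v5_norm.2.1.symm) (Or.inr (Or.inl h))) hyM
    · refine ⟨a1 - a2, M.sub_mem ?_ ?_, leechLattice.sub_mem a1_mem a2_mem, a12_norm⟩
      · exact hrel (rel_of_norm hy a1_mem (h.trans a1_norm.symm) (Or.inr (Or.inr h))) hyM
      · exact hrel (rel_of_norm hy a2_mem (h.trans a2_norm.symm) (Or.inr (Or.inr h))) hyM
  obtain ⟨m, hmM, hmL, hmn⟩ := hmin
  apply le_antisymm hML
  apply gen_of_min
  intro m' hm' hn'
  exact hrel (rel_of_norm hmL hm' (hmn.trans hn'.symm) (Or.inl hmn)) hmM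

end Cfsg.Agent.S5392
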