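import Mathlib
import Cfsg.Statements.S5393
import Cfsg.Agent.Lib.Helper3.M24Trans

set_option autoImplicit false
open Cfsg

namespace Cfsg.Agent.S5393

open Cfsg.Agent.Lib.Helper3
open scoped Pointwise

theorem support_perm (σ : Equiv.Perm Cfsg.GolayPt) (w : Cfsg.GolayPt → ZMod 2) :
    Cfsg.support₂ (fun p => w (σ.symm p)) = σ • Cfsg.support₂ w := by
  ext p
  rw [← Finset.inv_smul_mem_iff]
  simp only [Cfsg.support₂, Finset.mem_filter, Finset.mem_univ, true_and]
  rfl

/-- masks of the words of a subspace. -/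
def InU (U : Submodule (ZMod 2) (Cfsg.GolayPt → ZMod 2)) (x : ℕ) : Prop := ∃ v ∈ U, W v = x

theorem inU_xor {U : Submodule (ZMod 2) (Cfsg.GolayPt → ZMod 2)} {x y : ℕ} (hx : InU U x)
    (hy : InU U y) : InU U (x ^^^ y) := by
  obtain ⟨v, hv, rfl⟩ := hx
  obtain ⟨w, hw, rfl⟩ := hy
  exact ⟨v + w, U.add_mem hv hw, W_add v w⟩

theorem inU_cond {U : Submodule (ZMod 2) (Cfsg.GolayPt → ZMod 2)} {x : ℕ} (hx : InU U x)
    (b : Bool) : InU U (bif b then x else 0) := by
  cases b
  · exact ⟨0, U.zero_mem, W_zero⟩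
  · exact hx

theorem inU_enc {U : Submodule (ZMod 2) (Cfsg.GolayPt → ZMod 2)}
    (h : ∀ x, isOct x = true → InU U x) (c : ℕ) : InU U (enc c) := by
  unfold enc
  exact inU_xor (inU_xor (inU_xor (inU_xor (inU_xor (inU_xor (inU_xor (inU_xor (inU_xor (inU_xor (inU_xor (inU_cond (h _ (by decide +kernel)) _) (inU_cond (h _ (by decide +kernel)) _)) (inU_cond (h _ (by decide +kernel)) _)) (inU_cond (h _ (by decide +kernel)) _)) (inU_cond (h _ (by decide +kernel)) _)) (inU_cond (h _ (by decide +kernel)) _)) (inU_cond (h _ (by decide +kernel)) _)) (inU_cond (h _ (by decide +kernel)) _)) (inU_cond (h _ (by decide +kernel)) _)) (inU_cond (h _ (by decide +kernel)) _)) (inU_cond (h _ (by decide +kernel)) _)) (inU_cond (h _ (by decide +kernel)) _)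

theorem support_add_one (w : Cfsg.GolayPt → ZMod 2) :
    Cfsg.support₂ (w + fun _ => (1 : ZMod 2)) = (Cfsg.support₂ w)ᶜ := by
  ext p
  simp only [Cfsg.support₂, Finset.mem_filter, Finset.mem_univ, true_and, Finset.mem_compl,
    Pi.add_apply, not_not]
  generalize w p = a
  revert a; decide


/-- The length-24 code built from the squares modulo 23 contains the all-ones word, and the code modulo the all-ones word is an irreducible module over the field with two elements for the code's automorphism group: a subspace of the code that contains the all-ones word and is invariant under every coordinate permutation preserving the code is either the span of the all-ones word or the whole code. -/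
theorem result : (fun _ : Cfsg.GolayPt => (1 : ZMod 2)) ∈ Cfsg.golayCode ∧ ∀ W : Submodule (ZMod 2) (Cfsg.GolayPt → ZMod 2), (fun _ => (1 : ZMod 2)) ∈ W → W ≤ Cfsg.golayCode → (∀ σ ∈ Cfsg.M24, ∀ w ∈ W, (fun p => w (σ.symm p)) ∈ W) → W = Submodule.span (ZMod 2) {fun _ => (1 : ZMod 2)} ∨ W = Cfsg.golayCode := by
  open Cfsg.Agent.Lib.Helper3 in
  have h1 : (fun _ : Cfsg.GolayPt => (1 : ZMod 2)) ∈ Cfsg.golayCode :=
    Submodule.subset_span (Or.inr rfl)
  refine ⟨h1, ?_⟩
  intro U hU1 hUC hinv
  by_cases hsp : U = Submodule.span (ZMod 2) {fun _ => (1 : ZMod 2)}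
  · exact Or.inl hsp
  right
  have hle : Submodule.span (ZMod 2) {fun _ : Cfsg.GolayPt => (1 : ZMod 2)} ≤ U := by
    rw [Submodule.span_le]
    intro x hx
    rw [Set.mem_singleton_iff.1 hx]; exact hU1
  obtain ⟨w, hwU, hwn⟩ : ∃ w ∈ U, w ∉ Submodule.span (ZMod 2) {fun _ : Cfsg.GolayPt => (1 : ZMod 2)} := by
    by_contra hcon
    push Not at hcon
    exact hsp (le_antisymm hcon hle)
  have hperm : ∀ σ ∈ Cfsg.M24, ∀ v ∈ U, ∃ v' ∈ U, Cfsg.support₂ v' = σ • Cfsg.support₂ v :=
    fun σ hσ v hv => ⟨_, hinv σ hσ v hv, support_perm σ v⟩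
  -- an octad word in U
  obtain ⟨v0, hv0, ho0⟩ : ∃ v ∈ U, Cfsg.support₂ v ∈ Cfsg.octads := by
    have hs : Cfsg.support₂ w ∈ Cfsg.supports (Cfsg.golayCode : Set (Cfsg.GolayPt → ZMod 2)) :=
      ⟨w, hUC hwU, rfl⟩
    rcases code_weights _ hs with c | c | c | c | c
    · exfalso
      apply hwn
      have : w = 0 := by
        apply support₂_injective
        rw [Finset.card_eq_zero.1 c]
        simp [Cfsg.support₂]
      rw [this]; exact Submodule.zero_mem _
    · exact ⟨w, hwU, hs, c⟩
    · have hd : Cfsg.support₂ w ∈ Cfsg.dodecads := ⟨hs, c⟩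
      have hd2 : unmask 0xc2635e ∈ Cfsg.dodecads := by
        rw [mem_dodecads_iff, mask_unmask (by norm_num)]
        decide +kernel
      obtain ⟨σ1, hσ1, e1⟩ := trans_dodecads hd D0_mem
      obtain ⟨σ2, hσ2, e2⟩ := trans_dodecads hd hd2
      obtain ⟨v1, hv1, f1⟩ := hperm σ1 hσ1 w hwU
      obtain ⟨v2, hv2, f2⟩ := hperm σ2 hσ2 w hwU
      refine ⟨v1 + v2, U.add_mem hv1 hv2, ?_⟩
      have hm : mask (Cfsg.support₂ (v1 + v2)) = 0xc75001 := by
        rw [mask_support₂, W_add, ← mask_support₂, ← mask_support₂, f1, f2, e1, e2, D0,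
          mask_unmask (by norm_num), mask_unmask (by norm_num)]
        decide +kernel
      rw [mem_octads_iff, hm]
      decide +kernel
    · refine ⟨w + fun _ => (1 : ZMod 2), U.add_mem hwU hU1, ⟨_, Cfsg.golayCode.add_mem (hUC hwU) h1, rfl⟩, ?_⟩
      rw [support_add_one, Finset.card_compl, c]
      decide
    · exfalso
      apply hwn
      have : w = fun _ => (1 : ZMod 2) := by
        apply support₂_injective
        have hu : Cfsg.support₂ w = Finset.univ := (Finset.card_eq_iff_eq_univ _).1 (by rw [c]; decide)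
        rw [hu]
        simp [Cfsg.support₂]
      rw [this]; exact Submodule.subset_span rfl
  have hoct : ∀ x, isOct x = true → InU U x := by
    intro x hx
    obtain ⟨hxo, hxlt⟩ := unmask_mem_octads hx
    obtain ⟨σ, hσ, e⟩ := trans_octads ho0 hxo
    obtain ⟨v, hv, f⟩ := hperm σ hσ v0 hv0
    exact ⟨v, hv, by rw [← mask_support₂, f, e, mask_unmask hxlt]⟩
  apply le_antisymm hUC
  intro c hc
  have hC := (mem_golayCode_iff c).1 hc
  obtain ⟨v, hv, e⟩ := inU_enc hoct (W c % 4096)
  have : v = c := W_injective (e.trans hC.symm)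
  exact this ▸ hv

end Cfsg.Agent.S5393
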