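import Mathlib
import Cfsg.Statements.S5394
import Cfsg.Agent.Lib.Helper3.ClassFix

set_option autoImplicit false
open Cfsg

namespace Cfsg.Agent.S5394

/-- The automorphism group of the length-24 code built from the squares modulo 23 has exactly two conjugacy classes of involutions: an involution either fixes exactly the eight points of an octad or has no fixed points, both kinds occur, and any two involutions of the same kind are conjugate in the group. -/
theorem result : (∀ g ∈ Cfsg.M24, orderOf g = 2 → (Finset.univ.filter fun p => g p = p) ∈ Cfsg.octads ∨ ∀ p, g p ≠ p) ∧ (∃ g ∈ Cfsg.M24, orderOf g = 2 ∧ (Finset.univ.filter fun p => g p = p) ∈ Cfsg.octads) ∧ (∃ g ∈ Cfsg.M24, orderOf g = 2 ∧ ∀ p, g p ≠ p) ∧ ∀ g ∈ Cfsg.M24, ∀ h ∈ Cfsg.M24, orderOf g = 2 → orderOf h = 2 → ((∀ p, g p ≠ p) ↔ (∀ p, h p ≠ p)) → ∃ k ∈ Cfsg.M24, k * g * k⁻¹ = h := by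
  open Cfsg.Agent.Lib.Helper3 in
  open scoped Pointwise in
  refine ⟨?_, ⟨wperm zAw, wperm_mem _, orderOf_zA, ?_⟩, ⟨wperm zBw, wperm_mem _, orderOf_zB, ?_⟩, ?_⟩
  · intro g hg ho
    rcases invol_cases hg ho with ⟨k, hk, h, _⟩ | ⟨k, hk, _, h⟩
    · left
      have h1 : k • Fx g = O0 := by rw [← Fx_conj, h, Fx_zA]
      have h2 : Fx g = k⁻¹ • O0 := by rw [← h1, inv_smul_smul]
      show Fx g ∈ Cfsg.octads
      rw [h2]
      exact smul_mem_octads (Cfsg.M24.inv_mem hk) O0_mem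
    · right
      exact Fx_card_zero_iff.1 h
  · show Fx (wperm zAw) ∈ Cfsg.octads
    rw [Fx_zA]; exact O0_mem
  · apply Fx_card_zero_iff.1
    rw [Fx_zB]; rfl
  · intro g hg h hh hog hoh hiff
    rw [← Fx_card_zero_iff, ← Fx_card_zero_iff] at hiff
    rcases invol_cases hg hog with ⟨k, hk, e, c⟩ | ⟨k, hk, e, c⟩ <;>
    rcases invol_cases hh hoh with ⟨k', hk', e', c'⟩ | ⟨k', hk', e', c'⟩
    · refine ⟨k'⁻¹ * k, Cfsg.M24.mul_mem (Cfsg.M24.inv_mem hk') hk, ?_⟩
      have : k'⁻¹ * k * g * (k'⁻¹ * k)⁻¹ = k'⁻¹ * (k * g * k⁻¹) * k' := by group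
      rw [this, e, ← e']; group
    · exfalso
      have := hiff.2 c'
      omega
    · exfalso
      have := hiff.1 c
      omega
    · refine ⟨k'⁻¹ * k, Cfsg.M24.mul_mem (Cfsg.M24.inv_mem hk') hk, ?_⟩
      have : k'⁻¹ * k * g * (k'⁻¹ * k)⁻¹ = k'⁻¹ * (k * g * k⁻¹) * k' := by group
      rw [this, e, ← e']; group

end Cfsg.Agent.S5394
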