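import Cfsg.Statements.S5395
import Cfsg.Agent.Lib.Helper14.Pairing
import Cfsg.Agent.Lib.Helper5.Card
import Mathlib

set_option autoImplicit false
open Cfsg

namespace Cfsg.Agent.S5395

open scoped commutatorElement

theorem eq_of_card_two {Z : Type*} [Group Z] (h : Nat.card Z = 2) {a b : Z} (ha : a ≠ 1) (hb : b ≠ 1) :
    a = b := by
  obtain ⟨x, y, hxy, huniv⟩ := Nat.card_eq_two_iff.mp h
  have h1 : (1 : Z) ∈ ({x, y} : Set Z) := by rw [huniv]; trivial
  have h2 : a ∈ ({x, y} : Set Z) := by rw [huniv]; trivial
  have h3 : b ∈ ({x, y} : Set Z) := by rw [huniv]; trivial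
  simp only [Set.mem_insert_iff, Set.mem_singleton_iff] at h1 h2 h3
  rcases h1 with h1 | h1 <;> rcases h2 with h2 | h2 <;> rcases h3 with h3 | h3 <;>
    simp_all

/-- For a finite extraspecial 2-group E, an automorphism of E that induces the identity on E modulo its centre is inner (so these automorphisms form exactly the inner automorphism group, an elementary abelian 2-group of order |E|/2). -/
theorem result {E : Type*} [Group E] [Finite E] (hE : Cfsg.IsExtraspecial 2 E) (φ : E ≃* E) (hφ : ∀ x : E, φ x * x⁻¹ ∈ Subgroup.center E) : ∃ g : E, ∀ x : E, φ x = g * x * g⁻¹ := by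
  have hZcard : Nat.card (Subgroup.center E) = 2 := hE.2
  have hcomm : commutator E = Subgroup.center E := hE.1.2.2
  have : Fact (Nat.Prime 2) := ⟨Nat.prime_two⟩
  let lam : E →* Subgroup.center E :=
    { toFun := fun x => ⟨φ x * x⁻¹, hφ x⟩
      map_one' := by apply Subtype.ext; simp
      map_mul' := by
        intro x y
        apply Subtype.ext
        show φ (x * y) * (x * y)⁻¹ = (φ x * x⁻¹) * (φ y * y⁻¹)
        have hc := Subgroup.mem_center_iff.mp (hφ y) x⁻¹
        rw [map_mul, mul_inv_rev]
        calc φ x * φ y * (y⁻¹ * x⁻¹) = φ x * ((φ y * y⁻¹) * x⁻¹) := by group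
          _ = φ x * (x⁻¹ * (φ y * y⁻¹)) := by rw [hc]
          _ = _ := by group }
  have hlam : ∀ x, ((lam x : Subgroup.center E) : E) = φ x * x⁻¹ := fun x => rfl
  set K := lam.ker with hK
  have hKmem : ∀ x, x ∈ K ↔ φ x = x := by
    intro x
    rw [hK, MonoidHom.mem_ker]
    constructor
    · intro h
      have := congrArg Subtype.val h
      rw [hlam] at this
      exact mul_inv_eq_one.mp this
    · intro h
      apply Subtype.ext
      rw [hlam, h]; simp
  by_cases hKtop : K = ⊤
  · refine ⟨1, fun x => ?_⟩
    have : x ∈ K := by rw [hKtop]; trivial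
    rw [(hKmem x).mp this]; simp
  have hKidx : K.index = 2 := by
    have h1 : K.index ∣ 2 := by
      rw [hK, Subgroup.index_ker, ← hZcard]
      exact Subgroup.card_subgroup_dvd_card _
    rcases (Nat.dvd_prime Nat.prime_two).mp h1 with h | h
    · exact absurd (Subgroup.index_eq_one.mp h) hKtop
    · exact h
  have hZK : Subgroup.center E ≤ K := by
    intro c hc
    rw [hKmem]
    by_cases hc1 : c = 1
    · rw [hc1, map_one]
    · have hφc : φ c ∈ Subgroup.center E := by
        rw [Subgroup.mem_center_iff]
        intro g
        obtain ⟨g', rfl⟩ := φ.surjective g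
        rw [← map_mul, ← map_mul, Subgroup.mem_center_iff.mp hc g']
      have h1 : (⟨φ c, hφc⟩ : Subgroup.center E) = ⟨c, hc⟩ := by
        apply eq_of_card_two hZcard
        · intro h
          apply hc1
          have := congrArg Subtype.val h
          exact (map_eq_one_iff φ φ.injective).mp this
        · intro h
          exact hc1 (congrArg Subtype.val h)
      exact congrArg Subtype.val h1
  have hpair := Cfsg.Agent.Lib.Helper14.comm_pairing (Subgroup.center E) ⊤ K le_rfl hZcard (by
    intro x _ y _
    rw [← hcomm, commutator_def]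
    exact Subgroup.commutator_mem_commutator (Subgroup.mem_top x) (Subgroup.mem_top y))
  rw [Subgroup.relIndex_top_right, Subgroup.coe_top, Subgroup.centralizer_univ] at hpair
  have e1 := Cfsg.Agent.Lib.Helper5.card_mul_relIndex hZK
  have e2 := K.index_mul_card
  have e3 := (Subgroup.centralizer (K : Set E)).index_mul_card
  rw [hZcard] at e1
  rw [hKidx] at e2
  rw [hpair] at e3
  have hCcard : Nat.card (Subgroup.centralizer (K : Set E)) = 4 := by
    have hr : 0 < (Subgroup.center E).relIndex K := by
      rw [← hpair]; exact Nat.pos_of_ne_zero Subgroup.index_ne_zero_of_finite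
    have : (Subgroup.center E).relIndex K * Nat.card (Subgroup.centralizer (K : Set E)) =
        (Subgroup.center E).relIndex K * 4 := by
      rw [e3, ← e2, ← e1]; ring
    exact Nat.eq_of_mul_eq_mul_left hr this
  obtain ⟨g, hgC, hgZ⟩ : ∃ g ∈ Subgroup.centralizer (K : Set E), g ∉ Subgroup.center E := by
    by_contra hcon
    push Not at hcon
    have := Subgroup.card_le_of_le (show Subgroup.centralizer (K : Set E) ≤ Subgroup.center E from hcon)
    omega
  refine ⟨g, fun x => ?_⟩
  by_cases hx : x ∈ K
  · rw [(hKmem x).mp hx]
    have := Subgroup.mem_centralizer_iff.mp hgC x hx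
    rw [← this]; group
  · -- both φ x x⁻¹ and g x g⁻¹ x⁻¹ are the nonidentity central element
    have h1 : ⁅g, x⁆ ∈ Subgroup.center E := by
      rw [← hcomm, commutator_def]
      exact Subgroup.commutator_mem_commutator (Subgroup.mem_top g) (Subgroup.mem_top x)
    have h2 : (⟨⁅g, x⁆, h1⟩ : Subgroup.center E) = lam x := by
      apply eq_of_card_two hZcard
      · intro h
        have h3 : ⁅g, x⁆ = 1 := congrArg Subtype.val h
        rw [commutatorElement_eq_one_iff_mul_comm] at h3
        apply hgZ
        -- the centralizer of g contains K and x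
        have hle : K < Subgroup.centralizer ({g} : Set E) := by
          constructor
          · intro k hk
            rw [Subgroup.mem_centralizer_singleton_iff]
            exact Subgroup.mem_centralizer_iff.mp hgC k hk
          · intro hle
            apply hx
            apply hle
            rw [Subgroup.mem_centralizer_singleton_iff]
            exact h3.symm
        have htop : Subgroup.centralizer ({g} : Set E) = ⊤ := by
          have h4 := Subgroup.relIndex_mul_index hle.le
          rw [hKidx] at h4
          have h5 : K.relIndex (Subgroup.centralizer ({g} : Set E)) ≠ 1 := by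
            intro h6
            exact hle.not_ge (Subgroup.relIndex_eq_one.mp h6)
          have h6 : K.relIndex (Subgroup.centralizer ({g} : Set E)) ∣ 2 := ⟨_, h4.symm⟩
          rcases (Nat.dvd_prime Nat.prime_two).mp h6 with h7 | h7
          · exact absurd h7 h5
          · rw [h7] at h4
            apply Subgroup.index_eq_one.mp
            omega
        rw [Subgroup.mem_center_iff]
        intro y
        have : y ∈ Subgroup.centralizer ({g} : Set E) := by rw [htop]; trivial
        exact Subgroup.mem_centralizer_singleton_iff.mp this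
      · intro h
        exact hx (MonoidHom.mem_ker.mpr h)
    have h3 := congrArg Subtype.val h2
    rw [hlam] at h3
    have h4 : ⁅g, x⁆ = g * x * g⁻¹ * x⁻¹ := commutatorElement_def g x
    have h5 : g * x * g⁻¹ * x⁻¹ = φ x * x⁻¹ := by rw [← h4]; exact h3
    exact (mul_right_cancel h5).symm

end Cfsg.Agent.S5395
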