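import Cfsg.Statements.S5396
-- import your own Cfsg.Agent.* helpers here
import Mathlib
import Cfsg.Agent.Lib.Helper29.Extra5

set_option autoImplicit false
open Cfsg

namespace Cfsg.Agent.S5396

/-- For every n ≥ 1 there exist finite extraspecial 2-groups of order 2^(2n+1) whose 2-rank (the largest rank of an elementary abelian subgroup) is n, and ones whose 2-rank is n + 1 (so for each such order there are two non-isomorphic extraspecial 2-groups, told apart by their 2-rank). -/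
theorem result (n : ℕ) (hn : 1 ≤ n) : ∀ r ∈ ({n, n + 1} : Set ℕ), ∃ (E : Type) (_ : Group E) (_ : Finite E), Cfsg.IsExtraspecial 2 E ∧ Nat.card E = 2 ^ (2 * n + 1) ∧ sSup {k : ℕ | ∃ A : Subgroup E, Cfsg.IsElementaryAbelian 2 A ∧ Nat.card A = 2 ^ k} = r := by
  haveI : Fact (Nat.Prime 2) := ⟨Nat.prime_two⟩
  let i₀ : Fin n := ⟨0, hn⟩
  intro r hr
  rcases hr with rfl | rfl
  · obtain ⟨z, h, -⟩ := Cfsg.Agent.Lib.Helper29.Extra.of_extraspecial
      (Cfsg.Agent.Lib.Helper29.Extra.HG.extraspecial (ε := 1) (i₀ := i₀))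
    exact ⟨Cfsg.Agent.Lib.Helper29.Extra.HG 1 i₀, inferInstance, inferInstance,
      Cfsg.Agent.Lib.Helper29.Extra.HG.extraspecial, Cfsg.Agent.Lib.Helper29.Extra.HG.card_eq,
      (Cfsg.Agent.Lib.Helper29.Extra.rank_of_minus h r Cfsg.Agent.Lib.Helper29.Extra.HG.card_eq
        (Cfsg.Agent.Lib.Helper29.Extra.HG.NN_minus i₀)).csSup_eq⟩
  · obtain ⟨z, h, -⟩ := Cfsg.Agent.Lib.Helper29.Extra.of_extraspecial
      (Cfsg.Agent.Lib.Helper29.Extra.HG.extraspecial (ε := 0) (i₀ := i₀))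
    exact ⟨Cfsg.Agent.Lib.Helper29.Extra.HG 0 i₀, inferInstance, inferInstance,
      Cfsg.Agent.Lib.Helper29.Extra.HG.extraspecial, Cfsg.Agent.Lib.Helper29.Extra.HG.card_eq,
      (Cfsg.Agent.Lib.Helper29.Extra.rank_of_plus h n Cfsg.Agent.Lib.Helper29.Extra.HG.card_eq
        (Cfsg.Agent.Lib.Helper29.Extra.HG.NN_plus i₀)).csSup_eq⟩

end Cfsg.Agent.S5396
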