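import Cfsg.Statements.S5433
-- import your own Cfsg.Agent.* helpers here

set_option autoImplicit false
open Cfsg

namespace Cfsg.Agent.S5433

/-- Let Q be a large extraspecial 2-subgroup of the finite group G (extraspecial; centralizer equal to its centre; normal in the centralizer of its centre; normalizing no non-trivial subgroup of odd order), and L a normal subgroup of G containing Q. Then G is the product of L and the normalizer of Q. -/
theorem result {G : Type*} [Group G] [Finite G] (Q : Subgroup G) (hQ : Cfsg.IsLargeExtraspecial Q) (L : Subgroup G) [L.Normal] (hQL : Q ≤ L) : L ⊔ Subgroup.normalizer (Q : Set G) = ⊤ := by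
  classical
  obtain ⟨hex, hcen, hnorm, _⟩ := hQ
  set Z : Subgroup G := (Subgroup.center ↥Q).map Q.subtype with hZ
  have hQp : IsPGroup 2 ↥Q := hex.1.1
  have hZcard : Nat.card (Subgroup.center ↥Q) = 2 := hex.2
  have hZ2 : ∀ x ∈ Z, ∀ y ∈ Z, x ≠ 1 → y ≠ 1 → x = y := by
    intro x hx y hy hx1 hy1
    obtain ⟨x', hx', rfl⟩ := hx
    obtain ⟨y', hy', rfl⟩ := hy
    obtain ⟨w, _, hw⟩ := (Nat.card_eq_two_iff' (1 : Subgroup.center ↥Q)).1 hZcard
    have h1 : (⟨x', hx'⟩ : Subgroup.center ↥Q) = w := hw _ (by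
      intro h
      apply hx1
      have : x' = 1 := congrArg Subtype.val h
      simp [this])
    have h2 : (⟨y', hy'⟩ : Subgroup.center ↥Q) = w := hw _ (by
      intro h
      apply hy1
      have : y' = 1 := congrArg Subtype.val h
      simp [this])
    have h3 : x' = y' := congrArg Subtype.val (h1.trans h2.symm)
    rw [h3]
  rw [eq_top_iff]
  intro g _
  haveI : Fact (Nat.Prime 2) := ⟨Nat.prime_two⟩
  -- Sylow subgroups of L
  have hQL' : IsPGroup 2 ↥(Q.subgroupOf L) :=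
    hQp.of_equiv (Subgroup.subgroupOfEquivOfLe hQL).symm
  obtain ⟨T, hT⟩ := hQL'.exists_le_sylow
  set Qg : Subgroup G := Q.map (MulAut.conj g).toMonoidHom with hQg
  have hQgp : IsPGroup 2 ↥Qg := hQp.map _
  have hQgL : Qg ≤ L := by
    rintro _ ⟨q, hq, rfl⟩
    exact (inferInstance : L.Normal).conj_mem q (hQL hq) g
  have hQgL' : IsPGroup 2 ↥(Qg.subgroupOf L) :=
    hQgp.of_equiv (Subgroup.subgroupOfEquivOfLe hQgL).symm
  obtain ⟨T', hT'⟩ := hQgL'.exists_le_sylow
  obtain ⟨l, hl⟩ := MulAction.exists_smul_eq ↥L T' T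
  set TG : Subgroup G := (T : Subgroup ↥L).map L.subtype with hTG
  have hTGp : IsPGroup 2 ↥TG := T.2.map _
  have hQTG : Q ≤ TG := by
    intro q hq
    exact ⟨⟨q, hQL hq⟩, hT (by simpa [Subgroup.mem_subgroupOf] using hq), rfl⟩
  set h : G := (l : G) * g with hh
  have hQhTG : ∀ q ∈ Q, h * q * h⁻¹ ∈ TG := by
    intro q hq
    have h1 : g * q * g⁻¹ ∈ Qg := ⟨q, hq, rfl⟩
    have h2 : (⟨g * q * g⁻¹, hQgL h1⟩ : ↥L) ∈ (T' : Subgroup ↥L) :=
      hT' (by simpa [Subgroup.mem_subgroupOf] using h1)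
    have h3 : l * (⟨g * q * g⁻¹, hQgL h1⟩ : ↥L) * l⁻¹ ∈ ((l • T' : Sylow 2 ↥L) : Subgroup ↥L) := by
      rw [Sylow.coe_subgroup_smul, Subgroup.mem_pointwise_smul_iff_inv_smul_mem]
      simpa [MulAut.smul_def, mul_assoc] using h2
    rw [hl] at h3
    refine ⟨_, h3, ?_⟩
    simp [hh, mul_assoc]
  -- nontrivial central element
  have hQnt : ∃ z ∈ Z, z ≠ 1 := by
    obtain ⟨w, hw, _⟩ := (Nat.card_eq_two_iff' (1 : Subgroup.center ↥Q)).1 hZcard
    refine ⟨((w : ↥Q) : G), ⟨(w : ↥Q), w.2, rfl⟩, ?_⟩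
    intro h
    apply hw
    ext
    simpa using h
  obtain ⟨z, hzZ, hz1⟩ := hQnt
  have hZQ : Z ≤ Q := by
    rintro _ ⟨x, _, rfl⟩
    exact x.2
  haveI : Nontrivial ↥TG := ⟨⟨⟨z, hQTG (hZQ hzZ)⟩, 1, by
    intro h
    exact hz1 (congrArg Subtype.val h)⟩⟩
  haveI := hTGp.center_nontrivial
  obtain ⟨c, hc⟩ := exists_ne (1 : Subgroup.center ↥TG)
  have hc1 : ((c : ↥TG) : G) ≠ 1 := by
    intro h
    apply hc
    ext
    simpa using h
  have hccomm : ∀ y ∈ TG, y * ((c : ↥TG) : G) = ((c : ↥TG) : G) * y := by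
    intro y hy
    have := Subgroup.mem_center_iff.1 c.2 ⟨y, hy⟩
    exact congrArg Subtype.val this
  set c' : G := ((c : ↥TG) : G) with hc'
  have hcZ : c' ∈ Z := by
    rw [← hcen, Subgroup.mem_centralizer_iff]
    intro q hq
    exact hccomm q (hQTG hq)
  have hcZ' : h⁻¹ * c' * h ∈ Z := by
    rw [← hcen, Subgroup.mem_centralizer_iff]
    intro q hq
    have := hccomm _ (hQhTG q hq)
    calc q * (h⁻¹ * c' * h) = h⁻¹ * ((h * q * h⁻¹) * c') * h := by group
      _ = h⁻¹ * (c' * (h * q * h⁻¹)) * h := by rw [this]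
      _ = h⁻¹ * c' * h * q := by group
  have hne : h⁻¹ * c' * h ≠ 1 := by
    intro hcon
    apply hc1
    have : c' = h * (h⁻¹ * c' * h) * h⁻¹ := by group
    rw [this, hcon]; group
  have heq : h⁻¹ * c' * h = c' := hZ2 _ hcZ' _ hcZ hne hc1
  have hhC : h ∈ Subgroup.centralizer ((Z : Subgroup G) : Set G) := by
    rw [Subgroup.mem_centralizer_iff]
    intro y hy
    by_cases hy1 : y = 1
    · rw [hy1]; simp
    · have : y = c' := hZ2 _ hy _ hcZ hy1 hc1
      rw [this]
      calc c' * h = h * (h⁻¹ * c' * h) := by group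
        _ = h * c' := by rw [heq]
  have hhN : h ∈ Subgroup.normalizer (Q : Set G) := hnorm hhC
  have : g = (l : G)⁻¹ * h := by rw [hh]; group
  rw [this]
  exact Subgroup.mul_mem _ (Subgroup.mem_sup_left (L.inv_mem l.2)) (Subgroup.mem_sup_right hhN)

end Cfsg.Agent.S5433
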