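import Cfsg.Statements.S5434
-- import your own Cfsg.Agent.* helpers here
import Mathlib
import Cfsg.Agent.S0012
import Cfsg.Agent.S0013
import Cfsg.Agent.Lib.Helper1.Coprime

set_option autoImplicit false
open Cfsg

namespace Cfsg.Agent.S5434

open scoped commutatorElement

theorem card_two_eq {G : Type*} [Group G] {Z : Subgroup G} (h : Nat.card Z = 2) {a b : G}
    (ha : a ∈ Z) (hb : b ∈ Z) (ha1 : a ≠ 1) (hb1 : b ≠ 1) : a = b := by
  obtain ⟨y, -, hy⟩ := (Nat.card_eq_two_iff' (1 : Z)).mp h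
  have h1 := hy ⟨a, ha⟩ (fun h => ha1 (congrArg Subtype.val h))
  have h2 := hy ⟨b, hb⟩ (fun h => hb1 (congrArg Subtype.val h))
  exact congrArg Subtype.val (h1.trans h2.symm)

theorem extra_of_sub {G : Type*} [Group G] [Finite G] (Q Z R : Subgroup G) (hQ2 : IsPGroup 2 Q)
    (hZc : Nat.card Z = 2) (hZcomm : ∀ z ∈ Z, ∀ x ∈ Q, z * x = x * z)
    (hcomm : ∀ x ∈ Q, ∀ y ∈ Q, ⁅x, y⁆ ∈ Z) (hsq : ∀ x ∈ Q, x ^ 2 ∈ Z) (hRQ : R ≤ Q)
    (hna : ∃ x ∈ R, ∃ y ∈ R, x * y ≠ y * x)
    (hcen : ∀ x ∈ R, (∀ y ∈ R, x * y = y * x) → x ∈ Z) : Cfsg.IsExtraspecial 2 R := by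
  obtain ⟨x, hx, y, hy, hxy⟩ := hna
  have hc1 : ⁅x, y⁆ ≠ 1 := by
    rw [Ne, commutatorElement_eq_one_iff_mul_comm]; exact hxy
  have hcZ : ⁅x, y⁆ ∈ Z := hcomm x (hRQ hx) y (hRQ hy)
  have hcR : ⁅x, y⁆ ∈ R := by
    rw [commutatorElement_def]
    exact R.mul_mem (R.mul_mem (R.mul_mem hx hy) (R.inv_mem hx)) (R.inv_mem hy)
  have hZel : ∀ z ∈ Z, z = 1 ∨ z = ⁅x, y⁆ := by
    intro z hz
    by_cases h : z = 1
    · exact Or.inl h
    · exact Or.inr (card_two_eq hZc hz hcZ h hc1)
  have hZR : Z ≤ R := by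
    intro z hz
    rcases hZel z hz with h | h
    · rw [h]; exact R.one_mem
    · rw [h]; exact hcR
  have hcenter : Subgroup.center R = Z.subgroupOf R := by
    ext r
    rw [Subgroup.mem_center_iff, Subgroup.mem_subgroupOf]
    constructor
    · intro h
      apply hcen r r.2
      intro y hy
      exact (congrArg Subtype.val (h ⟨y, hy⟩)).symm
    · intro h g
      apply Subtype.ext
      exact (hZcomm r h g (hRQ g.2)).symm
  have hcard : Nat.card (Subgroup.center R) = 2 := by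
    rw [hcenter, Nat.card_congr (Subgroup.subgroupOfEquivOfLe hZR).toEquiv, hZc]
  have hP : IsPGroup 2 R := hQ2.to_le hRQ
  have hcomR : commutator R = Subgroup.center R := by
    apply le_antisymm
    · rw [commutator_def, Subgroup.commutator_le]
      intro a _ b _
      rw [hcenter, Subgroup.mem_subgroupOf]
      exact hcomm a (hRQ a.2) b (hRQ b.2)
    · rw [hcenter]
      intro r hr
      rw [Subgroup.mem_subgroupOf] at hr
      rcases hZel r hr with h | h
      · have h1 : r = 1 := Subtype.ext h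
        rw [h1]; exact one_mem _
      · have h1 : r = ⁅(⟨x, hx⟩ : R), ⟨y, hy⟩⁆ := Subtype.ext h
        rw [h1]
        exact Subgroup.commutator_mem_commutator (Subgroup.mem_top _) (Subgroup.mem_top _)
  have hfr : frattini R = Subgroup.center R := by
    apply le_antisymm
    · apply Cfsg.Agent.S0013.result 2 hP (Subgroup.center R) hcomR.le
      intro r
      rw [hcenter, Subgroup.mem_subgroupOf]
      exact hsq r (hRQ r.2)
    · rw [← hcomR]
      exact (Cfsg.Agent.S0012.result 2 hP).1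
  exact ⟨⟨hP, hfr, hcomR⟩, hcard⟩

/-- Let Q be a large extraspecial 2-subgroup of the finite group G (extraspecial; centralizer equal to its centre; normal in the centralizer of its centre; normalizing no non-trivial subgroup of odd order), and A a non-trivial subgroup of odd order of the normalizer of Q. Then Q is the central product of the centralizer of A in Q and the commutator subgroup [Q, A] (they generate Q and commute elementwise), [Q, A] is extraspecial, and the centralizer of A in Q is either the centre of Q or extraspecial. -/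
theorem result {G : Type*} [Group G] [Finite G] (Q : Subgroup G) (hQ : Cfsg.IsLargeExtraspecial Q) (A : Subgroup G) (hA : A ≤ Subgroup.normalizer (Q : Set G)) (hAodd : Odd (Nat.card ↥A)) (hA1 : A ≠ ⊥) : (Q ⊓ Subgroup.centralizer (A : Set G)) ⊔ ⁅Q, A⁆ = Q ∧ (∀ x ∈ Q ⊓ Subgroup.centralizer (A : Set G), ∀ y ∈ ⁅Q, A⁆, x * y = y * x) ∧ Cfsg.IsExtraspecial 2 ↥⁅Q, A⁆ ∧ (Q ⊓ Subgroup.centralizer (A : Set G) = ((Subgroup.center ↥Q).map Q.subtype) ∨ Cfsg.IsExtraspecial 2 ↥(Q ⊓ Subgroup.centralizer (A : Set G))) := by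
  obtain ⟨hE, hC, -, -⟩ := hQ
  have hQ2 : IsPGroup 2 Q := hE.1.1
  set Z := (Subgroup.center Q).map Q.subtype with hZ
  have hZc : Nat.card Z = 2 := by
    rw [hZ, Subgroup.card_map_of_injective Q.subtype_injective]; exact hE.2
  have hZQ : Z ≤ Q := Subgroup.map_subtype_le _
  have hZcomm : ∀ z ∈ Z, ∀ x ∈ Q, z * x = x * z := by
    intro z hz x hx
    rw [← hC, Subgroup.mem_centralizer_iff] at hz
    exact (hz x hx).symm
  have hcomm : ∀ x ∈ Q, ∀ y ∈ Q, ⁅x, y⁆ ∈ Z := by
    intro x hx y hy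
    have h1 : ⁅(⟨x, hx⟩ : Q), ⟨y, hy⟩⁆ ∈ commutator Q :=
      Subgroup.commutator_mem_commutator (Subgroup.mem_top _) (Subgroup.mem_top _)
    rw [hE.1.2.2] at h1
    exact ⟨_, h1, rfl⟩
  have hsq : ∀ x ∈ Q, x ^ 2 ∈ Z := by
    intro x hx
    have h1 := (Cfsg.Agent.S0012.result 2 hQ2).2 ⟨x, hx⟩
    rw [hE.1.2.1] at h1
    exact ⟨_, h1, rfl⟩
  have hcop : (Nat.card A).Coprime (Nat.card Q) := by
    obtain ⟨k, hk⟩ := IsPGroup.iff_card.mp hQ2
    rw [hk]
    exact Nat.Coprime.pow_right _ (Nat.coprime_two_right.mpr hAodd)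
  have hsolv : Group.IsSolvable A ∨ Group.IsSolvable Q :=
    Or.inr (Cfsg.Agent.Lib.Helper1.isSolvable_of_isPGroup hQ2)
  have hfac := Cfsg.Agent.Lib.Helper1.coprime_factor A Q hA hcop hsolv
  have hcc := Cfsg.Agent.Lib.Helper1.coprime_comm_comm A Q hA hcop hsolv
  set R := ⁅Q, A⁆ with hR
  set C := Q ⊓ Subgroup.centralizer (A : Set G) with hCdef
  have hRQ : R ≤ Q := le_sup_left.trans_eq hfac
  have hAQ : ∀ a ∈ A, ∀ x ∈ Q, a * x * a⁻¹ ∈ Q := Subgroup.le_normalizer_iff.mp hA
  have hZA : ⁅Z, A⁆ = ⊥ := by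
    rw [Subgroup.commutator_eq_bot_iff_le_centralizer]
    intro z hz
    rw [Subgroup.mem_centralizer_iff]
    intro a ha
    by_cases hz1 : z = 1
    · rw [hz1, mul_one, one_mul]
    have h1 : a * z * a⁻¹ ∈ Z := by
      rw [← hC, Subgroup.mem_centralizer_iff]
      intro x hx
      have h2 : a⁻¹ * x * a⁻¹⁻¹ ∈ Q := hAQ a⁻¹ (A.inv_mem ha) x hx
      have h3 := hZcomm z hz _ h2
      calc x * (a * z * a⁻¹) = a * ((a⁻¹ * x * a⁻¹⁻¹) * z) * a⁻¹ := by group
        _ = a * (z * (a⁻¹ * x * a⁻¹⁻¹)) * a⁻¹ := by rw [h3]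
        _ = a * z * a⁻¹ * x := by group
    have h2 : a * z * a⁻¹ ≠ 1 := by
      intro h
      apply hz1
      have : z = a⁻¹ * (a * z * a⁻¹) * a := by group
      rw [this, h]; group
    have h3 := card_two_eq hZc h1 hz h2 hz1
    exact mul_inv_eq_iff_eq_mul.mp h3
  have hRC : ⁅R, C⁆ = ⊥ := by
    apply Subgroup.commutator_commutator_eq_bot_of_rotate
    · have h1 : ⁅A, C⁆ = ⊥ := by
        rw [Subgroup.commutator_eq_bot_iff_le_centralizer, Subgroup.le_centralizer_iff]
        exact inf_le_right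
      rw [h1, Subgroup.commutator_bot_left]
    · rw [eq_bot_iff, ← hZA]
      apply Subgroup.commutator_mono _ le_rfl
      rw [Subgroup.commutator_le]
      intro c hc q hq
      exact hcomm c hc.1 q hq
  have hcommRC : ∀ x ∈ C, ∀ y ∈ R, x * y = y * x := by
    intro x hx y hy
    have h1 := (Subgroup.commutator_eq_bot_iff_le_centralizer.mp hRC) hy
    rw [Subgroup.mem_centralizer_iff] at h1
    exact h1 x hx
  have hcenQ : ∀ x, (∀ c ∈ C, x * c = c * x) → (∀ r ∈ R, x * r = r * x) → x ∈ Z := by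
    intro x h1 h2
    rw [← hC]
    have h3 : Q ≤ Subgroup.centralizer {x} := by
      rw [← hfac]
      exact sup_le (fun r hr => Subgroup.mem_centralizer_singleton_iff.mpr (h2 r hr).symm)
        (fun c hc => Subgroup.mem_centralizer_singleton_iff.mpr (h1 c hc).symm)
    rw [Subgroup.mem_centralizer_iff]
    intro q hq
    exact Subgroup.mem_centralizer_singleton_iff.mp (h3 hq)
  have hRna : ∃ x ∈ R, ∃ y ∈ R, x * y ≠ y * x := by
    by_contra hcon
    push Not at hcon
    have hRZ : R ≤ Z := fun r hr =>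
      hcenQ r (fun c hc => (hcommRC c hc r hr).symm) (fun r' hr' => hcon r hr r' hr')
    have h2 : R = ⊥ := by
      rw [← hcc, eq_bot_iff, ← hZA]
      exact Subgroup.commutator_mono hRZ le_rfl
    have h3 : A ≤ Z := by
      rw [← hC]
      exact Subgroup.le_centralizer_iff.mp (Subgroup.commutator_eq_bot_iff_le_centralizer.mp h2)
    have h4 : Nat.card A ∣ 2 := hZc ▸ Subgroup.card_dvd_of_le h3
    have h5 : Nat.card A = 1 := by
      rcases (Nat.dvd_prime Nat.prime_two).mp h4 with h | h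
      · exact h
      · rw [h] at hAodd
        exact absurd hAodd (by decide)
    exact hA1 (Subgroup.card_eq_one.mp h5)
  refine ⟨by rw [sup_comm]; exact hfac, hcommRC,
    extra_of_sub Q Z R hQ2 hZc hZcomm hcomm hsq hRQ hRna
      (fun x hx h => hcenQ x (fun c hc => (hcommRC c hc x hx).symm) h), ?_⟩
  by_cases hCab : ∀ x ∈ C, ∀ y ∈ C, x * y = y * x
  · left
    apply le_antisymm
    · intro c hc
      exact hcenQ c (fun c' hc' => hCab c hc c' hc') (fun r hr => hcommRC c hc r hr)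
    · intro z hz
      exact Subgroup.mem_inf.mpr
        ⟨hZQ hz, (Subgroup.commutator_eq_bot_iff_le_centralizer.mp hZA) hz⟩
  · right
    push Not at hCab
    exact extra_of_sub Q Z C hQ2 hZc hZcomm hcomm hsq inf_le_left hCab
      (fun x hx h => hcenQ x h (fun r hr => hcommRC x hx r hr))

end Cfsg.Agent.S5434
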