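import Cfsg.Statements.S5435
import Mathlib
import Cfsg.Agent.Lib.Helper14.AbIndexTwo
import Cfsg.Agent.Lib.Helper14.DihRec
import Cfsg.Agent.Lib.Lead.ZS10
import Cfsg.Agent.Lib.Helper1.Frattini
import Cfsg.Agent.Lib.Helper12.TwoGroup
import Cfsg.Agent.Lib.Helper17.ThTransfer
-- import your own Cfsg.Agent.* helpers here

set_option autoImplicit false
open Cfsg

namespace Cfsg.Agent.S5435

open Cfsg.Agent.Lib.Helper14 Cfsg.Agent.Lib
open scoped commutatorElement

theorem mem_zp {L : Type*} [Group L] {z x : L} (hz : z ^ 2 = 1) :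
    x ∈ Subgroup.zpowers z ↔ x = 1 ∨ x = z := by
  constructor
  · rintro ⟨k, rfl⟩
    have hz' : z ^ (2 : ℤ) = 1 := by exact_mod_cast hz
    rcases Int.emod_two_eq_zero_or_one k with h | h
    · left
      have hk : k = 2 * (k / 2) := by omega
      show z ^ k = 1
      rw [hk, zpow_mul, hz', one_zpow]
    · right
      have hk : k = 2 * (k / 2) + 1 := by omega
      show z ^ k = z
      rw [hk, zpow_add, zpow_mul, hz', one_zpow, one_mul, zpow_one]
  · rintro (rfl | rfl)
    · exact one_mem _
    · exact Subgroup.mem_zpowers _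

theorem d8_of {X : Type*} [Group X] [Finite X] (z t r : X) (hz : z ≠ 1) (hz2 : z ^ 2 = 1)
    (hzc : ∀ x, x * z = z * x) (ht2 : t ^ 2 = 1)
    (hsq : ∀ x : X, x ^ 2 = 1 ∨ x ^ 2 = z)
    (hcm : ∀ x y : X, x * y * x⁻¹ * y⁻¹ = 1 ∨ x * y * x⁻¹ * y⁻¹ = z)
    (hCc : ∀ x y : X, x * t = t * x → y * t = t * y → x * y = y * x)
    (hcen : ∀ b : X, (∀ s, s * b = b * s) → b = 1 ∨ b = z)
    (hr : r * t ≠ t * r) : Nonempty (X ≃* DihedralGroup 4) := by
  have hoz : orderOf z = 2 := orderOf_eq_prime hz2 hz
  have hrt : r * t * r⁻¹ * t⁻¹ = z := by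
    rcases hcm r t with h | h
    · exfalso; apply hr
      have : r * t = (r * t * r⁻¹ * t⁻¹) * (t * r) := by group
      rw [this, h, one_mul]
    · exact h
  have htinv : t⁻¹ = t := by
    rw [inv_eq_iff_mul_eq_one, ← pow_two, ht2]
  have hzinv : z⁻¹ = z := by
    rw [inv_eq_iff_mul_eq_one, ← pow_two, hz2]
  -- T0
  set T0 : Subgroup X := Subgroup.centralizer {t} with hT0
  have hmT : ∀ x, x ∈ T0 ↔ x * t = t * x := fun x => Subgroup.mem_centralizer_singleton_iff
  have hT0c : IsMulCommutative T0 := ⟨⟨fun a b => Subtype.ext (hCc a b ((hmT _).1 a.2) ((hmT _).1 b.2))⟩⟩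
  have hT0i : T0.index = 2 := by
    rw [Subgroup.index_eq_two_iff]
    refine ⟨r, fun b => ?_⟩
    rw [hmT, hmT]
    have hrt' : r * t = z * t * r := by
      have : r * t = (r * t * r⁻¹ * t⁻¹) * (t * r) := by group
      rw [this, hrt, mul_assoc]
    rcases hcm b t with h | h
    · have hb : b * t = t * b := by
        have : b * t = (b * t * b⁻¹ * t⁻¹) * (t * b) := by group
        rw [this, h, one_mul]
      right
      refine ⟨hb, ?_⟩
      intro h2
      apply hz
      have e1 : b * r * t = z * (t * (b * r)) := by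
        rw [mul_assoc b r t, hrt', ← mul_assoc, ← mul_assoc, hzc b, mul_assoc z b t, hb]
        simp only [mul_assoc]
      rw [h2] at e1
      exact (mul_eq_right.mp e1.symm)
    · have hb : b * t = z * t * b := by
        have : b * t = (b * t * b⁻¹ * t⁻¹) * (t * b) := by group
        rw [this, h, mul_assoc]
      left
      refine ⟨?_, ?_⟩
      · rw [mul_assoc b r t, hrt', ← mul_assoc, ← mul_assoc, hzc b, mul_assoc z b t, hb]
        have : z * (z * t * b) * r = z ^ 2 * (t * (b * r)) := by rw [pow_two]; simp only [mul_assoc]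
        rw [this, hz2, one_mul]
      · intro h2
        apply hz
        rw [h2, mul_assoc] at hb
        exact (mul_eq_right.mp hb.symm)
  have hXn : ¬ IsMulCommutative X := fun h => hr (h.is_comm.comm r t)
  have hcard := card_abelian_index_two T0 hT0c hT0i hXn
  have hcz : Subgroup.center X = Subgroup.zpowers z := by
    ext b
    rw [Subgroup.mem_center_iff, mem_zp hz2]
    constructor
    · intro h; exact hcen b h
    · rintro (rfl | rfl)
      · intro s; simp
      · intro s; exact hzc s
  have hcc : commutator X = Subgroup.zpowers z := by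
    apply le_antisymm
    · rw [commutator_eq_closure, Subgroup.closure_le]
      rintro _ ⟨x, y, rfl⟩
      rw [SetLike.mem_coe, mem_zp hz2, commutatorElement_def]
      exact hcm x y
    · rw [Subgroup.zpowers_le, ← hrt, ← commutatorElement_def, commutator_def]
      exact Subgroup.commutator_mem_commutator (Subgroup.mem_top _) (Subgroup.mem_top _)
  rw [hcz, hcc, Nat.card_zpowers, hoz] at hcard
  have hX8 : Nat.card X = 2 * 4 := by
    rw [← Subgroup.card_mul_index T0, hcard, hT0i]
  have htz : t ≠ z := by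
    intro h; apply hr; rw [h]; exact hzc r
  have ht1 : t ≠ 1 := by
    intro h; apply hr; rw [h]; simp
  have hrt' : r * t = z * t * r := by
    have : r * t = (r * t * r⁻¹ * t⁻¹) * (t * r) := by group
    rw [this, hrt, mul_assoc]
  have hnc : ∀ c : X, c * t ≠ t * c → t ∉ Subgroup.zpowers c := by
    intro c hc hmem
    obtain ⟨k, hk⟩ := Subgroup.mem_zpowers_iff.1 hmem
    apply hc
    rw [← hk]
    exact ((Commute.refl c).zpow_right k).eq
  have htt : t * t = 1 := by rw [← pow_two, ht2]
  rcases hsq r with h | h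
  · have hrr : r * r = 1 := by rw [← pow_two, h]
    have hrinv : r⁻¹ = r := by rw [inv_eq_iff_mul_eq_one, hrr]
    have hc2 : (r * t) ^ 2 = z := by
      rw [pow_two]
      calc r * t * (r * t) = z * t * r * (r * t) := by rw [hrt']
        _ = z * t * (r * r) * t := by simp only [mul_assoc]
        _ = z * (t * t) := by rw [hrr]; simp only [mul_assoc, one_mul]
        _ = z := by rw [htt, mul_one]
    have hoc : orderOf (r * t) = 4 := by
      have := orderOf_eq_prime_pow (p := 2) (n := 1) (x := r * t) (by rw [pow_one, hc2]; exact hz)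
        (by norm_num; rw [show (4 : ℕ) = 2 * 2 from rfl, pow_mul, hc2, hz2])
      simpa using this
    refine nonempty_mulEquiv_dihedral 4 (r * t) t hoc (hnc _ ?_) htt ?_ hX8
    · intro h2
      apply hr
      have : r * t * t = t * (r * t) := h2
      rw [mul_assoc, htt, mul_one] at this
      calc r * t = t * (r * t) * t := by rw [← this]
        _ = t * r * (t * t) := by simp only [mul_assoc]
        _ = t * r := by rw [htt, mul_one]
    · rw [mul_inv_rev, htinv, hrinv]
      calc t * (r * t) * t = t * r * (t * t) := by simp only [mul_assoc]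
        _ = t * r := by rw [htt, mul_one]
  · have hoc : orderOf r = 4 := by
      have := orderOf_eq_prime_pow (p := 2) (n := 1) (x := r) (by rw [pow_one, h]; exact hz)
        (by norm_num; rw [show (4 : ℕ) = 2 * 2 from rfl, pow_mul, h, hz2])
      simpa using this
    refine nonempty_mulEquiv_dihedral 4 r t hoc (hnc _ hr) htt ?_ hX8
    have hrinv : r⁻¹ = z * r := by
      rw [inv_eq_iff_mul_eq_one, ← mul_assoc, hzc r, mul_assoc, ← pow_two, h, ← pow_two, hz2]
    rw [hrinv, htinv]
    have e : z * (r * t) = t * r := by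
      rw [hrt', ← mul_assoc, ← mul_assoc, ← pow_two, hz2, one_mul]
    calc t * r * t = z * (r * t) * t := by rw [e]
      _ = z * r * (t * t) := by simp only [mul_assoc]
      _ = z * r := by rw [htt, mul_one]

/-- Let L be a finite non-abelian simple group with an involution z whose centralizer R is a Sylow 2-subgroup of L whose Frattini subgroup is the subgroup generated by z. Then R is dihedral of order 8. -/
theorem result {L : Type*} [Group L] [Finite L] [IsSimpleGroup L] (hL : ¬ IsMulCommutative L) (z : L) (hz : orderOf z = 2) (R : Sylow 2 L) (hR : (R : Subgroup L) = Subgroup.centralizer ({z} : Set L)) (hΦ : (frattini ↥(R : Subgroup L)).map (R : Subgroup L).subtype = Subgroup.zpowers z) : Nonempty (↥(R : Subgroup L) ≃* DihedralGroup 4) := by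
  have : Fact (Nat.Prime 2) := ⟨Nat.prime_two⟩
  have hz2 : z ^ 2 = 1 := by rw [← hz]; exact pow_orderOf_eq_one z
  have hz1 : z ≠ 1 := by intro h; rw [h, orderOf_one] at hz; omega
  have hmemR : ∀ x, x ∈ (R : Subgroup L) ↔ x * z = z * x := by
    intro x; rw [hR, Subgroup.mem_centralizer_singleton_iff]
  have hPg : IsPGroup 2 ↥(R : Subgroup L) := R.isPGroup'
  have hsq : ∀ r ∈ (R : Subgroup L), r ^ 2 = 1 ∨ r ^ 2 = z := by
    intro r hr
    have h1 := Helper1.pgroup_pow_mem_frattini hPg ⟨r, hr⟩
    have h2 : r ^ 2 ∈ (frattini ↥(R : Subgroup L)).map (R : Subgroup L).subtype :=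
      ⟨_, h1, by simp⟩
    rw [hΦ] at h2
    exact (mem_zp hz2).1 h2
  have hcm : ∀ r ∈ (R : Subgroup L), ∀ s ∈ (R : Subgroup L),
      r * s * r⁻¹ * s⁻¹ = 1 ∨ r * s * r⁻¹ * s⁻¹ = z := by
    intro r hr s hs
    have h1 : ⁅(⟨r, hr⟩ : ↥(R : Subgroup L)), ⟨s, hs⟩⁆ ∈ frattini ↥(R : Subgroup L) :=
      Helper1.pgroup_commutator_le_frattini hPg (by
        rw [commutator_def]
        exact Subgroup.commutator_mem_commutator (Subgroup.mem_top _) (Subgroup.mem_top _))
    have h2 : r * s * r⁻¹ * s⁻¹ ∈ (frattini ↥(R : Subgroup L)).map (R : Subgroup L).subtype :=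
      ⟨_, h1, by simp [commutatorElement_def]⟩
    rw [hΦ] at h2
    exact (mem_zp hz2).1 h2
  obtain ⟨r0, hr0, hr0z⟩ : ∃ r0 ∈ (R : Subgroup L), r0 ^ 2 = z := by
    by_contra hcon
    push Not at hcon
    have hall : ∀ r : ↥(R : Subgroup L), r * r = 1 := by
      intro r
      rcases hsq r r.2 with h | h
      · apply Subtype.ext; simpa [pow_two] using h
      · exact absurd h (hcon r r.2)
    have hbot := Helper12.frattini_eq_bot_of_sq hall
    rw [hbot, Subgroup.map_bot] at hΦ
    apply hz1
    have : z ∈ (⊥ : Subgroup L) := by rw [hΦ]; exact Subgroup.mem_zpowers z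
    simpa using this
  have hN : ∀ n ∈ Subgroup.normalizer ((R : Subgroup L) : Set L), n ∈ (R : Subgroup L) := by
    intro n hn
    have h1 : n * r0 * n⁻¹ ∈ (R : Subgroup L) := (Subgroup.mem_normalizer_iff.1 hn r0).1 hr0
    have h2 : (n * r0 * n⁻¹) ^ 2 = n * z * n⁻¹ := by rw [conj_pow, hr0z]
    rw [hmemR]
    rcases hsq _ h1 with h | h
    · exfalso; rw [h2] at h; apply hz1
      simpa using h
    · rw [h2] at h
      calc n * z = n * z * n⁻¹ * n := by group
        _ = z * n := by rw [h]
  have hno2 : ¬ ∃ N : Subgroup L, N.Normal ∧ N.index = 2 := by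
    rintro ⟨N, hNn, hNi⟩
    rcases hNn.eq_bot_or_eq_top with h | h
    · rw [h, Subgroup.index_bot] at hNi
      haveI := isCyclic_of_prime_card (p := 2) hNi
      apply hL
      letI := IsCyclic.commGroup (α := L)
      exact ⟨⟨fun a b => mul_comm a b⟩⟩
    · rw [h, Subgroup.index_top] at hNi; omega
  have hZ : ∀ b ∈ (R : Subgroup L), (∀ s ∈ (R : Subgroup L), s * b = b * s) → b ^ 2 = 1 →
      b = 1 ∨ b = z := by
    intro b hb hbc hb2
    by_contra hcon
    have hbz : b ∉ Subgroup.zpowers z := fun h => hcon ((mem_zp hz2).1 h)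
    have hbF : (⟨b, hb⟩ : ↥(R : Subgroup L)) ∉ frattini ↥(R : Subgroup L) := by
      intro h; apply hbz; rw [← hΦ]; exact ⟨_, h, rfl⟩
    rw [Helper1.mem_frattini_iff] at hbF
    push Not at hbF
    obtain ⟨M0, hM0, hbM0⟩ := hbF
    obtain ⟨hM0n, hM0i⟩ := Helper1.pgroup_coatom hPg M0 hM0
    obtain ⟨N, hNn, hNi, -⟩ := Helper17.exists_index_two_of_central R
      (M0.map (R : Subgroup L).subtype) (Subgroup.map_subtype_le _)
      (by
        show ((M0.map (R : Subgroup L).subtype).comap (R : Subgroup L).subtype).index = 2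
        rw [Subgroup.comap_map_eq_self_of_injective (Subgroup.subtype_injective _)]
        exact hM0i) b hb hbc hb2
      (by
        rintro ⟨y, hy, hyb⟩
        apply hbM0
        have : y = ⟨b, hb⟩ := Subtype.ext hyb
        rwa [← this])
      (fun g hg => by rw [hbc g (hN g hg)]; group)
    exact hno2 ⟨N, hNn, hNi⟩
  have hniso : ¬ Lead.IsoInv z := by
    intro hiso
    obtain ⟨N, hNn, hNodd, hNc⟩ := Lead.zstar' hiso
    rcases hNn.eq_bot_or_eq_top with h | h
    · have hzc : z ∈ Subgroup.center L := by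
        rw [Subgroup.mem_center_iff]; intro g
        have h3 := hNc g
        rw [h, Subgroup.mem_bot] at h3
        calc g * z = (z * g * z⁻¹ * g⁻¹)⁻¹ * (z * g) := by group
          _ = z * g := by rw [h3]; simp
      rcases (inferInstance : (Subgroup.center L).Normal).eq_bot_or_eq_top with h4 | h4
      · rw [h4, Subgroup.mem_bot] at hzc; exact hz1 hzc
      · apply hL
        refine ⟨⟨fun a b => ?_⟩⟩
        have : b ∈ Subgroup.center L := by rw [h4]; exact Subgroup.mem_top _
        exact (Subgroup.mem_center_iff.1 this a)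
    · rw [h, Nat.card_eq_of_bijective _ (Subgroup.topEquiv (G := L)).bijective] at hNodd
      have := orderOf_dvd_natCard z
      rw [hz] at this
      exact (Nat.not_even_iff_odd.2 hNodd) (even_iff_two_dvd.2 this)
  have hex : ∃ g : L, Commute (g * z * g⁻¹) z ∧ g * z * g⁻¹ ≠ z := by
    by_contra hcon
    push Not at hcon
    exact hniso ⟨hz, hcon⟩
  obtain ⟨g, hgc, hgz⟩ := hex
  obtain ⟨t, ht⟩ : ∃ t, t = g * z * g⁻¹ := ⟨_, rfl⟩
  rw [← ht] at hgc hgz
  have ht2 : t ^ 2 = 1 := by rw [ht, conj_pow, hz2]; group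
  have ht1 : t ≠ 1 := by
    intro h; rw [ht] at h; apply hz1; simpa using h
  have htR : t ∈ (R : Subgroup L) := (hmemR t).2 hgc.eq
  have hconjR : ∀ m, m * t = t * m → g⁻¹ * m * g ∈ (R : Subgroup L) := by
    intro m hm
    rw [hmemR]
    calc g⁻¹ * m * g * z = g⁻¹ * (m * (g * z * g⁻¹)) * g := by group
      _ = g⁻¹ * ((g * z * g⁻¹) * m) * g := by rw [← ht, hm]
      _ = z * (g⁻¹ * m * g) := by group
  have hsq' : ∀ m, m * t = t * m → m ^ 2 = 1 ∨ m ^ 2 = t := by
    intro m hm
    have e : (g⁻¹ * m * g) ^ 2 = g⁻¹ * m ^ 2 * g := by rw [pow_two, pow_two]; group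
    have e2 : m ^ 2 = g * (g⁻¹ * m ^ 2 * g) * g⁻¹ := by group
    rcases hsq _ (hconjR m hm) with h | h
    · left; rw [e2, ← e, h]; group
    · right; rw [e2, ← e, h, ht]
  have hcm' : ∀ m n, m * t = t * m → n * t = t * n →
      m * n * m⁻¹ * n⁻¹ = 1 ∨ m * n * m⁻¹ * n⁻¹ = t := by
    intro m n hm hn
    have e : (g⁻¹ * m * g) * (g⁻¹ * n * g) * (g⁻¹ * m * g)⁻¹ * (g⁻¹ * n * g)⁻¹
        = g⁻¹ * (m * n * m⁻¹ * n⁻¹) * g := by group
    have e2 : m * n * m⁻¹ * n⁻¹ = g * (g⁻¹ * (m * n * m⁻¹ * n⁻¹) * g) * g⁻¹ := by group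
    rcases hcm _ (hconjR m hm) _ (hconjR n hn) with h | h
    · left; rw [e2, ← e, h]; group
    · right; rw [e2, ← e, h, ht]
  obtain ⟨r, hr, hrt⟩ : ∃ r ∈ (R : Subgroup L), r * t ≠ t * r := by
    by_contra hcon
    push Not at hcon
    rcases hZ t htR hcon ht2 with h | h
    · exact ht1 h
    · exact hgz h
  have hzR : z ∈ (R : Subgroup L) := (hmemR z).2 rfl
  refine d8_of (X := ↥(R : Subgroup L)) ⟨z, hzR⟩ ⟨t, htR⟩ ⟨r, hr⟩ ?_ ?_ ?_ ?_ ?_ ?_ ?_ ?_ ?_
  · intro h; exact hz1 (congrArg Subtype.val h)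
  · exact Subtype.ext hz2
  · intro x; exact Subtype.ext ((hmemR x).1 x.2)
  · exact Subtype.ext ht2
  · intro x
    rcases hsq x x.2 with h | h
    · left; exact Subtype.ext h
    · right; exact Subtype.ext h
  · intro x y
    rcases hcm x x.2 y y.2 with h | h
    · left; exact Subtype.ext h
    · right; exact Subtype.ext h
  · intro x y hx hy
    have hx' : (x : L) * t = t * x := congrArg Subtype.val hx
    have hy' : (y : L) * t = t * y := congrArg Subtype.val hy
    have h1 : (x : L) * y * (x : L)⁻¹ * (y : L)⁻¹ = 1 := by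
      rcases hcm x x.2 y y.2 with h | h
      · exact h
      · rcases hcm' x y hx' hy' with h' | h'
        · exact h'
        · exfalso; exact hgz (h'.symm.trans h)
    apply Subtype.ext
    show (x : L) * y = y * x
    calc (x : L) * y = ((x : L) * y * (x : L)⁻¹ * (y : L)⁻¹) * (y * x) := by group
      _ = y * x := by rw [h1, one_mul]
  · intro b hb
    have hbt : (b : L) * t = t * b := (congrArg Subtype.val (hb ⟨t, htR⟩)).symm
    have hb2 : (b : L) ^ 2 = 1 := by
      rcases hsq b b.2 with h | h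
      · exact h
      · rcases hsq' b hbt with h' | h'
        · exact h'
        · exfalso; exact hgz (h'.symm.trans h)
    rcases hZ b b.2 (fun s hs => congrArg Subtype.val (hb ⟨s, hs⟩)) hb2 with h | h
    · left; exact Subtype.ext h
    · right; exact Subtype.ext h
  · intro h; exact hrt (congrArg Subtype.val h)

end Cfsg.Agent.S5435
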