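import Cfsg.Statements.S5436
import Mathlib
import Cfsg.Agent.Lib.Helper14.PGroupRel
import Cfsg.Agent.Lib.Helper10.Components
import Cfsg.Agent.Lib.Lead.Basic
-- import your own Cfsg.Agent.* helpers here

set_option autoImplicit false
open Cfsg

namespace Cfsg.Agent.S5436

open Cfsg.Agent.Lib
open scoped commutatorElement

theorem inv_of_fpf {G : Type*} [Group G] [Finite G] (N : Subgroup G) [hN : N.Normal] (t : G)
    (ht : t * t = 1) (hf : ∀ n ∈ N, n * t = t * n → n = 1) : ∀ n ∈ N, t * n * t⁻¹ = n⁻¹ := by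
  have hti : t⁻¹ = t := inv_eq_of_mul_eq_one_left ht
  let φ : N → N := fun n => ⟨(n : G)⁻¹ * (t * n * t⁻¹), N.mul_mem (N.inv_mem n.2) (hN.conj_mem _ n.2 t)⟩
  have hinj : Function.Injective φ := by
    intro n m h
    have h1 : (n : G)⁻¹ * (t * n * t⁻¹) = (m : G)⁻¹ * (t * m * t⁻¹) := congrArg Subtype.val h
    have h2 : (m : G) * (n : G)⁻¹ * t = t * ((m : G) * (n : G)⁻¹) := by
      have e1 : (m : G) * (n : G)⁻¹ = (m : G) * ((n : G)⁻¹ * (t * n * t⁻¹)) * (t * (n : G)⁻¹ * t⁻¹) := by group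
      have e2 : (m : G) * ((m : G)⁻¹ * (t * m * t⁻¹)) * (t * (n : G)⁻¹ * t⁻¹) = t * ((m : G) * (n : G)⁻¹) * t⁻¹ := by group
      rw [h1, e2] at e1
      calc (m : G) * (n : G)⁻¹ * t = t * ((m : G) * (n : G)⁻¹) * t⁻¹ * t := by rw [← e1]
        _ = t * ((m : G) * (n : G)⁻¹) := by group
    have h3 := hf _ (N.mul_mem m.2 (N.inv_mem n.2)) h2
    apply Subtype.ext
    exact (mul_inv_eq_one.1 h3).symm
  have hsurj : Function.Surjective φ := Finite.injective_iff_surjective.1 hinj
  intro x hx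
  obtain ⟨n, hn⟩ := hsurj ⟨x, hx⟩
  have hx' : x = (n : G)⁻¹ * (t * n * t⁻¹) := (congrArg Subtype.val hn).symm
  rw [hx', hti]
  have : t * ((n : G)⁻¹ * (t * n * t)) * t = t * (n : G)⁻¹ * t * n * (t * t) := by
    simp only [mul_assoc]
  rw [this, ht]
  have e3 : ((n : G)⁻¹ * (t * n * t))⁻¹ = t⁻¹ * (n : G)⁻¹ * t⁻¹ * n := by group
  rw [e3, hti, mul_one]

theorem mem_zp {L : Type*} [Group L] {z x : L} (hz : z ^ 2 = 1) :
    x ∈ Subgroup.zpowers z ↔ x = 1 ∨ x = z := by
  constructor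
  · rintro ⟨k, rfl⟩
    have hz' : z ^ (2 : ℤ) = 1 := by exact_mod_cast hz
    rcases Int.emod_two_eq_zero_or_one k with h | h
    · left
      have hk : k = 2 * (k / 2) := by omega
      show z ^ k = 1
      rw [hk, zpow_mul, hz', one_zpow]
    · right
      have hk : k = 2 * (k / 2) + 1 := by omega
      show z ^ k = z
      rw [hk, zpow_add, zpow_mul, hz', one_zpow, one_mul, zpow_one]
  · rintro (rfl | rfl)
    · exact one_mem _
    · exact Subgroup.mem_zpowers _

theorem eq_one_of_pow {G : Type*} [Group G] (N : Subgroup G) (hno : ∀ y ∈ N, orderOf y ≠ 2) :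
    ∀ (k : ℕ) (x : G), x ∈ N → x ^ (2 ^ k) = 1 → x = 1 := by
  intro k
  induction k with
  | zero => intro x _ h; simpa using h
  | succ k ih =>
    intro x hx h
    have h1 : (x ^ 2) ^ (2 ^ k) = 1 := by rw [← pow_mul, ← pow_succ']; exact h
    have h2 := ih _ (N.pow_mem hx 2) h1
    by_contra hne
    exact hno x hx (orderOf_eq_prime h2 hne)

theorem main {G : Type*} [Group G] [Finite G] (z : G) (hz : orderOf z = 2) (H : Subgroup G)
    (hH : H = Subgroup.centralizer ({z} : Set G)) (Q : Subgroup H) [Q.Normal]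
    (hF : Cfsg.generalizedFittingSubgroup ↥H = Q) (hQ : Cfsg.IsExtraspecial 2 ↥Q)
    (hnwc : ∃ g : G, (∃ hq : g * z * g⁻¹ ∈ H, (⟨g * z * g⁻¹, hq⟩ : H) ∈ Q) ∧ g * z * g⁻¹ ≠ z)
    (hsimp : IsSimpleGroup (↥H ⧸ Q))
    (hirr : ∀ W : Subgroup H, W.Normal → W ≤ Q → (W = Q ∨ ∀ x ∈ W, (x : G) ∈ Subgroup.zpowers z))
    (hwcl : Subgroup.closure {x : H | IsConj z (x : G)} ≠ Q) : IsSimpleGroup G := by
  have : Fact (Nat.Prime 2) := ⟨Nat.prime_two⟩
  have hz2 : z * z = 1 := by rw [← pow_two, ← hz]; exact pow_orderOf_eq_one z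
  have hz1 : z ≠ 1 := by intro h; rw [h, orderOf_one] at hz; omega
  have hzi : z⁻¹ = z := inv_eq_of_mul_eq_one_left hz2
  have memH : ∀ x, x ∈ H ↔ x * z = z * x := fun x => by rw [hH]; exact Subgroup.mem_centralizer_singleton_iff
  have hzH : z ∈ H := (memH z).2 rfl
  have hB : Subgroup.centralizer (Q : Set ↥H) ≤ Q := by
    have h := Helper10.centralizer_genFitting_le ↥H
    rwa [hF] at h
  have hzQ : (⟨z, hzH⟩ : ↥H) ∈ Q := by
    apply hB
    rw [Subgroup.mem_centralizer_iff]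
    intro q _
    exact Subtype.ext ((memH q).1 q.2)
  obtain ⟨zH, hzHdef⟩ : ∃ zH : ↥H, zH = ⟨z, hzH⟩ := ⟨_, rfl⟩
  rw [← hzHdef] at hzQ
  have hzHv : (zH : G) = z := by rw [hzHdef]
  have hzH1 : zH ≠ 1 := fun h => hz1 (by rw [← hzHv, h]; rfl)
  have hzHc : ∀ q : ↥H, q * zH = zH * q := fun q => Subtype.ext (by
    show (q : G) * zH = zH * q
    rw [hzHv]; exact (memH q).1 q.2)
  have hD : ∀ c ∈ Q, (∀ q ∈ Q, c * q = q * c) → c = 1 ∨ c = zH := by
    intro c hc hcc
    obtain ⟨y, hy, huniq⟩ := (Nat.card_eq_two_iff' (1 : Subgroup.center ↥Q)).1 hQ.2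
    by_cases h1 : c = 1
    · left; exact h1
    · right
      have hcm : (⟨c, hc⟩ : ↥Q) ∈ Subgroup.center ↥Q := by
        rw [Subgroup.mem_center_iff]; intro q; exact Subtype.ext (hcc q q.2).symm
      have hzm : (⟨zH, hzQ⟩ : ↥Q) ∈ Subgroup.center ↥Q := by
        rw [Subgroup.mem_center_iff]; intro q; exact Subtype.ext (hzHc q)
      have e1 : (⟨⟨c, hc⟩, hcm⟩ : Subgroup.center ↥Q) = y :=
        huniq _ (by intro h; apply h1; exact congrArg (fun x : Subgroup.center ↥Q => ((x : ↥Q) : ↥H)) h)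
      have e2 : (⟨⟨zH, hzQ⟩, hzm⟩ : Subgroup.center ↥Q) = y :=
        huniq _ (by intro h; apply hzH1; exact congrArg (fun x : Subgroup.center ↥Q => ((x : ↥Q) : ↥H)) h)
      exact congrArg (fun x : Subgroup.center ↥Q => ((x : ↥Q) : ↥H)) (e1.trans e2.symm)
  have hE : ∀ u ∈ Q, ∀ q ∈ Q, q * u ≠ u * q → q * u * q⁻¹ * u⁻¹ = zH := by
    intro u hu q hq hne
    have h1 : ⁅(⟨q, hq⟩ : ↥Q), ⟨u, hu⟩⁆ ∈ Subgroup.center ↥Q := by
      rw [← hQ.1.2.2, commutator_def]
      exact Subgroup.commutator_mem_commutator (Subgroup.mem_top _) (Subgroup.mem_top _)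
    have h2 : ∀ x ∈ Q, (q * u * q⁻¹ * u⁻¹) * x = x * (q * u * q⁻¹ * u⁻¹) := by
      intro x hx
      have h3 := Subgroup.mem_center_iff.1 h1 ⟨x, hx⟩
      have h4 := congrArg Subtype.val h3
      simpa [commutatorElement_def] using h4.symm
    rcases hD _ (Q.mul_mem (Q.mul_mem (Q.mul_mem hq hu) (Q.inv_mem hq)) (Q.inv_mem hu)) h2 with h | h
    · exfalso; apply hne
      calc q * u = (q * u * q⁻¹ * u⁻¹) * (u * q) := by group
        _ = u * q := by rw [h, one_mul]
    · exact h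
  obtain ⟨S, hQS⟩ := (hQ.1.1.map H.subtype).exists_le_sylow
  have hC : ∀ x : G, (∀ q : ↥H, q ∈ Q → x * q = q * x) → ∃ hx : x ∈ H, (⟨x, hx⟩ : ↥H) ∈ Q := by
    intro x hx
    have hxH : x ∈ H := by
      rw [memH]; have := hx zH hzQ; rwa [hzHv] at this
    refine ⟨hxH, hB ?_⟩
    rw [Subgroup.mem_centralizer_iff]
    intro q hq
    exact Subtype.ext (hx q hq).symm
  have hZS : ∀ c ∈ S, (∀ s ∈ S, c * s = s * c) → c = 1 ∨ c = z := by
    intro c hc hcs
    obtain ⟨hx, hxQ⟩ := hC c (fun q hq => hcs q (hQS ⟨q, hq, rfl⟩))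
    rcases hD ⟨c, hx⟩ hxQ (fun q hq => Subtype.ext (hcs q (hQS ⟨q, hq, rfl⟩))) with h | h
    · left; exact congrArg Subtype.val h
    · right; rw [← hzHv]; exact congrArg Subtype.val h
  have hzS : z ∈ S := hQS ⟨zH, hzQ, hzHv⟩
  have hmeet : ∀ K : Subgroup ↥(S : Subgroup G), K.Normal → K ≠ ⊥ →
      (⟨z, hzS⟩ : ↥(S : Subgroup G)) ∈ K ∧ ∀ s ∈ S, z * s = s * z := by
    intro K hK hKb
    obtain ⟨x, hxK, hx1, -, hxc⟩ := Helper14.exists_rel_central_order_p 2 S.isPGroup' ⊥ K
      (fun h => hKb (le_bot_iff.1 h))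
    have hxc' : ∀ s ∈ S, (x : G) * s = s * x := by
      intro s hs
      have h1 := hxc ⟨s, hs⟩
      rw [Subgroup.mem_bot, commutatorElement_eq_one_iff_mul_comm] at h1
      exact congrArg Subtype.val h1
    rcases hZS x x.2 hxc' with h | h
    · exfalso; apply hx1; rw [Subgroup.mem_bot]; exact Subtype.ext h
    · constructor
      · have : x = ⟨z, hzS⟩ := Subtype.ext h
        rwa [← this]
      · rw [← h]; exact hxc'
  have hzSc : ∀ s ∈ S, z * s = s * z := by
    refine (hmeet ⊤ inferInstance ?_).2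
    intro h
    have : (⟨z, hzS⟩ : ↥(S : Subgroup G)) ∈ (⊥ : Subgroup ↥(S : Subgroup G)) := by
      rw [← h]; exact Subgroup.mem_top _
    rw [Subgroup.mem_bot] at this
    exact hz1 (congrArg Subtype.val this)
  obtain ⟨g, ⟨hgH, hgQ⟩, hgz⟩ := hnwc
  obtain ⟨uH, huH⟩ : ∃ uH : ↥H, uH = ⟨g * z * g⁻¹, hgH⟩ := ⟨_, rfl⟩
  rw [← huH] at hgQ
  have huv : (uH : G) = g * z * g⁻¹ := by rw [huH]
  have hu1 : uH ≠ 1 := by
    intro h; apply hz1
    have : g * z * g⁻¹ = 1 := by rw [← huv, h]; rfl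
    simpa using this
  have huz : uH ≠ zH := by
    intro h; apply hgz; rw [← huv, h, hzHv]
  obtain ⟨q, hq, hqu⟩ : ∃ q ∈ Q, q * uH * q⁻¹ * uH⁻¹ = zH := by
    by_contra hcon
    push Not at hcon
    have : ∀ q ∈ Q, uH * q = q * uH := by
      intro q hq
      by_contra hne
      exact hcon q hq (hE uH hgQ q hq (fun h => hne h.symm))
    rcases hD uH hgQ this with h | h
    · exact hu1 h
    · exact huz h
  have hzu : z * (g * z * g⁻¹) = ((q : G) * g) * z * ((q : G) * g)⁻¹ := by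
    have h1 : (q : G) * (g * z * g⁻¹) * (q : G)⁻¹ * (g * z * g⁻¹)⁻¹ = z := by
      have h2 := congrArg Subtype.val hqu
      rw [hzHv] at h2
      rw [← huv]; exact h2
    calc z * (g * z * g⁻¹)
        = ((q : G) * (g * z * g⁻¹) * (q : G)⁻¹ * (g * z * g⁻¹)⁻¹) * (g * z * g⁻¹) := by rw [h1]
      _ = _ := by group
  refine { exists_pair_ne := ⟨z, 1, hz1⟩, eq_bot_or_eq_top_of_normal := ?_ }
  intro N hN
  by_contra hcon
  push Not at hcon
  obtain ⟨hNb, hNt⟩ := hcon
  have hzN : z ∈ N := by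
    by_cases hinv : ∃ y ∈ N, orderOf y = 2
    · obtain ⟨y, hyN, hy⟩ := hinv
      have hpy : IsPGroup 2 (Subgroup.zpowers y) := by
        apply IsPGroup.of_card (n := 1); rw [Nat.card_zpowers, hy, pow_one]
      obtain ⟨P, hP⟩ := hpy.exists_le_sylow
      obtain ⟨a, ha⟩ := MulAction.exists_smul_eq G P S
      have hyS : a * y * a⁻¹ ∈ S := by
        rw [← ha, Lead.mem_sylow_smul_iff]
        have : a⁻¹ * (a * y * a⁻¹) * a = y := by group
        rw [this]; exact hP (Subgroup.mem_zpowers y)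
      have h1 := (hmeet (N.subgroupOf S) inferInstance (by
        intro h
        have h0 : (⟨a * y * a⁻¹, hyS⟩ : ↥(S : Subgroup G)) ∈ N.subgroupOf S := by
          rw [Subgroup.mem_subgroupOf]; exact hN.conj_mem y hyN a
        rw [h, Subgroup.mem_bot] at h0
        have h2 : a * y * a⁻¹ = 1 := congrArg Subtype.val h0
        have h3 : y = 1 := by simpa using h2
        rw [h3, orderOf_one] at hy; omega)).1
      rw [Subgroup.mem_subgroupOf] at h1
      exact h1
    · exfalso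
      push Not at hinv
      have hpow := eq_one_of_pow N hinv
      have hNQ : ∀ x : ↥H, x ∈ Q → (x : G) ∈ N → x = 1 := by
        intro x hxQ hxN
        obtain ⟨k, hk⟩ := hQ.1.1 ⟨x, hxQ⟩
        apply Subtype.ext
        apply hpow k _ hxN
        have h0 := congrArg (fun y : ↥Q => ((y : ↥H) : G)) hk
        simpa using h0
      have hfz : ∀ n ∈ N, n * z = z * n → n = 1 := by
        intro n hn hnz
        have hnH : n ∈ H := (memH n).2 hnz
        have hcomm : ∀ q' : ↥H, q' ∈ Q → n * q' = q' * n := by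
          intro q' hq'
          have h1 : (⟨n, hnH⟩ : ↥H) * q' * (⟨n, hnH⟩ : ↥H)⁻¹ * q'⁻¹ = 1 := by
            apply hNQ
            · exact Q.mul_mem (‹Q.Normal›.conj_mem q' hq' _) (Q.inv_mem hq')
            · show n * (q' : G) * n⁻¹ * (q' : G)⁻¹ ∈ N
              have : n * (q' : G) * n⁻¹ * (q' : G)⁻¹ = n * ((q' : G) * n⁻¹ * (q' : G)⁻¹) := by group
              rw [this]
              exact N.mul_mem hn (hN.conj_mem _ (N.inv_mem hn) _)
          have h2 : n * (q' : G) * n⁻¹ * (q' : G)⁻¹ = 1 := congrArg Subtype.val h1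
          calc n * (q' : G) = (n * (q' : G) * n⁻¹ * (q' : G)⁻¹) * (q' * n) := by group
            _ = q' * n := by rw [h2, one_mul]
        obtain ⟨hx, hxQ⟩ := hC n hcomm
        exact congrArg Subtype.val (hNQ ⟨n, hx⟩ hxQ hn)
      have hfa : ∀ a : G, ∀ n ∈ N, (a * z * a⁻¹) * n * (a * z * a⁻¹)⁻¹ = n⁻¹ := by
        intro a
        apply inv_of_fpf N (a * z * a⁻¹)
        · calc a * z * a⁻¹ * (a * z * a⁻¹) = a * (z * z) * a⁻¹ := by group
            _ = 1 := by rw [hz2]; group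
        · intro n hn hna
          have h1 : a⁻¹ * n * a = 1 := by
            apply hfz
            · have := hN.conj_mem n hn a⁻¹; simpa using this
            · calc a⁻¹ * n * a * z = a⁻¹ * (n * (a * z * a⁻¹)) * a := by group
                _ = a⁻¹ * ((a * z * a⁻¹) * n) * a := by rw [hna]
                _ = z * (a⁻¹ * n * a) := by group
          calc n = a * (a⁻¹ * n * a) * a⁻¹ := by group
            _ = 1 := by rw [h1]; group
      apply hNb
      rw [eq_bot_iff]
      intro n hn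
      rw [Subgroup.mem_bot]
      have e1 := hfa 1 n hn
      have e2 := hfa g n hn
      have e3 := hfa ((q : G) * g) n hn
      rw [← hzu] at e3
      simp only [one_mul, inv_one, mul_one] at e1
      have e4 : z * (g * z * g⁻¹) * n * (z * (g * z * g⁻¹))⁻¹
          = z * ((g * z * g⁻¹) * n * (g * z * g⁻¹)⁻¹) * z⁻¹ := by group
      rw [e4, e2] at e3
      have e5 : z * n⁻¹ * z⁻¹ = n := by
        have : z * n⁻¹ * z⁻¹ = (z * n * z⁻¹)⁻¹ := by group
        rw [this, e1, inv_inv]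
      rw [e5] at e3
      apply hpow 1 n hn
      rw [pow_one, pow_two]
      exact mul_eq_one_iff_eq_inv.2 e3
  have hHN : H ≤ N := by
    obtain ⟨W, hW⟩ : ∃ W : Subgroup ↥H, W = Subgroup.closure {x : ↥H | IsConj z (x : G)} := ⟨_, rfl⟩
    have hWn : W.Normal := by
      constructor
      intro n hn a
      have h1 : W.map (MulAut.conj a).toMonoidHom ≤ W := by
        rw [hW, MonoidHom.map_closure, Subgroup.closure_le]
        rintro _ ⟨x, hx, rfl⟩
        apply Subgroup.subset_closure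
        show IsConj z ((a * x * a⁻¹ : ↥H) : G)
        have hx' : IsConj z (x : G) := hx
        exact hx'.trans (isConj_iff.2 ⟨(a : G), rfl⟩)
      exact h1 ⟨n, hn, rfl⟩
    have hWN : ∀ x ∈ W, (x : G) ∈ N := by
      intro x hx
      have : W ≤ N.subgroupOf H := by
        rw [hW, Subgroup.closure_le]
        intro y hy
        obtain ⟨c, hc⟩ := isConj_iff.1 (show IsConj z (y : G) from hy)
        rw [SetLike.mem_coe, Subgroup.mem_subgroupOf, ← hc]
        exact hN.conj_mem z hzN c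
      exact Subgroup.mem_subgroupOf.1 (this hx)
    have huW : uH ∈ W := by
      rw [hW]
      apply Subgroup.subset_closure
      show IsConj z (uH : G)
      rw [huv]; exact isConj_iff.2 ⟨g, rfl⟩
    have hQW : Q ≤ W := by
      rcases hirr (W ⊓ Q) inferInstance inf_le_right with h | h
      · rw [← h]; exact inf_le_left
      · exfalso
        have h1 := h uH ⟨huW, hgQ⟩
        rw [mem_zp (by rw [pow_two]; exact hz2)] at h1
        rcases h1 with h1 | h1
        · exact hu1 (Subtype.ext h1)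
        · exact huz (Subtype.ext (h1.trans hzHv.symm))
    have hWtop : W = ⊤ := by
      have hmn : (W.map (QuotientGroup.mk' Q)).Normal := hWn.map _ (QuotientGroup.mk'_surjective Q)
      rcases hmn.eq_bot_or_eq_top with h | h
      · exfalso; apply hwcl
        rw [← hW]
        apply le_antisymm _ hQW
        intro x hx
        have h0 : QuotientGroup.mk' Q x ∈ W.map (QuotientGroup.mk' Q) := ⟨x, hx, rfl⟩
        rw [h, Subgroup.mem_bot] at h0
        exact (QuotientGroup.eq_one_iff x).1 h0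
      · rw [eq_top_iff]; intro x _
        have h0 : QuotientGroup.mk' Q x ∈ W.map (QuotientGroup.mk' Q) := by
          rw [h]; exact Subgroup.mem_top _
        obtain ⟨w', hw', hww⟩ := h0
        have h2 : w'⁻¹ * x ∈ Q := QuotientGroup.eq.1 hww
        have h3 : x = w' * (w'⁻¹ * x) := by group
        rw [h3]; exact W.mul_mem hw' (hQW h2)
    intro x hx
    exact hWN ⟨x, hx⟩ (by rw [hWtop]; exact Subgroup.mem_top _)
  have hSH : (S : Subgroup G) ≤ H := fun s hs => (memH s).2 (hzSc s hs).symm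
  have hSN : (S : Subgroup G) ≤ N := hSH.trans hHN
  have hfr := Sylow.normalizer_sup_eq_top' S hSN
  have hNS : Subgroup.normalizer ((S : Subgroup G) : Set G) ≤ N := by
    intro n hn
    apply hHN
    rw [memH]
    have h1 : n * z * n⁻¹ ∈ S := (Subgroup.mem_normalizer_iff.1 hn z).1 hzS
    have h2 : ∀ s ∈ S, (n * z * n⁻¹) * s = s * (n * z * n⁻¹) := by
      intro s hs
      have hs' : n⁻¹ * s * n ∈ (S : Subgroup G) := by
        have := (Subgroup.mem_normalizer_iff.1 (Subgroup.inv_mem _ hn) s).1 hs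
        simpa using this
      have h3 := hzSc _ hs'
      calc n * z * n⁻¹ * s = n * (z * (n⁻¹ * s * n)) * n⁻¹ := by group
        _ = n * ((n⁻¹ * s * n) * z) * n⁻¹ := by rw [h3]
        _ = s * (n * z * n⁻¹) := by group
    rcases hZS _ h1 h2 with h | h
    · exfalso; apply hz1; simpa using h
    · calc n * z = n * z * n⁻¹ * n := by group
        _ = z * n := by rw [h]
  apply hNt
  rw [eq_top_iff, ← hfr]
  exact sup_le hNS le_rfl

/-- Let z be an involution of the finite group G with centralizer H whose generalized Fitting subgroup Q is extraspecial of width at least 2 (order 2^(2w+1), w ≥ 2); suppose some conjugate of z other than z lies in Q, H/Q is a non-abelian simple group, H acts irreducibly by conjugation on Q modulo the subgroup generated by z (the only H-invariant subgroups of Q containing z are that subgroup and Q), and Q is not the subgroup generated by the conjugates of z lying in H. Then G is simple. -/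
theorem result {G : Type*} [Group G] [Finite G] (z : G) (hz : orderOf z = 2) (Q : Subgroup (Subgroup.centralizer ({z} : Set G))) [Q.Normal] (hF : Cfsg.generalizedFittingSubgroup ↥(Subgroup.centralizer ({z} : Set G)) = Q) (hQ : Cfsg.IsExtraspecial 2 ↥Q) (w : ℕ) (hw : 2 ≤ w) (hcard : Nat.card ↥Q = 2 ^ (2 * w + 1)) (hnwc : ∃ g : G, (∃ hq : g * z * g⁻¹ ∈ Subgroup.centralizer ({z} : Set G), (⟨g * z * g⁻¹, hq⟩ : Subgroup.centralizer ({z} : Set G)) ∈ Q) ∧ g * z * g⁻¹ ≠ z) (hsimp : IsSimpleGroup (↥(Subgroup.centralizer ({z} : Set G)) ⧸ Q)) (hna : ¬ IsMulCommutative (↥(Subgroup.centralizer ({z} : Set G)) ⧸ Q)) (hirr : ∀ W : Subgroup (Subgroup.centralizer ({z} : Set G)), W.Normal → W ≤ Q → (W = Q ∨ ∀ x ∈ W, (x : G) ∈ Subgroup.zpowers z)) (hwcl : Subgroup.closure {x : Subgroup.centralizer ({z} : Set G) | IsConj z (x : G)} ≠ Q) : IsSimpleGroup G := by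
  exact main z hz _ rfl Q hF hQ hnwc hsimp hirr hwcl

end Cfsg.Agent.S5436
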