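import Cfsg.Statements.S5437
-- import your own Cfsg.Agent.* helpers here

set_option autoImplicit false
open Cfsg

namespace Cfsg.Agent.S5437

theorem smul_coset_eq_iff {G : Type*} [Group G] (H : Subgroup G) (x y : G) :
    x • (y : G ⧸ H) = (y : G ⧸ H) ↔ y⁻¹ * x * y ∈ H := by
  have h1 : x • (y : G ⧸ H) = ((x * y : G) : G ⧸ H) := rfl
  rw [h1, eq_comm, QuotientGroup.eq, mul_assoc]

theorem mem_map_conj_iff {G : Type*} [Group G] (H : Subgroup G) (g x : G) :
    x ∈ H.map (MulAut.conj g).toMonoidHom ↔ g⁻¹ * x * g ∈ H := by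
  constructor
  · rintro ⟨y, hy, rfl⟩
    have : g⁻¹ * ((MulAut.conj g).toMonoidHom y) * g = y := by
      simp [mul_assoc]
    rw [this]; exact hy
  · intro h
    refine ⟨g⁻¹ * x * g, h, ?_⟩
    simp [mul_assoc]

/-- Let I be a set of involutions of the finite group G closed under conjugation, and H a subgroup of G. The following are equivalent: (1) for every member x of I lying in H, the conjugates of x lying in H form a single H-class and the centralizer of x lies in H; (2) for every g outside H, no member of I lies in both H and g H g⁻¹; (3) every member of I lying in H fixes exactly one coset in the action of G on the cosets of H. -/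
theorem result {G : Type*} [Group G] [Finite G] (I : Set G) (hI : ∀ x ∈ I, orderOf x = 2) (hIc : ∀ g : G, ∀ x ∈ I, g * x * g⁻¹ ∈ I) (H : Subgroup G) : ((∀ x ∈ I, x ∈ H → (∀ g : G, g * x * g⁻¹ ∈ H → ∃ h ∈ H, h * x * h⁻¹ = g * x * g⁻¹) ∧ Subgroup.centralizer ({x} : Set G) ≤ H) ↔ (∀ g : G, g ∉ H → ∀ x ∈ I, ¬ (x ∈ H ∧ x ∈ (H : Subgroup G).map (MulAut.conj g).toMonoidHom))) ∧ ((∀ g : G, g ∉ H → ∀ x ∈ I, ¬ (x ∈ H ∧ x ∈ (H : Subgroup G).map (MulAut.conj g).toMonoidHom)) ↔ ∀ x ∈ I, x ∈ H → ∃! c : G ⧸ H, x • c = c) := by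
  simp only [mem_map_conj_iff]
  refine ⟨⟨?_, ?_⟩, ⟨?_, ?_⟩⟩
  · intro hA g hg x hx ⟨hxH, hxg⟩
    obtain ⟨hfus, hcen⟩ := hA x hx hxH
    obtain ⟨h, hh, hhx⟩ := hfus g⁻¹ (by rw [inv_inv]; exact hxg)
    rw [inv_inv] at hhx
    have hgh : g * h ∈ Subgroup.centralizer ({x} : Set G) := by
      rw [Subgroup.mem_centralizer_iff]
      intro y hy
      rw [Set.mem_singleton_iff] at hy
      rw [hy]
      calc x * (g * h) = g * (g⁻¹ * x * g) * h := by group
        _ = g * (h * x * h⁻¹) * h := by rw [hhx]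
        _ = g * h * x := by group
    have := hcen hgh
    apply hg
    have h2 : g = (g * h) * h⁻¹ := by group
    rw [h2]
    exact H.mul_mem this (H.inv_mem hh)
  · intro hB x hx hxH
    refine ⟨?_, ?_⟩
    · intro g hg
      have hgH : g ∈ H := by
        by_contra hcon
        have hcon' : g⁻¹ ∉ H := fun h => hcon (by simpa using H.inv_mem h)
        exact hB g⁻¹ hcon' x hx ⟨hxH, by rw [inv_inv]; exact hg⟩
      exact ⟨g, hgH, rfl⟩
    · intro c hc
      by_contra hcon
      rw [Subgroup.mem_centralizer_iff] at hc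
      have h1 := hc x (Set.mem_singleton x)
      apply hB c hcon x hx
      refine ⟨hxH, ?_⟩
      have : c⁻¹ * x * c = x := by
        rw [mul_assoc, h1, ← mul_assoc, inv_mul_cancel, one_mul]
      rw [this]; exact hxH
  · intro hB x hx hxH
    refine ⟨((1 : G) : G ⧸ H), (smul_coset_eq_iff H x 1).2 (by simpa using hxH), ?_⟩
    intro c hc
    obtain ⟨y, rfl⟩ := QuotientGroup.mk_surjective c
    have hy := (smul_coset_eq_iff H x y).1 hc
    have hyH : y ∈ H := by
      by_contra hcon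
      exact hB y hcon x hx ⟨hxH, hy⟩
    rw [eq_comm, QuotientGroup.eq]
    simpa using hyH
  · intro hC g hg x hx ⟨hxH, hxg⟩
    obtain ⟨c, _, hc⟩ := hC x hx hxH
    have h1 : ((1 : G) : G ⧸ H) = c := hc _ ((smul_coset_eq_iff H x 1).2 (by simpa using hxH))
    have h2 : (g : G ⧸ H) = c := hc _ ((smul_coset_eq_iff H x g).2 hxg)
    have h3 : ((1 : G) : G ⧸ H) = (g : G ⧸ H) := h1.trans h2.symm
    rw [QuotientGroup.eq] at h3
    apply hg
    simpa using h3

end Cfsg.Agent.S5437
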