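import Cfsg.Statements.S5438
import Cfsg.Agent.Lib.Helper28.SylowConj

set_option autoImplicit false
open Cfsg

namespace Cfsg.Agent.S5438

theorem orderOf_conj' {G : Type*} [Group G] (g x : G) : orderOf (g * x * g⁻¹) = orderOf x :=
  (MulAut.conj g).orderOf_eq x

/-- Let z be a 2-central involution of the finite group G (an involution central in some Sylow 2-subgroup) and H a subgroup containing z such that the coset H is the only coset of H fixed by z (in the action of G on the cosets of H). Then H has odd index in G, and for every 2-element x of H the conjugates of x lying in H form a single H-class. -/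
theorem result {G : Type*} [Group G] [Finite G] (z : G) (hz : Cfsg.IsTwoCentralInvolution z) (H : Subgroup G) (hzH : z ∈ H) (hfix : ∀ g : G, g⁻¹ * z * g ∈ H → g ∈ H) : Odd H.index ∧ ∀ x ∈ H, (∃ k : ℕ, orderOf x = 2 ^ k) → ∀ g : G, g * x * g⁻¹ ∈ H → ∃ h ∈ H, h * x * h⁻¹ = g * x * g⁻¹ := by
  classical
  haveI : Fact (Nat.Prime 2) := ⟨Nat.prime_two⟩
  obtain ⟨hz2, P, hzP, hPz⟩ := hz
  -- C(z) ≤ H
  have hCz : ∀ c : G, c * z = z * c → c ∈ H := by
    intro c hc
    apply hfix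
    have : c⁻¹ * z * c = z := by
      rw [mul_assoc, ← hc, ← mul_assoc, inv_mul_cancel, one_mul]
    rw [this]; exact hzH
  have hPH : (P : Subgroup G) ≤ H := fun y hy => hCz y (hPz y hy)
  -- F1
  have hF1 : ∀ u : G, u * z * u⁻¹ ∈ H → u ∈ H := by
    intro u hu
    have := hfix u⁻¹ (by rw [inv_inv]; exact hu)
    simpa using H.inv_mem this
  -- F3
  have hF3 : ∀ w : G, (w * z * w⁻¹) * z = z * (w * z * w⁻¹) → w ∈ H :=
    fun w hw => hF1 w (hCz _ hw)
  refine ⟨?_, ?_⟩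
  · have h1 : H.index ∣ (P : Subgroup G).index := Subgroup.index_dvd_of_le hPH
    have h2 : ¬ 2 ∣ (P : Subgroup G).index := P.not_dvd_index
    rw [← Nat.not_even_iff_odd, even_iff_two_dvd]
    exact fun h => h2 (h.trans h1)
  · intro x hxH ⟨k, hk⟩ g hg
    have hpx : IsPGroup 2 (Subgroup.zpowers x) := Lib.Helper28.isPGroup_zpowers_of_orderOf hk
    have hord : orderOf (g * x * g⁻¹) = 2 ^ k := by
      rw [← hk]
      exact orderOf_conj' g x
    have hpx' : IsPGroup 2 (Subgroup.zpowers (g * x * g⁻¹)) :=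
      Lib.Helper28.isPGroup_zpowers_of_orderOf hord
    obtain ⟨h₁, hh₁, hc₁⟩ := Lib.Helper28.exists_conj_mem_sylow H P hPH _ hpx
      (by rw [Subgroup.zpowers_le]; exact hxH)
    obtain ⟨h₂, hh₂, hc₂⟩ := Lib.Helper28.exists_conj_mem_sylow H P hPH _ hpx'
      (by rw [Subgroup.zpowers_le]; exact hg)
    have e₁ := hPz _ (hc₁ x (Subgroup.mem_zpowers x))
    have e₂ := hPz _ (hc₂ _ (Subgroup.mem_zpowers _))
    set z₁ := h₁⁻¹ * z * h₁ with hz₁
    set z₂ := (h₂ * g)⁻¹ * z * (h₂ * g) with hz₂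
    have hz₁C : z₁ ∈ Subgroup.centralizer ({x} : Set G) := by
      rw [Subgroup.mem_centralizer_iff]
      intro y hy
      rw [Set.mem_singleton_iff] at hy
      rw [hy, hz₁]
      calc x * (h₁⁻¹ * z * h₁) = h₁⁻¹ * ((h₁ * x * h₁⁻¹) * z) * h₁ := by group
        _ = h₁⁻¹ * (z * (h₁ * x * h₁⁻¹)) * h₁ := by rw [e₁]
        _ = h₁⁻¹ * z * h₁ * x := by group
    have hz₂C : z₂ ∈ Subgroup.centralizer ({x} : Set G) := by
      rw [Subgroup.mem_centralizer_iff]
      intro y hy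
      rw [Set.mem_singleton_iff] at hy
      rw [hy, hz₂]
      calc x * ((h₂ * g)⁻¹ * z * (h₂ * g))
          = (h₂ * g)⁻¹ * ((h₂ * (g * x * g⁻¹) * h₂⁻¹) * z) * (h₂ * g) := by group
        _ = (h₂ * g)⁻¹ * (z * (h₂ * (g * x * g⁻¹) * h₂⁻¹)) * (h₂ * g) := by rw [e₂]
        _ = (h₂ * g)⁻¹ * z * (h₂ * g) * x := by group
    have hoz₁ : orderOf z₁ = 2 ^ 1 := by
      rw [hz₁, pow_one, ← hz2]
      have := orderOf_conj' h₁⁻¹ z
      rwa [inv_inv] at this
    have hoz₂ : orderOf z₂ = 2 ^ 1 := by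
      rw [hz₂, pow_one, ← hz2]
      have := orderOf_conj' (h₂ * g)⁻¹ z
      rwa [inv_inv] at this
    obtain ⟨c, hcC, R, hR, hz₁R, hz₂R⟩ := Lib.Helper28.exists_common_pgroup
      (Subgroup.centralizer ({x} : Set G)) z₁ z₂ hz₁C hz₂C
      (Lib.Helper28.isPGroup_zpowers_of_orderOf hoz₁) (Lib.Helper28.isPGroup_zpowers_of_orderOf hoz₂)
    obtain ⟨v, _, hv⟩ := Lib.Helper28.exists_conj_mem_sylow (⊤ : Subgroup G) P le_top R hR le_top
    have f₁ := hPz _ (hv _ hz₁R)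
    have f₂ := hPz _ (hv _ hz₂R)
    have g₁ : v * h₁⁻¹ ∈ H := by
      apply hF3
      have : v * h₁⁻¹ * z * (v * h₁⁻¹)⁻¹ = v * z₁ * v⁻¹ := by rw [hz₁]; group
      rw [this]; exact f₁
    have g₂ : v * c * (h₂ * g)⁻¹ ∈ H := by
      apply hF3
      have : v * c * (h₂ * g)⁻¹ * z * (v * c * (h₂ * g)⁻¹)⁻¹ = v * (c * z₂ * c⁻¹) * v⁻¹ := by
        rw [hz₂]; group
      rw [this]; exact f₂
    have hvH : v ∈ H := by
      have := H.mul_mem g₁ hh₁
      simpa using this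
    have hcg : c * g⁻¹ ∈ H := by
      have h1 := H.mul_mem (H.mul_mem (H.inv_mem hvH) g₂) hh₂
      have h2 : v⁻¹ * (v * c * (h₂ * g)⁻¹) * h₂ = c * g⁻¹ := by group
      rwa [h2] at h1
    refine ⟨g * c⁻¹, ?_, ?_⟩
    · have := H.inv_mem hcg
      simpa using this
    · rw [Subgroup.mem_centralizer_iff] at hcC
      have h1 := hcC x (Set.mem_singleton x)
      have h2 : c⁻¹ * x * c = x := by
        rw [mul_assoc, h1, ← mul_assoc, inv_mul_cancel, one_mul]
      calc g * c⁻¹ * x * (g * c⁻¹)⁻¹ = g * (c⁻¹ * x * c) * g⁻¹ := by group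
        _ = g * x * g⁻¹ := by rw [h2]

end Cfsg.Agent.S5438
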