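import Cfsg.Statements.S5439
import Cfsg.Agent.Lib.Helper28.Dihedral

set_option autoImplicit false
open Cfsg

namespace Cfsg.Agent.S5439

open Cfsg.Agent.Lib.Helper28

theorem smul_coset_eq_iff {G : Type*} [Group G] (H : Subgroup G) (x y : G) :
    x • (y : G ⧸ H) = (y : G ⧸ H) ↔ y⁻¹ * x * y ∈ H := by
  have h1 : x • (y : G ⧸ H) = ((x * y : G) : G ⧸ H) := rfl
  rw [h1, eq_comm, QuotientGroup.eq, mul_assoc]

/-- Let I and J be two different conjugacy classes of involutions of the finite group G and H a subgroup such that every member of I ∪ J fixes exactly one coset in the action on the cosets of H, and such that for every a in I ∩ H and every b in (I ∪ J) ∩ H different from a and commuting with it, the centralizer of a b lies in H. Then H = G. -/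
theorem result {G : Type*} [Group G] [Finite G] (I J : Set G) (a₀ b₀ : G) (ha₀ : orderOf a₀ = 2) (hb₀ : orderOf b₀ = 2) (hI : I = {x | IsConj a₀ x}) (hJ : J = {x | IsConj b₀ x}) (hIJ : I ≠ J) (H : Subgroup G) (hfix : ∀ x ∈ I ∪ J, ∃! c : G ⧸ H, x • c = c) (hcent : ∀ a ∈ I, a ∈ H → ∀ b ∈ I ∪ J, b ∈ H → a ≠ b → a * b = b * a → Subgroup.centralizer ({a * b} : Set G) ≤ H) : H = ⊤ := by
  have hinvI : ∀ a ∈ I, a * a = 1 := by
    intro a ha
    rw [hI] at ha
    have ha' : IsConj a₀ a := ha
    rw [isConj_iff] at ha'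
    obtain ⟨c, rfl⟩ := ha'
    have h := sq_eq_one_of_orderOf_two ha₀
    calc c * a₀ * c⁻¹ * (c * a₀ * c⁻¹) = c * (a₀ * a₀) * c⁻¹ := by group
      _ = 1 := by rw [h]; group
  have hinvJ : ∀ a ∈ J, a * a = 1 := by
    intro a ha
    rw [hJ] at ha
    have ha' : IsConj b₀ a := ha
    rw [isConj_iff] at ha'
    obtain ⟨c, rfl⟩ := ha'
    have h := sq_eq_one_of_orderOf_two hb₀
    calc c * b₀ * c⁻¹ * (c * b₀ * c⁻¹) = c * (b₀ * b₀) * c⁻¹ := by group
      _ = 1 := by rw [h]; group
  have hnc : ∀ a ∈ I, ∀ b ∈ J, ¬ IsConj a b := by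
    intro a ha b hb hab
    apply hIJ
    rw [hI] at ha
    rw [hJ] at hb
    have ha' : IsConj a₀ a := ha
    have hb' : IsConj b₀ b := hb
    have h0 : IsConj a₀ b₀ := (ha'.trans hab).trans hb'.symm
    rw [hI, hJ]
    ext y
    exact ⟨fun h => h0.symm.trans h, fun h => h0.trans h⟩
  -- the unique fixed coset of an element of H is H
  have huniq : ∀ x ∈ I ∪ J, x ∈ H → ∀ y : G, y⁻¹ * x * y ∈ H → y ∈ H := by
    intro x hx hxH y hy
    obtain ⟨c, _, hc⟩ := hfix x hx
    have h1 : ((1 : G) : G ⧸ H) = c := hc _ ((smul_coset_eq_iff H x 1).2 (by simpa using hxH))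
    have h2 : (y : G ⧸ H) = c := hc _ ((smul_coset_eq_iff H x y).2 hy)
    have h3 : ((1 : G) : G ⧸ H) = (y : G ⧸ H) := h1.trans h2.symm
    rw [QuotientGroup.eq] at h3
    simpa using h3
  -- step 1
  have step : ∀ a ∈ I, a ∈ H → ∀ b ∈ J, b ∈ H := by
    intro a ha haH b hb
    have ha2 := hinvI a ha
    have hb2 := hinvJ b hb
    set r := a * b with hr
    have hnodd : ¬ Odd (orderOf r) := fun h => hnc a ha b hb (isConj_of_odd ha2 hb2 h)
    rw [Nat.not_odd_iff_even] at hnodd
    obtain ⟨m, hm⟩ := hnodd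
    have hpos : 0 < orderOf r := orderOf_pos r
    have hmpos : 0 < m := by omega
    set t := r ^ m with ht
    have ht2 : t * t = 1 := by
      rw [ht, ← pow_add, ← hm]; exact pow_orderOf_eq_one r
    have ht1 : t ≠ 1 := by
      intro h
      have := orderOf_le_of_pow_eq_one hmpos h
      omega
    have htinv : t⁻¹ = t := inv_eq_self_of_sq ht2
    have hat : a * t = t * a := by
      have := invol_mul_pow ha2 hb2 m
      rw [← hr, ← ht, htinv] at this
      exact this
    have hbt : b * t = t * b := by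
      have := invol_mul_pow' ha2 hb2 m
      rw [← hr, ← ht, htinv] at this
      exact this
    have htH : t ∈ H := by
      apply huniq a (Or.inl ha) haH t
      have : t⁻¹ * a * t = a := by
        rw [mul_assoc, hat, ← mul_assoc, inv_mul_cancel, one_mul]
      rw [this]; exact haH
    have hatIJ : a * t ∈ I ∪ J := by
      rcases isConj_mul_pow ha2 hb2 m with h | h
      · left
        rw [hI] at ha ⊢
        exact (show IsConj a₀ a from ha).trans h
      · right
        rw [hJ] at hb ⊢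
        exact (show IsConj b₀ b from hb).trans h
    have hne : a ≠ a * t := by
      intro h
      apply ht1
      have : a * 1 = a * t := by rw [mul_one]; exact h
      exact (mul_left_cancel this).symm
    have hcomm : a * (a * t) = a * t * a := by
      rw [mul_assoc a t a, ← hat]
    have hC := hcent a ha haH (a * t) hatIJ (H.mul_mem haH htH) hne hcomm
    have haat : a * (a * t) = t := by rw [← mul_assoc, ha2, one_mul]
    rw [haat] at hC
    apply hC
    rw [Subgroup.mem_centralizer_iff]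
    intro y hy
    rw [Set.mem_singleton_iff] at hy
    rw [hy]
    exact hbt.symm
  -- a conjugate of a₀ in H
  have ha₀I : a₀ ∈ I := by rw [hI]; exact IsConj.refl a₀
  have hb₀J : b₀ ∈ J := by rw [hJ]; exact IsConj.refl b₀
  obtain ⟨c, hc, _⟩ := hfix a₀ (Or.inl ha₀I)
  obtain ⟨g, rfl⟩ := QuotientGroup.mk_surjective c
  have hgH : g⁻¹ * a₀ * g ∈ H := (smul_coset_eq_iff H a₀ g).1 hc
  have hgI : g⁻¹ * a₀ * g ∈ I := by
    rw [hI]
    exact isConj_iff.2 ⟨g⁻¹, by rw [inv_inv]⟩
  have hJH : ∀ b ∈ J, b ∈ H := step _ hgI hgH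
  rw [eq_top_iff]
  intro y _
  apply huniq b₀ (Or.inr hb₀J) (hJH b₀ hb₀J) y
  apply hJH
  rw [hJ]
  exact isConj_iff.2 ⟨y⁻¹, by rw [inv_inv]⟩

end Cfsg.Agent.S5439
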