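import Cfsg.Statements.S5459
import Mathlib

set_option autoImplicit false
open Cfsg

namespace Cfsg.Agent.S5459

open scoped commutatorElement

def RR {G : Type*} [Group G] (D : Set G) (a b : G) : Prop :=
  ∃ (ha : a ∈ D) (hb : b ∈ D), (Cfsg.commutingGraph D).Reachable ⟨a, ha⟩ ⟨b, hb⟩

theorem RR.refl' {G : Type*} [Group G] {D : Set G} {a : G} (ha : a ∈ D) : RR D a a :=
  ⟨ha, ha, SimpleGraph.Reachable.refl _⟩

theorem RR.symm' {G : Type*} [Group G] {D : Set G} {a b : G} (h : RR D a b) : RR D b a := by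
  obtain ⟨ha, hb, h⟩ := h
  exact ⟨hb, ha, h.symm⟩

theorem RR.trans' {G : Type*} [Group G] {D : Set G} {a b c : G} (h : RR D a b) (h' : RR D b c) :
    RR D a c := by
  obtain ⟨ha, hb, h⟩ := h
  obtain ⟨_, hc, h'⟩ := h'
  exact ⟨ha, hc, h.trans h'⟩

theorem RR.of_comm {G : Type*} [Group G] {D : Set G} {a b : G} (ha : a ∈ D) (hb : b ∈ D) (hne : a ≠ b)
    (hc : a * b = b * a) : RR D a b := by
  refine ⟨ha, hb, SimpleGraph.Adj.reachable ?_⟩
  rw [Cfsg.commutingGraph, SimpleGraph.fromRel_adj]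
  exact ⟨fun h => hne (congrArg Subtype.val h), Or.inl hc⟩

theorem RR.conj {G : Type*} [Group G] {D : Set G} {a b : G} (g : G)
    (hDg : ∀ x ∈ D, g * x * g⁻¹ ∈ D) (h : RR D a b) : RR D (g * a * g⁻¹) (g * b * g⁻¹) := by
  obtain ⟨ha, hb, h⟩ := h
  let φ : Cfsg.commutingGraph D →g Cfsg.commutingGraph D :=
    { toFun := fun x => ⟨g * x.1 * g⁻¹, hDg x.1 x.2⟩
      map_rel' := by
        intro x y hxy
        rw [Cfsg.commutingGraph, SimpleGraph.fromRel_adj] at hxy ⊢
        have hc : x.1 * y.1 = y.1 * x.1 := by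
          rcases hxy.2 with h | h
          · exact h
          · exact h.symm
        refine ⟨fun h => hxy.1 (Subtype.ext ?_), Or.inl ?_⟩
        · have := congrArg Subtype.val h
          simpa using this
        · show g * x.1 * g⁻¹ * (g * y.1 * g⁻¹) = g * y.1 * g⁻¹ * (g * x.1 * g⁻¹)
          calc g * x.1 * g⁻¹ * (g * y.1 * g⁻¹) = g * (x.1 * y.1) * g⁻¹ := by group
            _ = g * (y.1 * x.1) * g⁻¹ := by rw [hc]
            _ = _ := by group }
  exact ⟨_, _, h.map φ⟩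

theorem aux {G : Type*} [Group G] [Finite G] (L Z : Subgroup G) [hZn : Z.Normal] (hperf : ⁅L, L⁆ = L)
    (hZL : Z ≤ L) (hZc : ∀ z ∈ Z, ∀ l ∈ L, z * l = l * z) (hodd : Odd (Nat.card Z)) (d : G)
    (hinv : ∀ c ∈ Z, d * c * d⁻¹ = c⁻¹)
    (hconn : (Cfsg.commutingGraph (conjugatesOf (QuotientGroup.mk d : G ⧸ Z))).Connected) :
    (Cfsg.commutingGraph (conjugatesOf d)).Connected := by
  classical
  have hD : ∀ x, x ∈ conjugatesOf d ↔ ∃ c, c * d * c⁻¹ = x := fun x => by
    show IsConj d x ↔ _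
    rw [isConj_iff]
  have hDg : ∀ g : G, ∀ x ∈ conjugatesOf d, g * x * g⁻¹ ∈ conjugatesOf d := by
    intro g x hx
    obtain ⟨c, rfl⟩ := (hD x).mp hx
    exact (hD _).mpr ⟨g * c, by group⟩
  have hdD : d ∈ conjugatesOf d := mem_conjugatesOf_self
  have hsq : ∀ z ∈ Z, ∃ w ∈ Z, w * w = z := by
    intro z hz
    obtain ⟨k, hk⟩ := hodd
    refine ⟨z ^ (k + 1), Z.pow_mem hz _, ?_⟩
    have h1 : z ^ (Nat.card Z) = 1 := by
      have := pow_card_eq_one' (x := (⟨z, hz⟩ : Z))
      exact congrArg Subtype.val this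
    rw [← pow_add]
    have : k + 1 + (k + 1) = Nat.card Z + 1 := by omega
    rw [this, pow_succ, h1, one_mul]
  have hinvD : ∀ b ∈ conjugatesOf d, ∀ c ∈ Z, b * c * b⁻¹ = c⁻¹ := by
    intro b hb c hc
    obtain ⟨g, rfl⟩ := (hD b).mp hb
    have h1 := hinv (g⁻¹ * c * g) (by
      have := hZn.conj_mem c hc g⁻¹
      simpa using this)
    calc g * d * g⁻¹ * c * (g * d * g⁻¹)⁻¹ = g * (d * (g⁻¹ * c * g) * d⁻¹) * g⁻¹ := by group
      _ = g * (g⁻¹ * c * g)⁻¹ * g⁻¹ := by rw [h1]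
      _ = c⁻¹ := by group
  have hcoset : ∀ b ∈ conjugatesOf d, ∀ w ∈ Z, ∃ u ∈ Z, u * b * u⁻¹ = b * w := by
    intro b hb w hw
    obtain ⟨u, hu, huu⟩ := hsq w⁻¹ (inv_mem hw)
    refine ⟨u, hu, ?_⟩
    have h1 := hinvD b hb u hu
    have h0 : b * u = u⁻¹ * b := by
      calc b * u = (b * u * b⁻¹) * b := by group
        _ = u⁻¹ * b := by rw [h1]
    have h2 : u * b = b * u⁻¹ := by
      calc u * b = u * (b * u) * u⁻¹ := by group
        _ = u * (u⁻¹ * b) * u⁻¹ := by rw [h0]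
        _ = b * u⁻¹ := by group
    calc u * b * u⁻¹ = b * u⁻¹ * u⁻¹ := by rw [h2]
      _ = b * (u * u)⁻¹ := by group
      _ = b * w := by rw [huu, inv_inv]
  let H : Subgroup G :=
    { carrier := {g | RR (conjugatesOf d) d (g * d * g⁻¹)}
      one_mem' := by
        show RR (conjugatesOf d) d (1 * d * 1⁻¹)
        simpa using RR.refl' hdD
      mul_mem' := by
        intro a b ha hb
        show RR (conjugatesOf d) d ((a * b) * d * (a * b)⁻¹)
        have h1 := RR.conj a (hDg a) hb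
        have e : (a * b) * d * (a * b)⁻¹ = a * (b * d * b⁻¹) * a⁻¹ := by group
        rw [e]
        exact RR.trans' ha h1
      inv_mem' := by
        intro a ha
        show RR (conjugatesOf d) d (a⁻¹ * d * a⁻¹⁻¹)
        have h1 := RR.conj a⁻¹ (hDg a⁻¹) ha
        have e : a⁻¹ * (a * d * a⁻¹) * a⁻¹⁻¹ = d := by group
        rw [e] at h1
        exact h1.symm' }
  have hH : ∀ g, g ∈ H ↔ RR (conjugatesOf d) d (g * d * g⁻¹) := fun g => Iff.rfl
  have lift : ∀ y : ↥(conjugatesOf (QuotientGroup.mk d : G ⧸ Z)),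
      (Cfsg.commutingGraph (conjugatesOf (QuotientGroup.mk d : G ⧸ Z))).Reachable
        ⟨QuotientGroup.mk d, mem_conjugatesOf_self⟩ y →
      ∃ e, RR (conjugatesOf d) d e ∧ (QuotientGroup.mk e : G ⧸ Z) = y.1 := by
    intro y hy
    rw [SimpleGraph.reachable_iff_reflTransGen] at hy
    induction hy with
    | refl => exact ⟨d, RR.refl' hdD, rfl⟩
    | @tail y1 y2 _ hadj ih =>
      obtain ⟨e, he, hey⟩ := ih
      have heD : e ∈ conjugatesOf d := he.2.1
      obtain ⟨cb, hcb⟩ := isConj_iff.mp (show IsConj (QuotientGroup.mk d : G ⧸ Z) y2.1 from y2.2)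
      obtain ⟨c, rfl⟩ := QuotientGroup.mk_surjective cb
      have hb : c * d * c⁻¹ ∈ conjugatesOf d := (hD _).mpr ⟨c, rfl⟩
      have hby : (QuotientGroup.mk (c * d * c⁻¹) : G ⧸ Z) = y2.1 := by
        rw [← hcb]; rfl
      generalize c * d * c⁻¹ = b at hb hby
      rw [Cfsg.commutingGraph, SimpleGraph.fromRel_adj] at hadj
      have hcomm : y1.1 * y2.1 = y2.1 * y1.1 := by
        rcases hadj.2 with h | h
        · exact h
        · exact h.symm
      have hz : b⁻¹ * (e * b * e⁻¹) ∈ Z := by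
        rw [← QuotientGroup.eq]
        rw [QuotientGroup.mk_mul, QuotientGroup.mk_mul, QuotientGroup.mk_inv, hey, hby, hcomm]
        group
      obtain ⟨w, hw, hww⟩ := hsq _ hz
      obtain ⟨u, hu, hub⟩ := hcoset b hb w hw
      have hb' : b * w ∈ conjugatesOf d := by
        rw [← hub]; exact hDg u b hb
      have hmk : (QuotientGroup.mk (b * w) : G ⧸ Z) = y2.1 := by
        rw [QuotientGroup.mk_mul, (QuotientGroup.eq_one_iff w).mpr hw, mul_one, hby]
      have hew := hinvD e heD w hw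
      have hcm : e * (b * w) = (b * w) * e := by
        have h1 : e * (b * w) * e⁻¹ = b * w := by
          calc e * (b * w) * e⁻¹ = b * (b⁻¹ * (e * b * e⁻¹)) * (e * w * e⁻¹) := by group
            _ = b * (w * w) * w⁻¹ := by rw [hww, hew]
            _ = b * w := by group
        calc e * (b * w) = (e * (b * w) * e⁻¹) * e := by group
          _ = _ := by rw [h1]
      refine ⟨b * w, he.trans' (RR.of_comm heD hb' ?_ hcm), hmk⟩
      intro h
      apply hadj.1
      apply Subtype.ext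
      rw [← hey, ← hmk, h]
  have hHZ : ∀ g : G, ∃ u ∈ Z, u⁻¹ * g ∈ H := by
    intro g
    have hx : (QuotientGroup.mk (g * d * g⁻¹) : G ⧸ Z) ∈ conjugatesOf (QuotientGroup.mk d : G ⧸ Z) := by
      show IsConj _ _
      rw [isConj_iff]
      exact ⟨QuotientGroup.mk g, rfl⟩
    obtain ⟨e, he, hey⟩ := lift ⟨_, hx⟩ (hconn.preconnected _ _)
    have heD : e ∈ conjugatesOf d := he.2.1
    have hw : e⁻¹ * (g * d * g⁻¹) ∈ Z := QuotientGroup.eq.mp hey
    obtain ⟨u, hu, hue⟩ := hcoset e heD _ hw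
    refine ⟨u, hu, ?_⟩
    rw [hH]
    have : u⁻¹ * g * d * (u⁻¹ * g)⁻¹ = e := by
      calc u⁻¹ * g * d * (u⁻¹ * g)⁻¹ = u⁻¹ * (e * (e⁻¹ * (g * d * g⁻¹))) * u := by group
        _ = u⁻¹ * (u * e * u⁻¹) * u := by rw [hue]
        _ = e := by group
    rw [this]
    exact he
  have hLH : L ≤ H := by
    rw [← hperf, Subgroup.commutator_le]
    intro l1 hl1 l2 hl2
    obtain ⟨u1, hu1, h1⟩ := hHZ l1
    obtain ⟨u2, hu2, h2⟩ := hHZ l2
    have hl1' : u1⁻¹ * l1 ∈ L := mul_mem (inv_mem (hZL hu1)) hl1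
    have hl2' : u2⁻¹ * l2 ∈ L := mul_mem (inv_mem (hZL hu2)) hl2
    have key1 : ∀ u ∈ Z, ∀ l ∈ L, ∀ m ∈ L, ⁅u * l, m⁆ = ⁅l, m⁆ := by
      intro u hu l hl m hm
      rw [commutatorElement_def, commutatorElement_def]
      calc u * l * m * (u * l)⁻¹ * m⁻¹ = u * (l * m * l⁻¹) * u⁻¹ * m⁻¹ := by group
        _ = (l * m * l⁻¹) * u * u⁻¹ * m⁻¹ := by
          rw [hZc u hu _ (mul_mem (mul_mem hl hm) (inv_mem hl))]
        _ = _ := by group
    have key2 : ∀ u ∈ Z, ∀ l ∈ L, ∀ m ∈ L, ⁅l, u * m⁆ = ⁅l, m⁆ := by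
      intro u hu l hl m hm
      rw [commutatorElement_def, commutatorElement_def]
      calc l * (u * m) * l⁻¹ * (u * m)⁻¹ = l * (u * (m * l⁻¹ * m⁻¹)) * u⁻¹ := by group
        _ = l * ((m * l⁻¹ * m⁻¹) * u) * u⁻¹ := by
          rw [hZc u hu _ (mul_mem (mul_mem hm (inv_mem hl)) (inv_mem hm))]
        _ = _ := by group
    have e1 : l1 = u1 * (u1⁻¹ * l1) := by group
    have e2 : l2 = u2 * (u2⁻¹ * l2) := by group
    rw [e1, e2, key1 u1 hu1 _ hl1' _ (mul_mem (hZL hu2) hl2'), key2 u2 hu2 _ hl1' _ hl2',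
      commutatorElement_def]
    exact mul_mem (mul_mem (mul_mem h1 h2) (inv_mem h1)) (inv_mem h2)
  have hall : ∀ g : G, RR (conjugatesOf d) d (g * d * g⁻¹) := by
    intro g
    obtain ⟨u, hu, h⟩ := hHZ g
    have : g ∈ H := by
      have e : g = u * (u⁻¹ * g) := by group
      rw [e]
      exact mul_mem (hLH (hZL hu)) h
    exact this
  rw [SimpleGraph.connected_iff]
  refine ⟨?_, ⟨⟨d, hdD⟩⟩⟩
  intro a b
  obtain ⟨ga, hga⟩ := (hD a.1).mp a.2
  obtain ⟨gb, hgb⟩ := (hD b.1).mp b.2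
  have h1 := hall ga
  have h2 := hall gb
  rw [hga] at h1
  rw [hgb] at h2
  obtain ⟨_, _, h⟩ := h1.symm'.trans' h2
  exact h

/-- Let G be a finite group with a quasisimple normal subgroup L and an involution d such that G is generated by L and d, the centre of L has odd order, and d inverts every element of the centre of L. If the commuting graph on the conjugacy class of the image of d in G modulo the centre of L is connected, then the commuting graph on the conjugacy class of d is connected. -/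
theorem result {G : Type*} [Group G] [Finite G] (L : Subgroup G) [L.Normal] (hL : Cfsg.IsQuasisimple ↥L) (d : G) (hd : orderOf d = 2) (hgen : L ⊔ Subgroup.zpowers d = ⊤) (hodd : Odd (Nat.card ↥(Subgroup.center ↥L))) (hinv : ∀ c ∈ (Subgroup.center ↥L).map L.subtype, d * c * d⁻¹ = c⁻¹) [hn : ((Subgroup.center ↥L).map L.subtype).Normal] (hconn : (Cfsg.commutingGraph (conjugatesOf (QuotientGroup.mk d : G ⧸ (Subgroup.center ↥L).map L.subtype))).Connected) : (Cfsg.commutingGraph (conjugatesOf d)).Connected := by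
  apply aux L ((Subgroup.center ↥L).map L.subtype) (Subgroup.isPerfect_iff.mp hL.1)
    (Subgroup.map_subtype_le _) _ _ d hinv hconn
  · rintro _ ⟨z, hz, rfl⟩ l hl
    have := Subgroup.mem_center_iff.mp hz ⟨l, hl⟩
    exact (congrArg Subtype.val this).symm
  · rw [Subgroup.card_map_of_injective L.subtype_injective]
    exact hodd

end Cfsg.Agent.S5459
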