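import Cfsg.Statements.S5541
import Mathlib

set_option autoImplicit false
open Cfsg

namespace Cfsg.Agent.S5541

/-- Let ρ be a representation of a group H on a finite-dimensional real vector space U whose only ρ-invariant subspaces are the zero subspace and U, and suppose U carries a non-zero ρ-invariant symmetric bilinear form. Then the following are equivalent: (1) there is a non-zero ρ-equivariant commutative bilinear product on U of which every ρ-equivariant bilinear product is a scalar multiple; (2) there is a non-zero ρ-invariant trilinear form on U that is symmetric under all permutations of its arguments and of which every ρ-invariant trilinear form is a scalar multiple. -/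
theorem result {H : Type*} [Group H] {U : Type*} [AddCommGroup U] [Module ℝ U] [FiniteDimensional ℝ U] (ρ : Representation ℝ H U) (hirr : ∀ W : Submodule ℝ U, (∀ g : H, W.map (ρ g) ≤ W) → W = ⊥ ∨ W = ⊤) (B : LinearMap.BilinForm ℝ U) (hB0 : B ≠ 0) (hBs : ∀ u v, B u v = B v u) (hBi : ∀ (g : H) (u v : U), B (ρ g u) (ρ g v) = B u v) : (∃ m : U →ₗ[ℝ] U →ₗ[ℝ] U, m ≠ 0 ∧ (∀ u v, m u v = m v u) ∧ (∀ (g : H) (u v : U), m (ρ g u) (ρ g v) = ρ g (m u v)) ∧ ∀ m' : U →ₗ[ℝ] U →ₗ[ℝ] U, (∀ (g : H) (u v : U), m' (ρ g u) (ρ g v) = ρ g (m' u v)) → ∃ c : ℝ, m' = c • m) ↔ (∃ t : U →ₗ[ℝ] U →ₗ[ℝ] U →ₗ[ℝ] ℝ, t ≠ 0 ∧ (∀ u v w, t u v w = t v u w ∧ t u v w = t u w v) ∧ (∀ (g : H) (u v w : U), t (ρ g u) (ρ g v) (ρ g w) = t u v w) ∧ ∀ t' : U →ₗ[ℝ] U →ₗ[ℝ] U →ₗ[ℝ] ℝ, (∀ (g : H) (u v w : U), t' (ρ g u) (ρ g v) (ρ g w) = t' u v w) → ∃ c : ℝ, t' = c • t) := by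
  classical
  have hinv : ∀ (g : H) (w : U), ρ g (ρ g⁻¹ w) = w := by
    intro g w
    rw [← Module.End.mul_apply, ← map_mul, mul_inv_cancel, map_one]; rfl
  have hker : LinearMap.ker B = ⊥ := by
    rcases hirr (LinearMap.ker B) (by
      intro g
      rintro _ ⟨u, hu, rfl⟩
      have hu' : B u = 0 := hu
      show B (ρ g u) = 0
      ext v
      have := hBi g u (ρ g⁻¹ v)
      rw [hinv] at this
      rw [this, hu']; rfl) with h | h
    · exact h
    · exfalso
      apply hB0
      ext u v
      have : u ∈ LinearMap.ker B := by rw [h]; trivial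
      have h2 : B u = 0 := this
      rw [h2]; rfl
  have hBinj : Function.Injective B := LinearMap.ker_eq_bot.mp hker
  let e : U ≃ₗ[ℝ] Module.Dual ℝ U := LinearMap.linearEquivOfInjective B hBinj
    (Subspace.dual_finrank_eq).symm
  have he : ∀ u, e u = B u := fun u => rfl
  have hsymm : ∀ φ : Module.Dual ℝ U, B (e.symm φ) = φ := by
    intro φ
    rw [← he, e.apply_symm_apply]
  -- translation lemmas
  have toT : ∀ m : U →ₗ[ℝ] U →ₗ[ℝ] U, (∀ (g : H) (u v : U), m (ρ g u) (ρ g v) = ρ g (m u v)) →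
      ∀ (g : H) (u v w : U), (m.compr₂ B) (ρ g u) (ρ g v) (ρ g w) = (m.compr₂ B) u v w := by
    intro m hm g u v w
    rw [LinearMap.compr₂_apply, LinearMap.compr₂_apply, hm, hBi]
  have toM : ∀ t : U →ₗ[ℝ] U →ₗ[ℝ] U →ₗ[ℝ] ℝ, (∀ (g : H) (u v w : U), t (ρ g u) (ρ g v) (ρ g w) = t u v w) →
      ∀ (g : H) (u v : U), (t.compr₂ e.symm.toLinearMap) (ρ g u) (ρ g v) =
        ρ g ((t.compr₂ e.symm.toLinearMap) u v) := by
    intro t ht g u v
    apply hBinj
    ext w
    rw [LinearMap.compr₂_apply, LinearMap.compr₂_apply]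
    simp only [LinearEquiv.coe_coe]
    rw [hsymm]
    have h1 := ht g u v (ρ g⁻¹ w)
    rw [hinv] at h1
    have h2 := hBi g (e.symm (t u v)) (ρ g⁻¹ w)
    rw [hinv, hsymm] at h2
    rw [h1, h2]
  have hTM : ∀ (t : U →ₗ[ℝ] U →ₗ[ℝ] U →ₗ[ℝ] ℝ) (u v : U), B ((t.compr₂ e.symm.toLinearMap) u v) = t u v := by
    intro t u v
    rw [LinearMap.compr₂_apply]
    exact hsymm _
  constructor
  · rintro ⟨m, hm0, hmc, hme, hmu⟩
    have huniq : ∀ t' : U →ₗ[ℝ] U →ₗ[ℝ] U →ₗ[ℝ] ℝ, (∀ (g : H) (u v w : U), t' (ρ g u) (ρ g v) (ρ g w) = t' u v w) →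
        ∃ c : ℝ, t' = c • (m.compr₂ B) := by
      intro t' ht'
      obtain ⟨c, hc⟩ := hmu _ (toM t' ht')
      refine ⟨c, ?_⟩
      ext u v w
      rw [← hTM t' u v, hc]
      simp
    have ht0 : m.compr₂ B ≠ 0 := by
      intro h
      apply hm0
      ext u v
      apply hBinj
      have := congrArg (fun f => f u v) h
      simpa using this
    have h12 : ∀ u v w, (m.compr₂ B) u v w = (m.compr₂ B) v u w := by
      intro u v w
      rw [LinearMap.compr₂_apply, LinearMap.compr₂_apply, hmc]
    obtain ⟨c, hc⟩ := huniq ((LinearMap.lflip (R := ℝ) (S := ℝ) (M := U) (N := U) (P := ℝ)).comp (m.compr₂ B)) (by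
      intro g u v w
      simp only [LinearMap.comp_apply, LinearMap.lflip_apply]
      exact toT m hme g u w v)
    have hc' : ∀ u v w, (m.compr₂ B) u w v = c * (m.compr₂ B) u v w := by
      intro u v w
      have := congrArg (fun f => f u v w) hc
      simpa using this
    have hex : ∃ u v w, (m.compr₂ B) u v w ≠ 0 := by
      by_contra hcon
      push Not at hcon
      apply ht0
      ext u v w
      exact hcon u v w
    obtain ⟨u0, v0, w0, h0⟩ := hex
    have hcc : c * c = 1 := by
      have h1 := hc' u0 v0 w0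
      have h2 := hc' u0 w0 v0
      rw [h1] at h2
      have : (c * c - 1) * (m.compr₂ B) u0 v0 w0 = 0 := by linarith
      rcases mul_eq_zero.mp this with h | h
      · linarith
      · exact absurd h h0
    have hc1 : c = 1 := by
      have : (c - 1) * (c + 1) = 0 := by ring_nf; linarith
      rcases mul_eq_zero.mp this with h | h
      · linarith
      · exfalso
        have hcm : c = -1 := by linarith
        apply h0
        have a1 := hc' u0 v0 w0
        have a2 := h12 u0 w0 v0
        have a3 := hc' w0 u0 v0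
        have a4 := h12 w0 v0 u0
        have a5 := hc' v0 w0 u0
        have a6 := h12 v0 u0 w0
        rw [hcm] at a1 a3 a5
        linarith
    refine ⟨m.compr₂ B, ht0, fun u v w => ⟨h12 u v w, ?_⟩, toT m hme, huniq⟩
    have := hc' u w v
    rw [hc1, one_mul] at this
    exact this
  · rintro ⟨t, ht0, hts, hti, htu⟩
    refine ⟨t.compr₂ e.symm.toLinearMap, ?_, ?_, toM t hti, ?_⟩
    · intro h
      apply ht0
      ext u v w
      rw [← hTM t u v, h]
      simp
    · intro u v
      apply hBinj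
      rw [hTM, hTM]
      ext w
      exact (hts u v w).1
    · intro m' hm'
      obtain ⟨c, hc⟩ := htu _ (toT m' hm')
      refine ⟨c, ?_⟩
      ext u v
      apply hBinj
      have h1 : B (m' u v) = c • t u v := by
        have := congrArg (fun f => f u v) hc
        simpa using this
      rw [h1]
      simp only [LinearMap.smul_apply, map_smul]
      rw [hTM]

end Cfsg.Agent.S5541
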