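import Cfsg.Statements.S5543

set_option autoImplicit false
open Cfsg

namespace Cfsg.Agent.S5543

/-- Let V be a finite-dimensional real vector space with a commutative bilinear product and a positive-definite symmetric bilinear form that associates with the product and satisfies the Norton inequality (the Majorana setting of the definitions). Let X be a group of linear automorphisms of V in which every element squares to the identity, and suppose every non-identity element x of X is a Majorana involution with an axial vector a(x) of squared length 1, such that for any two distinct non-identity x, y the product a(x) ∘ a(y) equals (1/8)(a(x) + a(y) − a(xy)) (the dihedral subalgebra of type 2A whose third axis belongs to the involution xy). Then X has order at most 4. -/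
theorem result {V : Type*} [AddCommGroup V] [Module ℝ V] [FiniteDimensional ℝ V] (mul : V →ₗ[ℝ] V →ₗ[ℝ] V) (B : LinearMap.BilinForm ℝ V) (hV : Cfsg.Axial.IsMajoranaAmbient mul B) (X : Subgroup (V ≃ₗ[ℝ] V)) (hX : ∀ x ∈ X, x * x = 1) (ax : (V ≃ₗ[ℝ] V) → V) (hax : ∀ x ∈ X, x ≠ 1 → Cfsg.Axial.IsMajoranaPair mul B x (ax x)) (h1 : ∀ x ∈ X, x ≠ 1 → B (ax x) (ax x) = 1) (h2A : ∀ x ∈ X, ∀ y ∈ X, x ≠ 1 → y ≠ 1 → x ≠ y → mul (ax x) (ax y) = (1 / 8 : ℝ) • (ax x + ax y - ax (x * y))) : Nat.card ↥X ≤ 4 := by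
  classical
  by_contra hcard
  push Not at hcard
  have hfin : Finite ↥X := Nat.finite_of_card_ne_zero (by omega)
  have : Fintype ↥X := Fintype.ofFinite _
  have hex : ∀ s : Finset ↥X, s.card ≤ 4 → ∃ z : ↥X, z ∉ s := by
    intro s hs
    by_contra hall
    push Not at hall
    have h1 : Finset.univ ⊆ s := fun z _ => hall z
    have h2 := Finset.card_le_card h1
    rw [Finset.card_univ, ← Nat.card_eq_fintype_card] at h2
    omega
  obtain ⟨x, hx⟩ := hex {1} (by simp)
  obtain ⟨y, hy⟩ := hex {1, x} (le_trans (Finset.card_insert_le _ _) (by simp))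
  obtain ⟨z, hz⟩ := hex {1, x, y, x * y} (le_trans (Finset.card_le_four) le_rfl)
  simp only [Finset.mem_insert, Finset.mem_singleton, not_or] at hx hy hz
  obtain ⟨hy1, hyx⟩ := hy
  obtain ⟨hz1, hzx, hzy, hzxy⟩ := hz
  obtain ⟨x, hxX⟩ := x
  obtain ⟨y, hyX⟩ := y
  obtain ⟨z, hzX⟩ := z
  have hx1 : x ≠ 1 := fun h => hx (Subtype.ext h)
  have hy1 : y ≠ 1 := fun h => hy1 (Subtype.ext h)
  have hyx : y ≠ x := fun h => hyx (Subtype.ext h)
  have hz1 : z ≠ 1 := fun h => hz1 (Subtype.ext h)
  have hzx : z ≠ x := fun h => hzx (Subtype.ext h)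
  have hzy : z ≠ y := fun h => hzy (Subtype.ext h)
  have hzxy : z ≠ x * y := fun h => hzxy (Subtype.ext h)
  have hcomm : ∀ u ∈ X, ∀ v ∈ X, u * v = v * u := by
    intro u hu v hv
    have h1 := hX u hu
    have h2 := hX v hv
    have h3 := hX (u * v) (X.mul_mem hu hv)
    calc u * v = (v * v) * (u * v) * (u * u) := by rw [h1, h2, one_mul, mul_one]
      _ = v * ((v * u) * (v * u)) * u := by simp only [mul_assoc]
      _ = v * u := by
          have h4 := hX (v * u) (X.mul_mem hv hu)
          rw [h4, mul_one]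
  have hxx := hX x hxX
  have hyy := hX y hyX
  have hzz := hX z hzX
  obtain ⟨a, ha⟩ : ∃ a, a = ax x := ⟨_, rfl⟩
  -- eigenvectors
  have eig : ∀ u ∈ X, u ≠ 1 → u ≠ x → mul a (ax u - ax (x * u)) = (1 / 4 : ℝ) • (ax u - ax (x * u)) := by
    intro u hu hu1 hux
    have hxu : x * u ∈ X := X.mul_mem hxX hu
    have hxu1 : x * u ≠ 1 := by
      intro h
      apply hux
      calc u = (x * x) * u := by rw [hxx, one_mul]
        _ = x * (x * u) := by rw [mul_assoc]
        _ = x := by rw [h, mul_one]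
    have hxxu : x ≠ x * u := by
      intro h
      apply hu1
      have := mul_left_cancel (a := x) (b := 1) (c := u) (by rw [mul_one]; exact h)
      exact this.symm
    have e1 := h2A x hxX u hu hx1 hu1 (Ne.symm hux)
    have e2 := h2A x hxX (x * u) hxu hx1 hxu1 hxxu
    have e3 : x * (x * u) = u := by rw [← mul_assoc, hxx, one_mul]
    rw [e3] at e2
    rw [ha, map_sub, e1, e2]
    module
  have hw : y * z ∈ X := X.mul_mem hyX hzX
  have hw1 : y * z ≠ 1 := by
    intro h
    apply hzy
    calc z = (y * y) * z := by rw [hyy, one_mul]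
      _ = y * (y * z) := by rw [mul_assoc]
      _ = y := by rw [h, mul_one]
  have hwx : y * z ≠ x := by
    intro h
    apply hzxy
    calc z = (y * y) * z := by rw [hyy, one_mul]
      _ = y * (y * z) := by rw [mul_assoc]
      _ = y * x := by rw [h]
      _ = x * y := hcomm y hyX x hxX
  have E1 := eig y hyX hy1 hyx
  have E2 := eig z hzX hz1 hzx
  have E3 := eig (y * z) hw hw1 hwx
  have hxy : x * y ∈ X := X.mul_mem hxX hyX
  have hxz : x * z ∈ X := X.mul_mem hxX hzX
  have hxy1 : x * y ≠ 1 := by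
    intro h
    apply hyx
    calc y = (x * x) * y := by rw [hxx, one_mul]
      _ = x * (x * y) := by rw [mul_assoc]
      _ = x := by rw [h, mul_one]
  have hxz1 : x * z ≠ 1 := by
    intro h
    apply hzx
    calc z = (x * x) * z := by rw [hxx, one_mul]
      _ = x * (x * z) := by rw [mul_assoc]
      _ = x := by rw [h, mul_one]
  have P1 := h2A y hyX z hzX hy1 hz1 (Ne.symm hzy)
  have P2 := h2A y hyX (x * z) hxz hy1 hxz1 (by
    intro h
    apply hzxy
    calc z = (x * x) * z := by rw [hxx, one_mul]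
      _ = x * (x * z) := by rw [mul_assoc]
      _ = x * y := by rw [← h])
  have P3 := h2A (x * y) hxy z hzX hxy1 hz1 (Ne.symm hzxy)
  have P4 := h2A (x * y) hxy (x * z) hxz hxy1 hxz1 (by
    intro h
    exact hzy (mul_left_cancel h).symm)
  have I2 : y * (x * z) = x * (y * z) := by
    rw [← mul_assoc, hcomm y hyX x hxX, mul_assoc]
  have I3 : x * y * z = x * (y * z) := mul_assoc _ _ _
  have I4 : x * y * (x * z) = y * z := by
    rw [hcomm x hxX y hyX, mul_assoc, ← mul_assoc x x z, hxx, one_mul]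
  rw [I2] at P2
  rw [I3] at P3
  rw [I4] at P4
  have hprod : mul (ax y - ax (x * y)) (ax z - ax (x * z)) =
      (-(1 / 4) : ℝ) • (ax (y * z) - ax (x * (y * z))) := by
    simp only [map_sub, LinearMap.sub_apply, P1, P2, P3, P4]
    module
  obtain ⟨-, -, ⟨⟨ha0, haa, -, hfus⟩, -⟩, -⟩ := hax x hxX hx1
  rw [← ha] at ha0 haa hfus
  have hq : (1 / 4 : ℝ) ∈ Cfsg.Axial.majoranaSpectrum := by
    unfold Cfsg.Axial.majoranaSpectrum
    simp
  have hf := hfus (1 / 4) hq (1 / 4) hq (ax y - ax (x * y))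
    (Module.End.mem_eigenspace_iff.mpr E1) (ax z - ax (x * z)) (Module.End.mem_eigenspace_iff.mpr E2)
  have hlaw : Cfsg.Axial.monsterLaw (1 / 4 : ℝ) (1 / 32) (1 / 4) (1 / 4) = {1, 0} := by
    unfold Cfsg.Axial.monsterLaw
    rw [if_neg (by norm_num), if_neg (by norm_num), if_pos ⟨rfl, rfl⟩]
  rw [hlaw, hprod] at hf
  unfold Cfsg.Axial.eigenSum at hf
  rw [iSup_insert, iSup_singleton, Submodule.mem_sup] at hf
  obtain ⟨v1, hv1, v0, hv0, hv⟩ := hf
  have hv1' : mul a v1 = (1 : ℝ) • v1 := Module.End.mem_eigenspace_iff.mp hv1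
  have hv0' : mul a v0 = (0 : ℝ) • v0 := Module.End.mem_eigenspace_iff.mp hv0
  obtain ⟨e3, he3⟩ : ∃ e3, e3 = ax (y * z) - ax (x * (y * z)) := ⟨_, rfl⟩
  rw [← he3] at hv E3
  have h5 : mul a (v1 + v0) = (1 / 4 : ℝ) • (v1 + v0) := by
    rw [hv, map_smul, E3, smul_comm]
  rw [map_add, hv1', hv0', one_smul, zero_smul, add_zero] at h5
  have h6 : v0 = (3 : ℝ) • v1 := by
    have : (4 : ℝ) • v1 = (4 : ℝ) • ((1 / 4 : ℝ) • (v1 + v0)) := by rw [← h5]
    rw [smul_smul, smul_add] at this
    norm_num at this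
    have h7 : v0 = (4 : ℝ) • v1 - v1 := by rw [this]; abel
    rw [h7]; module
  have h8 : v1 = 0 := by
    have := congrArg (mul a) h6
    rw [hv0', map_smul, hv1', zero_smul, one_smul] at this
    have h9 : (3 : ℝ) • v1 = 0 := this.symm
    exact (smul_eq_zero.mp h9).resolve_left (by norm_num)
  rw [h8, smul_zero] at h6
  rw [h8, h6, add_zero] at hv
  have he0 : e3 = 0 := (smul_eq_zero.mp hv.symm).resolve_left (by norm_num)
  rw [he3, sub_eq_zero] at he0
  -- now ax (y z) = ax (x y z)
  have hxw : x * (y * z) ∈ X := X.mul_mem hxX hw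
  have hxw1 : x * (y * z) ≠ 1 := by
    intro h
    apply hwx
    calc y * z = (x * x) * (y * z) := by rw [hxx, one_mul]
      _ = x * (x * (y * z)) := by rw [mul_assoc]
      _ = x := by rw [h, mul_one]
  have P5 := h2A (y * z) hw (x * (y * z)) hxw hw1 hxw1 (by
    intro h
    apply hx1
    have := mul_right_cancel (a := 1) (b := y * z) (c := x) (by rw [one_mul]; exact h)
    exact this.symm)
  have I5 : y * z * (x * (y * z)) = x := by
    rw [hcomm (y * z) hw (x * (y * z)) hxw, mul_assoc, hX (y * z) hw, mul_one]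
  rw [I5, ← he0] at P5
  obtain ⟨-, -, ⟨⟨-, hee, -, -⟩, -⟩, -⟩ := hax (y * z) hw hw1
  rw [hee] at P5
  have h10 : ax x = (-6 : ℝ) • ax (y * z) := by
    have : (8 : ℝ) • ax (y * z) = (8 : ℝ) • ((1 / 8 : ℝ) • (ax (y * z) + ax (y * z) - ax x)) := by
      rw [← P5]
    rw [smul_smul] at this
    norm_num at this
    have h11 : ax x = ax (y * z) + ax (y * z) - (8 : ℝ) • ax (y * z) := by rw [this]; abel
    rw [h11]; module
  have h12 := h1 x hxX hx1
  rw [h10] at h12
  simp only [map_smul, LinearMap.smul_apply, smul_eq_mul, h1 (y * z) hw hw1] at h12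
  norm_num at h12

end Cfsg.Agent.S5543
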