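import Cfsg.Statements.S5545
import Mathlib

set_option autoImplicit false
open Cfsg

namespace Cfsg.Agent.S5545


open Cfsg.Axial

variable {V : Type*} [AddCommGroup V] [Module ℝ V]

theorem mem_eigen {mul : V →ₗ[ℝ] V →ₗ[ℝ] V} {a v : V} {c : ℝ} :
    v ∈ eigen mul a c ↔ mul a v = c • v := Module.End.mem_eigenspace_iff

theorem eigen_map (mul : V →ₗ[ℝ] V →ₗ[ℝ] V) (μ : V ≃ₗ[ℝ] V)
    (hμ : ∀ u v : V, μ (mul u v) = mul (μ u) (μ v)) (a : V) (c : ℝ) :
    eigen mul (μ a) c = (eigen mul a c).map (μ : V →ₗ[ℝ] V) := by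
  ext v
  rw [mem_eigen, Submodule.mem_map]
  constructor
  · intro h
    refine ⟨μ.symm v, ?_, by simp⟩
    rw [mem_eigen]
    apply μ.injective
    rw [hμ, map_smul, LinearEquiv.apply_symm_apply, h]
  · rintro ⟨w, hw, rfl⟩
    rw [mem_eigen] at hw
    show mul (μ a) (μ w) = c • μ w
    rw [← hμ, hw, map_smul]

theorem eigenSum_map (mul : V →ₗ[ℝ] V →ₗ[ℝ] V) (μ : V ≃ₗ[ℝ] V)
    (hμ : ∀ u v : V, μ (mul u v) = mul (μ u) (μ v)) (a : V) (S : Set ℝ) :
    eigenSum mul (μ a) S = (eigenSum mul a S).map (μ : V →ₗ[ℝ] V) := by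
  unfold eigenSum
  rw [Submodule.map_iSup]
  congr 1
  ext c
  rw [Submodule.map_iSup]
  simp only [eigen_map mul μ hμ]

theorem pair_map (mul : V →ₗ[ℝ] V →ₗ[ℝ] V) (B : LinearMap.BilinForm ℝ V) (μ₀ μ₁ : V ≃ₗ[ℝ] V) (a₀ : V)
    (h₀ : IsMajoranaPair mul B μ₀ a₀) (hμ : ∀ u v : V, μ₁ (mul u v) = mul (μ₁ u) (μ₁ v))
    (hc : μ₀ * μ₁ = μ₁ * μ₀) : IsMajoranaPair mul B μ₀ (μ₁ a₀) := by
  obtain ⟨g1, g2, ⟨⟨g3, g4, g5, g6⟩, g7⟩, g8, g9⟩ := h₀
  have hcomm : ∀ x, μ₀ (μ₁ x) = μ₁ (μ₀ x) := fun x => by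
    have := congrArg (fun f : V ≃ₗ[ℝ] V => f x) hc
    exact this
  refine ⟨g1, g2, ⟨⟨?_, ?_, ?_, ?_⟩, ?_⟩, ?_, ?_⟩
  · intro h
    exact g3 (μ₁.injective (by rw [h, map_zero]))
  · rw [← hμ, g4]
  · rw [eigenSum_map mul μ₁ hμ, g5, Submodule.map_top, LinearEquiv.range]
  · intro c hc' d hd u hu v hv
    rw [eigen_map mul μ₁ hμ] at hu hv
    obtain ⟨u', hu', rfl⟩ := hu
    obtain ⟨v', hv', rfl⟩ := hv
    rw [eigenSum_map mul μ₁ hμ]
    exact ⟨mul u' v', g6 c hc' d hd u' hu' v' hv', hμ u' v'⟩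
  · rw [eigen_map mul μ₁ hμ, g7, Submodule.map_span, Set.image_singleton]
    rfl
  · intro v hv
    rw [eigenSum_map mul μ₁ hμ] at hv
    obtain ⟨v', hv', rfl⟩ := hv
    show μ₀ (μ₁ v') = μ₁ v'
    rw [hcomm]
    exact congrArg μ₁ (g8 v' hv')
  · intro v hv
    rw [eigen_map mul μ₁ hμ] at hv
    obtain ⟨v', hv', rfl⟩ := hv
    show μ₀ (μ₁ v') = -(μ₁ v')
    rw [hcomm, ← map_neg]
    exact congrArg μ₁ (g9 v' hv')

theorem decomp {mul : V →ₗ[ℝ] V →ₗ[ℝ] V} {a : V}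
    (h : IsPrimitiveAxis mul (monsterLaw (1 / 4) (1 / 32)) majoranaSpectrum a) (v : V) :
    ∃ (c : ℝ) (v0 v4 v32 : V), mul a v0 = 0 ∧ mul a v4 = (1 / 4 : ℝ) • v4 ∧
      mul a v32 = (1 / 32 : ℝ) • v32 ∧ v = c • a + v0 + v4 + v32 := by
  have h1 : v ∈ eigenSum mul a majoranaSpectrum := by rw [h.1.2.2.1]; trivial
  unfold eigenSum majoranaSpectrum at h1
  rw [iSup_insert, iSup_insert, iSup_insert, iSup_singleton] at h1
  obtain ⟨x1, hx1, y1, hy1, rfl⟩ := Submodule.mem_sup.1 h1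
  obtain ⟨x0, hx0, y2, hy2, rfl⟩ := Submodule.mem_sup.1 hy1
  obtain ⟨x4, hx4, x32, hx32, rfl⟩ := Submodule.mem_sup.1 hy2
  rw [h.2] at hx1
  obtain ⟨c, rfl⟩ := Submodule.mem_span_singleton.1 hx1
  rw [mem_eigen] at hx0 hx4 hx32
  refine ⟨c, x0, x4, x32, by rw [hx0, zero_smul], hx4, hx32, by abel⟩

theorem eigen_le (mul : V →ₗ[ℝ] V →ₗ[ℝ] V) (a : V) {S : Set ℝ} {c : ℝ} (hc : c ∈ S) :
    eigen mul a c ≤ eigenSum mul a S := le_iSup₂_of_le c hc le_rfl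

theorem law00 : monsterLaw (1 / 4 : ℝ) (1 / 32) 0 0 = {0} := by
  unfold monsterLaw; norm_num

theorem law04 : monsterLaw (1 / 4 : ℝ) (1 / 32) 0 (1 / 4) = {1 / 4} := by
  unfold monsterLaw; norm_num

theorem law44 : monsterLaw (1 / 4 : ℝ) (1 / 32) (1 / 4) (1 / 4) = {1, 0} := by
  unfold monsterLaw; norm_num

theorem core {mul : V →ₗ[ℝ] V →ₗ[ℝ] V} {B : LinearMap.BilinForm ℝ V} (hV : IsMajoranaAmbient mul B)
    {μ : V ≃ₗ[ℝ] V} {a b : V} (h : IsMajoranaPair mul B μ a) (hn : B a a = 1) (hb : mul b b = b)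
    (hμb : μ b = b) :
    mul a (mul a b) = (3 * B a b / 4) • a + (1 / 4 : ℝ) • mul a b ∧
    (8 : ℝ) • mul (mul a b) (mul a b) = (2 : ℝ) • mul b (mul a b) + (2 * B a b - 1) • mul a b
      + (4 * (B a b) ^ 2 + B a b) • a := by
  obtain ⟨hcomm, hsymm, hpos, hassoc, -⟩ := hV
  obtain ⟨g1, g2, g3, g8, g9⟩ := h
  obtain ⟨c, u0, u4, u32, h0, h4, h32, hdec⟩ := decomp g3 b
  have haa : mul a a = a := g3.1.2.1
  have hfus := g3.1.2.2.2
  -- u32 = 0
  have m1 : μ a = a := g8 a (eigen_le mul a (c := 1) (by simp) (mem_eigen.2 (by rw [haa, one_smul])))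
  have m0 : μ u0 = u0 := g8 u0 (eigen_le mul a (c := 0) (by simp) (mem_eigen.2 (by rw [h0, zero_smul])))
  have m4 : μ u4 = u4 := g8 u4 (eigen_le mul a (c := 1 / 4) (by simp) (mem_eigen.2 h4))
  have m32 : μ u32 = -u32 := g9 u32 (mem_eigen.2 h32)
  have hz : u32 = 0 := by
    have h5 := hμb
    rw [hdec] at h5
    simp only [map_add, map_smul, m1, m0, m4, m32] at h5
    have h6 : (2 : ℝ) • u32 = 0 := by linear_combination (norm := module) -h5
    simpa using h6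
  subst hz
  rw [add_zero] at hdec
  subst hdec
  -- c = B a b
  have b0 : B a u0 = 0 := by
    have := hassoc a a u0
    rw [h0, haa, map_zero] at this
    exact this.symm
  have b4 : B a u4 = 0 := by
    have := hassoc a a u4
    rw [h4, haa, map_smul, smul_eq_mul] at this
    linarith
  have hc : B a (c • a + u0 + u4) = c := by
    simp only [map_add, map_smul, hn, b0, b4, smul_eq_mul]; ring
  rw [hc]
  -- fusion
  have e0 : u0 ∈ eigen mul a 0 := mem_eigen.2 (by rw [h0, zero_smul])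
  have e4 : u4 ∈ eigen mul a (1 / 4) := mem_eigen.2 h4
  have s0 : (0 : ℝ) ∈ majoranaSpectrum := by unfold majoranaSpectrum; simp
  have s4 : (1 / 4 : ℝ) ∈ majoranaSpectrum := by unfold majoranaSpectrum; simp
  have f00 : mul a (mul u0 u0) = 0 := by
    have := hfus 0 s0 0 s0 u0 e0 u0 e0
    rw [law00] at this
    unfold eigenSum at this
    rw [iSup_singleton, mem_eigen, zero_smul] at this
    exact this
  have f04 : mul a (mul u0 u4) = (1 / 4 : ℝ) • mul u0 u4 := by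
    have := hfus 0 s0 (1 / 4) s4 u0 e0 u4 e4
    rw [law04] at this
    unfold eigenSum at this
    rw [iSup_singleton, mem_eigen] at this
    exact this
  obtain ⟨s, w, hw, f44⟩ : ∃ (s : ℝ) (w : V), mul a w = 0 ∧ mul u4 u4 = s • a + w := by
    have := hfus (1 / 4) s4 (1 / 4) s4 u4 e4 u4 e4
    rw [law44] at this
    unfold eigenSum at this
    rw [iSup_insert, iSup_singleton] at this
    obtain ⟨x1, hx1, x0, hx0, hx⟩ := Submodule.mem_sup.1 this
    rw [g3.2] at hx1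
    obtain ⟨s, rfl⟩ := Submodule.mem_span_singleton.1 hx1
    rw [mem_eigen, zero_smul] at hx0
    exact ⟨s, x0, hx0, hx.symm⟩
  have c0 : mul u0 a = 0 := by rw [hcomm, h0]
  have c4 : mul u4 a = (1 / 4 : ℝ) • u4 := by rw [hcomm, h4]
  have c40 : mul u4 u0 = mul u0 u4 := hcomm _ _
  have E : c • a + u0 + u4 = (c ^ 2) • a + (c / 2) • u4 + mul u0 u0 + (2 : ℝ) • mul u0 u4
      + (s • a + w) := by
    have h5 := hb
    simp only [map_add, map_smul, LinearMap.add_apply, LinearMap.smul_apply, haa, h0, h4, c0, c4,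
      c40, f44, smul_zero] at h5
    linear_combination (norm := module) -h5
  have E1 := congrArg (mul a) E
  simp only [map_add, map_smul, haa, h0, h4, f00, f04, hw, smul_zero] at E1
  have E2 := congrArg (mul a) E1
  simp only [map_add, map_smul, haa, h0, h4, f00, f04, hw, smul_zero, map_zero] at E2
  have K : u4 = (c / 2) • u4 + (2 : ℝ) • mul u0 u4 := by
    linear_combination (norm := module) (16 / 3 : ℝ) • E1 - (16 / 3 : ℝ) • E2
  constructor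
  · simp only [map_add, map_smul, LinearMap.add_apply, LinearMap.smul_apply, haa, h0, h4, c0, c4,
      c40, smul_zero, map_zero, LinearMap.zero_apply, add_zero, zero_add]
    module
  · simp only [map_add, map_smul, LinearMap.add_apply, LinearMap.smul_apply, haa, h0, h4, c0, c4,
      c40, smul_zero, map_zero, LinearMap.zero_apply, add_zero, zero_add]
    linear_combination (norm := module) (1 / 4 : ℝ) • K


/-- Let V be a finite-dimensional real vector space with a commutative bilinear product and a positive-definite symmetric bilinear form that associates with the product and satisfies the Norton inequality (the Majorana setting of the definitions). Let μ₀, μ₁ be commuting Majorana involutions with distinct axial vectors a₀ ≠ a₁ of squared length 1, each involution having no other axial vector. Then either a₀ and a₁ are orthogonal with a₀ ∘ a₁ = 0 (type 2B), or their inner product is 1/8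 and, with a₂ = a₀ + a₁ − 8 a₀ ∘ a₁, the vector a₂ is an idempotent and a₀ ∘ a₂ = (1/8)(a₀ + a₂ − a₁), a₁ ∘ a₂ = (1/8)(a₁ + a₂ − a₀) (type 2A: the three idempotents span a subalgebra with aᵢ ∘ aⱼ = (1/8)(aᵢ + aⱼ − aₖ)). -/
theorem result {V : Type*} [AddCommGroup V] [Module ℝ V] [FiniteDimensional ℝ V] (mul : V →ₗ[ℝ] V →ₗ[ℝ] V) (B : LinearMap.BilinForm ℝ V) (hV : Cfsg.Axial.IsMajoranaAmbient mul B) (μ₀ μ₁ : V ≃ₗ[ℝ] V) (a₀ a₁ : V) (h₀ : Cfsg.Axial.IsMajoranaPair mul B μ₀ a₀) (h₁ : Cfsg.Axial.IsMajoranaPair mul B μ₁ a₁) (hu₀ : ∀ a : V, Cfsg.Axial.IsMajoranaPair mul B μ₀ a → a = a₀) (hu₁ : ∀ a : V, Cfsg.Axial.IsMajoranaPair mul B μ₁ a → a = a₁) (hn₀ : B a₀ a₀ = 1) (hn₁ : B a₁ a₁ = 1) (hc : μ₀ * μ₁ = μ₁ * μ₀) (hne : a₀ ≠ a₁) : (B a₀ a₁ = 0 ∧ mul a₀ a₁ = 0) ∨ (B a₀ a₁ = 1 / 8 ∧ mul (a₀ + a₁ - (8 : ℝ) • mul a₀ a₁) (a₀ + a₁ - (8 : ℝ) • mul a₀ a₁) = a₀ + a₁ - (8 : ℝ) • mul a₀ a₁ ∧ mul a₀ (a₀ + a₁ -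 (8 : ℝ) • mul a₀ a₁) = (1 / 8 : ℝ) • (a₀ + (a₀ + a₁ - (8 : ℝ) • mul a₀ a₁) - a₁) ∧ mul a₁ (a₀ + a₁ - (8 : ℝ) • mul a₀ a₁) = (1 / 8 : ℝ) • (a₁ + (a₀ + a₁ - (8 : ℝ) • mul a₀ a₁) - a₀)) := by
  obtain ⟨hcomm, hsymm, hpos, hassoc, -⟩ := id hV
  have hf1 : μ₁ a₀ = a₀ := hu₀ _ (pair_map mul B μ₀ μ₁ a₀ h₀ h₁.1 hc)
  have hf0 : μ₀ a₁ = a₁ := hu₁ _ (pair_map mul B μ₁ μ₀ a₁ h₁ h₀.1 hc.symm)
  have i0 : mul a₀ a₀ = a₀ := h₀.2.2.1.1.2.1
  have i1 : mul a₁ a₁ = a₁ := h₁.2.2.1.1.2.1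
  obtain ⟨A1, A2⟩ := core hV h₀ hn₀ i1 hf0
  obtain ⟨B1, B2⟩ := core hV h₁ hn₁ i0 hf1
  have hp : mul a₁ a₀ = mul a₀ a₁ := hcomm _ _
  have hB : B a₁ a₀ = B a₀ a₁ := hsymm _ _
  rw [hp, hB] at B1 B2
  have e1 : B a₀ (mul a₀ a₁) = B a₀ a₁ := by
    have := hassoc a₀ a₀ a₁
    rw [i0] at this
    exact this
  have e2 : B (mul a₀ a₁) (mul a₀ a₁) = B a₀ (mul a₁ (mul a₀ a₁)) := (hassoc a₀ a₁ _).symm
  generalize hpdef : mul a₀ a₁ = p at *
  generalize hcdef : B a₀ a₁ = c at *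
  rw [B1] at A2 e2
  rw [A1] at B2
  have q0 : mul p a₀ = (3 * c / 4) • a₀ + (1 / 4 : ℝ) • p := by rw [hcomm, A1]
  have q1 : mul p a₁ = (3 * c / 4) • a₁ + (1 / 4 : ℝ) • p := by rw [hcomm, B1]
  have key : (c * (1 - 8 * c)) • (a₀ - a₁) = 0 := by
    linear_combination (norm := module) (2 : ℝ) • A2 - (2 : ℝ) • B2
  rcases smul_eq_zero.1 key with h | h
  · rcases mul_eq_zero.1 h with h | h
    · left
      refine ⟨h, ?_⟩
      by_contra hp0
      have h5 := hpos p hp0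
      rw [e2, map_add, map_smul, map_smul, e1, hcdef, h] at h5
      simp at h5
    · right
      have hc8 : c = 1 / 8 := by linarith
      subst hc8
      refine ⟨rfl, ?_, ?_, ?_⟩
      · simp only [map_add, map_sub, map_smul, LinearMap.add_apply, LinearMap.sub_apply,
          LinearMap.smul_apply, i0, i1, hpdef, hp, A1, B1, q0, q1]
        linear_combination (norm := module) (8 : ℝ) • A2
      · simp only [map_add, map_sub, map_smul, i0, hpdef, A1]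
        module
      · simp only [map_add, map_sub, map_smul, i1, hp, B1]
        module
  · exact absurd (sub_eq_zero.1 h) hne

end Cfsg.Agent.S5545
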