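import Cfsg.Statements.S5547
import Cfsg.Agent.S1696
import Cfsg.Agent.Lib.Helper19.Rep78.Main

set_option autoImplicit false
open Cfsg

namespace Cfsg.Agent.S5547

/-- The Fischer group Fi₂₂ (the finitely presented 3-transposition group of the definitions) is isomorphic to a subgroup of the general linear group of degree 78 over the field with 13 elements: there is an injective homomorphism into it. -/
theorem result : ∃ f : Cfsg.Spor.Fi22 →* GL (Fin 78) (ZMod 13), Function.Injective f := by
  refine ⟨Cfsg.Agent.Lib.Helper19.Rep78.f, ?_⟩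
  rw [← MonoidHom.ker_eq_bot_iff]
  rcases Cfsg.Agent.S1696.simple.eq_bot_or_eq_top_of_normal
    (Cfsg.Agent.Lib.Helper19.Rep78.f).ker inferInstance with h | h
  · exact h
  · exfalso
    have h1 : (PresentedGroup.of Cfsg.Spor.Fi22.Gen.a : Cfsg.Spor.Fi22) ∈
        (Cfsg.Agent.Lib.Helper19.Rep78.f).ker := by
      rw [h]
      exact Subgroup.mem_top _
    rw [MonoidHom.mem_ker, Cfsg.Agent.Lib.Helper19.Rep78.f_of] at h1
    exact Cfsg.Agent.Lib.Helper19.Rep78.u_ne h1

end Cfsg.Agent.S5547
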