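import Cfsg.Statements.S5550
import Cfsg.Agent.Lib.Helper28.OutDual
import Cfsg.Agent.Lib.Helper3.Trio
import Cfsg.Agent.Lib.Helper3.M24Trans

set_option autoImplicit false
open Cfsg

namespace Cfsg.Agent.S5550

open Cfsg.Agent.Lib.Helper3 Cfsg.Agent.Lib.Helper28.OutMath
open scoped Pointwise

def pairsO : List (List ℕ × ℕ) := [([4, 1, 0, 4, 1, 3, 2, 0, 4, 0, 4, 3, 4, 3, 3, 4, 4, 0, 2, 0, 0, 4, 4, 3, 4, 4, 0, 0, 4, 4], 185603),
  ([2, 1, 3, 3, 4, 3, 1, 0, 0, 4, 1, 3, 2, 2, 0, 2, 0, 0, 4, 0, 0, 4, 0, 4, 3, 4, 3, 3, 4, 4, 0, 2, 0], 4424227),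
  ([2, 1, 3, 3, 4, 3, 1, 0, 0, 4, 1, 3, 2, 2, 0, 2, 0, 0, 4, 0, 0, 4, 0, 4, 3, 4, 3, 3, 4, 4, 0, 2, 0], 3182981),
  ([4, 4, 0, 0, 1, 3, 2, 3, 3, 2, 0, 2, 3, 2, 0, 0, 0, 0, 0, 0, 2, 2, 3, 3, 3, 3, 4, 3, 2, 0, 4, 4, 0], 12222476),
  ([2, 1, 3, 3, 4, 3, 1, 0, 0, 4, 1, 3, 2, 2, 0, 2, 0, 0, 4, 0, 0, 4, 0, 4, 3, 4, 3, 3, 4, 4, 0, 2, 0], 371206),
  ([4, 4, 0, 0, 1, 3, 2, 3, 3, 2, 0, 2, 3, 2, 0, 0, 0, 0, 0, 0, 2, 2, 3, 3, 3, 3, 4, 3, 2, 0, 4, 4, 0], 567074),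
  ([4, 1, 0, 4, 1, 3, 2, 0, 4, 0, 4, 3, 4, 3, 3, 4, 4, 0, 2, 0, 0, 4, 4, 3, 4, 4, 0, 0, 4, 4], 6295992),
  ([0, 2, 2, 3, 4, 4, 0, 2, 1, 0, 4, 3, 4, 3, 4, 4, 3, 4, 3, 3, 4, 4, 0, 2, 0], 2531524),
  ([0, 0, 4, 4, 0, 1, 3, 4, 0, 0, 1, 0, 4, 3, 4, 3, 3, 4, 4, 0, 2, 0, 0, 4, 3, 3, 3, 2, 0, 0, 0, 4, 4, 3], 5508118),
  ([1, 0, 2, 1, 3, 2, 0, 0, 0, 0, 4, 4, 0, 0, 2, 0, 4, 0, 0, 2, 2, 3, 3, 2, 2, 0, 2, 2, 3], 10028808),
  ([0, 2, 2, 3, 4, 4, 0, 2, 1, 0, 4, 3, 4, 3, 4, 4, 3, 4, 3, 3, 4, 4, 0, 2, 0], 4850476),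
  ([4, 1, 0, 4, 1, 3, 2, 0, 4, 0, 4, 3, 4, 3, 3, 4, 4, 0, 2, 0, 0, 4, 4, 3, 4, 4, 0, 0, 4, 4], 15274244)]
def cmbO : List (List ℕ) := [[4526126, 6365962, 14902053],
  [9684302, 5448047, 6977286, 14902053],
  [9684302, 5448047, 11896721, 4526126, 3205831, 13904221],
  [9684302, 4526126, 6977286, 3205831, 12661896, 14902053, 12594948],
  [9684302, 5448047, 11896721, 4526126, 6977286, 12661896],
  [9684302, 11896721, 4526126, 13904221, 12661896, 12594948],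
  [9684302, 5448047, 11896721, 8168540, 4526126, 6365962, 12661896],
  [9684302, 5448047, 11896721, 4526126, 6977286, 6365962, 3205831, 13904221, 12661896],
  [9684302, 11896721, 8168540, 4526126, 12661896, 14902053],
  [9684302, 5448047, 11896721, 8168540, 6365962, 3205831, 14902053, 12594948],
  [5448047, 11896721, 6365962, 13904221, 12661896, 14902053, 12594948],
  [9684302, 5448047, 14902053, 12594948]]
def pairsD : List (List ℕ × ℕ) := [([2, 1, 3, 4, 4, 0, 4, 1, 3, 3, 4, 4, 3, 3, 3, 3, 3, 3, 2, 3, 4, 3, 2, 2, 0, 4], 8704546),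
  ([4, 3, 1, 0, 4, 3, 3, 4, 0, 0, 4, 3, 4, 3, 4, 3, 2, 3, 4, 3, 4, 4, 3, 4, 0, 2, 3, 4], 11046145),
  ([0, 2, 1, 3, 4, 1, 3, 3, 2, 0, 2, 2, 0, 4, 4, 0, 0, 4, 4, 0, 2, 3, 3, 2, 2, 3, 4, 0, 2, 0, 0, 0, 0], 2627629),
  ([1, 3, 3, 2, 0, 1, 3, 2, 0, 2, 3, 3, 2, 3, 3, 4, 4, 0, 2, 2, 3, 2, 3, 3, 4, 4, 3, 3, 3, 4, 3, 2, 0, 0], 1063445),
  ([2, 1, 3, 4, 4, 0, 4, 1, 3, 3, 4, 4, 3, 3, 3, 3, 3, 3, 2, 3, 4, 3, 2, 2, 0, 4], 1618953),
  ([2, 1, 3, 4, 4, 0, 4, 1, 3, 3, 4, 4, 3, 3, 3, 3, 3, 3, 2, 3, 4, 3, 2, 2, 0, 4], 6447171),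
  ([2, 0, 1, 3, 4, 3, 3, 4, 0, 1, 0, 1, 3, 4, 3, 4, 3, 4, 1, 3, 2, 3, 2, 2, 3, 4, 3, 2, 2, 0, 4], 4490852),
  ([1, 3, 2, 3, 1, 0, 4, 0, 4, 3, 2, 3, 4, 4, 0, 2, 0, 4, 4, 0, 4, 3, 2, 0, 4, 4, 3, 3, 3, 4], 3375280),
  ([2, 0, 1, 3, 4, 3, 3, 4, 0, 1, 0, 1, 3, 4, 3, 4, 3, 4, 1, 3, 2, 3, 2, 2, 3, 4, 3, 2, 2, 0, 4], 9279496),
  ([0, 2, 1, 3, 4, 1, 3, 3, 2, 0, 2, 2, 0, 4, 4, 0, 0, 4, 4, 0, 2, 3, 3, 2, 2, 3, 4, 0, 2, 0, 0, 0, 0], 7438406),
  ([1, 3, 2, 3, 1, 0, 4, 0, 4, 3, 2, 3, 4, 4, 0, 2, 0, 4, 4, 0, 4, 3, 2, 0, 4, 4, 3, 3, 3, 4], 4536592),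
  ([1, 3, 2, 3, 1, 0, 4, 0, 4, 3, 2, 3, 4, 4, 0, 2, 0, 4, 4, 0, 4, 3, 2, 0, 4, 4, 3, 3, 3, 4], 632881)]
def cmbD : List (List ℕ) := [[7133354, 4788761, 4287105, 5148423, 4768432, 10861956],
  [10400552, 7133354, 1346463, 4788761, 5148423, 10861956, 13992630, 14201395],
  [10400552, 7133354, 1346463, 4788761, 5148423, 4768432, 10861956, 14201395],
  [10400552, 13636881, 1346463, 4788761, 10861956, 14201395],
  [10400552, 13636881, 7133354, 1346463, 4788761, 4287105, 10861956],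
  [13636881, 7133354, 4788761, 5148423, 13992630, 14201395],
  [10400552, 4788761, 5148423, 4768432, 10861956, 4203377, 14201395],
  [10400552, 1346463, 4287105, 13992630],
  [7133354, 1346463, 4768432, 13992630, 14201395],
  [5148423, 4768432, 10861956, 14201395],
  [10400552, 7133354, 5148423, 13992630, 14201395],
  [10400552, 7133354, 1346463, 4788761, 4287105, 13992630, 14201395]]

def dv (p : List ℕ × ℕ) : ℕ := pm (wact (winv p.1)) p.2 ^^^ p.2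

def chk (A : ℕ) (pairs : List (List ℕ × ℕ)) (cmb : List (List ℕ)) : Bool :=
  pairs.all (fun p => pm (wact (winv p.1)) A == A && decide (InC p.2) && decide (p.2 < 2 ^ 24)) &&
  cmb.all (fun l => l.all fun m => (pairs.map dv).contains m) &&
  (cmb.map xorl == basisList)

theorem chkO : chk 0x149f pairsO cmbO = true := by decide +kernel
theorem chkD : chk 0x5335f pairsD cmbD = true := by decide +kernel

theorem ev_smul (T : Equiv.Perm GolayPt) (s t : Finset GolayPt) : ev (T • s) (T • t) ↔ ev s t := by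
  unfold ev
  rw [← Finset.smul_finset_inter, Finset.card_smul_finset]

theorem std {A : ℕ} (hA : A < 2 ^ 24) {pairs : List (List ℕ × ℕ)} {cmb : List (List ℕ)}
    (h : chk A pairs cmb = true) (S : Finset GolayPt) (hS : S ∉ CS) :
    ∃ τ ∈ M24, τ • unmask A = unmask A ∧ symmDiff (τ • S) S ∉ CS := by
  by_contra hcon
  push Not at hcon
  apply hS
  apply mem_CS_of_ev
  unfold chk at h
  simp only [Bool.and_eq_true, List.all_eq_true, beq_iff_eq, decide_eq_true_eq,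
    List.contains_iff_mem] at h
  obtain ⟨⟨hp, hc⟩, hb⟩ := h
  have h1 : ∀ m ∈ pairs.map dv, ev S (unmask m) := by
    intro m hm
    obtain ⟨p, hpm, rfl⟩ := List.mem_map.1 hm
    obtain ⟨⟨hpA, hpC⟩, hlt⟩ := hp p hpm
    have hTA : wperm p.1 • unmask A = unmask A := by
      apply mask_injective
      rw [mask_wperm_smul, mask_unmask hA]
      exact hpA
    have hTi : (wperm p.1)⁻¹ • unmask A = unmask A := by rw [inv_smul_eq_iff, hTA]
    have hcc := hcon _ (inv_mem (wperm_mem p.1)) hTi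
    have hcC : unmask p.2 ∈ CS := by
      rw [mem_supports_iff, mask_unmask hlt]; exact hpC
    have e1 := ev_code hcc hcC
    rw [ev_symmDiff_left] at e1
    have e2 : ev ((wperm p.1)⁻¹ • S) (unmask p.2) ↔ ev S (wperm p.1 • unmask p.2) := by
      rw [← ev_smul (wperm p.1), smul_inv_smul]
    have e3 : unmask (dv p) = symmDiff (wperm p.1 • unmask p.2) (unmask p.2) := by
      have e4 : pm (wact (winv p.1)) p.2 = mask (wperm p.1 • unmask p.2) := by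
        rw [mask_wperm_smul, mask_unmask hlt]
      rw [dv, unmask_xor, e4, unmask_mask]
    rw [e3, ev_symmDiff_right, ← e2]
    exact e1
  intro b hbb
  have hbm : b ∈ cmb.map xorl := by rw [hb]; exact hbb
  obtain ⟨l, hl, rfl⟩ := List.mem_map.1 hbm
  exact ev_xorl S l (fun m hm => h1 m (hc l hl m hm))

theorem transport {A : ℕ} (hstd : ∀ S : Finset GolayPt, S ∉ CS →
      ∃ τ ∈ M24, τ • unmask A = unmask A ∧ symmDiff (τ • S) S ∉ CS)
    {g : Equiv.Perm GolayPt} (hg : g ∈ M24) {U : Finset GolayPt} (hgU : g • U = unmask A)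
    (S : Finset GolayPt) (hS : S ∉ CS) :
    ∃ σ ∈ M24, σ • U = U ∧ symmDiff (σ • S) S ∉ CS := by
  have hS' : g • S ∉ CS := by
    intro h
    apply hS
    have := smul_mem_CS (inv_mem hg) h
    rwa [inv_smul_smul] at this
  obtain ⟨τ, hτ, hτA, hτS⟩ := hstd _ hS'
  refine ⟨g⁻¹ * τ * g, mul_mem (mul_mem (inv_mem hg) hτ) hg, ?_, ?_⟩
  · rw [mul_smul, mul_smul, hgU, hτA, ← hgU, inv_smul_smul]
  · intro h
    apply hτS
    have := smul_mem_CS hg h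
    rwa [Finset.smul_finset_symmDiff, mul_smul, mul_smul, smul_inv_smul] at this

theorem fin_form (U S : Finset GolayPt) (hU : U ∈ CS) (hS : S ∉ CS) :
    ∃ σ ∈ M24, σ • U = U ∧ symmDiff (σ • S) S ∉ CS := by
  have sO := std (A := 0x149f) (by norm_num) chkO
  have sD := std (A := 0x5335f) (by norm_num) chkD
  rcases code_weights U hU with c | c | c | c | c
  · obtain ⟨τ, hτ, _, h⟩ := sD S hS
    rw [Finset.card_eq_zero] at c
    exact ⟨τ, hτ, by rw [c, Finset.smul_finset_empty], h⟩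
  · obtain ⟨g, hg, hgU⟩ := octad_to_O0 (o := U) ⟨hU, c⟩
    exact transport sO hg hgU S hS
  · obtain ⟨g, hg, hgU⟩ := dodecad_to_D0 (d := U) ⟨hU, c⟩
    exact transport sD hg hgU S hS
  · have hUc : Uᶜ ∈ octads := by
      refine ⟨?_, ?_⟩
      · have := supports_symmDiff hU univ_mem_CS
        have e : symmDiff U Finset.univ = Uᶜ := by
          ext p; simp [Finset.mem_symmDiff]
        rwa [e] at this
      · rw [Finset.card_compl, c]; rfl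
    obtain ⟨g, hg, hgU⟩ := octad_to_O0 hUc
    obtain ⟨σ, hσ, h1, h2⟩ := transport sO hg hgU S hS
    refine ⟨σ, hσ, ?_, h2⟩
    ext p
    have e1 : p ∈ σ • Uᶜ ↔ p ∈ Uᶜ := by rw [h1]
    rw [← Finset.inv_smul_mem_iff, Finset.mem_compl, Finset.mem_compl, not_iff_not] at e1
    rw [← Finset.inv_smul_mem_iff]
    exact e1
  · obtain ⟨τ, hτ, _, h⟩ := sD S hS
    have : U = Finset.univ := by
      rw [← Finset.card_eq_iff_eq_univ, c]; rfl
    exact ⟨τ, hτ, by rw [this, Finset.smul_finset_univ], h⟩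

theorem support_perm (σ : Equiv.Perm Cfsg.GolayPt) (w : Cfsg.GolayPt → ZMod 2) :
    Cfsg.support₂ (fun p => w (σ.symm p)) = σ • Cfsg.support₂ w := by
  ext p
  rw [← Finset.inv_smul_mem_iff]
  simp only [Cfsg.support₂, Finset.mem_filter, Finset.mem_univ, true_and]
  rfl

theorem support_sub (a b : Cfsg.GolayPt → ZMod 2) :
    Cfsg.support₂ (a - b) = symmDiff (Cfsg.support₂ a) (Cfsg.support₂ b) := by
  ext p
  simp only [Cfsg.support₂, Finset.mem_filter, Finset.mem_univ, true_and, Finset.mem_symmDiff,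
    Pi.sub_apply]
  generalize a p = x
  generalize b p = y
  revert x y
  decide

theorem mem_iff (w : Cfsg.GolayPt → ZMod 2) : Cfsg.support₂ w ∈ CS ↔ w ∈ Cfsg.golayCode := by
  constructor
  · rintro ⟨v, hv, e⟩
    rw [← support₂_injective e]
    exact hv
  · intro h
    exact ⟨w, h, rfl⟩


/-- Let u be a word of the length-24 binary Golay code of the definitions (possibly zero or all-ones) and w any binary word of length 24 outside the code. Then some automorphism of the code (a coordinate permutation preserving it) fixes u but moves w to a word not congruent to w modulo the code: the stabilizer of a codeword fixes no non-zero element of the quotient of the space of all words by the code. -/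
theorem result (u : (Cfsg.GolayPt → ZMod 2)) (hu : u ∈ Cfsg.golayCode) (w : (Cfsg.GolayPt → ZMod 2)) (hw : w ∉ Cfsg.golayCode) : ∃ σ ∈ Cfsg.M24, (fun p => u (σ.symm p)) = u ∧ (fun p => w (σ.symm p)) - w ∉ Cfsg.golayCode := by
  obtain ⟨σ, hσ, h1, h2⟩ := fin_form (Cfsg.support₂ u) (Cfsg.support₂ w) ((mem_iff u).2 hu)
    (fun h => hw ((mem_iff w).1 h))
  refine ⟨σ, hσ, ?_, ?_⟩
  · apply Cfsg.Agent.Lib.Helper3.support₂_injective
    rw [support_perm, h1]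
  · intro h
    apply h2
    rw [← support_perm, ← support_sub]
    exact (mem_iff _).2 h

end Cfsg.Agent.S5550
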