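import Cfsg.Statements.S5548
import Cfsg.Agent.S5393
import Cfsg.Agent.S5550
import Cfsg.Agent.Lib.Helper3.Tools
import Cfsg.Agent.Lib.Helper3.GolaySteiner

set_option autoImplicit false
open Cfsg

namespace Cfsg.Agent.S5548


open Cfsg Cfsg.Agent.Lib.Helper3 Cfsg.Agent.Lib.Helper28.OutMath
open scoped Pointwise

abbrev V := GolayPt → ZMod 2

def Inv (U : Submodule (ZMod 2) V) : Prop :=
  ∀ σ ∈ M24, ∀ w ∈ U, (fun p => w (σ.symm p)) ∈ U

theorem support_add (a b : V) :
    support₂ (a + b) = symmDiff (support₂ a) (support₂ b) := by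
  ext p
  simp only [support₂, Finset.mem_filter, Finset.mem_univ, true_and, Finset.mem_symmDiff,
    Pi.add_apply]
  generalize a p = x
  generalize b p = y
  revert x y
  decide

theorem hperm {U : Submodule (ZMod 2) V} (hU : Inv U) : ∀ σ ∈ M24, ∀ v ∈ U,
    ∃ v' ∈ U, support₂ v' = σ • support₂ v :=
  fun σ hσ v hv => ⟨_, hU σ hσ v hv, Cfsg.Agent.S5393.support_perm σ v⟩

/-- an invariant subspace with an octad contains the code. -/
theorem code_le {U : Submodule (ZMod 2) V} (hU : Inv U) {v0 : V} (hv0 : v0 ∈ U)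
    (ho0 : support₂ v0 ∈ octads) : golayCode ≤ U := by
  have hoct : ∀ x, isOct x = true → Cfsg.Agent.S5393.InU U x := by
    intro x hx
    obtain ⟨hxo, hxlt⟩ := unmask_mem_octads hx
    obtain ⟨σ, hσ, e⟩ := trans_octads ho0 hxo
    obtain ⟨v, hv, f⟩ := hperm hU σ hσ v0 hv0
    exact ⟨v, hv, by rw [← mask_support₂, f, e, mask_unmask hxlt]⟩
  intro c hc
  have hC := (mem_golayCode_iff c).1 hc
  obtain ⟨v, hv, e⟩ := Cfsg.Agent.S5393.inU_enc hoct (W c % 4096)
  have : v = c := W_injective (e.trans hC.symm)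
  exact this ▸ hv

/-- a codeword other than zero and all-ones in an invariant subspace gives an octad. -/
theorem octad_of_code {U : Submodule (ZMod 2) V} (hU : Inv U) {w : V} (hwU : w ∈ U)
    (hs : support₂ w ∈ CS) (h0 : (support₂ w).card ≠ 0) (h24 : (support₂ w).card ≠ 24) :
    ∃ v ∈ U, support₂ v ∈ octads := by
  rcases code_weights _ hs with c | c | c | c | c
  · exact absurd c h0
  · exact ⟨w, hwU, hs, c⟩
  · have hd : support₂ w ∈ dodecads := ⟨hs, c⟩
    have hd2 : unmask 0xc2635e ∈ dodecads := by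
      rw [mem_dodecads_iff, mask_unmask (by norm_num)]
      decide +kernel
    obtain ⟨σ1, hσ1, e1⟩ := trans_dodecads hd D0_mem
    obtain ⟨σ2, hσ2, e2⟩ := trans_dodecads hd hd2
    obtain ⟨v1, hv1, f1⟩ := hperm hU σ1 hσ1 w hwU
    obtain ⟨v2, hv2, f2⟩ := hperm hU σ2 hσ2 w hwU
    refine ⟨v1 + v2, U.add_mem hv1 hv2, ?_⟩
    have hm : mask (support₂ (v1 + v2)) = 0xc75001 := by
      rw [mask_support₂, W_add, ← mask_support₂, ← mask_support₂, f1, f2, e1, e2, D0,
        mask_unmask (by norm_num), mask_unmask (by norm_num)]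
      decide +kernel
    rw [mem_octads_iff, hm]
    decide +kernel
  · have ho : (support₂ w)ᶜ ∈ octads := by
      refine ⟨?_, ?_⟩
      · have : (support₂ w)ᶜ = symmDiff (support₂ w) Finset.univ := by
          ext p; simp [Finset.mem_symmDiff]
        rw [this]; exact supports_symmDiff hs univ_mem_CS
      · rw [Finset.card_compl, c]; rfl
    have ho2 : unmask 0x5a1007 ∈ octads := (unmask_mem_octads (by decide +kernel)).1
    obtain ⟨σ1, hσ1, e1⟩ := trans_octads ho O0_mem
    obtain ⟨σ2, hσ2, e2⟩ := trans_octads ho ho2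
    obtain ⟨v1, hv1, f1⟩ := hperm hU σ1 hσ1 w hwU
    obtain ⟨v2, hv2, f2⟩ := hperm hU σ2 hσ2 w hwU
    refine ⟨v1 + v2, U.add_mem hv1 hv2, ?_⟩
    rw [smul_compl] at e1 e2
    have g1 : σ1 • support₂ w = O0ᶜ := by rw [← e1, compl_compl]
    have g2 : σ2 • support₂ w = (unmask 0x5a1007)ᶜ := by rw [← e2, compl_compl]
    rw [support_add, f1, f2, g1, g2, compl_symmDiff_compl, mem_octads_iff, mask_symmDiff, O0,
      mask_unmask (by norm_num), mask_unmask (by norm_num)]
    decide +kernel
  · exact absurd c h24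

theorem dot_eq (x w : V) :
    ∑ p, x p * w p = ((support₂ x ∩ support₂ w).card : ZMod 2) := by
  have : support₂ x ∩ support₂ w = Finset.univ.filter (fun p => x p ≠ 0 ∧ w p ≠ 0) := by
    ext p; simp [support₂]
  rw [this, Finset.card_filter, Nat.cast_sum]
  apply Finset.sum_congr rfl
  intro p _
  generalize x p = a
  generalize w p = b
  revert a b
  decide

theorem dot_zero_iff (x w : V) : ∑ p, x p * w p = 0 ↔ ev (support₂ x) (support₂ w) := by
  rw [dot_eq, ZMod.natCast_eq_zero_iff_even]; rfl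

theorem sum_eq_card (v : V) (A : Finset GolayPt) :
    ∑ q ∈ A, v q = ((support₂ v ∩ A).card : ZMod 2) := by
  have : support₂ v ∩ A = A.filter (fun q => v q ≠ 0) := by
    ext p; simp [support₂, and_comm]
  rw [this, Finset.card_filter, Nat.cast_sum]
  apply Finset.sum_congr rfl
  intro p _
  generalize v p = a
  revert a
  decide

/-- the eight elements fixing the standard octad pointwise and a disjoint octad setwise. -/
def ws : List (List ℕ) :=
  [[2, 0, 2, 2, 0, 0, 4, 0, 1, 0, 0, 4, 3, 4, 3, 4, 3, 4, 4, 3, 4, 4, 3, 2, 0, 4, 0, 4, 3, 4, 3, 4, 3],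
  [4, 0, 4, 4, 1, 3, 4, 3, 1, 0, 2, 1, 2, 2, 0, 0, 0, 2, 3, 3, 2, 1, 2, 3, 4, 4, 0, 2, 0, 4, 4, 0, 4],
  [0, 1, 0, 0, 4, 1, 0, 2, 2, 1, 2, 2, 3, 4, 0, 2, 0, 0, 0, 0, 2, 2, 0, 4, 4, 0, 0, 4, 4, 0, 2, 3],
  [1, 0, 0, 0, 0, 2, 0, 4, 0, 1, 4, 4, 3, 4, 4, 3, 2, 0, 4, 0, 4, 4, 3, 3, 3, 3, 3, 3, 4, 0, 4],
  [0, 4, 4, 1, 3, 3, 4, 1, 3, 3, 2, 2, 0, 2, 0, 0, 4, 0, 0, 4, 3, 4, 3, 2, 0, 4, 0, 4, 0, 2],
  [1, 3, 3, 4, 3, 4, 3, 2, 0, 1, 3, 2, 2, 0, 2, 0, 0, 4, 0, 0, 4, 4, 4, 0, 0, 2, 0, 4, 0, 0],
  [],
  [0, 2, 1, 0, 0, 2, 2, 1, 3, 2, 3, 4, 4, 0, 2, 0, 4, 4, 0, 4, 0, 4, 4, 3, 4, 4, 0, 0, 4, 4]]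

def lO : List ℕ := [0, 1, 2, 3, 4, 7, 10, 12]
def lA : List ℕ := [5, 13, 14, 17, 18, 20, 21, 23]
def lB : List ℕ := [6, 8, 9, 11, 15, 16, 19, 22]

def expected (j : ℕ) : List ℕ :=
  if j ∈ lO then List.replicate 8 j else if j ∈ lA then lA else lB

theorem tbl : ∀ j < 24, List.Perm (ws.map (fun w => wact w j)) (expected j) := by
  decide +kernel

noncomputable def yy (v : V) : V :=
  (ws.map (fun w => fun p => v (((wperm w)⁻¹).symm p))).sum

theorem yy_mem {U : Submodule (ZMod 2) V} (hU : Inv U) {v : V} (hv : v ∈ U) : yy v ∈ U := by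
  unfold yy
  apply list_sum_mem
  intro x hx
  obtain ⟨w, _, rfl⟩ := List.mem_map.1 hx
  exact hU _ (M24.inv_mem (wperm_mem w)) v hv

theorem yy_val (v : V) {j : ℕ} (hj : j < 24) :
    yy v (pt j) = ((expected j).map (fun k => v (pt k))).sum := by
  unfold yy
  rw [Pi.list_sum_apply, List.map_map]
  have h1 : (ws.map ((fun f : V => f (pt j)) ∘ fun w => fun p => v (((wperm w)⁻¹).symm p)))
      = ((ws.map (fun w => wact w j)).map (fun k => v (pt k))) := by
    rw [List.map_map]
    apply List.map_congr_left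
    intro w _
    show v (wperm w (pt j)) = v (pt (wact w j))
    have : wact w j = idx (wperm w (pt j)) := by rw [idx_wperm, idx_pt hj]
    rw [this, pt_idx]
  rw [h1]
  exact ((tbl j hj).map _).sum_eq

theorem lA_sum (v : V) : (lA.map (fun k => v (pt k))).sum = ∑ q ∈ unmask 0xb66020, v q := by
  have h : unmask 0xb66020 = (lA.map pt).toFinset := by
    ext p; revert p; decide +kernel
  rw [h, List.sum_toFinset _ (by decide +kernel), List.map_map]
  rfl

theorem bitsA : ∀ j < 24, (Nat.testBit 0xb66020 j = true ↔ j ∈ lA) := by decide +kernel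
theorem bitsAB : ∀ j < 24, (Nat.testBit 0xffeb60 j = true ↔ j ∉ lO) := by decide +kernel
theorem disjOA : ∀ j < 24, j ∈ lO → j ∉ lA := by decide +kernel

theorem yy_supp (v : V) (hα : (lA.map (fun k => v (pt k))).sum = 1) :
    support₂ (yy v) = unmask 0xb66020 ∨ support₂ (yy v) = unmask 0xffeb60 := by
  have hβ : (lB.map (fun k => v (pt k))).sum = 0 ∨ (lB.map (fun k => v (pt k))).sum = 1 := by
    generalize (lB.map (fun k => v (pt k))).sum = b
    revert b; decide
  have h8 : ∀ a : ZMod 2, 8 • a = 0 := by decide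
  have h10 : (1 : ZMod 2) ≠ 0 := by decide
  rcases hβ with hβ | hβ
  · left
    ext p
    rw [mem_unmask, support₂, Finset.mem_filter]
    have hj := idx_lt p
    rw [← pt_idx p, yy_val v hj, idx_pt hj, bitsA _ hj]
    generalize idx p = j at hj
    unfold expected
    by_cases h1 : j ∈ lO
    · rw [if_pos h1, List.map_replicate, List.sum_replicate, h8]
      simp [disjOA j hj h1]
    · rw [if_neg h1]
      by_cases h2 : j ∈ lA
      · rw [if_pos h2, hα]
        simp [h2]
      · rw [if_neg h2, hβ]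
        simp [h2]
  · right
    ext p
    rw [mem_unmask, support₂, Finset.mem_filter]
    have hj := idx_lt p
    rw [← pt_idx p, yy_val v hj, idx_pt hj, bitsAB _ hj]
    generalize idx p = j at hj
    unfold expected
    by_cases h1 : j ∈ lO
    · rw [if_pos h1, List.map_replicate, List.sum_replicate, h8]
      simp [h1]
    · rw [if_neg h1]
      by_cases h2 : j ∈ lA
      · rw [if_pos h2, hα]
        simp [h1]
      · rw [if_neg h2, hβ]
        simp [h1]

/-- an invariant subspace not inside the code contains the code. -/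
theorem code_le_of_not_le {U : Submodule (ZMod 2) V} (hU : Inv U) {v : V} (hv : v ∈ U)
    (hvC : v ∉ golayCode) : golayCode ≤ U := by
  have hS : support₂ v ∉ CS := fun h => hvC ((Cfsg.Agent.S5550.mem_iff v).1 h)
  obtain ⟨b, hb, hbe⟩ : ∃ b ∈ basisList, ¬ ev (support₂ v) (unmask b) := by
    by_contra hcon
    push Not at hcon
    exact hS (mem_CS_of_ev _ hcon)
  have hA0 : unmask 0xb66020 ∈ octads := (unmask_mem_octads (by decide +kernel)).1
  obtain ⟨g, hg, e⟩ := trans_octads (basis_octads b hb) hA0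
  obtain ⟨v', hv', f⟩ := hperm hU g hg v hv
  have hα : (lA.map (fun k => v' (pt k))).sum = 1 := by
    rw [lA_sum, sum_eq_card, f, ← e, card_smul_inter]
    have : ((support₂ v ∩ unmask b).card : ZMod 2) ≠ 0 := by
      rw [Ne, ZMod.natCast_eq_zero_iff_even]; exact hbe
    revert this
    generalize ((support₂ v ∩ unmask b).card : ZMod 2) = a
    revert a; decide
  have hy := yy_mem hU hv'
  rcases yy_supp v' hα with h | h
  · exact code_le hU hy (h ▸ hA0)
  · obtain ⟨v0, hv0, ho0⟩ := octad_of_code hU hy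
      (by rw [h, mem_supports_iff, mask_unmask (by norm_num)]; decide +kernel)
      (by rw [h, card_eq_pc, mask_unmask (by norm_num)]; decide +kernel)
      (by rw [h, card_eq_pc, mask_unmask (by norm_num)]; decide +kernel)
    exact code_le hU hv0 ho0

theorem one_supp : support₂ (fun _ : GolayPt => (1 : ZMod 2)) = Finset.univ := by
  simp [support₂]

/-- invariant subspaces of the code. -/
theorem sub_code {U : Submodule (ZMod 2) V} (hU : Inv U) (hUC : U ≤ golayCode) :
    U = ⊥ ∨ U = Submodule.span (ZMod 2) {fun _ => (1 : ZMod 2)} ∨ U = golayCode := by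
  by_cases h : ∃ w ∈ U, (support₂ w).card ≠ 0 ∧ (support₂ w).card ≠ 24
  · obtain ⟨w, hw, h0, h24⟩ := h
    obtain ⟨v0, hv0, ho0⟩ := octad_of_code hU hw ((Cfsg.Agent.S5550.mem_iff w).2 (hUC hw)) h0 h24
    exact Or.inr (Or.inr (le_antisymm hUC (code_le hU hv0 ho0)))
  · push Not at h
    have key : ∀ w ∈ U, w = 0 ∨ w = fun _ => (1 : ZMod 2) := by
      intro w hw
      by_cases h0 : (support₂ w).card = 0
      · left
        apply support₂_injective
        rw [Finset.card_eq_zero.1 h0]
        simp [support₂]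
      · right
        apply support₂_injective
        rw [one_supp, ← Finset.card_eq_iff_eq_univ, h w hw h0]; rfl
    by_cases h1 : (fun _ => (1 : ZMod 2)) ∈ U
    · right; left
      apply le_antisymm
      · intro w hw
        rcases key w hw with e | e
        · rw [e]; exact Submodule.zero_mem _
        · rw [e]; exact Submodule.subset_span rfl
      · rw [Submodule.span_le]
        intro x hx
        rw [Set.mem_singleton_iff.1 hx]; exact h1
    · left
      rw [eq_bot_iff]
      intro w hw
      rcases key w hw with e | e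
      · rw [e]; exact Submodule.zero_mem _
      · exact absurd (e ▸ hw) h1

def perp (U : Submodule (ZMod 2) V) : Submodule (ZMod 2) V where
  carrier := {x | ∀ w ∈ U, ∑ p, x p * w p = 0}
  add_mem' := by
    intro a b ha hb w hw
    simp only [Pi.add_apply, add_mul, Finset.sum_add_distrib]
    rw [ha w hw, hb w hw, add_zero]
  zero_mem' := by intro w _; simp
  smul_mem' := by
    intro c x hx w hw
    simp only [Pi.smul_apply, smul_eq_mul, mul_assoc, ← Finset.mul_sum]
    rw [hx w hw, mul_zero]

theorem perp_inv {U : Submodule (ZMod 2) V} (hU : Inv U) : Inv (perp U) := by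
  intro σ hσ x hx w hw
  have h := hx _ (hU σ⁻¹ (M24.inv_mem hσ) w hw)
  rw [← h, ← Equiv.sum_comp σ]
  apply Finset.sum_congr rfl
  intro p _
  show x (σ.symm (σ p)) * w (σ p) = x p * w (σ⁻¹.symm p)
  rw [Equiv.symm_apply_apply]
  rfl

theorem separate {U : Submodule (ZMod 2) V} {x : V} (hx : x ∉ U) :
    ∃ y ∈ perp U, ∑ p, y p * x p ≠ 0 := by
  obtain ⟨f, hf, hU⟩ := Submodule.exists_dual_map_eq_bot_of_notMem hx inferInstance
  have hform : ∀ z : V, f z = ∑ p, f (fun j => if p = j then 1 else 0) * z p := by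
    intro z
    rw [LinearMap.pi_apply_eq_sum_univ f z]
    apply Finset.sum_congr rfl
    intro p _
    rw [smul_eq_mul, mul_comm]
  refine ⟨fun p => f (fun j => if p = j then 1 else 0), ?_, ?_⟩
  · intro w hw
    show ∑ p, f (fun j => if p = j then 1 else 0) * w p = 0
    rw [← hform]
    have : f w ∈ U.map f := Submodule.mem_map_of_mem hw
    rw [hU] at this
    exact this
  · rw [← hform]; exact hf

theorem perp_code_le {U : Submodule (ZMod 2) V} (h : golayCode ≤ U) : perp U ≤ golayCode := by
  intro x hx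
  rw [← Cfsg.Agent.S5550.mem_iff]
  apply mem_CS_of_ev
  intro b hb
  obtain ⟨w, hw, e⟩ := octads_subset (basis_octads b hb)
  rw [← e, ← dot_zero_iff]
  exact hx w (h hw)


/-- For the automorphism group of the length-24 binary Golay code of the definitions (the Mathieu group of degree 24) acting on binary words of length 24 by permuting coordinates, the only invariant subspaces of the space of all words are: zero, the span of the all-ones word, the code itself, the even-weight words, and the whole space. (So the permutation module has a unique composition series.) -/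
theorem result (W : Submodule (ZMod 2) (Cfsg.GolayPt → ZMod 2)) (hW : ∀ σ ∈ Cfsg.M24, ∀ w ∈ W, (fun p => w (σ.symm p)) ∈ W) : W = ⊥ ∨ W = Submodule.span (ZMod 2) {fun _ => (1 : ZMod 2)} ∨ W = Cfsg.golayCode ∨ (W : Set (Cfsg.GolayPt → ZMod 2)) = {w | ∑ p, w p = 0} ∨ W = ⊤ := by
  have hU : Inv W := hW
  by_cases hWC : W ≤ Cfsg.golayCode
  · rcases sub_code hU hWC with h | h | h
    · exact Or.inl h
    · exact Or.inr (Or.inl h)
    · exact Or.inr (Or.inr (Or.inl h))
  · obtain ⟨v, hv, hvC⟩ := SetLike.not_le_iff_exists.1 hWC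
    have hC : Cfsg.golayCode ≤ W := code_le_of_not_le hU hv hvC
    right; right
    rcases sub_code (perp_inv hU) (perp_code_le hC) with h | h | h
    · right; right
      rw [eq_top_iff]
      intro x _
      by_contra hx
      obtain ⟨y, hy, hne⟩ := separate hx
      rw [h] at hy
      rw [(Submodule.mem_bot _).1 hy] at hne
      simp at hne
    · right; left
      ext x
      simp only [SetLike.mem_coe, Set.mem_ofPred_eq]
      constructor
      · intro hx
        have h1 : (fun _ => (1 : ZMod 2)) ∈ perp W := by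
          rw [h]; exact Submodule.subset_span rfl
        have := h1 x hx
        simpa using this
      · intro hx
        by_contra hxW
        obtain ⟨y, hy, hne⟩ := separate hxW
        rw [h, Submodule.mem_span_singleton] at hy
        obtain ⟨a, rfl⟩ := hy
        apply hne
        simp only [Pi.smul_apply, smul_eq_mul, mul_one, ← Finset.mul_sum]
        rw [hx, mul_zero]
    · left
      apply le_antisymm _ hC
      intro x hx
      rw [← Cfsg.Agent.S5550.mem_iff]
      apply mem_CS_of_ev
      intro b hb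
      obtain ⟨w, hw, e⟩ := octads_subset (basis_octads b hb)
      rw [← e, ev_comm, ← dot_zero_iff]
      have : w ∈ perp W := by rw [h]; exact hw
      exact this x hx

end Cfsg.Agent.S5548
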