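import Cfsg.Statements.S5552
import Mathlib
import Cfsg.Agent.Lib.Helper11.LeechMod2
import Cfsg.Agent.Lib.Helper11.CountTrans
-- import your own Cfsg.Agent.* helpers here

set_option autoImplicit false
open Cfsg

namespace Cfsg.Agent.S5552

open Cfsg.Agent.Lib.Helper11 Cfsg.Agent.Lib.Helper3

/-- explicit vectors. -/
def uA : ↥leechLattice := ⟨vTwo (pt 0) (pt 1) 4 4, vTwo_mem _ _ rfl rfl rfl⟩
def vA : ↥leechLattice := ⟨vTwo (pt 0) (pt 1) 4 (-4), vTwo_mem _ _ rfl rfl rfl⟩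
def wA : ↥leechLattice := ⟨vTwo (pt 2) (pt 3) 4 4, vTwo_mem _ _ rfl rfl rfl⟩
def rA : ↥leechLattice := ⟨vTwo (pt 2) (pt 3) (-4) 4, vTwo_mem _ _ rfl rfl rfl⟩
def tA : ↥leechLattice := ⟨vTwo (pt 0) (pt 2) 4 4, vTwo_mem _ _ rfl rfl rfl⟩
def oB : ↥leechLattice := ⟨vSet (unmask 0xc75001) - vTwo (pt 0) (pt 12) 4 4,
  leechLattice.sub_mem (vSet_mem (basis_octads _ (by decide)).1) (vTwo_mem _ _ rfl rfl rfl)⟩

theorem nA : sqNorm uA.1 = 32 ∧ sqNorm vA.1 = 32 ∧ sqNorm wA.1 = 32 ∧ sqNorm rA.1 = 32 ∧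
    sqNorm (uA + vA).1 = 64 ∧ sqNorm (uA + wA).1 = 64 ∧ sqNorm (vA + wA).1 = 64 := by
  decide +kernel

theorem eA : uA + vA + wA = rA + (tA + tA) := by
  have : ∀ i, (uA + vA + wA).1 i = (rA + (tA + tA)).1 i := by decide +kernel
  exact Subtype.ext (funext this)

theorem nB : sqNorm oB.1 = 32 ∧ sqNorm (oB + uA).1 = 48 ∧ sqNorm (oB + vA).1 = 48 ∧
    sqNorm (oB + uA + vA).1 = 64 := by
  decide +kernel

theorem z2 : ∀ a : ZMod 2, a ≠ 0 → a = 1 := by decide
theorem z2a : ∀ a b : ZMod 2, a + a + a + a = b + b + b → b = 0 := by decide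
theorem z2b : ∀ a b c : ZMod 2, c + a + a + a = b + b + c → a = 0 := by decide
theorem z2c : ∀ a : ZMod 2, a + a + a + a = a + a + a → a = 0 := by decide

theorem norm_shift (y z : ↥leechLattice) : ∃ K : ℤ, sqNorm (y + (z + z)).1 = sqNorm y.1 + 32 * K := by
  obtain ⟨k1, h1⟩ := eight_dvd_dot y.2 z.2
  obtain ⟨k2, h2⟩ := sixteen_dvd_sqNorm z.2
  refine ⟨k1 + 2 * k2, ?_⟩
  show sqNorm (y.1 + (z.1 + z.1)) = _
  rw [sqNorm_add, ← two_nsmul, sqNorm_two_smul, two_nsmul, dotInt_comm, dotInt_add_left,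
    dotInt_comm z.1, h1, h2]
  ring

/-- On the Leech lattice of the definitions, let Q be a function to the field with two elements that is constant on cosets of twice the lattice, is a quadratic form there (Q(u+v+w) + Q(u) + Q(v) + Q(w) = Q(u+v) + Q(u+w) + Q(v+w) for all u, v, w), is invariant under every lattice automorphism, and is not identically zero. Then Q(v) is the squared length of v divided by 16, reduced modulo 2, for every lattice vector v (squared lengths of lattice vectors are multiples of 16). -/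
theorem result (Q : ↥Cfsg.leechLattice → ZMod 2) (hcoset : ∀ v w : ↥Cfsg.leechLattice, Q (v + (w + w)) = Q v) (hquad : ∀ u v w : ↥Cfsg.leechLattice, Q (u + v + w) + Q u + Q v + Q w = Q (u + v) + Q (u + w) + Q (v + w)) (hinv : ∀ (g : ↥Cfsg.Co0) (v : ↥Cfsg.leechLattice), Q (g • v) = Q v) (hne : ∃ v : ↥Cfsg.leechLattice, Q v ≠ 0) (v : ↥Cfsg.leechLattice) : Q v = ((Cfsg.sqNorm (v : Cfsg.GolayPt → ℤ) / 16 : ℤ) : ZMod 2) := by
  have hQ0 : Q 0 = 0 := by
    have := hquad 0 0 0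
    simp only [add_zero] at this
    exact z2c _ this
  have hsame : ∀ x y : ↥leechLattice, sqNorm x.1 = sqNorm y.1 →
      (sqNorm x.1 = 32 ∨ sqNorm x.1 = 48 ∨ sqNorm x.1 = 64) → Q x = Q y := by
    intro x y h hN
    obtain ⟨_, _, g, e⟩ := rel_of_norm x.2 y.2 h hN
    have e' : g • x = y := e
    rw [← e', hinv]
  obtain ⟨a1, a2, a3, a4, a5, a6, a7⟩ := nA
  obtain ⟨b1, b2, b3, b4⟩ := nB
  have q4 : Q (uA + vA) = 0 := by
    have h := hquad uA vA wA
    rw [eA, hcoset, hsame rA uA (a4.trans a1.symm) (Or.inl a4), hsame vA uA (a2.trans a1.symm) (Or.inl a2),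
      hsame wA uA (a3.trans a1.symm) (Or.inl a3),
      hsame (uA + wA) (uA + vA) (a6.trans a5.symm) (Or.inr (Or.inr a6)),
      hsame (vA + wA) (uA + vA) (a7.trans a5.symm) (Or.inr (Or.inr a7))] at h
    exact z2a _ _ h
  have q2 : Q uA = 0 := by
    have h := hquad oB uA vA
    rw [hsame (oB + uA + vA) (uA + vA) (b4.trans a5.symm) (Or.inr (Or.inr b4)),
      hsame oB uA (b1.trans a1.symm) (Or.inl b1), hsame vA uA (a2.trans a1.symm) (Or.inl a2),
      hsame (oB + vA) (oB + uA) (b3.trans b2.symm) (Or.inr (Or.inl b3))] at h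
    exact z2b _ _ _ h
  have h32 : ∀ x : ↥leechLattice, sqNorm x.1 = 32 → Q x = 0 := fun x hx =>
    (hsame x uA (hx.trans a1.symm) (Or.inl hx)).trans q2
  have h64 : ∀ x : ↥leechLattice, sqNorm x.1 = 64 → Q x = 0 := fun x hx =>
    (hsame x (uA + vA) (hx.trans a5.symm) (Or.inr (Or.inr hx))).trans q4
  have h48 : ∀ x : ↥leechLattice, sqNorm x.1 = 48 → Q x = 1 := by
    obtain ⟨v0, hv0⟩ := hne
    obtain ⟨y, z, e, hy⟩ := short_rep v0
    rw [e, hcoset] at hv0
    rcases hy with h | h | h | h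
    · rw [h] at hv0; exact absurd hQ0 hv0
    · exact absurd (h32 y h) hv0
    · intro x hx
      rw [hsame x y (hx.trans h.symm) (Or.inr (Or.inl hx))]
      exact z2 _ hv0
    · exact absurd (h64 y h) hv0
  obtain ⟨y, z, e, hy⟩ := short_rep v
  obtain ⟨K, hK⟩ := norm_shift y z
  rw [e, hcoset, hK]
  have two0 : (2 : ZMod 2) = 0 := by decide
  rcases hy with h | h | h | h
  · have h0 : sqNorm y.1 = 0 := by rw [h]; exact sqNorm_zero
    rw [h0, h, hQ0, show (0 + 32 * K) / 16 = 2 * K by omega]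
    push_cast
    rw [two0, zero_mul]
  · rw [h, h32 y h, show (32 + 32 * K) / 16 = 2 * (K + 1) by omega]
    push_cast
    rw [two0, zero_mul]
  · rw [h, h48 y h, show (48 + 32 * K) / 16 = 2 * (K + 1) + 1 by omega]
    push_cast
    rw [two0, zero_mul, zero_add]
  · rw [h, h64 y h, show (64 + 32 * K) / 16 = 2 * (K + 2) by omega]
    push_cast
    rw [two0, zero_mul]

end Cfsg.Agent.S5552
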