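import Cfsg.Statements.S5553
import Mathlib
import Cfsg.Agent.Lib.Helper11.LeechBasis
-- import your own Cfsg.Agent.* helpers here

set_option autoImplicit false
open Cfsg

namespace Cfsg.Agent.S5553

open Cfsg.Agent.Lib.Helper11 Cfsg.Agent.Lib.Helper3

/-- the vectors all of whose coordinates are congruent to 0, or all to 2, modulo 4. -/
def subA : AddSubgroup (GolayPt → ℤ) where
  carrier := {x | x ∈ leechLattice ∧ ((∀ i, x i % 4 = 0) ∨ (∀ i, x i % 4 = 2))}
  zero_mem' := ⟨leechLattice.zero_mem, Or.inl (fun _ => rfl)⟩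
  add_mem' := by
    rintro x y ⟨hx, hx'⟩ ⟨hy, hy'⟩
    refine ⟨leechLattice.add_mem hx hy, ?_⟩
    rcases hx' with hx' | hx' <;> rcases hy' with hy' | hy'
    · left; intro i; have := hx' i; have := hy' i; simp only [Pi.add_apply]; omega
    · right; intro i; have := hx' i; have := hy' i; simp only [Pi.add_apply]; omega
    · right; intro i; have := hx' i; have := hy' i; simp only [Pi.add_apply]; omega
    · left; intro i; have := hx' i; have := hy' i; simp only [Pi.add_apply]; omega
  neg_mem' := by
    rintro x ⟨hx, hx'⟩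
    refine ⟨leechLattice.neg_mem hx, ?_⟩
    rcases hx' with hx' | hx'
    · left; intro i; have := hx' i; simp only [Pi.neg_apply]; omega
    · right; intro i; have := hx' i; simp only [Pi.neg_apply]; omega

theorem two_sq (a : ℤ) (h : a % 4 = 2) : ∃ q : ℤ, a ^ 2 = 32 * q + 4 := by
  obtain ⟨t, rfl⟩ : ∃ t, a = 4 * t + 2 := ⟨a / 4, by omega⟩
  obtain ⟨r, hr⟩ : ∃ r, t * (t + 1) = 2 * r := by
    rcases Int.even_mul_succ_self t with ⟨r, hr⟩
    exact ⟨r, by rw [hr]; ring⟩
  exact ⟨r, by linear_combination 16 * hr⟩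

theorem norm_A {x : GolayPt → ℤ} (hx : x ∈ subA) : (32 : ℤ) ∣ sqNorm x := by
  obtain ⟨hL, h | h⟩ := hx
  · have h8 : (∑ i, x i) % 8 = 0 := by
      rcases mem_leech_cases hL with ⟨-, g2, -⟩ | ⟨g1, -, -⟩
      · exact g2
      · have := g1 none
        have := h none
        omega
    choose q hq using fun i => four_sq (x i) (h i)
    unfold sqNorm
    rw [Finset.sum_congr rfl (fun i _ => hq i), Finset.sum_add_distrib, ← Finset.mul_sum,
      ← Finset.mul_sum]
    omega
  · choose q hq using fun i => two_sq (x i) (h i)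
    unfold sqNorm
    rw [Finset.sum_congr rfl (fun i _ => hq i), Finset.sum_add_distrib, ← Finset.mul_sum]
    have : ∑ _i : GolayPt, (4 : ℤ) = 96 := by decide
    rw [this]
    omega

theorem dot_A {x y : GolayPt → ℤ} (hx : x ∈ subA) (hy : y ∈ subA) : (16 : ℤ) ∣ dotInt x y := by
  have h1 := norm_A hx
  have h2 := norm_A hy
  have h3 := norm_A (subA.add_mem hx hy)
  rw [sqNorm_add] at h3
  omega

theorem index_A : subA.index = 2 ^ 48 :=
  (lat_index subA 16 (by norm_num) ab ad (fun j => ⟨ab_mem j, ab_four j⟩)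
    (fun _ hx j => dot_A hx ⟨ad_mem j, ad_four j⟩) a_h1 a_h2 a_tri).trans a_prod

/-- The Leech lattice of the definitions has an additive subgroup A containing twice the lattice, of index 2^12 in the lattice, all of whose vectors have squared length divisible by 32: the invariant quadratic form 'squared length over 16 modulo 2' on the lattice modulo twice the lattice (a 24-dimensional space over the field with two elements) vanishes on a 12-dimensional subspace, so it is of plus type. -/
theorem result : ∃ A : AddSubgroup (Cfsg.GolayPt → ℤ), A ≤ Cfsg.leechLattice ∧ (∀ v ∈ Cfsg.leechLattice, (2 : ℤ) • v ∈ A) ∧ (A.addSubgroupOf Cfsg.leechLattice).index = 2 ^ 12 ∧ ∀ v ∈ A, (32 : ℤ) ∣ Cfsg.sqNorm v := by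
  refine ⟨subA, fun x hx => hx.1, ?_, ?_, fun v hv => norm_A hv⟩
  · intro v hv
    refine ⟨leechLattice.zsmul_mem hv 2, ?_⟩
    rcases mem_leech_cases hv with ⟨g1, -, -⟩ | ⟨g1, -, -⟩
    · left; intro i; have := g1 i; simp only [Pi.smul_apply, smul_eq_mul]; omega
    · right; intro i; have := g1 i; simp only [Pi.smul_apply, smul_eq_mul]; omega
  · have h := AddSubgroup.relIndex_mul_index (H := subA) (K := leechLattice) (fun x hx => hx.1)
    rw [index_A, leech_index] at h
    have h' : (subA.addSubgroupOf leechLattice).index * 2 ^ 36 = 2 ^ 12 * 2 ^ 36 := by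
      rw [← pow_add]; exact h
    exact Nat.eq_of_mul_eq_mul_right (by positivity) h'

end Cfsg.Agent.S5553
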