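import Mathlib
import Cfsg.Statements.S5593
import Cfsg.Agent.Lib.Helper3.Leech64

set_option autoImplicit false
open Cfsg

namespace Cfsg.Agent.S5593

/-- The automorphism group of the Leech lattice acts transitively on the congruence classes modulo twice the lattice of the vectors of sum of squares 64 (customary norm 8): for any two such vectors some automorphism carries the first to a vector congruent to the second. -/
theorem result (v w : ↥Cfsg.leechLattice) (hv : Cfsg.sqNorm (v : Cfsg.GolayPt → ℤ) = 64) (hw : Cfsg.sqNorm (w : Cfsg.GolayPt → ℤ) = 64) :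
    ∃ g : ↥Cfsg.Co0, ∃ z ∈ Cfsg.leechLattice, ((g • v : ↥Cfsg.leechLattice) : Cfsg.GolayPt → ℤ) - (w : Cfsg.GolayPt → ℤ) = 2 • z := by
  obtain ⟨_, _, g, hg⟩ := Cfsg.Agent.Lib.Helper3.Lee.rel64 v.2 hv
  obtain ⟨_, _, g', hg'⟩ := Cfsg.Agent.Lib.Helper3.Lee.rel64 w.2 hw
  have h1 : g • v = g' • w := hg.trans hg'.symm
  refine ⟨g'⁻¹ * g, 0, zero_mem _, ?_⟩
  rw [mul_smul, h1, inv_smul_smul]
  simp

end Cfsg.Agent.S5593
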