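import Cfsg.Statements.S5594
import Mathlib
import Cfsg.Agent.Lib.Helper11.LeechVec
-- import your own Cfsg.Agent.* helpers here

set_option autoImplicit false
open Cfsg

namespace Cfsg.Agent.S5594

open Cfsg Cfsg.Agent.Lib.Helper3 Cfsg.Agent.Lib.Helper11
open scoped Pointwise

theorem projInv_swap : ∀ i : GolayPt, (projInv i ∈ D0 ↔ ¬ i ∈ D0) := by
  intro i
  rw [D0, mem_unmask, mem_unmask]
  revert i
  decide

theorem projInv_symm (i : GolayPt) : projInv.symm i = projInv i := rfl

theorem projInv_projInv (i : GolayPt) : projInv (projInv i) = i := projInv.left_inv i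

/-- an element whose square is the central involution. -/
def g0 : ↥Co0 := signCo0 D0 D0_mem.1 * permCo0 projInv gen1_mem

theorem g0_sq : g0 * g0 = negCo0 := by
  apply Co0_ext
  intro v
  rw [negCo0_smul]
  funext i
  show signCh D0 (permCh projInv (signCh D0 (permCh projInv v.1))) i = -v.1 i
  simp only [signCh, permCh, projInv_symm, projInv_projInv]
  have := projInv_swap i
  by_cases hi : i ∈ D0
  · have h2 : ¬ projInv i ∈ D0 := fun h => (this.1 h) hi
    simp [hi, h2]
  · have h2 : projInv i ∈ D0 := this.2 hi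
    simp [hi, h2]


/-- The automorphism group of the Leech lattice contains the negation map, and the subgroup of order 2 it generates has no complement: the automorphism group is a non-split extension of its quotient by that subgroup (it is not the direct product of a group of order 2 with the first Conway group). -/
theorem result :
    ∃ n : ↥Cfsg.Co0, (∀ v : ↥Cfsg.leechLattice, ((n • v : ↥Cfsg.leechLattice) : Cfsg.GolayPt → ℤ) = -(v : Cfsg.GolayPt → ℤ)) ∧
    ∀ K : Subgroup ↥Cfsg.Co0, ¬ (Subgroup.zpowers n).IsComplement' K := by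
  refine ⟨negCo0, fun v => by rw [negCo0_smul]; rfl, ?_⟩
  intro K hK
  obtain ⟨⟨⟨a, ha⟩, ⟨k, hk⟩⟩, hak, -⟩ := (Subgroup.isComplement_iff_existsUnique.1 hK) g0
  simp only at hak
  obtain ⟨z, rfl⟩ := Subgroup.mem_zpowers_iff.1 ha
  have hcomm : ∀ g : ↥Co0, Commute (negCo0 ^ z) g := by
    intro g
    exact (show Commute negCo0 g from negCo0_comm g).zpow_left z
  have hsq : (negCo0 ^ z) * (negCo0 ^ z) = 1 := by
    rw [← zpow_add, ← two_mul, zpow_mul, zpow_two, negCo0_sq, one_zpow]
  have h1 : negCo0 = k * k := by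
    rw [← g0_sq, ← hak]
    calc negCo0 ^ z * k * (negCo0 ^ z * k) = (negCo0 ^ z * negCo0 ^ z) * (k * k) := by
          rw [mul_assoc, ← mul_assoc k, ← (hcomm k).eq, mul_assoc, ← mul_assoc]
      _ = k * k := by rw [hsq, one_mul]
  have h2 : negCo0 ∈ K := by rw [h1]; exact K.mul_mem hk hk
  have h3 : negCo0 ∈ Subgroup.zpowers negCo0 ⊓ K := ⟨Subgroup.mem_zpowers _, h2⟩
  rw [hK.disjoint.eq_bot, Subgroup.mem_bot] at h3
  exact negCo0_ne_one h3

end Cfsg.Agent.S5594
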