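import Cfsg.Statements.S5599
import Cfsg.Agent.Lib.Helper28.M24Fix
open Cfsg.Agent.Lib.Helper28 Cfsg.Agent.Lib.Helper3 Cfsg.Agent.Lib.Helper11
open scoped Pointwise

set_option autoImplicit false
open scoped Pointwise
open Cfsg

namespace Cfsg.Agent.S5599

/-- In the automorphism group of the length-24 code, the two-point Mathieu group (permutations of the code's group fixing the extra point and the residue 0) has index 2 in the setwise stabiliser of that pair of points, and an element of the code's group interchanging the two points normalises the two-point group and induces on it, by conjugation, an automorphism that is not inner. -/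
theorem result (g : Equiv.Perm Cfsg.GolayPt) (hg : g ∈ Cfsg.M24) (h₁ : g none = some 0) (h₂ : g (some 0) = none) : Cfsg.Spor.M22.relIndex (Cfsg.M24 ⊓ MulAction.stabilizer (Equiv.Perm Cfsg.GolayPt) ({none, some 0} : Finset Cfsg.GolayPt)) = 2 ∧ (∀ x ∈ Cfsg.Spor.M22, g * x * g⁻¹ ∈ Cfsg.Spor.M22) ∧ ¬ ∃ h ∈ Cfsg.Spor.M22, ∀ x ∈ Cfsg.Spor.M22, g * x * g⁻¹ = h * x * h⁻¹ := by
  classical
  have hM22 : ∀ x : Equiv.Perm Cfsg.GolayPt, x ∈ Cfsg.Spor.M22 ↔ x ∈ Cfsg.M24 ∧ x none = none ∧ x (some 0) = some 0 := by
    intro x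
    simp only [Cfsg.Spor.M22, Cfsg.Spor.M23, Subgroup.mem_inf, MulAction.mem_stabilizer_iff, and_assoc]
    rfl
  have hne : (none : Cfsg.GolayPt) ≠ some 0 := by simp
  have hginv1 : g⁻¹ none = some 0 := by rw [Equiv.Perm.inv_eq_iff_eq]; exact h₂.symm
  have hginv2 : g⁻¹ (some 0) = none := by rw [Equiv.Perm.inv_eq_iff_eq]; exact h₁.symm
  have hP : ∀ x : Equiv.Perm Cfsg.GolayPt,
      x ∈ MulAction.stabilizer (Equiv.Perm Cfsg.GolayPt) ({none, some 0} : Finset Cfsg.GolayPt) ↔
        (x none = none ∧ x (some 0) = some 0) ∨ (x none = some 0 ∧ x (some 0) = none) := by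
    intro x
    rw [MulAction.mem_stabilizer_iff]
    constructor
    · intro h
      have a1 := (mem_iff_of_smul_eq h none).2 (by simp)
      have a2 := (mem_iff_of_smul_eq h (some 0)).2 (by simp)
      simp only [Finset.mem_insert, Finset.mem_singleton] at a1 a2
      rcases a1 with a1 | a1 <;> rcases a2 with a2 | a2
      · exact absurd (x.injective (a1.trans a2.symm)) hne
      · exact Or.inl ⟨a1, a2⟩
      · exact Or.inr ⟨a1, a2⟩
      · exact absurd (x.injective (a1.trans a2.symm)) hne
    · intro h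
      apply smul_eq_of_maps
      intro y hy
      simp only [Finset.mem_insert, Finset.mem_singleton] at hy ⊢
      rcases h with ⟨a1, a2⟩ | ⟨a1, a2⟩ <;> rcases hy with rfl | rfl <;> simp [a1, a2]
  refine ⟨?_, ?_, ?_⟩
  · rw [Subgroup.relIndex, Subgroup.index_eq_two_iff]
    refine ⟨⟨g, Subgroup.mem_inf.2 ⟨hg, (hP g).2 (Or.inr ⟨h₁, h₂⟩)⟩⟩, ?_⟩
    rintro ⟨b, hb⟩
    obtain ⟨hb1, hb2⟩ := Subgroup.mem_inf.1 hb
    simp only [Subgroup.mem_subgroupOf, Subgroup.coe_mul]
    rw [hM22, hM22]
    rcases (hP b).1 hb2 with ⟨a1, a2⟩ | ⟨a1, a2⟩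
    · right
      refine ⟨⟨hb1, a1, a2⟩, ?_⟩
      rintro ⟨-, c1, -⟩
      have : b (g none) = none := c1
      rw [h₁, a2] at this
      exact hne this.symm
    · left
      refine ⟨⟨Cfsg.M24.mul_mem hb1 hg, ?_, ?_⟩, ?_⟩
      · show b (g none) = none
        rw [h₁, a2]
      · show b (g (some 0)) = some 0
        rw [h₂, a1]
      · rintro ⟨-, c1, -⟩
        rw [a1] at c1
        exact hne c1.symm
  · intro x hx
    rw [hM22] at hx ⊢
    refine ⟨Cfsg.M24.mul_mem (Cfsg.M24.mul_mem hg hx.1) (Cfsg.M24.inv_mem hg), ?_, ?_⟩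
    · show g (x (g⁻¹ none)) = none
      rw [hginv1, hx.2.2, h₂]
    · show g (x (g⁻¹ (some 0))) = some 0
      rw [hginv2, hx.2.1, h₁]
  · rintro ⟨h, hh, hconj⟩
    have hh' := (hM22 h).1 hh
    set c := h⁻¹ * g with hc
    have hcM : c ∈ Cfsg.M24 := Cfsg.M24.mul_mem (Cfsg.M24.inv_mem hh'.1) hg
    have hhinv1 : h⁻¹ none = none := by rw [Equiv.Perm.inv_eq_iff_eq]; exact hh'.2.1.symm
    have hhinv2 : h⁻¹ (some 0) = some 0 := by rw [Equiv.Perm.inv_eq_iff_eq]; exact hh'.2.2.symm
    have hc1 : c none = some 0 := by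
      show h⁻¹ (g none) = some 0
      rw [h₁, hhinv2]
    have hc2 : c (some 0) = none := by
      show h⁻¹ (g (some 0)) = none
      rw [h₂, hhinv1]
    have hcomm : ∀ x ∈ Cfsg.Spor.M22, c * x = x * c := by
      intro x hx
      have := hconj x hx
      calc c * x = h⁻¹ * (g * x * g⁻¹) * g := by rw [hc]; group
        _ = h⁻¹ * (h * x * h⁻¹) * g := by rw [this]
        _ = x * c := by rw [hc]; group
    have hfix : ∀ p : Cfsg.GolayPt, p ≠ none → p ≠ some 0 → c p = p := by
      intro p hp1 hp2
      by_contra hcp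
      set q := c p with hq
      have hq1 : q ≠ none := by
        intro e
        apply hp2
        apply c.injective
        rw [hc2, ← hq, e]
      have hq2 : q ≠ some 0 := by
        intro e
        apply hp1
        apply c.injective
        rw [hc1, ← hq, e]
      -- a further point
      obtain ⟨r, hr⟩ : ∃ r : Cfsg.GolayPt, r ∉ ({none, some 0, p, q} : Finset Cfsg.GolayPt) := by
        by_contra hcon
        push Not at hcon
        have h1 : (Finset.univ : Finset Cfsg.GolayPt) ⊆ {none, some 0, p, q} := fun x _ => hcon x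
        have h2 := Finset.card_le_card h1
        have h3 : ({none, some 0, p, q} : Finset Cfsg.GolayPt).card ≤ 4 := Finset.card_le_four
        have h4 : (Finset.univ : Finset Cfsg.GolayPt).card = 24 := rfl
        omega
      simp only [Finset.mem_insert, Finset.mem_singleton, not_or] at hr
      obtain ⟨x, hx, hxa⟩ := exists_M24_agree (Equiv.swap q r) ({none, some 0, p, q} : Finset Cfsg.GolayPt)
        (le_trans Finset.card_le_four (by norm_num))
      have x1 : x none = none := by
        rw [hxa none (by simp), Equiv.swap_apply_of_ne_of_ne hq1.symm (Ne.symm hr.1)]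
      have x2 : x (some 0) = some 0 := by
        rw [hxa (some 0) (by simp), Equiv.swap_apply_of_ne_of_ne hq2.symm (Ne.symm hr.2.1)]
      have x3 : x p = p := by
        rw [hxa p (by simp), Equiv.swap_apply_of_ne_of_ne (Ne.symm hcp) (Ne.symm hr.2.2.1)]
      have x4 : x q = r := by
        rw [hxa q (by simp), Equiv.swap_apply_left]
      have h5 := hcomm x ((hM22 x).2 ⟨hx, x1, x2⟩)
      have h6 := congrArg (fun σ : Equiv.Perm Cfsg.GolayPt => σ p) h5
      have h7 : c (x p) = x (c p) := h6
      rw [x3, ← hq, x4] at h7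
      exact hr.2.2.2 h7.symm
    -- a six-set off the two points, not in an octad
    set U : Finset Cfsg.GolayPt := Finset.univ \ {none, some 0} with hU
    have hUcard : U.card = 22 := by
      rw [hU, Finset.card_sdiff_of_subset (Finset.subset_univ _), Finset.card_pair hne]
      rfl
    have hUfix : ∀ p ∈ U, c p = p := by
      intro p hp
      rw [hU, Finset.mem_sdiff] at hp
      simp only [Finset.mem_insert, Finset.mem_singleton, not_or] at hp
      exact hfix p hp.2.1 hp.2.2
    obtain ⟨B, hBU, hB⟩ := Finset.exists_subset_card_eq (show 5 ≤ U.card by rw [hUcard]; norm_num)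
    obtain ⟨o, ho, hBo⟩ := exists_octad B hB
    obtain ⟨a, haU, hao⟩ := Finset.exists_mem_notMem_of_card_lt_card
      (show o.card < U.card by rw [hUcard, ho.2]; norm_num)
    have haB : a ∉ B := fun h => hao (hBo h)
    have hE : (insert a B).card = 6 := by rw [Finset.card_insert_of_notMem haB, hB]
    have hout : ¬ ∃ o' ∈ Cfsg.octads, insert a B ⊆ o' := by
      rintro ⟨o', ho', hsub⟩
      have : o' = o := octad_unique ho' ho hB.ge ((Finset.subset_insert a B).trans hsub) hBo
      rw [this] at hsub
      exact hao (hsub (Finset.mem_insert_self a B))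
    have h3 := card_Fx_six_out hE hout
    have hcF : c ∈ Fx (insert a B) := by
      rw [mem_Fx]
      refine ⟨hcM, fun p hp => ?_⟩
      rcases Finset.mem_insert.1 hp with rfl | hp
      · exact hUfix _ haU
      · exact hUfix _ (hBU hp)
    have hpow : c ^ 3 = 1 := by
      have := pow_card_eq_one' (G := ↥(Fx (insert a B))) (x := ⟨c, hcF⟩)
      rw [h3] at this
      exact congrArg Subtype.val this
    have h8 := congrArg (fun σ : Equiv.Perm Cfsg.GolayPt => σ none) hpow
    have h9 : c (c (c none)) = none := h8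
    rw [hc1, hc2, hc1] at h9
    exact hne h9.symm

end Cfsg.Agent.S5599
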