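import Mathlib
import Cfsg.Statements.S5601
import Cfsg.Agent.Lib.Helper3.ClassFix

set_option autoImplicit false
open scoped Pointwise
open Cfsg

namespace Cfsg.Agent.S5601

open Cfsg.Agent.Lib.Helper3 in
theorem exists_gen (X : Subgroup ↥Cfsg.M24) (hX : Nat.card X = 3) :
    ∃ x : ↥Cfsg.M24, orderOf (x : Equiv.Perm Cfsg.GolayPt) = 3 ∧ X = Subgroup.zpowers x := by
  haveI : Fact (Nat.Prime 3) := ⟨by norm_num⟩
  obtain ⟨x, hx⟩ := exists_prime_orderOf_dvd_card' (G := X) 3 (by rw [hX])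
  refine ⟨x.1, ?_, ?_⟩
  · rw [Subgroup.orderOf_coe, Subgroup.orderOf_coe]; exact hx
  · symm
    apply Subgroup.eq_of_le_of_card_ge
    · rw [Subgroup.zpowers_le]; exact x.2
    · rw [hX, Nat.card_zpowers, Subgroup.orderOf_coe, hx]

open Cfsg.Agent.Lib.Helper3 in
theorem fix_zpowers (x : ↥Cfsg.M24) :
    {p : Cfsg.GolayPt | ∀ y ∈ Subgroup.zpowers x, ((y : ↥Cfsg.M24) : Equiv.Perm Cfsg.GolayPt) p = p}.ncard
      = (Fx (x : Equiv.Perm Cfsg.GolayPt)).card := by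
  rw [← Set.ncard_coe_finset]
  congr 1
  ext p
  simp only [Set.mem_ofPred_eq, Finset.mem_coe, mem_Fx]
  constructor
  · intro h
    exact h x (Subgroup.mem_zpowers x)
  · rintro h _ ⟨n, rfl⟩
    have h1 : (x : Equiv.Perm Cfsg.GolayPt) ∈ MulAction.stabilizer (Equiv.Perm Cfsg.GolayPt) p := h
    have h2 := Subgroup.zpow_mem _ h1 n
    exact h2

theorem conj_zpowers (k x : ↥Cfsg.M24) :
    MulAut.conj k • Subgroup.zpowers x = Subgroup.zpowers (k * x * k⁻¹) := by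
  have h1 : MulAut.conj k • Subgroup.zpowers x =
      (Subgroup.zpowers x).map (MulAut.conj k).toMonoidHom := rfl
  rw [h1, MonoidHom.map_zpowers]
  rfl


/-- The group of the length-24 code has exactly two conjugacy classes of subgroups of order 3: a subgroup of order 3 fixes either exactly 6 of the 24 points or none of them, both cases occur, and two subgroups of order 3 with the same number of fixed points are conjugate. -/
theorem result : (∀ X : Subgroup ↥Cfsg.M24, Nat.card X = 3 → {p : Cfsg.GolayPt | ∀ x ∈ X, ((x : ↥Cfsg.M24) : Equiv.Perm Cfsg.GolayPt) p = p}.ncard = 6 ∨ {p : Cfsg.GolayPt | ∀ x ∈ X, ((x : ↥Cfsg.M24) : Equiv.Perm Cfsg.GolayPt) p = p}.ncard = 0) ∧ (∃ X : Subgroup ↥Cfsg.M24, Nat.card X = 3 ∧ {p : Cfsg.GolayPt | ∀ x ∈ X, ((x : ↥Cfsg.M24) : Equiv.Perm Cfsg.GolayPt) p = p}.ncard = 6) ∧ (∃ X : Subgroup ↥Cfsg.M24, Nat.card X = 3 ∧ {p : Cfsg.GolayPt | ∀ x ∈ X,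 ((x : ↥Cfsg.M24) : Equiv.Perm Cfsg.GolayPt) p = p}.ncard = 0) ∧ ∀ X Y : Subgroup ↥Cfsg.M24, Nat.card X = 3 → Nat.card Y = 3 → {p : Cfsg.GolayPt | ∀ x ∈ X, ((x : ↥Cfsg.M24) : Equiv.Perm Cfsg.GolayPt) p = p}.ncard = {p : Cfsg.GolayPt | ∀ x ∈ Y, ((x : ↥Cfsg.M24) : Equiv.Perm Cfsg.GolayPt) p = p}.ncard → ∃ k : ↥Cfsg.M24, MulAut.conj k • X = Y := by
  open Cfsg.Agent.Lib.Helper3 in
  refine ⟨?_, ⟨Subgroup.zpowers ⟨wperm xAw, wperm_mem _⟩, ?_, ?_⟩,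
    ⟨Subgroup.zpowers ⟨wperm xBw, wperm_mem _⟩, ?_, ?_⟩, ?_⟩
  · intro X hX
    obtain ⟨x, hx, rfl⟩ := exists_gen X hX
    rw [fix_zpowers]
    rcases order3_cases x.2 hx with ⟨_, _, _, c⟩ | ⟨_, _, _, c⟩
    · exact Or.inl c
    · exact Or.inr c
  · rw [Nat.card_zpowers, ← Subgroup.orderOf_coe]; exact orderOf_xA
  · rw [fix_zpowers]; exact card_Fx_xA
  · rw [Nat.card_zpowers, ← Subgroup.orderOf_coe]; exact orderOf_xB
  · rw [fix_zpowers]
    show (Fx (wperm xBw)).card = 0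
    rw [Fx_xB]; rfl
  · intro X Y hX hY hXY
    obtain ⟨x, hx, rfl⟩ := exists_gen X hX
    obtain ⟨y, hy, rfl⟩ := exists_gen Y hY
    rw [fix_zpowers, fix_zpowers] at hXY
    have key : ∀ (k k' z : Equiv.Perm Cfsg.GolayPt) (hk : k ∈ Cfsg.M24) (hk' : k' ∈ Cfsg.M24),
        k * (x : Equiv.Perm Cfsg.GolayPt) * k⁻¹ = z → k' * (y : Equiv.Perm Cfsg.GolayPt) * k'⁻¹ = z →
        ∃ k : ↥Cfsg.M24, MulAut.conj k • Subgroup.zpowers x = Subgroup.zpowers y := by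
      intro k k' z hk hk' e e'
      refine ⟨⟨k'⁻¹ * k, Cfsg.M24.mul_mem (Cfsg.M24.inv_mem hk') hk⟩, ?_⟩
      rw [conj_zpowers]
      congr 1
      apply Subtype.ext
      show k'⁻¹ * k * (x : Equiv.Perm Cfsg.GolayPt) * (k'⁻¹ * k)⁻¹ = y
      have : k'⁻¹ * k * (x : Equiv.Perm Cfsg.GolayPt) * (k'⁻¹ * k)⁻¹ =
          k'⁻¹ * (k * (x : Equiv.Perm Cfsg.GolayPt) * k⁻¹) * k' := by group
      rw [this, e, ← e']; group
    rcases order3_cases x.2 hx with ⟨k, hk, e, c⟩ | ⟨k, hk, e, c⟩ <;>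
    rcases order3_cases y.2 hy with ⟨k', hk', e', c'⟩ | ⟨k', hk', e', c'⟩
    · exact key k k' _ hk hk' e e'
    · omega
    · omega
    · exact key k k' _ hk hk' e e'

end Cfsg.Agent.S5601
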