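import Mathlib
import Cfsg.Statements.S5602
import Cfsg.Agent.Lib.Helper3.ClassCountData

set_option autoImplicit false
open scoped Pointwise
open Cfsg

namespace Cfsg.Agent.S5602

/-- An element of order 3 of the group of the length-24 code having exactly 6 fixed points maps to themselves exactly 21 octads, exactly 15 trios, exactly 16 sextets and exactly 20 dodecads. -/
theorem result (g : Equiv.Perm Cfsg.GolayPt) (hg : g ∈ Cfsg.M24) (h₃ : orderOf g = 3) (h₆ : (Finset.univ.filter fun p => g p = p).card = 6) : {o : Finset Cfsg.GolayPt | o ∈ Cfsg.octads ∧ g • o = o}.ncard = 21 ∧ {T : Finset (Finset Cfsg.GolayPt) | T ∈ Cfsg.trios ∧ g • T = T}.ncard = 15 ∧ {S : Finset (Finset Cfsg.GolayPt) | S ∈ Cfsg.sextets ∧ g • S = S}.ncard = 16 ∧ {d : Finset Cfsg.GolayPt | d ∈ Cfsg.dodecads ∧ g • d = d}.ncard = 20 := by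
  open Cfsg.Agent.Lib.Helper3 in
  have h₆' : (Fx g).card = 6 := h₆
  rcases order3_cases hg h₃ with ⟨k, hk, e, _⟩ | ⟨k, hk, _, c⟩
  · refine ⟨?_, ?_, ?_, ?_⟩
    · rw [ncard_fixed_conj Cfsg.octads (fun g hg x hx => smul_mem_octads hg hx) hk e]
      exact (ncard_fixed_code mask_xA 8).trans oct_xA
    · rw [ncard_fixed_conj Cfsg.trios (fun g hg x hx => smul_mem_trios hg hx) hk e]
      exact (ncard_fixed_trios mask_xA).trans tr_xA
    · rw [ncard_fixed_conj Cfsg.sextets (fun g hg x hx => smul_mem_sextets hg hx) hk e]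
      exact (ncard_fixed_sextets (wperm_mem _) mask_xA).trans sx_xA
    · rw [ncard_fixed_conj Cfsg.dodecads (fun g hg x hx => smul_mem_dodecads hg hx) hk e]
      exact (ncard_fixed_code mask_xA 12).trans dod_xA
  · omega

end Cfsg.Agent.S5602
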