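import Cfsg.Statements.S5604
import Cfsg.Agent.Lib.Helper28.N7
import Cfsg.Agent.Lib.Helper28.Schur2

set_option autoImplicit false
open scoped Pointwise
open Cfsg

namespace Cfsg.Agent.S5604


open Cfsg.Agent.Lib.Helper3 Cfsg.Agent.Lib.Helper3.Syl Cfsg.Agent.Lib.Helper28.N7
open scoped Pointwise

set_option maxRecDepth 100000

theorem thmA {ks tabs : List ℕ} (hchk : ∀ r < 24, chkR ks tabs r = true) {P : Subgroup (Equiv.Perm GolayPt)}
    (hP : IsTab P tabs) {n : Equiv.Perm GolayPt} (hn : n ∈ M24) {k' : ℕ} (hk : k' ∈ ks)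
    (hk6 : k' < 6) (h : n * wperm gw = wperm gw ^ (k' + 1) * n) : n ∈ P := by
  obtain ⟨r, hrdef⟩ : ∃ r, r = idx (n (bpt 0)) := ⟨_, rfl⟩
  have hr : r < 24 := hrdef ▸ idx_lt _
  have hnr : n (bpt 0) = pt r := by rw [hrdef, pt_idx]
  have semi : ∀ j, n * wperm gw ^ j = (wperm gw ^ (k' + 1)) ^ j * n := fun j =>
    (SemiconjBy.pow_right (show SemiconjBy n (wperm gw) (wperm gw ^ (k' + 1)) from h) j)
  have hb : ∀ j < 5, bpt j = (wperm gw ^ j) (bpt 0) := by
    intro j hj
    rw [← wperm_rep, bpt, bpt, wperm_pt _ (by decide), base_cyc j hj]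
  have key : ∀ j < 5, n (bpt j) = pt (wact (rep j (gpw.getD (k' + 1) [])) r) := by
    intro j hj
    rw [hb j hj, ← Equiv.Perm.mul_apply, semi j, Equiv.Perm.mul_apply, hnr,
      ← wperm_gpw (show k' + 1 < 7 by omega), ← wperm_rep, wperm_pt _ hr]
  have hU := chkU_true
  unfold chkU at hU
  have hU1 := List.all_eq_true.1 (List.all_eq_true.1 hU r (List.mem_range.2 hr)) k'
    (List.mem_range.2 hk6)
  have hN := hchk r hr
  unfold chkR at hN
  have hN1 := List.all_eq_true.1 hN k' hk
  rw [Bool.or_eq_true] at hU1 hN1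
  by_cases hfix : wact gw r = r
  · exfalso
    have h1 : wperm gw (pt r) = pt r := by rw [wperm_pt _ hr, hfix]
    have h2 : n (wperm gw (bpt 0)) = n (bpt 0) := by
      rw [← Equiv.Perm.mul_apply, h, Equiv.Perm.mul_apply, hnr]
      exact Equiv.Perm.pow_apply_eq_self_of_apply_eq_self h1 _
    have h3 := n.injective h2
    rw [bpt, wperm_pt _ (by decide)] at h3
    have h4 := congrArg idx h3
    rw [idx_pt (by decide +kernel), idx_pt (by decide)] at h4
    exact absurd h4 (by decide +kernel)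
  · have hU2 := hU1.resolve_left (by rw [beq_iff_eq]; exact hfix)
    have hN2 := hN1.resolve_left (by rw [beq_iff_eq]; exact hfix)
    generalize uw.getD (r * 6 + k') [] = u at hU2 hN2
    have hu : ∀ j < 5, wperm u (bpt j) = n (bpt j) := by
      intro j hj
      have := List.all_eq_true.1 hU2 j (List.mem_range.2 hj)
      rw [beq_iff_eq] at this
      rw [key j hj, bpt, wperm_pt _ (bidx_lt j), this]
    have hK : (wperm u)⁻¹ * n ∈ K 5 := by
      rw [mem_K]
      refine ⟨M24.mul_mem (M24.inv_mem (wperm_mem u)) hn, ?_⟩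
      intro j hj
      rw [Equiv.Perm.mul_apply, ← hu j hj]
      exact (wperm u).symm_apply_apply _
    obtain ⟨q5, h5, q6, h6, a5, a6, e⟩ := K5_word hK
    have hn' : n = wperm (u ++ w5 q5 q6) := by rw [wperm_append, ← e]; group
    have hN3 := List.all_eq_true.1 (List.all_eq_true.1 hN2 q5 (List.mem_range.2 h5)) q6
      (List.mem_range.2 h6)
    rw [a5, a6] at hN3
    simp only [Bool.and_self, Bool.not_true, Bool.false_or] at hN3
    have hw : weq' ((u ++ w5 q5 q6) ++ gw) (gpw.getD (k' + 1) [] ++ (u ++ w5 q5 q6)) = true := by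
      apply weq'_of_eq
      rw [wperm_append, wperm_append (gpw.getD (k' + 1) []), wperm_gpw (show k' + 1 < 7 by omega),
        ← hn']
      exact h
    unfold chkC at hN3
    rw [hw] at hN3
    simp only [Bool.not_true, Bool.false_or] at hN3
    obtain ⟨T, hT, hag⟩ := hasT_sound hN3
    obtain ⟨g, hg, hgT⟩ := hP.B T hT
    rw [hn', (hasTab_wperm hag).inj hgT]
    exact hg

theorem tab126 : IsTab (SP ws126) tabs126 :=
  isTab_of (par := par126) (gt := gt126) (by decide +kernel) (by decide +kernel) (by decide +kernel)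
    (by decide +kernel) (by decide +kernel)

theorem tab42 : IsTab (SP ws42) tabs42 :=
  isTab_of (par := par42) (gt := gt42) (by decide +kernel) (by decide +kernel) (by decide +kernel)
    (by decide +kernel) (by decide +kernel)

noncomputable def x0 : ↥M24 := ⟨wperm gw, wperm_mem gw⟩

noncomputable def Z7 : Subgroup ↥M24 := Subgroup.zpowers x0

theorem x0_pow7 : x0 ^ 7 = 1 := by
  apply Subtype.ext
  show wperm gw ^ 7 = 1
  rw [← wperm_rep]
  exact wperm_eq_iff.1 (by decide +kernel : weq (rep 7 gw) [] = true)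

theorem x0_ne : x0 ≠ 1 := by
  intro h
  have h1 : wperm gw = wperm [] := congrArg Subtype.val h
  rw [← wperm_eq_iff] at h1
  exact absurd h1 (by decide +kernel)

theorem order_x0 : orderOf x0 = 7 := by
  have : Fact (Nat.Prime 7) := ⟨by norm_num⟩
  exact orderOf_eq_prime x0_pow7 x0_ne

theorem card_Z7 : Nat.card Z7 = 7 := by rw [Z7, Nat.card_zpowers, order_x0]

theorem gens126 : (ws126.all fun w => [1, 2, 4].any fun k => weq (w ++ gw) (rep k gw ++ w)) = true := by
  decide +kernel

theorem gens42 : (ws42.all fun w => weq (w ++ gw) (gw ++ w)) = true := by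
  decide +kernel

theorem SP126_le : SP ws126 ≤ (Subgroup.normalizer (Z7 : Set ↥M24)).map M24.subtype := by
  apply SP_le
  intro w hw
  have h1 := List.all_eq_true.1 gens126 w hw
  obtain ⟨k, _, hk⟩ := List.any_eq_true.1 h1
  rw [wperm_eq_iff, wperm_append, wperm_append, wperm_rep] at hk
  refine ⟨⟨wperm w, wperm_mem w⟩, ?_, rfl⟩
  have hk' : (⟨wperm w, wperm_mem w⟩ : ↥M24) * x0 * (⟨wperm w, wperm_mem w⟩ : ↥M24)⁻¹ = x0 ^ k := by
    rw [mul_inv_eq_iff_eq_mul]
    exact Subtype.ext hk
  apply Cfsg.Agent.Lib.Helper28.Schur.mem_normalizer_of_conj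
  intro s hs
  obtain ⟨i, rfl⟩ := Subgroup.mem_zpowers_iff.1 hs
  rw [← conj_zpow, hk']
  exact Subgroup.zpow_mem _ (Subgroup.pow_mem _ (Subgroup.mem_zpowers x0) k) i

theorem norm_iff (n : ↥M24) :
    n ∈ Subgroup.normalizer (Z7 : Set ↥M24) ↔ (n : Equiv.Perm GolayPt) ∈ SP ws126 := by
  constructor
  · intro hn
    have h1 : n * x0 * n⁻¹ ∈ Z7 := (Subgroup.mem_normalizer_iff.1 hn x0).1 (Subgroup.mem_zpowers x0)
    rw [Z7, mem_zpowers_iff_mem_range_orderOf, order_x0] at h1
    obtain ⟨k, hk, e⟩ := Finset.mem_image.1 h1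
    have hk7 := Finset.mem_range.1 hk
    have hk0 : k ≠ 0 := by
      rintro rfl
      rw [pow_zero] at e
      exact x0_ne (conj_eq_one_iff.1 e.symm)
    obtain ⟨k', rfl⟩ := Nat.exists_eq_succ_of_ne_zero hk0
    apply thmA chkN126 tab126 n.2 (k' := k') (List.mem_range.2 (by omega)) (by omega)
    have e2 : n * x0 = x0 ^ (k' + 1) * n := by rw [e]; group
    exact congrArg Subtype.val e2
  · intro hn
    obtain ⟨m, hm, e⟩ := SP126_le hn
    have : m = n := Subtype.ext e
    exact this ▸ hm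

theorem SP42_le : SP ws42 ≤ (Subgroup.centralizer (Z7 : Set ↥M24)).map M24.subtype := by
  apply SP_le
  intro w hw
  have hk := List.all_eq_true.1 gens42 w hw
  rw [wperm_eq_iff, wperm_append, wperm_append] at hk
  refine ⟨⟨wperm w, wperm_mem w⟩, ?_, rfl⟩
  have hk' : Commute x0 (⟨wperm w, wperm_mem w⟩ : ↥M24) := (Subtype.ext hk : _ * x0 = x0 * _).symm
  show _ ∈ Subgroup.centralizer (Z7 : Set ↥M24)
  rw [Subgroup.mem_centralizer_iff]
  intro s hs
  obtain ⟨i, rfl⟩ := Subgroup.mem_zpowers_iff.1 hs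
  exact hk'.zpow_left i

theorem cent_iff (n : ↥M24) :
    n ∈ Subgroup.centralizer (Z7 : Set ↥M24) ↔ (n : Equiv.Perm GolayPt) ∈ SP ws42 := by
  constructor
  · intro hn
    have h1 : x0 * n = n * x0 := Subgroup.mem_centralizer_iff.1 hn x0 (Subgroup.mem_zpowers x0)
    apply thmA chkN42 tab42 n.2 (k' := 0) (by simp) (by omega)
    rw [zero_add, pow_one]
    exact congrArg Subtype.val h1.symm
  · intro hn
    obtain ⟨m, hm, e⟩ := SP42_le hn
    have : m = n := Subtype.ext e
    exact this ▸ hm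

theorem card_of_iff (H : Subgroup ↥M24) (ws : List (List ℕ))
    (h : ∀ n : ↥M24, n ∈ H ↔ (n : Equiv.Perm GolayPt) ∈ SP ws) : Nat.card H = Nat.card (SP ws) := by
  have : H.map M24.subtype = SP ws := by
    ext y
    constructor
    · rintro ⟨n, hn, rfl⟩
      exact (h n).1 hn
    · intro hy
      have hyM : y ∈ M24 := SP_le (fun w _ => wperm_mem w) hy
      exact ⟨⟨y, hyM⟩, (h _).2 hy, rfl⟩
  rw [← this, Subgroup.card_map_of_injective (Subgroup.subtype_injective M24)]

theorem card_norm : Nat.card (Subgroup.normalizer (Z7 : Set ↥M24)) = 126 := by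
  rw [card_of_iff _ _ norm_iff, tab126.card]; decide +kernel

theorem card_cent : Nat.card (Subgroup.centralizer (Z7 : Set ↥M24)) = 42 := by
  rw [card_of_iff _ _ cent_iff, tab42.card]; decide +kernel

theorem tm_lt : ∀ a ∈ tm, a < 2 ^ 24 := by decide

theorem famOf_tm : famOf tm = trioOf (unmask 0x149f) (unmask 0x5aa060) := by
  have h1 : unmask 0xa54b00 = (unmask 0x149f ∪ unmask 0x5aa060)ᶜ := by
    apply mask_injective
    rw [mask_compl, mask_union, mask_unmask (by norm_num), mask_unmask (by norm_num),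
      mask_unmask (by norm_num)]
    decide +kernel
  simp only [famOf, tm, List.map_cons, List.map_nil, List.toFinset_cons, List.toFinset_nil, h1]
  rfl

theorem tm_mem : famOf tm ∈ trios := by
  rw [famOf_tm]
  apply trioOf_mem (unmask_mem_octads (by decide +kernel)).1 (unmask_mem_octads (by decide +kernel)).1
  rw [Finset.disjoint_iff_inter_eq_empty]
  apply mask_injective
  rw [mask_inter, mask_unmask (by norm_num), mask_unmask (by norm_num)]
  decide +kernel

theorem mem_tm {t : Finset GolayPt} : t ∈ famOf tm ↔ ∃ a ∈ tm, t = unmask a := by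
  rw [famOf, List.mem_toFinset, List.mem_map]
  constructor
  · rintro ⟨a, ha, rfl⟩; exact ⟨a, ha, rfl⟩
  · rintro ⟨a, ha, rfl⟩; exact ⟨a, ha, rfl⟩

def stT (w : List ℕ) : Bool := tm.all fun a => tm.contains (pm (wact (winv w)) a)

theorem stT_sound {w : List ℕ} (h : stT w = true) :
    wperm w ∈ MulAction.stabilizer (Equiv.Perm GolayPt) (famOf tm) := by
  rw [MulAction.mem_stabilizer_iff]
  apply Finset.eq_of_subset_of_card_le
  · intro t ht
    obtain ⟨t', ht', rfl⟩ := Finset.mem_smul_finset.1 ht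
    obtain ⟨a, ha, rfl⟩ := mem_tm.1 ht'
    have h1 := List.all_eq_true.1 h a ha
    simp only [List.contains_eq_mem, decide_eq_true_eq] at h1
    rw [smul_unmask _ (tm_lt a ha)]
    exact mem_tm.2 ⟨_, h1, rfl⟩
  · rw [Finset.card_smul_finset]

theorem stT_gens : (ws126.all stT) = true := by decide +kernel

theorem norm_trio (n : ↥M24) (hn : n ∈ Subgroup.normalizer (Z7 : Set ↥M24)) :
    (n : Equiv.Perm GolayPt) • famOf tm = famOf tm := by
  have h1 : SP ws126 ≤ MulAction.stabilizer (Equiv.Perm GolayPt) (famOf tm) :=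
    SP_le (fun w hw => stT_sound (List.all_eq_true.1 stT_gens w hw))
  exact h1 ((norm_iff n).1 hn)

theorem noncomm : ∃ x ∈ Subgroup.centralizer (Z7 : Set ↥M24),
    ∃ y ∈ Subgroup.centralizer (Z7 : Set ↥M24), x * y ≠ y * x := by
  have ha : wperm xa ∈ SP ws42 := Subgroup.subset_closure ⟨xa, by decide, rfl⟩
  have hb : wperm xb ∈ SP ws42 := Subgroup.subset_closure ⟨xb, by decide, rfl⟩
  refine ⟨⟨wperm xa, wperm_mem xa⟩, (cent_iff _).2 ha, ⟨wperm xb, wperm_mem xb⟩, (cent_iff _).2 hb, ?_⟩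
  intro h
  have h1 : wperm xa * wperm xb = wperm xb * wperm xa := congrArg Subtype.val h
  rw [← wperm_append, ← wperm_append, ← wperm_eq_iff] at h1
  exact absurd h1 (by decide +kernel)

theorem cent_map (c : ↥M24 ≃* ↥M24) (H : Subgroup ↥M24) :
    Subgroup.centralizer ((H.map c.toMonoidHom : Subgroup ↥M24) : Set ↥M24) =
      (Subgroup.centralizer (H : Set ↥M24)).map c.toMonoidHom := by
  ext y
  rw [Subgroup.mem_map_equiv, Subgroup.mem_centralizer_iff, Subgroup.mem_centralizer_iff]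
  constructor
  · intro h s hs
    apply c.injective
    rw [map_mul, map_mul, MulEquiv.apply_symm_apply]
    exact h (c s) ⟨s, hs, rfl⟩
  · rintro h _ ⟨s, hs, rfl⟩
    have := congrArg c (h s hs)
    rw [map_mul, map_mul, MulEquiv.apply_symm_apply] at this
    exact this


/-- For a subgroup S of order 7 of the group of the length-24 code (a Sylow 7-subgroup): the normaliser of S has order 126, the centraliser of S has order 42 and is non-abelian, and the whole normaliser leaves some trio invariant. (These are the orders of a Frobenius group of order 21 times a symmetric group of degree 3; the isomorphism type itself is not asserted here.) -/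
theorem result (S : Subgroup ↥Cfsg.M24) (hS : Nat.card S = 7) : Nat.card ↥(Subgroup.normalizer (S : Set ↥Cfsg.M24)) = 126 ∧ Nat.card ↥(Subgroup.centralizer (S : Set ↥Cfsg.M24)) = 42 ∧ (∃ x ∈ Subgroup.centralizer (S : Set ↥Cfsg.M24), ∃ y ∈ Subgroup.centralizer (S : Set ↥Cfsg.M24), x * y ≠ y * x) ∧ ∃ T ∈ Cfsg.trios, ∀ n ∈ Subgroup.normalizer (S : Set ↥Cfsg.M24), ((n : ↥Cfsg.M24) : Equiv.Perm Cfsg.GolayPt) • T = T := by
  have hp7 : Fact (Nat.Prime 7) := ⟨by norm_num⟩
  have hfac : (Nat.card ↥Cfsg.M24).factorization 7 = 1 := by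
    have h1 : Nat.card ↥Cfsg.M24 = 7 ^ 1 * 34974720 := by rw [card_M24]; norm_num
    rw [h1, Nat.factorization_mul (by norm_num) (by norm_num), Nat.factorization_pow]
    simp [hp7.out.factorization_self,
      Nat.factorization_eq_zero_of_not_dvd (show ¬ 7 ∣ 34974720 by norm_num)]
  obtain ⟨g, hg⟩ := MulAction.exists_smul_eq ↥Cfsg.M24
    (Sylow.ofCard Z7 (by rw [card_Z7, hfac, pow_one]) : Sylow 7 ↥Cfsg.M24)
    (Sylow.ofCard S (by rw [hS, hfac, pow_one]) : Sylow 7 ↥Cfsg.M24)
  have hS' : S = Z7.map (MulAut.conj g).toMonoidHom := by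
    have := congrArg Sylow.toSubgroup hg
    exact this.symm
  subst hS'
  rw [← Subgroup.map_equiv_normalizer_eq, cent_map]
  refine ⟨?_, ?_, ?_, ?_⟩
  · rw [Subgroup.card_map_of_injective (MulAut.conj g).injective, card_norm]
  · rw [Subgroup.card_map_of_injective (MulAut.conj g).injective, card_cent]
  · obtain ⟨x, hx, y, hy, hxy⟩ := noncomm
    refine ⟨MulAut.conj g x, ⟨x, hx, rfl⟩, MulAut.conj g y, ⟨y, hy, rfl⟩, ?_⟩
    intro h
    apply hxy
    apply (MulAut.conj g).injective
    rw [map_mul, map_mul, h]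
  · refine ⟨(g : Equiv.Perm Cfsg.GolayPt) • famOf tm, smul_mem_trios g.2 tm_mem, ?_⟩
    rintro _ ⟨n, hn, rfl⟩
    show ((g * n * g⁻¹ : ↥Cfsg.M24) : Equiv.Perm Cfsg.GolayPt) • _ = _
    rw [Subgroup.coe_mul, Subgroup.coe_mul, Subgroup.coe_inv, mul_smul, mul_smul, inv_smul_smul,
      norm_trio n hn]

end Cfsg.Agent.S5604
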