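import Mathlib
import Cfsg.Statements.S5605
import Cfsg.Agent.Lib.Helper3.ClassCountData

set_option autoImplicit false
open scoped Pointwise
open Cfsg

namespace Cfsg.Agent.S5605

/-- An involution of the group of the length-24 code with exactly 8 fixed points maps to themselves exactly 71 octads, exactly 99 trios and exactly 91 sextets. -/
theorem result (g : Equiv.Perm Cfsg.GolayPt) (hg : g ∈ Cfsg.M24) (h₂ : orderOf g = 2) (h₈ : (Finset.univ.filter fun p => g p = p).card = 8) : {o : Finset Cfsg.GolayPt | o ∈ Cfsg.octads ∧ g • o = o}.ncard = 71 ∧ {T : Finset (Finset Cfsg.GolayPt) | T ∈ Cfsg.trios ∧ g • T = T}.ncard = 99 ∧ {S : Finset (Finset Cfsg.GolayPt) | S ∈ Cfsg.sextets ∧ g • S = S}.ncard = 91 := by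
  open Cfsg.Agent.Lib.Helper3 in
  have h₈' : (Fx g).card = 8 := h₈
  rcases invol_cases hg h₂ with ⟨k, hk, e, _⟩ | ⟨k, hk, _, c⟩
  · refine ⟨?_, ?_, ?_⟩
    · rw [ncard_fixed_conj Cfsg.octads (fun g hg x hx => smul_mem_octads hg hx) hk e]
      exact (ncard_fixed_code mask_zA 8).trans oct_zA
    · rw [ncard_fixed_conj Cfsg.trios (fun g hg x hx => smul_mem_trios hg hx) hk e]
      exact (ncard_fixed_trios mask_zA).trans tr_zA
    · rw [ncard_fixed_conj Cfsg.sextets (fun g hg x hx => smul_mem_sextets hg hx) hk e]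
      exact (ncard_fixed_sextets (wperm_mem _) mask_zA).trans sx_zA
  · omega

end Cfsg.Agent.S5605
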