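import Mathlib
import Cfsg.Statements.S5608
import Cfsg.Agent.Lib.Helper3.ClassFix

set_option autoImplicit false
open scoped Pointwise
open Cfsg

namespace Cfsg.Agent.S5608

open Cfsg.Agent.Lib.Helper3

def F6 : List ℕ := [0, 1, 2, 3, 4, 14]

def cons5 (c : List ℕ) : Bool :=
  (List.range 5).all fun i => c.getD i 0 != i && (List.range 5).all fun j =>
    (c.getD i 0 != j || c.getD j 0 == i) && (i == j || c.getD i 0 != c.getD j 0)

def commW (W z : List ℕ) : Bool :=
  (List.range 24).all fun i => wact W (wact z i) == wact z (wact W i)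

def tb : List (ℕ × List ℕ) := [(4674241, [2, 2, 3, 2, 3, 1, 0, 0, 1, 3, 4, 0, 0]), (859393, [3, 4, 4, 0, 2, 0, 2, 0, 4, 0, 2, 0, 0, 0]), (1058689, [4, 0, 0, 0, 2, 3, 4, 3, 2, 1, 0, 4, 4]), (4658762, [0, 0, 2, 3, 1, 0, 4, 0, 4, 3, 4]), (525410, [2, 0, 1, 3, 2, 3, 1, 0, 0, 4, 0, 0, 0]), (1050962, [0, 0, 1, 3, 3, 4, 0, 2, 3, 3, 3, 1]), (4645491, [0, 0, 0, 4, 1, 3, 4, 3, 4, 4, 0, 1]), (339939, [0, 4, 3, 2, 2, 3, 2, 0, 4, 0, 0]), (666195, [2, 0, 0, 1, 0, 0, 0, 0, 4, 3, 3, 4, 0]), (194164, [3, 4, 0, 2, 1, 3, 2, 1, 3, 4, 4, 3]), (21964, [2, 3, 4, 3, 1, 0, 0, 2, 3, 2, 2, 1]), (29716, [4, 4, 3, 1, 0, 0, 1, 0, 0, 2, 2]), (1051262, [1, 0, 0, 4, 3, 3, 1, 0, 2, 2, 3, 4, 3]), (679766, [4, 4, 3, 3, 4, 0, 0, 0, 2, 3, 3, 4, 0, 0]), (361262, [4, 3, 4, 0, 2, 0, 4, 0, 4, 4, 0, 4, 3])]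

def chkT5 : Bool :=
  F6.all fun c0 => F6.all fun c1 => F6.all fun c2 => F6.all fun c3 => F6.all fun c4 =>
    !(cons5 [c0, c1, c2, c3, c4]) ||
      ((wact ((tb.lookup (c0 + 24 * (c1 + 24 * (c2 + 24 * (c3 + 24 * c4))))).getD []) 0 == c0 &&
        wact ((tb.lookup (c0 + 24 * (c1 + 24 * (c2 + 24 * (c3 + 24 * c4))))).getD []) 1 == c1 &&
        wact ((tb.lookup (c0 + 24 * (c1 + 24 * (c2 + 24 * (c3 + 24 * c4))))).getD []) 2 == c2 &&
        wact ((tb.lookup (c0 + 24 * (c1 + 24 * (c2 + 24 * (c3 + 24 * c4))))).getD []) 3 == c3 &&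
        wact ((tb.lookup (c0 + 24 * (c1 + 24 * (c2 + 24 * (c3 + 24 * c4))))).getD []) 4 == c4) &&
       (List.range 24).all fun q5 => !(allow 5).testBit q5 ||
         (List.range 24).all fun q6 => !(allow 6).testBit q6 ||
           !(commW ((tb.lookup (c0 + 24 * (c1 + 24 * (c2 + 24 * (c3 + 24 * c4))))).getD [] ++ w5 q5 q6) xAw))

theorem chkT5_true : chkT5 = true := by decide +kernel

theorem commW_of {W z : List ℕ} (h : wperm W * wperm z = wperm z * wperm W) : commW W z = true := by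
  unfold commW
  rw [List.all_eq_true]
  intro i hi
  have hi' := List.mem_range.1 hi
  have := congrArg (fun σ : Equiv.Perm Cfsg.GolayPt => idx (σ (pt i))) h
  simp only [Equiv.Perm.mul_apply, idx_wperm, idx_pt hi'] at this
  simpa using this

theorem mem_F6 {p : Cfsg.GolayPt} (h : p ∈ Fx (wperm xAw)) : idx p ∈ F6 := by
  rw [Fx_xA, mem_unmask] at h
  have hlt := idx_lt p
  revert h
  generalize idx p = n at hlt ⊢
  interval_cases n <;> decide

/-- no fixed-point-free involution commutes with the representative with six fixed points. -/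
theorem no_comm {s : Equiv.Perm Cfsg.GolayPt} (hs : s ∈ Cfsg.M24) (h2 : s * s = 1)
    (h0 : ∀ p, s p ≠ p) (hc : s * wperm xAw = wperm xAw * s) : False := by
  have hss : ∀ p, s (s p) = p := fun p => by
    have := congrArg (fun σ : Equiv.Perm Cfsg.GolayPt => σ p) h2
    exact this
  have hF : ∀ p, p ∈ Fx (wperm xAw) → s p ∈ Fx (wperm xAw) := by
    intro p hp
    rw [mem_Fx] at hp ⊢
    have := congrArg (fun σ : Equiv.Perm Cfsg.GolayPt => σ p) hc
    simp only [Equiv.Perm.mul_apply, hp] at this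
    exact this.symm
  have hb : ∀ i < 5, pt i ∈ Fx (wperm xAw) := by
    intro i hi
    rw [Fx_xA, mem_unmask, idx_pt (by omega)]
    interval_cases i <;> decide
  set c : ℕ → ℕ := fun i => idx (s (pt i)) with hcdef
  have hcF : ∀ i < 5, c i ∈ F6 := fun i hi => mem_F6 (hF _ (hb i hi))
  have hne : ∀ i < 5, c i ≠ i := by
    intro i hi h
    apply h0 (pt i)
    apply idx_injective
    rw [idx_pt (by omega)]; exact h
  have hinv : ∀ i < 5, ∀ j < 5, c i = j → c j = i := by
    intro i hi j hj h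
    have e : s (pt i) = pt j := by rw [← h, hcdef, pt_idx]
    show idx (s (pt j)) = i
    rw [← e, hss, idx_pt (by omega)]
  have hinj : ∀ i < 5, ∀ j < 5, c i = c j → i = j := by
    intro i hi j hj h
    have := s.injective (idx_injective h)
    have := congrArg idx this
    rwa [idx_pt (by omega), idx_pt (by omega)] at this
  have hcons : cons5 [c 0, c 1, c 2, c 3, c 4] = true := by
    have hget : ∀ i < 5, [c 0, c 1, c 2, c 3, c 4].getD i 0 = c i := by
      intro i hi
      interval_cases i <;> rfl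
    unfold cons5
    rw [List.all_eq_true]
    intro i hi
    have hi' := List.mem_range.1 hi
    rw [Bool.and_eq_true, List.all_eq_true]
    refine ⟨by rw [hget i hi']; simpa using hne i hi', ?_⟩
    intro j hj
    have hj' := List.mem_range.1 hj
    rw [hget i hi', hget j hj']
    simp only [Bool.and_eq_true, Bool.or_eq_true, bne_iff_ne, beq_iff_eq, ne_eq]
    refine ⟨?_, ?_⟩
    · by_cases h : c i = j
      · exact Or.inr (hinv i hi' j hj' h)
      · exact Or.inl h
    · by_cases h : i = j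
      · exact Or.inl h
      · exact Or.inr fun h' => h (hinj i hi' j hj' h')
  have hchk := chkT5_true
  unfold chkT5 at hchk
  rw [List.all_eq_true] at hchk
  have k0 := hchk _ (hcF 0 (by norm_num))
  rw [List.all_eq_true] at k0
  have k1 := k0 _ (hcF 1 (by norm_num))
  rw [List.all_eq_true] at k1
  have k2 := k1 _ (hcF 2 (by norm_num))
  rw [List.all_eq_true] at k2
  have k3 := k2 _ (hcF 3 (by norm_num))
  rw [List.all_eq_true] at k3
  have k4 := k3 _ (hcF 4 (by norm_num))
  rw [hcons, Bool.not_true, Bool.false_or] at k4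
  generalize (tb.lookup (c 0 + 24 * (c 1 + 24 * (c 2 + 24 * (c 3 + 24 * c 4))))).getD [] = h at k4
  simp only [Bool.and_eq_true, beq_iff_eq] at k4
  obtain ⟨⟨⟨⟨⟨s0, s1⟩, s2⟩, s3⟩, s4⟩, k5⟩ := k4
  have hlt : ∀ i, c i < 24 := fun i => idx_lt _
  obtain ⟨q5, h5, q6, h6, b5, b6, e⟩ := coset_word hs h (by
    intro j hj
    have hcases : j = 0 ∨ j = 1 ∨ j = 2 ∨ j = 3 ∨ j = 4 := by omega
    rcases hcases with d | d | d | d | d <;> subst d
    · rw [wperm_bpt (by norm_num) (hlt 0) s0, hcdef, pt_idx]; rfl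
    · rw [wperm_bpt (by norm_num) (hlt 1) s1, hcdef, pt_idx]; rfl
    · rw [wperm_bpt (by norm_num) (hlt 2) s2, hcdef, pt_idx]; rfl
    · rw [wperm_bpt (by norm_num) (hlt 3) s3, hcdef, pt_idx]; rfl
    · rw [wperm_bpt (by norm_num) (hlt 4) s4, hcdef, pt_idx]; rfl)
  rw [List.all_eq_true] at k5
  have m1 := k5 q5 (List.mem_range.2 h5)
  rw [b5, Bool.not_true, Bool.false_or, List.all_eq_true] at m1
  have m2 := m1 q6 (List.mem_range.2 h6)
  rw [b6, Bool.not_true, Bool.false_or, commW_of (by rw [← e]; exact hc)] at m2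
  exact absurd m2 (by decide)

/-- an element of order three commuting with an involution with eight fixed points fixes a point. -/
theorem fix_of_comm {x s : Equiv.Perm Cfsg.GolayPt} (h3 : x ^ 3 = 1) (hc : Commute x s)
    (h8 : (Fx s).card = 8) (h0 : (Fx x).card = 0) : False := by
  have : Fact (Nat.Prime 3) := ⟨by norm_num⟩
  have hmap : ∀ p, x p ∈ Fx s ↔ p ∈ Fx s := by
    intro p
    rw [mem_Fx, mem_Fx]
    have := congrArg (fun σ : Equiv.Perm Cfsg.GolayPt => σ p) hc.eq
    simp only [Equiv.Perm.mul_apply] at this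
    rw [← this]
    exact x.injective.eq_iff
  let y : Equiv.Perm {p // p ∈ Fx s} := x.subtypePerm hmap
  have hy : y ^ 3 ^ 1 = 1 := by
    rw [pow_one]
    show (x.subtypePerm hmap) ^ 3 = 1
    rw [Equiv.Perm.subtypePerm_pow]
    ext p
    simp [h3]
  have hm := Equiv.Perm.card_compl_support_modEq (σ := y) hy
  have he : y.supportᶜ = ∅ := by
    rw [Finset.eq_empty_iff_forall_notMem]
    intro p hp
    rw [Finset.mem_compl, Equiv.Perm.mem_support, not_not] at hp
    have h1 : x p.1 = p.1 := congrArg Subtype.val hp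
    rw [Finset.card_eq_zero] at h0
    have h2 : p.1 ∈ Fx x := mem_Fx.2 h1
    rw [h0] at h2
    exact absurd h2 (Finset.notMem_empty _)
  rw [he, Finset.card_empty, Fintype.card_coe, h8] at hm
  exact absurd hm (by decide)


/-- If an element of order 3 and an involution of the group of the length-24 code commute, then either the element of order 3 has exactly 6 fixed points and the involution exactly 8, or both are fixed-point-free. -/
theorem result (x s : Equiv.Perm Cfsg.GolayPt) (hx : x ∈ Cfsg.M24) (hs : s ∈ Cfsg.M24) (h₃ : orderOf x = 3) (h₂ : orderOf s = 2) (hc : Commute x s) : ((Finset.univ.filter fun p => x p = p).card = 6 ∧ (Finset.univ.filter fun p => s p = p).card = 8) ∨ ((Finset.univ.filter fun p => x p = p).card = 0 ∧ (Finset.univ.filter fun p => s p = p).card = 0) := by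
  open Cfsg.Agent.Lib.Helper3 in
  show ((Fx x).card = 6 ∧ (Fx s).card = 8) ∨ ((Fx x).card = 0 ∧ (Fx s).card = 0)
  have h3 : x ^ 3 = 1 := by rw [← h₃]; exact pow_orderOf_eq_one x
  have h2 : s * s = 1 := by rw [← pow_two, ← h₂]; exact pow_orderOf_eq_one s
  rcases order3_cases hx h₃ with ⟨k, hk, e, c⟩ | ⟨k, hk, e, c⟩ <;>
    rcases invol_cases hs h₂ with ⟨k', hk', e', c'⟩ | ⟨k', hk', e', c'⟩
  · exact Or.inl ⟨c, c'⟩
  · exfalso
    refine no_comm (s := k * s * k⁻¹) (Cfsg.M24.mul_mem (Cfsg.M24.mul_mem hk hs) (Cfsg.M24.inv_mem hk))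
      ?_ ?_ ?_
    · have : k * s * k⁻¹ * (k * s * k⁻¹) = k * (s * s) * k⁻¹ := by group
      rw [this, h2]; group
    · rw [← Fx_card_zero_iff, Fx_conj, Finset.card_smul_finset]; exact c'
    · rw [← e]
      have e1 : k * s * k⁻¹ * (k * x * k⁻¹) = k * (s * x) * k⁻¹ := by group
      have e2 : k * x * k⁻¹ * (k * s * k⁻¹) = k * (x * s) * k⁻¹ := by group
      rw [e1, e2, hc.eq]
  · exact (fix_of_comm h3 hc c' c).elim
  · exact Or.inr ⟨c, c'⟩

end Cfsg.Agent.S5608
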