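import Cfsg.Statements.S5609
import Cfsg.Agent.Lib.Helper3.OctStab
import Cfsg.Agent.Lib.Helper3.Trio
import Cfsg.Agent.Lib.Helper3.Tools
import Cfsg.Agent.Lib.Helper3.M24Trans

set_option autoImplicit false
open scoped Pointwise
open Cfsg

namespace Cfsg.Agent.S5609


open Cfsg Cfsg.Agent.Lib.Helper3
open scoped Pointwise

theorem adj_iff (a b : Cfsg.octads) :
    (Cfsg.blockGraph Cfsg.octads).Adj a b ↔ Disjoint (a : Finset GolayPt) (b : Finset GolayPt) := by
  unfold Cfsg.blockGraph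
  rw [SimpleGraph.fromRel_adj]
  constructor
  · rintro ⟨_, h | h⟩
    · exact h
    · exact h.symm
  · intro h
    refine ⟨?_, Or.inl h⟩
    intro e
    exact ne_of_disjoint_octads a.2 h (congrArg Subtype.val e)

theorem disj_unmask {x y : ℕ} (h : x &&& y = 0) : Disjoint (unmask x) (unmask y) := by
  rw [Finset.disjoint_left]
  intro p hp hq
  rw [mem_unmask] at hp hq
  have := Nat.testBit_and x y (idx p)
  rw [h, hp, hq] at this
  simp at this

theorem disj_smul (g : Equiv.Perm GolayPt) {s t : Finset GolayPt} (h : Disjoint s t) :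
    Disjoint (g • s) (g • t) := by
  rw [Finset.disjoint_iff_inter_eq_empty] at h ⊢
  rw [← Finset.smul_finset_inter, h, Finset.smul_finset_empty]

theorem transport {o o' : Finset GolayPt} (ho : o ∈ octads) (ho' : o' ∈ octads) :
    ∃ g ∈ M24, o = g • O0 ∧ o' = g • unmask (repO (o ∩ o').card) := by
  obtain ⟨u, hu, huo⟩ := octad_to_O0 ho
  obtain ⟨σ, hσ, h⟩ := octad_to_rep (smul_mem_octads hu ho')
  obtain ⟨hσ1, hσ2⟩ := StabM_one hσ
  rw [← huo, card_smul_inter] at h
  refine ⟨(σ * u)⁻¹, M24.inv_mem (M24.mul_mem hσ1 hu), ?_, ?_⟩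
  · rw [eq_inv_smul_iff, mul_smul, huo]; exact hσ2
  · rw [eq_inv_smul_iff, mul_smul, ← h, unmask_mask]

theorem common4 {o o' : Finset GolayPt} (ho : o ∈ octads) (ho' : o' ∈ octads)
    (h : (o ∩ o').card = 4) : ∃ w ∈ octads, Disjoint o w ∧ Disjoint w o' := by
  obtain ⟨g, hg, h1, h2⟩ := transport ho ho'
  rw [h] at h2
  refine ⟨g • unmask 0x21e260,
    smul_mem_octads hg (unmask_mem_octads (by decide +kernel)).1, ?_, ?_⟩
  · rw [h1]; exact disj_smul g (disj_unmask (by decide +kernel))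
  · rw [h2]; exact disj_smul g (disj_unmask (by decide +kernel))

theorem path2 {o o' : Finset GolayPt} (ho : o ∈ octads) (ho' : o' ∈ octads)
    (h : (o ∩ o').card = 2) : ∃ w1 ∈ octads, ∃ w2 ∈ octads,
      Disjoint o w1 ∧ Disjoint w1 w2 ∧ Disjoint w2 o' := by
  obtain ⟨g, hg, h1, h2⟩ := transport ho ho'
  rw [h] at h2
  refine ⟨g • unmask 0xb66020,
    smul_mem_octads hg (unmask_mem_octads (by decide +kernel)).1, g • unmask 0x803da,
    smul_mem_octads hg (unmask_mem_octads (by decide +kernel)).1, ?_, ?_, ?_⟩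
  · rw [h1]; exact disj_smul g (disj_unmask (by decide +kernel))
  · exact disj_smul g (disj_unmask (by decide +kernel))
  · rw [h2]; exact disj_smul g (disj_unmask (by decide +kernel))

theorem nocommon2 {o o' w : Finset GolayPt} (ho : o ∈ octads) (ho' : o' ∈ octads)
    (hw : w ∈ octads) (h : (o ∩ o').card = 2) (h1 : Disjoint o w) (h2 : Disjoint w o') :
    False := by
  have ht := third_octad ho hw h1
  have e : (o ∪ w)ᶜ ∩ o' = o' \ o := by
    ext p
    have : p ∈ w → p ∉ o' := fun hp => Finset.disjoint_left.1 h2 hp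
    simp only [Finset.mem_inter, Finset.mem_compl, Finset.mem_union, Finset.mem_sdiff]
    tauto
  have c := Finset.card_sdiff_add_card_inter o' o
  rw [Finset.inter_comm, h, ho'.2] at c
  rcases octad_inter_cases ht ho' with h3 | h3
  · have : o ∩ o' = ∅ := by
      rw [h3, ← Finset.disjoint_iff_inter_eq_empty]; exact disjoint_third_left o w
    rw [this] at h; simp at h
  · rw [e] at h3; omega

theorem walk2 {V : Type*} {G : SimpleGraph V} {a b : V} (p : G.Walk a b) (h : p.length = 2) :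
    ∃ c, G.Adj a c ∧ G.Adj c b := by
  cases p with
  | nil => simp at h
  | cons h1 q =>
    cases q with
    | nil => simp at h
    | cons h2 r =>
      cases r with
      | nil => exact ⟨_, h1, h2⟩
      | cons h3 s => simp at h

theorem reach (a b : Cfsg.octads) : (Cfsg.blockGraph Cfsg.octads).Reachable a b := by
  rcases octad_inter_cases a.2 b.2 with h | h | h | h
  · have : a = b := Subtype.ext h.symm
    rw [this]
  · exact ((adj_iff a b).2 (by
      rw [Finset.disjoint_iff_inter_eq_empty]; exact Finset.card_eq_zero.1 h)).reachable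
  · obtain ⟨w1, hw1, w2, hw2, h1, h2, h3⟩ := path2 a.2 b.2 h
    exact (((adj_iff a ⟨w1, hw1⟩).2 h1).reachable.trans
      ((adj_iff ⟨w1, hw1⟩ ⟨w2, hw2⟩).2 h2).reachable).trans
      ((adj_iff ⟨w2, hw2⟩ b).2 h3).reachable
  · obtain ⟨w, hw, h1, h2⟩ := common4 a.2 b.2 h
    exact ((adj_iff a ⟨w, hw⟩).2 h1).reachable.trans ((adj_iff ⟨w, hw⟩ b).2 h2).reachable

theorem dist0 {a b : Cfsg.octads} (h : ((a : Finset GolayPt) ∩ b).card = 0) :
    (Cfsg.blockGraph Cfsg.octads).dist a b = 1 := by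
  rw [SimpleGraph.dist_eq_one_iff_adj, adj_iff, Finset.disjoint_iff_inter_eq_empty]
  exact Finset.card_eq_zero.1 h

theorem dist_ne_one {a b : Cfsg.octads} (h : ((a : Finset GolayPt) ∩ b).card ≠ 0) :
    (Cfsg.blockGraph Cfsg.octads).dist a b ≠ 1 := by
  rw [Ne, SimpleGraph.dist_eq_one_iff_adj, adj_iff, Finset.disjoint_iff_inter_eq_empty]
  intro e
  exact h (by rw [e]; rfl)

theorem dist_ne_zero {a b : Cfsg.octads} (h : a ≠ b) :
    (Cfsg.blockGraph Cfsg.octads).dist a b ≠ 0 := by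
  intro e
  exact h ((reach a b).dist_eq_zero_iff.1 e)

theorem dist4 {a b : Cfsg.octads} (hne : a ≠ b) (h : ((a : Finset GolayPt) ∩ b).card = 4) :
    (Cfsg.blockGraph Cfsg.octads).dist a b = 2 := by
  obtain ⟨w, hw, h1, h2⟩ := common4 a.2 b.2 h
  have hle := SimpleGraph.dist_le
    (SimpleGraph.Walk.cons ((adj_iff a ⟨w, hw⟩).2 h1)
      (SimpleGraph.Walk.cons ((adj_iff ⟨w, hw⟩ b).2 h2) SimpleGraph.Walk.nil))
  simp only [SimpleGraph.Walk.length_cons, SimpleGraph.Walk.length_nil] at hle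
  have := dist_ne_zero hne
  have := dist_ne_one (a := a) (b := b) (by omega)
  omega

theorem dist2 {a b : Cfsg.octads} (hne : a ≠ b) (h : ((a : Finset GolayPt) ∩ b).card = 2) :
    (Cfsg.blockGraph Cfsg.octads).dist a b = 3 := by
  obtain ⟨w1, hw1, w2, hw2, h1, h2, h3⟩ := path2 a.2 b.2 h
  have hle := SimpleGraph.dist_le
    (SimpleGraph.Walk.cons ((adj_iff a ⟨w1, hw1⟩).2 h1)
      (SimpleGraph.Walk.cons ((adj_iff ⟨w1, hw1⟩ ⟨w2, hw2⟩).2 h2)
        (SimpleGraph.Walk.cons ((adj_iff ⟨w2, hw2⟩ b).2 h3) SimpleGraph.Walk.nil)))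
  simp only [SimpleGraph.Walk.length_cons, SimpleGraph.Walk.length_nil] at hle
  have := dist_ne_zero hne
  have := dist_ne_one (a := a) (b := b) (by omega)
  have h2' : (Cfsg.blockGraph Cfsg.octads).dist a b ≠ 2 := by
    intro e
    obtain ⟨p, hp⟩ := (reach a b).exists_walk_length_eq_dist
    obtain ⟨c, hc1, hc2⟩ := walk2 p (hp.trans e)
    exact nocommon2 a.2 b.2 c.2 h ((adj_iff a c).1 hc1) ((adj_iff c b).1 hc2)
  omega


/-- In the graph on the 759 octads of the length-24 code in which two octads are adjacent when they are disjoint, the graph is connected (of diameter 3) and two distinct octads are at distance 1, 2 or 3 exactly when they meet in 0, 4 or 2 points respectively. -/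
theorem result (o o' : Finset Cfsg.GolayPt) (ho : o ∈ Cfsg.octads) (ho' : o' ∈ Cfsg.octads) (hne : o ≠ o') : (Cfsg.blockGraph Cfsg.octads).Connected ∧ ((Cfsg.blockGraph Cfsg.octads).dist ⟨o, ho⟩ ⟨o', ho'⟩ = 1 ↔ (o ∩ o').card = 0) ∧ ((Cfsg.blockGraph Cfsg.octads).dist ⟨o, ho⟩ ⟨o', ho'⟩ = 2 ↔ (o ∩ o').card = 4) ∧ ((Cfsg.blockGraph Cfsg.octads).dist ⟨o, ho⟩ ⟨o', ho'⟩ = 3 ↔ (o ∩ o').card = 2) := by
  have hne' : (⟨o, ho⟩ : Cfsg.octads) ≠ ⟨o', ho'⟩ := fun e => hne (congrArg Subtype.val e)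
  have hconn : (Cfsg.blockGraph Cfsg.octads).Connected :=
    { preconnected := reach, nonempty := ⟨⟨o, ho⟩⟩ }
  refine ⟨hconn, ?_⟩
  rcases octad_inter_cases ho ho' with h | h | h | h
  · exact absurd h.symm hne
  · have := dist0 (a := ⟨o, ho⟩) (b := ⟨o', ho'⟩) h
    rw [this, h]; simp
  · have := dist2 (a := ⟨o, ho⟩) (b := ⟨o', ho'⟩) hne' h
    rw [this, h]; simp
  · have := dist4 (a := ⟨o, ho⟩) (b := ⟨o', ho'⟩) hne' h
    rw [this, h]; simp

end Cfsg.Agent.S5609
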