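import Mathlib
import Cfsg.Statements.S5610
import Cfsg.Agent.Lib.Helper3.DataYO
import Cfsg.Agent.Lib.Helper3.SxTrBase

set_option autoImplicit false
open scoped Pointwise
open Cfsg

namespace Cfsg.Agent.S5610

/-- The stabiliser of an octad in the group of the length-24 code has exactly three orbits on the 3795 trios, of sizes 15, 420 and 3360, and exactly three orbits on the 1771 sextets, of sizes 35, 840 and 896. -/
theorem result (o : Finset Cfsg.GolayPt) (ho : o ∈ Cfsg.octads) : (∃ X₁ ∈ Cfsg.trios, ∃ X₂ ∈ Cfsg.trios, ∃ X₃ ∈ Cfsg.trios, (MulAction.orbit ↥(MulAction.stabilizer Cfsg.M24 o) X₁).ncard = 15 ∧ (MulAction.orbit ↥(MulAction.stabilizer Cfsg.M24 o) X₂).ncard = 420 ∧ (MulAction.orbit ↥(MulAction.stabilizer Cfsg.M24 o) X₃).ncard = 3360 ∧ Cfsg.trios = MulAction.orbit ↥(MulAction.stabilizer Cfsg.M24 o) X₁ ∪ MulAction.orbit ↥(MulAction.stabilizer Cfsg.M24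 o) X₂ ∪ MulAction.orbit ↥(MulAction.stabilizer Cfsg.M24 o) X₃) ∧ (∃ Y₁ ∈ Cfsg.sextets, ∃ Y₂ ∈ Cfsg.sextets, ∃ Y₃ ∈ Cfsg.sextets, (MulAction.orbit ↥(MulAction.stabilizer Cfsg.M24 o) Y₁).ncard = 35 ∧ (MulAction.orbit ↥(MulAction.stabilizer Cfsg.M24 o) Y₂).ncard = 840 ∧ (MulAction.orbit ↥(MulAction.stabilizer Cfsg.M24 o) Y₃).ncard = 896 ∧ Cfsg.sextets = MulAction.orbit ↥(MulAction.stabilizer Cfsg.M24 o) Y₁ ∪ MulAction.orbit ↥(MulAction.stabilizer Cfsg.M24 o) Y₂ ∪ MulAction.orbit ↥(MulAction.stabilizer Cfsg.M24 o) Y₃) := by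
  open Cfsg.Agent.Lib.Helper3 in
  have hN : Nat.card (MulAction.stabilizer Cfsg.M24 O0) = 322560 := card_stab_octad O0_mem
  have hS : ∀ σ ∈ StabM [0x149f], σ ∈ Cfsg.M24 ∧ σ • O0 = O0 := fun σ hσ => StabM_one hσ
  obtain ⟨a1, a2, a3, _⟩ := trio_orbits O0 ![15, 420, 3360] 322560 (gensIn_of_chk gensYO) hS
    chkYOtr hN (by decide)
  obtain ⟨b1, b2, b3, _⟩ := sextet_orbits O0 ![35, 840, 896] 322560 (gensIn_of_chk gensYO) hS
    chkYOsx hN (by decide)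
  obtain ⟨u, hu, huo⟩ := octad_to_O0 ho
  obtain ⟨c1, c2, c3⟩ := orbits_transfer (Cfsg.M24.inv_mem hu) O0 Cfsg.trios
    (fun g hg x hx => smul_mem_trios hg hx) _ _ a1 a2 a3
  obtain ⟨d1, d2, d3⟩ := orbits_transfer (Cfsg.M24.inv_mem hu) O0 Cfsg.sextets
    (fun g hg x hx => smul_mem_sextets hg hx) _ _ b1 b2 b3
  have hY : u⁻¹ • O0 = o := by rw [← huo, inv_smul_smul]
  rw [hY] at c2 c3 d2 d3
  exact ⟨⟨_, c1 0, _, c1 1, _, c1 2, c2 0, c2 1, c2 2, unpack3 c3⟩,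
    ⟨_, d1 0, _, d1 1, _, d1 2, d2 0, d2 1, d2 2, unpack3 d3⟩⟩

end Cfsg.Agent.S5610
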