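import Mathlib
import Cfsg.Statements.S5611
import Cfsg.Agent.Lib.Helper3.DataYS
import Cfsg.Agent.Lib.Helper3.SxTrBase

set_option autoImplicit false
open scoped Pointwise
open Cfsg

namespace Cfsg.Agent.S5611

/-- The stabiliser of a sextet in the group of the length-24 code has exactly three orbits on the 759 octads, of sizes 15, 360 and 384, and exactly four orbits on the 3795 trios, of sizes 15, 180, 720 and 2880. -/
theorem result (S : Finset (Finset Cfsg.GolayPt)) (hS : S ∈ Cfsg.sextets) : (∃ X₁ ∈ Cfsg.octads, ∃ X₂ ∈ Cfsg.octads, ∃ X₃ ∈ Cfsg.octads, (MulAction.orbit ↥(MulAction.stabilizer Cfsg.M24 S) X₁).ncard = 15 ∧ (MulAction.orbit ↥(MulAction.stabilizer Cfsg.M24 S) X₂).ncard = 360 ∧ (MulAction.orbit ↥(MulAction.stabilizer Cfsg.M24 S) X₃).ncard = 384 ∧ Cfsg.octads = MulAction.orbit ↥(MulAction.stabilizer Cfsg.M24 S) X₁ ∪ MulAction.orbit ↥(MulAction.stabilizer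 Cfsg.M24 S) X₂ ∪ MulAction.orbit ↥(MulAction.stabilizer Cfsg.M24 S) X₃) ∧ (∃ Y₁ ∈ Cfsg.trios, ∃ Y₂ ∈ Cfsg.trios, ∃ Y₃ ∈ Cfsg.trios, ∃ Y₄ ∈ Cfsg.trios, (MulAction.orbit ↥(MulAction.stabilizer Cfsg.M24 S) Y₁).ncard = 15 ∧ (MulAction.orbit ↥(MulAction.stabilizer Cfsg.M24 S) Y₂).ncard = 180 ∧ (MulAction.orbit ↥(MulAction.stabilizer Cfsg.M24 S) Y₃).ncard = 720 ∧ (MulAction.orbit ↥(MulAction.stabilizer Cfsg.M24 S) Y₄).ncard = 2880 ∧ Cfsg.trios = MulAction.orbit ↥(MulAction.stabilizer Cfsg.M24 S) Y₁ ∪ MulAction.orbit ↥(MulAction.stabilizer Cfsg.M24 S) Y₂ ∪ MulAction.orbit ↥(MulAction.stabilizer Cfsg.M24 S) Y₃ ∪ MulAction.orbit ↥(MulAction.stabilizer Cfsg.M24 S) Y₄) := by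
  open Cfsg.Agent.Lib.Helper3 in
  have hN : Nat.card (MulAction.stabilizer Cfsg.M24 S0) = 138240 := card_stab_sextet S0_mem
  have hSt : ∀ σ ∈ StabF [0xf, 0x1490, 0x98100, 0x342000, 0x400a40, 0x824020],
      σ ∈ Cfsg.M24 ∧ σ • S0 = S0 := fun σ hσ => ⟨hσ.1, by
    have h2 : σ • famOf [0xf, 0x1490, 0x98100, 0x342000, 0x400a40, 0x824020] =
      famOf [0xf, 0x1490, 0x98100, 0x342000, 0x400a40, 0x824020] := hσ.2
    rwa [famOf_S0] at h2⟩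
  obtain ⟨a1, a2, a3⟩ := octad_orbits S0 ![15, 360, 384] 138240 (gensIn_of_chkF gensYS) hSt
    chkYSoct hN (by decide)
  obtain ⟨b1, b2, b3, _⟩ := trio_orbits S0 ![15, 180, 720, 2880] 138240 (gensIn_of_chkF gensYS) hSt
    chkYStr hN (by decide)
  obtain ⟨u, hu, huo⟩ := sextet_to_S0 hS
  obtain ⟨c1, c2, c3⟩ := orbits_transfer (Cfsg.M24.inv_mem hu) S0 Cfsg.octads
    (fun g hg x hx => smul_mem_octads hg hx) _ _ a1 a2 a3
  obtain ⟨d1, d2, d3⟩ := orbits_transfer (Cfsg.M24.inv_mem hu) S0 Cfsg.trios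
    (fun g hg x hx => smul_mem_trios hg hx) _ _ b1 b2 b3
  have hY : u⁻¹ • S0 = S := by rw [← huo, inv_smul_smul]
  rw [hY] at c2 c3 d2 d3
  exact ⟨⟨_, c1 0, _, c1 1, _, c1 2, c2 0, c2 1, c2 2, unpack3 c3⟩,
    ⟨_, d1 0, _, d1 1, _, d1 2, _, d1 3, d2 0, d2 1, d2 2, d2 3, unpack4 d3⟩⟩

end Cfsg.Agent.S5611
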