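import Mathlib
import Cfsg.Statements.S5612
import Cfsg.Agent.Lib.Helper3.DataYT
import Cfsg.Agent.Lib.Helper3.SxTrBase

set_option autoImplicit false
open scoped Pointwise
open Cfsg

namespace Cfsg.Agent.S5612

/-- The stabiliser of a trio in the group of the length-24 code has exactly three orbits on the 759 octads, of sizes 3, 84 and 672, and exactly four orbits on the 1771 sextets, of sizes 7, 84, 336 and 1344. -/
theorem result (T : Finset (Finset Cfsg.GolayPt)) (hT : T ∈ Cfsg.trios) : (∃ X₁ ∈ Cfsg.octads, ∃ X₂ ∈ Cfsg.octads, ∃ X₃ ∈ Cfsg.octads, (MulAction.orbit ↥(MulAction.stabilizer Cfsg.M24 T) X₁).ncard = 3 ∧ (MulAction.orbit ↥(MulAction.stabilizer Cfsg.M24 T) X₂).ncard = 84 ∧ (MulAction.orbit ↥(MulAction.stabilizer Cfsg.M24 T) X₃).ncard = 672 ∧ Cfsg.octads = MulAction.orbit ↥(MulAction.stabilizer Cfsg.M24 T) X₁ ∪ MulAction.orbit ↥(MulAction.stabilizer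 Cfsg.M24 T) X₂ ∪ MulAction.orbit ↥(MulAction.stabilizer Cfsg.M24 T) X₃) ∧ (∃ Y₁ ∈ Cfsg.sextets, ∃ Y₂ ∈ Cfsg.sextets, ∃ Y₃ ∈ Cfsg.sextets, ∃ Y₄ ∈ Cfsg.sextets, (MulAction.orbit ↥(MulAction.stabilizer Cfsg.M24 T) Y₁).ncard = 7 ∧ (MulAction.orbit ↥(MulAction.stabilizer Cfsg.M24 T) Y₂).ncard = 84 ∧ (MulAction.orbit ↥(MulAction.stabilizer Cfsg.M24 T) Y₃).ncard = 336 ∧ (MulAction.orbit ↥(MulAction.stabilizer Cfsg.M24 T) Y₄).ncard = 1344 ∧ Cfsg.sextets = MulAction.orbit ↥(MulAction.stabilizer Cfsg.M24 T) Y₁ ∪ MulAction.orbit ↥(MulAction.stabilizer Cfsg.M24 T) Y₂ ∪ MulAction.orbit ↥(MulAction.stabilizer Cfsg.M24 T) Y₃ ∪ MulAction.orbit ↥(MulAction.stabilizer Cfsg.M24 T) Y₄) := by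
  open Cfsg.Agent.Lib.Helper3 in
  have hN : Nat.card (MulAction.stabilizer Cfsg.M24 T0) = 64512 := card_stab_trio T0_mem
  have hSt : ∀ σ ∈ StabF [0x149f, 0xb66020, 0x498b40],
      σ ∈ Cfsg.M24 ∧ σ • T0 = T0 := fun σ hσ => ⟨hσ.1, by
    have h2 : σ • famOf [0x149f, 0xb66020, 0x498b40] =
      famOf [0x149f, 0xb66020, 0x498b40] := hσ.2
    rwa [famOf_T0] at h2⟩
  obtain ⟨a1, a2, a3⟩ := octad_orbits T0 ![3, 84, 672] 64512 (gensIn_of_chkF gensYT) hSt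
    chkYToct hN (by decide)
  obtain ⟨b1, b2, b3, _⟩ := sextet_orbits T0 ![7, 84, 336, 1344] 64512 (gensIn_of_chkF gensYT) hSt
    chkYTsx hN (by decide)
  obtain ⟨u, hu, huo⟩ := trio_to_T0 hT
  obtain ⟨c1, c2, c3⟩ := orbits_transfer (Cfsg.M24.inv_mem hu) T0 Cfsg.octads
    (fun g hg x hx => smul_mem_octads hg hx) _ _ a1 a2 a3
  obtain ⟨d1, d2, d3⟩ := orbits_transfer (Cfsg.M24.inv_mem hu) T0 Cfsg.sextets
    (fun g hg x hx => smul_mem_sextets hg hx) _ _ b1 b2 b3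
  have hY : u⁻¹ • T0 = T := by rw [← huo, inv_smul_smul]
  rw [hY] at c2 c3 d2 d3
  exact ⟨⟨_, c1 0, _, c1 1, _, c1 2, c2 0, c2 1, c2 2, unpack3 c3⟩,
    ⟨_, d1 0, _, d1 1, _, d1 2, _, d1 3, d2 0, d2 1, d2 2, d2 3, unpack4 d3⟩⟩

end Cfsg.Agent.S5612
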