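import Cfsg.Statements.S5614
import Cfsg.Agent.Lib.Helper28.M24Fix
open Cfsg.Agent.Lib.Helper28 Cfsg.Agent.Lib.Helper3 Cfsg.Agent.Lib.Helper11
open scoped Pointwise

set_option autoImplicit false
open scoped Pointwise
open Cfsg

namespace Cfsg.Agent.S5614

def chkFree : Bool :=
  (List.range 24).all fun q =>
    !((allow 6).testBit q) || q == bidx 6 ||
      !(pm (wact (winv ((tr 6).getD q []))) 0xc75001 == 0xc75001)

theorem chkFree_true : chkFree = true := by decide +kernel

theorem inj_std {g : Equiv.Perm Cfsg.GolayPt} (hg : g ∈ K 6)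
    (h : g • unmask 0xc75001 = unmask 0xc75001) : g = 1 := by
  have hg' := (mem_K 6 g).1 hg
  have hq := allowed (k := 6) (by norm_num) hg'.1 hg'.2
  set q := idx (g (bpt 6)) with hqdef
  have hq24 : q < 24 := idx_lt _
  obtain ⟨hu1, hu2⟩ := level_word 6 (by norm_num) q hq24 hq
  set u := wperm ((tr 6).getD q []) with hu
  have hug : u * g = 1 := by
    apply eq_one_of_fixes (Cfsg.M24.mul_mem (wperm_mem _) hg'.1)
    intro j hj
    rcases Nat.lt_succ_iff_lt_or_eq.mp hj with h | rfl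
    · show u (g (bpt j)) = _
      rw [hg'.2 j h, hu1 j h]
    · show u (g (bpt 6)) = _
      have h6 : g (bpt 6) = pt q := by rw [hqdef, pt_idx]
      rw [h6, hu2]
  have hgg := (K6_elem hg).1
  have hgu : g = u := by
    have h1 : u = g⁻¹ := eq_inv_of_mul_eq_one_left hug
    rw [h1]; exact (inv_eq_of_mul_eq_one_left hgg).symm
  have hc := chkFree_true
  unfold chkFree at hc
  rw [List.all_eq_true] at hc
  have h1 := hc q (List.mem_range.mpr hq24)
  rw [hq] at h1
  simp only [Bool.not_true, Bool.false_or, Bool.or_eq_true, beq_iff_eq, Bool.not_eq_true',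
    beq_eq_false_iff_ne] at h1
  rcases h1 with h1 | h1
  · apply eq_one_of_fixes hg'.1
    intro j hj
    rcases Nat.lt_succ_iff_lt_or_eq.mp hj with h | rfl
    · exact hg'.2 j h
    · apply idx_injective
      rw [← hqdef, h1, idx_bpt]
  · exfalso
    apply h1
    have h2 := congrArg mask h
    rw [hgu, hu, mask_wperm_smul, mask_unmask (by norm_num)] at h2
    exact h2

theorem Fx_six_eq {E o : Finset Cfsg.GolayPt} (hE : E.card = 6) (ho : o ∈ Cfsg.octads) (hEo : E ⊆ o) :
    Fx E = Fx o := by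
  symm
  apply Subgroup.eq_of_le_of_card_ge
  · intro g hg
    rw [mem_Fx] at hg ⊢
    exact ⟨hg.1, fun p hp => hg.2 p (hEo hp)⟩
  · rw [card_Fx_six_in hE ⟨o, ho, hEo⟩]
    exact (fix_octad ho).1.ge

theorem inj_gen {o o' : Finset Cfsg.GolayPt} (ho : o ∈ Cfsg.octads) (ho' : o' ∈ Cfsg.octads)
    (h₂ : (o ∩ o').card = 2) {g : Equiv.Perm Cfsg.GolayPt} (hg : g ∈ Cfsg.M24)
    (hfix : ∀ p ∈ o \ o', g p = p) (hgo' : g • o' = o') : g = 1 := by
  have hE : (o \ o').card = 6 := by
    have := Finset.card_sdiff_add_card_inter o o'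
    rw [h₂, ho.2] at this
    omega
  have hgF : g ∈ Fx o := by
    rw [← Fx_six_eq hE ho Finset.sdiff_subset, mem_Fx]
    exact ⟨hg, hfix⟩
  obtain ⟨u, hu, huo⟩ := octad_to_O0 ho
  obtain ⟨σ, hσ, hσm⟩ := octad_to_rep (smul_mem_octads hu ho')
  have hσ' := StabM_one hσ
  rw [← huo, Cfsg.Agent.Lib.Helper3.card_smul_inter, h₂] at hσm
  set v := σ * u with hv
  have hvM : v ∈ Cfsg.M24 := Cfsg.M24.mul_mem hσ'.1 hu
  have hvo : v • o = O0 := by rw [hv, mul_smul, huo]; exact hσ'.2
  have hvo' : v • o' = unmask 0xc75001 := by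
    rw [hv, mul_smul, ← unmask_mask (σ • u • o'), hσm]
    rfl
  have h1 : v * g * v⁻¹ ∈ K 6 := by
    rw [← fix_O0_eq]
    have h0 : v * g * v⁻¹ ∈ Cfsg.M24 ⊓ fixingSubgroup (Equiv.Perm Cfsg.GolayPt)
        ((v • o : Finset Cfsg.GolayPt) : Set Cfsg.GolayPt) := (fixConj v hvM o ⟨g, hgF⟩).2
    rw [hvo] at h0
    exact h0
  have h2 : (v * g * v⁻¹) • unmask 0xc75001 = unmask 0xc75001 := by
    rw [← hvo', mul_smul, mul_smul, inv_smul_smul, hgo']
  have h3 := inj_std h1 h2
  have h4 : g = v⁻¹ * (v * g * v⁻¹) * v := by group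
  rw [h4, h3]; group


/-- In the group of the length-24 code, the joint stabiliser of two octads meeting in exactly two points is isomorphic to the symmetric group of degree 6. -/
theorem result (o o' : Finset Cfsg.GolayPt) (ho : o ∈ Cfsg.octads) (ho' : o' ∈ Cfsg.octads) (h₂ : (o ∩ o').card = 2) : Nonempty (↥(MulAction.stabilizer Cfsg.M24 o ⊓ MulAction.stabilizer Cfsg.M24 o') ≃* Equiv.Perm (Fin 6)) := by
  classical
  have hE : (o \ o').card = 6 := by
    have := Finset.card_sdiff_add_card_inter o o'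
    rw [h₂, ho.2] at this
    omega
  have hle : MulAction.stabilizer Cfsg.M24 o ⊓ MulAction.stabilizer Cfsg.M24 o' ≤
      MulAction.stabilizer Cfsg.M24 (o \ o') := by
    intro g hg
    obtain ⟨h1, h2⟩ := Subgroup.mem_inf.1 hg
    rw [MulAction.mem_stabilizer_iff] at h1 h2 ⊢
    rw [Finset.smul_finset_sdiff, h1, h2]
  set φ : ↥(MulAction.stabilizer Cfsg.M24 o ⊓ MulAction.stabilizer Cfsg.M24 o') →* Equiv.Perm ↥(o \ o') :=
    (resHom (o \ o')).comp (Subgroup.inclusion hle) with hφ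
  have hinj : Function.Injective φ := by
    rw [injective_iff_map_eq_one]
    intro g hg1
    apply Subtype.ext
    apply Subtype.ext
    apply inj_gen ho ho' h₂ g.1.2 _ (Subgroup.mem_inf.1 g.2).2
    intro p hp
    have := congrArg (fun σ : Equiv.Perm ↥(o \ o') => ((σ ⟨p, hp⟩ : ↥(o \ o')) : Cfsg.GolayPt)) hg1
    exact this
  have hcard : Nat.card ↥(MulAction.stabilizer Cfsg.M24 o ⊓ MulAction.stabilizer Cfsg.M24 o') = 720 := by
    have h := card_stab_two_octads ho ho'
    rw [h₂, count_octO0_2] at h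
    omega
  have hcard2 : Nat.card (Equiv.Perm ↥(o \ o')) = 720 := by
    rw [Nat.card_eq_fintype_card, Fintype.card_perm, Fintype.card_coe, hE]
    rfl
  have hbij : Function.Bijective φ := by
    exact hinj.bijective_of_nat_card_le (by rw [hcard, hcard2])
  exact ⟨(MulEquiv.ofBijective φ hbij).trans ((o \ o').equivFinOfCardEq hE).permCongrHom⟩

end Cfsg.Agent.S5614
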