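import Mathlib
import Cfsg.Statements.S5615
import Cfsg.Agent.Lib.Helper3.TrioOct

set_option autoImplicit false
open scoped Pointwise
open Cfsg

namespace Cfsg.Agent.S5615

/-- An octad of the length-24 code lies in exactly 15 trios; the stabiliser of the octad in the code's group acts doubly transitively on these 15 trios, and the kernel of this action is the pointwise stabiliser of the octad. -/
theorem result (o : Finset Cfsg.GolayPt) (ho : o ∈ Cfsg.octads) : {T : Finset (Finset Cfsg.GolayPt) | T ∈ Cfsg.trios ∧ o ∈ T}.ncard = 15 ∧ (∀ T₁ T₂ T₁' T₂' : Finset (Finset Cfsg.GolayPt), T₁ ∈ Cfsg.trios → T₂ ∈ Cfsg.trios → T₁' ∈ Cfsg.trios → T₂' ∈ Cfsg.trios → o ∈ T₁ → o ∈ T₂ → o ∈ T₁' → o ∈ T₂' → T₁ ≠ T₂ → T₁' ≠ T₂' → ∃ g ∈ Cfsg.M24, g • o = o ∧ g • T₁ = T₁' ∧ g • T₂ = T₂') ∧ ∀ g ∈ Cfsg.M24, g • o = o → ((∀ T ∈ Cfsg.trios, o ∈ T → g • T = T) ↔ ∀ p ∈ o, g p = p) := by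
  open Cfsg.Agent.Lib.Helper3 in
  obtain ⟨u, hu, huo⟩ := octad_to_O0 ho
  have hmem : ∀ T : Finset (Finset Cfsg.GolayPt), o ∈ T → O0 ∈ u • T := by
    intro T hT
    rw [← huo]; exact Finset.smul_mem_smul_finset hT
  refine ⟨ncard_trios_through ho, ?_, ?_⟩
  · intro T₁ T₂ T₁' T₂' h₁ h₂ h₁' h₂' ho₁ ho₂ ho₁' ho₂' hne hne'
    obtain ⟨σ, hσ, a1, a2, a3⟩ := trio_pair_to_std (smul_mem_trios hu h₁) (smul_mem_trios hu h₂)
      (hmem _ ho₁) (hmem _ ho₂) (fun h => hne (MulAction.injective u h))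
    obtain ⟨σ', hσ', b1, b2, b3⟩ := trio_pair_to_std (smul_mem_trios hu h₁')
      (smul_mem_trios hu h₂') (hmem _ ho₁') (hmem _ ho₂') (fun h => hne' (MulAction.injective u h))
    refine ⟨u⁻¹ * σ'⁻¹ * σ * u, Cfsg.M24.mul_mem (Cfsg.M24.mul_mem (Cfsg.M24.mul_mem
      (Cfsg.M24.inv_mem hu) (Cfsg.M24.inv_mem hσ')) hσ) hu, ?_, ?_, ?_⟩
    · rw [mul_smul, mul_smul, mul_smul, huo, a1, inv_smul_eq_iff.2 b1.symm, ← huo, inv_smul_smul]
    · rw [mul_smul, mul_smul, mul_smul, a2, ← b2, inv_smul_smul, inv_smul_smul]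
    · rw [mul_smul, mul_smul, mul_smul, a3, ← b3, inv_smul_smul, inv_smul_smul]
  · intro g hg hgo
    have hg' : u * g * u⁻¹ ∈ Cfsg.M24 := Cfsg.M24.mul_mem (Cfsg.M24.mul_mem hu hg)
      (Cfsg.M24.inv_mem hu)
    have hgO : (u * g * u⁻¹) • O0 = O0 := by
      rw [mul_smul, mul_smul, ← huo, inv_smul_smul, hgo]
    constructor
    · intro h p hp
      have h1 := fix_trios_imp hg' hgO (by
        intro T hT hOT
        have h2 := h (u⁻¹ • T) (smul_mem_trios (Cfsg.M24.inv_mem hu) hT) (by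
          rw [← inv_smul_smul u o, huo]; exact Finset.smul_mem_smul_finset hOT)
        rw [mul_smul, mul_smul, h2, smul_inv_smul]) (u p) (by
          rw [← huo]; exact Finset.smul_mem_smul_finset hp)
      have h3 : u (g (u⁻¹ (u p))) = u p := h1
      rw [Equiv.Perm.inv_def, Equiv.symm_apply_apply] at h3
      exact u.injective h3
    · intro h T hT hoT
      have hK : u * g * u⁻¹ ∈ K 6 := by
        rw [← fix_O0_eq, Subgroup.mem_inf, mem_fixingSubgroup_iff]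
        refine ⟨hg', fun p hp => ?_⟩
        have hp' : u⁻¹ p ∈ o := by
          have h4 : u⁻¹ • p ∈ u⁻¹ • O0 := Finset.smul_mem_smul_finset hp
          rwa [← huo, inv_smul_smul] at h4
        show u (g (u⁻¹ p)) = p
        rw [h _ hp', Equiv.Perm.inv_def, Equiv.apply_symm_apply]
      have h5 := K6_fix_trio hK (smul_mem_trios hu hT) (hmem _ hoT)
      rw [mul_smul, mul_smul, inv_smul_smul] at h5
      exact MulAction.injective u h5

end Cfsg.Agent.S5615
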