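import Mathlib
import Cfsg.Statements.S5616
import Cfsg.Agent.Lib.Helper3.DataY3
import Cfsg.Agent.Lib.Helper3.SxTrBase

set_option autoImplicit false
open scoped Pointwise
open Cfsg

namespace Cfsg.Agent.S5616

open Cfsg.Agent.Lib.Helper3 in
theorem meet_smul (g : Equiv.Perm Cfsg.GolayPt) (S : Finset (Finset Cfsg.GolayPt))
    (Y : Finset Cfsg.GolayPt) :
    ((g • S).filter fun t => (t ∩ g • Y).Nonempty).card =
      (S.filter fun t => (t ∩ Y).Nonempty).card := by
  have : (g • S).filter (fun t => (t ∩ g • Y).Nonempty) =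
      g • (S.filter fun t => (t ∩ Y).Nonempty) := by
    ext t
    rw [Finset.mem_filter, ← Finset.inv_smul_mem_iff, ← Finset.inv_smul_mem_iff (a := g),
      Finset.mem_filter]
    have h : g⁻¹ • t ∩ Y = g⁻¹ • (t ∩ g • Y) := by
      rw [Finset.smul_finset_inter, inv_smul_smul]
    rw [h, Finset.smul_finset_nonempty]
  rw [this, Finset.card_smul_finset]

open Cfsg.Agent.Lib.Helper3 in
theorem meet_count (c v : ℕ) (hc : tet c ≠ 0) (hc' : c < 4096)
    (h : countW (fun x => Nat.beq (cz x) (cz (tet c)) && !Nat.beq (Nat.land x 7) 0) 24 4 0 = v) :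
    ((sxt c).filter fun t => (t ∩ unmask 7).Nonempty).card = v := by
  rw [← h, ← ncard_card, ← Set.ncard_coe_finset]
  congr 1
  ext u
  simp only [Finset.coe_filter, Set.mem_ofPred_eq, sxt, mem_sextetOf, Bool.and_eq_true, Nat.beq_eq,
    Bool.not_eq_true', mask_unmask (tet_lt c)]
  rw [and_assoc]
  refine and_congr_right fun _ => and_congr_right fun _ => ?_
  rw [Finset.nonempty_iff_ne_empty, ← Bool.not_eq_true, Nat.beq_eq, not_iff_not]
  have h1 : Nat.land (mask u) 7 = mask (u ∩ unmask 7) := by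
    rw [mask_inter, mask_unmask (by norm_num)]; rfl
  rw [h1]
  constructor
  · intro h2; rw [h2]; exact mask_empty
  · intro h2; apply mask_injective; rw [h2]; exact mask_empty.symm

/-- orbits are the fibres of an invariant separating them. -/
theorem fibres {β : Type*} [MulAction (Equiv.Perm Cfsg.GolayPt) β] (Y : Finset Cfsg.GolayPt)
    (F : Set β) {k : ℕ} (X : Fin k → β) (f : β → ℕ) (v : Fin k → ℕ)
    (h3 : F = ⋃ j, MulAction.orbit (MulAction.stabilizer Cfsg.M24 Y) (X j))
    (hf : ∀ g : Equiv.Perm Cfsg.GolayPt, g • Y = Y → ∀ x, f (g • x) = f x)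
    (hv : ∀ j, f (X j) = v j) (hinj : Function.Injective v) :
    (∀ j, {x | x ∈ F ∧ f x = v j} = MulAction.orbit (MulAction.stabilizer Cfsg.M24 Y) (X j)) ∧
    ∀ x x', x ∈ F → x' ∈ F → f x = f x' → ∃ g ∈ Cfsg.M24, g • Y = Y ∧ g • x = x' := by
  have hval : ∀ j, ∀ x ∈ MulAction.orbit (MulAction.stabilizer Cfsg.M24 Y) (X j), f x = v j := by
    rintro j x ⟨g, rfl⟩
    rw [← hv j]
    exact hf g.1.1 g.2 _
  constructor
  · intro j
    ext x
    constructor
    · rintro ⟨hx, hfx⟩
      rw [h3] at hx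
      obtain ⟨i, hi⟩ := Set.mem_iUnion.1 hx
      have : i = j := hinj ((hval i x hi).symm.trans hfx)
      rw [← this]; exact hi
    · intro hx
      exact ⟨by rw [h3]; exact Set.mem_iUnion.2 ⟨j, hx⟩, hval j x hx⟩
  · intro x x' hx hx' hxx
    rw [h3] at hx hx'
    obtain ⟨i, hi⟩ := Set.mem_iUnion.1 hx
    obtain ⟨i', hi'⟩ := Set.mem_iUnion.1 hx'
    have : i = i' := hinj ((hval i x hi).symm.trans (hxx.trans (hval i' x' hi')))
    subst this
    have h4 : x' ∈ MulAction.orbit (MulAction.stabilizer Cfsg.M24 Y) x := by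
      rw [MulAction.orbit_eq_iff.2 hi]; exact hi'
    obtain ⟨g, rfl⟩ := h4
    exact ⟨g.1.1, g.1.2, g.2, rfl⟩


/-- Let Y be a set of 3 of the 24 points. The sextets of the length-24 code whose tetrads meeting Y number 1, 2 or 3 are respectively 21, 630 and 1120 in number, and two sextets with the same number of tetrads meeting Y are conjugate under the setwise stabiliser of Y in the code's group. -/
theorem result (Y : Finset Cfsg.GolayPt) (hY : Y.card = 3) : {S : Finset (Finset Cfsg.GolayPt) | S ∈ Cfsg.sextets ∧ (S.filter fun t => (t ∩ Y).Nonempty).card = 1}.ncard = 21 ∧ {S : Finset (Finset Cfsg.GolayPt) | S ∈ Cfsg.sextets ∧ (S.filter fun t => (t ∩ Y).Nonempty).card = 2}.ncard = 630 ∧ {S : Finset (Finset Cfsg.GolayPt) | S ∈ Cfsg.sextets ∧ (S.filter fun t => (t ∩ Y).Nonempty).card = 3}.ncard = 1120 ∧ ∀ S S' : Finset (Finset Cfsg.GolayPt), S ∈ Cfsg.sextets → S' ∈ Cfsg.sextets → (S.filter fun t => (t ∩ Y).Nonempty).card = (S'.filter fun t => (t ∩ Y).Nonempty).card → ∃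 g ∈ Cfsg.M24, g • Y = Y ∧ g • S = S' := by
  open Cfsg.Agent.Lib.Helper3 in
  have hc7 : (unmask 7).card = 3 := by
    rw [card_eq_pc, mask_unmask (by norm_num)]; decide +kernel
  have hN : Nat.card (MulAction.stabilizer Cfsg.M24 (unmask 7)) = 120960 := card_stab_three hc7
  have hSt : ∀ σ ∈ StabM [7], σ ∈ Cfsg.M24 ∧ σ • unmask 7 = unmask 7 := fun σ hσ => StabM_one hσ
  obtain ⟨b1, b2, b3, _⟩ := sextet_orbits (unmask 7) ![21, 630, 1120] 120960 (gensIn_of_chk gensY3)
    hSt chkY3sx hN (by decide)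
  obtain ⟨u, hu, huo⟩ := set_to_base Y hY (by norm_num) (m := 7) rfl
  obtain ⟨d1, d2, d3⟩ := orbits_transfer (Cfsg.M24.inv_mem hu) (unmask 7) Cfsg.sextets
    (fun g hg x hx => smul_mem_sextets hg hx) _ _ b1 b2 b3
  have hYe : u⁻¹ • unmask 7 = Y := by rw [← huo, inv_smul_smul]
  rw [hYe] at d2 d3
  obtain ⟨e1, e2⟩ := fibres Y Cfsg.sextets _
    (fun S => (S.filter fun t => (t ∩ Y).Nonempty).card) ![1, 2, 3] d3
    (fun g hg x => by
      have := meet_smul g x Y
      rw [hg] at this
      exact this)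
    (fun j => by
      have := meet_smul u⁻¹ (sxt (lk12 0xf01e1a1 j)) (unmask 7)
      rw [hYe] at this
      refine this.trans ?_
      fin_cases j
      · exact meet_count _ _ (by decide +kernel) (by decide +kernel) (by decide +kernel)
      · exact meet_count _ _ (by decide +kernel) (by decide +kernel) (by decide +kernel)
      · exact meet_count _ _ (by decide +kernel) (by decide +kernel) (by decide +kernel))
    (by decide)
  refine ⟨?_, ?_, ?_, e2⟩
  · exact (congrArg Set.ncard (e1 0)).trans (d2 0)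
  · exact (congrArg Set.ncard (e1 1)).trans (d2 1)
  · exact (congrArg Set.ncard (e1 2)).trans (d2 2)

end Cfsg.Agent.S5616
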