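import Mathlib
import Cfsg.Statements.S5617
import Cfsg.Agent.Lib.Helper3.DataDP
import Cfsg.Agent.Lib.Helper3.Unpack

set_option autoImplicit false
open scoped Pointwise
open Cfsg

namespace Cfsg.Agent.S5617

/-- The setwise stabiliser, in the group of the length-24 code, of a complementary pair of dodecads has exactly three orbits on the 1771 sextets, of sizes 396, 495 and 880. -/
theorem result (d : Finset Cfsg.GolayPt) (hd : d ∈ Cfsg.dodecads) : ∃ X₁ ∈ Cfsg.sextets, ∃ X₂ ∈ Cfsg.sextets, ∃ X₃ ∈ Cfsg.sextets, (MulAction.orbit ↥(MulAction.stabilizer Cfsg.M24 ({d, Finset.univ \ d} : Finset (Finset Cfsg.GolayPt))) X₁).ncard = 396 ∧ (MulAction.orbit ↥(MulAction.stabilizer Cfsg.M24 ({d, Finset.univ \ d} : Finset (Finset Cfsg.GolayPt))) X₂).ncard = 495 ∧ (MulAction.orbit ↥(MulAction.stabilizer Cfsg.M24 ({d, Finset.univ \ d} : Finset (Finset Cfsg.GolayPt))) X₃).ncard = 880 ∧ Cfsg.sextets = MulAction.orbit ↥(MulAction.stabilizer Cfsg.M24 ({d, Finset.univ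 \ d} : Finset (Finset Cfsg.GolayPt))) X₁ ∪ MulAction.orbit ↥(MulAction.stabilizer Cfsg.M24 ({d, Finset.univ \ d} : Finset (Finset Cfsg.GolayPt))) X₂ ∪ MulAction.orbit ↥(MulAction.stabilizer Cfsg.M24 ({d, Finset.univ \ d} : Finset (Finset Cfsg.GolayPt))) X₃ := by
  open Cfsg.Agent.Lib.Helper3 in
  have hfam : famOf [0x5335f, 0xfacca0] = cpair D0 := by
    have h1 : unmask (0xfacca0) = D0ᶜ := by
      apply mask_injective
      rw [mask_compl, D0, mask_unmask (by norm_num), mask_unmask (by norm_num)]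
      decide
    simp only [famOf, List.map_cons, List.map_nil, List.toFinset_cons, List.toFinset_nil, h1]
    rfl
  have hN : Nat.card (MulAction.stabilizer Cfsg.M24 (cpair D0)) = 190080 := by
    have h := card_stab_mul_orbit (cpair D0)
    rw [orbit_cpair D0_mem, Set.InjOn.ncard_image (cpair_injOn.mono (fun x hx => hx.2)), ncard_dodP] at h
    omega
  obtain ⟨b1, b2, b3, _⟩ := sextet_orbits (cpair D0) ![396, 495, 880] 190080 (gensIn_of_chkF gensDP)
    (fun σ hσ => ⟨hσ.1, by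
      have h2 : σ • famOf [0x5335f, 0xfacca0] = famOf [0x5335f, 0xfacca0] := hσ.2
      rwa [hfam] at h2⟩)
    chkDPsx hN (by decide)
  obtain ⟨u, hu, hud⟩ := dodecad_to_D0 hd
  obtain ⟨c1, c2, c3⟩ := orbits_transfer (Cfsg.M24.inv_mem hu) (cpair D0) Cfsg.sextets
    (fun g hg x hx => smul_mem_sextets hg hx) _ _ b1 b2 b3
  have hY : u⁻¹ • cpair D0 = ({d, Finset.univ \ d} : Finset (Finset Cfsg.GolayPt)) := by
    rw [smul_cpair, ← hud, inv_smul_smul, cpair, Finset.compl_eq_univ_sdiff]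
  rw [hY] at c2 c3
  exact ⟨_, c1 0, _, c1 1, _, c1 2, c2 0, c2 1, c2 2, unpack3 c3⟩

end Cfsg.Agent.S5617
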