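import Cfsg.Statements.S5618
import Cfsg.Agent.Lib.Helper28.M12Fix
open Cfsg.Agent.Lib.Helper28 Cfsg.Agent.Lib.Helper3 Cfsg.Agent.Lib.Helper11
open scoped Pointwise

set_option autoImplicit false
open scoped Pointwise
open Cfsg

namespace Cfsg.Agent.S5618

/-- For a dodecad d of the length-24 code and a hexad C on it (a 6-point intersection of d with an octad): the joint stabiliser of d and C in the code's group is isomorphic to the symmetric group of degree 6, and it acts faithfully both on the six points of C and on the six points of d outside C. -/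
theorem result (d : Finset Cfsg.GolayPt) (hd : d ∈ Cfsg.dodecads) (C : Finset Cfsg.GolayPt) (hC : C ∈ Cfsg.hexadsOn d) : Nonempty (↥(MulAction.stabilizer Cfsg.M24 d ⊓ MulAction.stabilizer Cfsg.M24 C) ≃* Equiv.Perm (Fin 6)) ∧ (∀ g ∈ MulAction.stabilizer Cfsg.M24 d ⊓ MulAction.stabilizer Cfsg.M24 C, (∀ p ∈ C, ((g : ↥Cfsg.M24) : Equiv.Perm Cfsg.GolayPt) p = p) → g = 1) ∧ ∀ g ∈ MulAction.stabilizer Cfsg.M24 d ⊓ MulAction.stabilizer Cfsg.M24 C, (∀ p ∈ d \ C, ((g : ↥Cfsg.M24) : Equiv.Perm Cfsg.GolayPt) p = p) → g = 1 := by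
  classical
  obtain ⟨hC6, o, ho, hoC⟩ := hC
  have hCd : C ⊆ d := by rw [← hoC]; exact Finset.inter_subset_right
  have hCo : C ⊆ o := by rw [← hoC]; exact Finset.inter_subset_left
  have hd12 : d.card = 12 := hd.2
  have key : ∀ g ∈ MulAction.stabilizer Cfsg.M24 d ⊓ MulAction.stabilizer Cfsg.M24 C,
      ∀ s : Finset Cfsg.GolayPt, 5 ≤ s.card → s ⊆ d →
      (∀ p ∈ s, ((g : ↥Cfsg.M24) : Equiv.Perm Cfsg.GolayPt) p = p) → g = 1 := by
    intro g hg s hs hsd hfix
    apply Subtype.ext
    exact eq_one_of_fix5 hd g.2 (Subgroup.mem_inf.1 hg).1 hs hsd hfix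
  have h2 : ∀ g ∈ MulAction.stabilizer Cfsg.M24 d ⊓ MulAction.stabilizer Cfsg.M24 C,
      (∀ p ∈ C, ((g : ↥Cfsg.M24) : Equiv.Perm Cfsg.GolayPt) p = p) → g = 1 :=
    fun g hg hfix => key g hg C (by rw [hC6]; norm_num) hCd hfix
  refine ⟨?_, h2, ?_⟩
  · set φ : ↥(MulAction.stabilizer Cfsg.M24 d ⊓ MulAction.stabilizer Cfsg.M24 C) →* Equiv.Perm ↥C :=
      (resHom C).comp (Subgroup.inclusion inf_le_right) with hφ
    have hinj : Function.Injective φ := by
      rw [injective_iff_map_eq_one]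
      intro g hg1
      apply Subtype.ext
      apply h2 g.1 g.2
      intro p hp
      have := congrArg (fun σ : Equiv.Perm ↥C => ((σ ⟨p, hp⟩ : ↥C) : Cfsg.GolayPt)) hg1
      exact this
    have hsurj : Function.Surjective φ := by
      intro σ
      obtain ⟨p0, hp0⟩ : C.Nonempty := by rw [← Finset.card_pos]; omega
      have hA : (C.erase p0).card = 5 := by rw [Finset.card_erase_of_mem hp0, hC6]
      have hAC : C.erase p0 ⊆ C := Finset.erase_subset _ _
      let f : Cfsg.GolayPt → Cfsg.GolayPt := fun a => if h : a ∈ C then (σ ⟨a, h⟩ : Cfsg.GolayPt) else a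
      have hfC : ∀ a (h : a ∈ C), f a = σ ⟨a, h⟩ := fun a h => by simp [f, h]
      obtain ⟨g, hg, hgd, hga⟩ := exists_M12_agree hd hA (hAC.trans hCd) f (by
        intro a ha b hb hab
        have ha' := hAC ha
        have hb' := hAC hb
        rw [hfC a ha', hfC b hb'] at hab
        have := σ.injective (Subtype.ext hab)
        exact congrArg Subtype.val this) (by
        intro a ha
        rw [hfC a (hAC ha)]
        exact hCd (σ ⟨a, hAC ha⟩).2)
      have hgo : g • o = o := by
        apply octad_unique (s := g • C.erase p0) (smul_mem_octads hg ho) ho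
        · rw [Finset.card_smul_finset, hA]
        · exact Finset.smul_finset_subset_smul_finset (hAC.trans hCo)
        · intro q hq
          obtain ⟨a, ha, rfl⟩ := Finset.mem_smul_finset.1 hq
          show g a ∈ o
          rw [hga a ha, hfC a (hAC ha)]
          exact hCo (σ ⟨a, hAC ha⟩).2
      have hgC : g • C = C := by
        rw [← hoC, Finset.smul_finset_inter, hgo, hgd]
      refine ⟨⟨⟨g, hg⟩, Subgroup.mem_inf.2 ⟨hgd, hgC⟩⟩, ?_⟩
      set τ := φ ⟨⟨g, hg⟩, Subgroup.mem_inf.2 ⟨hgd, hgC⟩⟩ with hτ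
      have hτv : ∀ q : ↥C, ((τ q : ↥C) : Cfsg.GolayPt) = g q := fun q => rfl
      have hagree : ∀ q : ↥C, q ≠ ⟨p0, hp0⟩ → (σ⁻¹ * τ) q = q := by
        intro q hq
        show σ⁻¹ (τ q) = q
        rw [Equiv.Perm.inv_eq_iff_eq]
        apply Subtype.ext
        rw [hτv]
        have hqA : (q : Cfsg.GolayPt) ∈ C.erase p0 :=
          Finset.mem_erase.2 ⟨fun e => hq (Subtype.ext e), q.2⟩
        rw [hga _ hqA, hfC _ q.2]
      have hlast := perm_fix_last (σ⁻¹ * τ) ⟨p0, hp0⟩ hagree
      have hall : σ⁻¹ * τ = 1 := by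
        apply Equiv.ext
        intro q
        by_cases hq : q = ⟨p0, hp0⟩
        · rw [hq]; exact hlast
        · exact hagree q hq
      exact (inv_mul_eq_one.1 hall).symm
    exact ⟨(MulEquiv.ofBijective φ ⟨hinj, hsurj⟩).trans (C.equivFinOfCardEq hC6).permCongrHom⟩
  · intro g hg hfix
    refine key g hg (d \ C) ?_ Finset.sdiff_subset hfix
    rw [Finset.card_sdiff_of_subset hCd, hd12, hC6]
    norm_num

end Cfsg.Agent.S5618
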