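import Cfsg.Statements.S5619
import Cfsg.Agent.Lib.Helper3.M12Config
import Cfsg.Agent.Lib.Helper28.SchurM12
import Cfsg.Agent.Lib.Helper9.QuatRec

set_option autoImplicit false
open scoped Pointwise
open Cfsg

namespace Cfsg.Agent.S5619

open Cfsg.Agent.Lib.Helper3 Cfsg.Agent.Lib.Helper3.Syl Cfsg.Agent.Lib.Helper28.Schur
open Cfsg.Agent.Lib.Helper28.Schur.Cl
open scoped Pointwise

set_option maxRecDepth 100000

def aw : List ℕ := [2, 3, 4, 1, 3, 2, 0, 2, 1, 0, 0, 4, 0, 2, 2, 0, 2, 3, 2, 0, 0, 2, 3, 3, 3, 2, 0]
def bw : List ℕ := [0, 2, 2, 0, 4, 1, 3, 2, 1, 0, 4, 3, 4, 3, 4, 3, 3, 4, 4, 3, 3, 3, 4, 3, 2, 0, 0]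
def iw : List ℕ := [4, 0, 4, 4, 1, 3, 4, 3, 1, 0, 2, 0, 4, 4, 3, 4, 4, 0, 0, 4, 3, 3, 2, 3, 3, 4, 3, 4, 4, 0]
def jw : List ℕ := [0, 0, 2, 2, 1, 0, 1, 3, 2, 2, 3, 3, 3, 4, 0, 0, 0, 2, 3]
def tb_i : List (List ℕ) := [[1],  [0, 0]]
def tb_j : List (List ℕ) := [[0, 1, 1],  [0, 0, 1, 1]]
def tb_ii : List (List ℕ) := [[1, 1],  [0]]
def tb_ji : List (List ℕ) := [[0, 0, 1],  [0, 1]]
def gt : List ℕ := [487607080158395075740321133224921120,
  928952864966028496604741530750814240,
  891385682027558266148352467872712736,
  809399594410595785774724965859756064,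
  928718206277989008510816407558424608,
  487373122709212905255923294881187872,
  609744425604512129277147896769742880,
  648154481660236051385864952584734752]
def tabs : List ℕ := [984818244535754528103549039458486304,
  487607080158395075740321133224921120,
  928952864966028496604741530750814240,
  891385682027558266148352467872712736,
  809399594410595785774724965859756064,
  928718206277989008510816407558424608,
  487373122709212905255923294881187872,
  609744425604512129277147896769742880,
  648154481660236051385864952584734752,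
  984534996141977609297800625156032544,
  858502712789113075489201924125100064,
  232652365823391711183829569059784736,
  929000492124499343650182431580424224,
  849414919297944031155053626894092320,
  227468939079694360949178429167896608,
  607974513007959930786473204517505056,
  629863500390412654982178157189269536,
  487655643029606470073469406179395616,
  898742143189044893377746329054414880,
  796025918939784314627536738561984544,
  858988336336270505570052787752405024,
  944293816565412651426207388111472672,
  719748774308089385568610015441717280,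
  608460305594945736333983948957190176,
  438228640608320839931147656307705888,
  233054687951835244750033064009402400,
  809127892823755776035426641505355808,
  630264916018297267747726081680246816,
  808997782816701570676445371466909728,
  629994123837064240816195434993748000,
  984769902586367543974814854303385632,
  899189355044933402820830013086107680,
  796422664143520048046740322637776928,
  232783362388564428185213343297439776,
  849862808090484735685470734032308256,
  227866200190482962309748417481934880,
  796134455581813252778404696041064480,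
  648045425277649902928402440926824480,
  227578386318009578406903204956702752,
  648441755269428208718993426702993440,
  891440084380668137666183104591693856,
  609718671646466476278175549440296992,
  608405391266436187982588441666881568,
  486317894067777385906476470720956448,
  313063593285160742836699179059316768,
  303972014349329906305369256209090592,
  899214583888558003150069357295700000,
  970499966350631336865513127433832480,
  424698032726113400716592269113985056,
  858934107515357207598970770041374752,
  715461294005770680473893921775552544,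
  849887890532701421127722391426172960,
  486349973926430203268823274221996064,
  313626468097149398198142802389895200,
  890954976140709938678640932563453984,
  304382488815307602047787978285647904,
  970531819526550031117983620406741024,
  719923664328491199848526586197411872,
  425085878865583144827023905643726880,
  719360590536681843314903822610073632,
  313451266620471430272303061907212320,
  425260589770023667920228681599158304,
  715872302521680643580706198532491296,
  437673696385666828435562741295908896,
  304527279934878073638008567181674528,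
  438084364835391119001047119775926304,
  716016777081418520089506884598499360,
  486073779993727295785104656607348768,
  944569772236290697579231267829188640,
  970254902120350598020240965873371168,
  944538627742660781242037951888164896,
  609271311764373893382231684089481248]
def par : List (ℕ × ℕ) := [(0, 0), (0, 0), (0, 1), (0, 2), (0, 3), (0, 4), (0, 5), (0, 6), (0, 7), (1, 1), (1, 2), (1, 3), (1, 5), (1, 6), (1, 7), (2, 2), (2, 3), (2, 4), (2, 6), (2, 7), (3, 0), (3, 2), (3, 3), (3, 5), (3, 7), (4, 0), (4, 1), (4, 4), (4, 5), (5, 3), (5, 5), (5, 6), (5, 7), (6, 3), (6, 6), (6, 7), (8, 0), (8, 1), (8, 4), (8, 5), (9, 2), (9, 6), (10, 0), (10, 2), (10, 3), (10, 7), (12, 6), (15, 2), (15, 3), (15, 5), (15, 7), (17, 6), (20, 2), (20, 3), (20, 5), (20, 7), (21, 0), (22, 0), (22, 1), (22, 4), (22, 5), (23, 3), (23, 7), (24, 0), (24, 1), (24, 4), (24, 5), (25, 3), (26, 3), (27, 3), (28, 3), (30, 6)]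
def gt9 : List ℕ := [487607080158395075740321133224921120,
  928952864966028496604741530750814240,
  928718206277989008510816407558424608,
  487373122709212905255923294881187872]
def tabs9 : List ℕ := [984818244535754528103549039458486304,
  487607080158395075740321133224921120,
  928952864966028496604741530750814240,
  928718206277989008510816407558424608,
  487373122709212905255923294881187872,
  984534996141977609297800625156032544,
  929000492124499343650182431580424224,
  487655643029606470073469406179395616,
  984769902586367543974814854303385632]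
def par9 : List (ℕ × ℕ) := [(0, 0), (0, 0), (0, 1), (0, 2), (0, 3), (1, 1), (1, 3), (2, 2), (3, 3)]
def gt8 : List ℕ := [891385682027558266148352467872712736,
  809399594410595785774724965859756064,
  609744425604512129277147896769742880,
  648154481660236051385864952584734752]
def tabs8 : List ℕ := [984818244535754528103549039458486304,
  891385682027558266148352467872712736,
  809399594410595785774724965859756064,
  609744425604512129277147896769742880,
  648154481660236051385864952584734752,
  944293816565412651426207388111472672,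
  719748774308089385568610015441717280,
  438228640608320839931147656307705888]
def par8 : List (ℕ × ℕ) := [(0, 0), (0, 0), (0, 1), (0, 2), (0, 3), (1, 0), (1, 1), (1, 3)]

def vws : List (List ℕ) := [aw, bw]
def ws72 : List (List ℕ) := [aw, bw, iw, jw, winv aw, winv bw, winv iw, winv jw]
def ws9 : List (List ℕ) := [aw, bw, winv aw, winv bw]
def ws8 : List (List ℕ) := [iw, jw, winv iw, winv jw]

theorem card72 : Nat.card (SP ws72) = 72 := by
  rw [(isTab_of (gt := gt) (tabs := tabs) (par := par) (by decide +kernel) (by decide +kernel)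
    (by decide +kernel) (by decide +kernel) (by decide +kernel)).card]
  decide +kernel

theorem card9 : Nat.card (SP ws9) = 9 := by
  rw [(isTab_of (gt := gt9) (tabs := tabs9) (par := par9) (by decide +kernel) (by decide +kernel)
    (by decide +kernel) (by decide +kernel) (by decide +kernel)).card]
  decide +kernel

theorem card8 : Nat.card (SP ws8) = 8 := by
  rw [(isTab_of (gt := gt8) (tabs := tabs8) (par := par8) (by decide +kernel) (by decide +kernel)
    (by decide +kernel) (by decide +kernel) (by decide +kernel)).card]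
  decide +kernel

theorem memL3 {w : List ℕ} (h : inG [0, 1, 2] 340831 w = true) : wperm w ∈ L 3 := by
  obtain ⟨h1, h2, h3⟩ := inG_sound (by simp) h
  rw [mem_L]
  refine ⟨h1, ?_, (smul_D0_iff _).2 h3⟩
  intro j hj
  interval_cases j
  · exact h2 0 (by simp)
  · exact h2 1 (by simp)
  · exact h2 2 (by simp)

theorem SP72_eq : SP ws72 = L 3 := by
  apply Subgroup.eq_of_le_of_card_ge
  · apply SP_le
    intro w hw
    have : ws72.all (inG [0, 1, 2] 340831) = true := by decide +kernel
    exact memL3 (List.all_eq_true.1 this w hw)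
  · rw [card72, card_L_values.2.2.1]

/-- the normal subgroup of order nine -/
noncomputable def N9 : Subgroup (Equiv.Perm GolayPt) := clo (vws.map wperm)

theorem N9_eq : N9 = SP ws9 := by
  rw [N9, ws9, ← closure_pair_eq_SP]
  unfold clo
  congr 1
  ext x
  simp [vws]

theorem N9_comm : ∀ a ∈ vws.map wperm, ∀ b ∈ vws.map wperm, a * b = b * a :=
  chkComm_sound (by decide +kernel)

theorem N9_cube : ∀ x ∈ N9, x ^ 3 = 1 := by
  intro x hx
  induction hx using Subgroup.closure_induction with
  | mem a ha =>
    have ha' : a ∈ vws.map wperm := ha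
    simp only [vws, List.map_cons, List.map_nil, List.mem_cons, List.not_mem_nil, or_false] at ha'
    rcases ha' with rfl | rfl
    · rw [pow_succ, pow_two, ← wperm_append, ← wperm_append]
      exact wperm_eq_one (by decide +kernel)
    · rw [pow_succ, pow_two, ← wperm_append, ← wperm_append]
      exact wperm_eq_one (by decide +kernel)
  | one => exact one_pow 3
  | mul a b ha hb h1 h2 =>
    have : Commute a b := clo_comm N9_comm a ha b hb
    rw [this.mul_pow, h1, h2, one_mul]
  | inv a ha h => rw [inv_pow, h, inv_one]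

theorem N9_le : N9 ≤ L 3 := by
  rw [N9_eq, ← SP72_eq]
  apply SP_le
  intro w hw
  apply mem_SP
  simp only [ws9, List.mem_cons, List.not_mem_nil, or_false] at hw
  rcases hw with rfl | rfl | rfl | rfl <;> simp [ws72]

theorem L3_le_norm : L 3 ≤ Subgroup.normalizer (N9 : Set (Equiv.Perm GolayPt)) := by
  rw [← SP72_eq]
  have hN : N9 ≤ Subgroup.normalizer (N9 : Set (Equiv.Perm GolayPt)) := Subgroup.le_normalizer
  have hmem : ∀ w ∈ ws9, wperm w ∈ N9 := by
    intro w hw
    rw [N9_eq]; exact mem_SP hw
  have hc : ∀ (g : List ℕ) (tb : List (List ℕ)), chkConj g vws tb = true →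
      wperm g ∈ Subgroup.normalizer (N9 : Set (Equiv.Perm GolayPt)) := by
    intro g tb h
    exact mem_normalizer_of_conj _ _ (clo_conj _ _ (chkConj_sound h))
  apply SP_le
  intro w hw
  simp only [ws72, List.mem_cons, List.not_mem_nil, or_false] at hw
  rcases hw with rfl | rfl | rfl | rfl | rfl | rfl | rfl | rfl
  · exact hN (hmem _ (by simp [ws9]))
  · exact hN (hmem _ (by simp [ws9]))
  · exact hc _ tb_i (by decide +kernel)
  · exact hc _ tb_j (by decide +kernel)
  · exact hN (hmem _ (by simp [ws9]))
  · exact hN (hmem _ (by simp [ws9]))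
  · exact hc _ tb_ii (by decide +kernel)
  · exact hc _ tb_ji (by decide +kernel)

theorem Q8_le : SP ws8 ≤ L 3 := by
  rw [← SP72_eq]
  apply SP_le
  intro w hw
  apply mem_SP
  simp only [ws8, List.mem_cons, List.not_mem_nil, or_false] at hw
  rcases hw with rfl | rfl | rfl | rfl <;> simp [ws72]

theorem orderOf_iw : orderOf (wperm iw) = 4 := by
  have h4 : wperm iw ^ (2 ^ 2) = 1 := by
    rw [show (2 ^ 2 : ℕ) = 4 from rfl, pow4_word]
    exact wperm_eq_one (by decide +kernel)
  have h2 : ¬ wperm iw ^ (2 ^ 1) = 1 := by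
    rw [pow_one, pow_two, ← wperm_append]
    exact wperm_ne_one (by decide +kernel)
  have := orderOf_eq_prime_pow h2 h4
  simpa using this

theorem Q8_iso : Nonempty (SP ws8 ≃* QuaternionGroup 2) := by
  have hi : wperm iw ∈ SP ws8 := mem_SP (by simp [ws8])
  have hj : wperm jw ∈ SP ws8 := mem_SP (by simp [ws8])
  have hinv : wperm jw * wperm iw * (wperm jw)⁻¹ = (wperm iw)⁻¹ := by
    rw [conj_word, ← wperm_winv]
    exact wperm_eq (by decide +kernel)
  apply Cfsg.Agent.Lib.Helper9.nonempty_mulEquiv_quaternion 2 (⟨wperm iw, hi⟩ : SP ws8)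
    (⟨wperm jw, hj⟩ : SP ws8)
  · rw [Subgroup.orderOf_mk, orderOf_iw]
  · intro h
    obtain ⟨k, hk⟩ := Subgroup.mem_zpowers_iff.1 h
    have hk' : wperm iw ^ k = wperm jw := by
      have := congrArg Subtype.val hk
      simpa using this
    have hcomm : Commute (wperm jw) (wperm iw) := by
      rw [← hk']
      exact (Commute.refl (wperm iw)).zpow_left k
    rw [hcomm.eq, mul_inv_cancel_right] at hinv
    have h2 : wperm iw ^ 2 = 1 := by
      rw [pow_two]
      nth_rewrite 1 [hinv]
      exact inv_mul_cancel _
    have := orderOf_dvd_of_pow_eq_one h2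
    rw [orderOf_iw] at this
    revert this; norm_num
  · apply Subtype.ext
    show wperm jw * wperm jw = wperm iw ^ 2
    rw [pow_two, ← wperm_append, ← wperm_append]
    exact wperm_eq (by decide +kernel)
  · apply Subtype.ext
    exact hinv
  · rw [card8]

section abstract

theorem abs72 {G : Type*} [Group G] [Finite G] (hcard : Nat.card G = 72) (N : Subgroup G)
    (hNn : N.Normal) (hN : Nat.card N = 9) (hN3 : ∀ x ∈ N, x ^ 3 = 1) (P0 : Subgroup G)
    (hP0 : Nat.card P0 = 8) (e : Nonempty (P0 ≃* QuaternionGroup 2)) :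
    (∀ Q : Sylow 3 G, (Q : Subgroup G).Normal ∧ Nat.card Q = 9 ∧
      ∀ x ∈ (Q : Subgroup G), x ^ 3 = 1) ∧
    ∀ P : Sylow 2 G, Nonempty (P ≃* QuaternionGroup 2) := by
  have : Fact (Nat.Prime 3) := ⟨Nat.prime_three⟩
  have : Fact (Nat.Prime 2) := ⟨Nat.prime_two⟩
  have f3 : (72 : ℕ).factorization 3 = 2 := by decide +kernel
  have f2 : (72 : ℕ).factorization 2 = 3 := by decide +kernel
  constructor
  · intro Q
    let N' : Sylow 3 G := Sylow.ofCard N (by rw [hN, hcard, f3]; rfl)
    have hN' : (N' : Subgroup G) = N := rfl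
    have hu := Sylow.unique_of_normal N' (by rw [hN']; exact hNn)
    have hQ : Q = N' := Subsingleton.elim _ _
    rw [hQ, hN']
    exact ⟨hNn, hN, hN3⟩
  · intro P
    let P' : Sylow 2 G := Sylow.ofCard P0 (by rw [hP0, hcard, f2]; rfl)
    obtain ⟨g, hg⟩ := MulAction.exists_smul_eq G P' P
    obtain ⟨e⟩ := e
    rw [← hg]
    exact ⟨(Sylow.equivSMul P' g).symm.trans e⟩

theorem pull {A X : Type*} [Group A] [Group X] (f : A →* X) (hf : Function.Injective f)
    (M : Subgroup X) (hM : M ≤ f.range) : Nonempty (M.comap f ≃* M) := by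
  refine ⟨MulEquiv.ofBijective (f.subgroupComap M) ⟨?_, ?_⟩⟩
  · intro a b hab
    have : f a.1 = f b.1 := congrArg Subtype.val hab
    exact Subtype.ext (hf this)
  · rintro ⟨m, hm⟩
    obtain ⟨a, rfl⟩ := hM hm
    exact ⟨⟨a, hm⟩, rfl⟩

theorem main {A : Type*} [Group A] [Finite A] (f : A →* Equiv.Perm GolayPt)
    (hf : Function.Injective f) (hr : f.range = L 3) :
    (∀ Q : Sylow 3 A, (Q : Subgroup A).Normal ∧ Nat.card Q = 9 ∧
      ∀ x ∈ (Q : Subgroup A), x ^ 3 = 1) ∧
    ∀ P : Sylow 2 A, Nonempty (P ≃* QuaternionGroup 2) := by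
  obtain ⟨e9⟩ := pull f hf N9 (by rw [hr]; exact N9_le)
  obtain ⟨e8⟩ := pull f hf (SP ws8) (by rw [hr]; exact Q8_le)
  obtain ⟨q8⟩ := Q8_iso
  apply abs72 _ (N9.comap f) _ _ _ ((SP ws8).comap f) _ ⟨e8.trans q8⟩
  · rw [← card_L_values.2.2.1, ← hr]
    exact Nat.card_congr (MonoidHom.ofInjective hf).toEquiv
  · constructor
    intro n hn a
    show f (a * n * a⁻¹) ∈ N9
    rw [map_mul, map_mul, map_inv]
    have ha : f a ∈ L 3 := by rw [← hr]; exact ⟨a, rfl⟩
    exact Subgroup.le_normalizer_iff.1 L3_le_norm _ ha _ hn
  · rw [Nat.card_congr e9.toEquiv, N9_eq, card9]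
  · intro x hx
    apply hf
    rw [map_pow, map_one]
    exact N9_cube _ hx
  · rw [Nat.card_congr e8.toEquiv, card8]

end abstract


/-- In the group of the length-24 code, the subgroup fixing a dodecad setwise and three of its points individually (a group of order 72) has a normal Sylow 3-subgroup that is elementary abelian of order 9, and its Sylow 2-subgroups are quaternion of order 8. -/
theorem result (d : Finset Cfsg.GolayPt) (hd : d ∈ Cfsg.dodecads) (p q r : Cfsg.GolayPt) (hp : p ∈ d) (hq : q ∈ d) (hr : r ∈ d) (hpq : p ≠ q) (hpr : p ≠ r) (hqr : q ≠ r) : (∀ Q : Sylow 3 ↥(MulAction.stabilizer Cfsg.M24 d ⊓ MulAction.stabilizer Cfsg.M24 p ⊓ MulAction.stabilizer Cfsg.M24 q ⊓ MulAction.stabilizer Cfsg.M24 r), (Q : Subgroup ↥(MulAction.stabilizer Cfsg.M24 d ⊓ MulAction.stabilizer Cfsg.M24 p ⊓ MulAction.stabilizer Cfsg.M24 q ⊓ MulAction.stabilizer Cfsg.M24 r)).Normal ∧ Nat.card ↥Q = 9 ∧ ∀ x ∈ (Q : Subgroup ↥(MulAction.stabilizer Cfsg.M24 d ⊓ MulAction.stabilizer Cfsg.M24 p ⊓ MulAction.stabilizer Cfsg.M24 q ⊓ MulAction.stabilizer Cfsg.M24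 r)), x ^ 3 = 1) ∧ ∀ P : Sylow 2 ↥(MulAction.stabilizer Cfsg.M24 d ⊓ MulAction.stabilizer Cfsg.M24 p ⊓ MulAction.stabilizer Cfsg.M24 q ⊓ MulAction.stabilizer Cfsg.M24 r), Nonempty (↥P ≃* QuaternionGroup 2) := by
  open Cfsg.Agent.Lib.Helper3 in
  obtain ⟨u, hu, hud, hl⟩ := dodecad_to_D0_list hd [p, q, r] (by simp [hpq, hpr, hqr])
    (by simp [hp, hq, hr]) (by simp)
  have hup : u • p = pt 0 := hl 0 (by simp)
  have huq : u • q = pt 1 := hl 1 (by simp)
  have hur : u • r = pt 2 := hl 2 (by simp)
  have key : ∀ g : Equiv.Perm Cfsg.GolayPt, (∃ hg : g ∈ Cfsg.M24, (⟨g, hg⟩ : ↥Cfsg.M24) ∈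
      (MulAction.stabilizer Cfsg.M24 d ⊓ MulAction.stabilizer Cfsg.M24 p ⊓
        MulAction.stabilizer Cfsg.M24 q ⊓ MulAction.stabilizer Cfsg.M24 r)) ↔
      u * g * u⁻¹ ∈ L 3 := by
    intro g
    rw [mem_L, conj_mem_M24_iff hu, conj_smul_iff hud]
    have hF : Fixes 3 (u * g * u⁻¹) ↔ (g • p = p ∧ g • q = q ∧ g • r = r) := by
      rw [← conj_smul_iff (g := g) hup, ← conj_smul_iff (g := g) huq, ← conj_smul_iff (g := g) hur]
      constructor
      · intro h
        exact ⟨h 0 (by norm_num), h 1 (by norm_num), h 2 (by norm_num)⟩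
      · rintro ⟨h0, h1, h2⟩ j hj
        interval_cases j
        · exact h0
        · exact h1
        · exact h2
    rw [hF]
    constructor
    · rintro ⟨hg, ⟨⟨h1, h2⟩, h3⟩, h4⟩
      exact ⟨hg, ⟨h2, h3, h4⟩, h1⟩
    · rintro ⟨hg, ⟨h2, h3, h4⟩, h1⟩
      exact ⟨hg, ⟨⟨h1, h2⟩, h3⟩, h4⟩
  apply main (((MulAut.conj u).toMonoidHom.comp Cfsg.M24.subtype).comp
    (MulAction.stabilizer Cfsg.M24 d ⊓ MulAction.stabilizer Cfsg.M24 p ⊓
        MulAction.stabilizer Cfsg.M24 q ⊓ MulAction.stabilizer Cfsg.M24 r).subtype)
  · intro a b hab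
    have h1 : u * a.1.1 * u⁻¹ = u * b.1.1 * u⁻¹ := hab
    exact Subtype.ext (Subtype.ext (mul_left_cancel (mul_right_cancel h1)))
  · ext x
    constructor
    · rintro ⟨a, rfl⟩
      exact (key a.1.1).1 ⟨a.1.2, a.2⟩
    · intro hx
      have h1 : u * (u⁻¹ * x * u) * u⁻¹ ∈ L 3 := by
        have : u * (u⁻¹ * x * u) * u⁻¹ = x := by group
        rw [this]; exact hx
      obtain ⟨hg, hA⟩ := (key _).2 h1
      refine ⟨⟨⟨_, hg⟩, hA⟩, ?_⟩
      show u * (u⁻¹ * x * u) * u⁻¹ = x
      group

end Cfsg.Agent.S5619
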