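import Cfsg.Statements.S5620
import Cfsg.Agent.Lib.Helper3.M24Trans
import Cfsg.Agent.Lib.Helper11.DodPair
open Cfsg.Agent.Lib.Helper3 Cfsg.Agent.Lib.Helper11
open scoped Pointwise

set_option autoImplicit false
open scoped Pointwise
open Cfsg

namespace Cfsg.Agent.S5620

theorem sq_eq_D0 : Cfsg.Spor.squareDodecad = D0 := by
  have h : mask Cfsg.Spor.squareDodecad = 0x5335f := by
    rw [Cfsg.Spor.squareDodecad, mask_support₂]
    decide +kernel
  rw [← unmask_mask Cfsg.Spor.squareDodecad, h]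
  rfl

def w0 : List ℕ := [1, 2, 0, 2, 0, 4, 3, 3, 2, 3, 1]

theorem w0_chk : wact w0 0 = 0 ∧ pm (wact (winv w0)) 0x5335f = 0x5335f ∧
    ∀ i < 24, (0x5335f : ℕ).testBit i = false → wact w0 i ≠ i := by decide +kernel

theorem g_chk : pm (wact (winv [1])) 0x5335f = 0x5335f ^^^ 0xFFFFFF := by decide +kernel

theorem mem_M11 (x : Equiv.Perm Cfsg.GolayPt) :
    x ∈ Cfsg.Spor.M11 ↔ x ∈ Cfsg.M24 ∧ x • D0 = D0 ∧ x (some 0) = some 0 := by
  simp only [Cfsg.Spor.M11, Cfsg.Spor.M12, Subgroup.mem_inf, MulAction.mem_stabilizer_iff, and_assoc,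
    sq_eq_D0]
  rfl

theorem mem_M11' (x : Equiv.Perm Cfsg.GolayPt) :
    x ∈ Cfsg.Spor.M12 ⊓ MulAction.stabilizer (Equiv.Perm Cfsg.GolayPt) (none : Cfsg.GolayPt) ↔
      x ∈ Cfsg.M24 ∧ x • D0 = D0 ∧ x none = none := by
  simp only [Cfsg.Spor.M12, Subgroup.mem_inf, MulAction.mem_stabilizer_iff, and_assoc, sq_eq_D0]
  rfl

theorem mem_conj_smul {G : Type*} [Group G] (g x : G) (H : Subgroup G) :
    x ∈ MulAut.conj g • H ↔ g⁻¹ * x * g ∈ H := by
  rw [Subgroup.mem_pointwise_smul_iff_inv_smul_mem]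
  simp [MulAut.smul_def]


/-- Inside the stabiliser of the dodecad of squares (a Mathieu group of degree 12), the stabiliser of the residue 0 (a point of the dodecad) and the stabiliser of the extra point (a point outside the dodecad) are isomorphic but not conjugate; conjugation by a suitable element of the code's group that maps the dodecad of squares onto its complement carries the first onto the second. -/
theorem result : Nonempty (↥(Cfsg.Spor.M12 ⊓ MulAction.stabilizer (Equiv.Perm Cfsg.GolayPt) (none : Cfsg.GolayPt)) ≃* ↥Cfsg.Spor.M11) ∧ (¬ ∃ k ∈ Cfsg.Spor.M12, MulAut.conj k • Cfsg.Spor.M11 = Cfsg.Spor.M12 ⊓ MulAction.stabilizer (Equiv.Perm Cfsg.GolayPt) (none : Cfsg.GolayPt)) ∧ ∃ g ∈ Cfsg.M24, g • Cfsg.Spor.squareDodecad = Finset.univ \ Cfsg.Spor.squareDodecad ∧ MulAut.conj g • Cfsg.Spor.M11 = Cfsg.Spor.M12 ⊓ MulAction.stabilizer (Equiv.Perm Cfsg.GolayPt) (none : Cfsg.GolayPt) := by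
  set g : Equiv.Perm Cfsg.GolayPt := wperm [1] with hgdef
  have hgM : g ∈ Cfsg.M24 := wperm_mem _
  have hg0 : g (some 0) = none := by
    apply idx_injective
    rw [hgdef, idx_wperm]
    decide +kernel
  have hgD : g • D0 = D0ᶜ := by
    apply mask_injective
    rw [hgdef, mask_wperm_smul, mask_compl, D0, mask_unmask (by norm_num)]
    exact g_chk
  have hgDc : g • D0ᶜ = D0 := by
    rw [smul_compl, hgD, compl_compl]
  have hcompl : ∀ x : Equiv.Perm Cfsg.GolayPt, x • D0ᶜ = D0ᶜ ↔ x • D0 = D0 := by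
    intro x
    rw [smul_compl, compl_inj_iff]
  have h3 : MulAut.conj g • Cfsg.Spor.M11 =
      Cfsg.Spor.M12 ⊓ MulAction.stabilizer (Equiv.Perm Cfsg.GolayPt) (none : Cfsg.GolayPt) := by
    ext x
    rw [mem_conj_smul, mem_M11, mem_M11']
    constructor
    · rintro ⟨a1, a2, a3⟩
      refine ⟨?_, ?_, ?_⟩
      · have : x = g * (g⁻¹ * x * g) * g⁻¹ := by group
        rw [this]
        exact Cfsg.M24.mul_mem (Cfsg.M24.mul_mem hgM a1) (Cfsg.M24.inv_mem hgM)
      · rw [← hcompl, ← hgD]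
        rw [mul_smul, mul_smul, inv_smul_eq_iff] at a2
        exact a2
      · have a4 : g⁻¹ (x (g (some 0))) = some 0 := a3
        rw [Equiv.Perm.inv_eq_iff_eq, hg0] at a4
        exact a4
    · rintro ⟨a1, a2, a3⟩
      refine ⟨Cfsg.M24.mul_mem (Cfsg.M24.mul_mem (Cfsg.M24.inv_mem hgM) a1) hgM, ?_, ?_⟩
      · rw [mul_smul, mul_smul, inv_smul_eq_iff, hgD]
        exact (hcompl x).2 a2
      · show g⁻¹ (x (g (some 0))) = some 0
        rw [Equiv.Perm.inv_eq_iff_eq, hg0]
        exact a3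
  refine ⟨?_, ?_, g, hgM, ?_, h3⟩
  · exact ⟨((Subgroup.equivSMul (MulAut.conj g) Cfsg.Spor.M11).trans (MulEquiv.subgroupCongr h3)).symm⟩
  · rintro ⟨k, hk, hkeq⟩
    have hk' : k ∈ Cfsg.M24 ∧ k • D0 = D0 := by
      have := hk
      simp only [Cfsg.Spor.M12, Subgroup.mem_inf, MulAction.mem_stabilizer_iff, sq_eq_D0] at this
      exact this
    obtain ⟨c1, c2, c3⟩ := w0_chk
    have hw : wperm w0 ∈ Cfsg.Spor.M11 := by
      rw [mem_M11]
      refine ⟨wperm_mem _, ?_, ?_⟩
      · apply mask_injective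
        rw [mask_wperm_smul, D0, mask_unmask (by norm_num)]
        exact c2
      · apply idx_injective
        rw [idx_wperm]
        exact c1
    have h4 : k * wperm w0 * k⁻¹ ∈ MulAut.conj k • Cfsg.Spor.M11 := by
      rw [mem_conj_smul]
      have : k⁻¹ * (k * wperm w0 * k⁻¹) * k = wperm w0 := by group
      rw [this]; exact hw
    rw [hkeq, mem_M11'] at h4
    have h5 : k (wperm w0 (k⁻¹ none)) = none := h4.2.2
    have h6 : wperm w0 (k⁻¹ none) = k⁻¹ none := by
      rw [← Equiv.Perm.inv_eq_iff_eq.2 h5.symm]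
    have h7 : k⁻¹ none ∉ D0 := by
      intro hmem
      have h8 : k (k⁻¹ none) ∈ k • D0 := Finset.smul_mem_smul_finset hmem
      rw [hk'.2] at h8
      have h9 : k (k⁻¹ none) = none := by simp
      rw [h9, D0, mem_unmask] at h8
      revert h8
      decide
    rw [D0, mem_unmask, Bool.not_eq_true] at h7
    apply c3 _ (idx_lt _) h7
    rw [← idx_wperm, h6]
  · rw [sq_eq_D0, hgD]
    ext p
    simp

end Cfsg.Agent.S5620
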