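import Cfsg.Statements.S5624
import Cfsg.Agent.Lib.Helper28.AbsGolay2

set_option autoImplicit false
open Cfsg

namespace Cfsg.Agent.S5624

/-- Let C be a self-dual binary code of length 24 with minimum weight at least 8 (a 12-dimensional subspace of the 24-dimensional space over the field with two elements, any two of whose words have dot product zero, with no non-zero word of weight below 8 — an abstract extended binary Golay code). Then C is spanned, as a vector space over the field with two elements, by its words of weight 8. -/
theorem result (C : Submodule (ZMod 2) (Fin 24 → ZMod 2)) (hdim : Module.finrank (ZMod 2) C = 12) (horth : ∀ v ∈ C, ∀ w ∈ C, ∑ i, v i * w i = 0) (hmin : ∀ w ∈ C, w ≠ 0 → 8 ≤ hammingNorm w) : Submodule.span (ZMod 2) {w : Fin 24 → ZMod 2 | w ∈ C ∧ hammingNorm w = 8} = C := by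
  classical
  apply le_antisymm
  · rw [Submodule.span_le]
    intro w hw
    exact hw.1
  · have key : ∀ n : ℕ, ∀ c ∈ C, hammingNorm c ≤ n →
        c ∈ Submodule.span (ZMod 2) {w : Fin 24 → ZMod 2 | w ∈ C ∧ hammingNorm w = 8} := by
      intro n
      induction n with
      | zero =>
        intro c _ hn
        have : c = 0 := by
          rw [← hammingNorm_eq_zero]; omega
        rw [this]
        exact Submodule.zero_mem _
      | succ n ih =>
        intro c hc hn
        by_cases h0 : c = 0
        · rw [h0]; exact Submodule.zero_mem _
        · have h8 := hmin c hc h0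
          obtain ⟨s, hsc, hs⟩ := Finset.exists_subset_card_eq (s := Lib.Helper28.supp c) (n := 5)
            (by rw [← Lib.Helper28.hammingNorm_eq_card_supp]; omega)
          obtain ⟨o, ho, ho8, hso⟩ := Lib.Helper28.exists_octad hdim hmin s hs
          have h1 := Lib.Helper28.weight_sub c o
          have h2 : s.card ≤ (Lib.Helper28.supp c ∩ Lib.Helper28.supp o).card :=
            Finset.card_le_card (Finset.subset_inter hsc hso)
          have h3 := ih (c - o) (C.sub_mem hc ho) (by omega)
          have h4 : o ∈ Submodule.span (ZMod 2) {w : Fin 24 → ZMod 2 | w ∈ C ∧ hammingNorm w = 8} :=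
            Submodule.subset_span ⟨ho, ho8⟩
          have h5 := Submodule.add_mem _ h3 h4
          simpa using h5
    intro c hc
    exact key _ c hc le_rfl

end Cfsg.Agent.S5624
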