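import Cfsg.Statements.S5621
import Cfsg.Agent.Lib.Helper28.AbsGolay2
import Cfsg.Agent.S5624

set_option autoImplicit false
open Cfsg

namespace Cfsg.Agent.S5621

theorem dot_eq_card (x y : Fin 24 → ZMod 2) :
    ∑ i, x i * y i = ((Lib.Helper28.supp x ∩ Lib.Helper28.supp y).card : ZMod 2) := by
  classical
  have h : ∀ i, x i * y i = if i ∈ Lib.Helper28.supp x ∩ Lib.Helper28.supp y then 1 else 0 := by
    intro i
    simp only [Finset.mem_inter, Lib.Helper28.mem_supp]
    generalize x i = a
    generalize y i = b
    revert a b
    decide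
  rw [Finset.sum_congr rfl (fun i _ => h i), Finset.sum_boole]
  congr 2
  ext i
  simp

/-- Let C be a self-dual binary code of length 24 with minimum weight at least 8 (a 12-dimensional subspace of the 24-dimensional space over the field with two elements, any two of whose words have dot product zero, with no non-zero word of weight below 8 — an abstract extended binary Golay code). Then C is doubly even: every word of C has weight divisible by 4. -/
theorem result (C : Submodule (ZMod 2) (Fin 24 → ZMod 2)) (hdim : Module.finrank (ZMod 2) C = 12) (horth : ∀ v ∈ C, ∀ w ∈ C, ∑ i, v i * w i = 0) (hmin : ∀ w ∈ C, w ≠ 0 → 8 ≤ hammingNorm w) : ∀ w ∈ C, 4 ∣ hammingNorm w := by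
  classical
  have hspan := Cfsg.Agent.S5624.result C hdim horth hmin
  have key : ∀ w ∈ Submodule.span (ZMod 2) {w : Fin 24 → ZMod 2 | w ∈ C ∧ hammingNorm w = 8},
      w ∈ C ∧ 4 ∣ hammingNorm w := by
    intro w hw
    induction hw using Submodule.span_induction with
    | mem x hx => exact ⟨hx.1, by rw [hx.2]; norm_num⟩
    | zero => exact ⟨C.zero_mem, by simp⟩
    | add x y _ _ hx hy =>
      refine ⟨C.add_mem hx.1 hy.1, ?_⟩
      have h1 := Lib.Helper28.weight_add x y
      have h2 := horth x hx.1 y hy.1
      rw [dot_eq_card, ZMod.natCast_eq_zero_iff] at h2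
      obtain ⟨a, ha⟩ := hx.2
      obtain ⟨b, hb⟩ := hy.2
      obtain ⟨c, hc⟩ := h2
      omega
    | smul a x _ hx =>
      have ha : a = 0 ∨ a = 1 := by
        revert a; decide
      rcases ha with rfl | rfl
      · simp
      · simpa using hx
  intro w hw
  rw [← hspan] at hw
  exact (key w hw).2

end Cfsg.Agent.S5621
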