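import Cfsg.Statements.S5622
import Cfsg.Agent.Lib.Helper28.AbsGolay2

set_option autoImplicit false
open Cfsg

namespace Cfsg.Agent.S5622

/-- Let C be a self-dual binary code of length 24 with minimum weight at least 8 (a 12-dimensional subspace of the 24-dimensional space over the field with two elements, any two of whose words have dot product zero, with no non-zero word of weight below 8 — an abstract extended binary Golay code). Then the minimum weight of C is exactly 8, and the supports of the words of weight 8 (the octads) form a Steiner system S(5, 8, 24) on the 24 coordinates: every 5 coordinates lie in the support of exactly one word of weight 8. -/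
theorem result (C : Submodule (ZMod 2) (Fin 24 → ZMod 2)) (hdim : Module.finrank (ZMod 2) C = 12) (horth : ∀ v ∈ C, ∀ w ∈ C, ∑ i, v i * w i = 0) (hmin : ∀ w ∈ C, w ≠ 0 → 8 ≤ hammingNorm w) : (∃ w ∈ C, hammingNorm w = 8) ∧ Cfsg.IsSteinerSystem 5 8 (Cfsg.wordsOfWeight (C : Set (Fin 24 → ZMod 2)) 8) := by
  classical
  have hex : ∀ s : Finset (Fin 24), s.card = 5 → ∃ c ∈ C, hammingNorm c = 8 ∧ s ⊆ Lib.Helper28.supp c :=
    fun s hs => Lib.Helper28.exists_octad hdim hmin s hs
  refine ⟨?_, ?_, ?_⟩
  · obtain ⟨s, hs⟩ : ∃ s : Finset (Fin 24), s.card = 5 := by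
      obtain ⟨s, _, hs⟩ := Finset.exists_subset_card_eq (s := (Finset.univ : Finset (Fin 24))) (n := 5) (by simp)
      exact ⟨s, hs⟩
    obtain ⟨c, hc, h8, _⟩ := hex s hs
    exact ⟨c, hc, h8⟩
  · intro b hb
    exact hb.2
  · intro s hs
    obtain ⟨c, hc, h8, hsc⟩ := hex s hs
    refine ⟨Lib.Helper28.supp c, ⟨⟨⟨c, hc, rfl⟩, h8⟩, hsc⟩, ?_⟩
    rintro b ⟨⟨⟨c', hc', rfl⟩, h8'⟩, hsb⟩
    have : c = c' := Lib.Helper28.octad_unique hmin hc hc' h8 h8' (le_of_eq hs.symm) hsc hsb
    rw [this]
    rfl

end Cfsg.Agent.S5622
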