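import Cfsg.Statements.S5623
import Cfsg.Agent.Lib.Helper28.AbsGolay

set_option autoImplicit false
open Cfsg

namespace Cfsg.Agent.S5623

/-- Let C be a self-dual binary code of length 24 with minimum weight at least 8 (a 12-dimensional subspace of the 24-dimensional space over the field with two elements, any two of whose words have dot product zero, with no non-zero word of weight below 8 — an abstract extended binary Golay code). Then every coset w + C of C in the ambient space contains either exactly one word of weight at most 4, which then has weight at most 3, or exactly six words of weight at most 4, all of weight exactly 4 and with pairwise disjoint supports (a sextet). -/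
theorem result (C : Submodule (ZMod 2) (Fin 24 → ZMod 2)) (hdim : Module.finrank (ZMod 2) C = 12) (horth : ∀ v ∈ C, ∀ w ∈ C, ∑ i, v i * w i = 0) (hmin : ∀ w ∈ C, w ≠ 0 → 8 ≤ hammingNorm w) (w : Fin 24 → ZMod 2) : (∃ u : Fin 24 → ZMod 2, {u : Fin 24 → ZMod 2 | u - w ∈ C ∧ hammingNorm u ≤ 4} = {u} ∧ hammingNorm u ≤ 3) ∨ ({u : Fin 24 → ZMod 2 | u - w ∈ C ∧ hammingNorm u ≤ 4}.ncard = 6 ∧ ∀ u ∈ {u : Fin 24 → ZMod 2 | u - w ∈ C ∧ hammingNorm u ≤ 4}, hammingNorm u = 4 ∧ ∀ u' ∈ {u : Fin 24 → ZMod 2 | u - w ∈ C ∧ hammingNorm u ≤ 4}, u ≠ u' → Disjoint (Finset.univ.filter fun i => u i ≠ 0) (Finset.univ.filter fun i => u' i ≠ 0)) := by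
  classical
  have hL4 : ∀ v : Fin 24 → ZMod 2, v - w ∈ C → hammingNorm v ≤ 4 →
      (Finset.univ.filter fun u : Fin 24 → ZMod 2 => hammingNorm u = 4 ∧ u - w ∈ C).card = 6 →
      hammingNorm v = 4 := by
    intro v hvC hv4 h6
    have hne : (Finset.univ.filter fun u : Fin 24 → ZMod 2 => hammingNorm u = 4 ∧ u - w ∈ C).Nonempty := by
      rw [← Finset.card_pos]; omega
    obtain ⟨u0, hu0⟩ := hne
    simp only [Finset.mem_filter, Finset.mem_univ, true_and] at hu0
    by_cases hvu : v = u0
    · rw [hvu]; exact hu0.1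
    · have hvu' : v - u0 ∈ C := by
        have := C.sub_mem hvC hu0.2
        simpa using this
      exact (Lib.Helper28.same_coset hmin hv4 (by omega) hvu' hvu).1
  rcases Lib.Helper28.leaders C hdim hmin w with ⟨u, hu3, huC⟩ | h6
  · left
    refine ⟨u, ?_, hu3⟩
    ext v
    simp only [Set.mem_ofPred_eq, Set.mem_singleton_iff]
    constructor
    · rintro ⟨hvC, hv4⟩
      by_contra hne
      have hvu : v - u ∈ C := by
        have := C.sub_mem hvC huC
        simpa using this
      have := Lib.Helper28.same_coset hmin hv4 (by omega) hvu hne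
      omega
    · rintro rfl
      exact ⟨huC, by omega⟩
  · right
    have hset : {u : Fin 24 → ZMod 2 | u - w ∈ C ∧ hammingNorm u ≤ 4}
        = ((Finset.univ.filter fun u : Fin 24 → ZMod 2 => hammingNorm u = 4 ∧ u - w ∈ C : Finset (Fin 24 → ZMod 2)) : Set (Fin 24 → ZMod 2)) := by
      ext v
      simp only [Set.mem_ofPred_eq, Finset.coe_filter, Finset.mem_univ, true_and]
      constructor
      · rintro ⟨hvC, hv4⟩
        exact ⟨hL4 v hvC hv4 h6, hvC⟩
      · rintro ⟨hv4, hvC⟩
        exact ⟨hvC, by omega⟩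
    refine ⟨?_, ?_⟩
    · rw [hset, Set.ncard_coe_finset, h6]
    · rintro u ⟨huC, hu4⟩
      refine ⟨hL4 u huC hu4 h6, ?_⟩
      rintro u' ⟨hu'C, hu'4⟩ hne
      have huu' : u - u' ∈ C := by
        have := C.sub_mem huC hu'C
        simpa using this
      exact (Lib.Helper28.same_coset hmin hu4 hu'4 huu' hne).2.2

end Cfsg.Agent.S5623
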