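import Mathlib
import Cfsg.Statements.S5625
import Cfsg.Agent.Lib.Helper3.Steiner

set_option autoImplicit false
open Cfsg

namespace Cfsg.Agent.S5625

/-- In any Steiner system S(5, 8, 24) and for any set Y of three points, the blocks meeting Y in exactly 3, 2, 1 and 0 points number 21, 168, 360 and 210 respectively (so there are 759 blocks in all). -/
theorem result (α : Type*) [Fintype α] [DecidableEq α] (hα : Fintype.card α = 24) (B : Set (Finset α)) (hB : Cfsg.IsSteinerSystem 5 8 B) (Y : Finset α) (hY : Y.card = 3) : {b : Finset α | b ∈ B ∧ (b ∩ Y).card = 3}.ncard = 21 ∧ {b : Finset α | b ∈ B ∧ (b ∩ Y).card = 2}.ncard = 168 ∧ {b : Finset α | b ∈ B ∧ (b ∩ Y).card = 1}.ncard = 360 ∧ {b : Finset α | b ∈ B ∧ (b ∩ Y).card = 0}.ncard = 210 := by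
  classical
  have key : ∀ (j n : ℕ), j ≤ 3 →
      Cfsg.Agent.Lib.Helper3.Stn.Ld (Cfsg.Agent.Lib.Helper3.Stn.lamS 5 8 24) (3 - j) j = (n : ℤ) →
      {b : Finset α | b ∈ B ∧ (b ∩ Y).card = j}.ncard = Nat.choose 3 j * n := by
    intro j n hj e
    rw [Cfsg.Agent.Lib.Helper3.Stn.ncard_eq, ← hY]
    apply Cfsg.Agent.Lib.Helper3.Stn.card_meet_card
    intro J hJ hJc
    have h := Cfsg.Agent.Lib.Helper3.Stn.card_meet_small hB (by norm_num) (Y := Y) (by omega) hJ
    rw [hα, hY, hJc, e] at h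
    exact_mod_cast h
  refine ⟨?_, ?_, ?_, ?_⟩
  · exact key 3 21 (by norm_num) (by decide +kernel)
  · exact key 2 56 (by norm_num) (by decide +kernel)
  · exact key 1 120 (by norm_num) (by decide +kernel)
  · exact key 0 210 (by norm_num) (by decide +kernel)

end Cfsg.Agent.S5625
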