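import Cfsg.Statements.S5631
import Cfsg.Agent.Lib.Helper6.SLMax

set_option autoImplicit false
open Cfsg

namespace Cfsg.Agent.S5631

open Cfsg.Agent.Lib.Helper6 Matrix

/-- an element of `SL` not stabilising a proper non-zero subspace. -/
theorem exists_not_stab {F : Type*} [Field F] {ι : Type} [Fintype ι] [DecidableEq ι]
    (W : Submodule F (ι → F)) (hW0 : W ≠ ⊥) (hW1 : W ≠ ⊤) :
    ∃ g ∈ Cfsg.Geo.specialLinear ι F, g ∉ Cfsg.Geo.subspaceStabilizer W := by
  obtain ⟨u, hu, hu0⟩ := (Submodule.ne_bot_iff W).mp hW0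
  obtain ⟨x, hx⟩ : ∃ x, x ∉ W := by
    by_contra hcon
    push Not at hcon
    exact hW1 (eq_top_iff.mpr fun y _ => hcon y)
  obtain ⟨w, -, hw1⟩ := exists_row (⊥ : Submodule F (ι → F)) u (by simpa using hu0)
  have hx' : x - (w ⬝ᵥ x) • u ∉ W := by
    intro h
    apply hx
    have := W.add_mem h (W.smul_mem (w ⬝ᵥ x) hu)
    simpa using this
  have hw0 : w ⬝ᵥ (x - (w ⬝ᵥ x) • u) = 0 := by
    rw [dotProduct_sub, dotProduct_smul, hw1]; simp
  refine ⟨glT _ w hw0, glT_mem_SL _ _ _, ?_⟩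
  intro hmem
  have h1 := (mem_subspaceStabilizer_iff W _).mp hmem u hu
  rw [glT_mulVec, hw1, one_smul] at h1
  apply hx'
  have := W.sub_mem h1 hu
  simpa using this

/-- For a finite field F and n ≥ 13, the stabiliser in SL_n(F) of any proper non-zero subspace W of F^n is a maximal subgroup of SL_n(F). Here SL_n(F) is the kernel of the determinant inside GL_n(F) and the stabiliser is the set of elements of determinant one mapping W onto itself. -/
theorem result {F : Type*} [Field F] [Fintype F] (n : ℕ) (hn : 13 ≤ n) (W : Submodule F (Fin n → F)) (hW0 : W ≠ ⊥) (hW1 : W ≠ ⊤) : Cfsg.Geo.IsMaximalIn (Cfsg.Geo.specialLinear (Fin n) F) (Cfsg.Geo.subspaceStabilizer W ⊓ Cfsg.Geo.specialLinear (Fin n) F) := by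
  have : Nontrivial (Fin n) := Fin.nontrivial_iff_two_le.mpr (by omega)
  apply isMaximalIn_of _ _ inf_le_right
  · obtain ⟨g, hg, hg'⟩ := exists_not_stab W hW0 hW1
    exact ⟨g, hg, fun h => hg' (Subgroup.mem_inf.mp h).1⟩
  · intro M hPM hMK ⟨h, hhM, hhP⟩
    apply specialLinear_le_of_centreSet
    have hhW : h ∉ Cfsg.Geo.subspaceStabilizer W :=
      fun hc => hhP (Subgroup.mem_inf.mpr ⟨hc, hMK hhM⟩)
    rw [mem_subspaceStabilizer_iff] at hhW
    push Not at hhW
    obtain ⟨u, hu, hv₁⟩ := hhW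
    have hWC : ∀ v ∈ W, v ∈ centreSet M := by
      intro v hv w hw
      apply THas_of_mem hw
      apply hPM
      refine Subgroup.mem_inf.mpr ⟨?_, glT_mem_SL _ _ _⟩
      rw [mem_subspaceStabilizer_iff]
      intro x hx
      rw [glT_mulVec]
      exact W.add_mem hx (W.smul_mem _ hv)
    set v₁ := (h : Matrix (Fin n) (Fin n) F) *ᵥ u with hv₁def
    have hv₁C : v₁ ∈ centreSet M := centreSet_mulVec (hWC u hu) hhM
    obtain ⟨w₁, hw₁0, hw₁1⟩ := exists_row W v₁ hv₁
    have hker : ∀ x', w₁ ⬝ᵥ x' = 0 → x' ∈ centreSet M := by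
      intro x' hx'
      have hmem : glT x' w₁ hx' ∈ M := by
        apply hPM
        refine Subgroup.mem_inf.mpr ⟨?_, glT_mem_SL _ _ _⟩
        rw [mem_subspaceStabilizer_iff]
        intro x hx
        rw [glT_mulVec, hw₁0 x hx, zero_smul, add_zero]
        exact hx
      have h1 := centreSet_mulVec hv₁C hmem
      rw [glT_mulVec, hw₁1, one_smul] at h1
      have h2 := centreSet_add h1 (centreSet_neg hv₁C)
      simpa using h2
    intro x
    have e : x = (x - (w₁ ⬝ᵥ x) • v₁) + (w₁ ⬝ᵥ x) • v₁ := by abel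
    rw [e]
    apply centreSet_add (hker _ ?_) (centreSet_smul hv₁C _)
    rw [dotProduct_sub, dotProduct_smul, hw₁1]; simp

end Cfsg.Agent.S5631
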