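import Cfsg.Statements.S5632
import Cfsg.Agent.Lib.Helper6.SLMax
import Cfsg.Agent.S5631

set_option autoImplicit false
open Cfsg

namespace Cfsg.Agent.S5632

open Cfsg.Agent.Lib.Helper6 Matrix

/-- For a finite field F and subspaces 0 < W < U of F^n with dim W + dim U = n, the elements of SL_n(F) stabilising both W and U form a subgroup that is not maximal in SL_n(F): some subgroup lies strictly between it and SL_n(F). -/
theorem result {F : Type*} [Field F] [Fintype F] (n : ℕ) (W U : Submodule F (Fin n → F)) (hW0 : W ≠ ⊥) (hWU : W < U) (hdim : Module.finrank F W + Module.finrank F U = n) : ∃ K : Subgroup (Matrix.GeneralLinearGroup (Fin n) F), Cfsg.Geo.subspaceStabilizer W ⊓ Cfsg.Geo.subspaceStabilizer U ⊓ Cfsg.Geo.specialLinear (Fin n) F < K ∧ K < Cfsg.Geo.specialLinear (Fin n) F := by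
  have hW1 : W ≠ ⊤ := by
    rintro rfl
    exact absurd hWU (not_lt_of_ge le_top)
  have hU1 : U ≠ ⊤ := by
    rintro rfl
    rw [finrank_top, Module.finrank_fintype_fun_eq_card, Fintype.card_fin] at hdim
    have : Module.finrank F W = 0 := by omega
    exact hW0 (Submodule.finrank_eq_zero.mp this)
  refine ⟨Cfsg.Geo.subspaceStabilizer W ⊓ Cfsg.Geo.specialLinear (Fin n) F, ?_, ?_⟩
  · apply lt_of_le_of_ne
    · exact inf_le_inf_right _ inf_le_left
    · intro heq
      obtain ⟨u, hu, huW⟩ := SetLike.exists_of_lt hWU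
      obtain ⟨x, hx⟩ : ∃ x, x ∉ U := by
        by_contra hcon
        push Not at hcon
        exact hU1 (eq_top_iff.mpr fun y _ => hcon y)
      obtain ⟨w, hw0, hw1⟩ := exists_row W u huW
      have hx' : x - (w ⬝ᵥ x) • u ∉ U := by
        intro h
        apply hx
        have := U.add_mem h (U.smul_mem (w ⬝ᵥ x) hu)
        simpa using this
      have hwx : w ⬝ᵥ (x - (w ⬝ᵥ x) • u) = 0 := by
        rw [dotProduct_sub, dotProduct_smul, hw1]; simp
      have hmem : glT _ w hwx ∈ Cfsg.Geo.subspaceStabilizer W ⊓ Cfsg.Geo.specialLinear (Fin n) F := by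
        refine Subgroup.mem_inf.mpr ⟨?_, glT_mem_SL _ _ _⟩
        rw [mem_subspaceStabilizer_iff]
        intro y hy
        rw [glT_mulVec, hw0 y hy, zero_smul, add_zero]
        exact hy
      rw [← heq] at hmem
      have h1 := (mem_subspaceStabilizer_iff U _).mp
        (Subgroup.mem_inf.mp (Subgroup.mem_inf.mp hmem).1).2 u hu
      rw [glT_mulVec, hw1, one_smul] at h1
      apply hx'
      have := U.sub_mem h1 hu
      simpa using this
  · apply lt_of_le_of_ne inf_le_right
    intro heq
    obtain ⟨g, hg, hg'⟩ := Cfsg.Agent.S5631.exists_not_stab W hW0 hW1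
    rw [← heq] at hg
    exact hg' (Subgroup.mem_inf.mp hg).1

end Cfsg.Agent.S5632
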