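import Cfsg.Statements.S5633
import Cfsg.Agent.Lib.Helper6.SLMax
import Cfsg.Agent.S5631

set_option autoImplicit false
open Cfsg

namespace Cfsg.Agent.S5633

open Cfsg.Agent.Lib.Helper6 Matrix

/-- For a finite field F and complementary non-zero subspaces W ⊕ U = F^n with dim W < dim U, the elements of SL_n(F) stabilising both W and U form a subgroup that is not maximal in SL_n(F): some subgroup lies strictly between it and SL_n(F). -/
theorem result {F : Type*} [Field F] [Fintype F] (n : ℕ) (W U : Submodule F (Fin n → F)) (hW0 : W ≠ ⊥) (hWU : W ⊓ U = ⊥) (hWU' : W ⊔ U = ⊤) (hdim : Module.finrank F W < Module.finrank F U) : ∃ K : Subgroup (Matrix.GeneralLinearGroup (Fin n) F), Cfsg.Geo.subspaceStabilizer W ⊓ Cfsg.Geo.subspaceStabilizer U ⊓ Cfsg.Geo.specialLinear (Fin n) F < K ∧ K < Cfsg.Geo.specialLinear (Fin n) F := by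
  have hU0 : U ≠ ⊥ := by
    rintro rfl
    rw [finrank_bot] at hdim
    omega
  have hW1 : W ≠ ⊤ := by
    rintro rfl
    rw [top_inf_eq] at hWU
    exact hU0 hWU
  refine ⟨Cfsg.Geo.subspaceStabilizer W ⊓ Cfsg.Geo.specialLinear (Fin n) F, ?_, ?_⟩
  · apply lt_of_le_of_ne
    · exact inf_le_inf_right _ inf_le_left
    · intro heq
      obtain ⟨v, hv, hv0⟩ := (Submodule.ne_bot_iff W).mp hW0
      obtain ⟨u, hu, hu0⟩ := (Submodule.ne_bot_iff U).mp hU0
      have hvU : v ∉ U := by
        intro h
        have : v ∈ W ⊓ U := ⟨hv, h⟩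
        rw [hWU] at this
        exact hv0 this
      have huv : u ∉ Submodule.span F {v} := by
        intro h
        obtain ⟨a, rfl⟩ := Submodule.mem_span_singleton.mp h
        have : a • v ∈ W ⊓ U := ⟨W.smul_mem a hv, hu⟩
        rw [hWU] at this
        exact hu0 this
      obtain ⟨w, hw0, hw1⟩ := exists_row _ u huv
      have hwv : w ⬝ᵥ v = 0 := hw0 v (Submodule.mem_span_singleton_self v)
      have hmem : glT v w hwv ∈ Cfsg.Geo.subspaceStabilizer W ⊓ Cfsg.Geo.specialLinear (Fin n) F := by
        refine Subgroup.mem_inf.mpr ⟨?_, glT_mem_SL _ _ _⟩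
        rw [mem_subspaceStabilizer_iff]
        intro y hy
        rw [glT_mulVec]
        exact W.add_mem hy (W.smul_mem _ hv)
      rw [← heq] at hmem
      have h1 := (mem_subspaceStabilizer_iff U _).mp
        (Subgroup.mem_inf.mp (Subgroup.mem_inf.mp hmem).1).2 u hu
      rw [glT_mulVec, hw1, one_smul] at h1
      apply hvU
      have := U.sub_mem h1 hu
      simpa using this
  · apply lt_of_le_of_ne inf_le_right
    intro heq
    obtain ⟨g, hg, hg'⟩ := Cfsg.Agent.S5631.exists_not_stab W hW0 hW1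
    rw [← heq] at hg
    exact hg' (Subgroup.mem_inf.mp hg).1

end Cfsg.Agent.S5633
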