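import Cfsg.Statements.S5635
import Cfsg.Agent.Lib.Helper6.DCoord

set_option autoImplicit false
open Cfsg

namespace Cfsg.Agent.S5635

open Cfsg.Agent.Lib.Helper6 Matrix

section aux

variable {F : Type*} [Field F] {n t m : ℕ} {D : Fin t → Submodule F (Fin n → F)}
  {B φ : Fin t → Fin m → Fin n → F}

theorem not_stab (C : Coord D B φ) (g : Matrix.GeneralLinearGroup (Fin n) F) (i : Fin t) (j : Fin m)
    (k₁ k₂ : Fin t) (hk : k₁ ≠ k₂) (j₁ j₂ : Fin m)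
    (h1 : φ k₁ j₁ ⬝ᵥ ((g : Matrix (Fin n) (Fin n) F) *ᵥ B i j) ≠ 0)
    (h2 : φ k₂ j₂ ⬝ᵥ ((g : Matrix (Fin n) (Fin n) F) *ᵥ B i j) ≠ 0) :
    g ∉ Cfsg.Geo.decompositionStabilizer D := by
  rintro ⟨τ, hτ⟩
  have hm : (g : Matrix (Fin n) (Fin n) F) *ᵥ B i j ∈ D (τ i) := by
    rw [← hτ i]; exact ⟨_, C.mem i j, rfl⟩
  by_cases hc : k₁ = τ i
  · exact h2 (C.vanish _ _ hm k₂ j₂ (fun h => hk (hc.trans h.symm)))
  · exact h1 (C.vanish _ _ hm k₁ j₁ hc)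

theorem chi_one [Fintype F] {φ : Fin t → Fin 1 → Fin n → F} (i : Fin t) (x : Fin n → F) :
    chi φ i x = (φ i 0 ⬝ᵥ x) ^ (Fintype.card F - 1) := by
  unfold chi
  by_cases h : φ i 0 ⬝ᵥ x = 0
  · rw [if_neg, h, zero_pow]
    · have := Fintype.one_lt_card (α := F)
      omega
    · rintro ⟨j, hj⟩
      apply hj
      rw [Subsingleton.elim j 0, h]
  · rw [if_pos ⟨0, h⟩, FiniteField.pow_card_sub_one_eq_one _ h]

theorem chi_two (h01 : ∀ a : F, a = 0 ∨ a = 1) (h11 : (1 : F) + 1 = 0)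
    {φ : Fin t → Fin 2 → Fin n → F} (i : Fin t) (x : Fin n → F) :
    chi φ i x = φ i 0 ⬝ᵥ x + φ i 1 ⬝ᵥ x + (φ i 0 ⬝ᵥ x) * (φ i 1 ⬝ᵥ x) := by
  unfold chi
  rcases h01 (φ i 0 ⬝ᵥ x) with h0 | h0 <;> rcases h01 (φ i 1 ⬝ᵥ x) with h1 | h1
  · rw [if_neg, h0, h1]
    · ring
    · rintro ⟨j, hj⟩
      fin_cases j
      · exact hj h0
      · exact hj h1
  · rw [if_pos ⟨1, by rw [h1]; exact one_ne_zero⟩, h0, h1]; ring
  · rw [if_pos ⟨0, by rw [h0]; exact one_ne_zero⟩, h0, h1]; ring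
  · rw [if_pos ⟨0, by rw [h0]; exact one_ne_zero⟩, h0, h1]; linear_combination -h11

theorem wt_four [Fintype F] {B φ : Fin t → Fin 1 → Fin n → F} (C : Coord D B φ)
    (i₁ i₂ i₃ i₄ : Fin t) (h12 : i₁ ≠ i₂) (h13 : i₁ ≠ i₃) (h14 : i₁ ≠ i₄) (h23 : i₂ ≠ i₃)
    (h24 : i₂ ≠ i₄) (h34 : i₃ ≠ i₄) (x : Fin n → F) (s : F) :
    wt φ (x + s • (B i₁ 0 + B i₂ 0 + B i₃ 0 + B i₄ 0)) = wt φ x +
      ((φ i₁ 0 ⬝ᵥ x + s) ^ (Fintype.card F - 1) - (φ i₁ 0 ⬝ᵥ x) ^ (Fintype.card F - 1)) +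
      ((φ i₂ 0 ⬝ᵥ x + s) ^ (Fintype.card F - 1) - (φ i₂ 0 ⬝ᵥ x) ^ (Fintype.card F - 1)) +
      ((φ i₃ 0 ⬝ᵥ x + s) ^ (Fintype.card F - 1) - (φ i₃ 0 ⬝ᵥ x) ^ (Fintype.card F - 1)) +
      ((φ i₄ 0 ⬝ᵥ x + s) ^ (Fintype.card F - 1) - (φ i₄ 0 ⬝ᵥ x) ^ (Fintype.card F - 1)) := by
  have dd : ∀ a b : Fin t, φ a 0 ⬝ᵥ B b 0 = if a = b then 1 else 0 := by
    intro a b; rw [C.dual]; simp
  have e1 : x + s • (B i₁ 0 + B i₂ 0 + B i₃ 0 + B i₄ 0) =
      x + s • B i₁ 0 + s • B i₂ 0 + s • B i₃ 0 + s • B i₄ 0 := by module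
  rw [e1, wt_add C ((D i₄).smul_mem s (C.mem i₄ 0)), wt_add C ((D i₃).smul_mem s (C.mem i₃ 0)),
    wt_add C ((D i₂).smul_mem s (C.mem i₂ 0)), wt_add C ((D i₁).smul_mem s (C.mem i₁ 0))]
  simp only [chi_one, dotProduct_add, dotProduct_smul, dd, smul_eq_mul, if_neg h12, if_neg h13,
    if_neg h14, if_neg h23, if_neg h24, if_neg h34, if_neg h12.symm, if_neg h13.symm,
    if_neg h14.symm, if_neg h23.symm, if_neg h24.symm, if_neg h34.symm, if_true, mul_zero, mul_one,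
    add_zero]

theorem wt_three (h01 : ∀ a : F, a = 0 ∨ a = 1) (h11 : (1 : F) + 1 = 0)
    {B φ : Fin t → Fin 2 → Fin n → F} (C : Coord D B φ)
    (i₁ i₂ i₃ : Fin t) (h12 : i₁ ≠ i₂) (h13 : i₁ ≠ i₃) (h23 : i₂ ≠ i₃) (x : Fin n → F) (s : F) :
    wt φ (x + s • (B i₁ 0 + B i₂ 0 + B i₃ 0)) = wt φ x +
      (s + s * (φ i₁ 1 ⬝ᵥ x)) + (s + s * (φ i₂ 1 ⬝ᵥ x)) + (s + s * (φ i₃ 1 ⬝ᵥ x)) := by
  have d0 : ∀ a b : Fin t, φ a 0 ⬝ᵥ B b 0 = if a = b then 1 else 0 := by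
    intro a b; rw [C.dual]; simp
  have d1 : ∀ a b : Fin t, φ a 1 ⬝ᵥ B b 0 = 0 := by
    intro a b; rw [C.dual]; simp
  have e1 : x + s • (B i₁ 0 + B i₂ 0 + B i₃ 0) =
      x + s • B i₁ 0 + s • B i₂ 0 + s • B i₃ 0 := by module
  rw [e1, wt_add C ((D i₃).smul_mem s (C.mem i₃ 0)),
    wt_add C ((D i₂).smul_mem s (C.mem i₂ 0)), wt_add C ((D i₁).smul_mem s (C.mem i₁ 0))]
  simp only [chi_two h01 h11, dotProduct_add, dotProduct_smul, d0, d1, smul_eq_mul, if_neg h12,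
    if_neg h13, if_neg h23, if_neg h12.symm, if_neg h13.symm, if_neg h23.symm, if_true, mul_zero,
    mul_one, add_zero]
  ring

end aux

/-- For a finite field F with q elements and n ≥ 13, let D be a decomposition of F^n into t ≥ 2 independent subspaces of equal dimension m spanning F^n, where m = 1 and q ≤ 4, or m = 2 and q = 2. Then the elements of SL_n(F) permuting the members of D form a subgroup that is not maximal: some subgroup lies strictly between it and SL_n(F). -/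
theorem result {F : Type*} [Field F] [Fintype F] (n : ℕ) (hn : 13 ≤ n) {t : ℕ} (m : ℕ) (D : Fin t → Submodule F (Fin n → F)) (hD : Cfsg.Geo.IsMDecomposition m D) (h : (m = 1 ∧ Fintype.card F ≤ 4) ∨ (m = 2 ∧ Fintype.card F = 2)) : ∃ K : Subgroup (Matrix.GeneralLinearGroup (Fin n) F), Cfsg.Geo.decompositionStabilizer D ⊓ Cfsg.Geo.specialLinear (Fin n) F < K ∧ K < Cfsg.Geo.specialLinear (Fin n) F := by
  classical
  have ht := hD.two_le
  have mk : ∀ k : ℕ, k < t → ∃ i : Fin t, i.val = k := fun k hk => ⟨⟨k, hk⟩, rfl⟩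
  have ne_of : ∀ {a b : Fin t}, a.val ≠ b.val → a ≠ b := fun h h' => h (congrArg Fin.val h')
  rcases h with ⟨rfl, hq⟩ | ⟨rfl, hq⟩
  · obtain ⟨B, φ, C, hnt⟩ := exists_coord hD
    obtain ⟨i₁, v₁⟩ := mk 0 (by omega)
    obtain ⟨i₂, v₂⟩ := mk 1 (by omega)
    obtain ⟨i₃, v₃⟩ := mk 2 (by omega)
    obtain ⟨i₄, v₄⟩ := mk 3 (by omega)
    obtain ⟨i₅, v₅⟩ := mk 4 (by omega)
    have h12 : i₁ ≠ i₂ := ne_of (by omega)
    have h13 : i₁ ≠ i₃ := ne_of (by omega)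
    have h14 : i₁ ≠ i₄ := ne_of (by omega)
    have h15 : i₁ ≠ i₅ := ne_of (by omega)
    have h23 : i₂ ≠ i₃ := ne_of (by omega)
    have h24 : i₂ ≠ i₄ := ne_of (by omega)
    have h34 : i₃ ≠ i₄ := ne_of (by omega)
    have dd : ∀ a b : Fin t, φ a 0 ⬝ᵥ B b 0 = if a = b then 1 else 0 := by
      intro a b; rw [C.dual]; simp
    obtain ⟨u, hu⟩ : ∃ u, u = B i₁ 0 + B i₂ 0 + B i₃ 0 + B i₄ 0 := ⟨_, rfl⟩
    obtain ⟨ψ, hψ⟩ : ∃ ψ, ψ = φ i₁ 0 + φ i₂ 0 + φ i₃ 0 + φ i₄ 0 := ⟨_, rfl⟩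
    have hψu : ψ ⬝ᵥ u = 4 := by
      rw [hψ, hu]
      simp only [add_dotProduct, dotProduct_add, dd, if_neg h12, if_neg h13,
        if_neg h14, if_neg h23, if_neg h24, if_neg h34, if_neg h12.symm, if_neg h13.symm,
        if_neg h14.symm, if_neg h23.symm, if_neg h24.symm, if_neg h34.symm, if_true]
      norm_num
    have hψx : ∀ x, ψ ⬝ᵥ x = φ i₁ 0 ⬝ᵥ x + φ i₂ 0 ⬝ᵥ x + φ i₃ 0 ⬝ᵥ x + φ i₄ 0 ⬝ᵥ x := by
      intro x; rw [hψ]; simp only [add_dotProduct]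
    have hψ1 : ψ ⬝ᵥ B i₁ 0 = 1 := by
      rw [hψx]
      simp only [dd, if_neg h12.symm, if_neg h13.symm, if_neg h14.symm, if_true]
      ring
    have k2 : φ i₂ 0 ⬝ᵥ (B i₁ 0 + (1 : F) • u) ≠ 0 := by
      rw [hu]
      simp only [dotProduct_add, dotProduct_smul, dd, if_neg h12.symm, if_neg h23, if_neg h24,
        if_true]
      simp
    have k3 : φ i₃ 0 ⬝ᵥ (B i₁ 0 + (1 : F) • u) ≠ 0 := by
      rw [hu]
      simp only [dotProduct_add, dotProduct_smul, dd, if_neg h13.symm, if_neg h23.symm, if_neg h34,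
        if_true]
      simp
    have hcard : Fintype.card F = 2 ∨ Fintype.card F = 3 ∨ Fintype.card F = 4 := by
      have := Fintype.one_lt_card (α := F)
      omega
    have char2 : Even (Fintype.card F) → (2 : F) = 0 := by
      intro he
      have hchar : ringChar F = 2 := FiniteField.even_card_iff_char_two.mpr (Nat.even_iff.mp he)
      have : CharP F 2 := by
        rw [← hchar]; exact ringChar.charP F
      exact CharP.cast_eq_zero F 2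
    rcases hcard with hc | hc | hc
    · have h2 := char2 (by rw [hc]; decide)
      have h0 : ψ ⬝ᵥ u = 0 := by rw [hψu]; linear_combination 2 * h2
      refine between C ht (by norm_num) (glT u ψ h0) (glT_mem_SL _ _ _) ?_ ?_
      · intro x
        rw [glT_mulVec, hu, wt_four C i₁ i₂ i₃ i₄ h12 h13 h14 h23 h24 h34, hc, hψx]
        linear_combination (2 * (φ i₁ 0 ⬝ᵥ x + φ i₂ 0 ⬝ᵥ x + φ i₃ 0 ⬝ᵥ x + φ i₄ 0 ⬝ᵥ x)) * h2
      · refine not_stab C _ i₁ 0 i₂ i₃ h23 0 0 ?_ ?_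
        · rw [glT_mulVec, hψ1]; exact k2
        · rw [glT_mulVec, hψ1]; exact k3
    · have h30 : (3 : F) = 0 := by
        have := FiniteField.cast_card_eq_zero F
        rw [hc] at this
        exact_mod_cast this
      have h2ne : (2 : F) ≠ 0 := by
        intro h
        exact one_ne_zero (α := F) (by linear_combination h30 - h)
      have a1 : 1 + ψ ⬝ᵥ u ≠ 0 := by
        rw [hψu]; intro h; apply h2ne; linear_combination h - h30
      have a2 : 1 + φ i₅ 0 ⬝ᵥ B i₅ 0 ≠ 0 := by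
        rw [dd, if_pos rfl]; intro h; apply h2ne; linear_combination h
      refine between C ht (by norm_num) (glU u ψ a1 * glU (B i₅ 0) (φ i₅ 0) a2) ?_ ?_ ?_
      · rw [mem_specialLinear_iff, Units.val_mul, Matrix.det_mul, glU_det, glU_det, hψu, dd,
          if_pos rfl]
        linear_combination 3 * h30
      · intro x
        have s1 : ∀ y, wt φ ((glU u ψ a1 : Matrix (Fin n) (Fin n) F) *ᵥ y) = wt φ y := by
          intro y
          rw [glU_mulVec, hu, wt_four C i₁ i₂ i₃ i₄ h12 h13 h14 h23 h24 h34, hc, hψx]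
          linear_combination (2 * (φ i₁ 0 ⬝ᵥ y + φ i₂ 0 ⬝ᵥ y + φ i₃ 0 ⬝ᵥ y + φ i₄ 0 ⬝ᵥ y) ^ 2) * h30
        have s2 : ∀ y, wt φ ((glU (B i₅ 0) (φ i₅ 0) a2 : Matrix (Fin n) (Fin n) F) *ᵥ y) =
            wt φ y := by
          intro y
          rw [glU_mulVec, wt_add C ((D i₅).smul_mem _ (C.mem i₅ 0)), chi_one, chi_one, hc,
            dotProduct_add, dotProduct_smul, dd, if_pos rfl, smul_eq_mul]
          linear_combination ((φ i₅ 0 ⬝ᵥ y) ^ 2) * h30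
        rw [Units.val_mul, ← Matrix.mulVec_mulVec, s1, s2]
      · have e5 : (glU (B i₅ 0) (φ i₅ 0) a2 : Matrix (Fin n) (Fin n) F) *ᵥ B i₁ 0 = B i₁ 0 := by
          rw [glU_mulVec, dd, if_neg h15.symm, zero_smul, add_zero]
        refine not_stab C _ i₁ 0 i₂ i₃ h23 0 0 ?_ ?_
        · rw [Units.val_mul, ← Matrix.mulVec_mulVec, e5, glU_mulVec, hψ1]; exact k2
        · rw [Units.val_mul, ← Matrix.mulVec_mulVec, e5, glU_mulVec, hψ1]; exact k3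
    · have h2 := char2 (by rw [hc]; decide)
      have h0 : ψ ⬝ᵥ u = 0 := by rw [hψu]; linear_combination 2 * h2
      refine between C ht (by norm_num) (glT u ψ h0) (glT_mem_SL _ _ _) ?_ ?_
      · intro x
        rw [glT_mulVec, hu, wt_four C i₁ i₂ i₃ i₄ h12 h13 h14 h23 h24 h34, hc, hψx]
        generalize φ i₁ 0 ⬝ᵥ x = c₁
        generalize φ i₂ 0 ⬝ᵥ x = c₂
        generalize φ i₃ 0 ⬝ᵥ x = c₃
        generalize φ i₄ 0 ⬝ᵥ x = c₄
        linear_combination (5 * (c₁ + c₂ + c₃ + c₄) ^ 3 - 3 * (c₁ + c₂ + c₃ + c₄) *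
          (c₁ * c₂ + c₁ * c₃ + c₁ * c₄ + c₂ * c₃ + c₂ * c₄ + c₃ * c₄)) * h2
      · refine not_stab C _ i₁ 0 i₂ i₃ h23 0 0 ?_ ?_
        · rw [glT_mulVec, hψ1]; exact k2
        · rw [glT_mulVec, hψ1]; exact k3
  · obtain ⟨B, φ, C, hnt⟩ := exists_coord hD
    have h01 : ∀ a : F, a = 0 ∨ a = 1 := by
      intro a
      have := FiniteField.pow_card a
      rw [hq] at this
      have h : a * (a - 1) = 0 := by linear_combination this
      rcases mul_eq_zero.mp h with h | h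
      · exact Or.inl h
      · exact Or.inr (by linear_combination h)
    have hchar : ringChar F = 2 := by
      rw [FiniteField.even_card_iff_char_two, hq]
    have : CharP F 2 := by
      rw [← hchar]; exact ringChar.charP F
    have h2 : (2 : F) = 0 := CharP.cast_eq_zero F 2
    have h11 : (1 : F) + 1 = 0 := by linear_combination h2
    obtain ⟨i₁, v₁⟩ := mk 0 (by omega)
    obtain ⟨i₂, v₂⟩ := mk 1 (by omega)
    obtain ⟨i₃, v₃⟩ := mk 2 (by omega)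
    have h12 : i₁ ≠ i₂ := ne_of (by omega)
    have h13 : i₁ ≠ i₃ := ne_of (by omega)
    have h23 : i₂ ≠ i₃ := ne_of (by omega)
    have d0 : ∀ a b : Fin t, φ a 0 ⬝ᵥ B b 0 = if a = b then 1 else 0 := by
      intro a b; rw [C.dual]; simp
    have d1 : ∀ a b : Fin t, φ a 1 ⬝ᵥ B b 0 = 0 := by
      intro a b; rw [C.dual]; simp
    have d01 : ∀ a b : Fin t, φ a 0 ⬝ᵥ B b 1 = 0 := by
      intro a b; rw [C.dual]; simp
    have d11 : ∀ a b : Fin t, φ a 1 ⬝ᵥ B b 1 = if a = b then 1 else 0 := by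
      intro a b; rw [C.dual]; simp
    obtain ⟨u, hu⟩ : ∃ u, u = B i₁ 0 + B i₂ 0 + B i₃ 0 := ⟨_, rfl⟩
    obtain ⟨ψ, hψ⟩ : ∃ ψ, ψ = φ i₁ 1 + φ i₂ 1 + φ i₃ 1 := ⟨_, rfl⟩
    have h0 : ψ ⬝ᵥ u = 0 := by
      rw [hψ, hu]
      simp only [add_dotProduct, dotProduct_add, d1, add_zero]
    have hψx : ∀ x, ψ ⬝ᵥ x = φ i₁ 1 ⬝ᵥ x + φ i₂ 1 ⬝ᵥ x + φ i₃ 1 ⬝ᵥ x := by
      intro x; rw [hψ]; simp only [add_dotProduct]
    have hψ1 : ψ ⬝ᵥ B i₁ 1 = 1 := by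
      rw [hψx]
      simp only [d11, if_neg h12.symm, if_neg h13.symm, if_true]
      ring
    refine between C ht (by norm_num) (glT u ψ h0) (glT_mem_SL _ _ _) ?_ ?_
    · intro x
      rw [glT_mulVec, hu, wt_three h01 h11 C i₁ i₂ i₃ h12 h13 h23]
      have hs : (ψ ⬝ᵥ x) * (ψ ⬝ᵥ x) = ψ ⬝ᵥ x := by
        rcases h01 (ψ ⬝ᵥ x) with h | h <;> rw [h] <;> ring
      have hs' := hs
      rw [hψx] at hs'
      rw [hψx]
      linear_combination hs' + (2 * (φ i₁ 1 ⬝ᵥ x + φ i₂ 1 ⬝ᵥ x + φ i₃ 1 ⬝ᵥ x)) * h2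
    · refine not_stab C _ i₁ 1 i₂ i₃ h23 0 0 ?_ ?_
      · rw [glT_mulVec, hψ1, hu]
        simp only [dotProduct_add, dotProduct_smul, d0, d01, if_neg h12.symm, if_neg h23, if_true]
        simp
      · rw [glT_mulVec, hψ1, hu]
        simp only [dotProduct_add, dotProduct_smul, d0, d01, if_neg h13.symm, if_neg h23.symm,
          if_true]
        simp

end Cfsg.Agent.S5635
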