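import Cfsg.Statements.S5638
import Cfsg.Agent.Lib.Helper6.SLMax

set_option autoImplicit false
open Cfsg

namespace Cfsg.Agent.S5638

open Cfsg.Agent.Lib.Helper6 Matrix
open scoped Kronecker

section aux

variable {F : Type*} [Field F] {n₂ : ℕ}

/-- block diagonal embedding of a product of copies of `GL₂`. -/
def bd : (Fin n₂ → Matrix.GeneralLinearGroup (Fin 2) F) →*
    Matrix.GeneralLinearGroup (Fin 2 × Fin n₂) F :=
  (Units.map (Matrix.blockDiagonalRingHom (Fin 2) (Fin n₂) F).toMonoidHom).comp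
    (MulEquiv.piUnits (M := fun _ : Fin n₂ => Matrix (Fin 2) (Fin 2) F)).symm.toMonoidHom

theorem bd_coe (u : Fin n₂ → Matrix.GeneralLinearGroup (Fin 2) F) :
    ((bd u : Matrix.GeneralLinearGroup (Fin 2 × Fin n₂) F) :
      Matrix (Fin 2 × Fin n₂) (Fin 2 × Fin n₂) F) =
      Matrix.blockDiagonal (fun k => (u k : Matrix (Fin 2) (Fin 2) F)) := rfl

theorem bd_injective : Function.Injective (bd (F := F) (n₂ := n₂)) := by
  intro u v h
  have h1 := congrArg (fun g : Matrix.GeneralLinearGroup (Fin 2 × Fin n₂) F =>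
    (g : Matrix (Fin 2 × Fin n₂) (Fin 2 × Fin n₂) F)) h
  simp only [bd_coe] at h1
  have h2 := Matrix.blockDiagonal_injective h1
  funext k
  exact Units.ext (congrFun h2 k)

theorem bd_const_coe (u : Matrix.GeneralLinearGroup (Fin 2) F) :
    ((bd (fun _ : Fin n₂ => u) : Matrix.GeneralLinearGroup (Fin 2 × Fin n₂) F) :
      Matrix (Fin 2 × Fin n₂) (Fin 2 × Fin n₂) F) =
      (u : Matrix (Fin 2) (Fin 2) F) ⊗ₖ (1 : Matrix (Fin n₂) (Fin n₂) F) :=
  (Matrix.kronecker_one _).symm

theorem two_by_two (h01 : ∀ a : F, a = 0 ∨ a = 1) (h11 : (1 : F) + 1 = 0)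
    (A : Matrix (Fin 2) (Fin 2) F) (hA : A.det ≠ 0) :
    (A * !![0, 1; 1, 1] = !![0, 1; 1, 1] * A ∧ A * !![1, 1; 1, 0] = !![1, 1; 1, 0] * A) ∨
    (A * !![0, 1; 1, 1] = !![1, 1; 1, 0] * A ∧ A * !![1, 1; 1, 0] = !![0, 1; 1, 1] * A) := by
  rw [Matrix.eta_fin_two A] at hA ⊢
  generalize A 0 0 = p at *
  generalize A 0 1 = q at *
  generalize A 1 0 = r at *
  generalize A 1 1 = s at *
  rw [Matrix.det_fin_two_of] at hA
  simp only [Matrix.mul_fin_two]
  rcases h01 p with rfl | rfl <;> rcases h01 q with rfl | rfl <;>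
    rcases h01 r with rfl | rfl <;> rcases h01 s with rfl | rfl
  all_goals first
    | (exfalso; apply hA; simp; done)
    | (left; simp [h11]; done)
    | (right; simp [h11]; done)

end aux

/-- Over the field with 2 elements, for n = 2 n₂ ≥ 13, the stabiliser in SL_n of a tensor decomposition with factors of dimensions 2 and n₂ (the conjugate by any P of the Kronecker-product subgroup transported along any bijection Fin n ≃ Fin 2 × Fin n₂, intersected with SL_n) is not a maximal subgroup: some subgroup lies strictly between it and SL_n. -/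
theorem result {F : Type*} [Field F] [Fintype F] (n : ℕ) (hn : 13 ≤ n) (hq : Fintype.card F = 2) (n₂ : ℕ) (e : Fin n ≃ Fin 2 × Fin n₂) (P : Matrix.GeneralLinearGroup (Fin n) F) : ∃ K : Subgroup (Matrix.GeneralLinearGroup (Fin n) F), Cfsg.Geo.tensorProductSubgroup 2 n₂ e P ⊓ Cfsg.Geo.specialLinear (Fin n) F < K ∧ K < Cfsg.Geo.specialLinear (Fin n) F := by
  classical
  have h01 : ∀ a : F, a = 0 ∨ a = 1 := by
    intro a
    have := FiniteField.pow_card a
    rw [hq] at this
    have h : a * (a - 1) = 0 := by linear_combination this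
    rcases mul_eq_zero.mp h with h | h
    · exact Or.inl h
    · exact Or.inr (by linear_combination h)
  have hchar : ringChar F = 2 := by
    rw [FiniteField.even_card_iff_char_two, hq]
  have : CharP F 2 := by
    rw [← hchar]; exact ringChar.charP F
  have h2 : (2 : F) = 0 := CharP.cast_eq_zero F 2
  have h11 : (1 : F) + 1 = 0 := by linear_combination h2
  have hn2 : n = 2 * n₂ := by
    have := Fintype.card_congr e
    simpa using this
  have hSL : ∀ g : Matrix.GeneralLinearGroup (Fin n) F, g ∈ Cfsg.Geo.specialLinear (Fin n) F := by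
    intro g
    rw [mem_specialLinear_iff]
    exact (h01 _).resolve_left ((Matrix.isUnit_iff_isUnit_det _).mp g.isUnit).ne_zero
  obtain ⟨k0, hk0⟩ : ∃ k0 : Fin n₂, k0 = ⟨0, by omega⟩ := ⟨_, rfl⟩
  obtain ⟨k1, hk1⟩ : ∃ k1 : Fin n₂, k1 = ⟨1, by omega⟩ := ⟨_, rfl⟩
  have hk01 : k1 ≠ k0 := by
    rw [hk0, hk1]; intro h; simpa using congrArg Fin.val h
  obtain ⟨ω, hω⟩ : ∃ ω : Matrix.GeneralLinearGroup (Fin 2) F,
      (ω : Matrix (Fin 2) (Fin 2) F) = !![0, 1; 1, 1] :=
    ⟨Matrix.GeneralLinearGroup.mkOfDetNeZero !![0, 1; 1, 1] (by simp [Matrix.det_fin_two_of]), rfl⟩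
  obtain ⟨ω', hω'⟩ : ∃ ω' : Matrix.GeneralLinearGroup (Fin 2) F,
      (ω' : Matrix (Fin 2) (Fin 2) F) = !![1, 1; 1, 0] :=
    ⟨Matrix.GeneralLinearGroup.mkOfDetNeZero !![1, 1; 1, 0] (by simp [Matrix.det_fin_two_of]), rfl⟩
  obtain ⟨s, hs⟩ : ∃ s : Matrix.GeneralLinearGroup (Fin 2) F,
      (s : Matrix (Fin 2) (Fin 2) F) = !![0, 1; 1, 0] :=
    ⟨Matrix.GeneralLinearGroup.mkOfDetNeZero !![0, 1; 1, 0] (by simp [Matrix.det_fin_two_of]), rfl⟩
  obtain ⟨W, hW⟩ : ∃ W : Matrix.GeneralLinearGroup (Fin 2 × Fin n₂) F,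
      W = bd (fun _ => ω) := ⟨_, rfl⟩
  obtain ⟨W', hW'⟩ : ∃ W' : Matrix.GeneralLinearGroup (Fin 2 × Fin n₂) F,
      W' = bd (fun _ => ω') := ⟨_, rfl⟩
  obtain ⟨N₀, hN₀⟩ : ∃ N₀ : Subgroup (Matrix.GeneralLinearGroup (Fin 2 × Fin n₂) F),
      N₀ = Subgroup.normalizer ({W, W'} : Set _) := ⟨_, rfl⟩
  have hcomm : ω * ω' = ω' * ω := by
    apply Units.ext
    rw [Units.val_mul, Units.val_mul, hω, hω', Matrix.mul_fin_two, Matrix.mul_fin_two]
    simp [h11]
  -- Kronecker products normalise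
  have hKron : Cfsg.Geo.kroneckerSubgroup 2 n₂ F ≤ N₀ := by
    rintro g ⟨a, b, hg⟩
    rw [hN₀]
    have key : ∀ u v : Matrix.GeneralLinearGroup (Fin 2) F,
        (a : Matrix (Fin 2) (Fin 2) F) * (u : Matrix (Fin 2) (Fin 2) F) =
          (v : Matrix (Fin 2) (Fin 2) F) * (a : Matrix (Fin 2) (Fin 2) F) →
        g * bd (fun _ => u) * g⁻¹ = bd (fun _ => v) := by
      intro u v huv
      rw [mul_inv_eq_iff_eq_mul]
      apply Units.ext
      rw [Units.val_mul, Units.val_mul, hg, bd_const_coe, bd_const_coe,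
        ← Matrix.mul_kronecker_mul, ← Matrix.mul_kronecker_mul, mul_one, one_mul, huv]
    have hdet : (a : Matrix (Fin 2) (Fin 2) F).det ≠ 0 :=
      ((Matrix.isUnit_iff_isUnit_det _).mp a.isUnit).ne_zero
    apply Subgroup.mem_normalizer_fintype
    intro z hz
    rcases two_by_two h01 h11 _ hdet with ⟨c1, c2⟩ | ⟨c1, c2⟩
    · rcases hz with rfl | rfl
      · left
        rw [hW]
        exact key ω ω (by rw [hω]; exact c1)
      · right
        rw [hW']
        exact key ω' ω' (by rw [hω']; exact c2)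
    · rcases hz with rfl | rfl
      · right
        rw [hW, hW']
        exact key ω ω' (by rw [hω, hω']; exact c1)
      · left
        rw [hW, hW']
        exact key ω' ω (by rw [hω, hω']; exact c2)
  obtain ⟨x, hx⟩ : ∃ x : Matrix.GeneralLinearGroup (Fin 2 × Fin n₂) F,
      x = bd (fun k => if k = k0 then ω else 1) := ⟨_, rfl⟩
  obtain ⟨y, hy⟩ : ∃ y : Matrix.GeneralLinearGroup (Fin 2 × Fin n₂) F,
      y = bd (fun k => if k = k0 then s else 1) := ⟨_, rfl⟩
  have hxN : x ∈ N₀ := by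
    rw [hN₀]
    apply Subgroup.mem_normalizer_fintype
    intro z hz
    rcases hz with rfl | rfl
    · left
      rw [mul_inv_eq_iff_eq_mul, hx, hW, ← map_mul, ← map_mul]
      congr 1
      funext k
      by_cases hk : k = k0 <;> simp [hk]
    · right
      show x * z * x⁻¹ = z
      rw [mul_inv_eq_iff_eq_mul, hx, hW', ← map_mul, ← map_mul]
      congr 1
      funext k
      by_cases hk : k = k0 <;> simp [hk, hcomm]
  have hxK : x ∉ Cfsg.Geo.kroneckerSubgroup 2 n₂ F := by
    rintro ⟨a, b, hg⟩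
    rw [hx, bd_coe] at hg
    have e1 := congrFun (congrFun hg (0, k1)) (0, k1)
    have e2 := congrFun (congrFun hg (0, k1)) (1, k1)
    have e3 := congrFun (congrFun hg (0, k0)) (1, k0)
    simp only [Matrix.blockDiagonal_apply_eq, Matrix.kroneckerMap_apply, if_neg hk01, if_true,
      Units.val_one, hω] at e1 e2 e3
    simp at e1 e2 e3
    rcases e2 with h | h
    · rw [h] at e3; simp at e3
    · rw [h] at e1; simp at e1
  have hyN : y ∉ N₀ := by
    intro h
    rw [hN₀] at h
    have h1 := (Subgroup.mem_set_normalizer_iff.mp h W).mp (Or.inl rfl)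
    rw [hy, hW, ← map_inv, ← map_mul, ← map_mul] at h1
    rcases h1 with h1 | h1
    · have h2 := congrFun (bd_injective h1) k0
      simp only [Pi.mul_apply, Pi.inv_apply, if_true] at h2
      rw [mul_inv_eq_iff_eq_mul] at h2
      have h3 := congrArg (fun g : Matrix.GeneralLinearGroup (Fin 2) F =>
        (g : Matrix (Fin 2) (Fin 2) F) 0 1) h2
      simp only [Units.val_mul, hs, hω, Matrix.mul_fin_two] at h3
      simp at h3
    · have h1' : bd ((fun k => if k = k0 then s else 1) * (fun _ => ω) *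
          (fun k => if k = k0 then s else 1)⁻¹) = bd (fun _ : Fin n₂ => ω') := by
        rw [← hW']; exact h1
      have h2 := congrFun (bd_injective h1') k1
      simp only [Pi.mul_apply, Pi.inv_apply, if_neg hk01] at h2
      have h3 := congrArg (fun g : Matrix.GeneralLinearGroup (Fin 2) F =>
        (g : Matrix (Fin 2) (Fin 2) F) 0 0) h2
      simp only [one_mul, inv_one, mul_one, hω, hω'] at h3
      simp at h3
  have inj1 : Function.Injective (Cfsg.Geo.glReindex (F := F) e.symm).toMonoidHom :=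
    (Cfsg.Geo.glReindex (F := F) e.symm).injective
  have inj2 : Function.Injective (MulAut.conj P).toMonoidHom := (MulAut.conj P).injective
  refine ⟨(N₀.map (Cfsg.Geo.glReindex e.symm).toMonoidHom).map (MulAut.conj P).toMonoidHom,
    ?_, ?_⟩
  · refine lt_of_le_of_ne ?_ ?_
    · exact inf_le_left.trans (Subgroup.map_mono (Subgroup.map_mono hKron))
    · intro heq
      have h1 : (MulAut.conj P).toMonoidHom ((Cfsg.Geo.glReindex e.symm).toMonoidHom x) ∈
          (N₀.map (Cfsg.Geo.glReindex e.symm).toMonoidHom).map (MulAut.conj P).toMonoidHom :=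
        Subgroup.mem_map_of_mem _ (Subgroup.mem_map_of_mem _ hxN)
      rw [← heq] at h1
      have h2 := (Subgroup.mem_inf.mp h1).1
      unfold Cfsg.Geo.tensorProductSubgroup at h2
      rw [Subgroup.mem_map_iff_mem inj2, Subgroup.mem_map_iff_mem inj1] at h2
      exact hxK h2
  · refine lt_of_le_of_ne (fun g _ => hSL g) ?_
    intro heq
    have h1 := hSL ((MulAut.conj P).toMonoidHom ((Cfsg.Geo.glReindex e.symm).toMonoidHom y))
    rw [← heq, Subgroup.mem_map_iff_mem inj2, Subgroup.mem_map_iff_mem inj1] at h1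
    exact hyN h1

end Cfsg.Agent.S5638
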