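import Cfsg.Statements.S5639
import Cfsg.Agent.Lib.Helper6.SubGen2
import Cfsg.Agent.Lib.Helper6.SpMax

set_option autoImplicit false
open Cfsg

namespace Cfsg.Agent.S5639

open Cfsg.Agent.Lib.Helper6 Matrix

/-- For a finite field F, a subfield F₀ with |F| = |F₀| ^ r for a prime r, and n ≥ 13, the subfield group (the conjugate by any P of the product of GL_n(F₀) with the non-zero scalars of F, intersected with SL_n(F)) is a maximal subgroup of SL_n(F). -/
theorem result {F : Type*} [Field F] [Fintype F] (n : ℕ) (hn : 13 ≤ n) (F₀ : Subfield F) (r : ℕ) (hr : r.Prime) (hcard : Fintype.card F = Nat.card F₀ ^ r) (P : Matrix.GeneralLinearGroup (Fin n) F) : Cfsg.Geo.IsMaximalIn (Cfsg.Geo.specialLinear (Fin n) F) (Cfsg.Geo.subfieldSubgroup F₀ P ⊓ Cfsg.Geo.specialLinear (Fin n) F) := by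
  have hcn : Fintype.card (Fin n) = n := Fintype.card_fin n
  apply isMaximalIn_of _ _ inf_le_right
  · -- properness
    have hex : ∃ c : F, c ∉ F₀ := by
      by_contra hall
      push Not at hall
      have htop : F₀ = ⊤ := by
        rw [eq_top_iff]; intro x _; exact hall x
      have h1 : Nat.card F₀ = Fintype.card F := by
        rw [htop, ← Nat.card_eq_fintype_card]
        exact Nat.card_congr (Subfield.topEquiv (K := F)).toEquiv
      have h2 : 1 < Fintype.card F := Fintype.one_lt_card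
      rw [h1] at hcard
      have h3 : Fintype.card F ^ 1 < Fintype.card F ^ r := Nat.pow_lt_pow_right h2 hr.one_lt
      rw [pow_one] at h3
      omega
    obtain ⟨c, hc⟩ := hex
    let i0 : Fin n := ⟨0, by omega⟩
    let i1 : Fin n := ⟨1, by omega⟩
    have h01 : i0 ≠ i1 := by
      intro h
      have := congrArg Fin.val h
      simp [i0, i1] at this
    have hz : (c • rC F₀ P (Pi.single i1 1)) ⬝ᵥ rE F₀ P (Pi.single i0 1) = 0 := by
      rw [smul_dotProduct, rC_dot_rE]
      simp [h01]
    refine ⟨glT (rE F₀ P (Pi.single i0 1)) (c • rC F₀ P (Pi.single i1 1)) hz, glT_mem_SL _ _ _, ?_⟩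
    intro hmem
    obtain ⟨l, hl, hrat⟩ := exists_of_mem_subfieldSubgroup F₀ P _ (Subgroup.mem_inf.mp hmem).1
    have r0 := hrat _ (rat_rE F₀ P (Pi.single i0 1)) i0
    have r1 := hrat _ (rat_rE F₀ P (Pi.single i1 1)) i0
    rw [← rC_single_dot F₀ P, glT_mulVec, dotProduct_smul, dotProduct_add, dotProduct_smul,
      smul_dotProduct, rC_dot_rE, rC_dot_rE] at r0 r1
    rw [rC_dot_rE] at r1
    simp [h01, h01.symm] at r0 r1
    apply hc
    have := F₀.mul_mem r0 r1
    rwa [← mul_assoc, mul_inv_cancel₀ hl, one_mul] at this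
  · rintro M hPM hMK ⟨h, hhM, hhP⟩
    by_contra hcon
    have NW : ∀ c, c ∈ ringSet F₀ P M → c ∈ F₀ := fun c hc => by
      by_contra hc'
      exact hcon (SL_le_of_irrational hPM (by rw [hcn]; omega) r hr hcard hc hc')
    have hhP' : h ∉ Cfsg.Geo.subfieldSubgroup F₀ P :=
      fun hm => hhP (Subgroup.mem_inf.mpr ⟨hm, hMK hhM⟩)
    have hhP'' : h⁻¹ ∉ Cfsg.Geo.subfieldSubgroup F₀ P :=
      fun hm => hhP' (by simpa using (Cfsg.Geo.subfieldSubgroup F₀ P).inv_mem hm)
    exact generic_false hPM hMK (by rw [hcn]; omega) NW hhM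
      (fun u w hu hw => generic_of_notMem hPM (by rw [hcn]; omega) NW hhM hhP' hu hw)
      (fun u w hu hw => generic_of_notMem hPM (by rw [hcn]; omega) NW (M.inv_mem hhM) hhP'' hu hw)

end Cfsg.Agent.S5639
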