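import Cfsg.Statements.S5643
import Cfsg.Agent.Lib.Helper6.UForm

set_option autoImplicit false
open Cfsg

namespace Cfsg.Agent.S5643

open Cfsg.Agent.Lib.Helper6 Matrix

/-- For a finite field F and n ≥ 13, let σ be a field automorphism of F of order two and f a non-degenerate unitary form on F^n with respect to σ. Then the elements of SL_n(F) that are similarities of f form a maximal subgroup of SL_n(F). -/
theorem result {F : Type*} [Field F] [Fintype F] (n : ℕ) (hn : 13 ≤ n) (σ : F ≃+* F) (f : (Fin n → F) → (Fin n → F) → F) (hf : Cfsg.Geo.IsUnitaryForm σ f) : Cfsg.Geo.IsMaximalIn (Cfsg.Geo.specialLinear (Fin n) F) (Cfsg.Geo.similarityGroup f ⊓ Cfsg.Geo.specialLinear (Fin n) F) := by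
  have : Nontrivial (Fin n) := Fin.nontrivial_iff_two_le.mpr (by omega)
  have hn4 : 4 < Fintype.card (Fin n) := by rw [Fintype.card_fin]; omega
  have hn6 : 6 < Fintype.card (Fin n) := by rw [Fintype.card_fin]; omega
  have hn8 : 8 < Fintype.card (Fin n) := by rw [Fintype.card_fin]; omega
  obtain ⟨ζ, hζ0, hζ⟩ := uf_exists_skew hf
  have hb0 : (Pi.single ⟨0, by omega⟩ 1 : Fin n → F) ≠ 0 := by
    intro h0
    have := congrFun h0 ⟨0, by omega⟩
    simp at this
  apply isMaximalIn_of _ _ inf_le_right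
  · obtain ⟨v, hvv, hvb⟩ := uf_iso0 hf hn4 _ hb0
    have hv0 : v ≠ 0 := by
      rintro rfl
      exact hvb (uf_zero_left hf _)
    obtain ⟨x₁, hx₁, -, hx₁v⟩ := uf_exists_perp_notin hf hn4 v v
    have hx₁v' : x₁ ∉ Submodule.span F {v} := by simpa using hx₁v
    obtain ⟨w, hw0, hw1⟩ := exists_row _ x₁ hx₁v'
    have hwv : w ⬝ᵥ v = 0 := hw0 v (Submodule.mem_span_singleton_self v)
    refine ⟨glT v w hwv, glT_mem_SL _ _ _, ?_⟩
    intro hmem
    obtain ⟨c, hc⟩ := (Subgroup.mem_inf.mp hmem).1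
    obtain ⟨y₀, hy₀⟩ := (hf.nondegenerate v hv0).2
    have h1 := hc v y₀
    rw [glT_mulVec, glT_mulVec, hwv, zero_smul, add_zero, uf_add_right hf, uf_smul_right hf, hvv,
      mul_zero, add_zero] at h1
    have hc1 : (c : F) = 1 := by
      have : ((c : F) - 1) * f v y₀ = 0 := by linear_combination -h1
      rcases mul_eq_zero.mp this with h | h
      · linear_combination h
      · exact absurd h hy₀
    have h2 := hc x₁ y₀
    rw [glT_mulVec, glT_mulVec, hw1, one_smul, hc1, one_mul, hf.add_left, uf_add_right hf,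
      uf_add_right hf, uf_smul_right hf, uf_smul_right hf, hvv, hx₁] at h2
    apply hy₀
    linear_combination h2
  · intro M hPM hMK ⟨h, hhM, hhP⟩
    apply specialLinear_le_of_centreSet
    have hhsim : h ∉ Cfsg.Geo.similarityGroup f :=
      fun hc => hhP (Subgroup.mem_inf.mpr ⟨hc, hMK hhM⟩)
    have hS : ∀ (v : Fin n → F) (hv : f v v = 0) (c : F) (_ : σ c = -c),
        glT v (c • uPhi f v) (uS_aux hf v hv c) ∈ M := fun v hv c hc => hPM (uS_mem hf v hv c hc)
    have hconj : ∀ (u' : Fin n → F) (_ : f u' u' = 0) (c : F) (_ : σ c = -c) (v z : Fin n → F)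
        (w : F), THas M v (w • uPhi f z) →
        THas M (v + (c * f v u') • u') (w • uPhi f (z + (c * f z u') • u')) := by
      intro u' hu' c hc v z w ht
      have h1 := ht.conj (hS u' hu' c hc)
      rwa [uS_mulVec hf u' hu', Matrix.smul_vecMul,
        uPhi_vecMul_of_isom hf _ (uS_isom hf u' hu' c hc), uS_mulVec hf u' hu'] at h1
    have hsub : ∀ {v w₁ w₂ : Fin n → F}, THas M v w₁ → THas M v w₂ → w₁ ⬝ᵥ v = 0 →
        THas M v (w₂ - w₁) := by
      intro v w₁ w₂ h1 h2 hw
      have := (h1.neg hw).add h2 (by rw [neg_dotProduct, hw, neg_zero])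
      rwa [neg_add_eq_sub] at this
    have hne0 : ∀ x, x ≠ 0 → (h : Matrix (Fin n) (Fin n) F) *ᵥ x ≠ 0 := by
      intro x hx h0
      apply hx
      have := gl_inv_mulVec h x
      rw [h0, Matrix.mulVec_zero] at this
      exact this.symm
    -- Step A
    have hf' : Cfsg.Geo.IsUnitaryForm σ (fun y u => f ((h : Matrix (Fin n) (Fin n) F) *ᵥ y)
        ((h : Matrix (Fin n) (Fin n) F) *ᵥ u)) :=
      { ne_refl := hf.ne_refl
        involutive := hf.involutive
        add_left := by intro x y v; simp only [Matrix.mulVec_add, hf.add_left]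
        smul_left := by intro c x v; simp only [Matrix.mulVec_smul, hf.smul_left]
        herm := fun v w => hf.herm _ _
        nondegenerate := by
          intro v hv
          obtain ⟨⟨x, hx⟩, ⟨y, hy⟩⟩ := hf.nondegenerate _ (hne0 v hv)
          refine ⟨⟨((h⁻¹ : Matrix.GeneralLinearGroup (Fin n) F) : Matrix (Fin n) (Fin n) F) *ᵥ x, ?_⟩,
            ⟨((h⁻¹ : Matrix.GeneralLinearGroup (Fin n) F) : Matrix (Fin n) (Fin n) F) *ᵥ y, ?_⟩⟩
          · simp only [gl_mulVec_inv]; exact hx
          · simp only [gl_mulVec_inv]; exact hy }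
    have hexu : ∃ u, f u u = 0 ∧ ¬ ∃ a : F, ∀ y, f y u = a * f ((h : Matrix (Fin n) (Fin n) F) *ᵥ y)
        ((h : Matrix (Fin n) (Fin n) F) *ᵥ u) := by
      by_contra hcon
      push Not at hcon
      obtain ⟨a, ha⟩ := uf_prop_const hn4 hf hf' hcon
      have ha0 : a ≠ 0 := by
        rintro rfl
        obtain ⟨x, hx⟩ := (hf.nondegenerate _ hb0).1
        apply hx
        rw [ha]; ring
      apply hhsim
      refine ⟨Units.mk0 a⁻¹ (inv_ne_zero ha0), fun u v => ?_⟩
      rw [Units.val_mk0, ha u v]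
      field_simp
    obtain ⟨u₀, hu₀u₀, hu₀⟩ := hexu
    set v := (h : Matrix (Fin n) (Fin n) F) *ᵥ u₀ with hv
    obtain ⟨z₀, hz₀⟩ := uPhi_surj hf (uPhi f u₀ ᵥ* ((h⁻¹ : Matrix.GeneralLinearGroup (Fin n) F) :
      Matrix (Fin n) (Fin n) F))
    have hz₀f : ∀ x, f x z₀ = f (((h⁻¹ : Matrix.GeneralLinearGroup (Fin n) F) :
      Matrix (Fin n) (Fin n) F) *ᵥ x) u₀ := by
      intro x
      rw [← uPhi_dot hf, hz₀, ← Matrix.dotProduct_mulVec, uPhi_dot hf]
    have hvz₀ : f v z₀ = 0 := by
      rw [hz₀f, hv, gl_inv_mulVec, hu₀u₀]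
    have hz₀v : z₀ ∉ Submodule.span F {v} := by
      intro hmem
      obtain ⟨b, hb'⟩ := Submodule.mem_span_singleton.mp hmem
      apply hu₀
      refine ⟨σ b, fun y => ?_⟩
      have := hz₀f ((h : Matrix (Fin n) (Fin n) F) *ᵥ y)
      rw [gl_inv_mulVec, ← hb', uf_smul_right hf] at this
      exact this.symm
    have hv0 : v ≠ 0 := by
      apply hne0
      rintro rfl
      apply hu₀
      exact ⟨0, fun y => by rw [uf_zero_right hf]; ring⟩
    have hdz₀ : uPhi f z₀ ⬝ᵥ v = 0 := by rw [uPhi_dot hf, hvz₀]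
    have hTz₀ : ∀ c, σ c = -c → THas M v (c • uPhi f z₀) := by
      intro c hc
      have h1 : THas M u₀ (c • uPhi f u₀) := THas_of_mem _ (hS u₀ hu₀u₀ c hc)
      have h2 := h1.conj hhM
      rwa [Matrix.smul_vecMul, ← hz₀] at h2
    -- Step B
    have hB1 : ∀ u', f u' u' = 0 → f v u' = 0 → ∀ r, σ r = r →
        THas M v ((r * f u' z₀) • uPhi f u') := by
      intro u' hu' hvu' r hr
      have hc' : σ (-(r / ζ)) = -(-(r / ζ)) := by
        rw [map_neg, map_div₀, hr, hζ]
        field_simp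
      have h1 := hconj u' hu' ζ hζ v z₀ (-(r / ζ)) (hTz₀ _ hc')
      rw [hvu', mul_zero, zero_smul, add_zero, uPhi_add hf, uPhi_smul hf, smul_add] at h1
      have h2 := hsub (hTz₀ _ hc') h1 (by rw [smul_dotProduct, hdz₀, smul_zero])
      rw [add_sub_cancel_left, smul_smul] at h2
      have e : -(r / ζ) * σ (ζ * f z₀ u') = r * f u' z₀ := by
        rw [map_mul, hζ, ← hf.herm u' z₀]
        field_simp
      rwa [e] at h2
    have hB3 : ∀ y u', f y y = 0 → f u' u' = 0 → f v y = 0 → f v u' = 0 → f u' y = 0 →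
        f y z₀ = 0 → f u' z₀ ≠ 0 → ∀ μ : F, THas M v (μ • uPhi f y) := by
      intro y u' hyy hu'u' hvy hvu' hu'y hyz hu'z μ
      set l := σ (μ / f u' z₀) with hl
      have hiso : f (u' + l • y) (u' + l • y) = 0 := by
        rw [uf_norm_expand hf, hu'y, hu'u', hyy]; simp
      have hv' : f v (u' + l • y) = 0 := by
        rw [uf_add_right hf, uf_smul_right hf, hvu', hvy]; simp
      have h1 := hB1 _ hiso hv' 1 (map_one σ)
      have h2 := hB1 _ hu'u' hvu' 1 (map_one σ)
      rw [one_mul, hf.add_left, hf.smul_left, hyz, mul_zero, add_zero, uPhi_add hf, uPhi_smul hf,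
        smul_add] at h1
      rw [one_mul] at h2
      have h3 := hsub h2 h1 (by rw [smul_dotProduct, uPhi_dot hf, hvu', smul_zero])
      rw [add_sub_cancel_left, smul_smul] at h3
      have e : f u' z₀ * σ l = μ := by
        rw [hl, hf.involutive]; field_simp
      rwa [e] at h3
    -- choice of y
    obtain ⟨b, hbv, hbz, hbn⟩ := uf_exists_perp_notin hf hn4 v z₀
    obtain ⟨y, hyy, hyv, hyz, hyb⟩ := uf_iso2 hf hn8 v z₀ b hbn
    have hyn : y ∉ Submodule.span F {v, z₀} := by
      intro hmem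
      obtain ⟨α, β, rfl⟩ := Submodule.mem_span_pair.mp hmem
      apply hyb
      rw [hf.add_left, hf.smul_left, hf.smul_left, uf_eq_zero_symm hf hbv, uf_eq_zero_symm hf hbz]
      ring
    have hz₀n : z₀ ∉ Submodule.span F {v, y} := by
      intro hmem
      obtain ⟨α, β, hαβ⟩ := Submodule.mem_span_pair.mp hmem
      by_cases hβ : β = 0
      · apply hz₀v
        rw [hβ, zero_smul, add_zero] at hαβ
        rw [← hαβ]
        exact Submodule.smul_mem _ _ (Submodule.mem_span_singleton_self v)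
      · apply hyn
        have : y = (-(β⁻¹ * α)) • v + β⁻¹ • z₀ := by
          rw [← hαβ, smul_add, smul_smul, smul_smul, inv_mul_cancel₀ hβ, one_smul, neg_smul]
          abel
        rw [this]
        exact Submodule.mem_span_pair.mpr ⟨_, _, rfl⟩
    obtain ⟨u', hu'u', hu'v, hu'y, hu'z⟩ := uf_iso2 hf hn8 v y z₀ hz₀n
    have hvy : ∀ μ : F, THas M v (μ • uPhi f y) :=
      hB3 y u' hyy hu'u' (uf_eq_zero_symm hf hyv) (uf_eq_zero_symm hf hu'v) hu'y hyz hu'z
    -- Step C
    have hvny : v ∉ Submodule.span F {y} := by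
      intro hmem
      obtain ⟨α, hα⟩ := Submodule.mem_span_singleton.mp hmem
      have hα0 : α ≠ 0 := by
        rintro rfl
        rw [zero_smul] at hα
        exact hv0 hα.symm
      apply hyn
      have : y = α⁻¹ • v + (0 : F) • z₀ := by
        rw [← hα, smul_smul, inv_mul_cancel₀ hα0, one_smul, zero_smul, add_zero]
      rw [this]
      exact Submodule.mem_span_pair.mpr ⟨_, _, rfl⟩
    obtain ⟨u, huu, huy, huv⟩ := uf_iso1 hf hn6 y v hvny
    have hvu : f v u ≠ 0 := uf_ne_zero_symm hf huv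
    have hyu : f y u = 0 := uf_eq_zero_symm hf huy
    have huY : ∀ μ : F, THas M u (μ • uPhi f y) := by
      intro μ
      have h1 := hconj u huu ζ hζ v y (μ / (ζ * f v u)) (hvy _)
      rw [hyu, mul_zero, zero_smul, add_zero] at h1
      have h2 : THas M (-v) ((μ / (ζ * f v u)) • uPhi f y) := by
        have := (hvy (μ / (ζ * f v u))).neg (by rw [smul_dotProduct, uPhi_dot hf,
          uf_eq_zero_symm hf hyv, smul_zero])
        have e : -v = (-1 : F) • v := by simp
        rw [e, THas_smul_iff]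
        simpa using this
      have h3 := h2.add_left h1 (by
        rw [smul_dotProduct, uPhi_dot hf, hf.add_left, hf.smul_left, uf_eq_zero_symm hf hyv, huy]
        simp)
      rw [neg_add_cancel_left, THas_smul_iff, smul_smul] at h3
      have e : ζ * f v u * (μ / (ζ * f v u)) = μ := by field_simp
      rwa [e] at h3
    have hu0 : u ≠ 0 := by
      rintro rfl
      exact huv (uf_zero_left hf _)
    have hy0 : y ≠ 0 := by
      rintro rfl
      exact hyn (Submodule.zero_mem _)
    have hynu : y ∉ Submodule.span F {u} := by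
      intro hmem
      obtain ⟨α, hα⟩ := Submodule.mem_span_singleton.mp hmem
      have h1 := hyv
      rw [← hα, hf.smul_left] at h1
      rcases mul_eq_zero.mp h1 with h0 | h0
      · apply hy0
        rw [← hα, h0, zero_smul]
      · exact huv h0
    -- Step D
    have hD1 : ∀ y' u', (∀ μ : F, THas M u (μ • uPhi f y')) → f u y' = 0 → f u' u' = 0 →
        f u u' = 0 → f y' u' ≠ 0 → ∀ μ : F, THas M u (μ • uPhi f u') := by
      intro y' u' hy' huy' hu'u' huu' hy'u' μ
      have hs : σ (ζ * f y' u') ≠ 0 := by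
        simpa using mul_ne_zero hζ0 hy'u'
      have h1 := hconj u' hu'u' ζ hζ u y' (μ / σ (ζ * f y' u')) (hy' _)
      rw [huu', mul_zero, zero_smul, add_zero, uPhi_add hf, uPhi_smul hf, smul_add] at h1
      have h2 := hsub (hy' (μ / σ (ζ * f y' u'))) h1
        (by rw [smul_dotProduct, uPhi_dot hf, huy', smul_zero])
      rw [add_sub_cancel_left, smul_smul, div_mul_cancel₀ _ hs] at h2
      exact h2
    have hD3 : ∀ μ : F, THas M u (μ • uPhi f u) := by
      intro μ
      obtain ⟨u₁, h11, h1u, h1y⟩ := uf_iso1 hf hn6 u y hynu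
      have hA := hD1 y u₁ huY huy h11 (uf_eq_zero_symm hf h1u) (uf_ne_zero_symm hf h1y) μ
      have hiso : f (u₁ + u) (u₁ + u) = 0 := by
        rw [hf.add_left, uf_add_right hf, uf_add_right hf, h11, huu, h1u, uf_eq_zero_symm hf h1u]
        ring
      have hB := hD1 y (u₁ + u) huY huy hiso
        (by rw [uf_add_right hf, uf_eq_zero_symm hf h1u, huu, add_zero])
        (by rw [uf_add_right hf, hyu, add_zero]; exact uf_ne_zero_symm hf h1y) μ
      have h3 := hsub hA hB (by rw [smul_dotProduct, uPhi_dot hf, uf_eq_zero_symm hf h1u, smul_zero])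
      rwa [uPhi_add hf, smul_add, add_sub_cancel_left] at h3
    have hD2 : ∀ u', f u' u' = 0 → f u u' = 0 → ∀ μ : F, THas M u (μ • uPhi f u') := by
      intro u' hu'u' huu' μ
      by_cases hmem : u' ∈ Submodule.span F {u}
      · obtain ⟨α, rfl⟩ := Submodule.mem_span_singleton.mp hmem
        rw [uPhi_smul hf, smul_smul]
        exact hD3 _
      · obtain ⟨u₁, h11, h1u, h1y, h1u'⟩ := uf_iso1₂ hf hn6 u y u' hynu hmem
        have hA := hD1 y u₁ huY huy h11 (uf_eq_zero_symm hf h1u) (uf_ne_zero_symm hf h1y)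
        exact hD1 u₁ u' hA (uf_eq_zero_symm hf h1u) hu'u' huu' h1u' μ
    have huC : u ∈ centreSet M := by
      intro w hw
      obtain ⟨z, rfl⟩ := uPhi_surj hf w
      rw [uPhi_dot hf] at hw
      by_cases hmem : z ∈ Submodule.span F {u}
      · obtain ⟨α, rfl⟩ := Submodule.mem_span_singleton.mp hmem
        rw [uPhi_smul hf]
        exact hD3 _
      · obtain ⟨e, hee, heu, hez⟩ := uf_iso1 hf hn6 u z hmem
        obtain ⟨l, hl⟩ := uf_isotropize hf z e hee (uf_ne_zero_symm hf hez)
        have h1 := hD2 _ hl (by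
          rw [uf_add_right hf, uf_smul_right hf, hw, uf_eq_zero_symm hf heu]; simp) 1
        have h2 := hD2 e hee (uf_eq_zero_symm hf heu) (σ l)
        have h3 := hsub h2 h1 (by rw [smul_dotProduct, uPhi_dot hf, uf_eq_zero_symm hf heu,
          smul_zero])
        rwa [one_smul, uPhi_add hf, uPhi_smul hf, add_sub_cancel_right] at h3
    -- Step E
    have hE1 : ∀ u₁ x, u₁ ∈ centreSet M → f x x = 0 → f u₁ x ≠ 0 → x ∈ centreSet M := by
      intro u₁ x hu₁ hxx hux
      have h1 := centreSet_mulVec hu₁ (hS x hxx ζ hζ)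
      rw [uS_mulVec hf x hxx] at h1
      have h2 := centreSet_add h1 (centreSet_neg hu₁)
      rw [add_comm u₁, add_neg_cancel_right] at h2
      have h3 := centreSet_smul h2 (ζ * f u₁ x)⁻¹
      rwa [smul_smul, inv_mul_cancel₀ (mul_ne_zero hζ0 hux), one_smul] at h3
    have hE2 : ∀ x, f x x = 0 → x ∈ centreSet M := by
      intro x hxx
      by_cases hx0 : x = 0
      · rw [hx0]; exact centreSet_zero
      obtain ⟨x₁, h11, h1u, h1x⟩ := uf_iso0₂ hf hn4 u x hu0 hx0
      exact hE1 x₁ x (hE1 u x₁ huC h11 (uf_ne_zero_symm hf h1u)) hxx h1x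
    intro x
    by_cases hx0 : x = 0
    · rw [hx0]; exact centreSet_zero
    obtain ⟨e, hee, hex⟩ := uf_iso0 hf hn4 x hx0
    obtain ⟨l, hl⟩ := uf_isotropize hf x e hee (uf_ne_zero_symm hf hex)
    have h1 := centreSet_add (hE2 _ hl) (centreSet_neg (centreSet_smul (hE2 e hee) l))
    rwa [add_neg_cancel_right] at h1

end Cfsg.Agent.S5643
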