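import Cfsg.Statements.S5644
import Cfsg.Agent.Lib.Helper6.OForm

set_option autoImplicit false
open Cfsg

namespace Cfsg.Agent.S5644

open Cfsg.Agent.Lib.Helper6 Matrix QuadraticMap

/-- For a finite field F of odd order and n ≥ 13, let Q be a non-degenerate quadratic form on F^n (its polar form is non-degenerate). Then the elements of SL_n(F) that are similarities of Q (Q(gv) = c Q(v) for a non-zero scalar c depending on g) form a maximal subgroup of SL_n(F). -/
theorem result {F : Type*} [Field F] [Fintype F] (n : ℕ) (hn : 13 ≤ n) (hodd : Odd (Fintype.card F)) (Q : (Fin n → F) → F) (hQ : Cfsg.Geo.IsNondegenerateQuadraticForm Q) : Cfsg.Geo.IsMaximalIn (Cfsg.Geo.specialLinear (Fin n) F) (Cfsg.Geo.quadSimilarityGroup Q ⊓ Cfsg.Geo.specialLinear (Fin n) F) := by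
  have h2 : (2 : F) ≠ 0 := by
    intro h
    have h1 : ringChar F = 2 := CharP.ringChar_of_prime_eq_zero Nat.prime_two (by exact_mod_cast h)
    have h3 := FiniteField.even_card_of_char_two h1
    rcases hodd with ⟨r, hr⟩
    omega
  have : Nontrivial (Fin n) := Fin.nontrivial_iff_two_le.mpr (by omega)
  have hcard : Fintype.card (Fin n) = n := Fintype.card_fin n
  apply isMaximalIn_of _ _ inf_le_right
  · obtain ⟨v, -, hv⟩ := oq_exists_ns hQ (k := 0) (by omega) ![]
    obtain ⟨x₁, hx₁w, hx₁⟩ := oq_exists_ns hQ (k := 1) (by omega) ![oPhi Q v]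
    have hx₁v : polar Q x₁ v = 0 := by rw [← oPhi_dot hQ]; exact hx₁w 0
    have hx₁n : x₁ ∉ Submodule.span F {v} := by
      intro hmem
      obtain ⟨a, rfl⟩ := Submodule.mem_span_singleton.mp hmem
      rw [hQ.polar_bilinear.smul_left, oq_polar_self hQ] at hx₁v
      rcases mul_eq_zero.mp hx₁v with h | h
      · apply hx₁
        rw [h, zero_smul, oq_zero hQ]
      · exact (mul_ne_zero h2 hv) h
    obtain ⟨w, hw0, hw1⟩ := exists_row _ x₁ hx₁n
    have hwv : w ⬝ᵥ v = 0 := hw0 v (Submodule.mem_span_singleton_self v)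
    refine ⟨glT v w hwv, glT_mem_SL _ _ _, ?_⟩
    intro hmem
    obtain ⟨c, hc⟩ := (Subgroup.mem_inf.mp hmem).1
    have h1 := hc v
    rw [glT_mulVec, hwv, zero_smul, add_zero] at h1
    have hc1 : (c : F) = 1 := by
      have : ((c : F) - 1) * Q v = 0 := by linear_combination -h1
      rcases mul_eq_zero.mp this with h | h
      · linear_combination h
      · exact absurd h hv
    have h3 := hc x₁
    rw [glT_mulVec, hw1, one_smul, hc1, one_mul, oq_add Q, hx₁v] at h3
    apply hv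
    linear_combination h3
  · intro M hPM hMK ⟨h, hhM, hhP⟩
    apply specialLinear_le_of_centreSet
    have hhsim : h ∉ Cfsg.Geo.quadSimilarityGroup Q :=
      fun hc => hhP (Subgroup.mem_inf.mpr ⟨hc, hMK hhM⟩)
    have hsub : ∀ {v w₁ w₂ : Fin n → F}, THas M v w₁ → THas M v w₂ → w₁ ⬝ᵥ v = 0 →
        THas M v (w₂ - w₁) := by
      intro v w₁ w₂ h1 h2 hw
      have := (h1.neg hw).add h2 (by rw [neg_dotProduct, hw, neg_zero])
      rwa [neg_add_eq_sub] at this
    set Q' : (Fin n → F) → F := fun x => Q (((h⁻¹ : Matrix.GeneralLinearGroup (Fin n) F) :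
      Matrix (Fin n) (Fin n) F) *ᵥ x) with hQ'def
    have hQ' : Cfsg.Geo.IsNondegenerateQuadraticForm Q' := oq_comp hQ h⁻¹
    have hRR : ∀ (b c : Fin n → F) (hb : Q b ≠ 0) (hc : Q c ≠ 0), oR hQ b hb * oR hQ c hc ∈ M :=
      fun b c hb hc => hPM (oRR_mem hQ b c hb hc)
    have hRR' : ∀ (b c : Fin n → F) (hb : Q' b ≠ 0) (hc : Q' c ≠ 0),
        oR hQ' b hb * oR hQ' c hc ∈ M := by
      intro b c hb hc
      have e : oR hQ' b hb * oR hQ' c hc = h * (oR hQ _ hb * oR hQ _ hc) * h⁻¹ := by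
        rw [show oR hQ' b hb = _ from oR_conj hQ h b hb, show oR hQ' c hc = _ from oR_conj hQ h c hc]
        group
      rw [e]
      exact M.mul_mem (M.mul_mem hhM (hRR _ _ _ _)) (M.inv_mem hhM)
    -- Stage 1
    set φ : (Fin n → F) → (Fin n → F) := fun b => oRho Q b - oRho Q' b with hφ
    have hφself : ∀ b, Q b ≠ 0 → Q' b ≠ 0 → φ b ⬝ᵥ b = 0 := by
      intro b hb hb'
      rw [hφ]
      simp only [sub_dotProduct]
      rw [oRho_self hQ b hb, oRho_self hQ' b hb', sub_self]
    have hφorth : ∀ b c, polar Q c b = 0 → polar Q' c b = 0 → φ b ⬝ᵥ c = 0 := by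
      intro b c h1 h1'
      rw [hφ]
      simp only [sub_dotProduct]
      rw [oRho_orth hQ h1, oRho_orth hQ' h1', sub_self]
    have hE : ∀ b c, Q b ≠ 0 → Q' b ≠ 0 → Q c ≠ 0 → Q' c ≠ 0 → polar Q b c = 0 →
        polar Q' b c = 0 → ∃ g ∈ M, ∀ x, (g : Matrix (Fin n) (Fin n) F) *ᵥ x =
          x + (φ b ⬝ᵥ x) • b + (φ c ⬝ᵥ x) • c := by
      intro b c hb hb' hc hc' hbc hbc'
      refine ⟨(oR hQ b hb * oR hQ c hc) * (oR hQ' c hc' * oR hQ' b hb'),
        M.mul_mem (hRR _ _ _ _) (hRR' _ _ _ _), fun x => ?_⟩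
      rw [Units.val_mul, Units.val_mul, Units.val_mul, ← Matrix.mulVec_mulVec,
        ← Matrix.mulVec_mulVec, ← Matrix.mulVec_mulVec, oR_mulVec', oR_mulVec', oR_mulVec',
        oR_mulVec']
      have e1 := oRho_self hQ b hb
      have e2 := oRho_self hQ c hc
      have e3 := oRho_self hQ' b hb'
      have e4 := oRho_self hQ' c hc'
      have e5 : oRho Q c ⬝ᵥ b = 0 := oRho_orth hQ hbc
      have e6 : oRho Q' c ⬝ᵥ b = 0 := oRho_orth hQ' hbc'
      have e7 : oRho Q b ⬝ᵥ c = 0 := oRho_orth hQ (by rw [oq_comm]; exact hbc)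
      have e8 : oRho Q' b ⬝ᵥ c = 0 := oRho_orth hQ' (by rw [oq_comm]; exact hbc')
      simp only [hφ, dotProduct_add, dotProduct_smul, sub_dotProduct, e1, e2, e3, e4, e5, e6, e7,
        e8, smul_eq_mul]
      module
    have hT : ∀ b c d, Q b ≠ 0 → Q' b ≠ 0 → Q c ≠ 0 → Q' c ≠ 0 → Q d ≠ 0 → Q' d ≠ 0 →
        polar Q b c = 0 → polar Q' b c = 0 → polar Q b d = 0 → polar Q' b d = 0 →
        polar Q c d = 0 → polar Q' c d = 0 → THas M b ((2 : F) • φ b) := by
      intro b c d hb hb' hc hc' hd hd' hbc hbc' hbd hbd' hcd hcd'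
      obtain ⟨g₁, hg₁, e₁⟩ := hE b c hb hb' hc hc' hbc hbc'
      obtain ⟨g₂, hg₂, e₂⟩ := hE b d hb hb' hd hd' hbd hbd'
      obtain ⟨g₃, hg₃, e₃⟩ := hE c d hc hc' hd hd' hcd hcd'
      have f1 := hφself b hb hb'
      have f2 : φ b ⬝ᵥ c = 0 := hφorth b c (by rw [oq_comm]; exact hbc) (by rw [oq_comm]; exact hbc')
      have f3 : φ b ⬝ᵥ d = 0 := hφorth b d (by rw [oq_comm]; exact hbd) (by rw [oq_comm]; exact hbd')
      have f4 : φ c ⬝ᵥ b = 0 := hφorth c b hbc hbc'
      have f5 : φ c ⬝ᵥ d = 0 := hφorth c d (by rw [oq_comm]; exact hcd) (by rw [oq_comm]; exact hcd')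
      have hz : ((2 : F) • φ b) ⬝ᵥ b = 0 := by rw [smul_dotProduct, f1, smul_zero]
      have e : g₁ * g₂ * g₃⁻¹ = glT b ((2 : F) • φ b) hz := by
        rw [mul_inv_eq_iff_eq_mul]
        apply gl_ext_mulVec
        intro x
        rw [Units.val_mul, Units.val_mul, ← Matrix.mulVec_mulVec, ← Matrix.mulVec_mulVec, e₂, e₁,
          e₃, glT_mulVec]
        simp only [dotProduct_add, dotProduct_smul, smul_dotProduct, f1, f2, f3, f4, f5, smul_eq_mul]
        module
      apply THas_of_mem hz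
      rw [← e]
      exact M.mul_mem (M.mul_mem hg₁ hg₂) (M.inv_mem hg₃)
    obtain ⟨b, hb, hb', x₀, hx₀⟩ := oq_exists_noneigen hQ hQ' h2 (by omega) (by
      rintro ⟨a, ha⟩
      have ha0 : a ≠ 0 := by
        rintro rfl
        obtain ⟨e, -, he⟩ := oq_exists_ns hQ' (k := 0) (by omega) ![]
        apply he
        rw [ha]; ring
      apply hhsim
      have : h⁻¹ ∈ Cfsg.Geo.quadSimilarityGroup Q := ⟨Units.mk0 a ha0, fun v => ha v⟩
      simpa using (Cfsg.Geo.quadSimilarityGroup Q).inv_mem this)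
    obtain ⟨c, hcw, hc, hc'⟩ := oq_exists_ns₂ hQ hQ' (k := 2) (by omega) ![oPhi Q b, oPhi Q' b]
    have hcb : polar Q c b = 0 := by rw [← oPhi_dot hQ]; exact hcw 0
    have hcb' : polar Q' c b = 0 := by rw [← oPhi_dot hQ']; exact hcw 1
    obtain ⟨d, hdw, hd, hd'⟩ := oq_exists_ns₂ hQ hQ' (k := 4) (by omega)
      ![oPhi Q b, oPhi Q' b, oPhi Q c, oPhi Q' c]
    have hdb : polar Q d b = 0 := by rw [← oPhi_dot hQ]; exact hdw 0
    have hdb' : polar Q' d b = 0 := by rw [← oPhi_dot hQ']; exact hdw 1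
    have hdc : polar Q d c = 0 := by rw [← oPhi_dot hQ]; exact hdw 2
    have hdc' : polar Q' d c = 0 := by rw [← oPhi_dot hQ']; exact hdw 3
    have hTb := hT b c d hb hb' hc hc' hd hd' (by rw [oq_comm]; exact hcb)
      (by rw [oq_comm]; exact hcb') (by rw [oq_comm]; exact hdb) (by rw [oq_comm]; exact hdb')
      (by rw [oq_comm]; exact hdc) (by rw [oq_comm]; exact hdc')
    obtain ⟨z, hz⟩ := oPhi_surj hQ ((2 : F) • φ b)
    rw [← hz] at hTb
    have hzb : polar Q b z = 0 := by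
      rw [← oPhi_dot hQ, hz, smul_dotProduct, hφself b hb hb', smul_zero]
    have hz0 : z ≠ 0 := by
      rintro rfl
      rw [oPhi_zero hQ] at hz
      have h1 : ((2 : F) • φ b) ⬝ᵥ x₀ = 0 := by rw [← hz, zero_dotProduct]
      rw [smul_dotProduct, smul_eq_mul] at h1
      have h3 : φ b ⬝ᵥ x₀ = 0 := by
        rcases mul_eq_zero.mp h1 with h | h
        · exact absurd h h2
        · exact h
      rw [hφ] at h3
      simp only [sub_dotProduct] at h3
      rw [oRho_dot hQ, oRho_dot hQ'] at h3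
      apply hx₀
      field_simp at h3
      linear_combination h3
    -- Stage 2
    have h2a : ∀ z x, THas M b (oPhi Q z) → polar Q b z = 0 → polar Q x b = 0 → Q x ≠ 0 →
        THas M b ((polar Q z x / Q x) • oPhi Q x) := by
      intro z x ht hbz hxb hx
      obtain ⟨y, hyw, hy⟩ := oq_exists_ns hQ (k := 2) (by omega) ![oPhi Q b, oPhi Q z]
      have hyb : polar Q y b = 0 := by rw [← oPhi_dot hQ]; exact hyw 0
      have hyz : polar Q y z = 0 := by rw [← oPhi_dot hQ]; exact hyw 1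
      have h1 := ht.conj (hRR x y hx hy)
      rw [oPhi_vecMul_of_isom hQ _ (oRR_isom hQ x y hx hy), Units.val_mul, ← Matrix.mulVec_mulVec,
        ← Matrix.mulVec_mulVec, oR_mulVec_orth hQ y hy (by rw [oq_comm]; exact hyb),
        oR_mulVec_orth hQ x hx (by rw [oq_comm]; exact hxb),
        oR_mulVec_orth hQ y hy (by rw [oq_comm]; exact hyz), oR_mulVec hQ, oPhi_sub hQ,
        oPhi_smul hQ] at h1
      have h3 := hsub h1 ht (by
        rw [sub_dotProduct, smul_dotProduct, oPhi_dot hQ, oPhi_dot hQ, hbz, oq_comm b x, hxb]; simp)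
      rwa [sub_sub_cancel] at h3
    have h2b : ∀ z x, THas M b (oPhi Q z) → polar Q b z = 0 → polar Q x b = 0 → Q x ≠ 0 →
        polar Q z x ≠ 0 → ∀ μ : F, THas M b (μ • oPhi Q x) := by
      intro z x ht hbz hxb hx hzx μ
      by_cases hμ : μ = 0
      · rw [hμ, zero_smul]; exact THas_zero_right _
      obtain ⟨w, hww, hw⟩ := oq_exists_value hQ h2 (k := 3) (by omega)
        ![oPhi Q b, oPhi Q z, oPhi Q x] (2 * polar Q z x / μ - Q x)
      have hwb : polar Q w b = 0 := by rw [← oPhi_dot hQ]; exact hww 0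
      have hwz : polar Q w z = 0 := by rw [← oPhi_dot hQ]; exact hww 1
      have hwx : polar Q w x = 0 := by rw [← oPhi_dot hQ]; exact hww 2
      have hq1 : Q (x + w) = 2 * polar Q z x / μ := by rw [oq_add Q, hw, oq_comm x w, hwx]; ring
      have hq2 : Q (x - w) = 2 * polar Q z x / μ := by rw [oq_sub hQ, hw, oq_comm x w, hwx]; ring
      have hne : 2 * polar Q z x / μ ≠ 0 := div_ne_zero (mul_ne_zero h2 hzx) hμ
      have h1 := h2a z (x + w) ht hbz (by rw [hQ.polar_bilinear.add_left, hxb, hwb, add_zero])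
        (by rw [hq1]; exact hne)
      have h3 := h2a z (x - w) ht hbz (by rw [oq_sub_left hQ, hxb, hwb, sub_zero])
        (by rw [hq2]; exact hne)
      rw [hq1, hQ.polar_bilinear.add_right, oq_comm z w, hwz, add_zero] at h1
      rw [hq2, oq_sub_right hQ, oq_comm z w, hwz, sub_zero] at h3
      have h4 := h1.add h3 (by
        rw [smul_dotProduct, oPhi_dot hQ, hQ.polar_bilinear.add_right, oq_comm b x, oq_comm b w,
          hxb, hwb]; simp)
      have e : (polar Q z x / (2 * polar Q z x / μ)) • oPhi Q (x + w) +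
          (polar Q z x / (2 * polar Q z x / μ)) • oPhi Q (x - w) = μ • oPhi Q x := by
        rw [oPhi_add hQ, oPhi_sub hQ, ← smul_add, add_add_sub_cancel, ← two_smul F, smul_smul]
        congr 1
        field_simp
      rwa [e] at h4
    have hrange : Set.range ![b] = {b} := by simp [Matrix.range_cons]
    have hrad : ∀ x, (∀ i, polar Q x (![b] i) = 0) → x ≠ 0 →
        x ∉ Submodule.span F (Set.range ![b]) := by
      intro x hxb hx0 hmem
      rw [hrange] at hmem
      obtain ⟨a, rfl⟩ := Submodule.mem_span_singleton.mp hmem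
      have h1 : polar Q (a • b) b = 0 := hxb 0
      rw [hQ.polar_bilinear.smul_left, oq_polar_self hQ] at h1
      rcases mul_eq_zero.mp h1 with h | h
      · apply hx0
        rw [h, zero_smul]
      · exact (mul_ne_zero h2 hb) h
    have hzn : z ∉ Submodule.span F (Set.range ![b]) :=
      hrad z (fun i => by fin_cases i; rw [oq_comm]; exact hzb) hz0
    obtain ⟨x₁, hx₁, hx₁b, hx₁z, -⟩ := oq_exists₂ hQ (k := 1) (by omega) ![b] z z hzn hzn
    have hall := oq_spread hQ (k := 1) (by omega) ![b]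
      {x | polar Q x b = 0 ∧ ∀ μ : F, THas M b (μ • oPhi Q x)}
      (by
        rintro x y ⟨hx, hx'⟩ ⟨hy, hy'⟩
        refine ⟨by rw [hQ.polar_bilinear.add_left, hx, hy, add_zero], fun μ => ?_⟩
        rw [oPhi_add hQ, smul_add]
        exact (hx' μ).add (hy' μ) (by rw [smul_dotProduct, oPhi_dot hQ, oq_comm, hx, smul_zero]))
      (by
        rintro x ⟨hx, hx'⟩
        refine ⟨by rw [oq_neg_left hQ, hx, neg_zero], fun μ => ?_⟩
        have := hx' (-μ)
        rwa [oPhi_neg hQ, smul_neg, ← neg_smul])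
      (by
        rintro y x ⟨hy, hy'⟩ hxb hx hyx
        have hxb' : polar Q x b = 0 := hxb 0
        refine ⟨hxb', h2b y x (by simpa using hy' 1) (by rw [oq_comm]; exact hy) hxb' hx hyx⟩)
      hrad x₁ ⟨hx₁b 0, h2b z x₁ hTb hzb (hx₁b 0) hx₁ (by rw [oq_comm]; exact hx₁z)⟩
      (hrad x₁ hx₁b (oq_ne_zero hQ hx₁))
    have hbC : b ∈ centreSet M := by
      intro w hw
      obtain ⟨z', rfl⟩ := oPhi_surj hQ w
      rw [oPhi_dot hQ] at hw
      have := (hall z' (fun i => by fin_cases i; rw [oq_comm]; exact hw)).2 1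
      rwa [one_smul] at this
    intro x
    refine oq_spread hQ (k := 0) (by omega) ![] (centreSet M) (fun x y hx hy => centreSet_add hx hy)
      (fun x hx => centreSet_neg hx) ?_ ?_ b hbC ?_ x (fun i => i.elim0)
    · intro y x hy _ hx hyx
      obtain ⟨e, hew, he⟩ := oq_exists_ns hQ (k := 1) (by omega) ![oPhi Q y]
      have hey : polar Q e y = 0 := by rw [← oPhi_dot hQ]; exact hew 0
      have h1 := centreSet_mulVec hy (hRR x e hx he)
      rw [Units.val_mul, ← Matrix.mulVec_mulVec, oR_mulVec_orth hQ e he (by rw [oq_comm]; exact hey),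
        oR_mulVec hQ] at h1
      have h3 := centreSet_add (centreSet_neg h1) hy
      rw [neg_sub, sub_add_cancel] at h3
      have h4 := centreSet_smul h3 (polar Q y x / Q x)⁻¹
      rwa [smul_smul, inv_mul_cancel₀ (div_ne_zero hyx hx), one_smul] at h4
    · intro x _ hx0
      simpa using hx0
    · simpa using oq_ne_zero hQ hb

end Cfsg.Agent.S5644
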