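import Cfsg.Statements.S5645
import Cfsg.Agent.Lib.Helper6.SpMax

set_option autoImplicit false
open Cfsg

namespace Cfsg.Agent.S5645

open Cfsg.Agent.Lib.Helper6 Matrix

variable {F : Type*} [Field F] {m : ℕ}

/-- membership in the stabiliser. -/
theorem mem_P_iff (W : Submodule F (Fin m ⊕ Fin m → F))
    (g : Matrix.GeneralLinearGroup (Fin m ⊕ Fin m) F) :
    g ∈ Cfsg.Geo.subspaceStabilizer W ↔
      ∀ x ∈ W, (g : Matrix (Fin m ⊕ Fin m) (Fin m ⊕ Fin m) F) *ᵥ x ∈ W :=
  mem_stabilizing_submodule_iff _ W g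

section
variable (W : Submodule F (Fin m ⊕ Fin m → F))
  (hW : ∀ u ∈ W, ∀ v ∈ W, sympForm m F u v = 0)
  (M : Subgroup (Matrix.GeneralLinearGroup (Fin m ⊕ Fin m) F))
  (hPM : Cfsg.Geo.subspaceStabilizer W ⊓ Cfsg.spGL m F ≤ M)
include hPM

theorem perp_mem (v : Fin m ⊕ Fin m → F) (hv : ∀ w ∈ W, sympForm m F v w = 0) :
    v ∈ tvSet m M := by
  intro c
  apply hPM
  refine Subgroup.mem_inf.mpr ⟨?_, tvGL_mem m v c⟩
  rw [mem_P_iff]
  intro x hx
  rw [tvGL_mulVec, sympForm_swap, hv x hx]
  simpa using hx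

include hW

theorem coset_mem (v u : Fin m ⊕ Fin m → F) (hv : v ∈ tvSet m M)
    (hv' : ¬ ∀ w ∈ W, sympForm m F v w = 0) (hu : ∀ w ∈ W, sympForm m F u w = 0) :
    v + u ∈ tvSet m M := by
  push Not at hv'
  obtain ⟨u₁, hu₁, hne⟩ := hv'
  by_cases h : sympForm m F v u = 0
  · have h1 : v + u₁ ∈ tvSet m M :=
      tvSet_add_of_ne hv (perp_mem W M hPM u₁ (fun w hw => hW u₁ hu₁ w hw)) hne
    have h2 : u - u₁ ∈ tvSet m M := by
      apply perp_mem W M hPM
      intro w hw
      rw [sympForm_sub_left, hu w hw, hW u₁ hu₁ w hw, sub_zero]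
    have h3 : sympForm m F (v + u₁) (u - u₁) ≠ 0 := by
      rw [sympForm_add_left, sympForm_sub_right, sympForm_sub_right, h, sympForm_self,
        sympForm_swap u₁ u, hu u₁ hu₁]
      simpa using hne
    have h4 := tvSet_add_of_ne h1 h2 h3
    have : v + u₁ + (u - u₁) = v + u := by abel
    rwa [this] at h4
  · exact tvSet_add_of_ne hv (perp_mem W M hPM u hu) h

theorem add_mem (u v : Fin m ⊕ Fin m → F) (hu : u ∈ tvSet m M) (hv : v ∈ tvSet m M) :
    u + v ∈ tvSet m M := by
  by_cases hu' : ∀ w ∈ W, sympForm m F u w = 0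
  · by_cases hv' : ∀ w ∈ W, sympForm m F v w = 0
    · apply perp_mem W M hPM
      intro w hw
      rw [sympForm_add_left, hu' w hw, hv' w hw, add_zero]
    · rw [add_comm]
      exact coset_mem W hW M hPM v u hv hv' hu'
  · by_cases hv' : ∀ w ∈ W, sympForm m F v w = 0
    · exact coset_mem W hW M hPM u v hu hu' hv'
    · by_cases h : sympForm m F u v = 0
      · have hv'' := hv'
        push Not at hv''
        obtain ⟨w', hw', hne⟩ := hv''
        have hw'p : ∀ w ∈ W, sympForm m F w' w = 0 := fun w hw => hW w' hw' w hw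
        have h1 : u + w' ∈ tvSet m M := coset_mem W hW M hPM u w' hu hu' hw'p
        have h2 : sympForm m F (u + w') v ≠ 0 := by
          rw [sympForm_add_left, h, zero_add, sympForm_swap]
          exact neg_ne_zero.mpr hne
        have h3 := tvSet_add_of_ne h1 hv h2
        have e : u + v = (u + w' + v) + (-w') := by abel
        by_cases h4 : ∀ w ∈ W, sympForm m F (u + w' + v) w = 0
        · apply perp_mem W M hPM
          intro w hw
          rw [e, sympForm_add_left, h4 w hw, sympForm_neg_left, hw'p w hw]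
          simp
        · rw [e]
          apply coset_mem W hW M hPM _ _ h3 h4
          intro w hw
          rw [sympForm_neg_left, hw'p w hw, neg_zero]
      · exact tvSet_add_of_ne hu hv h

end

/-- the Levi-type element. -/
theorem E_mulVec (w z x : Fin m ⊕ Fin m → F) (hwz : sympForm m F w z = 0) :
    ((tvGL m (w + z) 1 * tvGL m w (-1) * tvGL m z (-1) :
      Matrix.GeneralLinearGroup (Fin m ⊕ Fin m) F) :
      Matrix (Fin m ⊕ Fin m) (Fin m ⊕ Fin m) F) *ᵥ x =
      x + sympForm m F x w • z + sympForm m F x z • w := by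
  have hzw : sympForm m F z w = 0 := by rw [sympForm_swap, hwz, neg_zero]
  rw [Units.val_mul, Units.val_mul, ← Matrix.mulVec_mulVec, ← Matrix.mulVec_mulVec]
  simp only [tvGL_mulVec, sympForm_add_left, sympForm_add_right, sympForm_smul_left,
    sympForm_self, hwz, hzw]
  ext i
  simp only [Pi.add_apply, Pi.smul_apply, smul_eq_mul]
  ring

/-- For a finite field F and m ≥ 7, in the symplectic group Sp_2m(F) of the standard alternating form on F^(2m) (as a subgroup of GL_2m(F)), the stabiliser of any non-zero subspace on which the form vanishes identically is a maximal subgroup. -/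
theorem result {F : Type*} [Field F] [Fintype F] (m : ℕ) (hm : 7 ≤ m) (W : Submodule F (Fin m ⊕ Fin m → F)) (hW0 : W ≠ ⊥) (hW : Cfsg.Geo.IsTotallySingularFor (Cfsg.sympForm m F) W) : Cfsg.Geo.IsMaximalIn (Cfsg.spGL m F) (Cfsg.Geo.subspaceStabilizer W ⊓ Cfsg.spGL m F) := by
  have hW' : ∀ u ∈ W, ∀ v ∈ W, sympForm m F u v = 0 := hW
  apply isMaximalIn_of _ _ inf_le_right
  · obtain ⟨w, hw, hw0⟩ := (Submodule.ne_bot_iff W).mp hW0
    obtain ⟨y, hy⟩ := exists_sympForm_eq_one m w hw0
    refine ⟨tvGL m y 1, tvGL_mem m y 1, ?_⟩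
    intro hmem
    have h1 := (mem_P_iff W _).mp hmem.1 w hw
    rw [tvGL_mulVec, hy] at h1
    have h2 : y ∈ W := by
      have := W.sub_mem h1 hw
      simpa using this
    have := hW' w hw y h2
    rw [hy] at this
    exact one_ne_zero this
  · intro M hPM hMK ⟨h, hhM, hhP⟩
    have hhS : h ∈ spGL m F := hMK hhM
    apply eq_spGL_of_tvSet
    -- a vector outside the perp
    have hex : ∃ v₀ ∈ tvSet m M, ¬ ∀ w ∈ W, sympForm m F v₀ w = 0 := by
      by_contra hcon
      push Not at hcon
      apply hhP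
      refine Subgroup.mem_inf.mpr ⟨?_, hhS⟩
      -- `h` stabilises the perp
      let Wp : Submodule F (Fin m ⊕ Fin m → F) :=
        { carrier := {x | ∀ w ∈ W, sympForm m F x w = 0}
          add_mem' := by
            intro a b ha hb w hw
            rw [sympForm_add_left, ha w hw, hb w hw, add_zero]
          zero_mem' := by
            intro w _
            exact sympForm_zero_left w
          smul_mem' := by
            intro c a ha w hw
            rw [sympForm_smul_left, ha w hw, mul_zero] }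
      have hst : h ∈ Cfsg.Geo.subspaceStabilizer Wp := by
        rw [mem_P_iff]
        intro x hx
        exact hcon _ (tvSet_mulVec (perp_mem W M hPM x hx) hhM hhS)
      have hst' := Subgroup.inv_mem _ hst
      rw [mem_P_iff] at hst'
      rw [mem_P_iff]
      intro x hx
      apply symp_double_perp
      intro y hy
      have h1 := hst' y hy x hx
      rw [spGL_form_inv m hhS] at h1
      rw [sympForm_swap, h1, neg_zero]
    obtain ⟨v₀, hv₀, hv₀'⟩ := hex
    push Not at hv₀'
    obtain ⟨w, hw, hne⟩ := hv₀'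
    have hadd := add_mem W hW' M hPM
    have hwΩ : w ∈ tvSet m M := perp_mem W M hPM w (fun w' hw' => hW' w hw w' hw')
    -- every vector orthogonal to `w` is in the set
    have hz : ∀ z, sympForm m F w z = 0 → z ∈ tvSet m M := by
      intro z hwz
      have hE : (tvGL m (w + z) 1 * tvGL m w (-1) * tvGL m z (-1) :
          Matrix.GeneralLinearGroup (Fin m ⊕ Fin m) F) ∈
          Cfsg.Geo.subspaceStabilizer W ⊓ Cfsg.spGL m F := by
        refine Subgroup.mem_inf.mpr ⟨?_, Subgroup.mul_mem _ (Subgroup.mul_mem _ (tvGL_mem m _ _)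
          (tvGL_mem m _ _)) (tvGL_mem m _ _)⟩
        rw [mem_P_iff]
        intro x hx
        rw [E_mulVec w z x hwz, hW' x hx w hw, zero_smul, add_zero]
        exact W.add_mem hx (W.smul_mem _ hw)
      have h1 := tvSet_mulVec hv₀ (hPM hE) hE.2
      rw [E_mulVec w z v₀ hwz] at h1
      have h2 := hadd _ _ (hadd _ _ h1 (tvSet_neg hv₀))
        (tvSet_neg (tvSet_smul hwΩ (sympForm m F v₀ z)))
      have h3 : v₀ + sympForm m F v₀ w • z + sympForm m F v₀ z • w + -v₀ +
          -(sympForm m F v₀ z • w) = sympForm m F v₀ w • z := by abel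
      rw [h3] at h2
      have h4 := tvSet_smul h2 (sympForm m F v₀ w)⁻¹
      rwa [smul_smul, inv_mul_cancel₀ hne, one_smul] at h4
    intro x
    have e : x = (x - (sympForm m F x w / sympForm m F v₀ w) • v₀) +
        (sympForm m F x w / sympForm m F v₀ w) • v₀ := by abel
    rw [e]
    apply hadd _ _ (hz _ ?_) (tvSet_smul hv₀ _)
    rw [sympForm_sub_right, sympForm_smul_right, sympForm_swap w x, sympForm_swap w v₀]
    field_simp
    ring

end Cfsg.Agent.S5645
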