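import Cfsg.Statements.S5646
import Cfsg.Agent.Lib.Helper6.SpMax

set_option autoImplicit false
open Cfsg

namespace Cfsg.Agent.S5646

open Cfsg.Agent.Lib.Helper6 Matrix

variable {F : Type*} [Field F] {m : ℕ}

theorem mem_P_iff (W : Submodule F (Fin m ⊕ Fin m → F))
    (g : Matrix.GeneralLinearGroup (Fin m ⊕ Fin m) F) :
    g ∈ Cfsg.Geo.subspaceStabilizer W ↔
      ∀ x ∈ W, (g : Matrix (Fin m ⊕ Fin m) (Fin m ⊕ Fin m) F) *ᵥ x ∈ W :=
  mem_stabilizing_submodule_iff _ W g

/-- inside a non-degenerate subspace two non-zero vectors have a common non-orthogonal vector. -/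
theorem exists_common (X : Submodule F (Fin m ⊕ Fin m → F))
    (hX : ∀ w ∈ X, w ≠ 0 → ∃ x ∈ X, sympForm m F w x ≠ 0)
    (a a' : Fin m ⊕ Fin m → F) (ha : a ∈ X) (ha' : a' ∈ X) (h0 : a ≠ 0) (h0' : a' ≠ 0) :
    ∃ z ∈ X, sympForm m F a z ≠ 0 ∧ sympForm m F a' z ≠ 0 := by
  obtain ⟨p, hp, hap⟩ := hX a ha h0
  obtain ⟨r, hr, har⟩ := hX a' ha' h0'
  by_cases h1 : sympForm m F a' p = 0
  · by_cases h2 : sympForm m F a r = 0
    · refine ⟨p + r, X.add_mem hp hr, ?_, ?_⟩
      · rw [sympForm_add_right, h2, add_zero]; exact hap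
      · rw [sympForm_add_right, h1, zero_add]; exact har
    · exact ⟨r, hr, h2, har⟩
  · exact ⟨p, hp, hap, h1⟩

/-- moving the `X`-component. -/
theorem move (M : Subgroup (Matrix.GeneralLinearGroup (Fin m ⊕ Fin m) F))
    (X : Submodule F (Fin m ⊕ Fin m → F))
    (hX : ∀ w ∈ X, w ≠ 0 → ∃ x ∈ X, sympForm m F w x ≠ 0)
    (hXM : ∀ x ∈ X, x ∈ tvSet m M)
    (a b : Fin m ⊕ Fin m → F) (ha : a ∈ X) (h0 : a ≠ 0) (hb : ∀ x ∈ X, sympForm m F b x = 0)
    (hab : a + b ∈ tvSet m M) (a' : Fin m ⊕ Fin m → F) (ha' : a' ∈ X) (h0' : a' ≠ 0) :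
    a' + b ∈ tvSet m M := by
  have step : ∀ a₁ a₂ : Fin m ⊕ Fin m → F, a₁ ∈ X → a₂ ∈ X → sympForm m F a₁ a₂ ≠ 0 →
      a₁ + b ∈ tvSet m M → a₂ + b ∈ tvSet m M := by
    intro a₁ a₂ h₁ h₂ hne h
    have h3 : sympForm m F (a₁ + b) (a₂ - a₁) ≠ 0 := by
      rw [sympForm_add_left, hb _ (X.sub_mem h₂ h₁), add_zero, sympForm_sub_right, sympForm_self,
        sub_zero]
      exact hne
    have h4 := tvSet_add_of_ne h (hXM _ (X.sub_mem h₂ h₁)) h3
    have : a₁ + b + (a₂ - a₁) = a₂ + b := by abel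
    rwa [this] at h4
  obtain ⟨z, hz, h1, h2⟩ := exists_common X hX a a' ha ha' h0 h0'
  apply step z a' hz ha' _ (step a z ha hz h1 hab)
  rw [sympForm_swap]
  exact neg_ne_zero.mpr h2

/-- For a finite field F and m ≥ 7, in the symplectic group Sp_2m(F) of the standard alternating form on F^(2m), the stabiliser of any non-zero subspace W on which the form is non-degenerate and with dim W < m is a maximal subgroup. -/
theorem result {F : Type*} [Field F] [Fintype F] (m : ℕ) (hm : 7 ≤ m) (W : Submodule F (Fin m ⊕ Fin m → F)) (hW0 : W ≠ ⊥) (hW : Cfsg.Geo.IsNondegenerateOn (Cfsg.sympForm m F) W) (hdim : Module.finrank F W < m) : Cfsg.Geo.IsMaximalIn (Cfsg.spGL m F) (Cfsg.Geo.subspaceStabilizer W ⊓ Cfsg.spGL m F) := by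
  have hWn : ∀ w ∈ W, w ≠ 0 → ∃ x ∈ W, sympForm m F w x ≠ 0 := fun w hw h0 => (hW w hw h0).2
  set W' : Submodule F (Fin m ⊕ Fin m → F) := (sympB m F).orthogonal W with hW'
  have memW' : ∀ x, x ∈ W' ↔ ∀ w ∈ W, sympForm m F w x = 0 := by
    intro x
    rw [hW', LinearMap.BilinForm.mem_orthogonal_iff]
    rfl
  have memW'2 : ∀ x, x ∈ W' → ∀ w ∈ W, sympForm m F x w = 0 := by
    intro x hx w hw
    rw [sympForm_swap, (memW' x).mp hx w hw, neg_zero]
  have hres : ((sympB m F).restrict W).Nondegenerate := by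
    constructor
    · rintro ⟨x, hx⟩ h
      by_contra hne
      have hx0 : x ≠ 0 := fun e => hne (Subtype.ext e)
      obtain ⟨y, hy, hxy⟩ := hWn x hx hx0
      exact hxy (h ⟨y, hy⟩)
    · rintro ⟨x, hx⟩ h
      by_contra hne
      have hx0 : x ≠ 0 := fun e => hne (Subtype.ext e)
      obtain ⟨y, hy, hxy⟩ := hWn x hx hx0
      apply hxy
      have h1 : sympForm m F y x = 0 := h ⟨y, hy⟩
      rw [sympForm_swap, h1, neg_zero]
  have hcompl : IsCompl W W' :=
    LinearMap.BilinForm.isCompl_orthogonal_of_restrict_nondegenerate sympB_isAlt.isRefl hres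
  have hdec : ∀ x, ∃ a ∈ W, ∃ b ∈ W', x = a + b := by
    intro x
    have : x ∈ W ⊔ W' := by rw [hcompl.sup_eq_top]; trivial
    obtain ⟨a, ha, b, hb, rfl⟩ := Submodule.mem_sup.mp this
    exact ⟨a, ha, b, hb, rfl⟩
  have hdisj : ∀ x, x ∈ W → x ∈ W' → x = 0 := by
    intro x h1 h2
    have : x ∈ W ⊓ W' := ⟨h1, h2⟩
    rw [hcompl.inf_eq_bot] at this
    exact this
  have hfr : Module.finrank F W + Module.finrank F W' = 2 * m := by
    rw [Submodule.finrank_add_eq_of_isCompl hcompl, Module.finrank_fintype_fun_eq_card]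
    simp; ring
  have hW'n : ∀ w ∈ W', w ≠ 0 → ∃ x ∈ W', sympForm m F w x ≠ 0 := by
    intro w hw h0
    by_contra hcon
    push Not at hcon
    apply h0
    apply sympForm_nondeg_left m
    intro z
    obtain ⟨a, ha, b, hb, rfl⟩ := hdec z
    rw [sympForm_add_right, memW'2 w hw a ha, hcon b hb, add_zero]
  have hW'0 : ∃ b ∈ W', b ≠ 0 := by
    by_contra hcon
    push Not at hcon
    have : W' = ⊥ := (Submodule.eq_bot_iff _).mpr hcon
    rw [this, finrank_bot] at hfr
    omega
  apply isMaximalIn_of _ _ inf_le_right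
  · obtain ⟨w, hw, hw0⟩ := (Submodule.ne_bot_iff W).mp hW0
    obtain ⟨x', hx', hne⟩ := hWn w hw hw0
    obtain ⟨b, hb, hb0⟩ := hW'0
    refine ⟨tvGL m (x' + b) 1, tvGL_mem m _ 1, ?_⟩
    intro hmem
    have h1 := (mem_P_iff W _).mp (Subgroup.mem_inf.mp hmem).1 w hw
    rw [tvGL_mulVec, sympForm_add_right, (memW' b).mp hb w hw, add_zero, one_mul] at h1
    have h2 : sympForm m F w x' • (x' + b) ∈ W := by
      have := W.sub_mem h1 hw
      simpa using this
    have h3 := W.smul_mem (sympForm m F w x')⁻¹ h2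
    rw [smul_smul, inv_mul_cancel₀ hne, one_smul] at h3
    have h4 : b ∈ W := by
      have := W.sub_mem h3 hx'
      simpa using this
    exact hb0 (hdisj b h4 hb)
  · intro M hPM hMK ⟨h, hhM, hhP⟩
    have hhS : h ∈ spGL m F := hMK hhM
    apply eq_spGL_of_tvSet
    have hWM : ∀ x ∈ W, x ∈ tvSet m M := by
      intro v hv c
      apply hPM
      refine Subgroup.mem_inf.mpr ⟨?_, tvGL_mem m v c⟩
      rw [mem_P_iff]
      intro x hx
      rw [tvGL_mulVec]
      exact W.add_mem hx (W.smul_mem _ hv)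
    have hW'M : ∀ x ∈ W', x ∈ tvSet m M := by
      intro v hv c
      apply hPM
      refine Subgroup.mem_inf.mpr ⟨?_, tvGL_mem m v c⟩
      rw [mem_P_iff]
      intro x hx
      rw [tvGL_mulVec, (memW' v).mp hv x hx]
      simpa using hx
    -- a mixed vector
    have hex : ∃ v ∈ tvSet m M, v ∉ W ∧ v ∉ W' := by
      by_contra hcon
      push Not at hcon
      have hcov : ∀ x ∈ W', (h : Matrix (Fin m ⊕ Fin m) (Fin m ⊕ Fin m) F) *ᵥ x ∈ W ∨
          (h : Matrix (Fin m ⊕ Fin m) (Fin m ⊕ Fin m) F) *ᵥ x ∈ W' := by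
        intro x hx
        by_cases h1 : (h : Matrix (Fin m ⊕ Fin m) (Fin m ⊕ Fin m) F) *ᵥ x ∈ W
        · exact Or.inl h1
        · exact Or.inr (hcon _ (tvSet_mulVec (hW'M x hx) hhM hhS) h1)
      have hone : (∀ x ∈ W', (h : Matrix (Fin m ⊕ Fin m) (Fin m ⊕ Fin m) F) *ᵥ x ∈ W) ∨
          (∀ x ∈ W', (h : Matrix (Fin m ⊕ Fin m) (Fin m ⊕ Fin m) F) *ᵥ x ∈ W') := by
        by_contra hc
        push Not at hc
        obtain ⟨⟨x, hx, hx1⟩, ⟨y, hy, hy1⟩⟩ := hc
        have hx2 := (hcov x hx).resolve_left hx1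
        have hy2 := (hcov y hy).resolve_right hy1
        rcases hcov (x + y) (W'.add_mem hx hy) with h3 | h3
        · rw [Matrix.mulVec_add] at h3
          apply hx1
          have := W.sub_mem h3 hy2
          simpa using this
        · rw [Matrix.mulVec_add] at h3
          apply hy1
          have := W'.sub_mem h3 hx2
          simpa using this
      rcases hone with h1 | h1
      · -- dimension contradiction
        have hinj : Function.Injective (Matrix.mulVecLin
            (h : Matrix (Fin m ⊕ Fin m) (Fin m ⊕ Fin m) F)) := by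
          intro x y hxy
          simp only [Matrix.mulVecLin_apply] at hxy
          have := congrArg (fun z => ((h⁻¹ : Matrix.GeneralLinearGroup (Fin m ⊕ Fin m) F) :
            Matrix (Fin m ⊕ Fin m) (Fin m ⊕ Fin m) F) *ᵥ z) hxy
          simpa only [gl_inv_mulVec] using this
        have hle : W'.map (Matrix.mulVecLin (h : Matrix (Fin m ⊕ Fin m) (Fin m ⊕ Fin m) F)) ≤ W := by
          rintro _ ⟨x, hx, rfl⟩
          exact h1 x hx
        have h2 := Submodule.finrank_mono hle
        rw [← (Submodule.equivMapOfInjective _ hinj W').finrank_eq] at h2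
        omega
      · apply hhP
        refine Subgroup.mem_inf.mpr ⟨?_, hhS⟩
        have hst : h ∈ Cfsg.Geo.subspaceStabilizer W' := by
          rw [mem_P_iff]; exact h1
        have hst' := Subgroup.inv_mem _ hst
        rw [mem_P_iff] at hst'
        rw [mem_P_iff]
        intro x hx
        apply symp_double_perp
        intro y hy
        have hy' : y ∈ W' := by
          rw [memW']
          intro w hw
          rw [sympForm_swap, hy w hw, neg_zero]
        have h3 := memW'2 _ (hst' y hy') x hx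
        rw [spGL_form_inv m hhS] at h3
        rw [sympForm_swap, h3, neg_zero]
    obtain ⟨v, hv, hvW, hvW'⟩ := hex
    obtain ⟨a, ha, b, hb, rfl⟩ := hdec v
    have ha0 : a ≠ 0 := by
      rintro rfl
      apply hvW'
      simpa using hb
    have hb0 : b ≠ 0 := by
      rintro rfl
      apply hvW
      simpa using ha
    intro x
    obtain ⟨a', ha', b', hb', rfl⟩ := hdec x
    by_cases ha'0 : a' = 0
    · subst ha'0
      rw [zero_add]; exact hW'M b' hb'
    · by_cases hb'0 : b' = 0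
      · subst hb'0
        rw [add_zero]; exact hWM a' ha'
      · have h1 := move M W hWn hWM a b ha ha0 (memW'2 b hb) hv a' ha' ha'0
        rw [add_comm] at h1
        have h2 := move M W' hW'n hW'M b a' hb hb0 (fun x hx => (memW' x).mp hx a' ha') h1 b' hb' hb'0
        rwa [add_comm] at h2

end Cfsg.Agent.S5646
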