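import Cfsg.Statements.S5647
import Cfsg.Agent.Lib.Helper6.SpDecomp
import Cfsg.Agent.S5646

set_option autoImplicit false
open Cfsg

namespace Cfsg.Agent.S5647

open Cfsg.Agent.Lib.Helper6 Matrix

section aux

variable {F : Type*} [Field F] {m t k : ℕ} {D : Fin t → Submodule F (Fin m ⊕ Fin m → F)}

theorem orth (hD : Cfsg.Geo.IsNondegenerateMDecomposition (Cfsg.sympForm m F) k D)
    {i j : Fin t} (hij : i ≠ j) {x y : Fin m ⊕ Fin m → F} (hx : x ∈ D i) (hy : y ∈ D j) :
    sympForm m F x y = 0 := hD.orthogonal i j hij x hx y hy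

theorem ndeg (hD : Cfsg.Geo.IsNondegenerateMDecomposition (Cfsg.sympForm m F) k D) (i : Fin t) :
    NDeg (D i) := fun w hw h0 => (hD.nondegenerate i w hw h0).2

theorem eq_zero_of_orth (hD : Cfsg.Geo.IsNondegenerateMDecomposition (Cfsg.sympForm m F) k D)
    (x : Fin m ⊕ Fin m → F) (h : ∀ i, ∀ y ∈ D i, sympForm m F x y = 0) : x = 0 := by
  apply sympForm_nondeg_left m
  intro y
  have hy : y ∈ iSup D := by rw [hD.decomp.iSup_eq_top]; trivial
  induction hy using Submodule.iSup_induction' with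
  | mem i y hy => exact h i y hy
  | zero => exact sympForm_zero_right _
  | add y z _ _ h1 h2 => rw [sympForm_add_right, h1, h2, add_zero]

theorem mem_of_orth (hD : Cfsg.Geo.IsNondegenerateMDecomposition (Cfsg.sympForm m F) k D)
    (i : Fin t) (x : Fin m ⊕ Fin m → F)
    (h : ∀ j, j ≠ i → ∀ y ∈ D j, sympForm m F x y = 0) : x ∈ D i := by
  obtain ⟨a, ha, b, hb, rfl⟩ := ndeg_split (ndeg hD i) x
  have : b = 0 := by
    apply eq_zero_of_orth hD
    intro j y hy
    by_cases hj : j = i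
    · subst hj; exact hb y hy
    · have h1 := h j hj y hy
      rw [sympForm_add_left, orth hD (Ne.symm hj) ha hy, zero_add] at h1
      exact h1
  rw [this, add_zero]
  exact ha

theorem gl_injective (g : Matrix.GeneralLinearGroup (Fin m ⊕ Fin m) F) :
    Function.Injective (Matrix.toLin' (g : Matrix (Fin m ⊕ Fin m) (Fin m ⊕ Fin m) F)) := by
  intro x y hxy
  simp only [Matrix.toLin'_apply] at hxy
  have := congrArg (fun z => ((g⁻¹ : Matrix.GeneralLinearGroup (Fin m ⊕ Fin m) F) :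
    Matrix (Fin m ⊕ Fin m) (Fin m ⊕ Fin m) F) *ᵥ z) hxy
  simpa only [gl_inv_mulVec] using this

theorem map_eq (hD : Cfsg.Geo.IsNondegenerateMDecomposition (Cfsg.sympForm m F) k D)
    (g : Matrix.GeneralLinearGroup (Fin m ⊕ Fin m) F) (i j : Fin t)
    (h : ∀ x ∈ D i, (g : Matrix (Fin m ⊕ Fin m) (Fin m ⊕ Fin m) F) *ᵥ x ∈ D j) :
    (D i).map (Matrix.toLin' (g : Matrix (Fin m ⊕ Fin m) (Fin m ⊕ Fin m) F)) = D j := by
  apply Submodule.eq_of_le_of_finrank_eq
  · rintro _ ⟨x, hx, rfl⟩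
    rw [Matrix.toLin'_apply]
    exact h x hx
  · rw [← (Submodule.equivMapOfInjective _ (gl_injective g) (D i)).finrank_eq,
      hD.decomp.finrank_eq, hD.decomp.finrank_eq]

theorem mem_stab_of_le (hD : Cfsg.Geo.IsNondegenerateMDecomposition (Cfsg.sympForm m F) k D)
    (g : Matrix.GeneralLinearGroup (Fin m ⊕ Fin m) F) (σ : Equiv.Perm (Fin t))
    (h : ∀ i, ∀ x ∈ D i, (g : Matrix (Fin m ⊕ Fin m) (Fin m ⊕ Fin m) F) *ᵥ x ∈ D (σ i)) :
    g ∈ Cfsg.Geo.decompositionStabilizer D :=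
  ⟨σ, fun i => map_eq hD g i (σ i) (h i)⟩

theorem exists_ne_zero (hD : Cfsg.Geo.IsNondegenerateMDecomposition (Cfsg.sympForm m F) k D)
    (i : Fin t) : ∃ d ∈ D i, d ≠ 0 := by
  by_contra hcon
  push Not at hcon
  have : D i = ⊥ := (Submodule.eq_bot_iff _).mpr hcon
  have h1 := hD.decomp.finrank_eq i
  rw [this, finrank_bot] at h1
  have := hD.decomp.pos
  omega

theorem exists_sum (hD : Cfsg.Geo.IsNondegenerateMDecomposition (Cfsg.sympForm m F) k D)
    (x : Fin m ⊕ Fin m → F) :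
    ∃ y : Fin t → (Fin m ⊕ Fin m → F), (∀ i, y i ∈ D i) ∧ x = ∑ i, y i := by
  have hx : x ∈ iSup D := by rw [hD.decomp.iSup_eq_top]; trivial
  induction hx using Submodule.iSup_induction' with
  | mem i y hy =>
    refine ⟨Pi.single i y, ?_, ?_⟩
    · intro j
      by_cases hj : j = i
      · subst hj; simpa using hy
      · rw [Pi.single_eq_of_ne hj]; exact (D j).zero_mem
    · rw [Finset.sum_pi_single']
      simp
  | zero => exact ⟨0, fun i => (D i).zero_mem, by simp⟩
  | add y z _ _ h1 h2 =>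
    obtain ⟨y', hy', rfl⟩ := h1
    obtain ⟨z', hz', rfl⟩ := h2
    exact ⟨y' + z', fun i => (D i).add_mem (hy' i) (hz' i), by
      simp [Finset.sum_add_distrib]⟩


theorem D_sub (hD : Cfsg.Geo.IsNondegenerateMDecomposition (Cfsg.sympForm m F) k D)
    (M : Subgroup (Matrix.GeneralLinearGroup (Fin m ⊕ Fin m) F))
    (hPM : Cfsg.Geo.decompositionStabilizer D ⊓ Cfsg.spGL m F ≤ M) (i : Fin t) :
    ∀ x ∈ D i, x ∈ tvSet m M := by
  intro v hv c
  apply hPM
  refine Subgroup.mem_inf.mpr ⟨?_, tvGL_mem m v c⟩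
  apply mem_stab_of_le hD _ 1
  intro j x hx
  rw [tvGL_mulVec]
  by_cases hj : j = i
  · subst hj; exact (D j).add_mem hx ((D j).smul_mem _ hv)
  · rw [orth hD hj hx hv]; simpa using hx

theorem tv_not_mem (hD : Cfsg.Geo.IsNondegenerateMDecomposition (Cfsg.sympForm m F) k D)
    {a b : Fin t} (hab : a ≠ b) {p r : Fin m ⊕ Fin m → F} (hp : p ∈ D a) (hr : r ∈ D b)
    (hp0 : p ≠ 0) (hr0 : r ≠ 0) : tvGL m (p + r) 1 ∉ Cfsg.Geo.decompositionStabilizer D := by
  rintro ⟨σ, hσ⟩
  obtain ⟨w, hw, hpw⟩ := ndeg hD a p hp hp0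
  obtain ⟨z, hz, hrz⟩ := ndeg hD b r hr hr0
  have hwp : sympForm m F w p ≠ 0 := by
    rw [sympForm_swap]; exact neg_ne_zero.mpr hpw
  have hy : (tvGL m (p + r) 1 : Matrix (Fin m ⊕ Fin m) (Fin m ⊕ Fin m) F) *ᵥ w ∈ D (σ a) := by
    rw [← hσ a]
    exact ⟨w, hw, by rw [Matrix.toLin'_apply]⟩
  rw [tvGL_mulVec, one_mul, sympForm_add_right, orth hD hab hw hr, add_zero] at hy
  have h1 : σ a = a := by
    by_contra hne
    have := orth hD hne hy hp
    rw [sympForm_add_left, sympForm_smul_left, sympForm_add_left, sympForm_self,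
      orth hD (Ne.symm hab) hr hp] at this
    apply hwp
    simpa using this
  have h2 : σ a = b := by
    by_contra hne
    have := orth hD hne hy hz
    rw [sympForm_add_left, sympForm_smul_left, sympForm_add_left, orth hD hab hw hz,
      orth hD hab hp hz, zero_add, zero_add] at this
    exact (mul_ne_zero hwp hrz) this
  exact hab (h1.symm.trans h2)

theorem exists_mixed (hD : Cfsg.Geo.IsNondegenerateMDecomposition (Cfsg.sympForm m F) k D)
    (M : Subgroup (Matrix.GeneralLinearGroup (Fin m ⊕ Fin m) F))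
    (hPM : Cfsg.Geo.decompositionStabilizer D ⊓ Cfsg.spGL m F ≤ M)
    (h : Matrix.GeneralLinearGroup (Fin m ⊕ Fin m) F) (hhM : h ∈ M) (hhS : h ∈ spGL m F)
    (hhP : h ∉ Cfsg.Geo.decompositionStabilizer D ⊓ Cfsg.spGL m F) :
    ∃ v ∈ tvSet m M, ∃ a b : Fin t, a ≠ b ∧ (∃ w ∈ D a, sympForm m F v w ≠ 0) ∧
      (∃ w ∈ D b, sympForm m F v w ≠ 0) := by
  by_contra hcon
  push Not at hcon
  choose d hd hd0 using exists_ne_zero hD
  have hne0 : ∀ x, x ≠ 0 → (h : Matrix (Fin m ⊕ Fin m) (Fin m ⊕ Fin m) F) *ᵥ x ≠ 0 := by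
    intro x hx h0
    apply hx
    have := gl_inv_mulVec h x
    rw [h0, Matrix.mulVec_zero] at this
    exact this.symm
  have hN : ∀ i, ∃ j, ∃ w ∈ D j,
      sympForm m F ((h : Matrix (Fin m ⊕ Fin m) (Fin m ⊕ Fin m) F) *ᵥ d i) w ≠ 0 := by
    intro i
    by_contra hc
    push Not at hc
    exact hne0 _ (hd0 i) (eq_zero_of_orth hD _ hc)
  choose σ w hw hfw using hN
  have hΩ : ∀ i, ∀ x ∈ D i, (h : Matrix (Fin m ⊕ Fin m) (Fin m ⊕ Fin m) F) *ᵥ x ∈ tvSet m M :=
    fun i x hx => tvSet_mulVec (D_sub hD M hPM i x hx) hhM hhS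
  have key : ∀ i, ∀ x ∈ D i, (h : Matrix (Fin m ⊕ Fin m) (Fin m ⊕ Fin m) F) *ᵥ x ∈ D (σ i) := by
    intro i x hx
    apply mem_of_orth hD
    intro j hj y hy
    by_contra hne
    have h1 := hcon _ (hΩ i x hx) j (σ i) hj ⟨y, hy, hne⟩ (w i) (hw i)
    have h2 := hcon _ (hΩ i _ (hd i)) (σ i) j (Ne.symm hj) ⟨w i, hw i, hfw i⟩ y hy
    have h3 := hcon _ (hΩ i _ ((D i).add_mem hx (hd i))) j (σ i) hj
      ⟨y, hy, by rw [Matrix.mulVec_add, sympForm_add_left, h2, add_zero]; exact hne⟩ (w i) (hw i)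
    rw [Matrix.mulVec_add, sympForm_add_left, h1, zero_add] at h3
    exact hfw i h3
  have hinj : Function.Injective σ := by
    intro i i' hii'
    by_contra hne
    have hmap := map_eq hD h i (σ i) (key i)
    have h1 : (h : Matrix (Fin m ⊕ Fin m) (Fin m ⊕ Fin m) F) *ᵥ d i' ∈ D (σ i) := by
      rw [hii']; exact key i' _ (hd i')
    obtain ⟨z, hz, hne2⟩ := ndeg hD (σ i) _ h1 (hne0 _ (hd0 i'))
    rw [← hmap] at hz
    obtain ⟨x, hx, rfl⟩ := hz
    rw [Matrix.toLin'_apply, (mem_spGL_iff m h).mp hhS] at hne2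
    exact hne2 (orth hD (Ne.symm hne) (hd i') hx)
  apply hhP
  exact Subgroup.mem_inf.mpr ⟨mem_stab_of_le hD h
    (Equiv.ofBijective σ (Finite.injective_iff_bijective.mp hinj)) key, hhS⟩


theorem exists_r [Fintype F]
    (hD : Cfsg.Geo.IsNondegenerateMDecomposition (Cfsg.sympForm m F) k D)
    (hex : ¬ (k = 2 ∧ Fintype.card F = 2)) (b : Fin t) (v : Fin m ⊕ Fin m → F) (hv : v ∈ D b)
    (hv0 : v ≠ 0) : ∃ r ∈ D b, r ≠ 0 ∧ r ≠ v ∧ sympForm m F v r = 0 := by
  classical
  by_cases hq : Fintype.card F = 2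
  · have hk2 : k ≠ 2 := fun h => hex ⟨h, hq⟩
    have hk1 : k ≠ 1 := by
      intro h1
      have hfr := hD.decomp.finrank_eq b
      rw [h1] at hfr
      obtain ⟨x, hx, hne⟩ := ndeg hD b v hv hv0
      have hv' : (⟨v, hv⟩ : D b) ≠ 0 := fun e => hv0 (congrArg Subtype.val e)
      obtain ⟨c, hc⟩ := (finrank_eq_one_iff_of_nonzero' _ hv').mp hfr ⟨x, hx⟩
      have hc' : c • v = x := congrArg Subtype.val hc
      rw [← hc', sympForm_smul_right, sympForm_self, mul_zero] at hne
      exact hne rfl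
    have hk3 : 3 ≤ k := by have := hD.decomp.pos; omega
    let φ : D b →ₗ[F] F := (sympB m F v) ∘ₗ (D b).subtype
    have h1 := LinearMap.finrank_range_add_finrank_ker φ
    rw [hD.decomp.finrank_eq] at h1
    have h2 : Module.finrank F (LinearMap.range φ) ≤ 1 := by
      have := Submodule.finrank_le (LinearMap.range φ)
      rwa [Module.finrank_self] at this
    have h3 : ¬ (LinearMap.ker φ ≤ Submodule.span F {(⟨v, hv⟩ : D b)}) := by
      intro hle
      have h4 := Submodule.finrank_mono hle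
      have h5 : Module.finrank F (Submodule.span F {(⟨v, hv⟩ : D b)}) ≤ 1 := by
        have := finrank_span_le_card (R := F) ({(⟨v, hv⟩ : D b)} : Set (D b))
        simpa using this
      omega
    obtain ⟨r, hr, hr'⟩ := SetLike.not_le_iff_exists.mp h3
    refine ⟨r.1, r.2, ?_, ?_, ?_⟩
    · intro h0
      apply hr'
      have : r = 0 := Subtype.ext h0
      rw [this]; exact Submodule.zero_mem _
    · intro h0
      apply hr'
      have : r = ⟨v, hv⟩ := Subtype.ext h0
      rw [this]; exact Submodule.mem_span_singleton_self _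
    · exact hr
  · have hcard : 2 < Fintype.card F := by
      have := Fintype.one_lt_card (α := F)
      omega
    have : ∃ c : F, c ∉ ({0, 1} : Finset F) := by
      by_contra hc
      push Not at hc
      have h1 : (Finset.univ : Finset F) ⊆ {0, 1} := fun x _ => hc x
      have h2 := Finset.card_le_card h1
      rw [Finset.card_univ] at h2
      have h3 : ({0, 1} : Finset F).card ≤ 2 := Finset.card_le_two
      omega
    obtain ⟨c, hc⟩ := this
    simp only [Finset.mem_insert, Finset.mem_singleton, not_or] at hc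
    refine ⟨c • v, (D b).smul_mem c hv, smul_ne_zero hc.1 hv0, ?_, ?_⟩
    · intro h0
      have h1 : (c - 1) • v = 0 := by rw [sub_smul, one_smul, h0, sub_self]
      rcases smul_eq_zero.mp h1 with h2 | h2
      · exact hc.2 (sub_eq_zero.mp h2)
      · exact hv0 h2
    · rw [sympForm_smul_right, sympForm_self, mul_zero]

/-- all sums of a vector of `D a` and a vector of `D b` are transvection centres. -/
def EE (D : Fin t → Submodule F (Fin m ⊕ Fin m → F))
    (M : Subgroup (Matrix.GeneralLinearGroup (Fin m ⊕ Fin m) F)) (a b : Fin t) : Prop :=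
  ∀ x ∈ D a, ∀ y ∈ D b, x + y ∈ tvSet m M

theorem EE_of_pair (hD : Cfsg.Geo.IsNondegenerateMDecomposition (Cfsg.sympForm m F) k D)
    (M : Subgroup (Matrix.GeneralLinearGroup (Fin m ⊕ Fin m) F))
    (hPM : Cfsg.Geo.decompositionStabilizer D ⊓ Cfsg.spGL m F ≤ M)
    {a b : Fin t} (hab : a ≠ b) {p r : Fin m ⊕ Fin m → F} (hp : p ∈ D a) (hr : r ∈ D b)
    (hp0 : p ≠ 0) (hr0 : r ≠ 0) (hpr : p + r ∈ tvSet m M) : EE D M a b := by
  intro x hx y hy
  by_cases hx0 : x = 0
  · subst hx0; rw [zero_add]; exact D_sub hD M hPM b y hy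
  by_cases hy0 : y = 0
  · subst hy0; rw [add_zero]; exact D_sub hD M hPM a x hx
  have h1 := Cfsg.Agent.S5646.move M (D a) (ndeg hD a) (D_sub hD M hPM a) p r hp hp0
    (fun z hz => orth hD (Ne.symm hab) hr hz) hpr x hx hx0
  rw [add_comm] at h1
  have h2 := Cfsg.Agent.S5646.move M (D b) (ndeg hD b) (D_sub hD M hPM b) r x hr hr0
    (fun z hz => orth hD hab hx hz) h1 y hy hy0
  rwa [add_comm] at h2

theorem exists_pair [Fintype F]
    (hD : Cfsg.Geo.IsNondegenerateMDecomposition (Cfsg.sympForm m F) k D)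
    (hex : ¬ (k = 2 ∧ Fintype.card F = 2))
    (M : Subgroup (Matrix.GeneralLinearGroup (Fin m ⊕ Fin m) F))
    (hPM : Cfsg.Geo.decompositionStabilizer D ⊓ Cfsg.spGL m F ≤ M)
    (v : Fin m ⊕ Fin m → F) (hv : v ∈ tvSet m M) {a b : Fin t} (hab : a ≠ b)
    (ha : ∃ w ∈ D a, sympForm m F v w ≠ 0) (hb : ∃ w ∈ D b, sympForm m F v w ≠ 0) :
    ∃ p ∈ D a, ∃ r ∈ D b, p ≠ 0 ∧ r ≠ 0 ∧ p + r ∈ tvSet m M := by
  obtain ⟨va, hva, v', hv', rfl⟩ := ndeg_split (ndeg hD a) v
  obtain ⟨vb, hvb, v'', hv'', rfl⟩ := ndeg_split (ndeg hD b) v'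
  have hv''a : ∀ w ∈ D a, sympForm m F v'' w = 0 := by
    intro w hw
    have := hv' w hw
    rwa [sympForm_add_left, orth hD (Ne.symm hab) hvb hw, zero_add] at this
  have hva0 : va ≠ 0 := by
    rintro rfl
    obtain ⟨w, hw, hne⟩ := ha
    rw [zero_add] at hne
    exact hne (hv' w hw)
  have hvb0 : vb ≠ 0 := by
    rintro rfl
    obtain ⟨w, hw, hne⟩ := hb
    rw [zero_add, sympForm_add_left, orth hD hab hva hw, hv'' w hw, add_zero] at hne
    exact hne rfl
  obtain ⟨p, hp, hvp⟩ := ndeg hD a va hva hva0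
  obtain ⟨r, hr, hr0, hrv, hvr⟩ := exists_r hD hex b vb hvb hvb0
  have hp0 : p ≠ 0 := by
    rintro rfl
    exact hvp (sympForm_zero_right _)
  -- move the components
  have h1 := Cfsg.Agent.S5646.move M (D a) (ndeg hD a) (D_sub hD M hPM a) va (vb + v'') hva hva0
    hv' hv p hp hp0
  have e1 : p + (vb + v'') = vb + (p + v'') := by abel
  rw [e1] at h1
  have h2 := Cfsg.Agent.S5646.move M (D b) (ndeg hD b) (D_sub hD M hPM b) vb (p + v'') hvb hvb0
    (by
      intro z hz
      rw [sympForm_add_left, orth hD hab hp hz, hv'' z hz, add_zero]) h1 r hr hr0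
  have h3 := tvSet_neg h2
  have h4 : sympForm m F (va + (vb + v'')) (-(r + (p + v''))) ≠ 0 := by
    rw [sympForm_neg_right]
    apply neg_ne_zero.mpr
    simp only [sympForm_add_left, sympForm_add_right]
    rw [orth hD hab hva hr, hvr, hv'' r hr, orth hD (Ne.symm hab) hvb hp, hv''a p hp,
      sympForm_self, sympForm_swap va v'', hv''a va hva, sympForm_swap vb v'', hv'' vb hvb]
    simpa using hvp
  have h5 := tvSet_add_of_ne hv h3 h4
  have e2 : va + (vb + v'') + -(r + (p + v'')) = (va - p) + (vb - r) := by abel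
  rw [e2] at h5
  refine ⟨va - p, (D a).sub_mem hva hp, vb - r, (D b).sub_mem hvb hr, ?_, ?_, h5⟩
  · intro h0
    rw [sub_eq_zero] at h0
    rw [← h0, sympForm_self] at hvp
    exact hvp rfl
  · intro h0
    rw [sub_eq_zero] at h0
    exact hrv h0.symm


theorem EE_step (hD : Cfsg.Geo.IsNondegenerateMDecomposition (Cfsg.sympForm m F) k D)
    (M : Subgroup (Matrix.GeneralLinearGroup (Fin m ⊕ Fin m) F))
    (hPM : Cfsg.Geo.decompositionStabilizer D ⊓ Cfsg.spGL m F ≤ M)
    {a b c : Fin t} (hab : a ≠ b) (hcb : c ≠ b) (h : EE D M a b) : EE D M c b := by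
  by_cases hca : c = a
  · subst hca; exact h
  obtain ⟨g, hgS, hg1, hg2, hg3⟩ := exists_swap (ndeg hD c) (ndeg hD a)
    (by rw [hD.decomp.finrank_eq, hD.decomp.finrank_eq]) (fun x hx y hy => orth hD hca hx hy)
  have hgP : g ∈ Cfsg.Geo.decompositionStabilizer D := by
    apply mem_stab_of_le hD g (Equiv.swap c a)
    intro i x hx
    by_cases hic : i = c
    · subst hic; rw [Equiv.swap_apply_left]; exact hg1 x hx
    by_cases hia : i = a
    · subst hia; rw [Equiv.swap_apply_right]; exact hg2 x hx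
    rw [Equiv.swap_apply_of_ne_of_ne hic hia, hg3 x (fun z hz => orth hD hic hx hz)
      (fun z hz => orth hD hia hx hz)]
    exact hx
  have hgM : g ∈ M := hPM (Subgroup.mem_inf.mpr ⟨hgP, hgS⟩)
  intro x hx y hy
  have h1 := h _ (hg1 x hx) y hy
  have h2 := tvSet_mulVec h1 (M.inv_mem hgM) ((spGL m F).inv_mem hgS)
  rw [Matrix.mulVec_add, gl_inv_mulVec] at h2
  have h3 : (g : Matrix (Fin m ⊕ Fin m) (Fin m ⊕ Fin m) F) *ᵥ y = y :=
    hg3 y (fun z hz => orth hD (Ne.symm hcb) hy hz) (fun z hz => orth hD (Ne.symm hab) hy hz)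
  have h4 : ((g⁻¹ : Matrix.GeneralLinearGroup (Fin m ⊕ Fin m) F) :
      Matrix (Fin m ⊕ Fin m) (Fin m ⊕ Fin m) F) *ᵥ y = y := by
    conv_lhs => rw [← h3]
    exact gl_inv_mulVec g y
  rwa [h4] at h2

theorem EE_symm {M : Subgroup (Matrix.GeneralLinearGroup (Fin m ⊕ Fin m) F)} {a b : Fin t}
    (h : EE D M a b) : EE D M b a := by
  intro x hx y hy
  rw [add_comm]
  exact h y hy x hx

theorem EE_all (hD : Cfsg.Geo.IsNondegenerateMDecomposition (Cfsg.sympForm m F) k D)
    (M : Subgroup (Matrix.GeneralLinearGroup (Fin m ⊕ Fin m) F))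
    (hPM : Cfsg.Geo.decompositionStabilizer D ⊓ Cfsg.spGL m F ≤ M)
    {a b : Fin t} (hab : a ≠ b) (h : EE D M a b) (c d : Fin t) (hcd : c ≠ d) : EE D M c d := by
  by_cases hdb : d = b
  · subst hdb; exact EE_step hD M hPM hab hcd h
  · have h1 : EE D M d b := EE_step hD M hPM hab hdb h
    exact EE_step hD M hPM (Ne.symm hdb) hcd (EE_symm h1)

theorem sum_mem (hD : Cfsg.Geo.IsNondegenerateMDecomposition (Cfsg.sympForm m F) k D)
    (M : Subgroup (Matrix.GeneralLinearGroup (Fin m ⊕ Fin m) F))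
    (hPM : Cfsg.Geo.decompositionStabilizer D ⊓ Cfsg.spGL m F ≤ M)
    (hE : ∀ c d : Fin t, c ≠ d → EE D M c d) (S : Finset (Fin t)) :
    ∀ x : Fin t → (Fin m ⊕ Fin m → F), (∀ i, x i ∈ D i) → ∑ i ∈ S, x i ∈ tvSet m M := by
  classical
  induction S using Finset.induction_on with
  | empty =>
    intro x _
    rw [Finset.sum_empty]
    exact tvSet_zero
  | insert j S hj ih =>
    intro x hx
    rw [Finset.sum_insert hj]
    by_cases hall : ∀ l ∈ S, x l = 0
    · rw [Finset.sum_eq_zero hall, add_zero]; exact D_sub hD M hPM j _ (hx j)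
    push Not at hall
    obtain ⟨l, hl, hl0⟩ := hall
    obtain ⟨z, hz, hne⟩ := ndeg hD l (x l) (hx l) hl0
    have hjl : j ≠ l := by rintro rfl; exact hj hl
    have h1 : x j + z ∈ tvSet m M := hE j l hjl _ (hx j) z hz
    have h2 : ∑ i ∈ S, (x i - (Pi.single l z : Fin t → (Fin m ⊕ Fin m → F)) i) ∈ tvSet m M := by
      apply ih (fun i => x i - (Pi.single l z : Fin t → (Fin m ⊕ Fin m → F)) i)
      intro i
      apply (D i).sub_mem (hx i)
      by_cases hi : i = l
      · subst hi; simpa using hz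
      · rw [Pi.single_eq_of_ne hi]; exact (D i).zero_mem
    have e : ∑ i ∈ S, (x i - (Pi.single l z : Fin t → (Fin m ⊕ Fin m → F)) i) =
        ∑ i ∈ S, x i - z := by
      rw [Finset.sum_sub_distrib]
      rw [Finset.sum_pi_single']
      simp [hl]
    rw [e] at h2
    have hsum : ∀ u, sympForm m F u (∑ i ∈ S, x i) = ∑ i ∈ S, sympForm m F u (x i) :=
      fun u => map_sum (sympB m F u) _ _
    have h3 : sympForm m F (x j + z) (∑ i ∈ S, x i - z) ≠ 0 := by
      rw [sympForm_add_left, sympForm_sub_right, sympForm_sub_right, sympForm_self,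
        orth hD hjl (hx j) hz, hsum, hsum, Finset.sum_eq_zero, Finset.sum_eq_single l]
      · rw [sympForm_swap]
        simpa using hne
      · intro i _ hi
        exact orth hD (Ne.symm hi) hz (hx i)
      · intro h; exact absurd hl h
      · intro i hi
        have : j ≠ i := by rintro rfl; exact hj hi
        exact orth hD this (hx j) (hx i)
    have h4 := tvSet_add_of_ne h1 h2 h3
    have e2 : x j + z + (∑ i ∈ S, x i - z) = x j + ∑ i ∈ S, x i := by abel
    rwa [e2] at h4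

end aux

/-- For a finite field F with q elements and m ≥ 7, let D be a decomposition of F^(2m) into t ≥ 2 pairwise orthogonal subspaces of equal dimension k on each of which the standard alternating form is non-degenerate, spanning F^(2m). Unless k = 2 and q = 2, the elements of Sp_2m(F) permuting the members of D form a maximal subgroup of Sp_2m(F). -/
theorem result {F : Type*} [Field F] [Fintype F] (m : ℕ) (hm : 7 ≤ m) {t : ℕ} (k : ℕ) (D : Fin t → Submodule F (Fin m ⊕ Fin m → F)) (hD : Cfsg.Geo.IsNondegenerateMDecomposition (Cfsg.sympForm m F) k D) (hex : ¬ (k = 2 ∧ Fintype.card F = 2)) : Cfsg.Geo.IsMaximalIn (Cfsg.spGL m F) (Cfsg.Geo.decompositionStabilizer D ⊓ Cfsg.spGL m F) := by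
  apply isMaximalIn_of _ _ inf_le_right
  · have ht := hD.decomp.two_le
    have h01 : (⟨0, by omega⟩ : Fin t) ≠ ⟨1, by omega⟩ := by
      intro h
      simp [Fin.ext_iff] at h
    obtain ⟨p, hp, hp0⟩ := exists_ne_zero hD ⟨0, by omega⟩
    obtain ⟨r, hr, hr0⟩ := exists_ne_zero hD ⟨1, by omega⟩
    exact ⟨tvGL m (p + r) 1, tvGL_mem m _ 1, fun hmem =>
      tv_not_mem hD h01 hp hr hp0 hr0 (Subgroup.mem_inf.mp hmem).1⟩
  · intro M hPM hMK ⟨h, hhM, hhP⟩
    apply eq_spGL_of_tvSet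
    obtain ⟨v, hv, a, b, hab, ha, hb⟩ := exists_mixed hD M hPM h hhM (hMK hhM) hhP
    obtain ⟨p, hp, r, hr, hp0, hr0, hpr⟩ := exists_pair hD hex M hPM v hv hab ha hb
    have hE := EE_all hD M hPM hab (EE_of_pair hD M hPM hab hp hr hp0 hr0 hpr)
    intro x
    obtain ⟨y, hy, rfl⟩ := exists_sum hD x
    exact sum_mem hD M hPM hE Finset.univ y hy

end Cfsg.Agent.S5647
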