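import Cfsg.Statements.S5648
import Cfsg.Agent.Lib.Helper6.SpMax

set_option autoImplicit false
open Cfsg

namespace Cfsg.Agent.S5648

open Cfsg.Agent.Lib.Helper6 Matrix

/-- Over the field with 2 elements and for m ≥ 7, let D be a decomposition of F^(2m) into t pairwise orthogonal non-degenerate 2-dimensional subspaces for the standard alternating form (t = m ≥ 2). Then the elements of Sp_2m(2) permuting the members of D form a subgroup that is not maximal: some subgroup lies strictly between it and Sp_2m(2). -/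
theorem result {F : Type*} [Field F] [Fintype F] (m : ℕ) (hm : 7 ≤ m) (hq : Fintype.card F = 2) {t : ℕ} (D : Fin t → Submodule F (Fin m ⊕ Fin m → F)) (hD : Cfsg.Geo.IsNondegenerateMDecomposition (Cfsg.sympForm m F) 2 D) : ∃ K : Subgroup (Matrix.GeneralLinearGroup (Fin m ⊕ Fin m) F), Cfsg.Geo.decompositionStabilizer D ⊓ Cfsg.spGL m F < K ∧ K < Cfsg.spGL m F := by
  classical
  have h01 : ∀ a : F, a = 0 ∨ a = 1 := by
    intro a
    have := FiniteField.pow_card a
    rw [hq] at this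
    have h : a * (a - 1) = 0 := by linear_combination this
    rcases mul_eq_zero.mp h with h | h
    · exact Or.inl h
    · exact Or.inr (by linear_combination h)
  have hchar : ringChar F = 2 := by
    rw [FiniteField.even_card_iff_char_two, hq]
  have : CharP F 2 := by
    rw [← hchar]; exact ringChar.charP F
  have h2 : (2 : F) = 0 := CharP.cast_eq_zero F 2
  have hadd : ∀ a : F, a + a = 0 := by
    intro a
    linear_combination a * h2
  have hswap : ∀ u v, sympForm m F u v = sympForm m F v u := by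
    intro u v
    rw [sympForm_swap]
    linear_combination (-1 : F) * hadd (sympForm m F v u)
  -- t ≥ 3
  have ht3 : 3 ≤ t := by
    by_contra hcon
    have ht2 : t = 2 := by have := hD.decomp.two_le; omega
    subst ht2
    have hle : iSup D ≤ D 0 ⊔ D 1 := by
      refine iSup_le (fun i => ?_)
      fin_cases i
      · exact le_sup_left
      · exact le_sup_right
    rw [hD.decomp.iSup_eq_top] at hle
    have h1 := Submodule.finrank_mono hle
    have h2 := Submodule.finrank_add_le_finrank_add_finrank (D 0) (D 1)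
    rw [hD.decomp.finrank_eq, hD.decomp.finrank_eq] at h2
    rw [finrank_top, Module.finrank_fintype_fun_eq_card] at h1
    simp at h1
    omega
  -- symplectic pairs
  have pair : ∀ k, ∃ e ∈ D k, ∃ f ∈ D k, sympForm m F e f = 1 ∧
      ∀ d ∈ D k, ∃ α β : F, d = α • e + β • f := by
    intro k
    have hne : ∃ d ∈ D k, d ≠ 0 := by
      by_contra hcon
      push Not at hcon
      have : D k = ⊥ := (Submodule.eq_bot_iff (D k)).mpr hcon
      have h := hD.decomp.finrank_eq k
      rw [this, finrank_bot] at h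
      omega
    obtain ⟨e, he, he0⟩ := hne
    obtain ⟨-, f, hf, hef⟩ := hD.nondegenerate k e he he0
    have hef1 : sympForm m F e f = 1 := (h01 _).resolve_left hef
    have hli : LinearIndependent F ![e, f] := by
      rw [LinearIndependent.pair_iff]
      intro s r hsr
      have h1 := congrArg (fun z => sympForm m F e z) hsr
      simp only [sympForm_add_right, sympForm_smul_right, sympForm_self, hef1,
        sympForm_zero_right] at h1
      have h2 := congrArg (fun z => sympForm m F z f) hsr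
      simp only [sympForm_add_left, sympForm_smul_left, sympForm_self, hef1,
        sympForm_zero_left] at h2
      exact ⟨by linear_combination h2, by linear_combination h1⟩
    have hS : Submodule.span F (Set.range ![e, f]) ≤ D k := by
      rw [Submodule.span_le]
      rintro _ ⟨i, rfl⟩
      fin_cases i
      · exact he
      · exact hf
    have heq := Submodule.eq_of_le_of_finrank_eq hS (by
      rw [finrank_span_eq_card hli, hD.decomp.finrank_eq k]; simp)
    refine ⟨e, he, f, hf, hef1, ?_⟩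
    intro d hd
    rw [← heq, Submodule.mem_span_range_iff_exists_fun] at hd
    obtain ⟨c, hc⟩ := hd
    exact ⟨c 0, c 1, by rw [← hc, Fin.sum_univ_two]; rfl⟩
  -- the local indicator
  obtain ⟨χ, hχ⟩ : ∃ χ : Fin t → (Fin m ⊕ Fin m → F) → F,
      χ = fun k v => if (∀ d ∈ D k, sympForm m F v d = 0) then 0 else 1 := ⟨_, rfl⟩
  have chi_formula : ∀ k, ∀ e ∈ D k, ∀ f ∈ D k, (∀ d ∈ D k, ∃ α β : F, d = α • e + β • f) →
      ∀ v, χ k v = sympForm m F v e + sympForm m F v f + sympForm m F v e * sympForm m F v f := by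
    intro k e he f hf hsp v
    rw [hχ]
    by_cases h : ∀ d ∈ D k, sympForm m F v d = 0
    · simp only [if_pos h]
      rw [h e he, h f hf]; ring
    · simp only [if_neg h]
      rcases h01 (sympForm m F v e) with h1 | h1 <;> rcases h01 (sympForm m F v f) with h2 | h2
      · exfalso
        apply h
        intro d hd
        obtain ⟨α, β, rfl⟩ := hsp d hd
        rw [sympForm_add_right, sympForm_smul_right, sympForm_smul_right, h1, h2]; ring
      · rw [h1, h2]; ring
      · rw [h1, h2]; ring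
      · rw [h1, h2]; linear_combination (-1 : F) * hadd 1
  have chi_local : ∀ k, ∀ a ∈ D k, ∀ v, χ k (v + a) = χ k v + χ k a + sympForm m F v a := by
    intro k a ha v
    obtain ⟨e, he, f, hf, hef, hsp⟩ := pair k
    obtain ⟨α, β, rfl⟩ := hsp a ha
    have hfe : sympForm m F f e = 1 := by rw [hswap, hef]
    rw [chi_formula k e he f hf hsp, chi_formula k e he f hf hsp, chi_formula k e he f hf hsp]
    simp only [sympForm_add_left, sympForm_add_right, sympForm_smul_left, sympForm_smul_right,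
      sympForm_self, hef, hfe]
    ring
  have chi_other : ∀ i k, i ≠ k → ∀ a ∈ D k, ∀ v, χ i (v + a) = χ i v := by
    intro i k hik a ha v
    rw [hχ]
    have : (∀ d ∈ D i, sympForm m F (v + a) d = 0) ↔ (∀ d ∈ D i, sympForm m F v d = 0) := by
      refine forall_congr' (fun d => forall_congr' (fun hd => ?_))
      rw [sympForm_add_left, hD.orthogonal k i (Ne.symm hik) a ha d hd, add_zero]
    simp only [this]
  have chi_one : ∀ k, ∀ a ∈ D k, a ≠ 0 → χ k a = 1 := by
    intro k a ha ha0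
    obtain ⟨-, z, hz, haz⟩ := hD.nondegenerate k a ha ha0
    rw [hχ]
    have : ¬ (∀ d ∈ D k, sympForm m F a d = 0) := fun h => haz (h z hz)
    simp only [if_neg this]
  obtain ⟨Q, hQ⟩ : ∃ Q : (Fin m ⊕ Fin m → F) → F, Q = fun v => ∑ i, χ i v := ⟨_, rfl⟩
  have hU : ∀ k, ∀ a ∈ D k, ∀ v, Q (v + a) = Q v + χ k a + sympForm m F v a := by
    intro k a ha v
    rw [hQ]
    have : ∀ i, χ i (v + a) = χ i v + if i = k then (χ k a + sympForm m F v a) else 0 := by
      intro i
      by_cases hik : i = k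
      · subst hik
        rw [if_pos rfl, chi_local i a ha v]; ring
      · rw [if_neg hik, chi_other i k hik a ha v, add_zero]
    simp only [this, Finset.sum_add_distrib, Finset.sum_ite_eq', Finset.mem_univ, if_true]
    ring
  let K : Subgroup (Matrix.GeneralLinearGroup (Fin m ⊕ Fin m) F) :=
    { carrier := {g | g ∈ spGL m F ∧
        ∀ v, Q ((g : Matrix (Fin m ⊕ Fin m) (Fin m ⊕ Fin m) F) *ᵥ v) = Q v}
      mul_mem' := by
        rintro a b ⟨ha, ha'⟩ ⟨hb, hb'⟩
        refine ⟨Subgroup.mul_mem _ ha hb, fun v => ?_⟩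
        rw [Units.val_mul, ← Matrix.mulVec_mulVec, ha', hb']
      one_mem' := ⟨Subgroup.one_mem _, fun v => by simp⟩
      inv_mem' := by
        rintro a ⟨ha, ha'⟩
        refine ⟨Subgroup.inv_mem _ ha, fun v => ?_⟩
        rw [← ha' (((a⁻¹ : Matrix.GeneralLinearGroup (Fin m ⊕ Fin m) F) :
          Matrix (Fin m ⊕ Fin m) (Fin m ⊕ Fin m) F) *ᵥ v), gl_mulVec_inv] }
  have hKmem : ∀ g, g ∈ K ↔ (g ∈ spGL m F ∧
        ∀ v, Q ((g : Matrix (Fin m ⊕ Fin m) (Fin m ⊕ Fin m) F) *ᵥ v) = Q v) := fun g => Iff.rfl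
  obtain ⟨i₁, hi₁⟩ : ∃ i₁ : Fin t, i₁ = ⟨0, by omega⟩ := ⟨_, rfl⟩
  obtain ⟨i₂, hi₂⟩ : ∃ i₂ : Fin t, i₂ = ⟨1, by omega⟩ := ⟨_, rfl⟩
  obtain ⟨i₃, hi₃⟩ : ∃ i₃ : Fin t, i₃ = ⟨2, by omega⟩ := ⟨_, rfl⟩
  have hi12 : i₁ ≠ i₂ := by
    rw [hi₁, hi₂]; intro h; simpa using congrArg Fin.val h
  have hi13 : i₁ ≠ i₃ := by
    rw [hi₁, hi₃]; intro h; simpa using congrArg Fin.val h
  have hi23 : i₂ ≠ i₃ := by
    rw [hi₂, hi₃]; intro h; simpa using congrArg Fin.val h
  obtain ⟨e₁, he₁, f₁, hf₁, hef₁, -⟩ := pair i₁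
  obtain ⟨e₂, he₂, f₂, hf₂, hef₂, -⟩ := pair i₂
  obtain ⟨e₃, he₃, f₃, hf₃, hef₃, -⟩ := pair i₃
  have ne0 : ∀ e f : Fin m ⊕ Fin m → F, sympForm m F e f = 1 → e ≠ 0 := by
    rintro e f h rfl
    rw [sympForm_zero_left] at h
    exact zero_ne_one h
  have c1 := chi_one i₁ e₁ he₁ (ne0 _ _ hef₁)
  have c2 := chi_one i₂ e₂ he₂ (ne0 _ _ hef₂)
  have c3 := chi_one i₃ e₃ he₃ (ne0 _ _ hef₃)
  refine ⟨K, ?_, ?_⟩
  · refine lt_of_le_of_ne ?_ ?_
    · rintro g hg
      obtain ⟨⟨τ, hτ⟩, hgSp⟩ := Subgroup.mem_inf.mp hg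
      have hiso := (mem_spGL_iff m g).mp hgSp
      refine (hKmem g).mpr ⟨hgSp, fun v => ?_⟩
      rw [hQ]
      have key : ∀ i, χ (τ i) ((g : Matrix (Fin m ⊕ Fin m) (Fin m ⊕ Fin m) F) *ᵥ v) = χ i v := by
        intro i
        rw [hχ]
        have : (∀ d ∈ D (τ i), sympForm m F
            ((g : Matrix (Fin m ⊕ Fin m) (Fin m ⊕ Fin m) F) *ᵥ v) d = 0) ↔
            (∀ d ∈ D i, sympForm m F v d = 0) := by
          constructor
          · intro h d hd
            have := h ((g : Matrix (Fin m ⊕ Fin m) (Fin m ⊕ Fin m) F) *ᵥ d) (by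
              rw [← hτ i]; exact ⟨d, hd, rfl⟩)
            rwa [hiso] at this
          · intro h d hd
            rw [← hτ i] at hd
            obtain ⟨d', hd', rfl⟩ := hd
            have := h d' hd'
            rw [← hiso] at this
            exact this
        simp only [this]
      show ∑ i, χ i ((g : Matrix (Fin m ⊕ Fin m) (Fin m ⊕ Fin m) F) *ᵥ v) = ∑ i, χ i v
      rw [← Equiv.sum_comp τ]
      exact Finset.sum_congr rfl (fun i _ => key i)
    · intro heq
      have hg0 : tvGL m (e₁ + e₂ + e₃) 1 ∈ K := by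
        refine (hKmem _).mpr ⟨tvGL_mem m _ _, fun v => ?_⟩
        rw [tvGL_mulVec, one_mul]
        rcases h01 (sympForm m F v (e₁ + e₂ + e₃)) with h | h
        · rw [h, zero_smul, add_zero]
        · rw [h, one_smul]
          have e : v + (e₁ + e₂ + e₃) = v + e₁ + e₂ + e₃ := by abel
          rw [e, hU i₃ e₃ he₃, hU i₂ e₂ he₂, hU i₁ e₁ he₁, c1, c2, c3]
          simp only [sympForm_add_left, sympForm_add_right,
            hD.orthogonal i₁ i₂ hi12 e₁ he₁ e₂ he₂, hD.orthogonal i₁ i₃ hi13 e₁ he₁ e₃ he₃,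
            hD.orthogonal i₂ i₃ hi23 e₂ he₂ e₃ he₃] at h ⊢
          linear_combination h + 2 * hadd 1
      rw [← heq] at hg0
      obtain ⟨⟨τ, hτ⟩, -⟩ := Subgroup.mem_inf.mp hg0
      have e1 : (tvGL m (e₁ + e₂ + e₃) 1 : Matrix (Fin m ⊕ Fin m) (Fin m ⊕ Fin m) F) *ᵥ f₁ =
          f₁ + (e₁ + e₂ + e₃) := by
        rw [tvGL_mulVec, one_mul]
        simp only [sympForm_add_right, hD.orthogonal i₁ i₂ hi12 f₁ hf₁ e₂ he₂,
          hD.orthogonal i₁ i₃ hi13 f₁ hf₁ e₃ he₃, hswap f₁ e₁, hef₁]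
        simp
      have m1 : f₁ + (e₁ + e₂ + e₃) ∈ D (τ i₁) := by
        rw [← hτ i₁]; exact ⟨f₁, hf₁, e1⟩
      by_cases hc : τ i₁ = i₂
      · have := hD.orthogonal (τ i₁) i₃ (by rw [hc]; exact hi23) _ m1 f₃ hf₃
        simp only [sympForm_add_left, hef₃, hD.orthogonal i₁ i₃ hi13 f₁ hf₁ f₃ hf₃,
          hD.orthogonal i₁ i₃ hi13 e₁ he₁ f₃ hf₃, hD.orthogonal i₂ i₃ hi23 e₂ he₂ f₃ hf₃] at this
        exact one_ne_zero (α := F) (by linear_combination this)
      · have := hD.orthogonal (τ i₁) i₂ hc _ m1 f₂ hf₂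
        simp only [sympForm_add_left, hef₂, hD.orthogonal i₁ i₂ hi12 f₁ hf₁ f₂ hf₂,
          hD.orthogonal i₁ i₂ hi12 e₁ he₁ f₂ hf₂,
          hD.orthogonal i₃ i₂ hi23.symm e₃ he₃ f₂ hf₂] at this
        exact one_ne_zero (α := F) (by linear_combination this)
  · refine lt_of_le_of_ne (fun g hg => ((hKmem g).mp hg).1) ?_
    intro heq
    have hg1 : tvGL m (e₁ + e₂) 1 ∈ spGL m F := tvGL_mem m _ _
    rw [← heq] at hg1
    have h1 := ((hKmem _).mp hg1).2 f₁
    have e1 : (tvGL m (e₁ + e₂) 1 : Matrix (Fin m ⊕ Fin m) (Fin m ⊕ Fin m) F) *ᵥ f₁ =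
        f₁ + e₁ + e₂ := by
      rw [tvGL_mulVec, one_mul]
      simp only [sympForm_add_right, hD.orthogonal i₁ i₂ hi12 f₁ hf₁ e₂ he₂, hswap f₁ e₁, hef₁]
      simp [add_assoc]
    rw [e1, hU i₂ e₂ he₂, hU i₁ e₁ he₁, c1, c2] at h1
    simp only [sympForm_add_left, hD.orthogonal i₁ i₂ hi12 f₁ hf₁ e₂ he₂,
      hD.orthogonal i₁ i₂ hi12 e₁ he₁ e₂ he₂, hswap f₁ e₁, hef₁] at h1
    exact one_ne_zero (α := F) (by linear_combination h1 - hadd 1)

end Cfsg.Agent.S5648
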