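import Cfsg.Statements.S5649
import Cfsg.Agent.Lib.Helper6.SpLag

set_option autoImplicit false
open Cfsg

namespace Cfsg.Agent.S5649

open Cfsg.Agent.Lib.Helper6 Matrix

section aux

variable {F : Type*} [Field F] {m : ℕ}

theorem gl_injective (g : Matrix.GeneralLinearGroup (Fin m ⊕ Fin m) F) :
    Function.Injective (Matrix.toLin' (g : Matrix (Fin m ⊕ Fin m) (Fin m ⊕ Fin m) F)) := by
  intro x y hxy
  simp only [Matrix.toLin'_apply] at hxy
  have := congrArg (fun z => ((g⁻¹ : Matrix.GeneralLinearGroup (Fin m ⊕ Fin m) F) :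
    Matrix (Fin m ⊕ Fin m) (Fin m ⊕ Fin m) F) *ᵥ z) hxy
  simpa only [gl_inv_mulVec] using this

theorem map_eq {t k : ℕ} {D : Fin t → Submodule F (Fin m ⊕ Fin m → F)}
    (hD : Cfsg.Geo.IsMDecomposition k D)
    (g : Matrix.GeneralLinearGroup (Fin m ⊕ Fin m) F) (i j : Fin t)
    (h : ∀ x ∈ D i, (g : Matrix (Fin m ⊕ Fin m) (Fin m ⊕ Fin m) F) *ᵥ x ∈ D j) :
    (D i).map (Matrix.toLin' (g : Matrix (Fin m ⊕ Fin m) (Fin m ⊕ Fin m) F)) = D j := by
  apply Submodule.eq_of_le_of_finrank_eq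
  · rintro _ ⟨x, hx, rfl⟩
    rw [Matrix.toLin'_apply]
    exact h x hx
  · rw [← (Submodule.equivMapOfInjective _ (gl_injective g) (D i)).finrank_eq,
      hD.finrank_eq, hD.finrank_eq]

theorem mem_stab_of_le {t k : ℕ} {D : Fin t → Submodule F (Fin m ⊕ Fin m → F)}
    (hD : Cfsg.Geo.IsMDecomposition k D)
    (g : Matrix.GeneralLinearGroup (Fin m ⊕ Fin m) F) (σ : Equiv.Perm (Fin t))
    (h : ∀ i, ∀ x ∈ D i, (g : Matrix (Fin m ⊕ Fin m) (Fin m ⊕ Fin m) F) *ᵥ x ∈ D (σ i)) :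
    g ∈ Cfsg.Geo.decompositionStabilizer D :=
  ⟨σ, fun i => map_eq hD g i (σ i) (h i)⟩

theorem sub_union (X A B : Submodule F (Fin m ⊕ Fin m → F))
    (g : Matrix (Fin m ⊕ Fin m) (Fin m ⊕ Fin m) F)
    (hcov : ∀ x ∈ X, g *ᵥ x ∈ A ∨ g *ᵥ x ∈ B) :
    (∀ x ∈ X, g *ᵥ x ∈ A) ∨ (∀ x ∈ X, g *ᵥ x ∈ B) := by
  by_contra hc
  push Not at hc
  obtain ⟨⟨x, hx, hx1⟩, ⟨y, hy, hy1⟩⟩ := hc
  have hx2 := (hcov x hx).resolve_left hx1
  have hy2 := (hcov y hy).resolve_right hy1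
  rcases hcov (x + y) (X.add_mem hx hy) with h3 | h3
  · rw [Matrix.mulVec_add] at h3
    apply hx1
    have := A.sub_mem h3 hy2
    simpa using this
  · rw [Matrix.mulVec_add] at h3
    apply hy1
    have := B.sub_mem h3 hx2
    simpa using this

theorem lagPair {D : Fin 2 → Submodule F (Fin m ⊕ Fin m → F)}
    (hD : Cfsg.Geo.IsMDecomposition m D)
    (hts : ∀ i, Cfsg.Geo.IsTotallySingularFor (Cfsg.sympForm m F) (D i)) :
    LagPair (D 0) (D 1) where
  tsA := hts 0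
  tsB := hts 1
  span := by
    intro x
    have hx : x ∈ iSup D := by rw [hD.iSup_eq_top]; trivial
    induction hx using Submodule.iSup_induction' with
    | mem i y hy =>
      fin_cases i
      · exact ⟨y, hy, 0, (D 1).zero_mem, by simp⟩
      · exact ⟨0, (D 0).zero_mem, y, hy, by simp⟩
    | zero => exact ⟨0, (D 0).zero_mem, 0, (D 1).zero_mem, by simp⟩
    | add y z _ _ h1 h2 =>
      obtain ⟨a, ha, b, hb, rfl⟩ := h1
      obtain ⟨a', ha', b', hb', rfl⟩ := h2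
      exact ⟨a + a', (D 0).add_mem ha ha', b + b', (D 1).add_mem hb hb', by abel⟩
  dim := by rw [hD.finrank_eq, hD.finrank_eq]

end aux

/-- For a finite field F of odd order and m ≥ 7, let D be a decomposition of F^(2m) into two complementary subspaces of dimension m on each of which the standard alternating form vanishes identically. Then the elements of Sp_2m(F) preserving or interchanging the two subspaces form a maximal subgroup of Sp_2m(F). -/
theorem result {F : Type*} [Field F] [Fintype F] (m : ℕ) (hm : 7 ≤ m) (hodd : Odd (Fintype.card F)) (D : Fin 2 → Submodule F (Fin m ⊕ Fin m → F)) (hD : Cfsg.Geo.IsMDecomposition m D) (hts : ∀ i, Cfsg.Geo.IsTotallySingularFor (Cfsg.sympForm m F) (D i)) : Cfsg.Geo.IsMaximalIn (Cfsg.spGL m F) (Cfsg.Geo.decompositionStabilizer D ⊓ Cfsg.spGL m F) := by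
  have h2 : (2 : F) ≠ 0 := by
    intro h
    have h1 : ringChar F = 2 := CharP.ringChar_of_prime_eq_zero Nat.prime_two (by exact_mod_cast h)
    have h3 := FiniteField.even_card_of_char_two h1
    rcases hodd with ⟨r, hr⟩
    omega
  have hL := lagPair hD hts
  have hdA : 4 ≤ Module.finrank F (D 0) := by rw [hD.finrank_eq]; omega
  have hdB : 4 ≤ Module.finrank F (D 1) := by rw [hD.finrank_eq]; omega
  have stab_id : ∀ g : Matrix.GeneralLinearGroup (Fin m ⊕ Fin m) F,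
      (∀ x ∈ D 0, (g : Matrix (Fin m ⊕ Fin m) (Fin m ⊕ Fin m) F) *ᵥ x ∈ D 0) →
      (∀ x ∈ D 1, (g : Matrix (Fin m ⊕ Fin m) (Fin m ⊕ Fin m) F) *ᵥ x ∈ D 1) →
      g ∈ Cfsg.Geo.decompositionStabilizer D := by
    intro g h0 h1
    apply mem_stab_of_le hD g 1
    intro i
    fin_cases i
    · exact h0
    · exact h1
  have stab_sw : ∀ g : Matrix.GeneralLinearGroup (Fin m ⊕ Fin m) F,
      (∀ x ∈ D 0, (g : Matrix (Fin m ⊕ Fin m) (Fin m ⊕ Fin m) F) *ᵥ x ∈ D 1) →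
      (∀ x ∈ D 1, (g : Matrix (Fin m ⊕ Fin m) (Fin m ⊕ Fin m) F) *ᵥ x ∈ D 0) →
      g ∈ Cfsg.Geo.decompositionStabilizer D := by
    intro g h0 h1
    apply mem_stab_of_le hD g (Equiv.swap 0 1)
    intro i
    fin_cases i
    · simpa using h0
    · simpa using h1
  apply isMaximalIn_of _ _ inf_le_right
  · obtain ⟨u, hu, hu0, -⟩ := exists_kernel_vec (D 0) hdA 0 0 0
    have huB : u ∉ D 1 := fun h => hu0 (hL.disj hu h)
    obtain ⟨w, hw, huw⟩ := hL.exists_ne_right huB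
    have hwu : sympForm m F w u ≠ 0 := by rw [sympForm_swap]; exact neg_ne_zero.mpr huw
    refine ⟨tvGL m u 1, tvGL_mem m _ 1, fun hmem => ?_⟩
    obtain ⟨σ, hσ⟩ := (Subgroup.mem_inf.mp hmem).1
    have hy : (tvGL m u 1 : Matrix (Fin m ⊕ Fin m) (Fin m ⊕ Fin m) F) *ᵥ w ∈ D (σ 1) := by
      rw [← hσ 1]
      exact ⟨w, hw, by rw [Matrix.toLin'_apply]⟩
    rw [tvGL_mulVec, one_mul] at hy
    have hcase : ∀ j : Fin 2, w + sympForm m F w u • u ∈ D j → False := by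
      intro j hj
      fin_cases j
      · have h1 : w ∈ D 0 := by
          have := (D 0).sub_mem hj ((D 0).smul_mem (sympForm m F w u) hu)
          simpa using this
        have := hL.disj h1 hw
        rw [this, sympForm_zero_left] at hwu
        exact hwu rfl
      · have h1 : sympForm m F w u • u ∈ D 1 := by
          have := (D 1).sub_mem hj hw
          simpa using this
        have h3 := (D 1).smul_mem (sympForm m F w u)⁻¹ h1
        rw [smul_smul, inv_mul_cancel₀ hwu, one_smul] at h3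
        exact huB h3
    exact hcase _ hy
  · intro M hPM hMK ⟨h, hhM, hhP⟩
    have hhS : h ∈ spGL m F := hMK hhM
    apply eq_spGL_of_tvSet
    have hΨ : ∀ u ∈ D 0, ∀ w ∈ D 1, sympForm m F u w = 0 → ∀ c, rt m u w c ∈ M := by
      intro u hu w hw huw c
      apply hPM
      refine Subgroup.mem_inf.mpr ⟨?_, rt_mem u w c⟩
      apply stab_id
      · intro x hx
        rw [rt_mulVec huw, hL.tsA x hx u hu, mul_zero, zero_smul, add_zero]
        exact (D 0).add_mem hx ((D 0).smul_mem _ hu)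
      · intro x hx
        rw [rt_mulVec huw, hL.tsB x hx w hw, mul_zero, zero_smul, add_zero]
        exact (D 1).add_mem hx ((D 1).smul_mem _ hw)
    have hΨ' : ∀ u ∈ D 1, ∀ w ∈ D 0, sympForm m F u w = 0 → ∀ c, rt m u w c ∈ M := by
      intro u hu w hw huw c
      rw [rt_comm]
      apply hΨ w hw u hu
      rw [sympForm_swap, huw, neg_zero]
    obtain ⟨s, hsS, hs0, hs1⟩ := hL.exists_swap
    have hsM : s ∈ M := hPM (Subgroup.mem_inf.mpr ⟨stab_sw s hs0 hs1, hsS⟩)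
    have transfer : ∀ X Y : Submodule F (Fin m ⊕ Fin m → F),
        (∀ y ∈ Y, (s : Matrix (Fin m ⊕ Fin m) (Fin m ⊕ Fin m) F) *ᵥ y ∈ X) →
        (∀ x ∈ X, x ∈ tvSet m M) → ∀ y ∈ Y, y ∈ tvSet m M := by
      intro X Y hYX hX y hy
      have h1 := tvSet_mulVec (hX _ (hYX y hy)) (M.inv_mem hsM) ((spGL m F).inv_mem hsS)
      rwa [gl_inv_mulVec] at h1
    have key : (∃ u ∈ D 0, u ≠ 0 ∧ u ∈ tvSet m M) ∨ (∃ u ∈ D 1, u ≠ 0 ∧ u ∈ tvSet m M) := by
      by_contra hcon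
      push Not at hcon
      obtain ⟨hc0, hc1⟩ := hcon
      have hne0 : ∀ x, x ≠ 0 → (h : Matrix (Fin m ⊕ Fin m) (Fin m ⊕ Fin m) F) *ᵥ x ≠ 0 := by
        intro x hx h0
        apply hx
        have := gl_inv_mulVec h x
        rw [h0, Matrix.mulVec_zero] at this
        exact this.symm
      have split : ∀ u ∈ D 0, ∀ w ∈ D 1, u ≠ 0 → w ≠ 0 → sympForm m F u w = 0 →
          ((h : Matrix (Fin m ⊕ Fin m) (Fin m ⊕ Fin m) F) *ᵥ u ∈ D 0 ∧
            (h : Matrix (Fin m ⊕ Fin m) (Fin m ⊕ Fin m) F) *ᵥ w ∈ D 1) ∨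
          ((h : Matrix (Fin m ⊕ Fin m) (Fin m ⊕ Fin m) F) *ᵥ u ∈ D 1 ∧
            (h : Matrix (Fin m ⊕ Fin m) (Fin m ⊕ Fin m) F) *ᵥ w ∈ D 0) := by
        intro u hu w hw hu0 hw0 huw
        have hab : sympForm m F ((h : Matrix (Fin m ⊕ Fin m) (Fin m ⊕ Fin m) F) *ᵥ u)
            ((h : Matrix (Fin m ⊕ Fin m) (Fin m ⊕ Fin m) F) *ᵥ w) = 0 := by
          rw [(mem_spGL_iff m h).mp hhS, huw]
        have hM : ∀ c, rt m ((h : Matrix (Fin m ⊕ Fin m) (Fin m ⊕ Fin m) F) *ᵥ u)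
            ((h : Matrix (Fin m ⊕ Fin m) (Fin m ⊕ Fin m) F) *ᵥ w) c ∈ M := by
          intro c
          rw [← conj_rt hhS]
          exact M.mul_mem (M.mul_mem hhM (hΨ u hu w hw huw c)) (M.inv_mem hhM)
        have h1 : (h : Matrix (Fin m ⊕ Fin m) (Fin m ⊕ Fin m) F) *ᵥ u ∈ D 1 ∨
            (h : Matrix (Fin m ⊕ Fin m) (Fin m ⊕ Fin m) F) *ᵥ w ∈ D 1 := by
          by_contra hc
          push Not at hc
          obtain ⟨x, hx, hx0, hxΩ⟩ := hL.success h2 hdA hΨ hab hM hc.1 hc.2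
          exact hc0 x hx hx0 hxΩ
        have h3 : (h : Matrix (Fin m ⊕ Fin m) (Fin m ⊕ Fin m) F) *ᵥ u ∈ D 0 ∨
            (h : Matrix (Fin m ⊕ Fin m) (Fin m ⊕ Fin m) F) *ᵥ w ∈ D 0 := by
          by_contra hc
          push Not at hc
          obtain ⟨x, hx, hx0, hxΩ⟩ := hL.symm.success h2 hdB hΨ' hab hM hc.1 hc.2
          exact hc1 x hx hx0 hxΩ
        rcases h1 with h1 | h1
        · rcases h3 with h3 | h3
          · exact absurd (hL.disj h3 h1) (hne0 u hu0)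
          · exact Or.inr ⟨h1, h3⟩
        · rcases h3 with h3 | h3
          · exact Or.inl ⟨h3, h1⟩
          · exact absurd (hL.disj h3 h1) (hne0 w hw0)
      have cov0 : ∀ u ∈ D 0, (h : Matrix (Fin m ⊕ Fin m) (Fin m ⊕ Fin m) F) *ᵥ u ∈ D 0 ∨
          (h : Matrix (Fin m ⊕ Fin m) (Fin m ⊕ Fin m) F) *ᵥ u ∈ D 1 := by
        intro u hu
        by_cases hu0 : u = 0
        · subst hu0; rw [Matrix.mulVec_zero]; exact Or.inl (D 0).zero_mem
        obtain ⟨w, hw, hw0, hwu, -⟩ := exists_kernel_vec (D 1) hdB u u u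
        have huw : sympForm m F u w = 0 := by rw [sympForm_swap, hwu, neg_zero]
        rcases split u hu w hw hu0 hw0 huw with h1 | h1
        · exact Or.inl h1.1
        · exact Or.inr h1.1
      have cov1 : ∀ w ∈ D 1, (h : Matrix (Fin m ⊕ Fin m) (Fin m ⊕ Fin m) F) *ᵥ w ∈ D 0 ∨
          (h : Matrix (Fin m ⊕ Fin m) (Fin m ⊕ Fin m) F) *ᵥ w ∈ D 1 := by
        intro w hw
        by_cases hw0 : w = 0
        · subst hw0; rw [Matrix.mulVec_zero]; exact Or.inl (D 0).zero_mem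
        obtain ⟨u, hu, hu0, huw, -⟩ := exists_kernel_vec (D 0) hdA w w w
        rcases split u hu w hw hu0 hw0 huw with h1 | h1
        · exact Or.inr h1.2
        · exact Or.inl h1.2
      have hall : ∀ X : Submodule F (Fin m ⊕ Fin m → F),
          (∀ x ∈ D 0, (h : Matrix (Fin m ⊕ Fin m) (Fin m ⊕ Fin m) F) *ᵥ x ∈ X) →
          (∀ x ∈ D 1, (h : Matrix (Fin m ⊕ Fin m) (Fin m ⊕ Fin m) F) *ᵥ x ∈ X) → ∀ y, y ∈ X := by
        intro X h0 h1 y
        obtain ⟨a, ha, b, hb, hab⟩ := hL.span (((h⁻¹ : Matrix.GeneralLinearGroup (Fin m ⊕ Fin m) F) :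
          Matrix (Fin m ⊕ Fin m) (Fin m ⊕ Fin m) F) *ᵥ y)
        have := congrArg (fun z => (h : Matrix (Fin m ⊕ Fin m) (Fin m ⊕ Fin m) F) *ᵥ z) hab
        simp only [gl_mulVec_inv, Matrix.mulVec_add] at this
        rw [this]
        exact X.add_mem (h0 a ha) (h1 b hb)
      obtain ⟨u, hu, hu0, -⟩ := exists_kernel_vec (D 0) hdA 0 0 0
      obtain ⟨w, hw, hw0, -⟩ := exists_kernel_vec (D 1) hdB 0 0 0
      rcases sub_union _ _ _ _ cov0 with h0 | h0
      · rcases sub_union _ _ _ _ cov1 with h1 | h1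
        · exact hw0 (hL.disj (hall _ h0 h1 w) hw)
        · exact hhP (Subgroup.mem_inf.mpr ⟨stab_id h h0 h1, hhS⟩)
      · rcases sub_union _ _ _ _ cov1 with h1 | h1
        · exact hhP (Subgroup.mem_inf.mpr ⟨stab_sw h h0 h1, hhS⟩)
        · exact hu0 (hL.disj hu (hall _ h0 h1 u))
    rcases key with ⟨u, hu, hu0, huΩ⟩ | ⟨u, hu, hu0, huΩ⟩
    · have hA := hL.spread h2 hΨ hu hu0 huΩ
      exact hL.all_mem hA (transfer _ _ hs1 hA)
    · have hB := hL.symm.spread h2 hΨ' hu hu0 huΩ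
      exact hL.all_mem (transfer _ _ hs0 hB) hB

end Cfsg.Agent.S5649
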