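import Cfsg.Statements.S5652
import Cfsg.Agent.Lib.Helper6.SpMax
import Cfsg.Agent.Lib.Helper6.WittQuad
import Cfsg.Agent.S0762

set_option autoImplicit false
open Cfsg

namespace Cfsg.Agent.S5652

open Cfsg.Agent.Lib.Helper6 Matrix

/-- a linear automorphism as an element of `GL`. -/
noncomputable def glOfEquiv {F : Type*} [Field F] {ι : Type*} [Fintype ι] [DecidableEq ι]
    (g : (ι → F) ≃ₗ[F] (ι → F)) : Matrix.GeneralLinearGroup ι F :=
  ⟨LinearMap.toMatrix' g.toLinearMap, LinearMap.toMatrix' g.symm.toLinearMap,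
    by rw [← LinearMap.toMatrix'_comp]; simp, by rw [← LinearMap.toMatrix'_comp]; simp⟩

theorem glOfEquiv_mulVec {F : Type*} [Field F] {ι : Type*} [Fintype ι] [DecidableEq ι]
    (g : (ι → F) ≃ₗ[F] (ι → F)) (x : ι → F) :
    (glOfEquiv g : Matrix ι ι F) *ᵥ x = g x := by
  show LinearMap.toMatrix' g.toLinearMap *ᵥ x = g x
  rw [← Matrix.toLin'_apply, Matrix.toLin'_toMatrix']
  rfl

section
variable {F : Type*} [Field F] {m : ℕ} (Q : (Fin m ⊕ Fin m → F) → F)
  (hsm : ∀ (c : F) (v : Fin m ⊕ Fin m → F), Q (c • v) = c ^ 2 * Q v)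
  (hpol : ∀ u v, QuadraticMap.polar Q u v = Cfsg.sympForm m F u v)

include hpol in
theorem Q_add (u v : Fin m ⊕ Fin m → F) : Q (u + v) = Q u + Q v + sympForm m F u v := by
  rw [← hpol, QuadraticMap.polar]; ring

/-- `Q` as a Mathlib quadratic form. -/
def Qf : QuadraticForm F (Fin m ⊕ Fin m → F) where
  toFun := Q
  toFun_smul := by
    intro c v
    rw [hsm, smul_eq_mul, pow_two]
  exists_companion' := ⟨sympB m F, fun u v => by rw [Q_add Q hpol]; rfl⟩

theorem Qf_apply (v : Fin m ⊕ Fin m → F) : Qf Q hsm hpol v = Q v := rfl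

theorem Qf_polar : (QuadraticMap.polarBilin (Qf Q hsm hpol)).Nondegenerate := by
  have : QuadraticMap.polarBilin (Qf Q hsm hpol) = sympB m F := by
    apply LinearMap.ext
    intro u
    apply LinearMap.ext
    intro v
    rw [QuadraticMap.polarBilin_apply_apply]
    exact hpol _ _
  rw [this]
  exact sympB_nondegenerate

include hsm hpol

theorem Q_tv (v : Fin m ⊕ Fin m → F) (c : F) (x : Fin m ⊕ Fin m → F) :
    Q ((tvGL m v c : Matrix (Fin m ⊕ Fin m) (Fin m ⊕ Fin m) F) *ᵥ x) =
      Q x + c * sympForm m F x v ^ 2 * (c * Q v + 1) := by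
  rw [tvGL_mulVec, Q_add Q hpol, hsm, sympForm_smul_right]
  ring

/-- isometries from Witt. -/
theorem exists_isom (a y : Fin m ⊕ Fin m → F) (ha : a ≠ 0) (hy : y ≠ 0) (hay : Q a = Q y) :
    ∃ g : Matrix.GeneralLinearGroup (Fin m ⊕ Fin m) F,
      g ∈ Cfsg.Geo.quadSimilarityGroup Q ⊓ Cfsg.spGL m F ∧
      (g : Matrix (Fin m ⊕ Fin m) (Fin m ⊕ Fin m) F) *ᵥ a = y := by
  obtain ⟨h, hh, hay', -⟩ := wq_step (Qf Q hsm hpol) (Qf_polar Q hsm hpol) ⊥ a y
    (by simpa using ha) (by simpa using hy) hay (by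
      intro z hz
      rw [(Submodule.mem_bot F).mp hz]; simp)
  have hQ : ∀ v, Q (h v) = Q v := hh
  refine ⟨glOfEquiv h, Subgroup.mem_inf.mpr ⟨⟨1, fun v => ?_⟩, ?_⟩, ?_⟩
  · rw [glOfEquiv_mulVec, hQ]; simp
  · intro u v
    show sympForm m F ((glOfEquiv h : Matrix _ _ F) *ᵥ u) ((glOfEquiv h : Matrix _ _ F) *ᵥ v) = _
    rw [glOfEquiv_mulVec, glOfEquiv_mulVec]
    have h1 := Q_add Q hpol (h u) (h v)
    have h2 := Q_add Q hpol u v
    rw [← map_add, hQ, hQ, hQ] at h1
    linear_combination h2 - h1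
  · rw [glOfEquiv_mulVec, hay']

/-- given a non-zero singular vector, each non-zero vector is non-orthogonal to a singular vector. -/
theorem exists_singular_nonorth (w₀ : Fin m ⊕ Fin m → F) (hw₀ : w₀ ≠ 0) (hQw₀ : Q w₀ = 0)
    (x : Fin m ⊕ Fin m → F) (hx : x ≠ 0) :
    ∃ w, Q w = 0 ∧ sympForm m F x w ≠ 0 := by
  by_cases h0 : sympForm m F x w₀ = 0
  · obtain ⟨z, hz1, hz2⟩ := exists_nonorth m x w₀ hx hw₀
    refine ⟨z + (-Q z / sympForm m F z w₀) • w₀, ?_, ?_⟩
    · rw [Q_add Q hpol, hsm, hQw₀, sympForm_smul_right]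
      field_simp
      ring
    · rw [sympForm_add_right, sympForm_smul_right, h0, mul_zero, add_zero]
      exact hz1
  · exact ⟨w₀, hQw₀, h0⟩

end

/-- For a finite field F of characteristic two and m ≥ 7, let Q be a non-degenerate quadratic form on F^(2m) whose polar form is the standard alternating form. Then the elements of Sp_2m(F) that are similarities of Q (they are exactly the isometries of Q) form a maximal subgroup of Sp_2m(F). -/
theorem result {F : Type*} [Field F] [Fintype F] (m : ℕ) (hm : 7 ≤ m) (heven : ¬ Odd (Fintype.card F)) (Q : (Fin m ⊕ Fin m → F) → F) (hQ : Cfsg.Geo.IsNondegenerateQuadraticForm Q) (hpol : ∀ u v, QuadraticMap.polar Q u v = Cfsg.sympForm m F u v) : Cfsg.Geo.IsMaximalIn (Cfsg.spGL m F) (Cfsg.Geo.quadSimilarityGroup Q ⊓ Cfsg.spGL m F) := by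
  have hsm := hQ.smul
  have hchar : ringChar F = 2 := by
    rw [FiniteField.even_card_iff_char_two]
    rcases Nat.even_or_odd (Fintype.card F) with h | h
    · exact Nat.even_iff.mp h
    · exact absurd h heven
  have : CharP F 2 := by
    rw [← hchar]; exact ringChar.charP F
  have hadd := Q_add Q hpol
  -- a singular vector
  obtain ⟨w₀, hw₀, hQw₀⟩ := Cfsg.Agent.S0762.result (Qf Q hsm hpol) (by
    rw [Module.finrank_fintype_fun_eq_card]; simp; omega)
  have hQw₀' : Q w₀ = 0 := hQw₀
  apply isMaximalIn_of _ _ inf_le_right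
  · refine ⟨tvGL m w₀ 1, tvGL_mem m _ _, ?_⟩
    intro hmem
    obtain ⟨c', hc'⟩ := (Subgroup.mem_inf.mp hmem).1
    obtain ⟨y, hy⟩ := exists_sympForm_eq_one m w₀ hw₀
    have hy' : sympForm m F y w₀ = -1 := by rw [sympForm_swap, hy]
    have h1 := hc' (y + (Q y) • w₀)
    rw [Q_tv Q hsm hpol, hQw₀'] at h1
    have h2 : Q (y + (Q y) • w₀) = 0 := by
      rw [hadd, hsm, hQw₀', sympForm_smul_right, hy']; ring
    rw [h2, sympForm_add_left, sympForm_smul_left, sympForm_self, hy'] at h1
    norm_num at h1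
  · intro M hPM hMK ⟨h, hhM, hhP⟩
    have hhS : h ∈ spGL m F := hMK hhM
    apply eq_spGL_of_tvSet
    -- `h` is not an isometry
    have hnot : ∃ x, Q ((h : Matrix (Fin m ⊕ Fin m) (Fin m ⊕ Fin m) F) *ᵥ x) ≠ Q x := by
      by_contra hcon
      push Not at hcon
      apply hhP
      exact Subgroup.mem_inf.mpr ⟨⟨1, fun v => by rw [hcon]; simp⟩, hhS⟩
    -- a singular vector with non-singular image
    have hex : ∃ w, Q w = 0 ∧ Q ((h : Matrix (Fin m ⊕ Fin m) (Fin m ⊕ Fin m) F) *ᵥ w) ≠ 0 := by
      by_contra hcon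
      push Not at hcon
      obtain ⟨x, hx⟩ := hnot
      apply hx
      by_cases hQx : Q x = 0
      · rw [hcon x hQx, hQx]
      · have hx0 : x ≠ 0 := by
          rintro rfl
          apply hQx
          have := hsm 0 0
          simpa using this
        obtain ⟨w, hw, hxw⟩ := exists_singular_nonorth Q hsm hpol w₀ hw₀ hQw₀' x hx0
        set e := Q x / sympForm m F x w with he
        have h1 : Q (x + (-e) • w) = 0 := by
          rw [hadd, hsm, hw, sympForm_smul_right, he]
          field_simp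
          ring
        have h2 : Q (e • w) = 0 := by rw [hsm, hw, mul_zero]
        have e1 : x = (x + (-e) • w) + e • w := by
          rw [neg_smul]; abel
        have h3 : Q ((h : Matrix (Fin m ⊕ Fin m) (Fin m ⊕ Fin m) F) *ᵥ x) =
            sympForm m F (x + (-e) • w) (e • w) := by
          conv_lhs => rw [e1]
          rw [Matrix.mulVec_add, hadd, hcon _ h1, hcon _ h2, (mem_spGL_iff m h).mp hhS]
          ring
        have h4 : Q x = sympForm m F (x + (-e) • w) (e • w) := by
          conv_lhs => rw [e1]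
          rw [hadd, h1, h2]; ring
        rw [h3, h4]
    obtain ⟨w, hw, hhw⟩ := hex
    have hw0 : w ≠ 0 := by
      rintro rfl
      apply hhw
      rw [Matrix.mulVec_zero]
      have := hsm 0 0
      simpa using this
    set hwv := (h : Matrix (Fin m ⊕ Fin m) (Fin m ⊕ Fin m) F) *ᵥ w with hhwv
    -- the reflection in `h w`
    have hr : tvGL m hwv (-(Q hwv)⁻¹) ∈ M := by
      apply hPM
      refine Subgroup.mem_inf.mpr ⟨⟨1, fun v => ?_⟩, tvGL_mem m _ _⟩
      rw [Q_tv Q hsm hpol]
      have : -(Q hwv)⁻¹ * Q hwv + 1 = 0 := by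
        field_simp
        ring
      rw [this]; simp
    have hr2 : tvGL m w (-(Q hwv)⁻¹) ∈ M := by
      have h1 := conj_tvGL m (Subgroup.inv_mem _ hhS) hwv (-(Q hwv)⁻¹)
      rw [hhwv, gl_inv_mulVec, inv_inv] at h1
      rw [← h1]
      exact M.mul_mem (M.mul_mem (M.inv_mem hhM) hr) hhM
    set c₀ := -(Q hwv)⁻¹ with hc₀
    have hc₀0 : c₀ ≠ 0 := by
      rw [hc₀]; exact neg_ne_zero.mpr (inv_ne_zero hhw)
    -- `w` is in the set
    have hwΩ : w ∈ tvSet m M := by
      intro c
      by_cases hc : c = 0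
      · subst hc
        have : tvGL m w (0 : F) = 1 := by
          apply gl_ext_mulVec
          intro x
          rw [tvGL_mulVec]; simp
        rw [this]; exact M.one_mem
      · obtain ⟨a, ha⟩ := FiniteField.isSquare_of_char_two hchar (c / c₀)
        have ha0 : a ≠ 0 := by
          rintro rfl
          apply hc
          have : c / c₀ = 0 := by rw [ha]; ring
          rcases div_eq_zero_iff.mp this with h | h
          · exact h
          · exact absurd h hc₀0
        obtain ⟨g, hg, hga⟩ := exists_isom Q hsm hpol w (a • w) hw0 (smul_ne_zero ha0 hw0)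
          (by rw [hsm, hw, mul_zero])
        have h1 := conj_tvGL m (Subgroup.mem_inf.mp hg).2 w c₀
        rw [hga, tvGL_smul] at h1
        have h2 : a ^ 2 * c₀ = c := by
          rw [pow_two, ← ha]; field_simp
        rw [h2] at h1
        rw [← h1]
        exact M.mul_mem (M.mul_mem (hPM hg) hr2) (M.inv_mem (hPM hg))
    -- all singular vectors
    have hsing : ∀ w', Q w' = 0 → w' ∈ tvSet m M := by
      intro w' hw'
      by_cases hw'0 : w' = 0
      · subst hw'0; exact tvSet_zero
      · obtain ⟨g, hg, hga⟩ := exists_isom Q hsm hpol w w' hw0 hw'0 (by rw [hw, hw'])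
        rw [← hga]
        exact tvSet_mulVec hwΩ (hPM hg) (Subgroup.mem_inf.mp hg).2
    intro v
    by_cases hQv : Q v = 0
    · exact hsing v hQv
    · have hv0 : v ≠ 0 := by
        rintro rfl
        apply hQv
        have := hsm 0 0
        simpa using this
      obtain ⟨w', hw', hvw'⟩ := exists_singular_nonorth Q hsm hpol w₀ hw₀ hQw₀' v hv0
      set e := Q v / sympForm m F v w' with he
      have h1 : Q (v + (-e) • w') = 0 := by
        rw [hadd, hsm, hw', sympForm_smul_right, he]
        field_simp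
        ring
      have h2 : Q (e • w') = 0 := by rw [hsm, hw', mul_zero]
      have e1 : v = (v + (-e) • w') + e • w' := by
        rw [neg_smul]; abel
      rw [e1]
      apply tvSet_add_of_ne (hsing _ h1) (hsing _ h2)
      rw [sympForm_add_left, sympForm_smul_left, sympForm_smul_right, sympForm_smul_right,
        sympForm_self, he]
      field_simp
      simpa using ⟨hQv, hvw'⟩

end Cfsg.Agent.S5652
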