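import Cfsg.Statements.S5653
import Cfsg.Agent.Lib.Helper6.USet

set_option autoImplicit false
open Cfsg

namespace Cfsg.Agent.S5653

open Cfsg.Agent.Lib.Helper6 Matrix

/-- Let F be the field with q² elements and n ≥ 13, and let SU_n(q) be the group of matrices of determinant one preserving the standard unitary form Σ u_i v_i^q on F^n (the intersection of the unitary group GU_n with the kernel of the determinant). The elements of SU_n(q) stabilising a non-zero subspace on which the form vanishes identically form a maximal subgroup of SU_n(q). -/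
theorem result {F : Type*} [Field F] [Fintype F] (n q : ℕ) (hF : Fintype.card F = q ^ 2) (hn : 13 ≤ n) (W : Submodule F (Fin n → F)) (hW0 : W ≠ ⊥) (hW : Cfsg.Geo.IsTotallySingularFor (Cfsg.hermForm n F q) W) : Cfsg.Geo.IsMaximalIn (Cfsg.GU n F q ⊓ Cfsg.Geo.specialLinear (Fin n) F) (Cfsg.Geo.subspaceStabilizer W ⊓ (Cfsg.GU n F q ⊓ Cfsg.Geo.specialLinear (Fin n) F)) := by
  have hf := herm_isUnitary hF n
  obtain ⟨σ, hσ⟩ : ∃ σ, σ = frobEquiv hF := ⟨_, rfl⟩
  obtain ⟨f, hfdef⟩ : ∃ f, f = hermForm n F q := ⟨_, rfl⟩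
  rw [← hσ, ← hfdef] at hf
  have hGU : GU n F q = uIso f := by rw [hfdef]; rfl
  rw [← hfdef] at hW
  have hn4 : 4 < Fintype.card (Fin n) := by rw [Fintype.card_fin]; omega
  obtain ⟨ζ, hζ0, hζ⟩ := uf_exists_skew hf
  obtain ⟨w₀, hw₀, hw₀0⟩ := (Submodule.ne_bot_iff _).mp hW0
  apply isMaximalIn_of _ _ inf_le_right
  · obtain ⟨v, hvv, hvw⟩ := uf_iso0 hf hn4 w₀ hw₀0
    refine ⟨glT v (ζ • uPhi f v) (uS_aux hf v hvv ζ), Subgroup.mem_inf.mpr ⟨?_, glT_mem_SL _ _ _⟩, ?_⟩
    · rw [hGU]
      exact fun x y => uS_isom hf v hvv ζ hζ x y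
    · intro hmem
      have h1 := (mem_subspaceStabilizer_iff W _).mp (Subgroup.mem_inf.mp hmem).1 w₀ hw₀
      rw [uS_mulVec hf v hvv] at h1
      have h2 : (ζ * f w₀ v) • v ∈ W := by
        have := W.sub_mem h1 hw₀
        simpa using this
      have hne : ζ * f w₀ v ≠ 0 := mul_ne_zero hζ0 (uf_ne_zero_symm hf hvw)
      have h3 := W.smul_mem (ζ * f w₀ v)⁻¹ h2
      rw [smul_smul, inv_mul_cancel₀ hne, one_smul] at h3
      exact hvw (hW v h3 w₀ hw₀)
  · intro M hPM hMK ⟨h, hhM, hhP⟩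
    have hhI : h ∈ uIso f := by
      rw [← hGU]; exact (Subgroup.mem_inf.mp (hMK hhM)).1
    have hfin : ∀ v : Fin n → F, f v v = 0 → v ∈ uSet σ f M := by
      have hPerp : ∀ u, f u u = 0 → (∀ w ∈ W, f u w = 0) → u ∈ uSet σ f M := by
        intro u huu huW
        apply uSet_of_mem hf huu
        intro c hc
        apply hPM
        refine Subgroup.mem_inf.mpr ⟨?_, Subgroup.mem_inf.mpr ⟨?_, glT_mem_SL _ _ _⟩⟩
        · rw [mem_subspaceStabilizer_iff]
          intro x hx
          rw [uS_mulVec hf u huu, uf_eq_zero_symm hf (huW x hx)]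
          simpa using hx
        · rw [hGU]
          exact fun x y => uS_isom hf u huu c hc x y
      have hTr : ∀ a ∈ W, ∀ u v, f u u = 0 → f v v = 0 → f u a = f v a → f u a ≠ 0 →
          u ∈ uSet σ f M → v ∈ uSet σ f M := by
        intro a ha u v huu hvv huv hne hu
        have haa : f a a = 0 := hW a ha a ha
        obtain ⟨z, μ, hz, hμ, e⟩ := uQ_trans hf a u v haa huu hvv huv hne
        rw [← e]
        apply uSet_mulVec hf hu _ (uQ_mem_uIso hf a z μ haa hz hμ)
        apply hPM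
        refine Subgroup.mem_inf.mpr ⟨?_, Subgroup.mem_inf.mpr ⟨?_, uQ_mem_SL hf _ _ _ _ _⟩⟩
        · rw [mem_subspaceStabilizer_iff]
          intro x hx
          rw [uQ_mulVec hf, hW x hx a ha, zero_smul, add_zero]
          exact W.sub_mem hx (W.smul_mem _ ha)
        · rw [hGU]
          exact uQ_mem_uIso hf a z μ haa hz hμ
      have hinvI : h⁻¹ ∈ uIso f := Subgroup.inv_mem _ hhI
      have hadj : ∀ x y, f (((h⁻¹ : Matrix.GeneralLinearGroup (Fin n) F) :
          Matrix (Fin n) (Fin n) F) *ᵥ x) y = f x ((h : Matrix (Fin n) (Fin n) F) *ᵥ y) := by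
        intro x y
        conv_rhs => rw [← gl_mulVec_inv h x]
        rw [(mem_uIso_iff h).mp hhI]
      have hTr' : ∀ a ∈ W, ∀ u v, f u u = 0 → f v v = 0 →
          f u ((h : Matrix (Fin n) (Fin n) F) *ᵥ a) = f v ((h : Matrix (Fin n) (Fin n) F) *ᵥ a) →
          f u ((h : Matrix (Fin n) (Fin n) F) *ᵥ a) ≠ 0 →
          u ∈ uSet σ f M → v ∈ uSet σ f M := by
        intro a ha u v huu hvv huv hne hu
        have h1 := hTr a ha _ _ (by rw [(mem_uIso_iff _).mp hinvI, huu])
          (by rw [(mem_uIso_iff _).mp hinvI, hvv]) (by rw [hadj, hadj, huv]) (by rw [hadj]; exact hne)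
          (uSet_mulVec hf hu (M.inv_mem hhM) hinvI)
        have h2 := uSet_mulVec hf h1 hhM hhI
        rwa [gl_mulVec_inv] at h2
      -- a vector of the set outside the perp of W
      have hex : ∃ y ∈ uSet σ f M, ∃ a ∈ W, f y a ≠ 0 := by
        have hns : ¬ ∀ x ∈ W, (h : Matrix (Fin n) (Fin n) F) *ᵥ x ∈ W := by
          intro hall
          exact hhP (Subgroup.mem_inf.mpr ⟨(mem_subspaceStabilizer_iff W h).mpr hall, hMK hhM⟩)
        push Not at hns
        obtain ⟨w₁, hw₁, hy₀W⟩ := hns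
        have hw₁X : w₁ ∈ uSet σ f M := hPerp w₁ (hW w₁ hw₁ w₁ hw₁) (fun w hw => hW w₁ hw₁ w hw)
        have hy₀X := uSet_mulVec hf hw₁X hhM hhI
        obtain ⟨y₀, hy₀⟩ : ∃ y₀, y₀ = (h : Matrix (Fin n) (Fin n) F) *ᵥ w₁ := ⟨_, rfl⟩
        rw [← hy₀] at hy₀X hy₀W
        by_cases hc : ∃ a ∈ W, f y₀ a ≠ 0
        · exact ⟨y₀, hy₀X, hc⟩
        · push Not at hc
          obtain ⟨z, hzW, hzy⟩ := uf_separate hf W y₀ hy₀W
          obtain ⟨l, hl⟩ := uf_isotropize hf z y₀ hy₀X.1 hzy
          have huX : z + l • y₀ ∈ uSet σ f M := hPerp _ hl (fun w hw => by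
            rw [hf.add_left, hf.smul_left, hzW w hw, hc w hw]; ring)
          have huy : f (z + l • y₀) y₀ = f z y₀ := by
            rw [hf.add_left, hf.smul_left, hy₀X.1]; ring
          have hy₀0 : y₀ ≠ 0 := by
            rintro rfl
            exact hy₀W W.zero_mem
          obtain ⟨v, hvv, hvy, hvw⟩ := uf_iso0₂ hf hn4 y₀ w₀ hy₀0 hw₀0
          refine ⟨v, ?_, w₀, hw₀, hvw⟩
          have hu' := uSet_smul hf huX (f v y₀ / f z y₀)
          apply hTr' w₁ hw₁ _ v hu'.1 hvv _ _ hu'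
          · rw [← hy₀, hf.smul_left, huy]
            field_simp
          · rw [← hy₀, hf.smul_left, huy]
            exact mul_ne_zero (div_ne_zero hvy hzy) hzy
      obtain ⟨y, hyX, a, ha, hya⟩ := hex
      have ha0 : a ≠ 0 := by
        rintro rfl
        exact hya (uf_zero_right hf _)
      have hXa : ∀ v, f v v = 0 → f v a ≠ 0 → v ∈ uSet σ f M := by
        intro v hvv hva
        have hy' := uSet_smul hf hyX (f v a / f y a)
        apply hTr a ha _ v hy'.1 hvv _ _ hy'
        · rw [hf.smul_left]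
          field_simp
        · rw [hf.smul_left]
          exact mul_ne_zero (div_ne_zero hva hya) hya
      intro v hvv
      by_cases hva : f v a = 0
      · by_cases hv0 : v = 0
        · rw [hv0]; exact uSet_zero hf
        obtain ⟨u₁, h11, h1a, h1v⟩ := uf_iso0₂ hf hn4 a v ha0 hv0
        have hu₁ := hXa u₁ h11 h1a
        have hvu : f v u₁ ≠ 0 := uf_ne_zero_symm hf h1v
        have hu₂ : v + (ζ * f v u₁) • u₁ ∈ uSet σ f M := by
          apply hXa
          · have := uS_isom hf u₁ h11 ζ hζ v v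
            rwa [uS_mulVec hf u₁ h11, hvv] at this
          · rw [hf.add_left, hf.smul_left, hva, zero_add]
            exact mul_ne_zero (mul_ne_zero hζ0 hvu) h1a
        have h3 := uSet_hyp hf hu₁ hu₂ (-ζ) (by rw [map_neg, hζ])
        rw [hf.add_left, hf.smul_left, h11, mul_zero, add_zero] at h3
        have e : v + (ζ * f v u₁) • u₁ + (-ζ * f v u₁) • u₁ = v := by module
        rwa [e] at h3
      · exact hXa v hvv hva
    subst hfdef hσ
    exact SU_le_of_uSet hF n (by omega) M hfin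

end Cfsg.Agent.S5653
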