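import Cfsg.Statements.S5656
import Cfsg.Agent.Lib.Helper6.USet

set_option autoImplicit false
open Cfsg

namespace Cfsg.Agent.S5656

open Cfsg.Agent.Lib.Helper6 Matrix

section aux

variable {F : Type*} [Field F] {ι : Type} [Fintype ι] [DecidableEq ι]
  {σ : F ≃+* F} {f : (ι → F) → (ι → F) → F}

/-- an orthonormal frame of a non-degenerate plane. -/
theorem frame (hf : Cfsg.Geo.IsUnitaryForm σ f) (h01 : ∀ a : F, σ a = a → a = 0 ∨ a = 1)
    (D : Submodule F (ι → F)) (hdim : Module.finrank F D = 2)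
    (hnd : Cfsg.Geo.IsNondegenerateOn f D) :
    ∃ x ∈ D, ∃ y ∈ D, f x x = 1 ∧ f y y = 1 ∧ f x y = 0 ∧ f y x = 0 ∧
      ∀ d ∈ D, ∃ α β : F, d = α • x + β • y := by
  have hne : ∃ d ∈ D, d ≠ 0 := by
    by_contra hcon
    push Not at hcon
    have : D = ⊥ := (Submodule.eq_bot_iff D).mpr hcon
    rw [this, finrank_bot] at hdim
    omega
  obtain ⟨d₀, hd₀, hd₀0⟩ := hne
  obtain ⟨x, hx, hxx⟩ : ∃ x ∈ D, f x x ≠ 0 := by
    by_contra hcon
    push Not at hcon
    obtain ⟨⟨z, hz, hzd⟩, -⟩ := hnd d₀ hd₀ hd₀0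
    exact hzd (uf_polarize hf D hcon z hz d₀ hd₀)
  have hxx1 : f x x = 1 := (h01 _ (uf_self_fixed hf x)).resolve_left hxx
  have hx0 : x ≠ 0 := by
    rintro rfl
    exact hxx (uf_zero_left hf _)
  obtain ⟨d, hd, hdx⟩ : ∃ d ∈ D, d ∉ Submodule.span F {x} := by
    by_contra hcon
    push Not at hcon
    have hle : D ≤ Submodule.span F {x} := hcon
    have := Submodule.finrank_mono hle
    rw [hdim, finrank_span_singleton hx0] at this
    omega
  obtain ⟨y, hy⟩ : ∃ y, y = d - f d x • x := ⟨_, rfl⟩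
  have hyD : y ∈ D := by rw [hy]; exact D.sub_mem hd (D.smul_mem _ hx)
  have hyx : f y x = 0 := by rw [hy, uf_sub_left hf, hf.smul_left, hxx1]; ring
  have hxy : f x y = 0 := uf_eq_zero_symm hf hyx
  have hy0 : y ≠ 0 := by
    intro h0
    apply hdx
    rw [Submodule.mem_span_singleton]
    exact ⟨f d x, by rw [hy] at h0; exact (sub_eq_zero.mp h0).symm⟩
  have hli : LinearIndependent F ![x, y] := by
    rw [LinearIndependent.pair_iff]
    intro s t hst
    have h1 := congrArg (fun z => f z x) hst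
    simp only [hf.add_left, hf.smul_left, hxx1, hyx, uf_zero_left hf] at h1
    have hs : s = 0 := by linear_combination h1
    rw [hs, zero_smul, zero_add] at hst
    exact ⟨hs, (smul_eq_zero.mp hst).resolve_right hy0⟩
  have hS : Submodule.span F (Set.range ![x, y]) ≤ D := by
    rw [Submodule.span_le]
    rintro _ ⟨i, rfl⟩
    fin_cases i
    · exact hx
    · exact hyD
  have heq := Submodule.eq_of_le_of_finrank_eq hS (by
    rw [finrank_span_eq_card hli, hdim]; simp)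
  have hspan : ∀ d ∈ D, ∃ α β : F, d = α • x + β • y := by
    intro d hd
    rw [← heq, Submodule.mem_span_range_iff_exists_fun] at hd
    obtain ⟨c, hc⟩ := hd
    exact ⟨c 0, c 1, by rw [← hc, Fin.sum_univ_two]; rfl⟩
  have hyy : f y y ≠ 0 := by
    intro h0
    obtain ⟨⟨z, hz, hzy⟩, -⟩ := hnd y hyD hy0
    obtain ⟨α, β, rfl⟩ := hspan z hz
    apply hzy
    rw [hf.add_left, hf.smul_left, hf.smul_left, hxy, h0]; ring
  exact ⟨x, hx, y, hyD, hxx1, (h01 _ (uf_self_fixed hf y)).resolve_left hyy, hxy, hyx, hspan⟩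

end aux

/-- Let F be the field with 4 elements (q = 2) and n ≥ 13. Let D be a decomposition of F^n into t pairwise orthogonal 2-dimensional subspaces, each non-degenerate for the standard unitary form Σ u_i v_i². Then the elements of SU_n(2) permuting the members of D form a subgroup that is not maximal: some subgroup lies strictly between it and SU_n(2). -/
theorem result {F : Type*} [Field F] [Fintype F] (n : ℕ) (hF : Fintype.card F = 4) (hn : 13 ≤ n) {t : ℕ} (D : Fin t → Submodule F (Fin n → F)) (hD : Cfsg.Geo.IsNondegenerateMDecomposition (Cfsg.hermForm n F 2) 2 D) : ∃ K : Subgroup (Matrix.GeneralLinearGroup (Fin n) F), Cfsg.Geo.decompositionStabilizer D ⊓ (Cfsg.GU n F 2 ⊓ Cfsg.Geo.specialLinear (Fin n) F) < K ∧ K < (Cfsg.GU n F 2 ⊓ Cfsg.Geo.specialLinear (Fin n) F) := by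
  have hF' : Fintype.card F = 2 ^ 2 := by rw [hF]; norm_num
  have hf := herm_isUnitary hF' n
  obtain ⟨σ, hσ⟩ : ∃ σ, σ = frobEquiv hF' := ⟨_, rfl⟩
  obtain ⟨f, hfdef⟩ : ∃ f, f = hermForm n F 2 := ⟨_, rfl⟩
  rw [← hσ, ← hfdef] at hf
  have hGU : GU n F 2 = uIso f := by rw [hfdef]; rfl
  rw [← hfdef] at hD
  rw [hGU]
  have hσa : ∀ a : F, σ a = a ^ 2 := by
    intro a; rw [hσ]; rfl
  have hchar : ringChar F = 2 := by
    rw [FiniteField.even_card_iff_char_two, hF]
  have : CharP F 2 := by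
    rw [← hchar]; exact ringChar.charP F
  have h2 : (2 : F) = 0 := CharP.cast_eq_zero F 2
  have hadd : ∀ a : F, a + a = 0 := by
    intro a
    linear_combination a * h2
  have h01 : ∀ a : F, σ a = a → a = 0 ∨ a = 1 := by
    intro a ha
    rw [hσa] at ha
    have : a * (a - 1) = 0 := by linear_combination ha
    rcases mul_eq_zero.mp this with h | h
    · exact Or.inl h
    · exact Or.inr (by linear_combination h)
  have hcube : ∀ a : F, a ≠ 0 → a * σ a = 1 := by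
    intro a ha
    have := FiniteField.pow_card_sub_one_eq_one a ha
    rw [hF] at this
    rw [hσa]
    linear_combination this
  have hone : σ 1 = -1 := by
    rw [map_one]
    linear_combination hadd 1
  have ht := hD.decomp.two_le
  obtain ⟨i₁, hi₁⟩ : ∃ i₁ : Fin t, i₁ = ⟨0, by omega⟩ := ⟨_, rfl⟩
  obtain ⟨i₂, hi₂⟩ : ∃ i₂ : Fin t, i₂ = ⟨1, by omega⟩ := ⟨_, rfl⟩
  have hi12 : i₁ ≠ i₂ := by
    rw [hi₁, hi₂]
    intro h
    simpa using congrArg Fin.val h
  obtain ⟨x₁, hx₁, y₁, hy₁, hxx₁, hyy₁, hxy₁, hyx₁, hsp₁⟩ :=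
    frame hf h01 (D i₁) (hD.decomp.finrank_eq i₁) (hD.nondegenerate i₁)
  obtain ⟨x₂, hx₂, y₂, hy₂, hxx₂, hyy₂, hxy₂, hyx₂, hsp₂⟩ :=
    frame hf h01 (D i₂) (hD.decomp.finrank_eq i₂) (hD.nondegenerate i₂)
  have o12 := hD.orthogonal i₁ i₂ hi12
  have o21 := hD.orthogonal i₂ i₁ hi12.symm
  -- classification of the non-isotropic vectors of a plane
  have hclass : ∀ (x y : Fin n → F), f x x = 1 → f y y = 1 → f x y = 0 → f y x = 0 →
      ∀ α β : F, f (α • x + β • y) (α • x + β • y) ≠ 0 → (α ≠ 0 ∧ β = 0) ∨ (α = 0 ∧ β ≠ 0) := by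
    intro x y hxx hyy hxy hyx α β hne
    have e : f (α • x + β • y) (α • x + β • y) = α * σ α + β * σ β := by
      simp only [hf.add_left, uf_add_right hf, hf.smul_left, uf_smul_right hf, hxx, hyy, hxy, hyx]
      ring
    rw [e] at hne
    by_cases hα : α = 0
    · by_cases hβ : β = 0
      · exfalso; apply hne; rw [hα, hβ]; simp
      · exact Or.inr ⟨hα, hβ⟩
    · by_cases hβ : β = 0
      · exact Or.inl ⟨hα, hβ⟩
      · exfalso; apply hne; rw [hcube α hα, hcube β hβ]; exact hadd 1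
  -- the set of non-isotropic vectors in the members
  obtain ⟨S, hS⟩ : ∃ S : Set (Fin n → F), S = {v | ∃ i, v ∈ D i ∧ f v v ≠ 0} := ⟨_, rfl⟩
  let K : Subgroup (Matrix.GeneralLinearGroup (Fin n) F) :=
    { carrier := {g | g ∈ uIso f ⊓ Cfsg.Geo.specialLinear (Fin n) F ∧
        ∀ v, v ∈ S ↔ (g : Matrix (Fin n) (Fin n) F) *ᵥ v ∈ S}
      mul_mem' := by
        rintro a b ⟨ha, ha'⟩ ⟨hb, hb'⟩
        refine ⟨Subgroup.mul_mem _ ha hb, fun v => ?_⟩
        rw [Units.val_mul, ← Matrix.mulVec_mulVec, ← ha', ← hb']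
      one_mem' := ⟨Subgroup.one_mem _, fun v => by simp⟩
      inv_mem' := by
        rintro a ⟨ha, ha'⟩
        refine ⟨Subgroup.inv_mem _ ha, fun v => ?_⟩
        rw [ha' (((a⁻¹ : Matrix.GeneralLinearGroup (Fin n) F) :
          Matrix (Fin n) (Fin n) F) *ᵥ v), gl_mulVec_inv] }
  have hKmem : ∀ g, g ∈ K ↔ (g ∈ uIso f ⊓ Cfsg.Geo.specialLinear (Fin n) F ∧
        ∀ v, v ∈ S ↔ (g : Matrix (Fin n) (Fin n) F) *ᵥ v ∈ S) := fun g => Iff.rfl
  -- the transvections
  have tvmem : ∀ (w : Fin n → F) (hw : f w w = 0),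
      glT w ((1 : F) • uPhi f w) (uS_aux hf w hw 1) ∈
        uIso f ⊓ Cfsg.Geo.specialLinear (Fin n) F := by
    intro w hw
    exact Subgroup.mem_inf.mpr ⟨fun x y => uS_isom hf w hw 1 hone x y, glT_mem_SL _ _ _⟩
  have hw : f (x₁ + x₂) (x₁ + x₂) = 0 := by
    simp only [hf.add_left, uf_add_right hf, hxx₁, hxx₂, o12 x₁ hx₁ x₂ hx₂, o21 x₂ hx₂ x₁ hx₁]
    linear_combination hadd 1
  have hw' : f (x₁ + y₁ + x₂ + y₂) (x₁ + y₁ + x₂ + y₂) = 0 := by
    simp only [hf.add_left, uf_add_right hf, hxx₁, hxx₂, hyy₁, hyy₂, hxy₁, hyx₁, hxy₂, hyx₂,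
      o12 x₁ hx₁ x₂ hx₂, o21 x₂ hx₂ x₁ hx₁, o12 x₁ hx₁ y₂ hy₂, o21 y₂ hy₂ x₁ hx₁,
      o12 y₁ hy₁ x₂ hx₂, o21 x₂ hx₂ y₁ hy₁, o12 y₁ hy₁ y₂ hy₂, o21 y₂ hy₂ y₁ hy₁]
    linear_combination 2 * hadd 1
  have himg1 : ∀ α β : F, (α • x₁ + β • y₁) +
      (f (α • x₁ + β • y₁) x₁ + f (α • x₁ + β • y₁) x₂) • (x₁ + x₂) = α • x₂ + β • y₁ := by
    intro α β
    have s1 : f (α • x₁ + β • y₁) x₁ = α := by
      rw [hf.add_left, hf.smul_left, hf.smul_left, hxx₁, hyx₁]; ring
    have s2 : f (α • x₁ + β • y₁) x₂ = 0 := by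
      rw [hf.add_left, hf.smul_left, hf.smul_left, o12 x₁ hx₁ x₂ hx₂, o12 y₁ hy₁ x₂ hx₂]; ring
    rw [s1, s2]
    have : α • x₁ + β • y₁ + (α + 0) • (x₁ + x₂) = (α + α) • x₁ + (α • x₂ + β • y₁) := by module
    rw [this, hadd, zero_smul, zero_add]
  have himg2 : ∀ α β : F, (α • x₂ + β • y₂) +
      (f (α • x₂ + β • y₂) x₁ + f (α • x₂ + β • y₂) x₂) • (x₁ + x₂) = α • x₁ + β • y₂ := by
    intro α β
    have s1 : f (α • x₂ + β • y₂) x₂ = α := by
      rw [hf.add_left, hf.smul_left, hf.smul_left, hxx₂, hyx₂]; ring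
    have s2 : f (α • x₂ + β • y₂) x₁ = 0 := by
      rw [hf.add_left, hf.smul_left, hf.smul_left, o21 x₂ hx₂ x₁ hx₁, o21 y₂ hy₂ x₁ hx₁]; ring
    rw [s1, s2]
    have : α • x₂ + β • y₂ + (0 + α) • (x₁ + x₂) = (α + α) • x₂ + (α • x₁ + β • y₂) := by module
    rw [this, hadd, zero_smul, zero_add]
  refine ⟨K, ?_, ?_⟩
  · -- P < K
    refine lt_of_le_of_ne ?_ ?_
    · rintro g hg
      obtain ⟨⟨τ, hτ⟩, hgSU⟩ := Subgroup.mem_inf.mp hg
      have hiso := (mem_uIso_iff g).mp (Subgroup.mem_inf.mp hgSU).1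
      refine (hKmem g).mpr ⟨hgSU, fun v => ?_⟩
      rw [hS]
      constructor
      · rintro ⟨i, hvi, hvv⟩
        refine ⟨τ i, ?_, by rw [hiso]; exact hvv⟩
        rw [← hτ i]
        exact ⟨v, hvi, rfl⟩
      · rintro ⟨j, hvj, hvv⟩
        refine ⟨τ.symm j, ?_, by rw [hiso] at hvv; exact hvv⟩
        have h1 := hτ (τ.symm j)
        rw [Equiv.apply_symm_apply] at h1
        rw [← h1] at hvj
        obtain ⟨w, hwD, hwv⟩ := hvj
        have hwv' : (g : Matrix (Fin n) (Fin n) F) *ᵥ w = (g : Matrix (Fin n) (Fin n) F) *ᵥ v := hwv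
        have : w = v := by
          have := congrArg (fun z => ((g⁻¹ : Matrix.GeneralLinearGroup (Fin n) F) :
            Matrix (Fin n) (Fin n) F) *ᵥ z) hwv'
          simpa only [gl_inv_mulVec] using this
        rw [← this]; exact hwD
    · intro heq
      have hg0 : glT (x₁ + x₂) ((1 : F) • uPhi f (x₁ + x₂)) (uS_aux hf _ hw 1) ∈ K := by
        have hfwd : ∀ v, v ∈ S → (glT (x₁ + x₂) ((1 : F) • uPhi f (x₁ + x₂))
            (uS_aux hf _ hw 1) : Matrix (Fin n) (Fin n) F) *ᵥ v ∈ S := by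
          intro v hv
          rw [hS] at hv ⊢
          obtain ⟨j, hvj, hvv⟩ := hv
          rw [uS_mulVec hf _ hw, one_mul, uf_add_right hf]
          by_cases hj1 : j = i₁
          · subst hj1
            obtain ⟨α, β, rfl⟩ := hsp₁ v hvj
            rw [himg1]
            rcases hclass x₁ y₁ hxx₁ hyy₁ hxy₁ hyx₁ α β hvv with ⟨hα, rfl⟩ | ⟨rfl, hβ⟩
            · rw [zero_smul, add_zero]
              exact ⟨i₂, (D i₂).smul_mem _ hx₂, by
                rw [hf.smul_left, uf_smul_right hf, hxx₂, mul_one, hcube α hα]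
                exact one_ne_zero⟩
            · rw [zero_smul, zero_add]
              exact ⟨j, (D j).smul_mem _ hy₁, by
                rw [hf.smul_left, uf_smul_right hf, hyy₁, mul_one, hcube β hβ]
                exact one_ne_zero⟩
          · by_cases hj2 : j = i₂
            · subst hj2
              obtain ⟨α, β, rfl⟩ := hsp₂ v hvj
              rw [himg2]
              rcases hclass x₂ y₂ hxx₂ hyy₂ hxy₂ hyx₂ α β hvv with ⟨hα, rfl⟩ | ⟨rfl, hβ⟩
              · rw [zero_smul, add_zero]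
                exact ⟨i₁, (D i₁).smul_mem _ hx₁, by
                  rw [hf.smul_left, uf_smul_right hf, hxx₁, mul_one, hcube α hα]
                  exact one_ne_zero⟩
              · rw [zero_smul, zero_add]
                exact ⟨j, (D j).smul_mem _ hy₂, by
                  rw [hf.smul_left, uf_smul_right hf, hyy₂, mul_one, hcube β hβ]
                  exact one_ne_zero⟩
            · rw [hD.orthogonal j i₁ hj1 v hvj x₁ hx₁, hD.orthogonal j i₂ hj2 v hvj x₂ hx₂,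
                add_zero, zero_smul, add_zero]
              exact ⟨j, hvj, hvv⟩
        refine (hKmem _).mpr ⟨tvmem _ hw, fun v => ⟨hfwd v, fun hv => ?_⟩⟩
        have h1 := hfwd _ hv
        have h2 : (glT (x₁ + x₂) ((1 : F) • uPhi f (x₁ + x₂))
            (uS_aux hf _ hw 1) : Matrix (Fin n) (Fin n) F) *ᵥ ((glT (x₁ + x₂)
            ((1 : F) • uPhi f (x₁ + x₂)) (uS_aux hf _ hw 1) :
            Matrix (Fin n) (Fin n) F) *ᵥ v) = v := by
          rw [uS_mulVec hf _ hw, uS_mulVec hf _ hw, hf.add_left, hf.smul_left, hw]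
          have : v + (1 * f v (x₁ + x₂)) • (x₁ + x₂) +
              (1 * (f v (x₁ + x₂) + 1 * f v (x₁ + x₂) * 0)) • (x₁ + x₂) =
              v + (f v (x₁ + x₂) + f v (x₁ + x₂)) • (x₁ + x₂) := by module
          rw [this, hadd, zero_smul, add_zero]
        rwa [h2] at h1
      rw [← heq] at hg0
      obtain ⟨⟨τ, hτ⟩, -⟩ := Subgroup.mem_inf.mp hg0
      have e1 : (glT (x₁ + x₂) ((1 : F) • uPhi f (x₁ + x₂))
            (uS_aux hf _ hw 1) : Matrix (Fin n) (Fin n) F) *ᵥ x₁ = x₂ := by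
        rw [uS_mulVec hf _ hw, uf_add_right hf, hxx₁, o12 x₁ hx₁ x₂ hx₂]
        have : x₁ + (1 * (1 + 0) : F) • (x₁ + x₂) = ((1 : F) + 1) • x₁ + x₂ := by module
        rw [this, hadd, zero_smul, zero_add]
      have e2 : (glT (x₁ + x₂) ((1 : F) • uPhi f (x₁ + x₂))
            (uS_aux hf _ hw 1) : Matrix (Fin n) (Fin n) F) *ᵥ y₁ = y₁ := by
        rw [uS_mulVec hf _ hw, uf_add_right hf, hyx₁, o12 y₁ hy₁ x₂ hx₂]
        simp
      have m1 : x₂ ∈ D (τ i₁) := by
        rw [← hτ i₁]; exact ⟨x₁, hx₁, e1⟩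
      have m2 : y₁ ∈ D (τ i₁) := by
        rw [← hτ i₁]; exact ⟨y₁, hy₁, e2⟩
      by_cases hc : τ i₁ = i₂
      · rw [hc] at m2
        have := o21 y₁ m2 y₁ hy₁
        rw [hyy₁] at this
        exact one_ne_zero this
      · have := hD.orthogonal (τ i₁) i₂ hc x₂ m1 x₂ hx₂
        rw [hxx₂] at this
        exact one_ne_zero this
  · -- K < SU
    refine lt_of_le_of_ne (fun g hg => ((hKmem g).mp hg).1) ?_
    intro heq
    have hg1 := tvmem _ hw'
    rw [← heq] at hg1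
    have h1 := (((hKmem _).mp hg1).2 x₁).mp (by
      rw [hS]; exact ⟨i₁, hx₁, by rw [hxx₁]; exact one_ne_zero⟩)
    rw [uS_mulVec hf _ hw'] at h1
    simp only [uf_add_right hf, hxx₁, hxy₁, o12 x₁ hx₁ x₂ hx₂, o12 x₁ hx₁ y₂ hy₂] at h1
    have e : x₁ + (1 * (1 + 0 + 0 + 0) : F) • (x₁ + y₁ + x₂ + y₂) =
        ((1 : F) + 1) • x₁ + (y₁ + x₂ + y₂) := by module
    rw [e, hadd, zero_smul, zero_add, hS] at h1
    obtain ⟨j, hj, -⟩ := h1
    by_cases hj1 : j = i₁
    · rw [hj1] at hj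
      have := o12 _ hj x₂ hx₂
      simp only [hf.add_left, hxx₂, hyx₂, o12 y₁ hy₁ x₂ hx₂] at this
      exact one_ne_zero (α := F) (by linear_combination this)
    · have := hD.orthogonal j i₁ hj1 _ hj y₁ hy₁
      simp only [hf.add_left, hyy₁, o21 x₂ hx₂ y₁ hy₁, o21 y₂ hy₂ y₁ hy₁] at this
      exact one_ne_zero (α := F) (by linear_combination this)

end Cfsg.Agent.S5656
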