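import Cfsg.Statements.S5659
import Cfsg.Agent.Lib.Helper6.URat

set_option autoImplicit false
open Cfsg

namespace Cfsg.Agent.S5659

open Cfsg.Agent.Lib.Helper6 Matrix

section aux

variable {F : Type*} [Field F] {ι : Type} [Fintype ι] [DecidableEq ι]
  {σ : F ≃+* F} {f : (ι → F) → (ι → F) → F}

theorem uQ_congr (hf : Cfsg.Geo.IsUnitaryForm σ f) {a a' z z' : ι → F} (μ : F) (h1 : a = a')
    (h2 : z = z') (ha : f a a = 0) (hz : f z a = 0) (ha' : f a' a' = 0) (hz' : f z' a' = 0) :
    uQ hf a z μ ha hz = uQ hf a' z' μ ha' hz' := by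
  subst h1; subst h2; rfl

theorem glT_congr {a : ι → F} {φ φ' : ι → F} (h : φ = φ') (h1 : φ ⬝ᵥ a = 0) (h2 : φ' ⬝ᵥ a = 0) :
    glT a φ h1 = glT a φ' h2 := by
  subst h; rfl

end aux

set_option maxHeartbeats 1000000 in
theorem result {F : Type*} [Field F] [Fintype F] (n q : ℕ) (hF : Fintype.card F = q ^ 2) (hn : 13 ≤ n) (hodd : Odd q) (F₀ : Subfield F) (hcard : Fintype.card F = Nat.card F₀ ^ 2) (P : Matrix.GeneralLinearGroup (Fin n) F) (hP : Cfsg.Geo.IsFormRationalStructure (Cfsg.hermForm n F q) F₀ 1 P) : Cfsg.Geo.IsMaximalIn (Cfsg.GU n F q ⊓ Cfsg.Geo.specialLinear (Fin n) F) (Cfsg.Geo.subfieldSubgroup F₀ P ⊓ (Cfsg.GU n F q ⊓ Cfsg.Geo.specialLinear (Fin n) F)) := by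
  have hf := herm_isUnitary hF n
  have hfix₀ : ∀ a : F, a ∈ F₀ ↔ frobEquiv hF a = a := fun a => mem_subfield_iff_frob hF F₀ hcard a
  have h2 : (2 : F) ≠ 0 := by
    intro h
    have h1 : ringChar F = 2 := CharP.ringChar_of_prime_eq_zero Nat.prime_two (by exact_mod_cast h)
    have h3 := FiniteField.even_card_of_char_two h1
    rw [hF] at h3
    have h4 : Odd (q ^ 2) := hodd.pow
    rcases h4 with ⟨r, hr⟩
    omega
  obtain ⟨σ, hσ⟩ : ∃ σ, σ = frobEquiv hF := ⟨_, rfl⟩
  obtain ⟨f, hfdef⟩ : ∃ f, f = hermForm n F q := ⟨_, rfl⟩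
  rw [← hσ, ← hfdef] at hf
  have hfix : ∀ a : F, a ∈ F₀ ↔ σ a = a := by rw [hσ]; exact hfix₀
  have hGU : GU n F q = uIso f := by rw [hfdef]; rfl
  rw [← hfdef] at hP
  have hcn : Fintype.card (Fin n) = n := Fintype.card_fin n
  have hinv := hf.involutive
  have hRat₀ : ∀ v, Rat F₀ P v ↔ sJ σ P v = v := by
    intro v
    rw [sJ_eq_iff]
    exact forall_congr' (fun i => hfix _)
  have hsym₀ : ∀ u v, sJ σ P u = u → sJ σ P v = v → σ (f u v) = f u v := by
    intro u v hu hv
    have hu' := (hRat₀ u).mpr hu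
    have hv' := (hRat₀ v).mpr hv
    have h1 := (hfix _).mp (hP _ _ hu' hv')
    rw [gl_mulVec_inv, gl_mulVec_inv, one_mul] at h1
    exact h1
  obtain ⟨J, hJ⟩ : ∃ J, J = sJ σ P := ⟨_, rfl⟩
  have J_add : ∀ u v, J (u + v) = J u + J v := by rw [hJ]; exact sJ_add σ P
  have J_sub : ∀ u v, J (u - v) = J u - J v := by rw [hJ]; exact sJ_sub σ P
  have J_smul : ∀ (c : F) v, J (c • v) = σ c • J v := by rw [hJ]; exact sJ_smul σ P
  have J_zero : J 0 = 0 := by rw [hJ]; exact sJ_zero σ P
  have hRat : ∀ v, Rat F₀ P v ↔ J v = v := by rw [hJ]; exact hRat₀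
  have hsym : ∀ u v, J u = u → J v = v → σ (f u v) = f u v := by rw [hJ]; exact hsym₀
  have hcomm : ∀ u v, J u = u → J v = v → f v u = f u v := by
    intro u v hu hv
    rw [hf.herm v u, hsym u v hu hv]
  have ratNS : ∀ {k : ℕ} (_ : 2 * k < n) (x : Fin k → Fin n → F), (∀ i, J (x i) = x i) →
      ∃ c, J c = c ∧ f c c ≠ 0 ∧ ∀ i, f c (x i) = 0 := by
    intro k hk x hx
    rw [hJ] at hx ⊢
    exact rat_exists_ns hf F₀ P hfix hsym₀ h2 (by rw [hcn]; exact hk) x hx
  have ratVal : ∀ {k : ℕ} (_ : 2 * (k + 1) < n) (x : Fin k → Fin n → F), (∀ i, J (x i) = x i) →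
      ∀ t, σ t = t → ∃ c, J c = c ∧ f c c = t ∧ ∀ i, f c (x i) = 0 := by
    intro k hk x hx t ht
    rw [hJ] at hx ⊢
    exact rat_exists_value hf F₀ P hfix hsym₀ h2 (by rw [hcn]; exact hk) x hx t ht
  have ratTwo : ∀ {k : ℕ} (_ : 2 * (k + 3) < n) (x : Fin k → Fin n → F), (∀ i, J (x i) = x i) →
      ∀ b₁ b₂, J b₁ = b₁ → J b₂ = b₂ → b₁ ∉ Submodule.span F (Set.range x) →
      b₂ ∉ Submodule.span F (Set.range x) →
      ∃ c, J c = c ∧ f c c ≠ 0 ∧ (∀ i, f c (x i) = 0) ∧ f c b₁ ≠ 0 ∧ f c b₂ ≠ 0 := by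
    intro k hk x hx b₁ b₂ hb₁ hb₂ hn₁ hn₂
    rw [hJ] at hx hb₁ hb₂ ⊢
    exact rat_exists₂ hf F₀ P hfix hsym₀ h2 (by rw [hcn]; exact hk) x hx b₁ b₂ hb₁ hb₂ hn₁ hn₂
  have ratSep : ∀ {k : ℕ} (x : Fin k → Fin n → F), (∀ i, J (x i) = x i) →
      ∀ b, J b = b → b ∉ Submodule.span F (Set.range x) →
      ∃ c, J c = c ∧ (∀ i, f c (x i) = 0) ∧ f c b ≠ 0 := by
    intro k x hx b hb hn'
    rw [hJ] at hx hb ⊢
    exact rat_separate hf F₀ P hfix hsym₀ h2 x hx b hb hn'
  obtain ⟨ω, hω0, hωs⟩ := uf_exists_skew hf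
  have hω : σ ω ≠ ω := by
    rw [hωs]
    intro h
    have : (2 : F) * ω = 0 := by linear_combination -h
    exact (mul_ne_zero h2 hω0) this
  have hparts : ∀ x, ∃ a b, J a = a ∧ J b = b ∧ x = a + ω • b := by
    rw [hJ]; exact sJ_parts σ P hinv ω hω
  have hlin : ∀ p r : F, σ p = p → σ r = r → p + ω * r = 0 → p = 0 ∧ r = 0 := by
    intro p r hp hr h
    have h1 := congrArg σ h
    rw [map_add, map_mul, hp, hr, hωs, map_zero] at h1
    have h3 : (2 : F) * p = 0 := by linear_combination h + h1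
    have hp0 : p = 0 := (mul_eq_zero.mp h3).resolve_left h2
    refine ⟨hp0, ?_⟩
    rw [hp0, zero_add] at h
    exact (mul_eq_zero.mp h).resolve_left hω0
  -- singular rational vectors
  have Lsing : ∀ {k : ℕ} (_ : 2 * (k + 2) < n) (x : Fin k → Fin n → F), (∀ i, J (x i) = x i) →
      ∃ a e, J a = a ∧ J e = e ∧ f a a = 0 ∧ (∀ i, f a (x i) = 0) ∧ (∀ i, f e (x i) = 0) ∧
        f a e ≠ 0 := by
    intro k hk x hx
    obtain ⟨e₁, he₁, hne, hex⟩ := ratNS (k := k) (by omega) x hx
    obtain ⟨e₂, he₂, hq, hex₂⟩ := ratVal (k := k + 1) (by omega) (Fin.cons e₁ x) (by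
      intro i
      refine Fin.cases ?_ (fun j => ?_) i
      · simpa using he₁
      · simpa using hx j) (-f e₁ e₁) (by rw [map_neg, hsym e₁ e₁ he₁ he₁])
    have h21 : f e₂ e₁ = 0 := by simpa using hex₂ 0
    have h2x : ∀ i, f e₂ (x i) = 0 := fun i => by simpa using hex₂ i.succ
    have h12 : f e₁ e₂ = 0 := uf_eq_zero_symm hf h21
    refine ⟨e₁ + e₂, e₁, by rw [J_add, he₁, he₂], he₁, ?_, fun i => ?_, hex, ?_⟩
    · rw [hf.add_left, uf_add_right hf, uf_add_right hf, hq, h12, h21]; ring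
    · rw [hf.add_left, hex i, h2x i, add_zero]
    · rw [hf.add_left, h21, add_zero]; exact hne
  have hspan0 : ∀ b : Fin n → F, b ≠ 0 →
      b ∉ Submodule.span F (Set.range (Fin.elim0 : Fin 0 → Fin n → F)) := by
    intro b hb hmem
    rw [Set.range_eq_empty, Submodule.span_empty, Submodule.mem_bot] at hmem
    exact hb hmem
  have hspan1 : ∀ a b : Fin n → F, b ∉ Submodule.span F {a} →
      b ∉ Submodule.span F (Set.range ![a]) := by
    intro a b h
    simpa [Matrix.range_cons, Matrix.range_empty] using h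
  have hspan2 : ∀ a₁ a₂ b : Fin n → F, b ∉ Submodule.span F {a₁, a₂} →
      b ∉ Submodule.span F (Set.range ![a₁, a₂]) := by
    intro a₁ a₂ b h
    rw [Set.pair_comm] at h
    simpa [Matrix.range_cons, Matrix.range_empty] using h
  have LE1 : ∀ x' x'', J x' = x' → J x'' = x'' → x' ≠ 0 → x'' ≠ 0 →
      ∃ u, J u = u ∧ f u u = 0 ∧ f u x' ≠ 0 ∧ f u x'' ≠ 0 := by
    intro x' x'' hx' hx'' h0' h0''
    obtain ⟨y, hy, hyn, -, hy1, hy2⟩ := ratTwo (k := 0) (by omega) Fin.elim0 (fun i => i.elim0)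
      x' x'' hx' hx'' (hspan0 _ h0') (hspan0 _ h0'')
    obtain ⟨w, hw, hwq, hwx⟩ := ratVal (k := 3) (by omega) ![y, x', x''] (by
      intro i; fin_cases i
      · exact hy
      · exact hx'
      · exact hx'') (-f y y) (by rw [map_neg, hsym y y hy hy])
    have w0 : f w y = 0 := hwx 0
    have w1 : f w x' = 0 := hwx 1
    have w2 : f w x'' = 0 := hwx 2
    refine ⟨y + w, by rw [J_add, hy, hw], ?_, ?_, ?_⟩
    · rw [hf.add_left, uf_add_right hf, uf_add_right hf, hwq, w0, uf_eq_zero_symm hf w0]; ring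
    · rw [hf.add_left, w1, add_zero]; exact hy1
    · rw [hf.add_left, w2, add_zero]; exact hy2
  have LE2 : ∀ x' x'', J x' = x' → J x'' = x'' → x' ∉ Submodule.span F {x''} →
      ∃ u, J u = u ∧ f u u = 0 ∧ f u x'' = 0 ∧ f u x' ≠ 0 := by
    intro x' x'' hx' hx'' hnot
    obtain ⟨y, hy, hyn, hyx, hy1, -⟩ := ratTwo (k := 1) (by omega) ![x''] (by
      intro i; fin_cases i; exact hx'') x' x' hx' hx' (hspan1 _ _ hnot) (hspan1 _ _ hnot)
    obtain ⟨w, hw, hwq, hwx⟩ := ratVal (k := 3) (by omega) ![y, x', x''] (by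
      intro i; fin_cases i
      · exact hy
      · exact hx'
      · exact hx'') (-f y y) (by rw [map_neg, hsym y y hy hy])
    have w0 : f w y = 0 := hwx 0
    have w1 : f w x' = 0 := hwx 1
    have w2 : f w x'' = 0 := hwx 2
    have y0 : f y x'' = 0 := hyx 0
    refine ⟨y + w, by rw [J_add, hy, hw], ?_, ?_, ?_⟩
    · rw [hf.add_left, uf_add_right hf, uf_add_right hf, hwq, w0, uf_eq_zero_symm hf w0]; ring
    · rw [hf.add_left, w2, y0, add_zero]
    · rw [hf.add_left, w1, add_zero]; exact hy1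
  have hnorm : ∀ a b, J a = a → J b = b →
      f (a + ω • b) (a + ω • b) = f a a - ω ^ 2 * f b b := by
    intro a b ha hb
    rw [hf.add_left, uf_add_right hf, uf_add_right hf, hf.smul_left, hf.smul_left,
      uf_smul_right hf, uf_smul_right hf, hωs, hcomm a b ha hb]
    ring
  apply isMaximalIn_of _ _ inf_le_right
  · -- a transvection outside the subfield group
    obtain ⟨a, e, ha, he, haa, -, -, hae⟩ := Lsing (k := 0) (by omega) Fin.elim0 (fun i => i.elim0)
    have ha0 : a ≠ 0 := by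
      rintro rfl
      exact hae (uf_zero_left hf e)
    refine ⟨glT a (ω • uPhi f a) (uS_aux hf a haa ω),
      Subgroup.mem_inf.mpr ⟨?_, glT_mem_SL _ _ _⟩, fun hmem => ?_⟩
    · rw [hGU]
      exact fun x y => uS_isom hf a haa ω hωs x y
    obtain ⟨l, hl, hlR⟩ := exists_of_mem_subfieldSubgroup F₀ P _ (Subgroup.mem_inf.mp hmem).1
    have h1 := (hRat _).mp (hlR a ((hRat _).mpr ha))
    rw [uS_mulVec hf a haa, haa, mul_zero, zero_smul, add_zero, J_smul, ha, map_inv₀] at h1
    have hσl : σ l = l := by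
      have h3 : ((σ l)⁻¹ - l⁻¹) • a = 0 := by rw [sub_smul, h1, sub_self]
      have h4 := (smul_eq_zero.mp h3).resolve_right ha0
      have h5 : (σ l)⁻¹ = l⁻¹ := by linear_combination h4
      exact inv_injective h5
    have h5 := (hRat _).mp (hlR e ((hRat _).mpr he))
    rw [uS_mulVec hf a haa, J_smul, map_inv₀, hσl, J_add, he, J_smul, ha, map_mul, hωs,
      hsym e a he ha] at h5
    have h7 := congrArg (fun z => l • z) h5
    simp only [smul_smul, mul_inv_cancel₀ hl, one_smul] at h7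
    have h8 : ((2 : F) * (ω * f e a)) • a = 0 := by
      have h9 := add_left_cancel h7
      have : ((2 : F) * (ω * f e a)) • a = (ω * f e a) • a - (-ω * f e a) • a := by module
      rw [this, h9, sub_self]
    have h9 := (smul_eq_zero.mp h8).resolve_right ha0
    exact (mul_ne_zero h2 (mul_ne_zero hω0 (uf_ne_zero_symm hf hae))) h9
  · intro M hPM hMK ⟨h, hhM, hhP⟩
    have hhI : h ∈ uIso f := by
      rw [← hGU]; exact (Subgroup.mem_inf.mp (hMK hhM)).1
    have hhf : ∀ x y, f ((h : Matrix (Fin n) (Fin n) F) *ᵥ x) ((h : Matrix (Fin n) (Fin n) F) *ᵥ y) =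
        f x y := (mem_uIso_iff h).mp hhI
    have hσ2 : σ 2 = 2 := map_ofNat σ 2
    have hPQ : ∀ a z (ha : f a a = 0) (hz : f z a = 0), J a = a → J z = z →
        uQ hf a z (-(f z z) / 2) ha hz ∈ M ∧ uQ hf a z (-(f z z) / 2) ha hz ∈ uIso f := by
      intro a z ha hz hJa hJz
      have hiso : uQ hf a z (-(f z z) / 2) ha hz ∈ uIso f := by
        apply uQ_mem_uIso
        rw [map_div₀, map_neg, hsym z z hJz hJz, hσ2]
        field_simp
        ring
      refine ⟨?_, hiso⟩
      apply hPM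
      refine Subgroup.mem_inf.mpr ⟨?_, Subgroup.mem_inf.mpr ⟨?_, uQ_mem_SL hf a z _ ha hz⟩⟩
      · apply mem_subfieldSubgroup_of F₀ P _ 1 one_ne_zero
        intro x hx
        rw [hRat] at hx ⊢
        rw [inv_one, one_smul, uQ_mulVec, J_add, J_sub, J_smul, J_smul, J_add, J_smul, hx, hJa,
          hJz, hsym x z hx hJz, hsym x a hx hJa, map_div₀, map_neg, hsym z z hJz hJz, hσ2]
      · rw [hGU]; exact hiso
    have hRcond : ∀ c, f c c ≠ 0 →
        (-2 / f c c) + σ (-2 / f c c) + (-2 / f c c) * σ (-2 / f c c) * f c c = 0 := by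
      intro c hc
      have : σ (-2 / f c c) = -2 / f c c := by
        rw [map_div₀, map_neg, hσ2, uf_self_fixed hf]
      rw [this]
      field_simp
      ring
    have hRrat : ∀ c (hc : f c c ≠ 0), J c = c → ∀ x, J x = x →
        J ((uR hf c _ (hRcond c hc) : Matrix (Fin n) (Fin n) F) *ᵥ x) =
          (uR hf c _ (hRcond c hc) : Matrix (Fin n) (Fin n) F) *ᵥ x := by
      intro c hc hJc x hx
      rw [uR_mulVec, J_add, J_smul, hx, hJc, map_mul, map_div₀, map_neg, hσ2, uf_self_fixed hf,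
        hsym x c hx hJc]
    have hPR : ∀ c c' (hc : f c c ≠ 0) (hc' : f c' c' ≠ 0), J c = c → J c' = c' →
        uR hf c _ (hRcond c hc) * uR hf c' _ (hRcond c' hc') ∈ M := by
      intro c c' hc hc' hJc hJc'
      apply hPM
      refine Subgroup.mem_inf.mpr ⟨?_, Subgroup.mem_inf.mpr ⟨?_, ?_⟩⟩
      · apply mem_subfieldSubgroup_of F₀ P _ 1 one_ne_zero
        intro x hx
        rw [hRat] at hx ⊢
        rw [inv_one, one_smul, Units.val_mul, ← Matrix.mulVec_mulVec]
        exact hRrat c hc hJc _ (hRrat c' hc' hJc' x hx)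
      · rw [hGU]
        exact Subgroup.mul_mem _ (uR_mem hf _ _ _) (uR_mem hf _ _ _)
      · rw [mem_specialLinear_iff, Units.val_mul, Matrix.det_mul, uR_det, uR_det]
        field_simp
        ring
    have hne0 : ∀ x, x ≠ 0 → (h : Matrix (Fin n) (Fin n) F) *ᵥ x ≠ 0 := by
      intro x hx h0
      apply hx
      have := gl_inv_mulVec h x
      rw [h0, Matrix.mulVec_zero] at this
      exact this.symm
    -- two rational vectors
    let i0 : Fin n := ⟨0, by omega⟩
    let i1 : Fin n := ⟨1, by omega⟩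
    have h01 : i0 ≠ i1 := by simp [i0, i1, Fin.ext_iff]
    have hsingle : ∀ j : Fin n, J ((P : Matrix (Fin n) (Fin n) F) *ᵥ Pi.single j 1) =
        (P : Matrix (Fin n) (Fin n) F) *ᵥ Pi.single j 1 := by
      intro j
      rw [← hRat]
      apply rat_mulVec
      intro k
      by_cases hk : k = j
      · subst hk; simp
      · simp [hk]
    obtain ⟨v₀, hv₀def⟩ : ∃ v₀, v₀ = (P : Matrix (Fin n) (Fin n) F) *ᵥ Pi.single i0 1 := ⟨_, rfl⟩
    obtain ⟨v₁, hv₁def⟩ : ∃ v₁, v₁ = (P : Matrix (Fin n) (Fin n) F) *ᵥ Pi.single i1 1 := ⟨_, rfl⟩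
    have hv₀ : J v₀ = v₀ := by rw [hv₀def]; exact hsingle i0
    have hv₁ : J v₁ = v₁ := by rw [hv₁def]; exact hsingle i1
    have hv₁₀ : v₁ ∉ Submodule.span F {v₀} := by
      intro hmem
      obtain ⟨μ, hμ⟩ := Submodule.mem_span_singleton.mp hmem
      have h1 := congrArg (fun z => (((P⁻¹ : Matrix.GeneralLinearGroup (Fin n) F) :
        Matrix (Fin n) (Fin n) F) *ᵥ z) i1) hμ
      simp only [hv₀def, hv₁def, Matrix.mulVec_smul, gl_inv_mulVec] at h1
      simp [Pi.single_apply, h01.symm] at h1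
    have hv₀0 : v₀ ≠ 0 := by
      intro h0
      have h1 := congrArg (fun z => (((P⁻¹ : Matrix.GeneralLinearGroup (Fin n) F) :
        Matrix (Fin n) (Fin n) F) *ᵥ z) i0) h0
      simp only [hv₀def, gl_inv_mulVec, Matrix.mulVec_zero] at h1
      simp at h1
    have hex : ∃ v, J v = v ∧ ¬ ∃ (l : F) (r : Fin n → F), J r = r ∧
        (h : Matrix (Fin n) (Fin n) F) *ᵥ v = l • r := by
      by_contra hcon
      push Not at hcon
      have heig : ∀ v, J v = v → ∃ ε : F, J ((h : Matrix (Fin n) (Fin n) F) *ᵥ v) =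
          ε • ((h : Matrix (Fin n) (Fin n) F) *ᵥ v) := by
        intro v hv
        obtain ⟨l, r, hr, e⟩ := hcon v hv
        by_cases hl : l = 0
        · refine ⟨0, ?_⟩
          rw [e, hl, zero_smul, J_zero, smul_zero]
        · refine ⟨σ l / l, ?_⟩
          rw [e, J_smul, hr, smul_smul, div_mul_cancel₀ _ hl]
      obtain ⟨ε₀, hε₀⟩ := heig v₀ hv₀
      have hhv₀ := hne0 v₀ hv₀0
      have hconst : ∀ v, J v = v → (h : Matrix (Fin n) (Fin n) F) *ᵥ v ∉
          Submodule.span F {(h : Matrix (Fin n) (Fin n) F) *ᵥ v₀} →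
          J ((h : Matrix (Fin n) (Fin n) F) *ᵥ v) = ε₀ • ((h : Matrix (Fin n) (Fin n) F) *ᵥ v) := by
        intro v hv hvn
        obtain ⟨ε, hε⟩ := heig v hv
        obtain ⟨ε', hε'⟩ := heig (v + v₀) (by rw [J_add, hv, hv₀])
        rw [Matrix.mulVec_add, J_add, hε, hε₀] at hε'
        have h3 : (ε - ε') • ((h : Matrix (Fin n) (Fin n) F) *ᵥ v) =
            (ε' - ε₀) • ((h : Matrix (Fin n) (Fin n) F) *ᵥ v₀) := by
          have : (ε - ε') • ((h : Matrix (Fin n) (Fin n) F) *ᵥ v) -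
              (ε' - ε₀) • ((h : Matrix (Fin n) (Fin n) F) *ᵥ v₀) =
              (ε • ((h : Matrix (Fin n) (Fin n) F) *ᵥ v) +
                ε₀ • ((h : Matrix (Fin n) (Fin n) F) *ᵥ v₀)) -
              ε' • ((h : Matrix (Fin n) (Fin n) F) *ᵥ v +
                (h : Matrix (Fin n) (Fin n) F) *ᵥ v₀) := by module
          rw [← sub_eq_zero, this, hε', sub_self]
        by_cases h4 : ε - ε' = 0
        · rw [h4, zero_smul] at h3
          have h5 := (smul_eq_zero.mp h3.symm).resolve_right hhv₀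
          have : ε = ε₀ := by linear_combination h4 + h5
          rw [hε, this]
        · exfalso
          apply hvn
          rw [Submodule.mem_span_singleton]
          refine ⟨(ε - ε')⁻¹ * (ε' - ε₀), ?_⟩
          rw [mul_smul, ← h3, smul_smul, inv_mul_cancel₀ h4, one_smul]
      have hhv₁ : (h : Matrix (Fin n) (Fin n) F) *ᵥ v₁ ∉
          Submodule.span F {(h : Matrix (Fin n) (Fin n) F) *ᵥ v₀} := by
        intro hmem
        obtain ⟨μ, hμ⟩ := Submodule.mem_span_singleton.mp hmem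
        apply hv₁₀
        rw [Submodule.mem_span_singleton]
        refine ⟨μ, ?_⟩
        have := congrArg (fun z => ((h⁻¹ : Matrix.GeneralLinearGroup (Fin n) F) :
          Matrix (Fin n) (Fin n) F) *ᵥ z) hμ
        simpa only [Matrix.mulVec_smul, gl_inv_mulVec] using this
      have hall : ∀ v, J v = v → J ((h : Matrix (Fin n) (Fin n) F) *ᵥ v) =
          ε₀ • ((h : Matrix (Fin n) (Fin n) F) *ᵥ v) := by
        intro v hv
        by_cases hvn : (h : Matrix (Fin n) (Fin n) F) *ᵥ v ∈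
            Submodule.span F {(h : Matrix (Fin n) (Fin n) F) *ᵥ v₀}
        · have h1 := hconst (v + v₁) (by rw [J_add, hv, hv₁]) (by
            rw [Matrix.mulVec_add]
            intro hmem
            apply hhv₁
            have := Submodule.sub_mem _ hmem hvn
            simpa using this)
          have h2 := hconst v₁ hv₁ hhv₁
          rw [Matrix.mulVec_add, J_add, h2, smul_add] at h1
          exact add_right_cancel h1
        · exact hconst v hv hvn
      obtain ⟨l₀, r₀, hr₀, e₀⟩ := hcon v₀ hv₀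
      have hl₀ : l₀ ≠ 0 := by
        rintro rfl
        rw [zero_smul] at e₀
        exact hhv₀ e₀
      have hr₀0 : r₀ ≠ 0 := by
        rintro rfl
        rw [smul_zero] at e₀
        exact hhv₀ e₀
      have hσl₀ : σ l₀ = ε₀ * l₀ := by
        rw [e₀, J_smul, hr₀, smul_smul] at hε₀
        have h2 : (σ l₀ - ε₀ * l₀) • r₀ = 0 := by rw [sub_smul, hε₀, sub_self]
        have h3 := (smul_eq_zero.mp h2).resolve_right hr₀0
        linear_combination h3
      have hσl₀0 : σ l₀ ≠ 0 := by simpa using hl₀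
      have hε₀0 : ε₀ ≠ 0 := by
        rintro rfl
        rw [zero_mul] at hσl₀
        exact hσl₀0 hσl₀
      apply hhP
      refine Subgroup.mem_inf.mpr ⟨?_, hMK hhM⟩
      apply mem_subfieldSubgroup_of F₀ P h l₀ hl₀
      intro v hv
      rw [hRat] at hv ⊢
      rw [J_smul, hall v hv, map_inv₀, hσl₀, smul_smul]
      congr 1
      field_simp
    -- a nonsingular rational vector with irrational image
    have hexNS : ∃ c, J c = c ∧ f c c ≠ 0 ∧ ¬ ∃ (l : F) (r : Fin n → F), J r = r ∧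
        (h : Matrix (Fin n) (Fin n) F) *ᵥ c = l • r := by
      by_contra hcon
      push Not at hcon
      obtain ⟨v, hv, hvNR⟩ := hex
      apply hvNR
      by_cases hvv : f v v = 0
      · have hv0 : v ≠ 0 := by
          rintro rfl
          apply hvNR
          exact ⟨0, 0, J_zero, by simp⟩
        obtain ⟨w, hw, hww, hwv⟩ := ratNS (k := 1) (by omega) ![v] (by
          intro i; fin_cases i; exact hv)
        have hwv' : f w v = 0 := hwv 0
        have hvw : f v w = 0 := uf_eq_zero_symm hf hwv'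
        have n1 : f (v + w) (v + w) ≠ 0 := by
          rw [hf.add_left, uf_add_right hf, uf_add_right hf, hvv, hvw, hwv']
          simpa using hww
        have n2 : f (v - w) (v - w) ≠ 0 := by
          rw [uf_sub_left hf, uf_sub_right hf, uf_sub_right hf, hvv, hvw, hwv']
          simpa using hww
        obtain ⟨l₀, r₀, hr₀, e₀⟩ := hcon w hw hww
        obtain ⟨l₁, r₁, hr₁, e₁⟩ := hcon (v + w) (by rw [J_add, hv, hw]) n1
        obtain ⟨l₂, r₂, hr₂, e₂⟩ := hcon (v - w) (by rw [J_sub, hv, hw]) n2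
        have hw0 : w ≠ 0 := by
          rintro rfl
          exact hww (uf_zero_left hf 0)
        have hl₀ : l₀ ≠ 0 := by
          rintro rfl
          rw [zero_smul] at e₀
          exact hne0 w hw0 e₀
        have hJl : ∀ (l : F) (r y : Fin n → F), J r = r → y = l • r → y ≠ 0 →
            J y = (σ l / l) • y := by
          intro l r y hr e hy
          have hl : l ≠ 0 := by
            rintro rfl
            rw [zero_smul] at e
            exact hy e
          rw [e, J_smul, hr, smul_smul, div_mul_cancel₀ _ hl]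
        have hvw0 : v + w ≠ 0 := by
          intro h0
          rw [h0, uf_zero_left hf] at n1
          exact n1 rfl
        have hvw0' : v - w ≠ 0 := by
          intro h0
          rw [h0, uf_zero_left hf] at n2
          exact n2 rfl
        have j0 := hJl l₀ r₀ _ hr₀ e₀ (hne0 w hw0)
        have j1 := hJl l₁ r₁ _ hr₁ e₁ (hne0 _ hvw0)
        have j2 := hJl l₂ r₂ _ hr₂ e₂ (hne0 _ hvw0')
        obtain ⟨ε₀, hε₀⟩ : ∃ ε₀, ε₀ = σ l₀ / l₀ := ⟨_, rfl⟩
        obtain ⟨ε₁, hε₁⟩ : ∃ ε₁, ε₁ = σ l₁ / l₁ := ⟨_, rfl⟩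
        obtain ⟨ε₂, hε₂⟩ : ∃ ε₂, ε₂ = σ l₂ / l₂ := ⟨_, rfl⟩
        rw [← hε₀] at j0
        rw [← hε₁] at j1
        rw [← hε₂] at j2
        obtain ⟨y₁, hy₁⟩ : ∃ y₁, y₁ = (h : Matrix (Fin n) (Fin n) F) *ᵥ (v + w) := ⟨_, rfl⟩
        obtain ⟨y₂, hy₂⟩ : ∃ y₂, y₂ = (h : Matrix (Fin n) (Fin n) F) *ᵥ (v - w) := ⟨_, rfl⟩
        rw [← hy₁] at j1
        rw [← hy₂] at j2
        have s1 : y₁ - y₂ = (2 : F) • ((h : Matrix (Fin n) (Fin n) F) *ᵥ w) := by
          rw [hy₁, hy₂, Matrix.mulVec_add, Matrix.mulVec_sub]; module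
        have s2 : y₁ + y₂ = (2 : F) • ((h : Matrix (Fin n) (Fin n) F) *ᵥ v) := by
          rw [hy₁, hy₂, Matrix.mulVec_add, Matrix.mulVec_sub]; module
        have j3 : J (y₁ - y₂) = ε₀ • (y₁ - y₂) := by
          rw [s1, J_smul, hσ2, j0, smul_comm]
        rw [J_sub, j1, j2] at j3
        have j4 : (ε₁ - ε₀) • y₁ = (ε₂ - ε₀) • y₂ := by
          have : (ε₁ - ε₀) • y₁ - (ε₂ - ε₀) • y₂ = (ε₁ • y₁ - ε₂ • y₂) - ε₀ • (y₁ - y₂) := by
            module
          rw [← sub_eq_zero, this, j3, sub_self]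
        have hy₂0 : y₂ ≠ 0 := by rw [hy₂]; exact hne0 _ hvw0'
        have k1 : ε₁ = ε₀ := by
          by_contra hne
          have hne' : ε₁ - ε₀ ≠ 0 := sub_ne_zero.mpr hne
          obtain ⟨κ, hκ⟩ : ∃ κ : F, y₁ = κ • y₂ :=
            ⟨(ε₁ - ε₀)⁻¹ * (ε₂ - ε₀), by rw [mul_smul, ← j4, smul_smul, inv_mul_cancel₀ hne',
              one_smul]⟩
          have h5 : v + w = κ • (v - w) := by
            have := congrArg (fun z => ((h⁻¹ : Matrix.GeneralLinearGroup (Fin n) F) :
              Matrix (Fin n) (Fin n) F) *ᵥ z) hκ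
            simpa only [hy₁, hy₂, Matrix.mulVec_smul, gl_inv_mulVec] using this
          have h6 := congrArg (fun z => f z w) h5
          simp only [hf.add_left, hf.smul_left, uf_sub_left hf, hvw] at h6
          have h7 : (1 + κ) * f w w = 0 := by linear_combination h6
          have h8 : 1 + κ = 0 := (mul_eq_zero.mp h7).resolve_right hww
          have h9 : κ = -1 := by linear_combination h8
          rw [h9] at h5
          have h10 : (2 : F) • v = 0 := by
            have : (2 : F) • v = (v + w) - (-1 : F) • (v - w) := by module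
            rw [this, h5, sub_self]
          exact hv0 ((smul_eq_zero.mp h10).resolve_left h2)
        have k2 : ε₂ = ε₀ := by
          rw [k1, sub_self, zero_smul] at j4
          have := (smul_eq_zero.mp j4.symm).resolve_right hy₂0
          linear_combination this
        have j5 : J ((h : Matrix (Fin n) (Fin n) F) *ᵥ v) =
            ε₀ • ((h : Matrix (Fin n) (Fin n) F) *ᵥ v) := by
          have h5 : J (y₁ + y₂) = ε₀ • (y₁ + y₂) := by
            rw [J_add, j1, j2, k1, k2, smul_add]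
          rw [s2, J_smul, hσ2, smul_comm ε₀ (2 : F)] at h5
          exact smul_right_injective _ h2 h5
        refine ⟨l₀, l₀⁻¹ • ((h : Matrix (Fin n) (Fin n) F) *ᵥ v), ?_, ?_⟩
        · rw [J_smul, j5, smul_smul, map_inv₀, hε₀]
          congr 1
          have hσl₀0 : σ l₀ ≠ 0 := by simpa using hl₀
          field_simp
        · rw [smul_smul, mul_inv_cancel₀ hl₀, one_smul]
      · exact hcon v hv hvv
    have hadj : ∀ x y, f (((h⁻¹ : Matrix.GeneralLinearGroup (Fin n) F) :
        Matrix (Fin n) (Fin n) F) *ᵥ x) y = f x ((h : Matrix (Fin n) (Fin n) F) *ᵥ y) := by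
      intro x y
      have := hhf (((h⁻¹ : Matrix.GeneralLinearGroup (Fin n) F) :
        Matrix (Fin n) (Fin n) F) *ᵥ x) y
      rw [gl_mulVec_inv] at this
      exact this.symm
    -- Stage 1: one rational singular vector all of whose transvections lie in `M`
    have hstage1 : ∃ a, J a = a ∧ a ≠ 0 ∧ a ∈ uSet σ f M := by
      obtain ⟨c, hJc, hcc, hcNR⟩ := hexNS
      obtain ⟨d, hd⟩ : ∃ d, d = (h : Matrix (Fin n) (Fin n) F) *ᵥ c := ⟨_, rfl⟩
      rw [← hd] at hcNR
      obtain ⟨d₁, d₂, hd₁, hd₂, hdd⟩ := hparts d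
      have hd21 : d₂ ∉ Submodule.span F {d₁} := by
        intro hmem
        obtain ⟨μ, hμ⟩ := Submodule.mem_span_singleton.mp hmem
        apply hcNR
        refine ⟨1 + ω * μ, d₁, hd₁, ?_⟩
        rw [hdd, ← hμ]; module
      have hd12 : d₁ ∉ Submodule.span F {d₂} := by
        intro hmem
        obtain ⟨μ, hμ⟩ := Submodule.mem_span_singleton.mp hmem
        apply hcNR
        refine ⟨μ + ω, d₂, hd₂, ?_⟩
        rw [hdd, ← hμ]; module
      obtain ⟨a, e, ha, he, haa, hax, hex', hae⟩ := Lsing (k := 2) (by omega) ![d₁, d₂] (by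
        intro i; fin_cases i
        · exact hd₁
        · exact hd₂)
      have had₁ : f a d₁ = 0 := hax 0
      have had₂ : f a d₂ = 0 := hax 1
      have hed₁ : f e d₁ = 0 := hex' 0
      have hed₂ : f e d₂ = 0 := hex' 1
      have ha0 : a ≠ 0 := by
        rintro rfl
        exact hae (uf_zero_left hf e)
      have hsp1 : d₂ ∉ Submodule.span F {a, d₁} := by
        intro hmem
        obtain ⟨α, β, hαβ⟩ := Submodule.mem_span_pair.mp hmem
        have h1 := congrArg (fun y => f y e) hαβ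
        simp only [hf.add_left, hf.smul_left, uf_eq_zero_symm hf hed₁, uf_eq_zero_symm hf hed₂,
          mul_zero, add_zero] at h1
        have hα : α = 0 := (mul_eq_zero.mp h1).resolve_right hae
        apply hd21
        rw [Submodule.mem_span_singleton]
        exact ⟨β, by rw [← hαβ, hα]; simp⟩
      have hsp2 : d₁ ∉ Submodule.span F {a, d₂} := by
        intro hmem
        obtain ⟨α, β, hαβ⟩ := Submodule.mem_span_pair.mp hmem
        have h1 := congrArg (fun y => f y e) hαβ
        simp only [hf.add_left, hf.smul_left, uf_eq_zero_symm hf hed₁, uf_eq_zero_symm hf hed₂,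
          mul_zero, add_zero] at h1
        have hα : α = 0 := (mul_eq_zero.mp h1).resolve_right hae
        apply hd12
        rw [Submodule.mem_span_singleton]
        exact ⟨β, by rw [← hαβ, hα]; simp⟩
      obtain ⟨z, hz, hzx, hzd⟩ := ratSep ![a, d₁] (by
        intro i; fin_cases i
        · exact ha
        · exact hd₁) d₂ hd₂ (hspan2 _ _ _ hsp1)
      have hza : f z a = 0 := hzx 0
      have hzd₁ : f z d₁ = 0 := hzx 1
      obtain ⟨w₁, hw₁, hwx, hwd⟩ := ratSep ![a, d₂] (by
        intro i; fin_cases i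
        · exact ha
        · exact hd₂) d₁ hd₁ (hspan2 _ _ _ hsp2)
      have hwa : f w₁ a = 0 := hwx 0
      have hwd₂ : f w₁ d₂ = 0 := hwx 1
      obtain ⟨t, ht⟩ : ∃ t, t = f z d₂ := ⟨_, rfl⟩
      obtain ⟨t₁, ht₁⟩ : ∃ t₁, t₁ = f w₁ d₁ := ⟨_, rfl⟩
      rw [← ht] at hzd
      rw [← ht₁] at hwd
      have hσt : σ t = t := by rw [ht]; exact hsym z d₂ hz hd₂
      have hσt₁ : σ t₁ = t₁ := by rw [ht₁]; exact hsym w₁ d₁ hw₁ hd₁
      obtain ⟨p₁, p₂, hp₁, hp₂, hpp⟩ := hparts (((h⁻¹ : Matrix.GeneralLinearGroup (Fin n) F) :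
        Matrix (Fin n) (Fin n) F) *ᵥ a)
      obtain ⟨r₁, r₂, hr₁, hr₂, hrr⟩ := hparts (((h⁻¹ : Matrix.GeneralLinearGroup (Fin n) F) :
        Matrix (Fin n) (Fin n) F) *ᵥ z)
      obtain ⟨c', hJc', hcc', hc'x⟩ := ratNS (k := 4) (by omega) ![p₁, p₂, r₁, r₂] (by
        intro i; fin_cases i
        · exact hp₁
        · exact hp₂
        · exact hr₁
        · exact hr₂)
      have hc'p₁ : f c' p₁ = 0 := hc'x 0
      have hc'p₂ : f c' p₂ = 0 := hc'x 1
      have hc'r₁ : f c' r₁ = 0 := hc'x 2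
      have hc'r₂ : f c' r₂ = 0 := hc'x 3
      have hac' : f (((h⁻¹ : Matrix.GeneralLinearGroup (Fin n) F) :
        Matrix (Fin n) (Fin n) F) *ᵥ a) c' = 0 := by
        rw [hpp, hf.add_left, hf.smul_left, uf_eq_zero_symm hf hc'p₁, uf_eq_zero_symm hf hc'p₂]
        ring
      have hzc' : f (((h⁻¹ : Matrix.GeneralLinearGroup (Fin n) F) :
        Matrix (Fin n) (Fin n) F) *ᵥ z) c' = 0 := by
        rw [hrr, hf.add_left, hf.smul_left, uf_eq_zero_symm hf hc'r₁, uf_eq_zero_symm hf hc'r₂]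
        ring
      obtain ⟨g, hg⟩ : ∃ g, g = h * (uR hf c _ (hRcond c hcc) * uR hf c' _ (hRcond c' hcc')) * h⁻¹ :=
        ⟨_, rfl⟩
      have hgM : g ∈ M := by
        rw [hg]
        exact M.mul_mem (M.mul_mem hhM (hPR c c' hcc hcc' hJc hJc')) (M.inv_mem hhM)
      have hgI : g ∈ uIso f := by
        rw [hg]
        exact Subgroup.mul_mem _ (Subgroup.mul_mem _ hhI
          (Subgroup.mul_mem _ (uR_mem hf _ _ _) (uR_mem hf _ _ _))) (Subgroup.inv_mem _ hhI)
      have hgx : ∀ x, f (((h⁻¹ : Matrix.GeneralLinearGroup (Fin n) F) :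
          Matrix (Fin n) (Fin n) F) *ᵥ x) c' = 0 →
          (g : Matrix (Fin n) (Fin n) F) *ᵥ x = x + (-2 / f c c * f x d) • d := by
        intro x hx
        rw [hg, Units.val_mul, Units.val_mul, Units.val_mul, ← Matrix.mulVec_mulVec,
          ← Matrix.mulVec_mulVec, ← Matrix.mulVec_mulVec, uR_fix hf _ _ _ hx, uR_mulVec,
          Matrix.mulVec_add, Matrix.mulVec_smul, gl_mulVec_inv, hadj, ← hd]
      have had : f a d = 0 := by
        rw [hdd, uf_add_right hf, uf_smul_right hf, had₁, had₂]; ring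
      have hda : f d a = 0 := uf_eq_zero_symm hf had
      have hzd' : f z d = -ω * t := by
        rw [hdd, uf_add_right hf, uf_smul_right hf, hzd₁, ← ht, hωs]; ring
      obtain ⟨τ, hτ⟩ : ∃ τ, τ = 2 * ω * t / f c c := ⟨_, rfl⟩
      have hga : (g : Matrix (Fin n) (Fin n) F) *ᵥ a = a := by
        rw [hgx a hac', had]; simp
      have hgz : (g : Matrix (Fin n) (Fin n) F) *ᵥ z = z + τ • d := by
        rw [hgx z hzc', hzd', hτ]
        congr 2
        field_simp
      have hz'a : f (z + τ • d) a = 0 := by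
        rw [hf.add_left, hf.smul_left, hza, hda]; ring
      have hE : uQ hf a (z + τ • d) (-(f z z) / 2) haa hz'a ∈ M := by
        have h1 : g * uQ hf a z (-(f z z) / 2) haa hza * g⁻¹ ∈ M :=
          M.mul_mem (M.mul_mem hgM (hPQ a z haa hza ha hz).1) (M.inv_mem hgM)
        rw [uQ_conj hf g hgI a z _ haa hza (by rw [hga]; exact haa)
          (by rw [hga, hgz]; exact hz'a)] at h1
        rwa [uQ_congr hf _ hga hgz _ _ haa hz'a] at h1
      refine ⟨a, ha, ha0, ?_⟩
      apply uSet_of_mem hf haa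
      intro c₀ hc₀
      obtain ⟨s, hs⟩ : ∃ s, s = c₀ * f c c / (4 * ω * t * t₁) := ⟨_, rfl⟩
      have hσs : σ s = s := by
        rw [hs, map_div₀, map_mul, map_mul, map_mul, map_mul, hc₀, hωs, hσt, hσt₁,
          uf_self_fixed hf, map_ofNat σ 4]
        field_simp
      have hJv : J (s • w₁) = s • w₁ := by rw [J_smul, hσs, hw₁]
      have hva : f (s • w₁) a = 0 := by rw [hf.smul_left, hwa, mul_zero]
      have h1 := uQ_comm_tv hf M a (z + τ • d) (s • w₁) _ _ haa hz'a hva hE
        (hPQ a (s • w₁) haa hva ha hJv).1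
      have hστ : σ τ = -τ := by
        rw [hτ, map_div₀, map_mul, map_mul, hσ2, hωs, hσt, uf_self_fixed hf]
        ring
      have hwd' : f w₁ d = t₁ := by
        rw [hdd, uf_add_right hf, uf_smul_right hf, hwd₂, ← ht₁]; ring
      have hdw : f d w₁ = t₁ := by
        rw [hf.herm, hwd', hσt₁]
      have h4 : (4 : F) ≠ 0 := by
        have : (4 : F) = 2 * 2 := by norm_num
        rw [this]; exact mul_ne_zero h2 h2
      have hval : f (z + τ • d) (s • w₁) - f (s • w₁) (z + τ • d) = c₀ := by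
        rw [hf.add_left, hf.smul_left, uf_smul_right hf, uf_smul_right hf, hf.smul_left,
          uf_add_right hf, uf_smul_right hf, hσs, hστ, hwd', hdw, hcomm z w₁ hz hw₁, hs, hτ]
        field_simp
        ring
      rwa [glT_congr (by rw [hval]) _ (uS_aux hf a haa c₀)] at h1
    obtain ⟨a, ha, ha0, haX⟩ := hstage1
    have haa : f a a = 0 := haX.1
    -- Stage 1b: all rational singular vectors
    have hratX : ∀ v, J v = v → f v v = 0 → v ∈ uSet σ f M := by
      intro v hv hvv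
      by_cases hv0 : v = 0
      · rw [hv0]; exact uSet_zero hf
      obtain ⟨u, hu, huu, hua, huv⟩ := LE1 a v ha hv ha0 hv0
      have hau : f a u ≠ 0 := uf_ne_zero_symm hf hua
      have hvu : f v u ≠ 0 := uf_ne_zero_symm hf huv
      obtain ⟨δ, hδ⟩ : ∃ δ, δ = f a u := ⟨_, rfl⟩
      obtain ⟨κ, hκ⟩ : ∃ κ, κ = f v u := ⟨_, rfl⟩
      rw [← hδ] at hau
      rw [← hκ] at hvu
      have hσδ : σ δ = δ := by rw [hδ]; exact hsym a u ha hu
      have hσκ : σ κ = κ := by rw [hκ]; exact hsym v u hv hu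
      obtain ⟨z, hzdef⟩ : ∃ z, z = δ⁻¹ • ((δ / κ) • v - a) := ⟨_, rfl⟩
      have hJz : J z = z := by
        rw [hzdef, J_smul, J_sub, J_smul, hv, ha, map_inv₀, map_div₀, hσδ, hσκ]
      have hzu : f z u = 0 := by
        rw [hzdef, hf.smul_left, uf_sub_left hf, hf.smul_left, ← hκ, ← hδ]
        field_simp
        ring
      obtain ⟨hQM, hQI⟩ := hPQ u z huu hzu hu hJz
      have h1 := uSet_mulVec hf haX hQM hQI
      have h2' : (uQ hf u z (-(f z z) / 2) huu hzu : Matrix (Fin n) (Fin n) F) *ᵥ a =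
          (δ / κ) • v := by
        rw [uQ_mulVec, ← hδ]
        have e1 : f a z = δ⁻¹ * (δ / κ) * f a v := by
          rw [hzdef, uf_smul_right hf, uf_sub_right hf, uf_smul_right hf, haa, map_inv₀, map_div₀,
            hσδ, hσκ]
          ring
        have e2 : f z z = -2 * δ⁻¹ * δ⁻¹ * (δ / κ) * f a v := by
          rw [hzdef]
          simp only [hf.smul_left, uf_smul_right hf, uf_sub_left hf, uf_sub_right hf, haa, hvv,
            map_inv₀, map_div₀, hσδ, hσκ, hcomm a v ha hv]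
          ring
        rw [e1, e2, hzdef]
        match_scalars <;> field_simp <;> ring
      rw [h2'] at h1
      have h3 := uSet_smul hf h1 (κ / δ)
      rwa [smul_smul, (by field_simp : κ / δ * (δ / κ) = 1), one_smul] at h3
    have hmove : ∀ x u c, σ c = -c → u ∈ uSet σ f M → x + (c * f x u) • u ∈ uSet σ f M →
        x ∈ uSet σ f M := by
      intro x u c hc hu hy
      have h1 := uSet_hyp hf hu hy (-c) (by rw [map_neg, hc])
      have h3 : f (x + (c * f x u) • u) u = f x u := by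
        rw [hf.add_left, hf.smul_left, hu.1]; ring
      rw [h3] at h1
      have : x + (c * f x u) • u + (-c * f x u) • u = x := by module
      rwa [this] at h1
    have hsq : ∀ y u m, J y = y → J u = u → σ m = m → f u u = 0 →
        f (y + m • u) (y + m • u) = f y y + 2 * m * f y u := by
      intro y u m hy hu hm huu
      rw [hf.add_left, uf_add_right hf, uf_add_right hf, hf.smul_left, hf.smul_left,
        uf_smul_right hf, uf_smul_right hf, hm, huu, hcomm y u hy hu]
      ring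
    have hB1 : ∀ x' x'', J x' = x' → J x'' = x'' → f x' x' = 0 → f x'' x'' = 0 → f x' x'' ≠ 0 →
        x' + ω • x'' ∈ uSet σ f M := by
      intro x' x'' hx' hx'' h1 h2' hg
      have h3 := uSet_hyp hf (hratX x'' hx'' h2') (hratX x' hx' h1) (ω / f x' x'')
        (by rw [map_div₀, hωs, hsym x' x'' hx' hx'']; ring)
      rwa [div_mul_cancel₀ _ hg] at h3
    have hB : ∀ x' x'', J x' = x' → J x'' = x'' → f x' x' = 0 → f x'' x'' = 0 →
        x' + ω • x'' ∈ uSet σ f M := by
      intro x' x'' hx' hx'' h1 h2'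
      by_cases hg : f x' x'' = 0
      · by_cases hsp : x' ∈ Submodule.span F {x''}
        · obtain ⟨μ, hμ⟩ := Submodule.mem_span_singleton.mp hsp
          have := uSet_smul hf (hratX x'' hx'' h2') (μ + ω)
          rwa [add_smul, hμ] at this
        · obtain ⟨u, hu, huu, hux'', hux'⟩ := LE2 x' x'' hx' hx'' hsp
          have hx'u : f x' u ≠ 0 := uf_ne_zero_symm hf hux'
          have hx''u : f x'' u = 0 := uf_eq_zero_symm hf hux''
          apply hmove _ u ω hωs (hratX u hu huu)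
          have e : f (x' + ω • x'') u = f x' u := by
            rw [hf.add_left, hf.smul_left, hx''u]; ring
          rw [e]
          have e2 : x' + ω • x'' + (ω * f x' u) • u = x' + ω • (x'' + f x' u • u) := by module
          rw [e2]
          apply hB1 x' _ hx' (by rw [J_add, J_smul, hx'', hu, hsym x' u hx' hu]) h1
          · rw [hsq x'' u _ hx'' hu (hsym x' u hx' hu) huu, h2', hx''u]; ring
          · rw [uf_add_right hf, uf_smul_right hf, hg, hsym x' u hx' hu, zero_add]
            exact mul_ne_zero hx'u hx'u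
      · exact hB1 x' x'' hx' hx'' h1 h2' hg
    have hfin : ∀ x, f x x = 0 → x ∈ uSet σ f M := by
      intro x hxx
      obtain ⟨x', x'', hx', hx'', rfl⟩ := hparts x
      rw [hnorm x' x'' hx' hx''] at hxx
      by_cases hs : f x'' x'' = 0
      · apply hB x' x'' hx' hx'' _ hs
        rw [hs] at hxx
        linear_combination hxx
      · have hx'0 : x' ≠ 0 := by
          rintro rfl
          rw [uf_zero_left hf] at hxx
          have : ω ^ 2 * f x'' x'' = 0 := by linear_combination -hxx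
          exact (mul_ne_zero (pow_ne_zero 2 hω0) hs) this
        have hx''0 : x'' ≠ 0 := by
          rintro rfl
          exact hs (uf_zero_left hf _)
        obtain ⟨u, hu, huu, hux', hux''⟩ := LE1 x' x'' hx' hx'' hx'0 hx''0
        obtain ⟨p', hp'⟩ : ∃ p', p' = f x' u := ⟨_, rfl⟩
        obtain ⟨p'', hp''⟩ : ∃ p'', p'' = f x'' u := ⟨_, rfl⟩
        have hp'0 : p' ≠ 0 := by rw [hp']; exact uf_ne_zero_symm hf hux'
        have hp''0 : p'' ≠ 0 := by rw [hp'']; exact uf_ne_zero_symm hf hux''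
        have hσp' : σ p' = p' := by rw [hp']; exact hsym x' u hx' hu
        have hσp'' : σ p'' = p'' := by rw [hp'']; exact hsym x'' u hx'' hu
        obtain ⟨γ, hγ⟩ : ∃ γ, γ = -f x'' x'' / (2 * p' * p'') := ⟨_, rfl⟩
        have hσγ : σ γ = γ := by
          rw [hγ, map_div₀, map_neg, map_mul, map_mul, hσ2, hσp', hσp'', uf_self_fixed hf]
        apply hmove _ u (γ * ω) (by rw [map_mul, hσγ, hωs]; ring) (hratX u hu huu)
        have e : f (x' + ω • x'') u = p' + ω * p'' := by
          rw [hf.add_left, hf.smul_left, ← hp', ← hp'']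
        rw [e]
        have e2 : x' + ω • x'' + (γ * ω * (p' + ω * p'')) • u =
            (x' + (γ * ω ^ 2 * p'') • u) + ω • (x'' + (γ * p') • u) := by module
        rw [e2]
        have hσω2 : σ (ω ^ 2) = ω ^ 2 := by rw [map_pow, hωs]; ring
        have hm1 : σ (γ * ω ^ 2 * p'') = γ * ω ^ 2 * p'' := by
          rw [map_mul, map_mul, hσγ, hσω2, hσp'']
        have hm2 : σ (γ * p') = γ * p' := by rw [map_mul, hσγ, hσp']
        apply hB
        · rw [J_add, J_smul, hx', hu, hm1]
        · rw [J_add, J_smul, hx'', hu, hm2]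
        · rw [hsq x' u _ hx' hu hm1 huu, ← hp', hγ]
          field_simp
          linear_combination hxx
        · rw [hsq x'' u _ hx'' hu hm2 huu, ← hp'', hγ]
          field_simp
          ring
    subst hfdef hσ
    exact SU_le_of_uSet hF n (by omega) M hfin

end Cfsg.Agent.S5659
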