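import Cfsg.Statements.S5660
import Cfsg.Agent.Lib.Helper6.USet
import Cfsg.Agent.Lib.Helper6.SubfieldGL

set_option autoImplicit false
open Cfsg

namespace Cfsg.Agent.S5660

open Cfsg.Agent.Lib.Helper6 Matrix

set_option maxHeartbeats 1000000 in
/-- Let F be the field with q² elements, n ≥ 13 even, and F₀ the subfield with q elements. Let ζ be a non-zero element with ζ + ζ^q = 0 and P an invertible matrix such that ζ times the standard unitary form takes values in F₀ on the F₀-span of the columns of P and the form vanishes on every pair (u, u) of that span (so ζ times the form restricts to a non-degenerate alternating form there). Then the elements of SU_n(q) lying in the subfield group of P form a maximal subgroup of SU_n(q). -/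
theorem result {F : Type*} [Field F] [Fintype F] (n q : ℕ) (hF : Fintype.card F = q ^ 2) (hn : 13 ≤ n) (heven : Even n) (F₀ : Subfield F) (hcard : Fintype.card F = Nat.card F₀ ^ 2) (ζ : F) (hζ0 : ζ ≠ 0) (hζ : ζ + ζ ^ q = 0) (P : Matrix.GeneralLinearGroup (Fin n) F) (hP : Cfsg.Geo.IsFormRationalStructure (Cfsg.hermForm n F q) F₀ ζ P) (halt : ∀ u : Fin n → F, (∀ i, u i ∈ F₀) → Cfsg.hermForm n F q (Matrix.mulVec (P : Matrix (Fin n) (Fin n) F) u) (Matrix.mulVec (P : Matrix (Fin n) (Fin n) F) u) = 0) : Cfsg.Geo.IsMaximalIn (Cfsg.GU n F q ⊓ Cfsg.Geo.specialLinear (Fin n) F) (Cfsg.Geo.subfieldSubgroup F₀ P ⊓ (Cfsg.GU n F q ⊓ Cfsg.Geo.specialLinear (Fin n) F)) := by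
  have hf := herm_isUnitary hF n
  have hfix₀ : ∀ a : F, a ∈ F₀ ↔ frobEquiv hF a = a := fun a => mem_subfield_iff_frob hF F₀ hcard a
  have hζσ₀ : frobEquiv hF ζ = -ζ := by
    rw [frobEquiv_apply]; linear_combination hζ
  obtain ⟨σ, hσ⟩ : ∃ σ, σ = frobEquiv hF := ⟨_, rfl⟩
  obtain ⟨f, hfdef⟩ : ∃ f, f = hermForm n F q := ⟨_, rfl⟩
  rw [← hσ, ← hfdef] at hf
  rw [← hσ] at hζσ₀
  have hfix : ∀ a : F, a ∈ F₀ ↔ σ a = a := by rw [hσ]; exact hfix₀
  have hGU : GU n F q = uIso f := by rw [hfdef]; rfl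
  rw [← hfdef] at hP halt
  have hn4 : 4 < Fintype.card (Fin n) := by rw [Fintype.card_fin]; omega
  have hinv := hf.involutive
  obtain ⟨J, hJ⟩ : ∃ J, J = sJ σ P := ⟨_, rfl⟩
  have J_add : ∀ u v, J (u + v) = J u + J v := by rw [hJ]; exact sJ_add σ P
  have J_sub : ∀ u v, J (u - v) = J u - J v := by rw [hJ]; exact sJ_sub σ P
  have J_smul : ∀ (c : F) v, J (c • v) = σ c • J v := by rw [hJ]; exact sJ_smul σ P
  have J_zero : J 0 = 0 := by rw [hJ]; exact sJ_zero σ P
  have hRat : ∀ v, Rat F₀ P v ↔ J v = v := by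
    intro v
    rw [hJ, sJ_eq_iff]
    exact forall_congr' (fun i => hfix _)
  have hrep : ∀ v, J v = v → ∃ u : Fin n → F, (∀ i, u i ∈ F₀) ∧
      v = (P : Matrix (Fin n) (Fin n) F) *ᵥ u := by
    intro v hv
    exact ⟨_, (hRat v).mpr hv, (gl_mulVec_inv P v).symm⟩
  have halt' : ∀ u, J u = u → f u u = 0 := by
    intro u hu
    obtain ⟨u', hu', rfl⟩ := hrep u hu
    exact halt u' hu'
  have hskew : ∀ u v, J u = u → J v = v → σ (f u v) = - f u v := by
    intro u v hu hv
    obtain ⟨u', hu', rfl⟩ := hrep u hu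
    obtain ⟨v', hv', rfl⟩ := hrep v hv
    have h1 := (hfix _).mp (hP u' v' hu' hv')
    rw [map_mul, hζσ₀] at h1
    have : ζ * (σ (f ((P : Matrix (Fin n) (Fin n) F) *ᵥ u') ((P : Matrix (Fin n) (Fin n) F) *ᵥ v')) +
        f ((P : Matrix (Fin n) (Fin n) F) *ᵥ u') ((P : Matrix (Fin n) (Fin n) F) *ᵥ v')) = 0 := by
      linear_combination -h1
    rcases mul_eq_zero.mp this with h | h
    · exact absurd h hζ0
    · linear_combination h
  have hanti : ∀ u v, J u = u → J v = v → f v u = - f u v := by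
    intro u v hu hv
    rw [hf.herm v u, hskew u v hu hv]
  obtain ⟨ω, hω⟩ := uf_exists_not_fixed hf
  have hω' : σ (σ ω) ≠ σ ω := by rw [hinv]; exact hω.symm
  have hparts : ∀ x, ∃ a b, J a = a ∧ J b = b ∧ x = a + ω • b := by
    rw [hJ]; exact sJ_parts σ P hinv ω hω
  have hlin : ∀ p r w : F, σ p = -p → σ r = -r → σ w ≠ w → p + w * r = 0 → p = 0 ∧ r = 0 := by
    intro p r w hp hr hw h
    have h1 := congrArg σ h
    rw [map_add, map_mul, hp, hr, map_zero] at h1
    have h2 : (w - σ w) * r = 0 := by linear_combination h + h1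
    have hr0 : r = 0 := by
      rcases mul_eq_zero.mp h2 with h3 | h3
      · exact absurd (sub_eq_zero.mp h3).symm hw
      · exact h3
    refine ⟨?_, hr0⟩
    rw [hr0, mul_zero, add_zero] at h
    exact h
  -- rational separation
  have hRS : ∀ a b, J a = a → J b = b → b ∉ Submodule.span F {a} →
      ∃ m, J m = m ∧ f m a = 0 ∧ f m b ≠ 0 := by
    intro a b ha hb hba
    obtain ⟨x, hxa, hxb⟩ := uf_separate hf _ b hba
    have hxa' : f x a = 0 := hxa a (Submodule.mem_span_singleton_self a)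
    obtain ⟨x₁, x₂, h1, h2, rfl⟩ := hparts x
    rw [hf.add_left, hf.smul_left] at hxa' hxb
    obtain ⟨e1, e2⟩ := hlin _ _ ω (hskew x₁ a h1 ha) (hskew x₂ a h2 ha) hω hxa'
    by_cases h0 : f x₁ b = 0
    · refine ⟨x₂, h2, e2, ?_⟩
      intro h3
      apply hxb
      rw [h0, h3]; ring
    · exact ⟨x₁, h1, e1, h0⟩
  have hRE : ∀ a b₁ b₂, J a = a → J b₁ = b₁ → J b₂ = b₂ → b₁ ∉ Submodule.span F {a} →
      b₂ ∉ Submodule.span F {a} → ∃ m, J m = m ∧ f m a = 0 ∧ f m b₁ ≠ 0 ∧ f m b₂ ≠ 0 := by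
    intro a b₁ b₂ ha hb₁ hb₂ h1 h2
    obtain ⟨m₁, hm₁, e1, n1⟩ := hRS a b₁ ha hb₁ h1
    obtain ⟨m₂, hm₂, e2, n2⟩ := hRS a b₂ ha hb₂ h2
    by_cases c1 : f m₁ b₂ = 0
    · by_cases c2 : f m₂ b₁ = 0
      · refine ⟨m₁ + m₂, by rw [J_add, hm₁, hm₂], by rw [hf.add_left, e1, e2, add_zero], ?_, ?_⟩
        · rw [hf.add_left, c2, add_zero]; exact n1
        · rw [hf.add_left, c1, zero_add]; exact n2
      · exact ⟨m₂, hm₂, e2, c2, n2⟩
    · exact ⟨m₁, hm₁, e1, n1, c1⟩
  have hspan0 : ∀ x : Fin n → F, x ≠ 0 → x ∉ Submodule.span F {(0 : Fin n → F)} := by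
    intro x hx
    simpa using hx
  -- two rational vectors
  let i0 : Fin n := ⟨0, by omega⟩
  let i1 : Fin n := ⟨1, by omega⟩
  have h01 : i0 ≠ i1 := by simp [i0, i1, Fin.ext_iff]
  have hsingle : ∀ j : Fin n, J ((P : Matrix (Fin n) (Fin n) F) *ᵥ Pi.single j 1) =
      (P : Matrix (Fin n) (Fin n) F) *ᵥ Pi.single j 1 := by
    intro j
    rw [← hRat]
    apply rat_mulVec
    intro k
    by_cases hk : k = j
    · subst hk; simp
    · simp [hk]
  obtain ⟨v₀, hv₀def⟩ : ∃ v₀, v₀ = (P : Matrix (Fin n) (Fin n) F) *ᵥ Pi.single i0 1 := ⟨_, rfl⟩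
  obtain ⟨v₁, hv₁def⟩ : ∃ v₁, v₁ = (P : Matrix (Fin n) (Fin n) F) *ᵥ Pi.single i1 1 := ⟨_, rfl⟩
  have hv₀ : J v₀ = v₀ := by rw [hv₀def]; exact hsingle i0
  have hv₁ : J v₁ = v₁ := by rw [hv₁def]; exact hsingle i1
  have hv₁₀ : v₁ ∉ Submodule.span F {v₀} := by
    intro hmem
    obtain ⟨μ, hμ⟩ := Submodule.mem_span_singleton.mp hmem
    have h1 := congrArg (fun z => (((P⁻¹ : Matrix.GeneralLinearGroup (Fin n) F) :
      Matrix (Fin n) (Fin n) F) *ᵥ z) i1) hμ
    simp only [hv₀def, hv₁def, Matrix.mulVec_smul, gl_inv_mulVec] at h1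
    simp [Pi.single_apply, h01.symm] at h1
  have hv₀0 : v₀ ≠ 0 := by
    intro h0
    have h1 := congrArg (fun z => (((P⁻¹ : Matrix.GeneralLinearGroup (Fin n) F) :
      Matrix (Fin n) (Fin n) F) *ᵥ z) i0) h0
    simp only [hv₀def, gl_inv_mulVec, Matrix.mulVec_zero] at h1
    simp at h1
  have hnorm : ∀ a b, J a = a → J b = b →
      f (a + ω • b) (a + ω • b) = (σ ω - ω) * f a b := by
    intro a b ha hb
    rw [hf.add_left, uf_add_right hf, uf_add_right hf, hf.smul_left, hf.smul_left,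
      uf_smul_right hf, uf_smul_right hf, halt' a ha, halt' b hb, hanti a b ha hb]
    ring
  have hσω : σ ω - ω ≠ 0 := fun h => hω (sub_eq_zero.mp h)
  -- non-rational points
  have hNRab : ∀ a b, J a = a → J b = b → a ≠ 0 → b ∉ Submodule.span F {a} →
      ¬ ∃ (l : F) (r : Fin n → F), J r = r ∧ a + ω • b = l • r := by
    rintro a b ha hb ha0 hba ⟨l, r, hr, e⟩
    have hl : l ≠ 0 := by
      rintro rfl
      rw [zero_smul] at e
      rw [hJ] at ha hb
      exact ha0 (sJ_unique σ P ω hω ha hb e).1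
    have h1 := congrArg J e
    rw [J_add, J_smul, J_smul, ha, hb, hr] at h1
    have h2 : σ l • r = (σ l / l) • (a + ω • b) := by
      rw [e, smul_smul, div_mul_cancel₀ _ hl]
    rw [h2] at h1
    have h3 : (σ ω - σ l / l * ω) • b = (σ l / l - 1) • a := by
      have : (σ ω - σ l / l * ω) • b - (σ l / l - 1) • a =
          (a + σ ω • b) - (σ l / l) • (a + ω • b) := by module
      rw [← sub_eq_zero, this, h1, sub_self]
    by_cases h4 : σ ω - σ l / l * ω = 0
    · rw [h4, zero_smul] at h3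
      have h5 : σ l / l - 1 = 0 := (smul_eq_zero.mp h3.symm).resolve_right ha0
      have h6 : σ l / l = 1 := by linear_combination h5
      rw [h6, one_mul] at h4
      exact hσω h4
    · apply hba
      rw [Submodule.mem_span_singleton]
      refine ⟨(σ ω - σ l / l * ω)⁻¹ * (σ l / l - 1), ?_⟩
      rw [mul_smul, ← h3, smul_smul, inv_mul_cancel₀ h4, one_smul]
  apply isMaximalIn_of _ _ inf_le_right
  · -- a transvection outside the subfield group
    obtain ⟨b', hb'a, -, hb'n⟩ := uf_exists_perp_notin hf hn4 v₀ v₀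
    have hb'n' : b' ∉ Submodule.span F {v₀} := by simpa using hb'n
    obtain ⟨b₁, b₂, hb₁, hb₂, rfl⟩ := hparts b'
    rw [hf.add_left, hf.smul_left] at hb'a
    obtain ⟨e1, e2⟩ := hlin _ _ ω (hskew b₁ v₀ hb₁ hv₀) (hskew b₂ v₀ hb₂ hv₀) hω hb'a
    obtain ⟨b, hb, hba, hbn⟩ : ∃ b, J b = b ∧ f b v₀ = 0 ∧ b ∉ Submodule.span F {v₀} := by
      by_cases c1 : b₁ ∈ Submodule.span F {v₀}
      · refine ⟨b₂, hb₂, e2, fun c2 => ?_⟩
        exact hb'n' (Submodule.add_mem _ c1 (Submodule.smul_mem _ _ c2))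
      · exact ⟨b₁, hb₁, e1, c1⟩
    have hab : f v₀ b = 0 := uf_eq_zero_symm hf hba
    have hxx : f (v₀ + ω • b) (v₀ + ω • b) = 0 := by rw [hnorm v₀ b hv₀ hb, hab, mul_zero]
    have hNR := hNRab v₀ b hv₀ hb hv₀0 hbn
    refine ⟨glT _ (ζ • uPhi f (v₀ + ω • b)) (uS_aux hf _ hxx ζ),
      Subgroup.mem_inf.mpr ⟨?_, glT_mem_SL _ _ _⟩, fun hmem => ?_⟩
    · rw [hGU]
      exact fun x y => uS_isom hf _ hxx ζ hζσ₀ x y
    obtain ⟨l, hl, hlR⟩ := exists_of_mem_subfieldSubgroup F₀ P _ (Subgroup.mem_inf.mp hmem).1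
    have h1 := (hRat _).mp (hlR v₀ ((hRat _).mpr hv₀))
    rw [uS_mulVec hf _ hxx, uf_add_right hf, uf_smul_right hf, halt' v₀ hv₀, hab, mul_zero,
      add_zero, mul_zero, zero_smul, add_zero, J_smul, hv₀, map_inv₀] at h1
    have hσl : σ l = l := by
      have h2 : ((σ l)⁻¹ - l⁻¹) • v₀ = 0 := by rw [sub_smul, h1, sub_self]
      have h3 := (smul_eq_zero.mp h2).resolve_right hv₀0
      have h4 : (σ l)⁻¹ = l⁻¹ := by linear_combination h3
      exact inv_injective h4
    obtain ⟨v, hv, -, hva⟩ := hRS 0 v₀ J_zero hv₀ (hspan0 v₀ hv₀0)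
    have hvx : f v (v₀ + ω • b) ≠ 0 := by
      rw [uf_add_right hf, uf_smul_right hf]
      intro h0
      exact hva (hlin _ _ (σ ω) (hskew v v₀ hv hv₀) (hskew v b hv hb) hω' h0).1
    have h5 := (hRat _).mp (hlR v ((hRat _).mpr hv))
    rw [uS_mulVec hf _ hxx, J_smul, map_inv₀, hσl, J_add, hv] at h5
    have h6 : J ((ζ * f v (v₀ + ω • b)) • (v₀ + ω • b)) = (ζ * f v (v₀ + ω • b)) • (v₀ + ω • b) := by
      have h7 := congrArg (fun z => l • z) h5
      simp only [smul_smul, mul_inv_cancel₀ hl, one_smul] at h7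
      exact add_left_cancel h7
    apply hNR
    refine ⟨(ζ * f v (v₀ + ω • b))⁻¹, _, h6, ?_⟩
    rw [smul_smul, inv_mul_cancel₀ (mul_ne_zero hζ0 hvx), one_smul]
  · intro M hPM hMK ⟨h, hhM, hhP⟩
    have hhI : h ∈ uIso f := by
      rw [← hGU]; exact (Subgroup.mem_inf.mp (hMK hhM)).1
    have hfin : ∀ v : Fin n → F, f v v = 0 → v ∈ uSet σ f M := by
      have hV₀X : ∀ v, J v = v → v ∈ uSet σ f M := by
        intro v hv
        apply uSet_of_mem hf (halt' v hv)
        intro c hc
        apply hPM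
        refine Subgroup.mem_inf.mpr ⟨?_, Subgroup.mem_inf.mpr ⟨?_, glT_mem_SL _ _ _⟩⟩
        · apply mem_subfieldSubgroup_of F₀ P _ 1 one_ne_zero
          intro x hx
          rw [hRat] at hx ⊢
          rw [inv_one, one_smul, uS_mulVec hf v (halt' v hv), J_add, J_smul, hx, hv, map_mul, hc,
            hskew x v hx hv, neg_mul_neg]
        · rw [hGU]
          exact fun x y => uS_isom hf v (halt' v hv) c hc x y
      have hT : ∀ x v c, x ∈ uSet σ f M → (¬ ∃ (l : F) (r : Fin n → F), J r = r ∧ x = l • r) →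
          J v = v → σ c = -c → (x + (c * f x v) • v ∈ uSet σ f M ∧
            ¬ ∃ (l : F) (r : Fin n → F), J r = r ∧ x + (c * f x v) • v = l • r) := by
        intro x v c hx hNR hv hc
        refine ⟨uSet_hyp hf (hV₀X v hv) hx c hc, ?_⟩
        rintro ⟨l, r, hr, e⟩
        apply hNR
        refine ⟨l, r - (c * f r v) • v, ?_, ?_⟩
        · rw [J_sub, J_smul, hr, hv, map_mul, hc, hskew r v hr hv, neg_mul_neg]
        · have h1 := congrArg (fun z => f z v) e
          simp only [hf.add_left, hf.smul_left, halt' v hv, mul_zero, add_zero] at h1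
          have h2 : x = l • r - (c * f x v) • v := by rw [← e]; abel
          rw [h2, h1]
          module
      have hS1 : ∀ a b a', J a = a → J b = b → J a' = a' → a + ω • b ∈ uSet σ f M →
          (¬ ∃ (l : F) (r : Fin n → F), J r = r ∧ a + ω • b = l • r) → f a a' ≠ 0 →
          ∃ b', J b' = b' ∧ a' + ω • b' ∈ uSet σ f M ∧
            ¬ ∃ (l : F) (r : Fin n → F), J r = r ∧ a' + ω • b' = l • r := by
        intro a b a' ha hb ha' hx hNR hne
        have hv : J (a' - a) = a' - a := by rw [J_sub, ha, ha']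
        have hφ : σ (f a a') = - f a a' := hskew a a' ha ha'
        obtain ⟨h1, h2⟩ := hT _ (a' - a) (f a a')⁻¹ hx hNR hv (by rw [map_inv₀, hφ, inv_neg])
        have e : a + ω • b + ((f a a')⁻¹ * f (a + ω • b) (a' - a)) • (a' - a) =
            a' + ω • (b + (f b (a' - a) / f a a') • (a' - a)) := by
          rw [hf.add_left, hf.smul_left, uf_sub_right hf a, halt' a ha, sub_zero, mul_add,
            inv_mul_cancel₀ hne]
          have : (f a a')⁻¹ * (ω * f b (a' - a)) = ω * (f b (a' - a) / f a a') := by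
            field_simp
          rw [this]
          module
        rw [e] at h1 h2
        refine ⟨_, ?_, h1, h2⟩
        rw [J_add, J_smul, hb, hv, map_div₀, hskew b _ hb hv, hφ, neg_div_neg_eq]
      have hS2 : ∀ a b b', J a = a → J b = b → J b' = b' → a + ω • b ∈ uSet σ f M →
          (¬ ∃ (l : F) (r : Fin n → F), J r = r ∧ a + ω • b = l • r) → f b' a = 0 → f b b' ≠ 0 →
          (a + ω • b' ∈ uSet σ f M ∧
            ¬ ∃ (l : F) (r : Fin n → F), J r = r ∧ a + ω • b' = l • r) := by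
        intro a b b' ha hb hb' hx hNR hb'a hne
        have hab : f a b = 0 := by
          have := hx.1
          rw [hnorm a b ha hb] at this
          exact (mul_eq_zero.mp this).resolve_left hσω
        have hv : J (b' - b) = b' - b := by rw [J_sub, hb, hb']
        have hφ : σ (f b b') = - f b b' := hskew b b' hb hb'
        obtain ⟨h1, h2⟩ := hT _ (b' - b) (f b b')⁻¹ hx hNR hv (by rw [map_inv₀, hφ, inv_neg])
        have e : a + ω • b + ((f b b')⁻¹ * f (a + ω • b) (b' - b)) • (b' - b) = a + ω • b' := by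
          rw [hf.add_left, hf.smul_left, uf_sub_right hf a, uf_sub_right hf b, halt' b hb, hab,
            uf_eq_zero_symm hf hb'a]
          have : (f b b')⁻¹ * (0 - 0 + ω * (f b b' - 0)) = ω := by
            field_simp
            ring
          rw [this]
          module
        rw [e] at h1 h2
        exact ⟨h1, h2⟩
      -- a point of rank two
      have hex : ∃ v, J v = v ∧ ¬ ∃ (l : F) (r : Fin n → F), J r = r ∧
          (h : Matrix (Fin n) (Fin n) F) *ᵥ v = l • r := by
        by_contra hcon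
        push Not at hcon
        have hne0 : ∀ x, x ≠ 0 → (h : Matrix (Fin n) (Fin n) F) *ᵥ x ≠ 0 := by
          intro x hx h0
          apply hx
          have := gl_inv_mulVec h x
          rw [h0, Matrix.mulVec_zero] at this
          exact this.symm
        have heig : ∀ v, J v = v → ∃ ε : F, J ((h : Matrix (Fin n) (Fin n) F) *ᵥ v) =
            ε • ((h : Matrix (Fin n) (Fin n) F) *ᵥ v) := by
          intro v hv
          obtain ⟨l, r, hr, e⟩ := hcon v hv
          by_cases hl : l = 0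
          · refine ⟨0, ?_⟩
            rw [e, hl, zero_smul, J_zero, smul_zero]
          · refine ⟨σ l / l, ?_⟩
            rw [e, J_smul, hr, smul_smul, div_mul_cancel₀ _ hl]
        obtain ⟨ε₀, hε₀⟩ := heig v₀ hv₀
        have hhv₀ := hne0 v₀ hv₀0
        have hconst : ∀ v, J v = v → (h : Matrix (Fin n) (Fin n) F) *ᵥ v ∉
            Submodule.span F {(h : Matrix (Fin n) (Fin n) F) *ᵥ v₀} →
            J ((h : Matrix (Fin n) (Fin n) F) *ᵥ v) = ε₀ • ((h : Matrix (Fin n) (Fin n) F) *ᵥ v) := by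
          intro v hv hvn
          obtain ⟨ε, hε⟩ := heig v hv
          obtain ⟨ε', hε'⟩ := heig (v + v₀) (by rw [J_add, hv, hv₀])
          rw [Matrix.mulVec_add, J_add, hε, hε₀] at hε'
          have h3 : (ε - ε') • ((h : Matrix (Fin n) (Fin n) F) *ᵥ v) =
              (ε' - ε₀) • ((h : Matrix (Fin n) (Fin n) F) *ᵥ v₀) := by
            have : (ε - ε') • ((h : Matrix (Fin n) (Fin n) F) *ᵥ v) -
                (ε' - ε₀) • ((h : Matrix (Fin n) (Fin n) F) *ᵥ v₀) =
                (ε • ((h : Matrix (Fin n) (Fin n) F) *ᵥ v) +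
                  ε₀ • ((h : Matrix (Fin n) (Fin n) F) *ᵥ v₀)) -
                ε' • ((h : Matrix (Fin n) (Fin n) F) *ᵥ v +
                  (h : Matrix (Fin n) (Fin n) F) *ᵥ v₀) := by module
            rw [← sub_eq_zero, this, hε', sub_self]
          by_cases h4 : ε - ε' = 0
          · rw [h4, zero_smul] at h3
            have h5 := (smul_eq_zero.mp h3.symm).resolve_right hhv₀
            have : ε = ε₀ := by linear_combination h4 + h5
            rw [hε, this]
          · exfalso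
            apply hvn
            rw [Submodule.mem_span_singleton]
            refine ⟨(ε - ε')⁻¹ * (ε' - ε₀), ?_⟩
            rw [mul_smul, ← h3, smul_smul, inv_mul_cancel₀ h4, one_smul]
        have hhv₁ : (h : Matrix (Fin n) (Fin n) F) *ᵥ v₁ ∉
            Submodule.span F {(h : Matrix (Fin n) (Fin n) F) *ᵥ v₀} := by
          intro hmem
          obtain ⟨μ, hμ⟩ := Submodule.mem_span_singleton.mp hmem
          apply hv₁₀
          rw [Submodule.mem_span_singleton]
          refine ⟨μ, ?_⟩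
          have := congrArg (fun z => ((h⁻¹ : Matrix.GeneralLinearGroup (Fin n) F) :
            Matrix (Fin n) (Fin n) F) *ᵥ z) hμ
          simpa only [Matrix.mulVec_smul, gl_inv_mulVec] using this
        have hall : ∀ v, J v = v → J ((h : Matrix (Fin n) (Fin n) F) *ᵥ v) =
            ε₀ • ((h : Matrix (Fin n) (Fin n) F) *ᵥ v) := by
          intro v hv
          by_cases hvn : (h : Matrix (Fin n) (Fin n) F) *ᵥ v ∈
              Submodule.span F {(h : Matrix (Fin n) (Fin n) F) *ᵥ v₀}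
          · have h1 := hconst (v + v₁) (by rw [J_add, hv, hv₁]) (by
              rw [Matrix.mulVec_add]
              intro hmem
              apply hhv₁
              have := Submodule.sub_mem _ hmem hvn
              simpa using this)
            have h2 := hconst v₁ hv₁ hhv₁
            rw [Matrix.mulVec_add, J_add, h2, smul_add] at h1
            exact add_right_cancel h1
          · exact hconst v hv hvn
        obtain ⟨l₀, r₀, hr₀, e₀⟩ := hcon v₀ hv₀
        have hl₀ : l₀ ≠ 0 := by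
          rintro rfl
          rw [zero_smul] at e₀
          exact hhv₀ e₀
        have hr₀0 : r₀ ≠ 0 := by
          rintro rfl
          rw [smul_zero] at e₀
          exact hhv₀ e₀
        have hσl₀ : σ l₀ = ε₀ * l₀ := by
          rw [e₀, J_smul, hr₀, smul_smul] at hε₀
          have h2 : (σ l₀ - ε₀ * l₀) • r₀ = 0 := by rw [sub_smul, hε₀, sub_self]
          have h3 := (smul_eq_zero.mp h2).resolve_right hr₀0
          linear_combination h3
        have hσl₀0 : σ l₀ ≠ 0 := by simpa using hl₀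
        have hε₀0 : ε₀ ≠ 0 := by
          rintro rfl
          rw [zero_mul] at hσl₀
          exact hσl₀0 hσl₀
        apply hhP
        refine Subgroup.mem_inf.mpr ⟨?_, hMK hhM⟩
        apply mem_subfieldSubgroup_of F₀ P h l₀ hl₀
        intro v hv
        rw [hRat] at hv ⊢
        rw [J_smul, hall v hv, map_inv₀, hσl₀, smul_smul]
        congr 1
        field_simp
      obtain ⟨v, hv, hNRy⟩ := hex
      have hyX := uSet_mulVec hf (hV₀X v hv) hhM hhI
      obtain ⟨a₀, b₀, ha₀, hb₀, ey⟩ := hparts ((h : Matrix (Fin n) (Fin n) F) *ᵥ v)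
      rw [ey] at hyX hNRy
      have hfirst : ∀ a b : Fin n → F, J b = b →
          (¬ ∃ (l : F) (r : Fin n → F), J r = r ∧ a + ω • b = l • r) → a ≠ 0 := by
        rintro a b hb hNR rfl
        exact hNR ⟨ω, b, hb, by rw [zero_add]⟩
      have hsecond : ∀ a b : Fin n → F, J a = a →
          (¬ ∃ (l : F) (r : Fin n → F), J r = r ∧ a + ω • b = l • r) →
          b ∉ Submodule.span F {a} := by
        intro a b ha hNR hmem
        obtain ⟨μ, rfl⟩ := Submodule.mem_span_singleton.mp hmem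
        exact hNR ⟨1 + ω * μ, a, ha, by module⟩
      intro x hxx
      by_cases hNR : ∃ (l : F) (r : Fin n → F), J r = r ∧ x = l • r
      · obtain ⟨l, r, hr, rfl⟩ := hNR
        exact uSet_smul hf (hV₀X r hr) l
      · obtain ⟨a, b, ha, hb, rfl⟩ := hparts x
        have ha0 := hfirst a b hb hNR
        have hbn := hsecond a b ha hNR
        have ha₀0 := hfirst a₀ b₀ hb₀ hNRy
        have hab : f a b = 0 := by
          rw [hnorm a b ha hb] at hxx
          exact (mul_eq_zero.mp hxx).resolve_left hσω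
        obtain ⟨m, hm, -, hma₀, hma⟩ := hRE 0 a₀ a J_zero ha₀ ha (hspan0 _ ha₀0) (hspan0 _ ha0)
        obtain ⟨b₁, hb₁, hX₁, hNR₁⟩ := hS1 a₀ b₀ m ha₀ hb₀ hm hyX hNRy (uf_ne_zero_symm hf hma₀)
        obtain ⟨b₂, hb₂, hX₂, hNR₂⟩ := hS1 m b₁ a hm hb₁ ha hX₁ hNR₁ hma
        have hb₂n := hsecond a b₂ ha hNR₂
        obtain ⟨m', hm', hm'a, hm'b₂, hm'b⟩ := hRE a b₂ b ha hb₂ hb hb₂n hbn
        obtain ⟨hX₃, hNR₃⟩ := hS2 a b₂ m' ha hb₂ hm' hX₂ hNR₂ hm'a (uf_ne_zero_symm hf hm'b₂)
        exact (hS2 a m' b ha hm' hb hX₃ hNR₃ (uf_eq_zero_symm hf hab) hm'b).1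
    subst hfdef hσ
    exact SU_le_of_uSet hF n (by omega) M hfin

end Cfsg.Agent.S5660
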