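import Cfsg.Statements.S5665
import Cfsg.Agent.Lib.Helper6.KSympA

set_option autoImplicit false
open Cfsg

namespace Cfsg.Agent.S5665

open Cfsg.Agent.Lib.Helper6 Matrix QuadraticMap

theorem exists_SData {F : Type*} [Field F] (m : ℕ) (hm : 1 ≤ m) (h2 : (2 : F) ≠ 0)
    (K : Subalgebra F (Matrix (Fin m ⊕ Fin m) (Fin m ⊕ Fin m) F))
    (hK : Cfsg.Geo.IsFieldSubalgebra 2 K)
    (hac : Cfsg.Geo.IsAdjointClosedFor (Cfsg.sympForm m F) K)
    (hnsa : ¬ Cfsg.Geo.IsSelfAdjointFor (Cfsg.sympForm m F) K) :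
    ∃ (J : Matrix (Fin m ⊕ Fin m) (Fin m ⊕ Fin m) F) (ε : F), SData m J ε ∧ J ∈ K ∧
      ∀ k ∈ K, ∃ x y : F, k = x • (1 : Matrix (Fin m ⊕ Fin m) (Fin m ⊕ Fin m) F) + y • J := by
  have : Nonempty (Fin m ⊕ Fin m) := ⟨Sum.inl ⟨0, by omega⟩⟩
  unfold Cfsg.Geo.IsSelfAdjointFor at hnsa
  push Not at hnsa
  obtain ⟨ω, hω, u₀, v₀, huv⟩ := hnsa
  obtain ⟨ω', hω', hadj⟩ := hac ω hω
  have hadj' : ∀ u v, sympForm m F (ω' *ᵥ u) v = sympForm m F u (ω *ᵥ v) := by
    intro u v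
    rw [sympForm_swap, ← hadj, sympForm_swap, neg_neg]
  obtain ⟨J, hJ⟩ : ∃ J, J = ω - ω' := ⟨_, rfl⟩
  have hJK : J ∈ K := by rw [hJ]; exact K.sub_mem hω hω'
  have fadj : ∀ u v, sympForm m F (J *ᵥ u) v = - sympForm m F u (J *ᵥ v) := by
    intro u v
    rw [hJ, Matrix.sub_mulVec, Matrix.sub_mulVec, sympForm_sub_left, sympForm_sub_right, hadj,
      hadj']
    ring
  have hJne : sympForm m F (J *ᵥ u₀) v₀ ≠ 0 := by
    rw [hJ, Matrix.sub_mulVec, sympForm_sub_left, hadj']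
    exact sub_ne_zero.mpr huv
  have hns : ∀ c : F, J ≠ c • (1 : Matrix (Fin m ⊕ Fin m) (Fin m ⊕ Fin m) F) := by
    intro c hc
    have h1 := fadj u₀ v₀
    have h3 : sympForm m F (J *ᵥ u₀) v₀ = sympForm m F u₀ (J *ᵥ v₀) := by
      rw [hc, Matrix.smul_mulVec, Matrix.smul_mulVec, Matrix.one_mulVec, Matrix.one_mulVec,
        sympForm_smul_left, sympForm_smul_right]
    have h4 : 2 * sympForm m F (J *ᵥ u₀) v₀ = 0 := by linear_combination h1 + h3
    exact hJne ((mul_eq_zero.mp h4).resolve_left h2)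
  obtain ⟨hli, hspan⟩ := span_of_not_scalar hK.finrank_eq hJK hns
  have hsa : ∀ s ∈ K, (∀ u v, sympForm m F (s *ᵥ u) v = sympForm m F u (s *ᵥ v)) →
      ∃ x : F, s = x • (1 : Matrix (Fin m ⊕ Fin m) (Fin m ⊕ Fin m) F) := by
    intro s hs hss
    obtain ⟨x, y, rfl⟩ := hspan s hs
    by_cases hy : y = 0
    · subst hy
      exact ⟨x, by rw [zero_smul, add_zero]⟩
    · exfalso
      apply hJne
      have := hss u₀ v₀
      simp only [Matrix.add_mulVec, Matrix.smul_mulVec, Matrix.one_mulVec,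
        sympForm_add_left, sympForm_add_right, sympForm_smul_left, sympForm_smul_right] at this
      have h1 := fadj u₀ v₀
      have h4 : (2 * y) * sympForm m F (J *ᵥ u₀) v₀ = 0 := by
        linear_combination this + y * h1
      exact (mul_eq_zero.mp h4).resolve_left (mul_ne_zero h2 hy)
  obtain ⟨ε, hε⟩ := hsa (J * J) (K.mul_mem hJK hJK) (by
    intro u v
    rw [← Matrix.mulVec_mulVec, ← Matrix.mulVec_mulVec, fadj, fadj, neg_neg])
  have fsq : ∀ v, J *ᵥ (J *ᵥ v) = ε • v := by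
    intro v
    rw [Matrix.mulVec_mulVec, hε, Matrix.smul_mulVec, Matrix.one_mulVec]
  have faniso : ∀ x y : F, x ^ 2 - ε * y ^ 2 = 0 → x = 0 ∧ y = 0 := by
    intro x y hxy
    have hprod : (x • (1 : Matrix (Fin m ⊕ Fin m) (Fin m ⊕ Fin m) F) + y • J) *
        (x • (1 : Matrix (Fin m ⊕ Fin m) (Fin m ⊕ Fin m) F) + (-y) • J) = 0 := by
      have : (x • (1 : Matrix (Fin m ⊕ Fin m) (Fin m ⊕ Fin m) F) + y • J) *
          (x • (1 : Matrix (Fin m ⊕ Fin m) (Fin m ⊕ Fin m) F) + (-y) • J) =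
          (x * x) • (1 : Matrix (Fin m ⊕ Fin m) (Fin m ⊕ Fin m) F) + (-(y * y)) • (J * J) := by
        simp only [add_mul, mul_add, Matrix.smul_mul, Matrix.mul_smul, Matrix.one_mul,
          Matrix.mul_one, smul_smul]
        module
      rw [this, hε, smul_smul, ← add_smul]
      have e : x * x + -(y * y) * ε = 0 := by linear_combination hxy
      rw [e, zero_smul]
    by_cases h0 : x • (1 : Matrix (Fin m ⊕ Fin m) (Fin m ⊕ Fin m) F) + y • J = 0
    · exact hli x y h0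
    · obtain ⟨z, hz, hz1⟩ := hK.inv _ (K.add_mem (K.smul_mem K.one_mem x) (K.smul_mem hJK y)) h0
      have h1 : x • (1 : Matrix (Fin m ⊕ Fin m) (Fin m ⊕ Fin m) F) + (-y) • J = 0 := by
        have hcomm := hK.comm _ (K.add_mem (K.smul_mem K.one_mem x) (K.smul_mem hJK y)) z hz
        calc x • (1 : Matrix (Fin m ⊕ Fin m) (Fin m ⊕ Fin m) F) + (-y) • J
            = (z * (x • (1 : Matrix (Fin m ⊕ Fin m) (Fin m ⊕ Fin m) F) + y • J)) *
                (x • (1 : Matrix (Fin m ⊕ Fin m) (Fin m ⊕ Fin m) F) + (-y) • J) := by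
              rw [← hcomm, hz1, Matrix.one_mul]
          _ = 0 := by rw [Matrix.mul_assoc, hprod, Matrix.mul_zero]
      obtain ⟨h3, h4⟩ := hli _ _ h1
      exact ⟨h3, neg_eq_zero.mp h4⟩
  exact ⟨J, ε, ⟨h2, fadj, fsq, faniso⟩, hJK, hspan⟩

/-- For a finite field F of odd order and m ≥ 7, let K be a subfield of the algebra of 2m × 2m matrices over F containing the scalars, of degree 2 over F, that is closed under adjoints for the standard alternating form on F^(2m) but whose elements are not all self-adjoint (so the adjoint map induces the automorphism of order two of K). Then the elements of Sp_2m(F) normalising K form a maximal subgroup of Sp_2m(F). -/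
theorem result {F : Type*} [Field F] [Fintype F] (m : ℕ) (hm : 7 ≤ m) (hodd : Odd (Fintype.card F)) (K : Subalgebra F (Matrix (Fin m ⊕ Fin m) (Fin m ⊕ Fin m) F)) (hK : Cfsg.Geo.IsFieldSubalgebra 2 K) (hac : Cfsg.Geo.IsAdjointClosedFor (Cfsg.sympForm m F) K) (hnsa : ¬ Cfsg.Geo.IsSelfAdjointFor (Cfsg.sympForm m F) K) : Cfsg.Geo.IsMaximalIn (Cfsg.spGL m F) (Cfsg.Geo.subalgebraNormalizer K ⊓ Cfsg.spGL m F) := by
  have : Nonempty (Fin m ⊕ Fin m) := ⟨Sum.inl ⟨0, by omega⟩⟩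
  have hcard : Fintype.card (Fin m ⊕ Fin m) = 2 * m := by
    rw [Fintype.card_sum, Fintype.card_fin]; ring
  have h2 : (2 : F) ≠ 0 := by
    have hchar : ringChar F ≠ 2 := by
      intro h
      rw [FiniteField.even_card_iff_char_two] at h
      exact (Nat.not_even_iff_odd.mpr hodd) (Nat.even_iff.mpr h)
    exact Ring.two_ne_zero hchar
  obtain ⟨J, ε, S, hJK, hspan⟩ := exists_SData m (by omega) h2 K hK hac hnsa
  have D := S.toKData
  have hQ := S.nondeg
  have hcommN : ∀ g : Matrix.GeneralLinearGroup (Fin m ⊕ Fin m) F,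
      (∀ z, (g : Matrix (Fin m ⊕ Fin m) (Fin m ⊕ Fin m) F) *ᵥ (J *ᵥ z) =
        J *ᵥ ((g : Matrix (Fin m ⊕ Fin m) (Fin m ⊕ Fin m) F) *ᵥ z)) →
      g ∈ Cfsg.Geo.subalgebraNormalizer K := by
    intro g hg
    have e : (g : Matrix (Fin m ⊕ Fin m) (Fin m ⊕ Fin m) F) * J =
        J * (g : Matrix (Fin m ⊕ Fin m) (Fin m ⊕ Fin m) F) := by
      rw [Matrix.ext_iff_mulVec]
      intro z
      rw [← Matrix.mulVec_mulVec, ← Matrix.mulVec_mulVec]
      exact hg z
    apply mem_normalizer_of_conj hspan g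
    · rw [e, Matrix.mul_assoc, Units.mul_inv, Matrix.mul_one]; exact hJK
    · rw [Matrix.mul_assoc, ← e, ← Matrix.mul_assoc, Units.inv_mul, Matrix.one_mul]; exact hJK
  obtain ⟨v, hv⟩ : ∃ p₀ : Fin m ⊕ Fin m → F, p₀ ≠ 0 :=
    ⟨Pi.single (Sum.inl ⟨0, by omega⟩) 1, by simp⟩
  apply isMaximalIn_of _ _ inf_le_right
  · refine ⟨tvGL m v 1, tvGL_mem m _ _, fun hmem => ?_⟩
    have hNm := (Subgroup.mem_inf.mp hmem).1
    have h1 : (tvGL m v 1 : Matrix (Fin m ⊕ Fin m) (Fin m ⊕ Fin m) F) * J *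
        (((tvGL m v 1)⁻¹ : Matrix.GeneralLinearGroup (Fin m ⊕ Fin m) F) :
          Matrix (Fin m ⊕ Fin m) (Fin m ⊕ Fin m) F) ∈ K := (hNm J).mp hJK
    obtain ⟨x, y, hxy⟩ := hspan _ h1
    have h3 : ∀ z, J *ᵥ z + sympForm m F (J *ᵥ z) v • v =
        x • (z + sympForm m F z v • v) + y • J *ᵥ (z + sympForm m F z v • v) := by
      intro z
      have := congrArg (fun A => A *ᵥ ((tvGL m v 1 : Matrix (Fin m ⊕ Fin m) (Fin m ⊕ Fin m) F)
        *ᵥ z)) hxy
      simp only [← Matrix.mulVec_mulVec, gl_inv_mulVec, Matrix.add_mulVec, Matrix.smul_mulVec,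
        Matrix.one_mulVec] at this
      simp only [tvGL_mulVec, one_mul] at this
      exact this
    obtain ⟨z, hz, hz0⟩ := ex_perp_ne ![Matrix.J (Fin m) F *ᵥ v, Matrix.J (Fin m) F *ᵥ (J *ᵥ v)]
      (by rw [hcard]; omega)
    have hzv : sympForm m F z v = 0 := by
      have := hz 0
      simp only [Matrix.cons_val_zero] at this
      unfold sympForm
      rw [dotProduct_comm]; exact this
    have hzJv : sympForm m F z (J *ᵥ v) = 0 := by
      have := hz 1
      simp only [Matrix.cons_val_one, Matrix.cons_val_zero] at this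
      unfold sympForm
      rw [dotProduct_comm]; exact this
    have h4 := h3 z
    rw [S.adj, hzJv, hzv, neg_zero, zero_smul, add_zero, add_zero] at h4
    have h5 : x • z + (y - 1) • J *ᵥ z = 0 := by
      have : x • z + (y - 1) • J *ᵥ z = (x • z + y • J *ᵥ z) - J *ᵥ z := by module
      rw [this, ← h4, sub_self]
    obtain ⟨hx0, hy1⟩ := D.comb_eq_zero hz0 h5
    have hy : y = 1 := by linear_combination hy1
    obtain ⟨z', hz'⟩ := exists_sympForm_eq_one m v hv
    have h6 := h3 z'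
    have hz'v : sympForm m F z' v = -1 := by rw [sympForm_swap, hz']
    rw [hx0, hy, hz'v, zero_smul, zero_add, one_smul, Matrix.mulVec_add, Matrix.mulVec_smul]
      at h6
    have h7 : J *ᵥ v = (-sympForm m F (J *ᵥ z') v) • v := by
      have := add_left_cancel h6
      have e : J *ᵥ v = -((-1 : F) • J *ᵥ v) := by module
      rw [e, ← this]; module
    exact hv (D.no_eigen h7)
  · rintro M hPM hMK ⟨h, hhM, hhP⟩
    have hP : ∀ g ∈ spGL m F, (∀ z, (g : Matrix (Fin m ⊕ Fin m) (Fin m ⊕ Fin m) F) *ᵥ (J *ᵥ z) =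
        J *ᵥ ((g : Matrix (Fin m ⊕ Fin m) (Fin m ⊕ Fin m) F) *ᵥ z)) → g ∈ M :=
      fun g hg hc => hPM (Subgroup.mem_inf.mpr ⟨hcommN g hc, hg⟩)
    have hhS : h ∈ spGL m F := hMK hhM
    by_cases hall : ∀ d : Fin m ⊕ Fin m → F, d ≠ 0 → SQ J d = 0 → ∃ α β : F,
        (((h⁻¹ : Matrix.GeneralLinearGroup (Fin m ⊕ Fin m) F) :
          Matrix (Fin m ⊕ Fin m) (Fin m ⊕ Fin m) F) * J *
          (h : Matrix (Fin m ⊕ Fin m) (Fin m ⊕ Fin m) F)) *ᵥ d = α • d + β • J *ᵥ d
    · exfalso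
      obtain ⟨α, β, hαβ⟩ := D.scalar_of_Ksp hQ (by rw [hcard]; omega) hall
      apply hhP
      refine Subgroup.mem_inf.mpr ⟨?_, hhS⟩
      apply D.mem_normalizer hJK hspan h (α := α) (β := β)
      intro z
      rw [← hαβ, ← Matrix.mulVec_mulVec, ← Matrix.mulVec_mulVec]
    · push Not at hall
      obtain ⟨d, hd0, hd, hdK⟩ := hall
      have hd' : sympForm m F d (J *ᵥ d) = 0 := hd
      obtain ⟨δ, hδ0, hδ⟩ := S.stageA hm hP
        (a := (h : Matrix (Fin m ⊕ Fin m) (Fin m ⊕ Fin m) F) *ᵥ d)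
        (b := (h : Matrix (Fin m ⊕ Fin m) (Fin m ⊕ Fin m) F) *ᵥ (J *ᵥ d))
        (by rw [(mem_spGL_iff m h).mp hhS, hd'])
        (by
          intro hmem
          obtain ⟨x, y, hxy⟩ := KData.mem_Ksp.mp hmem
          have h1 : x • d + y • (((h⁻¹ : Matrix.GeneralLinearGroup (Fin m ⊕ Fin m) F) :
              Matrix (Fin m ⊕ Fin m) (Fin m ⊕ Fin m) F) * J *
              (h : Matrix (Fin m ⊕ Fin m) (Fin m ⊕ Fin m) F)) *ᵥ d = J *ᵥ d := by
            have := congrArg (fun z => ((h⁻¹ : Matrix.GeneralLinearGroup (Fin m ⊕ Fin m) F) :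
              Matrix (Fin m ⊕ Fin m) (Fin m ⊕ Fin m) F) *ᵥ z) hxy
            simp only [Matrix.mulVec_add, Matrix.mulVec_smul, gl_inv_mulVec] at this
            rw [← Matrix.mulVec_mulVec, ← Matrix.mulVec_mulVec]
            exact this
          by_cases hy : y = 0
          · rw [hy, zero_smul, add_zero] at h1
            exact hd0 (D.no_eigen h1.symm)
          · apply hdK (-(y⁻¹ * x)) y⁻¹
            rw [← h1, smul_add, smul_smul, smul_smul, inv_mul_cancel₀ hy, one_smul]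
            module)
        (by
          intro c
          have := M.mul_mem (M.mul_mem hhM (S.tau_mem_M hP hd' c)) (M.inv_mem hhM)
          unfold SData.tau at this
          rwa [conj_tv_pair hhS] at this)
      exact S.stageB hm hP hδ hδ0

end Cfsg.Agent.S5665
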