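import Cfsg.Statements.S5667
import Cfsg.Agent.Lib.Helper6.SpMax
import Cfsg.Agent.Lib.Helper6.Tens
import Cfsg.Agent.Lib.Helper6.Frame3

set_option autoImplicit false
open Cfsg

namespace Cfsg.Agent.S5667

open Cfsg.Agent.Lib.Helper6 Matrix

theorem symp_sum {F : Type*} [Field F] {m : ℕ} {κ : Type*} (s : Finset κ)
    (x : κ → Fin m ⊕ Fin m → F) (y : Fin m ⊕ Fin m → F) :
    sympForm m F (∑ i ∈ s, x i) y = ∑ i ∈ s, sympForm m F (x i) y := by
  classical
  induction s using Finset.induction_on with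
  | empty => simp [sympForm_zero_left]
  | insert a s ha ih => rw [Finset.sum_insert ha, Finset.sum_insert ha, sympForm_add_left, ih]

/-- Over the field with 3 elements and for m ≥ 7, suppose the standard alternating form on F^(2m) is similar, through P and e, to the tensor product of a non-degenerate symplectic form f₁ on F^(n₁) and a non-degenerate symmetric bilinear form f₂ on F^3. Then the elements of Sp_2m(3) in the stabiliser of this tensor decomposition form a subgroup that is not maximal: some subgroup lies strictly between it and Sp_2m(3). -/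
theorem result {F : Type*} [Field F] [Fintype F] (m : ℕ) (hm : 7 ≤ m) (hq : Fintype.card F = 3) (n₁ : ℕ) (e : (Fin m ⊕ Fin m) ≃ Fin n₁ × Fin 3) (P : Matrix.GeneralLinearGroup (Fin m ⊕ Fin m) F) (f₁ : (Fin n₁ → F) → (Fin n₁ → F) → F) (f₂ : (Fin 3 → F) → (Fin 3 → F) → F) (hf₁ : Cfsg.Geo.IsSymplecticForm f₁) (hf₂ : Cfsg.Geo.IsSymmetricForm f₂) (hT : Cfsg.Geo.IsTensorFormStructure id (Cfsg.sympForm m F) f₁ f₂ e P) : ∃ K : Subgroup (Matrix.GeneralLinearGroup (Fin m ⊕ Fin m) F), Cfsg.Geo.tensorProductSubgroup n₁ 3 e P ⊓ Cfsg.spGL m F < K ∧ K < Cfsg.spGL m F := by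
  classical
  have h3 : ∀ a : F, a = 0 ∨ a = 1 ∨ a = -1 := by
    intro a
    have := FiniteField.pow_card a
    rw [hq] at this
    have h : a * ((a - 1) * (a + 1)) = 0 := by linear_combination this
    rcases mul_eq_zero.mp h with h | h
    · exact Or.inl h
    · rcases mul_eq_zero.mp h with h | h
      · exact Or.inr (Or.inl (by linear_combination h))
      · exact Or.inr (Or.inr (by linear_combination h))
  have h30 : (3 : F) = 0 := by
    have := FiniteField.cast_card_eq_zero F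
    rw [hq] at this
    exact_mod_cast this
  have hn1 : 2 * m = n₁ * 3 := by
    have := Fintype.card_congr e
    simp at this
    omega
  have b₁ := hf₁.bilinear
  have b₂ := hf₂.bilinear
  obtain ⟨c, hc, hB⟩ := tz_form (σ := id) (fun _ _ => rfl) (bf_eq_gram b₁) (bf_eq_gram b₂) hT
  obtain ⟨κ, w, hfr⟩ := exists_frame3 b₂ hf₂.symm h3 h30 ⊤ (by simp) (by
    intro v _ hv
    obtain ⟨⟨x, hx⟩, ⟨y, hy⟩⟩ := hf₂.nondegenerate v hv
    exact ⟨⟨x, trivial, hx⟩, ⟨y, trivial, hy⟩⟩)
  have hκ := hfr.kap_ne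
  have nd₁ : ∀ v, (∀ x, f₁ v x = 0) → v = 0 := by
    intro v hv
    by_contra hne
    obtain ⟨-, x, hx⟩ := hf₁.nondegenerate v hne
    exact hx (hv x)
  obtain ⟨u, u₀, huu⟩ : ∃ u u₀ : Fin n₁ → F, f₁ u u₀ = 1 := by
    have hb : (Pi.single (⟨0, by omega⟩ : Fin n₁) (1 : F) : Fin n₁ → F) ≠ 0 := by
      intro h
      have := congrFun h ⟨0, by omega⟩
      simp at this
    obtain ⟨⟨x, hx⟩, -⟩ := hf₁.nondegenerate _ hb
    exact ⟨(f₁ x _)⁻¹ • x, _, by rw [b₁.smul_left, inv_mul_cancel₀ hx]⟩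
  have hu₀ : u₀ ≠ 0 := by
    rintro rfl
    rw [bf_zero_right b₁] at huu
    exact zero_ne_one huu
  have h00 : f₁ u₀ u₀ = 0 := hf₁.alternating u₀
  have hcκ : c * κ ≠ 0 := mul_ne_zero hc hκ
  have comp : ∀ (p : Fin 3 → Fin n₁ → F) (u' : Fin n₁ → F) (r' : Fin 3 → F),
      ∑ i, tz e P (p i) (w i) = tz e P u' r' → ∀ j, κ • p j = f₂ r' (w j) • u' := by
    intro p u' r' h j
    have : κ • p j + (-(f₂ r' (w j))) • u' = 0 := by
      apply nd₁
      intro u''
      have h1 := congrArg (fun z => sympForm m F z (tz e P u'' (w j))) h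
      simp only [symp_sum, hB, hfr.gram, mul_ite, mul_zero, Finset.sum_ite_eq', Finset.mem_univ,
        if_true] at h1
      rw [b₁.add_left, b₁.smul_left, b₁.smul_left]
      have : c * (κ * f₁ (p j) u'' + -f₂ r' (w j) * f₁ u' u'') = 0 := by linear_combination h1
      exact (mul_eq_zero.mp this).resolve_left hc
    have h2 : κ • p j = κ • p j + (-(f₂ r' (w j))) • u' + f₂ r' (w j) • u' := by module
    rw [h2, this, zero_add]
  obtain ⟨S, hS⟩ : ∃ S : Set (Fin m ⊕ Fin m → F),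
      S = {v | ∃ u r, f₂ r r = κ ∧ v = tz e P u r} := ⟨_, rfl⟩
  let K : Subgroup (Matrix.GeneralLinearGroup (Fin m ⊕ Fin m) F) :=
    { carrier := {g | g ∈ spGL m F ∧
        ∀ v, v ∈ S ↔ (g : Matrix (Fin m ⊕ Fin m) (Fin m ⊕ Fin m) F) *ᵥ v ∈ S}
      mul_mem' := by
        rintro a b ⟨ha, ha'⟩ ⟨hb, hb'⟩
        refine ⟨Subgroup.mul_mem _ ha hb, fun v => ?_⟩
        rw [Units.val_mul, ← Matrix.mulVec_mulVec, ← ha', ← hb']
      one_mem' := ⟨Subgroup.one_mem _, fun v => by simp⟩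
      inv_mem' := by
        rintro a ⟨ha, ha'⟩
        refine ⟨Subgroup.inv_mem _ ha, fun v => ?_⟩
        rw [ha' (((a⁻¹ : Matrix.GeneralLinearGroup (Fin m ⊕ Fin m) F) :
          Matrix (Fin m ⊕ Fin m) (Fin m ⊕ Fin m) F) *ᵥ v), gl_mulVec_inv] }
  have hKmem : ∀ g, g ∈ K ↔ (g ∈ spGL m F ∧
        ∀ v, v ∈ S ↔ (g : Matrix (Fin m ⊕ Fin m) (Fin m ⊕ Fin m) F) *ᵥ v ∈ S) := fun g => Iff.rfl
  refine ⟨K, ?_, ?_⟩
  · refine lt_of_le_of_ne ?_ ?_
    · have fwd : ∀ g ∈ Cfsg.Geo.tensorProductSubgroup n₁ 3 e P ⊓ spGL m F, ∀ v ∈ S,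
          (g : Matrix (Fin m ⊕ Fin m) (Fin m ⊕ Fin m) F) *ᵥ v ∈ S := by
        intro g hg v hv
        obtain ⟨hgT, hgG⟩ := Subgroup.mem_inf.mp hg
        have hiso := (mem_spGL_iff m g).mp hgG
        obtain ⟨a, b, hab⟩ := tz_act hgT
        rw [hS] at hv ⊢
        obtain ⟨u', r, hr, rfl⟩ := hv
        refine ⟨_, _, ?_, hab u' r⟩
        obtain ⟨μ, hμ⟩ : ∃ μ, μ = f₁ ((a : Matrix (Fin n₁) (Fin n₁) F) *ᵥ u)
          ((a : Matrix (Fin n₁) (Fin n₁) F) *ᵥ u₀) := ⟨_, rfl⟩
        have key : ∀ r r', μ * f₂ ((b : Matrix (Fin 3) (Fin 3) F) *ᵥ r)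
            ((b : Matrix (Fin 3) (Fin 3) F) *ᵥ r') = f₂ r r' := by
          intro r r'
          have h1 := hiso (tz e P u r) (tz e P u₀ r')
          rw [hab, hab, hB, hB, ← hμ, huu] at h1
          apply mul_left_cancel₀ hc
          linear_combination h1
        rcases h3 μ with h | h | h
        · exfalso
          have := key (w 0) (w 0)
          rw [h, zero_mul, hfr.gram, if_pos rfl] at this
          exact hκ this.symm
        · have := key r r
          rw [h, one_mul] at this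
          rw [this, hr]
        · exfalso
          refine hfr.no_neg b₂ h3 h30 (fun i => (b : Matrix (Fin 3) (Fin 3) F) *ᵥ w i)
            (fun _ => trivial) (fun i j => ?_)
          have := key (w i) (w j)
          rw [h, hfr.gram] at this
          by_cases hij : i = j
          · rw [if_pos hij] at this ⊢
            linear_combination -this
          · rw [if_neg hij] at this ⊢
            linear_combination -this
      intro g hg
      refine (hKmem g).mpr ⟨(Subgroup.mem_inf.mp hg).2, fun v => ⟨fwd g hg v, fun hv => ?_⟩⟩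
      have := fwd g⁻¹ (Subgroup.inv_mem _ hg) _ hv
      rwa [gl_inv_mulVec] at this
    · intro heq
      have hg0 : tvGL m (tz e P u₀ (w 0)) 1 ∈ K := by
        have hfwd : ∀ t : F, ∀ v, v ∈ S → (tvGL m (tz e P u₀ (w 0)) t :
            Matrix (Fin m ⊕ Fin m) (Fin m ⊕ Fin m) F) *ᵥ v ∈ S := by
          intro t v hv
          rw [hS] at hv ⊢
          obtain ⟨u', r, hr, rfl⟩ := hv
          rw [tvGL_mulVec]
          obtain ⟨i, ε, -, rfl⟩ := hfr.classify b₂ h3 h30 (d := r) trivial hr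
          by_cases hi : i = 0
          · subst hi
            refine ⟨ε • u' + (t * sympForm m F (tz e P u' (ε • w 0)) (tz e P u₀ (w 0))) • u₀, w 0,
              by rw [hfr.gram, if_pos rfl], ?_⟩
            rw [tz_add_left, tz_smul_left, tz_smul_left, tz_smul_right]
          · refine ⟨u', _, hr, ?_⟩
            rw [hB, b₂.smul_left, hfr.gram, if_neg hi]
            simp
        refine (hKmem _).mpr ⟨tvGL_mem m _ _, fun v => ⟨hfwd 1 v, fun hv => ?_⟩⟩
        have h1 := hfwd (-1) _ hv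
        have h2 : (tvGL m (tz e P u₀ (w 0)) (-1) :
            Matrix (Fin m ⊕ Fin m) (Fin m ⊕ Fin m) F) *ᵥ ((tvGL m (tz e P u₀ (w 0)) 1 :
            Matrix (Fin m ⊕ Fin m) (Fin m ⊕ Fin m) F) *ᵥ v) = v := by
          rw [tvGL_mulVec, tvGL_mulVec, sympForm_add_left, sympForm_smul_left, sympForm_self]
          module
        rwa [h2] at h1
      rw [← heq] at hg0
      obtain ⟨a, b, hab⟩ := tz_act (Subgroup.mem_inf.mp hg0).1
      have h1 := hab u (w 0 + w 1)
      rw [tvGL_mulVec, hB, b₂.add_left, hfr.gram, hfr.gram, huu, if_pos rfl,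
        if_neg (by decide)] at h1
      have h2 : tz e P u (w 0 + w 1) + (1 * (c * (1 * (κ + 0)))) • tz e P u₀ (w 0) =
          ∑ i, tz e P ((![u + (c * κ) • u₀, u, 0] : Fin 3 → Fin n₁ → F) i) (w i) := by
        rw [Fin.sum_univ_three]
        simp only [Matrix.cons_val_zero, Matrix.cons_val_one, Matrix.cons_val]
        rw [tz_add_left, tz_add_right, tz_smul_left, tz_zero_left]
        module
      rw [h2] at h1
      have c0 := comp _ _ _ h1 0
      have c1 := comp _ _ _ h1 1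
      simp only [Matrix.cons_val_zero, Matrix.cons_val_one, Matrix.cons_val] at c0 c1
      obtain ⟨u', hu'⟩ : ∃ u', u' = (a : Matrix (Fin n₁) (Fin n₁) F) *ᵥ u := ⟨_, rfl⟩
      obtain ⟨l₀, hl₀⟩ : ∃ l₀, l₀ = f₂ ((b : Matrix (Fin 3) (Fin 3) F) *ᵥ (w 0 + w 1)) (w 0) :=
        ⟨_, rfl⟩
      obtain ⟨l₁, hl₁⟩ : ∃ l₁, l₁ = f₂ ((b : Matrix (Fin 3) (Fin 3) F) *ᵥ (w 0 + w 1)) (w 1) :=
        ⟨_, rfl⟩
      rw [← hu', ← hl₀] at c0
      rw [← hu', ← hl₁] at c1
      have d0 : l₀ * f₁ u' u₀ = κ := by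
        rw [← b₁.smul_left, ← c0, b₁.smul_left, b₁.add_left, b₁.smul_left, huu, h00]; ring
      have d1 : l₁ * f₁ u' u₀ = κ := by
        rw [← b₁.smul_left, ← c1, b₁.smul_left, huu]; ring
      have hr0 : f₁ u' u₀ ≠ 0 := by
        intro h; rw [h, mul_zero] at d0; exact hκ d0.symm
      have hl : l₀ = l₁ := mul_right_cancel₀ hr0 (d0.trans d1.symm)
      have h5 : κ • (u + (c * κ) • u₀) = κ • u := by rw [c0, hl, ← c1]
      have h6 : (κ * (c * κ)) • u₀ = 0 := by
        have : κ • (u + (c * κ) • u₀) = κ • u + (κ * (c * κ)) • u₀ := by module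
        rw [this] at h5
        simpa using h5
      rcases smul_eq_zero.mp h6 with h | h
      · exact (mul_ne_zero hκ hcκ) h
      · exact hu₀ h
  · refine lt_of_le_of_ne (fun g hg => ((hKmem g).mp hg).1) ?_
    intro heq
    have hg1 : tvGL m (tz e P u₀ (w 0 + w 1)) 1 ∈ spGL m F := tvGL_mem m _ _
    rw [← heq] at hg1
    have h1 := (((hKmem _).mp hg1).2 (tz e P u (w 0))).mp (by
      rw [hS]; exact ⟨u, w 0, by rw [hfr.gram, if_pos rfl], rfl⟩)
    rw [tvGL_mulVec, hB, b₂.add_right, hfr.gram, hfr.gram, huu, if_pos rfl,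
      if_neg (by decide)] at h1
    have h2 : tz e P u (w 0) + (1 * (c * (1 * (κ + 0)))) • tz e P u₀ (w 0 + w 1) =
        ∑ i, tz e P ((![u + (c * κ) • u₀, (c * κ) • u₀, 0] : Fin 3 → Fin n₁ → F) i) (w i) := by
      rw [Fin.sum_univ_three]
      simp only [Matrix.cons_val_zero, Matrix.cons_val_one, Matrix.cons_val]
      rw [tz_add_left, tz_add_right, tz_smul_left, tz_smul_left, tz_zero_left]
      module
    rw [h2, hS] at h1
    obtain ⟨u', r', hr', h3'⟩ := h1
    have c0 := comp _ _ _ h3' 0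
    have c1 := comp _ _ _ h3' 1
    simp only [Matrix.cons_val_zero, Matrix.cons_val_one, Matrix.cons_val] at c0 c1
    obtain ⟨i, ε, -, rfl⟩ := hfr.classify b₂ h3 h30 (d := r') trivial hr'
    by_cases hi : i = 0
    · subst hi
      rw [b₂.smul_left, hfr.gram, if_neg (by decide), mul_zero, zero_smul, smul_smul] at c1
      rcases smul_eq_zero.mp c1 with h | h
      · exact (mul_ne_zero hκ hcκ) h
      · exact hu₀ h
    · rw [b₂.smul_left, hfr.gram, if_neg hi, mul_zero, zero_smul] at c0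
      have h5 := congrArg (fun z => f₁ z u₀) c0
      simp only [b₁.smul_left, b₁.add_left, huu, h00, bf_zero_left b₁] at h5
      apply hκ
      linear_combination h5

end Cfsg.Agent.S5667
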