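import Cfsg.Statements.S5671
import Cfsg.Agent.Lib.Helper6.USet
import Cfsg.Agent.Lib.Helper6.Tens
import Cfsg.Agent.S5656

set_option autoImplicit false
open Cfsg

namespace Cfsg.Agent.S5671

open Cfsg.Agent.Lib.Helper6 Matrix

/-- Let F be the field with 4 elements (q = 2) and n = 2 n₂ ≥ 13. Suppose the standard unitary form Σ u_i v_i² on F^n is similar, through P and e, to the tensor product of non-degenerate unitary forms f₁ on F^2 and f₂ on F^(n₂). Then the elements of SU_n(2) in the stabiliser of this tensor decomposition form a subgroup that is not maximal: some subgroup lies strictly between it and SU_n(2). -/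
theorem result {F : Type*} [Field F] [Fintype F] (n : ℕ) (hF : Fintype.card F = 4) (hn : 13 ≤ n) (n₂ : ℕ) (e : Fin n ≃ Fin 2 × Fin n₂) (P : Matrix.GeneralLinearGroup (Fin n) F) (f₁ : (Fin 2 → F) → (Fin 2 → F) → F) (f₂ : (Fin n₂ → F) → (Fin n₂ → F) → F) (hf₁ : Cfsg.Geo.IsUnitaryFormPow 2 f₁) (hf₂ : Cfsg.Geo.IsUnitaryFormPow 2 f₂) (hT : Cfsg.Geo.IsTensorFormStructure (fun x : F => x ^ 2) (Cfsg.hermForm n F 2) f₁ f₂ e P) : ∃ K : Subgroup (Matrix.GeneralLinearGroup (Fin n) F), Cfsg.Geo.tensorProductSubgroup 2 n₂ e P ⊓ (Cfsg.GU n F 2 ⊓ Cfsg.Geo.specialLinear (Fin n) F) < K ∧ K < (Cfsg.GU n F 2 ⊓ Cfsg.Geo.specialLinear (Fin n) F) := by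
  have hF' : Fintype.card F = 2 ^ 2 := by rw [hF]; norm_num
  have hf := herm_isUnitary hF' n
  obtain ⟨σ, hσ⟩ : ∃ σ, σ = frobEquiv hF' := ⟨_, rfl⟩
  obtain ⟨f, hfdef⟩ : ∃ f, f = hermForm n F 2 := ⟨_, rfl⟩
  rw [← hσ, ← hfdef] at hf
  have hGU : GU n F 2 = uIso f := by rw [hfdef]; rfl
  rw [← hfdef] at hT
  rw [hGU]
  have hσa : ∀ a : F, σ a = a ^ 2 := by
    intro a; rw [hσ]; rfl
  have hchar : ringChar F = 2 := by
    rw [FiniteField.even_card_iff_char_two, hF]
  have : CharP F 2 := by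
    rw [← hchar]; exact ringChar.charP F
  have h2 : (2 : F) = 0 := CharP.cast_eq_zero F 2
  have hadd : ∀ a : F, a + a = 0 := by
    intro a
    linear_combination a * h2
  have h01 : ∀ a : F, σ a = a → a = 0 ∨ a = 1 := by
    intro a ha
    rw [hσa] at ha
    have : a * (a - 1) = 0 := by linear_combination ha
    rcases mul_eq_zero.mp this with h | h
    · exact Or.inl h
    · exact Or.inr (by linear_combination h)
  have hcube : ∀ a : F, a ≠ 0 → a * σ a = 1 := by
    intro a ha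
    have := FiniteField.pow_card_sub_one_eq_one a ha
    rw [hF] at this
    rw [hσa]
    linear_combination this
  have hone : σ 1 = -1 := by
    rw [map_one]
    linear_combination hadd 1
  have hn2 : n = 2 * n₂ := by
    have := Fintype.card_congr e
    simpa using this
  have hu₁ : Cfsg.Geo.IsUnitaryForm σ f₁ :=
    ⟨hf.ne_refl, hf.involutive, hf₁.add_left, hf₁.smul_left,
      fun v w => by rw [hσa]; exact hf₁.herm v w, hf₁.nondegenerate⟩
  have hu₂ : Cfsg.Geo.IsUnitaryForm σ f₂ :=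
    ⟨hf.ne_refl, hf.involutive, hf₂.add_left, hf₂.smul_left,
      fun v w => by rw [hσa]; exact hf₂.herm v w, hf₂.nondegenerate⟩
  obtain ⟨c, hc, hB⟩ := tz_form (σ := fun x : F => x ^ 2) (fun a b => mul_pow a b 2)
    (form_eq_gram _ f₁ hf₁.add_left hf₁.smul_left (uf_add_right hu₁)
      (fun c v x => by rw [uf_smul_right hu₁, hσa]))
    (form_eq_gram _ f₂ hf₂.add_left hf₂.smul_left (uf_add_right hu₂)
      (fun c v x => by rw [uf_smul_right hu₂, hσa])) hT
  obtain ⟨u₁, -, u₂, -, h11, h22, h12, h21, hsp⟩ := Cfsg.Agent.S5656.frame hu₁ h01 ⊤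
    (by simp) (by
      intro w _ hw
      constructor
      · by_contra hcon
        push Not at hcon
        exact hw (uf_nondeg_right hu₁ (fun x => hcon x trivial))
      · by_contra hcon
        push Not at hcon
        exact hw (uf_nondeg_left hu₁ (fun x => hcon x trivial)))
  have hclass : ∀ α β : F, f₁ (α • u₁ + β • u₂) (α • u₁ + β • u₂) ≠ 0 →
      (α ≠ 0 ∧ β = 0) ∨ (α = 0 ∧ β ≠ 0) := by
    intro α β hne
    have e : f₁ (α • u₁ + β • u₂) (α • u₁ + β • u₂) = α * σ α + β * σ β := by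
      simp only [hu₁.add_left, uf_add_right hu₁, hu₁.smul_left, uf_smul_right hu₁, h11, h22,
        h12, h21]
      ring
    rw [e] at hne
    by_cases hα : α = 0
    · by_cases hβ : β = 0
      · exfalso; apply hne; rw [hα, hβ]; simp
      · exact Or.inr ⟨hα, hβ⟩
    · by_cases hβ : β = 0
      · exact Or.inl ⟨hα, hβ⟩
      · exfalso; apply hne; rw [hcube α hα, hcube β hβ]; exact hadd 1
  -- an isotropic vector of the second factor
  obtain ⟨w₀, w, h00, hw0⟩ : ∃ w₀ w : Fin n₂ → F, f₂ w₀ w₀ = 0 ∧ f₂ w w₀ = 1 := by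
    have hb : (Pi.single (⟨0, by omega⟩ : Fin n₂) (1 : F) : Fin n₂ → F) ≠ 0 := by
      intro h
      have := congrFun h ⟨0, by omega⟩
      simp at this
    obtain ⟨w₀, h1, h2⟩ := uf_iso0 hu₂ (by simp; omega) _ hb
    have h3 := uf_ne_zero_symm hu₂ h2
    exact ⟨w₀, (f₂ (Pi.single (⟨0, by omega⟩ : Fin n₂) (1 : F)) w₀)⁻¹ • _, h1, by
      rw [hu₂.smul_left, inv_mul_cancel₀ h3]⟩
  have hw₀ne : w₀ ≠ 0 := by
    rintro rfl
    rw [uf_zero_right hu₂] at hw0
    exact zero_ne_one hw0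
  -- components
  have comp : ∀ (r₁ r₂ : Fin n₂ → F) (u : Fin 2 → F) (r : Fin n₂ → F),
      tz e P u₁ r₁ + tz e P u₂ r₂ = tz e P u r → r₁ = f₁ u u₁ • r ∧ r₂ = f₁ u u₂ • r := by
    intro r₁ r₂ u r h
    constructor
    · have : r₁ - f₁ u u₁ • r = 0 := by
        apply uf_nondeg_left hu₂
        intro w'
        have h1 := congrArg (fun z => f z (tz e P u₁ w')) h
        simp only [hf.add_left, hB, h11, h21] at h1
        rw [uf_sub_left hu₂, hu₂.smul_left]
        have : c * (f₂ r₁ w' - f₁ u u₁ * f₂ r w') = 0 := by linear_combination h1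
        exact (mul_eq_zero.mp this).resolve_left hc
      exact sub_eq_zero.mp this
    · have : r₂ - f₁ u u₂ • r = 0 := by
        apply uf_nondeg_left hu₂
        intro w'
        have h1 := congrArg (fun z => f z (tz e P u₂ w')) h
        simp only [hf.add_left, hB, h22, h12] at h1
        rw [uf_sub_left hu₂, hu₂.smul_left]
        have : c * (f₂ r₂ w' - f₁ u u₂ * f₂ r w') = 0 := by linear_combination h1
        exact (mul_eq_zero.mp this).resolve_left hc
      exact sub_eq_zero.mp this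
  obtain ⟨S, hS⟩ : ∃ S : Set (Fin n → F), S = {v | ∃ u r, f₁ u u ≠ 0 ∧ v = tz e P u r} :=
    ⟨_, rfl⟩
  let K : Subgroup (Matrix.GeneralLinearGroup (Fin n) F) :=
    { carrier := {g | g ∈ uIso f ⊓ Cfsg.Geo.specialLinear (Fin n) F ∧
        ∀ v, v ∈ S ↔ (g : Matrix (Fin n) (Fin n) F) *ᵥ v ∈ S}
      mul_mem' := by
        rintro a b ⟨ha, ha'⟩ ⟨hb, hb'⟩
        refine ⟨Subgroup.mul_mem _ ha hb, fun v => ?_⟩
        rw [Units.val_mul, ← Matrix.mulVec_mulVec, ← ha', ← hb']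
      one_mem' := ⟨Subgroup.one_mem _, fun v => by simp⟩
      inv_mem' := by
        rintro a ⟨ha, ha'⟩
        refine ⟨Subgroup.inv_mem _ ha, fun v => ?_⟩
        rw [ha' (((a⁻¹ : Matrix.GeneralLinearGroup (Fin n) F) :
          Matrix (Fin n) (Fin n) F) *ᵥ v), gl_mulVec_inv] }
  have hKmem : ∀ g, g ∈ K ↔ (g ∈ uIso f ⊓ Cfsg.Geo.specialLinear (Fin n) F ∧
        ∀ v, v ∈ S ↔ (g : Matrix (Fin n) (Fin n) F) *ᵥ v ∈ S) := fun g => Iff.rfl
  have tvmem : ∀ (w : Fin n → F) (hw : f w w = 0),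
      glT w ((1 : F) • uPhi f w) (uS_aux hf w hw 1) ∈
        uIso f ⊓ Cfsg.Geo.specialLinear (Fin n) F := by
    intro w hw
    exact Subgroup.mem_inf.mpr ⟨fun x y => uS_isom hf w hw 1 hone x y, glT_mem_SL _ _ _⟩
  have tvinv : ∀ (z : Fin n → F) (hz : f z z = 0) (v : Fin n → F),
      (glT z ((1 : F) • uPhi f z) (uS_aux hf _ hz 1) : Matrix (Fin n) (Fin n) F) *ᵥ
        ((glT z ((1 : F) • uPhi f z) (uS_aux hf _ hz 1) : Matrix (Fin n) (Fin n) F) *ᵥ v) = v := by
    intro z hz v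
    rw [uS_mulVec hf _ hz, uS_mulVec hf _ hz, hf.add_left, hf.smul_left, hz]
    have : v + (1 * f v z) • z + (1 * (f v z + 1 * f v z * 0)) • z =
        v + (f v z + f v z) • z := by module
    rw [this, hadd, zero_smul, add_zero]
  have hz : f (tz e P u₁ w₀) (tz e P u₁ w₀) = 0 := by rw [hB, h00]; ring
  have hz' : f (tz e P (u₁ + u₂) w₀) (tz e P (u₁ + u₂) w₀) = 0 := by rw [hB, h00]; ring
  refine ⟨K, ?_, ?_⟩
  · refine lt_of_le_of_ne ?_ ?_
    · have fwd : ∀ g ∈ Cfsg.Geo.tensorProductSubgroup 2 n₂ e P ⊓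
          (uIso f ⊓ Cfsg.Geo.specialLinear (Fin n) F), ∀ v ∈ S,
          (g : Matrix (Fin n) (Fin n) F) *ᵥ v ∈ S := by
        intro g hg v hv
        obtain ⟨hgT, hgG⟩ := Subgroup.mem_inf.mp hg
        have hiso := (mem_uIso_iff g).mp (Subgroup.mem_inf.mp hgG).1
        obtain ⟨a, b, hab⟩ := tz_act hgT
        rw [hS] at hv ⊢
        obtain ⟨u, r, hu, rfl⟩ := hv
        refine ⟨_, _, ?_, hab u r⟩
        intro h0
        have h1 := hiso (tz e P u w) (tz e P u w₀)
        rw [hab, hab, hB, hB, h0, hw0] at h1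
        have : c * f₁ u u = 0 := by linear_combination -h1
        rcases mul_eq_zero.mp this with h | h
        · exact hc h
        · exact hu h
      intro g hg
      refine (hKmem g).mpr ⟨(Subgroup.mem_inf.mp hg).2, fun v => ⟨fwd g hg v, fun hv => ?_⟩⟩
      have := fwd g⁻¹ (Subgroup.inv_mem _ hg) _ hv
      rwa [gl_inv_mulVec] at this
    · intro heq
      have hg0 : glT (tz e P u₁ w₀) ((1 : F) • uPhi f (tz e P u₁ w₀)) (uS_aux hf _ hz 1) ∈ K := by
        have hfwd : ∀ v, v ∈ S → (glT (tz e P u₁ w₀) ((1 : F) • uPhi f (tz e P u₁ w₀))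
            (uS_aux hf _ hz 1) : Matrix (Fin n) (Fin n) F) *ᵥ v ∈ S := by
          intro v hv
          rw [hS] at hv ⊢
          obtain ⟨u, r, hu, rfl⟩ := hv
          rw [uS_mulVec hf _ hz, one_mul]
          obtain ⟨α, β, rfl⟩ := hsp u trivial
          rcases hclass α β hu with ⟨hα, rfl⟩ | ⟨rfl, hβ⟩
          · refine ⟨u₁, α • r + (f (tz e P (α • u₁ + (0 : F) • u₂) r) (tz e P u₁ w₀)) • w₀,
              by rw [h11]; exact one_ne_zero, ?_⟩
            rw [tz_add_right, tz_smul_right, tz_smul_right, zero_smul, add_zero, tz_smul_left]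
          · refine ⟨_, r, hu, ?_⟩
            rw [hB, hu₁.add_left, hu₁.smul_left, hu₁.smul_left, h21]
            simp
        exact (hKmem _).mpr ⟨tvmem _ hz, fun v => ⟨hfwd v, fun hv => by
          have h1 := hfwd _ hv
          rwa [tvinv _ hz] at h1⟩⟩
      rw [← heq] at hg0
      obtain ⟨a, b, hab⟩ := tz_act (Subgroup.mem_inf.mp hg0).1
      have h1 := hab (u₁ + u₂) w
      rw [uS_mulVec hf _ hz, hB, hu₁.add_left, h11, h21, hw0] at h1
      have h2 : tz e P (u₁ + u₂) w + (1 * (c * ((1 + 0) * 1))) • tz e P u₁ w₀ =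
          tz e P u₁ (w + c • w₀) + tz e P u₂ w := by
        rw [tz_add_left, tz_add_right, tz_smul_right]
        module
      rw [h2] at h1
      obtain ⟨c1, c2⟩ := comp _ _ _ _ h1
      obtain ⟨l₁, hl₁⟩ : ∃ l₁, l₁ = f₁ ((a : Matrix (Fin 2) (Fin 2) F) *ᵥ (u₁ + u₂)) u₁ :=
        ⟨_, rfl⟩
      obtain ⟨l₂, hl₂⟩ : ∃ l₂, l₂ = f₁ ((a : Matrix (Fin 2) (Fin 2) F) *ᵥ (u₁ + u₂)) u₂ :=
        ⟨_, rfl⟩
      obtain ⟨r', hr'⟩ : ∃ r', r' = (b : Matrix (Fin n₂) (Fin n₂) F) *ᵥ w := ⟨_, rfl⟩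
      rw [← hl₁, ← hr'] at c1
      rw [← hl₂, ← hr'] at c2
      have d2 : l₂ * f₂ r' w₀ = 1 := by
        rw [← hu₂.smul_left, ← c2, hw0]
      have d1 : l₁ * f₂ r' w₀ = 1 := by
        rw [← hu₂.smul_left, ← c1, hu₂.add_left, hu₂.smul_left, hw0, h00]; ring
      have hr0 : f₂ r' w₀ ≠ 0 := by
        intro h; rw [h, mul_zero] at d2; exact zero_ne_one d2
      have hl : l₁ = l₂ := mul_right_cancel₀ hr0 (d1.trans d2.symm)
      have : c • w₀ = 0 := by
        have : w + c • w₀ = w := by rw [c1, hl, ← c2]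
        simpa using this
      rcases smul_eq_zero.mp this with h | h
      · exact hc h
      · exact hw₀ne h
  · refine lt_of_le_of_ne (fun g hg => ((hKmem g).mp hg).1) ?_
    intro heq
    have hg1 := tvmem _ hz'
    rw [← heq] at hg1
    have h1 := (((hKmem _).mp hg1).2 (tz e P u₁ w)).mp (by
      rw [hS]; exact ⟨u₁, w, by rw [h11]; exact one_ne_zero, rfl⟩)
    rw [uS_mulVec hf _ hz', hB, uf_add_right hu₁, h11, h12, hw0] at h1
    have h2 : tz e P u₁ w + (1 * (c * ((1 + 0) * 1))) • tz e P (u₁ + u₂) w₀ =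
        tz e P u₁ (w + c • w₀) + tz e P u₂ (c • w₀) := by
      rw [tz_add_left, tz_add_right, tz_smul_right, tz_smul_right]
      module
    rw [h2, hS] at h1
    obtain ⟨u, r, hu, h3⟩ := h1
    obtain ⟨c1, c2⟩ := comp _ _ _ _ h3
    obtain ⟨α, β, rfl⟩ := hsp u trivial
    rcases hclass α β hu with ⟨hα, rfl⟩ | ⟨rfl, hβ⟩
    · rw [hu₁.add_left, hu₁.smul_left, hu₁.smul_left, h12] at c2
      have : c • w₀ = 0 := by rw [c2]; simp
      rcases smul_eq_zero.mp this with h | h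
      · exact hc h
      · exact hw₀ne h
    · rw [hu₁.add_left, hu₁.smul_left, hu₁.smul_left, h21] at c1
      have h4 : w + c • w₀ = 0 := by rw [c1]; simp
      have h5 := congrArg (fun z => f₂ z w₀) h4
      simp only [hu₂.add_left, hu₂.smul_left, hw0, h00, uf_zero_left hu₂] at h5
      exact one_ne_zero (α := F) (by linear_combination h5)

end Cfsg.Agent.S5671
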