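import Cfsg.Statements.S5674
import Cfsg.Agent.Lib.Helper16.Orth34

set_option autoImplicit false

open Cfsg

namespace Cfsg.Agent.S5674

open Cfsg.Agent.Lib.Helper16 Cfsg.Agent.Lib.Helper6

theorem result {F : Type*} [Field F] [Fintype F] (hodd : Odd (Fintype.card F)) (m : ℕ) (hm : 6 ≤ m) (W : Submodule F (Unit ⊕ (Fin m ⊕ Fin m) → F)) (hW0 : W ≠ ⊥) (hW : Cfsg.Geo.IsTotallySingularQuad (Cfsg.quadFormOdd m F) W) : Cfsg.Geo.IsMaximalIn (Cfsg.Geo.omegaGL (Cfsg.quadFormOdd m F)) (Cfsg.Geo.subspaceStabilizer W ⊓ Cfsg.Geo.omegaGL (Cfsg.quadFormOdd m F)) := by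
  have h2 : (2 : F) ≠ 0 := two_ne_zero_of_odd_card hodd
  rw [← qOdd_coe] at hW ⊢
  exact ts_isMaximalIn (qOdd m F) (qOdd_nondeg h2) (by simp; omega) W hW0 hW (by
    intro U _ _
    simp
    omega)

end Cfsg.Agent.S5674
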