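import Cfsg.Statements.S5675
import Cfsg.Agent.Lib.Helper16.Orth40

set_option autoImplicit false

open Cfsg

namespace Cfsg.Agent.S5675

open Cfsg.Agent.Lib.Helper16 Cfsg.Agent.Lib.Helper6

theorem result {F : Type*} [Field F] [Fintype F] (hodd : Odd (Fintype.card F)) (m : ℕ) (hm : 6 ≤ m) (W : Submodule F (Unit ⊕ (Fin m ⊕ Fin m) → F)) (hW0 : W ≠ ⊥) (hev : Even (Module.finrank F W)) (hW : Cfsg.Geo.IsNondegenerateOn (QuadraticMap.polar (Cfsg.quadFormOdd m F)) W) (hex : ¬ (Fintype.card F = 3 ∧ Module.finrank F W = 2 ∧ Cfsg.Geo.IsPlusTypeOn (Cfsg.quadFormOdd m F) W)) : Cfsg.Geo.IsMaximalIn (Cfsg.Geo.omegaGL (Cfsg.quadFormOdd m F)) (Cfsg.Geo.subspaceStabilizer W ⊓ Cfsg.Geo.omegaGL (Cfsg.quadFormOdd m F)) := by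
  have h2 : (2 : F) ≠ 0 := two_ne_zero_of_odd_card hodd
  have hcard : Fintype.card (Unit ⊕ (Fin m ⊕ Fin m)) = 2 * m + 1 := by simp; ring
  rw [← qOdd_coe] at hW hex ⊢
  have hW1 : W ≠ ⊤ := by
    rintro rfl
    rw [finrank_top, Module.finrank_fintype_fun_eq_card, hcard] at hev
    rcases hev with ⟨k, hk⟩
    omega
  refine nondeg_isMaximalIn (qOdd m F) (qOdd_nondeg h2) (by rw [hcard]; omega) W hW0 hW1 hW ?_ ?_
  · intro U hU hU2 hnd hpl
    rcases hU with h | ⟨h, h'⟩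
    · subst h
      by_contra hc
      apply hex
      refine ⟨?_, hU2, hpl⟩
      have h1 : 1 < Fintype.card F := Fintype.one_lt_card
      rcases hodd with ⟨k, hk⟩
      omega
    · rw [hcard, hU2] at h'
      rcases hev with ⟨k, hk⟩
      omega
  · intro h
    rw [hcard] at h
    omega

end Cfsg.Agent.S5675
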