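import Cfsg.Statements.S5685
import Cfsg.Agent.Lib.Helper16.Orth34

set_option autoImplicit false

open Cfsg

namespace Cfsg.Agent.S5685

open Cfsg.Agent.Lib.Helper16 Cfsg.Agent.Lib.Helper6

theorem result {F : Type*} [Field F] [Fintype F] {n : ℕ} (hn : 13 ≤ n) (heven : Even n) (Q : (Fin n → F) → F) (hQ : Cfsg.Geo.IsNondegenerateQuadraticForm Q) (hplus : Cfsg.Geo.IsPlusTypeOn Q ⊤) (W : Submodule F (Fin n → F)) (hW0 : W ≠ ⊥) (hW : Cfsg.Geo.IsTotallySingularQuad Q W) (hdim : 2 * (Module.finrank F W + 1) ≠ n) : Cfsg.Geo.IsMaximalIn (Cfsg.Geo.omegaGL Q) (Cfsg.Geo.subspaceStabilizer W ⊓ Cfsg.Geo.omegaGL Q) := by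
  have h := ts_isMaximalIn (toQF hQ) (toQF_nondeg hQ) (by simp; omega) W hW0 hW (by
    intro U _ hU2
    rw [hU2, Fintype.card_fin]
    exact hdim)
  exact h

end Cfsg.Agent.S5685
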