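import Cfsg.Statements.S5687
import Cfsg.Agent.Lib.Helper16.Orth34

set_option autoImplicit false

open Cfsg

namespace Cfsg.Agent.S5687

open Cfsg.Agent.Lib.Helper16 Cfsg.Agent.Lib.Helper6

theorem result {F : Type*} [Field F] [Fintype F] {n : ℕ} (hn : 13 ≤ n) (heven : Even n) (Q : (Fin n → F) → F) (hQ : Cfsg.Geo.IsNondegenerateQuadraticForm Q) (hminus : ¬ Cfsg.Geo.IsPlusTypeOn Q ⊤) (W : Submodule F (Fin n → F)) (hW0 : W ≠ ⊥) (hW : Cfsg.Geo.IsTotallySingularQuad Q W) : Cfsg.Geo.IsMaximalIn (Cfsg.Geo.omegaGL Q) (Cfsg.Geo.subspaceStabilizer W ⊓ Cfsg.Geo.omegaGL Q) := by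
  have h := ts_isMaximalIn (toQF hQ) (toQF_nondeg hQ) (by simp; omega) W hW0 hW (by
    intro U hU1 _ hU3
    apply hminus
    refine ⟨U, le_top, hU1, ?_⟩
    rw [hU3, finrank_top, Module.finrank_fintype_fun_eq_card])
  exact h

end Cfsg.Agent.S5687
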