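import Cfsg.Statements.S5688
import Cfsg.Agent.Lib.Helper16.Orth40

set_option autoImplicit false

open Cfsg

namespace Cfsg.Agent.S5688

open Cfsg.Agent.Lib.Helper16 Cfsg.Agent.Lib.Helper6

theorem result {F : Type*} [Field F] [Fintype F] {n : ℕ} (hn : 13 ≤ n) (heven : Even n) (Q : (Fin n → F) → F) (hQ : Cfsg.Geo.IsNondegenerateQuadraticForm Q) (hplus : Cfsg.Geo.IsPlusTypeOn Q ⊤) (W : Submodule F (Fin n → F)) (hW0 : W ≠ ⊥) (hW1 : W ≠ ⊤) (hdim : 2 * Module.finrank F W ≠ n) (hW : Cfsg.Geo.IsNondegenerateOn (QuadraticMap.polar Q) W) (hex : ¬ (Fintype.card F ≤ 3 ∧ (∃ U : Submodule F (Fin n → F), Module.finrank F U = 2 ∧ Cfsg.Geo.IsNondegenerateOn (QuadraticMap.polar Q) U ∧ Cfsg.Geo.IsPlusTypeOn Q U ∧ (U = W ∨ (Cfsg.Geo.AreOrthogonalFor (QuadraticMap.polar Q) U W ∧ Module.finrank F U + Module.finrank F W = n))))) : Cfsg.Geo.IsMaximalIn (Cfsg.Geo.omegaGL Q) (Cfsg.Geo.subspaceStabilizer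 W ⊓ Cfsg.Geo.omegaGL Q) := by
  refine nondeg_isMaximalIn (toQF hQ) (toQF_nondeg hQ) (by simp; omega) W hW0 hW1 hW ?_ ?_
  · intro U hU h2 hnd hpl
    by_contra hc
    apply hex
    refine ⟨by omega, U, h2, hnd, hpl, ?_⟩
    rcases hU with h | ⟨h, h'⟩
    · exact Or.inl h
    · exact Or.inr ⟨h, by rw [h']; simp⟩
  · intro h
    rw [Fintype.card_fin] at h
    exact absurd h hdim

end Cfsg.Agent.S5688
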