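import Cfsg.Statements.S5689
import Cfsg.Agent.Lib.Helper16.Orth45

set_option autoImplicit false

open Cfsg

namespace Cfsg.Agent.S5689

open Cfsg.Agent.Lib.Helper16 Cfsg.Agent.Lib.Helper6

theorem result {F : Type*} [Field F] [Fintype F] {n : ℕ} (hn : 13 ≤ n) (heven : Even n) (Q : (Fin n → F) → F) (hQ : Cfsg.Geo.IsNondegenerateQuadraticForm Q) (hminus : ¬ Cfsg.Geo.IsPlusTypeOn Q ⊤) (W : Submodule F (Fin n → F)) (hW0 : W ≠ ⊥) (hW1 : W ≠ ⊤) (hdim : ¬ (2 * Module.finrank F W = n ∧ Odd (Module.finrank F W))) (hW : Cfsg.Geo.IsNondegenerateOn (QuadraticMap.polar Q) W) (hex : ¬ (Fintype.card F ≤ 3 ∧ (∃ U : Submodule F (Fin n → F), Module.finrank F U = 2 ∧ Cfsg.Geo.IsNondegenerateOn (QuadraticMap.polar Q) U ∧ Cfsg.Geo.IsPlusTypeOn Q U ∧ (U = W ∨ (Cfsg.Geo.AreOrthogonalFor (QuadraticMap.polar Q) U W ∧ Module.finrank F U + Module.finrank F W = n))))) : Cfsg.Geo.IsMaximalIn (Cfsg.Geo.omegaGL Q) (Cfsg.Geo.subspaceStabilizer W ⊓ Cfsg.Geo.omegaGL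 Q) := by
  refine nondeg_isMaximalIn (toQF hQ) (toQF_nondeg hQ) (by simp; omega) W hW0 hW1 hW ?_ ?_
  · intro U hU h2 hnd hpl
    by_contra hc
    apply hex
    refine ⟨by omega, U, h2, hnd, hpl, ?_⟩
    rcases hU with h | ⟨h, h'⟩
    · exact Or.inl h
    · exact Or.inr ⟨h, by rw [h']; simp⟩
  · intro h
    rw [Fintype.card_fin] at h
    rintro ⟨g, hg⟩
    apply hminus
    have hnd : ∀ w ∈ W, (∀ y ∈ W, QuadraticMap.polarBilin (toQF hQ) w y = 0) → w = 0 := by
      intro w hw h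
      by_contra hw0
      obtain ⟨-, x, hx, hwx⟩ := hW w hw hw0
      exact hwx (h x hx)
    have S := OSplit.of_nondeg (toQF_nondeg hQ) W hnd
    have hadd := S.finrank_add (toQF_nondeg hQ)
    rw [Module.finrank_fintype_fun_eq_card, Fintype.card_fin] at hadd
    have hev : Even (Module.finrank F W) := by
      rw [← Nat.not_odd_iff_even]
      exact fun ho => hdim ⟨h, ho⟩
    exact plus_of_swap (toQF hQ) (toQF_nondeg hQ) S (by omega)
      (by rw [show Module.finrank F _ = Module.finrank F W by omega]; exact hev) g hg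

end Cfsg.Agent.S5689
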