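import Cfsg.Statements.S5691
import Cfsg.Agent.Lib.Helper16.Orth35

set_option autoImplicit false

open Cfsg

namespace Cfsg.Agent.S5691

open Cfsg.Agent.Lib.Helper16 Cfsg.Agent.Lib.Helper6

theorem result {F : Type*} [Field F] [Fintype F] {n : ℕ} (hn : 13 ≤ n) (heven : Even n) (Q : (Fin n → F) → F) (hQ : Cfsg.Geo.IsNondegenerateQuadraticForm Q) (hchar : ¬ Odd (Fintype.card F)) (v : (Fin n → F)) (hv : Q v ≠ 0) : Cfsg.Geo.IsMaximalIn (Cfsg.Geo.omegaGL Q) (Cfsg.Geo.subspaceStabilizer (Submodule.span F {v}) ⊓ Cfsg.Geo.omegaGL Q) := by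
  have hfr : Module.finrank F (Fin n → F) = n := Module.finrank_fin_fun F
  have hv' : toQF hQ v ≠ 0 := hv
  exact isMaximalIn_omegaGL (toQF hQ) _ (stabO (toQF hQ) (Submodule.span F {v}))
    (toGL_mem_subspaceStabilizer (toQF hQ) _)
    (ns_point_ne (toQF_nondeg hQ) (by omega) v hv')
    (fun M hM _ h hhM hh => ns_point_max (toQF_nondeg hQ) (by omega) v hv' M hM h hhM hh)

end Cfsg.Agent.S5691
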