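import Cfsg.Statements.S5697
import Cfsg.Agent.Lib.Helper6.OSwap

set_option autoImplicit false
open Cfsg

namespace Cfsg.Agent.S5697

open Cfsg.Agent.Lib.Helper6 Matrix QuadraticMap

/-- Let F be a finite field with q elements, n ≥ 13 even, Q a non-degenerate quadratic form on F^n of plus type (some subspace of dimension n/2 is totally singular), and Ω the commutator subgroup of the isometry group of Q, viewed inside GL_n(F). Suppose n/2 is even and let D be a decomposition of F^n into two complementary subspaces of dimension n/2 on each of which Q vanishes. Then the elements of Ω preserving or interchanging the two subspaces form a maximal subgroup of Ω. -/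
theorem result {F : Type*} [Field F] [Fintype F] {n : ℕ} (hn : 13 ≤ n) (heven : Even n) (Q : (Fin n → F) → F) (hQ : Cfsg.Geo.IsNondegenerateQuadraticForm Q) (hplus : Cfsg.Geo.IsPlusTypeOn Q ⊤) (k : ℕ) (hk : 2 * k = n) (hke : Even k) (D : Fin 2 → Submodule F (Fin n → F)) (hD : Cfsg.Geo.IsMDecomposition k D) (hts : ∀ i, Cfsg.Geo.IsTotallySingularQuad Q (D i)) : Cfsg.Geo.IsMaximalIn (Cfsg.Geo.omegaGL Q) (Cfsg.Geo.decompositionStabilizer D ⊓ Cfsg.Geo.omegaGL Q) := by
  have hA : ∀ a ∈ D 0, Q a = 0 := hts 0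
  have hB : ∀ b ∈ D 1, Q b = 0 := hts 1
  have hf0 : Module.finrank F (D 0) = k := hD.finrank_eq 0
  have hf1 : Module.finrank F (D 1) = k := hD.finrank_eq 1
  have hkA : 4 < Module.finrank F (D 0) := by rw [hf0]; omega
  have hkB : 4 < Module.finrank F (D 1) := by rw [hf1]; omega
  have hcard : 5 ≤ Fintype.card (Fin n) := by rw [Fintype.card_fin]; omega
  have hdec : ∀ v, ∃ v₀ ∈ D 0, ∃ v₁ ∈ D 1, v = v₀ + v₁ := by
    intro x
    have hx : x ∈ iSup D := by rw [hD.iSup_eq_top]; trivial
    induction hx using Submodule.iSup_induction' with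
    | mem i y hy =>
      fin_cases i
      · exact ⟨y, hy, 0, (D 1).zero_mem, by simp⟩
      · exact ⟨0, (D 0).zero_mem, y, hy, by simp⟩
    | zero => exact ⟨0, (D 0).zero_mem, 0, (D 1).zero_mem, by simp⟩
    | add y z _ _ h1 h2 =>
      obtain ⟨a, ha, b, hb, rfl⟩ := h1
      obtain ⟨a', ha', b', hb', rfl⟩ := h2
      exact ⟨a + a', (D 0).add_mem ha ha', b + b', (D 1).add_mem hb hb', by abel⟩
  have stab_id : ∀ g : Matrix.GeneralLinearGroup (Fin n) F,
      (∀ x ∈ D 0, (g : Matrix (Fin n) (Fin n) F) *ᵥ x ∈ D 0) →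
      (∀ x ∈ D 1, (g : Matrix (Fin n) (Fin n) F) *ᵥ x ∈ D 1) →
      g ∈ Cfsg.Geo.decompositionStabilizer D := by
    intro g h0 h1
    apply Cfsg.Agent.S5657.mem_stab_of_le hD g 1
    intro i
    fin_cases i
    · exact h0
    · exact h1
  have stab_sw : ∀ g : Matrix.GeneralLinearGroup (Fin n) F,
      (∀ x ∈ D 0, (g : Matrix (Fin n) (Fin n) F) *ᵥ x ∈ D 1) →
      (∀ x ∈ D 1, (g : Matrix (Fin n) (Fin n) F) *ᵥ x ∈ D 0) →
      g ∈ Cfsg.Geo.decompositionStabilizer D := by
    intro g h0 h1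
    apply Cfsg.Agent.S5657.mem_stab_of_le hD g (Equiv.swap 0 1)
    intro i
    fin_cases i
    · simpa using h0
    · simpa using h1
  have hPel : ∀ a ∈ D 0, ∀ b ∈ D 1, polar Q b a = 0 →
      sg hQ a b ∈ Cfsg.Geo.decompositionStabilizer D ⊓ Cfsg.Geo.omegaGL Q := by
    intro a ha b hb hba
    refine Subgroup.mem_inf.mpr ⟨?_, sg_mem_omega hQ hcard a b⟩
    apply stab_id
    · intro x hx
      rw [sg_mulVec hQ (hA a ha) hba, ts_polar hA hx ha]
      simp only [mul_zero, sub_zero, neg_zero, zero_smul, add_zero]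
      exact (D 0).add_mem hx ((D 0).smul_mem _ ha)
    · intro x hx
      rw [sg_mulVec hQ (hA a ha) hba, ts_polar hB hx hb, hB b hb]
      simp only [zero_mul, sub_zero, zero_smul, add_zero]
      exact (D 1).add_mem hx ((D 1).smul_mem _ hb)
  apply isMaximalIn_of _ _ inf_le_right
  · obtain ⟨a, ha, -, haS⟩ := exists_mem_notMem (D 0) (j := 0) Fin.elim0 ⊥ (by
      rw [finrank_bot]; omega)
    have ha0 : a ≠ 0 := fun h => haS ((Submodule.mem_bot F).mpr h)
    obtain ⟨a', ha', -, ha'S⟩ := exists_mem_notMem (D 0) (j := 0) Fin.elim0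
      (Submodule.span F ({a, a} : Set (Fin n → F))) (by
        have := finrank_span_pair_le a a; omega)
    have hX : Submodule.span F ({a, a} : Set (Fin n → F)) ≤ D 0 := by
      rw [Submodule.span_le]
      rintro z (rfl | rfl)
      · exact ha
      · exact ha
    obtain ⟨b, hb, hbX, hba'⟩ := ts_sep hQ hA hB hdec _ hX ha' ha'S
    have hba : polar Q b a = 0 := hbX a (Submodule.subset_span (by simp))
    refine ⟨sg hQ a a', sg_mem_omega hQ hcard a a', fun hmem => ?_⟩
    obtain ⟨τ, hτ⟩ := (Subgroup.mem_inf.mp hmem).1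
    have hy : (sg hQ a a' : Matrix (Fin n) (Fin n) F) *ᵥ b ∈ D (τ 1) := by
      rw [← hτ 1]
      exact ⟨b, hb, by rw [Matrix.toLin'_apply]⟩
    rw [sg_mulVec hQ (hA a ha) (ts_polar hA ha' ha), hba] at hy
    simp only [mul_zero, sub_zero, neg_zero, zero_smul, add_zero] at hy
    have hcase : ∀ j : Fin 2, b + polar Q b a' • a ∈ D j → False := by
      intro j hj
      fin_cases j
      · have h1 : b ∈ D 0 := by
          have := (D 0).sub_mem hj ((D 0).smul_mem (polar Q b a') ha)
          simpa using this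
        have := ts_disj hQ hA hB hdec h1 hb
        rw [this, oq_zero_left hQ] at hba'
        exact hba' rfl
      · have h1 : polar Q b a' • a ∈ D 1 := by
          have := (D 1).sub_mem hj hb
          simpa using this
        have h3 : a ∈ D 1 := by
          have := (D 1).smul_mem (polar Q b a')⁻¹ h1
          rwa [smul_smul, inv_mul_cancel₀ hba', one_smul] at this
        exact ha0 (ts_disj hQ hA hB hdec ha h3)
    exact hcase _ hy
  · rintro M hPM hMK ⟨h, hhM, hhP⟩
    have hhΩ := hMK hhM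
    have hhi : ∀ x, Q ((h : Matrix (Fin n) (Fin n) F) *ᵥ x) = Q x := by
      obtain ⟨g, -, rfl⟩ := hhΩ
      exact (mem_isometryGroup_iff _).mp g.2
    have hns : h ∉ Cfsg.Geo.decompositionStabilizer D := fun hs => hhP ⟨hs, hhΩ⟩
    obtain ⟨s, hsΩ, hsA, hsB⟩ := exists_swap hQ hA hB hdec (by rw [hf0]; exact hke)
    have hsi : ∀ x, Q ((s : Matrix (Fin n) (Fin n) F) *ᵥ x) = Q x := by
      obtain ⟨g, -, hg⟩ := hsΩ
      rw [← hg]
      exact (mem_isometryGroup_iff _).mp g.2
    have hsM : s ∈ M := hPM (Subgroup.mem_inf.mpr ⟨stab_sw s hsA hsB, hsΩ⟩)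
    apply omegaGL_le_of_sg hQ hcard M
    exact tspair_all hA hB hdec (fun a ha b hb hba => hPM (hPel a ha b hb hba)) hkA hkB hsM hsi
      hsA hsB hhM hhi (fun hc => hns (stab_id h hc.1 hc.2)) (fun hc => hns (stab_sw h hc.1 hc.2))

end Cfsg.Agent.S5697
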