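import Cfsg.Statements.S5699
import Cfsg.Agent.Lib.Helper16.Orth41

set_option autoImplicit false

open Cfsg

namespace Cfsg.Agent.S5699

open Cfsg.Agent.Lib.Helper16 Cfsg.Agent.Lib.Helper6

theorem result {F : Type*} [Field F] [Fintype F] {n : ℕ} (hn : 13 ≤ n) (heven : Even n) (Q : (Fin n → F) → F) (hQ : Cfsg.Geo.IsNondegenerateQuadraticForm Q) (k : ℕ) (hk : 2 * k = n) (hko : Odd k) (D : Fin 2 → Submodule F (Fin n → F)) (hD : Cfsg.Geo.IsNondegenerateMDecomposition (QuadraticMap.polar Q) k D) (hni : ¬ Cfsg.Geo.AreIsometricFor Q (D 0) (D 1)) : Cfsg.Geo.IsMaximalIn (Cfsg.Geo.omegaGL Q) (Cfsg.Geo.decompositionStabilizer D ⊓ Cfsg.Geo.omegaGL Q) := by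
  have hfr : Module.finrank F (Fin n → F) = n := Module.finrank_fin_fun F
  have hQ' := toQF_nondeg hQ
  have S : OSplit (toQF hQ) (D 0) (D 1) :=
    ⟨fun a ha x hx => hD.orthogonal 0 1 (by decide) a ha x hx, by
      rw [← iSup_fin_two']; exact hD.decomp.iSup_eq_top⟩
  have hk0 := hD.decomp.finrank_eq 0
  have hk1 := hD.decomp.finrank_eq 1
  have hA0 : D 0 ≠ ⊥ := by
    intro hc
    rw [hc, finrank_bot] at hk0
    omega
  obtain ⟨h1, h2⟩ := nondeg_max_core hQ' S (by omega) (by omega) hA0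
    (fun h2 _ => by
      rcases hko with ⟨j, hj⟩
      omega)
    (fun _ ⟨g, hg⟩ => by
      apply hni
      apply isometric_symm (toQF hQ)
      apply isometric_of_map (toQF hQ) g
      apply Submodule.eq_of_le_of_finrank_eq
      · rintro _ ⟨x, hx, rfl⟩
        exact hg x hx
      · rw [LinearEquiv.finrank_map_eq g.1 (D 1)]; omega)
  refine isMaximalIn_omegaGL (toQF hQ) _ (stabO (toQF hQ) (D 0)) ?_ h1
    (fun M hM _ h hhM hh => h2 M hM h hhM hh)
  intro g
  rw [mem_decompStab_two]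
  constructor
  · rintro (⟨h0, -⟩ | ⟨h0, -⟩)
    · exact h0
    · exact absurd (isometric_of_map (toQF hQ) g h0) hni
  · intro hg
    have hg' : g ∈ stabO (toQF hQ) (D 1) := by rw [← S.stab_eq hQ']; exact hg
    exact Or.inl ⟨hg, hg'⟩

end Cfsg.Agent.S5699
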