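import Cfsg.Statements.S5700
import Cfsg.Agent.Lib.Helper6.KExtract
import Cfsg.Agent.Lib.Helper6.SubGen

set_option autoImplicit false
open Cfsg

namespace Cfsg.Agent.S5700

open Cfsg.Agent.Lib.Helper6 Matrix QuadraticMap

/-- Let F be a finite field with q elements, n ≥ 13 even, Q a non-degenerate quadratic form on F^n (of either type), and Ω the commutator subgroup of the isometry group of Q, viewed inside GL_n(F). Let K be a subfield of the algebra of n × n matrices over F containing the scalars, of degree 2 over F, closed under adjoints for the polar form of Q but not consisting of self-adjoint elements, and such that every k in K rescales Q (Q(k v) = c Q(v) for a constant c depending on k). Then the elements of Ω normalising K form a maximal subgroup of Ω. -/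
theorem result {F : Type*} [Field F] [Fintype F] {n : ℕ} (hn : 13 ≤ n) (heven : Even n) (Q : (Fin n → F) → F) (hQ : Cfsg.Geo.IsNondegenerateQuadraticForm Q) (K : Subalgebra F (Matrix (Fin n) (Fin n) F)) (hK : Cfsg.Geo.IsFieldSubalgebra 2 K) (hac : Cfsg.Geo.IsAdjointClosedFor (QuadraticMap.polar Q) K) (hnsa : ¬ Cfsg.Geo.IsSelfAdjointFor (QuadraticMap.polar Q) K) (hsc : ∀ k ∈ K, ∃ c : F, ∀ v : (Fin n → F), Q (Matrix.mulVec k v) = c * Q v) : Cfsg.Geo.IsMaximalIn (Cfsg.Geo.omegaGL Q) (Cfsg.Geo.subalgebraNormalizer K ⊓ Cfsg.Geo.omegaGL Q) := by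
  have hcn : Fintype.card (Fin n) = n := Fintype.card_fin n
  haveI : Nonempty (Fin n) := ⟨⟨0, by omega⟩⟩
  obtain ⟨J, t, N, D, hJK, hspan⟩ := exists_KData hQ K hK hac hnsa hsc
  have hn13 : 13 ≤ Fintype.card (Fin n) := by rw [hcn]; exact hn
  have hcommN : ∀ g : Matrix.GeneralLinearGroup (Fin n) F,
      (∀ z, (g : Matrix (Fin n) (Fin n) F) *ᵥ (J *ᵥ z) =
        J *ᵥ ((g : Matrix (Fin n) (Fin n) F) *ᵥ z)) → g ∈ Cfsg.Geo.subalgebraNormalizer K := by
    intro g hg
    have e : (g : Matrix (Fin n) (Fin n) F) * J = J * (g : Matrix (Fin n) (Fin n) F) := by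
      rw [Matrix.ext_iff_mulVec]
      intro z
      rw [← Matrix.mulVec_mulVec, ← Matrix.mulVec_mulVec]
      exact hg z
    apply mem_normalizer_of_conj hspan g
    · rw [e, Matrix.mul_assoc, Units.mul_inv, Matrix.mul_one]; exact hJK
    · rw [Matrix.mul_assoc, ← e, ← Matrix.mul_assoc, Units.inv_mul, Matrix.one_mul]; exact hJK
  obtain ⟨p₀, hp₀⟩ : ∃ p₀ : Fin n → F, p₀ ≠ 0 := ⟨Pi.single ⟨0, by omega⟩ 1, by simp⟩
  apply isMaximalIn_of _ _ inf_le_right
  · obtain ⟨w, hw, hwp⟩ := ex_sing0 hQ (by omega) p₀ hp₀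
    have hw0 : w ≠ 0 := by
      rintro rfl
      exact hwp (oq_zero_left hQ _)
    have hfr : Module.finrank F (KData.Ksp J w) ≤ 2 := finrank_span_pair_le w (J *ᵥ w)
    obtain ⟨u, hu, huK⟩ := ex_perp ![oPhi Q w, oPhi Q (J *ᵥ w)] (KData.Ksp J w) (by omega)
    have huw : polar Q u w = 0 := by rw [← oPhi_dot hQ]; exact hu 0
    have huJw : polar Q u (J *ᵥ w) = 0 := by rw [← oPhi_dot hQ]; exact hu 1
    have hJu : ∀ c₀ c₁ c₂ : F, c₀ • w + c₁ • J *ᵥ w + c₂ • u ≠ J *ᵥ u := by
      intro c₀ c₁ c₂ h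
      apply huK
      apply D.Kinv (x := -c₂) (y := 1)
      · rw [← h, KData.mem_Ksp]
        exact ⟨c₀, c₁, by module⟩
      · rintro ⟨-, h1⟩
        exact one_ne_zero h1
    obtain ⟨d, hdA, hdJu⟩ := oq_separate hQ (Submodule.span F (Set.range ![w, J *ᵥ w, u]))
      (J *ᵥ u) (by
        rw [Submodule.mem_span_range_iff_exists_fun]
        rintro ⟨c, hc⟩
        rw [Fin.sum_univ_three] at hc
        exact hJu _ _ _ hc)
    have hdw : polar Q d w = 0 := hdA _ (Submodule.subset_span ⟨0, rfl⟩)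
    have hdJw : polar Q d (J *ᵥ w) = 0 := hdA _ (Submodule.subset_span ⟨1, rfl⟩)
    have hdu : polar Q d u = 0 := hdA _ (Submodule.subset_span ⟨2, rfl⟩)
    refine ⟨sg hQ w u, sg_mem_omega hQ (by omega) w u, fun hmem => ?_⟩
    have hNm := (Subgroup.mem_inf.mp hmem).1
    have h1 : (sg hQ w u : Matrix (Fin n) (Fin n) F) * J *
        (((sg hQ w u)⁻¹ : Matrix.GeneralLinearGroup (Fin n) F) : Matrix (Fin n) (Fin n) F) ∈ K :=
      (hNm J).mp hJK
    obtain ⟨x, y, hxy⟩ := hspan _ h1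
    have h2 : (sg hQ w u : Matrix (Fin n) (Fin n) F) *ᵥ (J *ᵥ d) =
        x • ((sg hQ w u : Matrix (Fin n) (Fin n) F) *ᵥ d) +
          y • J *ᵥ ((sg hQ w u : Matrix (Fin n) (Fin n) F) *ᵥ d) := by
      have := congrArg (fun A => A *ᵥ ((sg hQ w u : Matrix (Fin n) (Fin n) F) *ᵥ d)) hxy
      simp only [← Matrix.mulVec_mulVec, gl_inv_mulVec, Matrix.add_mulVec, Matrix.smul_mulVec,
        Matrix.one_mulVec] at this
      exact this
    have e1 : polar Q (J *ᵥ d) w = 0 := by rw [D.adj, hdw, hdJw]; ring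
    have e2 : polar Q (J *ᵥ d) u = -polar Q d (J *ᵥ u) := by rw [D.adj, hdu]; ring
    rw [sg_mulVec hQ hw huw, sg_mulVec hQ hw huw, hdu, hdw, e1, e2] at h2
    simp only [mul_zero, sub_zero, neg_zero, zero_smul, add_zero] at h2
    -- h2 : J d + (-γ) • w = x • d + y • J d
    have h3 := congrArg (fun z => polar Q z u) h2
    simp only [hQ.polar_bilinear.add_left, hQ.polar_bilinear.smul_left, e2, hdu,
      oq_comm w u, huw] at h3
    have hy : y = 1 := by
      have : (y - 1) * polar Q d (J *ᵥ u) = 0 := by linear_combination h3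
      rcases mul_eq_zero.mp this with h | h
      · linear_combination h
      · exact absurd h hdJu
    have e3 : polar Q w (J *ᵥ u) = 0 := by
      rw [D.adj', oq_comm w u, huw, oq_comm _ u, huJw]; ring
    have h4 := congrArg (fun z => polar Q z (J *ᵥ u)) h2
    simp only [hQ.polar_bilinear.add_left, hQ.polar_bilinear.smul_left, e3, hy] at h4
    have hx : x = 0 := by
      have : x * polar Q d (J *ᵥ u) = 0 := by linear_combination -h4
      exact (mul_eq_zero.mp this).resolve_right hdJu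
    rw [hx, hy, zero_smul, zero_add, one_smul] at h2
    have h5 : (-polar Q d (J *ᵥ u)) • w = 0 := by
      have := add_left_cancel (h2.trans (add_zero _).symm)
      exact this
    exact hw0 ((smul_eq_zero.mp h5).resolve_left (neg_ne_zero.mpr hdJu))
  · rintro M hPM hMK ⟨h, hhM, hhP⟩
    have hP : ∀ g ∈ Cfsg.Geo.omegaGL Q, (∀ z, (g : Matrix (Fin n) (Fin n) F) *ᵥ (J *ᵥ z) =
        J *ᵥ ((g : Matrix (Fin n) (Fin n) F) *ᵥ z)) → g ∈ M :=
      fun g hg hc => hPM (Subgroup.mem_inf.mpr ⟨hcommN g hc, hg⟩)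
    apply D.main hQ hn13 hP
    by_contra hcon
    push Not at hcon
    have hhi : ∀ x, Q ((h : Matrix (Fin n) (Fin n) F) *ᵥ x) = Q x := by
      obtain ⟨g, -, rfl⟩ := hMK hhM
      exact (mem_isometryGroup_iff _).mp g.2
    obtain ⟨α, β, hαβ⟩ := D.stageA hQ hn13 hP hhM hhi (fun w hw0 hw u hu => hcon w u hw0 hw hu)
    apply hhP
    refine Subgroup.mem_inf.mpr ⟨?_, hMK hhM⟩
    have hβ : β ≠ 0 := by
      rintro rfl
      have h1 := hαβ p₀
      rw [zero_smul, add_zero] at h1
      have h2 : J *ᵥ ((h : Matrix (Fin n) (Fin n) F) *ᵥ p₀) =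
          α • ((h : Matrix (Fin n) (Fin n) F) *ᵥ p₀) := by
        have := congrArg (fun z => (h : Matrix (Fin n) (Fin n) F) *ᵥ z) h1
        simp only [gl_mulVec_inv, Matrix.mulVec_smul] at this
        exact this
      exact gl_mulVec_ne_zero h hp₀ (D.no_eigen h2)
    have e1 : ((h⁻¹ : Matrix.GeneralLinearGroup (Fin n) F) : Matrix (Fin n) (Fin n) F) * J *
        (h : Matrix (Fin n) (Fin n) F) = α • (1 : Matrix (Fin n) (Fin n) F) + β • J := by
      rw [Matrix.ext_iff_mulVec]
      intro z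
      rw [← Matrix.mulVec_mulVec, ← Matrix.mulVec_mulVec, hαβ, Matrix.add_mulVec,
        Matrix.smul_mulVec, Matrix.smul_mulVec, Matrix.one_mulVec]
    have e2 : (h : Matrix (Fin n) (Fin n) F) * J *
        ((h⁻¹ : Matrix.GeneralLinearGroup (Fin n) F) : Matrix (Fin n) (Fin n) F) =
        β⁻¹ • (J - α • (1 : Matrix (Fin n) (Fin n) F)) := by
      have h1 : J = β⁻¹ • (((h⁻¹ : Matrix.GeneralLinearGroup (Fin n) F) :
          Matrix (Fin n) (Fin n) F) * J * (h : Matrix (Fin n) (Fin n) F) -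
          α • (1 : Matrix (Fin n) (Fin n) F)) := by
        rw [e1, add_sub_cancel_left, smul_smul, inv_mul_cancel₀ hβ, one_smul]
      conv_lhs => rw [h1]
      simp only [Matrix.mul_smul, Matrix.smul_mul, mul_sub, sub_mul, Matrix.mul_one]
      have i1 : (h : Matrix (Fin n) (Fin n) F) *
          ((h⁻¹ : Matrix.GeneralLinearGroup (Fin n) F) : Matrix (Fin n) (Fin n) F) = 1 :=
        Units.mul_inv h
      have i2 : (h : Matrix (Fin n) (Fin n) F) *
          (((h⁻¹ : Matrix.GeneralLinearGroup (Fin n) F) : Matrix (Fin n) (Fin n) F) * J *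
            (h : Matrix (Fin n) (Fin n) F)) *
          ((h⁻¹ : Matrix.GeneralLinearGroup (Fin n) F) : Matrix (Fin n) (Fin n) F) = J := by
        rw [Matrix.mul_assoc, Matrix.mul_assoc, Matrix.mul_assoc, i1, Matrix.mul_one,
          ← Matrix.mul_assoc, i1, Matrix.one_mul]
      rw [i2, i1]
    apply mem_normalizer_of_conj hspan h
    · rw [e2]
      exact K.smul_mem (K.sub_mem hJK (K.smul_mem K.one_mem α)) _
    · rw [e1]
      exact K.add_mem (K.smul_mem K.one_mem α) (K.smul_mem hJK β)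

end Cfsg.Agent.S5700
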