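import Cfsg.Statements.S5705
import Cfsg.Agent.S5638
import Cfsg.Agent.Lib.Helper6.Tens
import Cfsg.Agent.Lib.Helper6.OSieg

set_option autoImplicit false
open Cfsg

namespace Cfsg.Agent.S5705

open Cfsg.Agent.Lib.Helper6 Matrix QuadraticMap Cfsg.Agent.S5638
open scoped Kronecker

section aux

variable {F : Type*} [Field F] {ι : Type} [Fintype ι] [DecidableEq ι] {n₁ n₂ : ℕ}
  {e : ι ≃ Fin n₁ × Fin n₂} {P : Matrix.GeneralLinearGroup ι F}

theorem tz_act' (k : Matrix.GeneralLinearGroup (Fin n₁ × Fin n₂) F)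
    (a : Matrix (Fin n₁) (Fin n₁) F) (b : Matrix (Fin n₂) (Fin n₂) F)
    (hk : (k : Matrix (Fin n₁ × Fin n₂) (Fin n₁ × Fin n₂) F) = a ⊗ₖ b)
    (u : Fin n₁ → F) (w : Fin n₂ → F) :
    (((MulAut.conj P).toMonoidHom ((Cfsg.Geo.glReindex e.symm).toMonoidHom k) :
      Matrix.GeneralLinearGroup ι F) : Matrix ι ι F) *ᵥ tz e P u w =
      tz e P (a *ᵥ u) (b *ᵥ w) := by
  have h1 : (((MulAut.conj P).toMonoidHom ((Cfsg.Geo.glReindex e.symm).toMonoidHom k) :
      Matrix.GeneralLinearGroup ι F) : Matrix ι ι F) =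
      (P : Matrix ι ι F) * ((k : Matrix _ _ F).submatrix e e) *
        ((P⁻¹ : Matrix.GeneralLinearGroup ι F) : Matrix ι ι F) := rfl
  unfold tz
  rw [h1, Matrix.mulVec_mulVec, Matrix.mul_assoc, Matrix.mul_assoc, ← Units.val_mul,
    inv_mul_cancel, Units.val_one, Matrix.mul_one, ← Matrix.mulVec_mulVec,
    Matrix.submatrix_mulVec_equiv, hk]
  congr 2
  have : ((fun p : Fin n₁ × Fin n₂ => u p.1 * w p.2) ∘ e) ∘ e.symm =
      fun p : Fin n₁ × Fin n₂ => u p.1 * w p.2 := by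
    ext p; simp
  rw [this, kron_mulVec]

end aux

theorem result {F : Type*} [Field F] [Fintype F] {n : ℕ} (hn : 13 ≤ n) (heven : Even n) (Q : (Fin n → F) → F) (hQ : Cfsg.Geo.IsNondegenerateQuadraticForm Q) (hplus : Cfsg.Geo.IsPlusTypeOn Q ⊤) (hq : Fintype.card F = 2) (n₂ : ℕ) (h2 : 2 < n₂) (e : (Fin n) ≃ Fin 2 × Fin n₂) (P : Matrix.GeneralLinearGroup (Fin n) F) (f₁ : (Fin 2 → F) → (Fin 2 → F) → F) (f₂ : (Fin n₂ → F) → (Fin n₂ → F) → F) (hf₁ : Cfsg.Geo.IsSymplecticForm f₁) (hf₂ : Cfsg.Geo.IsSymplecticForm f₂) (hT : Cfsg.Geo.IsTensorFormStructure id (QuadraticMap.polar Q) f₁ f₂ e P) (hpure : (∀ (x₁ : Fin 2 → F) (x₂ : Fin n₂ → F), Q (Matrix.mulVec (P : Matrix (Fin n) (Fin n) F) ((fun a : Fin 2 × Fin n₂ => x₁ a.1 * x₂ a.2) ∘ e)) = 0)) : ∃ K : Subgroup (Matrix.GeneralLinearGroup (Fin n) F), Cfsg.Geo.tensorProductSubgroup 2 n₂ e P ⊓ Cfsg.Geo.omegaGL Q < K ∧ K < Cfsg.Geo.omegaGL Q := by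
  classical
  have h01 : ∀ a : F, a = 0 ∨ a = 1 := by
    intro a
    have := FiniteField.pow_card a
    rw [hq] at this
    have h : a * (a - 1) = 0 := by linear_combination this
    rcases mul_eq_zero.mp h with h | h
    · exact Or.inl h
    · exact Or.inr (by linear_combination h)
  have hchar : ringChar F = 2 := by
    rw [FiniteField.even_card_iff_char_two, hq]
  have : CharP F 2 := by
    rw [← hchar]; exact ringChar.charP F
  have h20 : (2 : F) = 0 := CharP.cast_eq_zero F 2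
  have h11 : (1 : F) + 1 = 0 := by linear_combination h20
  have hneg : ∀ a : F, -a = a := by intro a; linear_combination (-a) * h20
  have hnegv : ∀ v : Fin n → F, -v = v := by intro v; ext i; simp [hneg]
  obtain ⟨c, hc, hB⟩ := tz_form (σ := id) (fun _ _ => rfl) (bf_eq_gram hf₁.bilinear)
    (bf_eq_gram hf₂.bilinear) hT
  have hc1 : c = 1 := (h01 c).resolve_left hc
  rw [hc1] at hB
  obtain ⟨e0, he0⟩ : ∃ e0 : Fin 2 → F, e0 = ![1, 0] := ⟨_, rfl⟩
  obtain ⟨e1, he1⟩ : ∃ e1 : Fin 2 → F, e1 = ![0, 1] := ⟨_, rfl⟩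
  have hdec : ∀ v : Fin 2 → F, v = v 0 • e0 + v 1 • e1 := by
    intro v; ext i; rw [he0, he1]; fin_cases i <;> simp
  have hf00 : f₁ e0 e0 = 0 := hf₁.alternating _
  have hf11 : f₁ e1 e1 = 0 := hf₁.alternating _
  have hf10 : f₁ e1 e0 = 1 := by
    have hne : e0 ≠ 0 := by
      intro h; have := congrFun h 0; rw [he0] at this; simp at this
    obtain ⟨⟨x, hx⟩, -⟩ := hf₁.nondegenerate e0 hne
    refine (h01 _).resolve_left ?_
    intro h
    apply hx
    rw [hdec x, hf₁.bilinear.add_left, hf₁.bilinear.smul_left, hf₁.bilinear.smul_left, hf00, h]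
    ring
  have hf01 : f₁ e0 e1 = 1 := by rw [hf₁.skew, hf10, hneg]
  have hz2r : ∀ v, f₂ v 0 = 0 := by
    intro v
    have := hf₂.bilinear.smul_right 0 v 0
    simpa using this
  have hz2l : ∀ v, f₂ 0 v = 0 := by
    intro v
    have := hf₂.bilinear.smul_left 0 0 v
    simpa using this
  have hsym : ∀ v w, f₂ v w = f₂ w v := by intro v w; rw [hf₂.skew, hneg]
  obtain ⟨Ψ, hΨ⟩ : ∃ Ψ : (Fin n₂ → F) → (Fin n₂ → F) → (Fin n → F),
      Ψ = fun a b => tz e P e0 a + tz e P e1 b := ⟨_, rfl⟩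
  have hΨB : ∀ a b a' b', polar Q (Ψ a b) (Ψ a' b') = f₂ a b' + f₂ b a' := by
    intro a b a' b'
    rw [hΨ]
    simp only [hQ.polar_bilinear.add_left, hQ.polar_bilinear.add_right, hB, hf00, hf01, hf10,
      hf11]
    ring
  have hΨQ : ∀ a b, Q (Ψ a b) = f₂ a b := by
    intro a b
    rw [hΨ]
    simp only
    rw [oq_add Q, hB, hf01]
    have h1 : Q (tz e P e0 a) = 0 := hpure e0 a
    have h2 : Q (tz e P e1 b) = 0 := hpure e1 b
    rw [h1, h2]; ring
  have hΨadd : ∀ a b a' b', Ψ (a + a') (b + b') = Ψ a b + Ψ a' b' := by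
    intro a b a' b'
    rw [hΨ]
    simp only [tz_add_right]
    abel
  have hΨsmul : ∀ (r : F) a b, r • Ψ a b = Ψ (r • a) (r • b) := by
    intro r a b
    rw [hΨ]
    simp only [tz_smul_right, smul_add]
  have hΨtz : ∀ (v : Fin 2 → F) w, tz e P v w = Ψ (v 0 • w) (v 1 • w) := by
    intro v w
    rw [hΨ]
    simp only
    rw [tz_smul_right, tz_smul_right, ← tz_smul_left, ← tz_smul_left, ← tz_add_left, ← hdec v]
  have hΨsurj : ∀ v, ∃ a b, v = Ψ a b := by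
    intro v
    obtain ⟨y, hy⟩ : ∃ y : Fin 2 × Fin n₂ → F,
      y = (((P⁻¹ : Matrix.GeneralLinearGroup (Fin n) F) : Matrix (Fin n) (Fin n) F) *ᵥ v) ∘
        e.symm := ⟨_, rfl⟩
    refine ⟨fun k => y (0, k), fun k => y (1, k), ?_⟩
    rw [hΨ]
    simp only [tz]
    rw [← Matrix.mulVec_add]
    have h3 : ((fun p : Fin 2 × Fin n₂ => e0 p.1 * y (0, p.2)) ∘ e +
        (fun p : Fin 2 × Fin n₂ => e1 p.1 * y (1, p.2)) ∘ e) =
        ((P⁻¹ : Matrix.GeneralLinearGroup (Fin n) F) : Matrix (Fin n) (Fin n) F) *ᵥ v := by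
      ext i
      simp only [Pi.add_apply, Function.comp]
      have h4 : y (e i) =
          (((P⁻¹ : Matrix.GeneralLinearGroup (Fin n) F) : Matrix (Fin n) (Fin n) F) *ᵥ v) i := by
        rw [hy]; simp
      rw [← h4]
      obtain ⟨j, k⟩ := e i
      rw [he0, he1]
      fin_cases j <;> simp
    rw [h3, gl_mulVec_inv]
  have hΨinj : ∀ a b a' b', Ψ a b = Ψ a' b' → a = a' ∧ b = b' := by
    intro a b a' b' h
    have key : ∀ x y : Fin n₂ → F, (∀ c, f₂ x c = f₂ y c) → x = y := by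
      intro x y hxy
      by_contra hne
      obtain ⟨-, ⟨c, hc⟩⟩ := hf₂.nondegenerate (x - y) (sub_ne_zero.mpr hne)
      apply hc
      have h5 : f₂ (x - y) c + f₂ y c = f₂ x c := by
        rw [← hf₂.bilinear.add_left, sub_add_cancel]
      linear_combination h5 + hxy c
    constructor
    · apply key; intro c
      have h6 := congrArg (fun v => polar Q v (Ψ 0 c)) h
      simp only [hΨB, hz2r, add_zero] at h6
      exact h6
    · apply key; intro c
      have h6 := congrArg (fun v => polar Q v (Ψ c 0)) h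
      simp only [hΨB, hz2r, zero_add] at h6
      exact h6
  obtain ⟨ω, hω⟩ : ∃ ω : Matrix.GeneralLinearGroup (Fin 2) F,
      (ω : Matrix (Fin 2) (Fin 2) F) = !![0, 1; 1, 1] :=
    ⟨Matrix.GeneralLinearGroup.mkOfDetNeZero !![0, 1; 1, 1] (by simp [Matrix.det_fin_two_of]), rfl⟩
  obtain ⟨ω', hω'⟩ : ∃ ω' : Matrix.GeneralLinearGroup (Fin 2) F,
      (ω' : Matrix (Fin 2) (Fin 2) F) = !![1, 1; 1, 0] :=
    ⟨Matrix.GeneralLinearGroup.mkOfDetNeZero !![1, 1; 1, 0] (by simp [Matrix.det_fin_two_of]), rfl⟩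
  obtain ⟨Φ, hΦ⟩ : ∃ Φ : Matrix.GeneralLinearGroup (Fin 2 × Fin n₂) F →*
      Matrix.GeneralLinearGroup (Fin n) F,
      Φ = (MulAut.conj P).toMonoidHom.comp (Cfsg.Geo.glReindex e.symm).toMonoidHom := ⟨_, rfl⟩
  have hΦact : ∀ (k : Matrix.GeneralLinearGroup (Fin 2 × Fin n₂) F)
      (a : Matrix (Fin 2) (Fin 2) F) (b : Matrix (Fin n₂) (Fin n₂) F),
      (k : Matrix (Fin 2 × Fin n₂) (Fin 2 × Fin n₂) F) = a ⊗ₖ b → ∀ u w,
      (Φ k : Matrix (Fin n) (Fin n) F) *ᵥ tz e P u w = tz e P (a *ᵥ u) (b *ᵥ w) := by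
    intro k a b hk u w
    rw [hΦ]
    exact tz_act' k a b hk u w
  obtain ⟨Wm, hWm⟩ : ∃ Wm : Matrix.GeneralLinearGroup (Fin n) F,
      Wm = Φ (bd (fun _ => ω)) := ⟨_, rfl⟩
  obtain ⟨Wm', hWm'⟩ : ∃ Wm' : Matrix.GeneralLinearGroup (Fin n) F,
      Wm' = Φ (bd (fun _ => ω')) := ⟨_, rfl⟩
  have hωω : ω' = ω * ω := by
    apply Units.ext
    rw [Units.val_mul, hω, hω', Matrix.mul_fin_two]
    simp [h11]
  have hWW : Wm' = Wm * Wm := by
    rw [hWm, hWm', ← map_mul, ← map_mul]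
    congr 2
    funext k
    exact hωω
  have hWΨ : ∀ a b, (Wm : Matrix (Fin n) (Fin n) F) *ᵥ Ψ a b = Ψ b (a + b) := by
    intro a b
    rw [hΨ]
    simp only
    rw [Matrix.mulVec_add, hWm, hΦact _ _ _ (bd_const_coe ω), hΦact _ _ _ (bd_const_coe ω),
      Matrix.one_mulVec, Matrix.one_mulVec, hω]
    have h1 : (!![0, 1; 1, 1] : Matrix (Fin 2) (Fin 2) F) *ᵥ e0 = e1 := by
      rw [he0, he1]; ext i; fin_cases i <;> simp [Matrix.mulVec, dotProduct, Fin.sum_univ_two]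
    have h2 : (!![0, 1; 1, 1] : Matrix (Fin 2) (Fin 2) F) *ᵥ e1 = e0 + e1 := by
      rw [he0, he1]; ext i; fin_cases i <;> simp [Matrix.mulVec, dotProduct, Fin.sum_univ_two]
    rw [h1, h2, tz_add_left, tz_add_right]
    abel
  have hW'Ψ : ∀ a b, (Wm' : Matrix (Fin n) (Fin n) F) *ᵥ Ψ a b = Ψ (a + b) a := by
    intro a b
    rw [hWW, Units.val_mul, ← Matrix.mulVec_mulVec, hWΨ, hWΨ]
    congr 1
    ext i
    simp only [Pi.add_apply]
    linear_combination (b i) * h20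
  have hWiso : ∀ v, Q ((Wm : Matrix (Fin n) (Fin n) F) *ᵥ v) = Q v := by
    intro v
    obtain ⟨a, b, rfl⟩ := hΨsurj v
    rw [hWΨ, hΨQ, hΨQ, hf₂.bilinear.add_right, hf₂.alternating, add_zero, hsym]
  -- the tensor subgroup normalises
  have hTN : Cfsg.Geo.tensorProductSubgroup 2 n₂ e P ≤
      Subgroup.normalizer ({Wm, Wm'} : Set (Matrix.GeneralLinearGroup (Fin n) F)) := by
    intro g hg
    unfold Cfsg.Geo.tensorProductSubgroup at hg
    obtain ⟨g₁, ⟨k, ⟨a, b, hk⟩, rfl⟩, rfl⟩ := hg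
    have hgΦ : (MulAut.conj P).toMonoidHom ((Cfsg.Geo.glReindex e.symm).toMonoidHom k) = Φ k := by
      rw [hΦ]; rfl
    rw [hgΦ]
    have key : ∀ u v : Matrix.GeneralLinearGroup (Fin 2) F,
        (a : Matrix (Fin 2) (Fin 2) F) * (u : Matrix (Fin 2) (Fin 2) F) =
          (v : Matrix (Fin 2) (Fin 2) F) * (a : Matrix (Fin 2) (Fin 2) F) →
        Φ k * Φ (bd (fun _ => u)) * (Φ k)⁻¹ = Φ (bd (fun _ => v)) := by
      intro u v huv
      rw [← map_inv, ← map_mul, ← map_mul]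
      congr 1
      rw [mul_inv_eq_iff_eq_mul]
      apply Units.ext
      rw [Units.val_mul, Units.val_mul, hk, bd_const_coe, bd_const_coe,
        ← Matrix.mul_kronecker_mul, ← Matrix.mul_kronecker_mul, mul_one, one_mul, huv]
    have hdet : (a : Matrix (Fin 2) (Fin 2) F).det ≠ 0 :=
      ((Matrix.isUnit_iff_isUnit_det _).mp a.isUnit).ne_zero
    apply Subgroup.mem_normalizer_fintype
    intro z hz
    rcases two_by_two h01 h11 _ hdet with ⟨c1, c2⟩ | ⟨c1, c2⟩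
    · rcases hz with rfl | rfl
      · left
        rw [hWm]
        exact key ω ω (by rw [hω]; exact c1)
      · right
        rw [hWm']
        exact key ω' ω' (by rw [hω']; exact c2)
    · rcases hz with rfl | rfl
      · right
        rw [hWm, hWm']
        exact key ω ω' (by rw [hω, hω']; exact c1)
      · left
        rw [hWm, hWm']
        exact key ω' ω (by rw [hω, hω']; exact c2)
  -- vectors
  obtain ⟨a, p, b, hpa, hab, hpb, hb0⟩ : ∃ a p b : Fin n₂ → F,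
      f₂ p a = 1 ∧ f₂ a b = 0 ∧ f₂ p b = 0 ∧ b ≠ 0 := by
    obtain ⟨a, ha⟩ : ∃ a : Fin n₂ → F, a ≠ 0 := by
      refine ⟨Pi.single ⟨0, by omega⟩ 1, ?_⟩
      intro h
      have := congrFun h ⟨0, by omega⟩
      simp at this
    obtain ⟨⟨p, hp⟩, -⟩ := hf₂.nondegenerate a ha
    let L : (Fin n₂ → F) →ₗ[F] (Fin 2 → F) :=
      { toFun := fun w => ![f₂ a w, f₂ p w]
        map_add' := by
          intro x y; ext i; fin_cases i <;> simp [hf₂.bilinear.add_right]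
        map_smul' := by
          intro r x; ext i; fin_cases i <;> simp [hf₂.bilinear.smul_right] }
    have hker : LinearMap.ker L ≠ ⊥ := LinearMap.ker_ne_bot_of_finrank_lt (by simp; omega)
    obtain ⟨b, hbk, hb0⟩ := Submodule.exists_mem_ne_zero_of_ne_bot hker
    have hb1 : ![f₂ a b, f₂ p b] = 0 := hbk
    refine ⟨a, p, b, (h01 _).resolve_left hp, ?_, ?_, hb0⟩
    · simpa using congrFun hb1 0
    · simpa using congrFun hb1 1
  have hcard : 5 ≤ Fintype.card (Fin n) := by simp; omega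
  obtain ⟨z, hz⟩ : ∃ z : Fin n → F, z = Ψ a b := ⟨_, rfl⟩
  obtain ⟨u, hu⟩ : ∃ u : Fin n → F, u = Ψ b (a + b) := ⟨_, rfl⟩
  have hQz : Q z = 0 := by rw [hz, hΨQ, hab]
  have hQu : Q u = 0 := by
    rw [hu, hΨQ, hf₂.bilinear.add_right, hf₂.alternating, hsym, hab, add_zero]
  have hBuz : polar Q u z = 0 := by
    rw [hu, hz, hΨB, hf₂.alternating, hf₂.bilinear.add_left, hf₂.alternating, hsym, hab]
    ring
  obtain ⟨x, hx⟩ : ∃ x : Matrix.GeneralLinearGroup (Fin n) F, x = sg hQ z u := ⟨_, rfl⟩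
  have hxΩ : x ∈ Cfsg.Geo.omegaGL Q := by rw [hx]; exact sg_mem_omega hQ hcard z u
  have hxW : Wm * x * Wm⁻¹ = x := by
    have h1 : (Wm : Matrix (Fin n) (Fin n) F) *ᵥ z = u := by rw [hz, hu, hWΨ]
    have h2 : (Wm : Matrix (Fin n) (Fin n) F) *ᵥ u = u + z := by
      rw [hu, hz, hWΨ, ← hΨadd]
      congr 1
      · exact add_comm _ _
      · exact add_comm _ _
    have huu : polar Q u u = 0 := by rw [oq_polar_self hQ, hQu, mul_zero]
    have hzu : polar Q z u = 0 := by rw [oq_comm]; exact hBuz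
    have h3 : sg hQ u u = 1 := by
      have := sg_self hQ 1 hQu
      rwa [one_smul] at this
    rw [hx, sg_conj hQ Wm hWiso hQz hBuz, h1, h2, ← sg_mul hQ hQu huu hzu, h3, one_mul,
      sg_symm hQ hQz hQu hBuz, hnegv]
  have hxW1 : x * Wm * x⁻¹ = Wm := by
    rw [mul_inv_eq_iff_eq_mul] at hxW ⊢
    exact hxW.symm
  have hxN : x ∈ Subgroup.normalizer ({Wm, Wm'} : Set (Matrix.GeneralLinearGroup (Fin n) F)) := by
    apply Subgroup.mem_normalizer_fintype
    intro t ht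
    rcases ht with rfl | rfl
    · left; exact hxW1
    · right
      show x * t * x⁻¹ = t
      rw [hWW]
      calc x * (Wm * Wm) * x⁻¹ = (x * Wm * x⁻¹) * (x * Wm * x⁻¹) := by group
        _ = Wm * Wm := by rw [hxW1]
  have hxT : x ∉ Cfsg.Geo.tensorProductSubgroup 2 n₂ e P := by
    intro hxmem
    obtain ⟨α, β, hαβ⟩ := tz_act hxmem
    have h1 := hαβ e0 p
    have hΨp : tz e P e0 p = Ψ p 0 := by
      rw [hΨ]; simp only [tz_zero_right, add_zero]
    have h2 : (x : Matrix (Fin n) (Fin n) F) *ᵥ Ψ p 0 = Ψ (p + a) b := by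
      rw [hx, sg_mulVec hQ hQz hBuz, hQu, zero_mul, sub_zero, hu, hz, hΨB, hΨB,
        hf₂.bilinear.add_right, hpa, hpb, hz2l, hz2l]
      simp only [add_zero, neg_zero, zero_smul, one_smul]
      rw [← hΨadd, zero_add]
    rw [hΨp, h2, hΨtz] at h1
    obtain ⟨i1, i2⟩ := hΨinj _ _ _ _ h1
    obtain ⟨w, hw⟩ : ∃ w : Fin n₂ → F, w = (β : Matrix (Fin n₂) (Fin n₂) F) *ᵥ p := ⟨_, rfl⟩
    rw [← hw] at i1 i2
    have hpp : f₂ p (p + a) = 1 := by
      rw [hf₂.bilinear.add_right, hf₂.alternating, hpa, zero_add]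
    rcases h01 (((α : Matrix (Fin 2) (Fin 2) F) *ᵥ e0) 0) with s0 | s1
    · rw [s0, zero_smul] at i1
      rw [i1, hz2r] at hpp
      exact zero_ne_one hpp
    · rcases h01 (((α : Matrix (Fin 2) (Fin 2) F) *ᵥ e0) 1) with t0 | t1
      · rw [t0, zero_smul] at i2
        exact hb0 i2
      · rw [s1, one_smul] at i1
        rw [t1, one_smul] at i2
        rw [i1, ← i2, hpb] at hpp
        exact zero_ne_one hpp
  -- the second element
  have hQa0 : Q (Ψ a 0) = 0 := by rw [hΨQ, hz2r]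
  have hQb0 : Q (Ψ b 0) = 0 := by rw [hΨQ, hz2r]
  have hBba : polar Q (Ψ b 0) (Ψ a 0) = 0 := by rw [hΨB, hz2r, hz2l, add_zero]
  obtain ⟨y, hy⟩ : ∃ y : Matrix.GeneralLinearGroup (Fin n) F,
      y = sg hQ (Ψ a 0) (Ψ b 0) := ⟨_, rfl⟩
  have hyΩ : y ∈ Cfsg.Geo.omegaGL Q := by rw [hy]; exact sg_mem_omega hQ hcard _ _
  have hyp : ∀ c, (y : Matrix (Fin n) (Fin n) F) *ᵥ Ψ c p = Ψ (c + b) p := by
    intro c
    rw [hy, sg_mulVec hQ hQa0 hBba, hQb0, zero_mul, sub_zero, hΨB, hΨB, hz2r, hpa, hpb]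
    simp only [add_zero, zero_add, zero_smul, hneg, one_smul]
    rw [← hΨadd, add_zero]
  have hyN : y ∉ Subgroup.normalizer
      ({Wm, Wm'} : Set (Matrix.GeneralLinearGroup (Fin n) F)) := by
    intro h
    have h1 := (Subgroup.mem_set_normalizer_iff.mp h Wm).mp (Or.inl rfl)
    rcases h1 with h1 | h1
    · rw [mul_inv_eq_iff_eq_mul] at h1
      have h2 := congrArg (fun g : Matrix.GeneralLinearGroup (Fin n) F =>
        (g : Matrix (Fin n) (Fin n) F) *ᵥ Ψ 0 p) h1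
      simp only [Units.val_mul, ← Matrix.mulVec_mulVec, hWΨ, hyp, zero_add] at h2
      obtain ⟨i1, -⟩ := hΨinj _ _ _ _ h2
      apply hb0
      have := congrArg (fun v => v - p) i1
      simpa using this
    · have h1' : y * Wm * y⁻¹ = Wm' := h1
      rw [mul_inv_eq_iff_eq_mul] at h1'
      have h2 := congrArg (fun g : Matrix.GeneralLinearGroup (Fin n) F =>
        (g : Matrix (Fin n) (Fin n) F) *ᵥ Ψ 0 p) h1'
      simp only [Units.val_mul, ← Matrix.mulVec_mulVec, hWΨ, hW'Ψ, hyp, zero_add] at h2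
      obtain ⟨-, i2⟩ := hΨinj _ _ _ _ h2
      rw [i2, hsym, hab] at hpa
      exact zero_ne_one hpa
  refine ⟨Subgroup.normalizer ({Wm, Wm'} : Set (Matrix.GeneralLinearGroup (Fin n) F)) ⊓
    Cfsg.Geo.omegaGL Q, ?_, ?_⟩
  · refine lt_of_le_of_ne (inf_le_inf_right _ hTN) ?_
    intro heq
    have h1 : x ∈ Subgroup.normalizer ({Wm, Wm'} : Set (Matrix.GeneralLinearGroup (Fin n) F)) ⊓
        Cfsg.Geo.omegaGL Q := ⟨hxN, hxΩ⟩
    rw [← heq] at h1
    exact hxT h1.1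
  · refine lt_of_le_of_ne inf_le_right ?_
    intro heq
    have h1 := hyΩ
    rw [← heq] at h1
    exact hyN h1.1

end Cfsg.Agent.S5705
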