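import Cfsg.Statements.S5945
import Cfsg.Agent.Lib.Helper21.S6Out

set_option autoImplicit false
open Cfsg

namespace Cfsg.Agent.S5945

/-- The symmetric group S_6 has exactly 12 subgroups of index 6; each of them is isomorphic to S_5, and at least one of them is not the stabilizer of any point. -/
theorem result : Nat.card {H : Subgroup (Equiv.Perm (Fin 6)) // H.index = 6} = 12 ∧ (∀ H : Subgroup (Equiv.Perm (Fin 6)), H.index = 6 → Nonempty (H ≃* Equiv.Perm (Fin 5))) ∧ ∃ H : Subgroup (Equiv.Perm (Fin 6)), H.index = 6 ∧ ∀ a : Fin 6, H ≠ MulAction.stabilizer (Equiv.Perm (Fin 6)) a := by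
  classical
  have h6 : Fintype.card (Fin 6) = 6 := Fintype.card_fin 6
  obtain ⟨γ, hγ⟩ := Cfsg.Agent.Lib.Helper21.S6Out.exists_outer h6
  have hidx2 : ∀ b : Fin 6,
      ((MulAction.stabilizer (Equiv.Perm (Fin 6)) b).map γ.toMonoidHom).index = 6 := by
    intro b
    rw [Cfsg.Agent.Lib.Helper21.S6Out.index_map]
    exact Cfsg.Agent.Lib.Helper21.S6Out.index_stab h6 b
  refine ⟨?_, ?_, ?_⟩
  · let F : Fin 6 ⊕ Fin 6 → {H : Subgroup (Equiv.Perm (Fin 6)) // H.index = 6} := fun s =>
      match s with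
      | Sum.inl b => ⟨MulAction.stabilizer (Equiv.Perm (Fin 6)) b,
          Cfsg.Agent.Lib.Helper21.S6Out.index_stab h6 b⟩
      | Sum.inr b => ⟨(MulAction.stabilizer (Equiv.Perm (Fin 6)) b).map γ.toMonoidHom, hidx2 b⟩
    have hF : Function.Bijective F := by
      constructor
      · rintro (b | b) (c | c) h
        · have h1 : MulAction.stabilizer (Equiv.Perm (Fin 6)) b =
              MulAction.stabilizer (Equiv.Perm (Fin 6)) c := congrArg Subtype.val h
          rw [Cfsg.Agent.Lib.Helper21.S6Out.stab_inj h6 b c h1]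
        · have h1 : MulAction.stabilizer (Equiv.Perm (Fin 6)) b =
              (MulAction.stabilizer (Equiv.Perm (Fin 6)) c).map γ.toMonoidHom :=
            congrArg Subtype.val h
          exact absurd h1.symm (Cfsg.Agent.Lib.Helper21.S6Out.map_ne_stab h6 γ hγ c b)
        · have h1 : (MulAction.stabilizer (Equiv.Perm (Fin 6)) b).map γ.toMonoidHom =
              MulAction.stabilizer (Equiv.Perm (Fin 6)) c := congrArg Subtype.val h
          exact absurd h1 (Cfsg.Agent.Lib.Helper21.S6Out.map_ne_stab h6 γ hγ b c)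
        · have h1 : (MulAction.stabilizer (Equiv.Perm (Fin 6)) b).map γ.toMonoidHom =
              (MulAction.stabilizer (Equiv.Perm (Fin 6)) c).map γ.toMonoidHom :=
            congrArg Subtype.val h
          rw [Cfsg.Agent.Lib.Helper21.S6Out.stab_inj h6 b c
            (Cfsg.Agent.Lib.Helper21.S6Out.map_inj γ _ _ h1)]
      · rintro ⟨H, hH⟩
        rcases Cfsg.Agent.Lib.Helper21.S6Out.main h6 γ hγ H hH with ⟨b, rfl⟩ | ⟨b, rfl⟩
        · exact ⟨Sum.inl b, rfl⟩
        · exact ⟨Sum.inr b, rfl⟩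
    rw [← Nat.card_congr (Equiv.ofBijective F hF)]
    simp
  · intro H hH
    rcases Cfsg.Agent.Lib.Helper21.S6Out.main h6 γ hγ H hH with ⟨b, rfl⟩ | ⟨b, rfl⟩
    · exact Cfsg.Agent.Lib.Helper21.S6Out.stab_iso h6 b
    · obtain ⟨e⟩ := Cfsg.Agent.Lib.Helper21.S6Out.stab_iso h6 b
      exact ⟨((MulAction.stabilizer (Equiv.Perm (Fin 6)) b).equivMapOfInjective γ.toMonoidHom
        γ.injective).symm.trans e⟩
  · exact ⟨(MulAction.stabilizer (Equiv.Perm (Fin 6)) 0).map γ.toMonoidHom, hidx2 0,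
      fun a => Cfsg.Agent.Lib.Helper21.S6Out.map_ne_stab h6 γ hγ 0 a⟩

end Cfsg.Agent.S5945
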