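import Cfsg.Statements.S5952
import Mathlib

set_option autoImplicit false
open Cfsg

namespace Cfsg.Agent.S5952

open Module Submodule

universe u v
variable {F : Type u} {V : Type v} [Field F] [AddCommGroup V] [Module F V]

theorem exists_sub [FiniteDimensional F V] (C : Submodule F V) (d : ℕ) (hd : d ≤ finrank F C) :
    ∃ C' : Submodule F V, C' ≤ C ∧ finrank F C' = d := by
  obtain ⟨g, hg⟩ := exists_linearIndependent_of_le_finrank hd
  refine ⟨(span F (Set.range g)).map C.subtype, map_subtype_le _ _, ?_⟩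
  rw [finrank_map_subtype_eq, finrank_span_eq_card hg, Fintype.card_fin]

theorem disj {s : ℕ} (C : Submodule F V) (U : Fin s → Submodule F V)
    (hind : iSupIndep (fun o : Option (Fin s) => o.elim C U)) (S : Finset (Fin s)) (j : Fin s)
    (hj : j ∉ S) : Disjoint (U j) (C ⊔ ⨆ i ∈ S, U i) := by
  have h := hind (some j)
  refine h.mono_right ?_
  apply sup_le
  · exact le_iSup₂_of_le none (by simp) le_rfl
  · apply iSup₂_le
    intro i hi
    exact le_iSup₂_of_le (some i) (by intro e; apply hj; rw [← Option.some.inj e]; exact hi) le_rfl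

theorem dim_sum [FiniteDimensional F V] {s a : ℕ} (C : Submodule F V) (U : Fin s → Submodule F V)
    (hind : iSupIndep (fun o : Option (Fin s) => o.elim C U))
    (hUdim : ∀ j, finrank F (U j) = a) (C' : Submodule F V) (hC' : C' ≤ C) (S : Finset (Fin s)) :
    finrank F ↥(C' ⊔ ⨆ i ∈ S, U i) = finrank F C' + S.card * a := by
  classical
  induction S using Finset.induction_on with
  | empty =>
    have e : C' ⊔ ⨆ i ∈ (∅ : Finset (Fin s)), U i = C' := by simp
    rw [e]; simp
  | insert j S hj ih =>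
    rw [Finset.iSup_insert, Finset.card_insert_of_notMem hj]
    have hd : Disjoint (U j) (C' ⊔ ⨆ i ∈ S, U i) :=
      (disj C U hind S j hj).mono_right (sup_le_sup_right hC' _)
    have e : C' ⊔ (U j ⊔ ⨆ i ∈ S, U i) = U j ⊔ (C' ⊔ ⨆ i ∈ S, U i) := by rw [sup_left_comm]
    rw [e]
    have h := finrank_sup_add_finrank_inf_eq (U j) (C' ⊔ ⨆ i ∈ S, U i)
    rw [hd.eq_bot, finrank_bot, add_zero, ih, hUdim] at h
    rw [h]; ring

theorem inv_sup (f : V →ₗ[F] V) {A B : Submodule F V} (hA : A.map f ≤ A) (hB : B.map f ≤ B) :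
    (A ⊔ B).map f ≤ A ⊔ B := by
  rw [Submodule.map_sup]; exact sup_le_sup hA hB

theorem inv_inf (f : V →ₗ[F] V) {A B : Submodule F V} (hA : A.map f ≤ A) (hB : B.map f ≤ B) :
    (A ⊓ B).map f ≤ A ⊓ B :=
  le_inf ((Submodule.map_mono inf_le_left).trans hA) ((Submodule.map_mono inf_le_right).trans hB)

theorem inv_biSup (f : V →ₗ[F] V) {s : ℕ} (U : Fin s → Submodule F V)
    (hU : ∀ j, (U j).map f ≤ U j) (S : Finset (Fin s)) :
    (⨆ i ∈ S, U i).map f ≤ ⨆ i ∈ S, U i := by
  rw [Submodule.map_iSup]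
  apply iSup_le
  intro i
  rw [Submodule.map_iSup]
  apply iSup_le
  intro hi
  exact (hU i).trans (le_iSup₂_of_le i hi le_rfl)

theorem step [FiniteDimensional F V] (f : V →ₗ[F] V) {a : ℕ} (W P Q : Submodule F V)
    (hW : W.map f ≤ W) (hP : P.map f ≤ P) (hQ : Q.map f ≤ Q) (hd : Disjoint Q P)
    (hirr : ∀ W' : Submodule F V, W' ≤ Q → W'.map f ≤ W' → W' = ⊥ ∨ W' = Q)
    (hdim : finrank F Q = a) :
    finrank F ↥(W ⊓ (Q ⊔ P)) = finrank F ↥(W ⊓ P) ∨
      finrank F ↥(W ⊓ (Q ⊔ P)) = finrank F ↥(W ⊓ P) + a := by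
  have hW1 : (W ⊓ (Q ⊔ P)).map f ≤ W ⊓ (Q ⊔ P) := inv_inf f hW (inv_sup f hQ hP)
  have hT : ((W ⊓ (Q ⊔ P)) ⊔ P).map f ≤ (W ⊓ (Q ⊔ P)) ⊔ P := inv_sup f hW1 hP
  have hPT : P ≤ (W ⊓ (Q ⊔ P)) ⊔ P := le_sup_right
  have hTle : (W ⊓ (Q ⊔ P)) ⊔ P ≤ P ⊔ Q := sup_le (inf_le_right.trans (by rw [sup_comm])) le_sup_left
  have hmod : (W ⊓ (Q ⊔ P)) ⊔ P = P ⊔ Q ⊓ ((W ⊓ (Q ⊔ P)) ⊔ P) := by
    rw [← sup_inf_assoc_of_le Q hPT]
    exact (inf_eq_right.2 hTle).symm
  have hinf : (W ⊓ (Q ⊔ P)) ⊓ P = W ⊓ P := by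
    rw [inf_assoc, inf_eq_right.2 (le_sup_right : P ≤ Q ⊔ P)]
  have hdims := finrank_sup_add_finrank_inf_eq (W ⊓ (Q ⊔ P)) P
  rw [hinf] at hdims
  rcases hirr (Q ⊓ ((W ⊓ (Q ⊔ P)) ⊔ P)) inf_le_left (inv_inf f hQ hT) with h | h
  · left
    rw [h, sup_bot_eq] at hmod
    rw [hmod] at hdims
    omega
  · right
    rw [h] at hmod
    rw [hmod] at hdims
    have h2 := finrank_sup_add_finrank_inf_eq P Q
    rw [hd.symm.eq_bot, finrank_bot, add_zero, hdim] at h2
    omega

/-- Which dimensions of invariant subspaces a semisimple linear map has. Let `V` be a finite-dimensional vector space over a field `F` and `f` an invertible semisimple linear map of `V`. Suppose `V` is the internal direct sum of the fixed space `C_V(f)` (the eigenspace for 1) and subspaces `U_1, …, U_s`, each `f`-invariant of dimension `a ≥ 1` on which `f` acts irreducibly (no `f`-invariant subspaces other than 0 and `U_j`). Let `0 < m < dim V` and `ℓ = m mod a`. Then `f` leaves some `m`-dimensional subspace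 invariant if and only if `dim C_V(f) ≥ m`, or `a ≤ m` and `dim C_V(f) ≥ ℓ`. -/
theorem result {F V : Type*} [Field F] [AddCommGroup V] [Module F V]
    [FiniteDimensional F V] (f : V →ₗ[F] V) (hf : Function.Bijective f) (hss : Module.End.IsSemisimple f)
    {s a : ℕ} (ha : 1 ≤ a) (U : Fin s → Submodule F V)
    (hUinv : ∀ j, (U j).map f ≤ U j) (hUdim : ∀ j, Module.finrank F ↥(U j) = a)
    (hUirr : ∀ j, ∀ W : Submodule F V, W ≤ U j → W.map f ≤ W → W = ⊥ ∨ W = U j)
    (hdec : DirectSum.IsInternal (fun o : Option (Fin s) => o.elim (Module.End.eigenspace f 1) U))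
    (m : ℕ) (hm : 0 < m) (hmV : m < Module.finrank F V) :
    (∃ W : Submodule F V, Module.finrank F ↥W = m ∧ W.map f ≤ W) ↔
    (m ≤ Module.finrank F ↥(Module.End.eigenspace f 1) ∨
      (a ≤ m ∧ m % a ≤ Module.finrank F ↥(Module.End.eigenspace f 1))) := by
  classical
  have hind := hdec.submodule_iSupIndep
  have htop := hdec.submodule_iSup_eq_top
  obtain ⟨C, hC⟩ : ∃ C : Submodule F V, C = Module.End.eigenspace f 1 := ⟨_, rfl⟩
  rw [← hC] at hind htop ⊢
  have hCfix : ∀ w ∈ C, f w = w := by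
    intro w hw
    rw [hC, Module.End.mem_eigenspace_iff, one_smul] at hw
    exact hw
  have hsubinv : ∀ C' : Submodule F V, C' ≤ C → C'.map f ≤ C' := by
    intro C' hC'
    rw [Submodule.map_le_iff_le_comap]
    intro w hw
    rw [Submodule.mem_comap, hCfix w (hC' hw)]
    exact hw
  have htop' : C ⊔ ⨆ i ∈ (Finset.univ : Finset (Fin s)), U i = ⊤ := by
    rw [iSup_option] at htop
    simpa using htop
  have hVdim : Module.finrank F V = Module.finrank F C + s * a := by
    have h := dim_sum C U hind hUdim C le_rfl Finset.univ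
    rw [htop', finrank_top, Finset.card_univ, Fintype.card_fin] at h
    exact h
  constructor
  · rintro ⟨W, hWm, hWinv⟩
    have key : ∀ S : Finset (Fin s), ∃ t : ℕ,
        Module.finrank F ↥(W ⊓ (C ⊔ ⨆ i ∈ S, U i)) = Module.finrank F ↥(W ⊓ C) + t * a := by
      intro S
      induction S using Finset.induction_on with
      | empty =>
        have e : C ⊔ ⨆ i ∈ (∅ : Finset (Fin s)), U i = C := by simp
        exact ⟨0, by rw [e]; simp⟩
      | insert j S hj ih =>
        obtain ⟨t, ht⟩ := ih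
        have e : C ⊔ ⨆ i ∈ insert j S, U i = U j ⊔ (C ⊔ ⨆ i ∈ S, U i) := by
          rw [Finset.iSup_insert, sup_left_comm]
        rw [e]
        rcases step f W (C ⊔ ⨆ i ∈ S, U i) (U j) hWinv
          (inv_sup f (hsubinv C le_rfl) (inv_biSup f U hUinv S)) (hUinv j) (disj C U hind S j hj)
          (hUirr j) (hUdim j) with h | h
        · exact ⟨t, by rw [h, ht]⟩
        · exact ⟨t + 1, by rw [h, ht]; ring⟩
    obtain ⟨t, ht⟩ := key Finset.univ
    rw [htop', inf_top_eq, hWm] at ht
    have hc' : Module.finrank F ↥(W ⊓ C) ≤ Module.finrank F C := Submodule.finrank_mono inf_le_right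
    rcases Nat.eq_zero_or_pos t with rfl | htpos
    · left; omega
    · right
      constructor
      · have : a ≤ t * a := Nat.le_mul_of_pos_left a htpos
        omega
      · rw [ht, Nat.add_mul_mod_self_right]
        exact (Nat.mod_le _ _).trans hc'
  · rintro (h | ⟨h1, h2⟩)
    · obtain ⟨C', hC', hd⟩ := exists_sub C m h
      exact ⟨C', hd, hsubinv C' hC'⟩
    · have hta : min s (m / a) * a ≤ m :=
        (Nat.mul_le_mul_right a (min_le_right _ _)).trans (Nat.div_mul_le_self m a)
      have hdle : m - min s (m / a) * a ≤ Module.finrank F C := by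
        rcases le_total (m / a) s with hle | hle
        · rw [min_eq_right hle]
          have := Nat.div_add_mod' m a
          omega
        · rw [min_eq_left hle]
          omega
      obtain ⟨C', hC', hd⟩ := exists_sub C _ hdle
      obtain ⟨S, -, hS⟩ := Finset.exists_subset_card_eq
        (s := (Finset.univ : Finset (Fin s))) (n := min s (m / a))
        (by rw [Finset.card_univ, Fintype.card_fin]; exact min_le_left _ _)
      refine ⟨C' ⊔ ⨆ i ∈ S, U i, ?_, inv_sup f (hsubinv C' hC') (inv_biSup f U hUinv S)⟩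
      rw [dim_sum C U hind hUdim C' hC' S, hd, hS]
      omega

end Cfsg.Agent.S5952
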