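import Cfsg.Statements.S5962
import Cfsg.Agent.Lib.Helper16.Polar2
import Cfsg.Agent.Lib.Helper6.SpMax

set_option autoImplicit false

open Cfsg

namespace Cfsg.Agent.S5962

open Cfsg.Agent.Lib.Helper16 Cfsg.Agent.Lib.Helper6

theorem result {F : Type*} [Field F] [Fintype F] {p : ℕ} [Fact p.Prime] [CharP F p] {q : ℕ} (hq : Fintype.card F = q)
    (d : ℕ) (hd : 2 ≤ d) (hT : (d, q) ≠ (2, 2)) (hodd : Odd q)
    (hΩ : 2 ∣ Nat.card {P : Submodule F (Fin d ⊕ Fin d → F) × Submodule F (Fin d ⊕ Fin d → F) // IsCompl P.1 P.2 ∧ (∀ u ∈ P.1, ∀ v ∈ P.1, Cfsg.sympForm d F u v = 0) ∧ (∀ u ∈ P.2, ∀ v ∈ P.2, Cfsg.sympForm d F u v = 0)} / 2)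
    (x : ↥(Matrix.symplecticGroup (Fin d) F))
    (hx1 : ∃ z : F, ((x ^ 2 : ↥(Matrix.symplecticGroup (Fin d) F)) : Matrix (Fin d ⊕ Fin d) (Fin d ⊕ Fin d) F) = z • (1 : Matrix (Fin d ⊕ Fin d) (Fin d ⊕ Fin d) F))
    (hx2 : ∀ z : F, (x : Matrix (Fin d ⊕ Fin d) (Fin d ⊕ Fin d) F) ≠ z • (1 : Matrix (Fin d ⊕ Fin d) (Fin d ⊕ Fin d) F)) :
    ∃ U W : Submodule F (Fin d ⊕ Fin d → F), IsCompl U W ∧ (∀ u ∈ U, ∀ v ∈ U, Cfsg.sympForm d F u v = 0) ∧ (∀ u ∈ W, ∀ v ∈ W, Cfsg.sympForm d F u v = 0) ∧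
        ((U.map (Matrix.toLin' (x : Matrix (Fin d ⊕ Fin d) (Fin d ⊕ Fin d) F)) = U ∧ W.map (Matrix.toLin' (x : Matrix (Fin d ⊕ Fin d) (Fin d ⊕ Fin d) F)) = W) ∨
         (U.map (Matrix.toLin' (x : Matrix (Fin d ⊕ Fin d) (Fin d ⊕ Fin d) F)) = W ∧ W.map (Matrix.toLin' (x : Matrix (Fin d ⊕ Fin d) (Fin d ⊕ Fin d) F)) = U)) := by
  classical
  have h2 : (2 : F) ≠ 0 := by
    intro h
    haveI : CharP F 2 := CharTwo.of_one_ne_zero_of_two_eq_zero one_ne_zero h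
    have h1 := (FiniteField.even_card_iff_char_two (F := F)).1 (ringChar.eq F 2)
    rw [hq] at h1
    rcases hodd with ⟨k, hk⟩
    omega
  obtain ⟨z, hz⟩ := hx1
  set X := Matrix.toLin' (x : Matrix (Fin d ⊕ Fin d) (Fin d ⊕ Fin d) F) with hX
  have hXB : ∀ a b, sympB d F (X a) (X b) = sympB d F a b := by
    intro a b
    rw [sympB_apply, sympB_apply, hX, Matrix.toLin'_apply, Matrix.toLin'_apply]
    exact sympForm_mulVec d x a b
  have hXX : ∀ a, X (X a) = z • a := by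
    intro a
    rw [hX, Matrix.toLin'_apply, Matrix.toLin'_apply, Matrix.mulVec_mulVec]
    have : (x : Matrix (Fin d ⊕ Fin d) (Fin d ⊕ Fin d) F) * (x : Matrix (Fin d ⊕ Fin d) (Fin d ⊕ Fin d) F)
        = z • (1 : Matrix (Fin d ⊕ Fin d) (Fin d ⊕ Fin d) F) := by
      rw [← hz, sq]; rfl
    rw [this, Matrix.smul_mulVec, Matrix.one_mulVec]
  have hzz : z = 1 ∨ z = -1 := by
    set a : Fin d ⊕ Fin d → F := Pi.single (Sum.inl ⟨0, by omega⟩) 1 with ha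
    have ha0 : a ≠ 0 := by
      intro h
      have := congrFun h (Sum.inl ⟨0, by omega⟩)
      simp [ha] at this
    have : ∃ b, sympB d F a b ≠ 0 := by
      by_contra hcon
      push Not at hcon
      exact ha0 (sympB_nondegenerate.1 a hcon)
    obtain ⟨b, hb⟩ := this
    have h1 := hXB (X a) (X b)
    rw [hXX, hXX, hXB, map_smul, map_smul, LinearMap.smul_apply, smul_eq_mul, smul_eq_mul] at h1
    have h3 : (z - 1) * (z + 1) = 0 := by
      apply (mul_eq_zero.1 (show ((z - 1) * (z + 1)) * sympB d F a b = 0 by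
        linear_combination h1)).resolve_right hb
    rcases mul_eq_zero.1 h3 with h | h
    · left; linear_combination h
    · right; linear_combination h
  obtain ⟨U, W, h1, h3, h4, h5⟩ := Polar.exists_polar_pair sympB_isAlt sympB_nondegenerate h2 hXB z hzz hXX
  exact ⟨U, W, h1, h3, h4, h5⟩

end Cfsg.Agent.S5962
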