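import Cfsg.Statements.S5997
import Cfsg.Agent.Lib.Helper12.SL2SylowTwo
import Cfsg.Agent.Lib.Helper12.SL2Norm
import Cfsg.Agent.Lib.Helper12.S4Rec12

set_option autoImplicit false
open scoped MatrixGroups
open Cfsg

namespace Cfsg.Agent.S5997

open Matrix Cfsg.Agent.Lib.Helper12

variable {F : Type*} [Field F]

theorem mat2_sq (M : Matrix (Fin 2) (Fin 2) F) :
    M * M = M.trace • M - M.det • (1 : Matrix (Fin 2) (Fin 2) F) := by
  ext i j; fin_cases i <;> fin_cases j <;>
    simp [Matrix.mul_apply, Fin.sum_univ_two, Matrix.trace_fin_two, Matrix.det_fin_two] <;> ring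

theorem det_one_of_sq (M N : Matrix (Fin 2) (Fin 2) F) (hM : M * M = -1)
    (hnc : ¬ (M * N = N * M)) : M.det = 1 := by
  have h := mat2_sq M
  by_cases ht : M.trace = 0
  · rw [hM, ht, zero_smul, zero_sub] at h
    have := congrFun (congrFun h 0) 0
    simpa using this.symm
  · exfalso
    apply hnc
    have hMs : M = (M.trace⁻¹ * (M.det - 1)) • (1 : Matrix (Fin 2) (Fin 2) F) := by
      have h' : M.trace • M = (M.det - 1) • (1 : Matrix (Fin 2) (Fin 2) F) := by
        rw [hM] at h
        have h5 : M.trace • M = -1 + M.det • (1 : Matrix (Fin 2) (Fin 2) F) := by rw [h]; abel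
        rw [sub_smul, one_smul, h5]; abel
      rw [mul_smul, ← h', smul_smul, inv_mul_cancel₀ ht, one_smul]
    rw [hMs]
    simp

theorem quat_rel (U V : GL (Fin 2) F) (h1 : U ^ 2 = V ^ 2) (h4 : U ^ 4 = 1)
    (hne : U ^ 2 ≠ 1) (hc : V * U * V⁻¹ = U⁻¹) :
    (U : Matrix (Fin 2) (Fin 2) F) * (U : Matrix (Fin 2) (Fin 2) F) = -1 ∧
    (V : Matrix (Fin 2) (Fin 2) F) * (V : Matrix (Fin 2) (Fin 2) F) = -1 ∧
    (U : Matrix (Fin 2) (Fin 2) F).det = 1 ∧ (V : Matrix (Fin 2) (Fin 2) F).det = 1 ∧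
    (V : Matrix (Fin 2) (Fin 2) F) * (U : Matrix (Fin 2) (Fin 2) F)
      = -((U : Matrix (Fin 2) (Fin 2) F) * (V : Matrix (Fin 2) (Fin 2) F)) := by
  have hncomm : ¬ (U * V = V * U) := by
    intro h
    apply hne
    have h5 : U = U⁻¹ := by
      rw [← hc, ← h, mul_inv_cancel_right]
    rw [pow_two]
    nth_rewrite 2 [h5]
    exact mul_inv_cancel U
  have hncommM : ¬ ((U : Matrix (Fin 2) (Fin 2) F) * (V : Matrix (Fin 2) (Fin 2) F)
      = (V : Matrix (Fin 2) (Fin 2) F) * (U : Matrix (Fin 2) (Fin 2) F)) := by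
    intro h
    apply hncomm
    apply Units.ext
    rw [Units.val_mul, Units.val_mul, h]
  obtain ⟨Z, hZ⟩ : ∃ Z : Matrix (Fin 2) (Fin 2) F,
      Z = (U : Matrix (Fin 2) (Fin 2) F) * (U : Matrix (Fin 2) (Fin 2) F) := ⟨_, rfl⟩
  have hZV : (V : Matrix (Fin 2) (Fin 2) F) * (V : Matrix (Fin 2) (Fin 2) F) = Z := by
    have := congrArg Units.val h1
    rw [pow_two, pow_two, Units.val_mul, Units.val_mul] at this
    rw [hZ, this]
  have hZ2 : Z * Z = 1 := by
    have := congrArg Units.val h4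
    rw [show (4 : ℕ) = 2 + 2 from rfl, pow_add, pow_two, Units.val_mul, Units.val_mul,
      Units.val_one] at this
    rw [hZ, this]
  have hZ1 : Z ≠ 1 := by
    intro h
    apply hne
    apply Units.ext
    rw [pow_two, Units.val_mul, Units.val_one, ← hZ, h]
  have aux : ∀ M : Matrix (Fin 2) (Fin 2) F, M * M = Z →
      (∀ z : F, Z ≠ z • (1 : Matrix (Fin 2) (Fin 2) F)) →
      ∃ α β : F, M = α • Z + β • (1 : Matrix (Fin 2) (Fin 2) F) := by
    intro M hM hZs
    have h := mat2_sq M
    rw [hM] at h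
    have ht : M.trace ≠ 0 := by
      intro h0
      rw [h0, zero_smul, zero_sub] at h
      exact hZs (-M.det) (by rw [h, neg_smul])
    refine ⟨M.trace⁻¹, M.trace⁻¹ * M.det, ?_⟩
    rw [h, smul_sub, smul_smul, smul_smul, inv_mul_cancel₀ ht, one_smul]
    abel
  have hscal : ∃ z : F, Z = z • (1 : Matrix (Fin 2) (Fin 2) F) := by
    by_contra hcon
    push Not at hcon
    obtain ⟨α, β, hU⟩ := aux U hZ.symm hcon
    obtain ⟨γ, δ, hV⟩ := aux V hZV hcon
    apply hncommM
    rw [hU, hV]
    simp only [add_mul, mul_add, smul_mul_assoc, mul_smul_comm, one_mul, mul_one]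
    module
  obtain ⟨z, hz⟩ := hscal
  have hz2 : z * z = 1 := by
    have := congrFun (congrFun hZ2 0) 0
    rw [hz] at this
    simpa using this
  have hz1 : z ≠ 1 := by
    intro h
    apply hZ1
    rw [hz, h, one_smul]
  have hzm : z = -1 := by
    have : (z - 1) * (z + 1) = 0 := by linear_combination hz2
    rcases mul_eq_zero.mp this with h | h
    · exact absurd (by linear_combination h) hz1
    · linear_combination h
  have hZm : Z = -1 := by rw [hz, hzm, neg_smul, one_smul]
  have hUU : (U : Matrix (Fin 2) (Fin 2) F) * (U : Matrix (Fin 2) (Fin 2) F) = -1 := by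
    rw [← hZ, hZm]
  have hVV : (V : Matrix (Fin 2) (Fin 2) F) * (V : Matrix (Fin 2) (Fin 2) F) = -1 := by
    rw [hZV, hZm]
  refine ⟨hUU, hVV, det_one_of_sq _ _ hUU hncommM, det_one_of_sq _ _ hVV (fun h => hncommM h.symm),
    ?_⟩
  have hUi : ((U⁻¹ : GL (Fin 2) F) : Matrix (Fin 2) (Fin 2) F) = -(U : Matrix (Fin 2) (Fin 2) F) := by
    apply Units.inv_eq_of_mul_eq_one_right
    rw [mul_neg, hUU, neg_neg]
  have h6 : V * U = U⁻¹ * V := mul_inv_eq_iff_eq_mul.mp hc
  have := congrArg Units.val h6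
  rw [Units.val_mul, Units.val_mul, hUi, neg_mul] at this
  exact this

theorem trace_zero_of_sq (x : SL(2, F)) (hx : (x : Matrix (Fin 2) (Fin 2) F) * x = -1) :
    (x : Matrix (Fin 2) (Fin 2) F).trace = 0 := by
  have h := mat2_sq (x : Matrix (Fin 2) (Fin 2) F)
  rw [hx, x.2, one_smul] at h
  have h' : (x : Matrix (Fin 2) (Fin 2) F).trace • (x : Matrix (Fin 2) (Fin 2) F) = 0 := by
    have : (x : Matrix (Fin 2) (Fin 2) F).trace • (x : Matrix (Fin 2) (Fin 2) F)
        = (-1 : Matrix (Fin 2) (Fin 2) F) + 1 := by rw [h]; abel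
    rw [this]; abel
  rcases smul_eq_zero.mp h' with h0 | h0
  · exact h0
  · exfalso
    have := x.2
    rw [h0] at this
    simp at this

theorem exists_omega (h2 : (2 : F) ≠ 0) (A B : Matrix (Fin 2) (Fin 2) F) (hA : A * A = -1)
    (hB : B * B = -1) (hBA : B * A = -(A * B)) (tA : A.trace = 0) (tB : B.trace = 0) :
    ∃ w : SL(2, F), (w : Matrix (Fin 2) (Fin 2) F) * A = B * w ∧
      (w : Matrix (Fin 2) (Fin 2) F) * B = A * B * w ∧
      (w : Matrix (Fin 2) (Fin 2) F).trace = 1 := by
  obtain ⟨K, hK⟩ : ∃ K, K = A * B := ⟨_, rfl⟩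
  have hAB : A * B = K := hK.symm
  have hBA' : B * A = -K := by rw [hBA, hAB]
  have hAK : A * K = -B := by rw [hK, ← mul_assoc, hA, neg_mul, one_mul]
  have hKB : K * B = -A := by rw [hK, mul_assoc, hB, mul_neg, mul_one]
  have hKA : K * A = B := by rw [hK, mul_assoc, hBA, mul_neg, ← mul_assoc, hA]; simp
  have hBK : B * K = A := by rw [hK, ← mul_assoc, hBA, neg_mul, mul_assoc, hB]; simp
  have hKK : K * K = -1 := by
    nth_rewrite 1 [hK]
    rw [mul_assoc, hBK, hA]
  have tK : K.trace = 0 := by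
    have h1 : K.trace = -K.trace := by
      nth_rewrite 1 [hK]
      rw [Matrix.trace_mul_comm, hBA', Matrix.trace_neg]
    have : 2 * K.trace = 0 := by linear_combination h1
    exact (mul_eq_zero.mp this).resolve_left h2
  obtain ⟨W, hW⟩ : ∃ W : Matrix (Fin 2) (Fin 2) F, W = (2 : F)⁻¹ • (1 + A + B + K) := ⟨_, rfl⟩
  have hi : (2 : F)⁻¹ * 2 = 1 := inv_mul_cancel₀ h2
  have tW : W.trace = 1 := by
    rw [hW, Matrix.trace_smul, Matrix.trace_add, Matrix.trace_add, Matrix.trace_add, tA, tB, tK,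
      Matrix.trace_one]
    simp [hi]
  have hWW : W * W = W - 1 := by
    rw [hW]
    simp only [smul_mul_assoc, mul_smul_comm, add_mul, mul_add, one_mul, mul_one, hA, hB, hKK, hAB,
      hBA', hAK, hKB, hKA, hBK]
    generalize (2 : F)⁻¹ = c at hi ⊢
    have e1 : c • (c • (1 + A + B + K) + c • (A + -1 + -K + B) + c • (B + K + -1 + -A)
        + c • (K + -B + A + -1)) = (c * (c * 2)) • (-1 + A + B + K) := by module
    have e2 : c • (1 + A + B + K) - 1 = c • (-1 + A + B + K)
        + (c * 2 - 1) • (1 : Matrix (Fin 2) (Fin 2) F) := by module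
    rw [e1, e2, hi, mul_one, sub_self, zero_smul, add_zero]
  have dW : W.det = 1 := by
    have h := mat2_sq W
    rw [hWW, tW, one_smul] at h
    have h' := congrFun (congrFun h 0) 0
    simp at h'
    exact h'.symm
  refine ⟨⟨W, dW⟩, ?_, ?_, tW⟩
  · show W * A = B * W
    rw [hW]
    simp only [smul_mul_assoc, mul_smul_comm, add_mul, mul_add, one_mul, mul_one, hA, hB, hKK, hAB,
      hBA', hAK, hKB, hKA, hBK]
    congr 1
    abel
  · show W * B = A * B * W
    rw [hW, hAB]
    simp only [smul_mul_assoc, mul_smul_comm, add_mul, mul_add, one_mul, mul_one, hA, hB, hKK, hAB,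
      hBA', hAK, hKB, hKA, hBK]
    congr 1
    abel

theorem quat_gens : ∃ A X : QuaternionGroup 2, A ^ 2 = X ^ 2 ∧ A ^ 4 = 1 ∧ A ^ 2 ≠ 1 ∧
    X * A * X⁻¹ = A⁻¹ ∧ ∀ t : QuaternionGroup 2, ∃ k : ℕ, t = A ^ k ∨ t = X * A ^ k := by
  refine ⟨QuaternionGroup.a 1, QuaternionGroup.xa 0, by decide, by decide, by decide, by decide, ?_⟩
  intro t
  cases t with
  | a i =>
    refine ⟨i.val, Or.inl ?_⟩
    rw [QuaternionGroup.a_one_pow, ZMod.natCast_zmod_val]
  | xa i =>
    refine ⟨i.val, Or.inr ?_⟩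
    rw [QuaternionGroup.a_one_pow, ZMod.natCast_zmod_val, QuaternionGroup.xa_mul_a, zero_add]

theorem exists_gens (R : Subgroup (GL (Fin 2) F)) (e : R ≃* QuaternionGroup 2) :
    ∃ U V : GL (Fin 2) F, U ∈ R ∧ V ∈ R ∧ U ^ 2 = V ^ 2 ∧ U ^ 4 = 1 ∧ U ^ 2 ≠ 1 ∧
      V * U * V⁻¹ = U⁻¹ ∧ ∀ ρ ∈ R, ∃ k : ℕ, ρ = U ^ k ∨ ρ = V * U ^ k := by
  obtain ⟨A, X, h1, h2, h3, h4, h5⟩ := quat_gens
  refine ⟨(e.symm A : R), (e.symm X : R), (e.symm A).2, (e.symm X).2, ?_, ?_, ?_, ?_, ?_⟩
  · have := congrArg (fun t => ((e.symm t : R) : GL (Fin 2) F)) h1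
    simpa only [map_pow, Subgroup.coe_pow] using this
  · have := congrArg (fun t => ((e.symm t : R) : GL (Fin 2) F)) h2
    simpa only [map_pow, Subgroup.coe_pow, map_one, Subgroup.coe_one] using this
  · intro h0
    apply h3
    apply e.symm.injective
    apply Subtype.ext
    simpa only [map_pow, Subgroup.coe_pow, map_one, Subgroup.coe_one] using h0
  · have := congrArg (fun t => ((e.symm t : R) : GL (Fin 2) F)) h4
    simpa only [map_mul, map_inv, Subgroup.coe_mul, Subgroup.coe_inv] using this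
  · intro ρ hρ
    obtain ⟨k, hk | hk⟩ := h5 (e ⟨ρ, hρ⟩)
    · refine ⟨k, Or.inl ?_⟩
      have := congrArg (fun t => ((e.symm t : R) : GL (Fin 2) F)) hk
      simpa only [map_pow, Subgroup.coe_pow, MulEquiv.symm_apply_apply] using this
    · refine ⟨k, Or.inr ?_⟩
      have := congrArg (fun t => ((e.symm t : R) : GL (Fin 2) F)) hk
      simpa only [map_pow, map_mul, Subgroup.coe_mul, Subgroup.coe_pow,
        MulEquiv.symm_apply_apply] using this

theorem toGL_mem (c : SL(2, F)) :
    (SpecialLinearGroup.toGL c : GL (Fin 2) F) ∈ Cfsg.Geo.specialLinear (Fin 2) F := by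
  unfold Cfsg.Geo.specialLinear
  rw [MonoidHom.mem_ker]
  apply Units.ext
  simp

theorem exists_SL_of_mem (x : GL (Fin 2) F) (hx : x ∈ Cfsg.Geo.specialLinear (Fin 2) F) :
    ∃ x' : SL(2, F), SpecialLinearGroup.toGL x' = x := by
  unfold Cfsg.Geo.specialLinear at hx
  rw [MonoidHom.mem_ker] at hx
  have hd : (x : Matrix (Fin 2) (Fin 2) F).det = 1 := by
    have := congrArg Units.val hx
    simpa using this
  exact ⟨⟨x, hd⟩, Units.ext rfl⟩

/-- Elements of prime order of PSL_2(p) and the normalizer of a quaternion subgroup. Here `T = PSL_2(F)` for the field `F` with `p` elements, `p ≥ 5` prime; `R` is a subgroup of GL_2(F) isomorphic to the quaternion group of order 8 (an absolutely irreducible 2-group of symplectic type), and `H` is the subgroup of matrices of determinant 1 normalizing `R` — a subgroup of type 2^{1+2}.O₂⁻(2), isomorphic modulo scalars to A₄ or S₄ (maximality is not assumed). Ω is the set of cosets of `H` in `T`, so an element of `T` of prime order `r`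 (a matrix `x` of determinant 1 with `x^r` scalar, `x` not scalar) fixes a point of Ω exactly when some conjugate of `x` by a matrix of determinant 1 normalizes `R`. Let `r` be a prime dividing the index of `H`. Then every element of `T` of order `r` fixes a point of Ω if and only if `r = 2` or `r = 3`. -/
theorem result {F : Type*} [Field F] [Fintype F] {p : ℕ} [Fact p.Prime] [CharP F p] (hF : Fintype.card F = p) (hp : 5 ≤ p)
    (R : Subgroup (GL (Fin 2) F)) (hR : Nonempty (↥R ≃* QuaternionGroup 2))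
    (r : ℕ) [Fact r.Prime]
    (hΩ : r ∣ (Cfsg.Geo.subgroupNormalizer R).relIndex (Cfsg.Geo.specialLinear (Fin 2) F)) :
    (∀ x ∈ Cfsg.Geo.specialLinear (Fin 2) F, (∃ z : F, ((x ^ r : GL (Fin 2) F) : Matrix (Fin 2) (Fin 2) F) = z • (1 : Matrix (Fin 2) (Fin 2) F)) →
      (∀ z : F, (x : Matrix (Fin 2) (Fin 2) F) ≠ z • (1 : Matrix (Fin 2) (Fin 2) F)) →
      ∃ g ∈ Cfsg.Geo.specialLinear (Fin 2) F, g⁻¹ * x * g ∈ Cfsg.Geo.subgroupNormalizer R) ↔ (r = 2 ∨ r = 3) := by
  classical
  obtain ⟨e⟩ := hR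
  have hcast : ∀ k : ℕ, 0 < k → k < 5 → ((k : ℕ) : F) ≠ 0 := by
    intro k hk0 hk5 h
    rw [CharP.cast_eq_zero_iff F p] at h
    have := Nat.le_of_dvd hk0 h
    omega
  have h2 : (2 : F) ≠ 0 := by exact_mod_cast hcast 2 (by norm_num) (by norm_num)
  have h3 : (3 : F) ≠ 0 := by exact_mod_cast hcast 3 (by norm_num) (by norm_num)
  have hodd : Fintype.card F % 2 = 1 := by
    rw [hF]
    rcases (Fact.out : p.Prime).eq_two_or_odd with h | h
    · omega
    · exact h
  obtain ⟨U, V, hUR, hVR, h1, h4, hne, hc, hgen⟩ := exists_gens R e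
  obtain ⟨hUU, hVV, hdU, hdV, hVU⟩ := quat_rel U V h1 h4 hne hc
  obtain ⟨u, hu⟩ : ∃ u : SL(2, F), (u : Matrix (Fin 2) (Fin 2) F) = U := ⟨⟨U, hdU⟩, rfl⟩
  obtain ⟨v, hv⟩ : ∃ v : SL(2, F), (v : Matrix (Fin 2) (Fin 2) F) = V := ⟨⟨V, hdV⟩, rfl⟩
  have hTu : SpecialLinearGroup.toGL u = U := Units.ext hu
  have hTv : SpecialLinearGroup.toGL v = V := Units.ext hv
  have hQP : QP u v := by
    refine ⟨Subtype.ext ?_, Subtype.ext ?_, Subtype.ext ?_⟩
    · simp [hu, hUU]
    · simp [hv, hVV]
    · simp [hu, hv, hVU]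
  have hnorm : ∀ g : GL (Fin 2) F, g * U * g⁻¹ ∈ R → g * V * g⁻¹ ∈ R →
      g ∈ Cfsg.Geo.subgroupNormalizer R := by
    intro g hgU hgV
    apply mem_normalizer_of_conj_le
    intro ρ hρ
    obtain ⟨k, rfl | rfl⟩ := hgen ρ hρ
    · rw [← conj_pow]; exact R.pow_mem hgU k
    · have : g * (V * U ^ k) * g⁻¹ = (g * V * g⁻¹) * (g * U * g⁻¹) ^ k := by
        rw [conj_pow]; group
      rw [this]; exact R.mul_mem hgV (R.pow_mem hgU k)
  have htu : (u : Matrix (Fin 2) (Fin 2) F).trace = 0 :=
    trace_zero_of_sq u (by rw [hu]; exact hUU)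
  have htv : (v : Matrix (Fin 2) (Fin 2) F).trace = 0 :=
    trace_zero_of_sq v (by rw [hv]; exact hVV)
  obtain ⟨w, hwu, hwv, htw⟩ := exists_omega h2 (U : Matrix (Fin 2) (Fin 2) F) V hUU hVV hVU
    (by rw [← hu]; exact htu) (by rw [← hv]; exact htv)
  have hwN : (SpecialLinearGroup.toGL w : GL (Fin 2) F) ∈ Cfsg.Geo.subgroupNormalizer R := by
    apply hnorm
    · have : SpecialLinearGroup.toGL w * U * (SpecialLinearGroup.toGL w)⁻¹ = V := by
        rw [mul_inv_eq_iff_eq_mul]
        apply Units.ext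
        exact hwu
      rw [this]; exact hVR
    · have : SpecialLinearGroup.toGL w * V * (SpecialLinearGroup.toGL w)⁻¹ = U * V := by
        rw [mul_inv_eq_iff_eq_mul]
        apply Units.ext
        exact hwv
      rw [this]; exact R.mul_mem hUR hVR
  have hnw : ((-w : SL(2, F)) : Matrix (Fin 2) (Fin 2) F) = -(w : Matrix (Fin 2) (Fin 2) F) :=
    SpecialLinearGroup.coe_neg w
  have hnwN : (SpecialLinearGroup.toGL (-w) : GL (Fin 2) F) ∈ Cfsg.Geo.subgroupNormalizer R := by
    apply hnorm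
    · have : SpecialLinearGroup.toGL (-w) * U * (SpecialLinearGroup.toGL (-w))⁻¹ = V := by
        rw [mul_inv_eq_iff_eq_mul]
        apply Units.ext
        show ((-w : SL(2, F)) : Matrix (Fin 2) (Fin 2) F) * U
          = V * ((-w : SL(2, F)) : Matrix (Fin 2) (Fin 2) F)
        rw [hnw, neg_mul, mul_neg, hwu]
      rw [this]; exact hVR
    · have : SpecialLinearGroup.toGL (-w) * V * (SpecialLinearGroup.toGL (-w))⁻¹ = U * V := by
        rw [mul_inv_eq_iff_eq_mul]
        apply Units.ext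
        show ((-w : SL(2, F)) : Matrix (Fin 2) (Fin 2) F) * V
          = U * V * ((-w : SL(2, F)) : Matrix (Fin 2) (Fin 2) F)
        rw [hnw, neg_mul, mul_neg, hwv]
      rw [this]; exact R.mul_mem hUR hVR
  have hconjN : ∀ x' y' : SL(2, F), IsConj x' y' →
      (SpecialLinearGroup.toGL y' : GL (Fin 2) F) ∈ Cfsg.Geo.subgroupNormalizer R →
      ∃ g ∈ Cfsg.Geo.specialLinear (Fin 2) F,
        g⁻¹ * SpecialLinearGroup.toGL x' * g ∈ Cfsg.Geo.subgroupNormalizer R := by
    intro x' y' hxy hy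
    obtain ⟨c, hc⟩ := isConj_iff.mp hxy
    refine ⟨SpecialLinearGroup.toGL c⁻¹, toGL_mem _, ?_⟩
    have : (SpecialLinearGroup.toGL c⁻¹ : GL (Fin 2) F)⁻¹ * SpecialLinearGroup.toGL x'
        * SpecialLinearGroup.toGL c⁻¹ = SpecialLinearGroup.toGL y' := by
      rw [← hc, map_mul, map_mul, map_inv, inv_inv]
    rw [this]; exact hy
  constructor
  swap
  · intro hr x hx hxr hxs
    obtain ⟨x', rfl⟩ := exists_SL_of_mem x hx
    obtain ⟨z, hz⟩ := hxr
    have hM := mat2_sq (x' : Matrix (Fin 2) (Fin 2) F)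
    rw [x'.2, one_smul] at hM
    have hcoe : ((SpecialLinearGroup.toGL x' : GL (Fin 2) F) : Matrix (Fin 2) (Fin 2) F)
        = (x' : Matrix (Fin 2) (Fin 2) F) := rfl
    rw [Units.val_pow_eq_pow_val, hcoe] at hz
    have hns : ∀ (a b : F), a • (x' : Matrix (Fin 2) (Fin 2) F)
        = b • (1 : Matrix (Fin 2) (Fin 2) F) → a = 0 := by
      intro a b hab
      by_contra ha
      apply hxs (a⁻¹ * b)
      rw [hcoe, mul_smul, ← hab, smul_smul, inv_mul_cancel₀ ha, one_smul]
    rcases hr with rfl | rfl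
    · have ht : (x' : Matrix (Fin 2) (Fin 2) F).trace = 0 := by
        apply hns _ (z + 1)
        rw [pow_two, hM] at hz
        rw [add_smul, one_smul, ← hz]; abel
      apply hconjN x' u _ (by rw [hTu]; exact Subgroup.le_normalizer hUR)
      apply isConj_of_trace_eq hodd
      · rw [ht, htu]
      · rw [ht]
        intro h
        apply h2
        have : (2 : F) * 2 = 0 := by linear_combination -h
        exact mul_self_eq_zero.mp this
    · have ht : (x' : Matrix (Fin 2) (Fin 2) F).trace ^ 2 - 1 = 0 := by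
        apply hns _ (z + (x' : Matrix (Fin 2) (Fin 2) F).trace)
        have h3' : (x' : Matrix (Fin 2) (Fin 2) F) ^ 3
            = ((x' : Matrix (Fin 2) (Fin 2) F).trace ^ 2 - 1) • (x' : Matrix (Fin 2) (Fin 2) F)
              - (x' : Matrix (Fin 2) (Fin 2) F).trace • (1 : Matrix (Fin 2) (Fin 2) F) := by
          rw [pow_succ, pow_two, hM, sub_mul, smul_mul_assoc, hM, one_mul]
          module
        rw [h3'] at hz
        rw [add_smul, ← hz]; abel
      have ht' : (x' : Matrix (Fin 2) (Fin 2) F).trace = 1 ∨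
          (x' : Matrix (Fin 2) (Fin 2) F).trace = -1 := by
        have : ((x' : Matrix (Fin 2) (Fin 2) F).trace - 1)
            * ((x' : Matrix (Fin 2) (Fin 2) F).trace + 1) = 0 := by linear_combination ht
        rcases mul_eq_zero.mp this with h | h
        · left; linear_combination h
        · right; linear_combination h
      rcases ht' with ht1 | ht1
      · apply hconjN x' w _ hwN
        apply isConj_of_trace_eq hodd
        · rw [ht1, htw]
        · rw [ht1]
          intro h
          apply h3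
          linear_combination -h
      · apply hconjN x' (-w) _ hnwN
        apply isConj_of_trace_eq hodd
        · rw [ht1, hnw, Matrix.trace_neg, htw]
        · rw [ht1]
          intro h
          apply h3
          linear_combination -h
  · intro H
    by_contra hr
    push Not at hr
    have hrp : r.Prime := Fact.out
    have hr5 : 5 ≤ r := by
      have h2' := hrp.two_le
      by_contra hlt
      have : r = 4 := by omega
      rw [this] at hrp
      exact absurd hrp (by norm_num)
    have hrcard : r ∣ Nat.card (Cfsg.Geo.specialLinear (Fin 2) F) :=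
      hΩ.trans (Subgroup.relIndex_dvd_card _ _)
    obtain ⟨⟨x, hx⟩, hxo⟩ := exists_prime_orderOf_dvd_card' r hrcard
    have hxo' : orderOf x = r := by
      rw [← hxo]; exact (Subgroup.orderOf_mk x hx).symm
    have hxr : x ^ r = 1 := by rw [← hxo']; exact pow_orderOf_eq_one _
    have hX2 : x ^ 2 ≠ 1 := by
      intro h
      have := orderOf_dvd_of_pow_eq_one h
      rw [hxo'] at this
      have := Nat.le_of_dvd (by norm_num) this
      omega
    have hdx : (x : Matrix (Fin 2) (Fin 2) F).det = 1 := by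
      obtain ⟨x', rfl⟩ := exists_SL_of_mem x hx
      exact x'.2
    have hns : ∀ z : F, (x : Matrix (Fin 2) (Fin 2) F) ≠ z • (1 : Matrix (Fin 2) (Fin 2) F) := by
      intro z hz
      apply hX2
      apply Units.ext
      rw [hz] at hdx
      rw [pow_two, Units.val_mul, hz, Units.val_one]
      simp [Matrix.det_fin_two] at hdx
      rcases hdx with rfl | rfl <;> simp
    obtain ⟨g, hg, hgN⟩ := H x hx ⟨1, by rw [hxr]; simp⟩ hns
    obtain ⟨y, hy⟩ : ∃ y, y = g⁻¹ * x * g := ⟨_, rfl⟩
    rw [← hy] at hgN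
    have hyr : y ^ r = 1 := by
      have : y = g⁻¹ * x * (g⁻¹)⁻¹ := by rw [hy, inv_inv]
      rw [this, conj_pow, hxr]; group
    have hyN := Subgroup.mem_normalizer_iff.mp hgN
    let f : Function.End R := fun ρ => ⟨y * ρ * y⁻¹, (hyN ρ).mp ρ.2⟩
    have hfk : ∀ (k : ℕ) (ρ : R), (((f ^ k) ρ : R) : GL (Fin 2) F) = y ^ k * ρ * (y ^ k)⁻¹ := by
      intro k
      induction k with
      | zero =>
        intro ρ
        rw [pow_zero, pow_zero]
        show (ρ : GL (Fin 2) F) = 1 * ρ * 1⁻¹
        simp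
      | succ k ih =>
        intro ρ
        rw [pow_succ', Function.End.mul_def]
        show y * (((f ^ k) ρ : R) : GL (Fin 2) F) * y⁻¹ = _
        rw [ih, pow_succ']
        group
    have hfr : f ^ r ^ 1 = 1 := by
      funext ρ
      apply Subtype.ext
      rw [pow_one, hfk, hyr]
      show 1 * (ρ : GL (Fin 2) F) * 1⁻¹ = ρ
      simp
    haveI : Fintype R := Fintype.ofFinite _
    have hmod := Equiv.Perm.card_fixedPoints_modEq (f := f) (p := r) (n := 1) hfr
    have hR8 : Nat.card R = 8 := by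
      rw [Nat.card_congr e.toEquiv, Nat.card_eq_fintype_card, QuaternionGroup.card]
    obtain ⟨C, hC⟩ : ∃ C : Subgroup R, C = (Subgroup.centralizer {y}).subgroupOf R := ⟨_, rfl⟩
    have hmemC : ∀ ρ : R, ρ ∈ C ↔ (ρ : GL (Fin 2) F) * y = y * ρ := by
      intro ρ
      rw [hC, Subgroup.mem_subgroupOf, Subgroup.mem_centralizer_singleton_iff]
    have hfix : Fintype.card (Function.fixedPoints f) = Nat.card C := by
      rw [← Nat.card_eq_fintype_card]
      refine Nat.card_congr (Equiv.subtypeEquivRight ?_)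
      intro ρ
      rw [hmemC]
      constructor
      · intro h
        have h' : y * (ρ : GL (Fin 2) F) * y⁻¹ = ρ := congrArg Subtype.val h
        rw [mul_inv_eq_iff_eq_mul] at h'
        exact h'.symm
      · intro h
        apply Subtype.ext
        show y * (ρ : GL (Fin 2) F) * y⁻¹ = ρ
        rw [mul_inv_eq_iff_eq_mul]
        exact h.symm
    rw [hfix, ← Nat.card_eq_fintype_card, hR8] at hmod
    have hCdvd : Nat.card C ∣ 8 := by rw [← hR8]; exact Subgroup.card_subgroup_dvd_card C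
    have hC1 : Nat.card C ≠ 1 := by
      intro h
      rw [Subgroup.card_eq_one] at h
      have hm : (⟨U ^ 2, R.pow_mem hUR 2⟩ : R) ∈ C := by
        rw [hmemC]
        apply Units.ext
        show ((U ^ 2 : GL (Fin 2) F) : Matrix (Fin 2) (Fin 2) F) * y
          = y * ((U ^ 2 : GL (Fin 2) F) : Matrix (Fin 2) (Fin 2) F)
        rw [pow_two, Units.val_mul, hUU]
        simp
      rw [h, Subgroup.mem_bot] at hm
      exact hne (congrArg Subtype.val hm)
    have hC8 : Nat.card C = 8 := by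
      have hle := Nat.le_of_dvd (by norm_num) hCdvd
      have hdvd : r ∣ 8 - Nat.card C := (Nat.modEq_iff_dvd' hle).mp hmod.symm
      generalize Nat.card C = d at *
      interval_cases d
      · simp at hCdvd
      · exact absurd rfl hC1
      · have := Nat.le_of_dvd (by norm_num) hdvd
        interval_cases r
        · omega
        · exact absurd hrp (by norm_num)
      · omega
      · have := Nat.le_of_dvd (by norm_num) hdvd
        omega
      · omega
      · omega
      · omega
      · rfl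
    have hCtop : C = ⊤ := Subgroup.eq_top_of_card_eq C (by rw [hC8, hR8])
    have hyU : U * y = y * U := (hmemC ⟨U, hUR⟩).mp (by rw [hCtop]; trivial)
    have hyV : V * y = y * V := (hmemC ⟨V, hVR⟩).mp (by rw [hCtop]; trivial)
    obtain ⟨y', hy'⟩ := exists_SL_of_mem y (by
      rw [hy]
      exact Subgroup.mul_mem _ (Subgroup.mul_mem _ (Subgroup.inv_mem _ hg) hx) hg)
    have hcoey : (y' : Matrix (Fin 2) (Fin 2) F) = (y : Matrix (Fin 2) (Fin 2) F) := by
      rw [← hy']; rfl
    have hy1 := QP.comm_both h2 hQP y' (by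
        apply Subtype.ext
        show (y' : Matrix (Fin 2) (Fin 2) F) * u = u * y'
        rw [hcoey, hu, ← Units.val_mul, ← Units.val_mul, hyU]) (by
        apply Subtype.ext
        show (y' : Matrix (Fin 2) (Fin 2) F) * v = v * y'
        rw [hcoey, hv, ← Units.val_mul, ← Units.val_mul, hyV])
    have hy2 : y' * y' = 1 := by
      rcases hy1 with h | h <;> rw [h] <;> simp
    apply hX2
    have hyy : y ^ 2 = 1 := by
      rw [← hy', pow_two, ← map_mul, hy2, map_one]
    have hxy : x = g * y * g⁻¹ := by rw [hy]; group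
    rw [hxy, conj_pow, hyy]
    group


end Cfsg.Agent.S5997
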